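import Cfsg.Statements.S5420
import Cfsg.Agent.Lib.Helper92Basic

set_option autoImplicit false
open Cfsg

namespace Cfsg.Agent.S5420

open Cfsg.Agent.Lib.Helper92Basic

/-- Let Q be an extraspecial 2-subgroup of the finite group G whose centralizer in G is its centre Z and which is normal in the centralizer of Z. If Z lies in the largest normal 2-subgroup of G, then Q is a large extraspecial 2-subgroup of G: it normalizes no non-trivial subgroup of G of odd order. -/
theorem result {G : Type*} [Group G] [Finite G] (Q : Subgroup G) (hL1 : Cfsg.IsExtraspecial 2 ↥Q) (hL2 : Subgroup.centralizer (Q : Set G) = ((Subgroup.center ↥Q).map Q.subtype)) (hL3 : Subgroup.centralizer (((Subgroup.center ↥Q).map Q.subtype) : Set G) ≤ Subgroup.normalizer (Q : Set G)) (hZ : ((Subgroup.center ↥Q).map Q.subtype) ≤ Cfsg.pCore 2 G) : Cfsg.IsLargeExtraspecial Q := by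
  refine ⟨hL1, hL2, hL3, fun K hK hQK => ?_⟩
  refine eq_bot_of_le_centralizer_cen Q hL1 hL2 hL3 K hK hQK ?_
  have hinf : K ⊓ Cfsg.pCore 2 G = ⊥ := inf_eq_bot_of_odd_of_isPGroup hK (pCore_isPGroup 2 G)
  have hN : (Cfsg.pCore 2 G).Normal := pCore_normal 2 G
  rw [Subgroup.le_normalizer_iff] at hQK
  intro k hk
  rw [Subgroup.mem_centralizer_iff]
  intro c hc
  have hcQ : c ∈ Q := cen_le Q hc
  have hcO : c ∈ Cfsg.pCore 2 G := hZ hc
  have h1 : k * c * k⁻¹ * c⁻¹ ∈ K ⊓ Cfsg.pCore 2 G := by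
    refine ⟨?_, (Cfsg.pCore 2 G).mul_mem (hN.conj_mem c hcO k) ((Cfsg.pCore 2 G).inv_mem hcO)⟩
    have : k * c * k⁻¹ * c⁻¹ = k * (c * k⁻¹ * c⁻¹) := by group
    rw [this]
    exact K.mul_mem hk (hQK c hcQ _ (K.inv_mem hk))
  rw [hinf, Subgroup.mem_bot] at h1
  have h2 : k * c * k⁻¹ * c⁻¹ * (c * k) = c * k := by rw [h1, one_mul]
  rw [← h2]; group

end Cfsg.Agent.S5420
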