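import Cfsg.Statements.S5421
import Cfsg.Agent.Lib.Helper92Basic

set_option autoImplicit false
open Cfsg

namespace Cfsg.Agent.S5421

open Cfsg.Agent.Lib.Helper92Basic

/-- Let Q be an extraspecial 2-subgroup of the finite group G whose centralizer in G is its centre Z and which is normal in the centralizer of Z. If some involution b of Q outside Z has Z inside the largest normal 2-subgroup of the centralizer of b, then Q is a large extraspecial 2-subgroup of G. -/
theorem result {G : Type*} [Group G] [Finite G] (Q : Subgroup G) (hL1 : Cfsg.IsExtraspecial 2 ↥Q) (hL2 : Subgroup.centralizer (Q : Set G) = ((Subgroup.center ↥Q).map Q.subtype)) (hL3 : Subgroup.centralizer (((Subgroup.center ↥Q).map Q.subtype) : Set G) ≤ Subgroup.normalizer (Q : Set G)) (b : G) (hbQ : b ∈ Q) (hbZ : b ∉ ((Subgroup.center ↥Q).map Q.subtype)) (hb : orderOf b = 2) (hZ : ((Subgroup.center ↥Q).map Q.subtype) ≤ (Cfsg.pCore 2 ↥(Subgroup.centralizer ({b} : Set G))).map (Subgroup.centralizer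 ({b} : Set G)).subtype) : Cfsg.IsLargeExtraspecial Q := by
  refine ⟨hL1, hL2, hL3, fun K hK hQK => ?_⟩
  obtain ⟨z, hzZ, hz1, hzz, hzall⟩ := exists_gen hL1
  have hzQ : z ∈ Q := cen_le Q hzZ
  have hzc : ∀ q ∈ Q, q * z = z * q := (mem_cen_iff.mp hzZ).2
  have hzinv : z⁻¹ = z := inv_eq_of_mul_eq_one_left hzz
  have hbb : b * b = 1 := by rw [← pow_two, ← hb, pow_orderOf_eq_one]
  have hbinv : b⁻¹ = b := inv_eq_of_mul_eq_one_left hbb
  have hQK' := Subgroup.le_normalizer_iff.mp hQK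
  -- Step 1: the centralizer of z in K is trivial
  have step1 : ∀ k ∈ K, z * k * z⁻¹ = k → k = 1 := by
    have hK1 : K ⊓ Subgroup.centralizer ((cen Q : Subgroup G) : Set G) = ⊥ := by
      apply eq_bot_of_le_centralizer_cen Q hL1 hL2 hL3 _ _ _ inf_le_right
      · exact Odd.of_dvd_nat hK (Subgroup.card_dvd_of_le inf_le_left)
      · rw [Subgroup.le_normalizer_iff]
        intro q hq k hk
        refine Subgroup.mem_inf.mpr ⟨hQK' q hq k hk.1, ?_⟩
        rw [Subgroup.mem_centralizer_iff]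
        intro c hc
        have h1 : c * k = k * c := (Subgroup.mem_centralizer_iff.mp hk.2) c hc
        have h2 : q * c = c * q := (mem_cen_iff.mp hc).2 q hq
        have h3 : q⁻¹ * c = c * q⁻¹ := (mem_cen_iff.mp hc).2 _ (Q.inv_mem hq)
        calc c * (q * k * q⁻¹) = (c * q) * k * q⁻¹ := by group
          _ = q * (c * k) * q⁻¹ := by rw [← h2]; group
          _ = q * k * (c * q⁻¹) := by rw [h1]; group
          _ = q * k * q⁻¹ * c := by rw [← h3]; group
    intro k hk hzk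
    have : k ∈ K ⊓ Subgroup.centralizer ((cen Q : Subgroup G) : Set G) := by
      refine Subgroup.mem_inf.mpr ⟨hk, ?_⟩
      rw [Subgroup.mem_centralizer_iff]
      intro c hc
      rcases hzall c hc with rfl | rfl
      · simp
      · calc c * k = (c * k * c⁻¹) * c := by group
          _ = k * c := by rw [hzk]
    rwa [hK1, Subgroup.mem_bot] at this
  -- Step 2: the centralizer of b in K is trivial
  have step2 : ∀ k ∈ K, b * k * b⁻¹ = k → k = 1 := by
    intro k hk hbk
    apply step1 k hk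
    set C := Subgroup.centralizer ({b} : Set G) with hC
    set O := (Cfsg.pCore 2 ↥C).map C.subtype with hO
    have hO2 : IsPGroup 2 O := (pCore_isPGroup 2 ↥C).map _
    have hinf : K ⊓ O = ⊥ := inf_eq_bot_of_odd_of_isPGroup hK hO2
    have hkC : k ∈ C := by
      rw [hC, Subgroup.mem_centralizer_iff]
      intro y hy
      rw [Set.mem_singleton_iff] at hy
      subst hy
      calc y * k = (y * k * y⁻¹) * y := by group
        _ = k * y := by rw [hbk]
    have hzO : z ∈ O := hZ hzZ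
    have hconj : k * z⁻¹ * k⁻¹ ∈ O := by
      obtain ⟨y, hy, hyz⟩ := hzO
      have hN : (Cfsg.pCore 2 ↥C).Normal := pCore_normal 2 ↥C
      refine ⟨(⟨k, hkC⟩ : C) * y⁻¹ * (⟨k, hkC⟩ : C)⁻¹, hN.conj_mem _ ((Cfsg.pCore 2 ↥C).inv_mem hy) _, ?_⟩
      simp [← hyz]
    have h1 : z * k * z⁻¹ * k⁻¹ ∈ K ⊓ O := by
      refine ⟨K.mul_mem (hQK' z hzQ k hk) (K.inv_mem hk), ?_⟩
      have : z * k * z⁻¹ * k⁻¹ = z * (k * z⁻¹ * k⁻¹) := by group
      rw [this]
      exact O.mul_mem hzO hconj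
    rw [hinf, Subgroup.mem_bot] at h1
    exact mul_inv_eq_one.mp h1
  -- Step 3: b is conjugate in Q to b * z
  obtain ⟨x, hxQ, hxb⟩ : ∃ x ∈ Q, x * b * x⁻¹ = b * z := by
    by_contra hcon
    push Not at hcon
    apply hbZ
    rw [mem_cen_iff]
    refine ⟨hbQ, fun q hq => ?_⟩
    have h1 := comm_mem_cen hL1 hq hbQ
    rcases hzall _ h1 with h | h
    · calc q * b = (q * b * q⁻¹ * b⁻¹) * (b * q) := by group
        _ = b * q := by rw [h, one_mul]
    · exfalso
      apply hcon q hq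
      calc q * b * q⁻¹ = (q * b * q⁻¹ * b⁻¹) * b := by group
        _ = z * b := by rw [h]
        _ = b * z := (hzc b hbQ).symm
  have hbz : (b * z) * (b * z) = 1 := by
    calc (b * z) * (b * z) = b * (z * b) * z := by group
      _ = b * (b * z) * z := by rw [hzc b hbQ]
      _ = (b * b) * (z * z) := by group
      _ = 1 := by rw [hbb, hzz, one_mul]
  have step3 : ∀ k ∈ K, (b * z) * k * (b * z)⁻¹ = k → k = 1 := by
    intro k hk hbk
    have h1 : x⁻¹ * k * x⁻¹⁻¹ ∈ K := hQK' _ (Q.inv_mem hxQ) k hk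
    have h2 : b * (x⁻¹ * k * x⁻¹⁻¹) * b⁻¹ = x⁻¹ * k * x⁻¹⁻¹ := by
      calc b * (x⁻¹ * k * x⁻¹⁻¹) * b⁻¹ = x⁻¹ * ((x * b * x⁻¹) * k * (x * b * x⁻¹)⁻¹) * x := by group
        _ = x⁻¹ * k * x⁻¹⁻¹ := by rw [hxb, hbk]; group
    have h3 := step2 _ h1 h2
    have : k = x * (x⁻¹ * k * x⁻¹⁻¹) * x⁻¹ := by group
    rw [this, h3]; group
  have inv1 := inverts_of_fixedPointFree K z hzz (hQK' z hzQ) step1
  have inv2 := inverts_of_fixedPointFree K b hbb (hQK' b hbQ) step2
  rw [eq_bot_iff]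
  intro k hk
  rw [Subgroup.mem_bot]
  apply step3 k hk
  calc (b * z) * k * (b * z)⁻¹ = b * (z * k * z⁻¹) * b⁻¹ := by group
    _ = b * k⁻¹ * b⁻¹ := by rw [inv1 k hk]
    _ = k⁻¹⁻¹ := inv2 _ (K.inv_mem hk)
    _ = k := inv_inv k

end Cfsg.Agent.S5421
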