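import Cfsg.Statements.S5422
import Cfsg.Agent.Lib.Helper92ES
import Cfsg.Agent.S5421

set_option autoImplicit false
open Cfsg

namespace Cfsg.Agent.S5422

open Cfsg.Agent.Lib.Helper92Basic Cfsg.Agent.Lib.Helper92ES

/-- Let Q be an extraspecial 2-subgroup of the finite group G whose centralizer in G is its centre Z and which is normal in the centralizer of Z; suppose Q has width at least 2 (order 2^(2w+1) with w ≥ 2) and g is an element of G not normalizing Z with g Z g⁻¹ inside Q. Then Z lies inside g Q g⁻¹; writing V for the subgroup generated by Z and g Z g⁻¹ (a four-group), the normalizer of V induces on V its full automorphism group, that is, the centralizer of V has index 6 in the normalizer of V; and Q is a large extraspecial 2-subgroup of G. -/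
theorem result {G : Type*} [Group G] [Finite G] (Q : Subgroup G) (hL1 : Cfsg.IsExtraspecial 2 ↥Q) (hL2 : Subgroup.centralizer (Q : Set G) = ((Subgroup.center ↥Q).map Q.subtype)) (hL3 : Subgroup.centralizer (((Subgroup.center ↥Q).map Q.subtype) : Set G) ≤ Subgroup.normalizer (Q : Set G)) (w : ℕ) (hw : 2 ≤ w) (hcard : Nat.card ↥Q = 2 ^ (2 * w + 1)) (g : G) (hg : g ∉ Subgroup.normalizer (((Subgroup.center ↥Q).map Q.subtype) : Set G)) (hZg : (((Subgroup.center ↥Q).map Q.subtype)).map (MulAut.conj g).toMonoidHom ≤ Q) : ((Subgroup.center ↥Q).map Q.subtype) ≤ (Q).map (MulAut.conj g).toMonoidHom ∧ (Subgroup.centralizer ((((Subgroup.center ↥Q).map Q.subtype) ⊔ (((Subgroup.center ↥Q).map Q.subtype)).map (MulAut.conj g).toMonoidHom : Subgroup G) : Set G)).relIndex (Subgroup.normalizer ((((Subgroup.center ↥Q).map Q.subtype) ⊔ (((Subgroup.center ↥Q).map Q.subtype)).map (MulAut.conj g).toMonoidHom : Subgroup G) : Set G)) = 6 ∧ Cfsg.IsLargeExtraspecial Q := by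
  obtain ⟨z, hES, hcen⟩ := exists_ES hL1 hL2 hL3
  have hzcen : z ∈ cen Q := (hcen z).mpr (Or.inr rfl)
  have hb := hES.conj g
  have hbQ : g * z * g⁻¹ ∈ Q := hZg (conj_mem_map_conj g hzcen)
  have hbz : g * z * g⁻¹ ≠ z := by
    intro h
    apply hg
    apply Subgroup.mem_normalizer_fintype
    intro c hc
    rcases (hcen c).mp hc with rfl | rfl
    · simp
    · rw [h]; exact hc
  have hcard8 : 8 < Nat.card Q := by
    rw [hcard]
    calc 8 < 2 ^ 5 := by norm_num
      _ ≤ 2 ^ (2 * w + 1) := Nat.pow_le_pow_right (by norm_num) (by omega)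
  have hzQb := z_mem_conj hES g hbQ hbz hcard8
  set b := g * z * g⁻¹ with hbdef
  set Qb := Q.map (MulAut.conj g).toMonoidHom with hQb
  have hzb : z * b = b * z := (hES.zc b hbQ).symm
  refine ⟨?_, ?_, ?_⟩
  · intro c hc
    rcases (hcen c).mp hc with rfl | rfl
    · exact Subgroup.one_mem _
    · exact hzQb
  · obtain ⟨q, hq, hqb⟩ := hES.exists_conj hbQ hb.z1 hbz
    obtain ⟨u, hu, huz⟩ := hb.exists_conj hzQb hES.z1 hbz.symm
    have hcenb : ∀ c, c ∈ (cen Q).map (MulAut.conj g).toMonoidHom ↔ c = 1 ∨ c = b := by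
      intro c
      rw [mem_map_conj_iff, hcen]
      constructor
      · rintro (h | h)
        · left
          have : c = g * (g⁻¹ * c * g) * g⁻¹ := by group
          rw [this, h]; group
        · right
          have : c = g * (g⁻¹ * c * g) * g⁻¹ := by group
          rw [this, h]
      · rintro (rfl | rfl)
        · left; group
        · right; rw [hbdef]; group
    refine relIndex_four_group _ z b q u
      (mem_sup_pair _ _ z b hcen hcenb hES.zz hb.zz hzb) hES.z1 hb.z1 hbz hES.zz hb.zz hzb
      ?_ hqb ?_ ?_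
    · rw [hES.zc q hq]; group
    · rw [huz, hzb]
    · rw [hb.zc u hu]; group
  · have hbZ : b ∉ (Subgroup.center ↥Q).map Q.subtype := by
      intro h
      rcases (hcen b).mp h with h | h
      · exact hb.z1 h
      · exact hbz h
    have hb2 : orderOf b = 2 := by
      apply orderOf_eq_prime
      · rw [pow_two]; exact hb.zz
      · exact hb.z1
    refine Cfsg.Agent.S5421.result Q hL1 hL2 hL3 b hbQ hbZ hb2 ?_
    set C := Subgroup.centralizer ({b} : Set G) with hC
    have hQbn : (Qb.subgroupOf C).Normal := by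
      refine ⟨fun n hn c => ?_⟩
      rw [Subgroup.mem_subgroupOf] at hn ⊢
      exact hb.norm c (Subgroup.mem_centralizer_singleton_iff.mp c.2) n hn
    have hQb2 : IsPGroup 2 (Qb.subgroupOf C) := by
      have h1 : IsPGroup 2 Q := hL1.1.1
      have h2 : IsPGroup 2 Qb := h1.map _
      exact h2.comap_subtype
    have hle := le_pCore hQbn hQb2
    intro c hc
    rcases (hcen c).mp hc with rfl | rfl
    · exact Subgroup.one_mem _
    · have hcC : c ∈ C := Subgroup.mem_centralizer_singleton_iff.mpr hzb
      exact ⟨⟨c, hcC⟩, hle (Subgroup.mem_subgroupOf.mpr hzQb), rfl⟩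

end Cfsg.Agent.S5422
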