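import Cfsg.Statements.S1554
import Cfsg.Agent.Lib.Helper34Oct

set_option autoImplicit false
open scoped Pointwise
open Cfsg

namespace Cfsg.Agent.S1554

open Cfsg.Agent.Lib.Helper34Oct Cfsg.Agent.Lib.Helper34M24

/-- An octad stabiliser is a split extension: the joint stabiliser of the octad and a point outside it is a complement to the pointwise stabiliser of the octad, and is isomorphic to the alternating group of degree 8. -/
theorem result (o : Finset Cfsg.GolayPt) (ho : o ∈ Cfsg.octads) (p : Cfsg.GolayPt) (hp : p ∉ o) : (Cfsg.M24 ⊓ fixingSubgroup (Equiv.Perm Cfsg.GolayPt) (o : Set Cfsg.GolayPt)) ⊓ (Cfsg.M24 ⊓ MulAction.stabilizer (Equiv.Perm Cfsg.GolayPt) o ⊓ MulAction.stabilizer (Equiv.Perm Cfsg.GolayPt) p) = ⊥ ∧ (Cfsg.M24 ⊓ fixingSubgroup (Equiv.Perm Cfsg.GolayPt) (o : Set Cfsg.GolayPt)) ⊔ (Cfsg.M24 ⊓ MulAction.stabilizer (Equiv.Perm Cfsg.GolayPt) o ⊓ MulAction.stabilizer (Equiv.Perm Cfsg.GolayPt) p) = (Cfsg.M24 ⊓ MulAction.stabilizer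 (Equiv.Perm Cfsg.GolayPt) o) ∧ Nonempty (↥(Cfsg.M24 ⊓ MulAction.stabilizer (Equiv.Perm Cfsg.GolayPt) o ⊓ MulAction.stabilizer (Equiv.Perm Cfsg.GolayPt) p) ≃* alternatingGroup (Fin 8)) := by
  have hbot : PW o ⊓ (SW o ⊓ MulAction.stabilizer (Equiv.Perm GolayPt) p) = ⊥ := by
    rw [eq_bot_iff, ← PW_inf_stab ho hp]
    exact inf_le_inf_left _ inf_le_right
  -- decomposition of elements
  have hdec : ∀ h ∈ SW o, ∃ a ∈ PW o, a⁻¹ * h ∈ SW o ⊓ MulAction.stabilizer (Equiv.Perm GolayPt) p := by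
    intro h hh
    have hhp : h p ∉ o := by rw [SW_mem_iff hh]; exact hp
    obtain ⟨a, ha, hap⟩ := PW_trans ho hp hhp
    refine ⟨a, ha, (SW o).mul_mem ((SW o).inv_mem (PW_le_SW o ha)) hh, ?_⟩
    change (a⁻¹ * h) p = p
    rw [Equiv.Perm.mul_apply, ← hap]
    simp
  refine ⟨hbot, ?_, ?_⟩
  · apply le_antisymm
    · exact sup_le (PW_le_SW o) inf_le_left
    · intro h hh
      obtain ⟨a, ha, hb⟩ := hdec h hh
      have : h = a * (a⁻¹ * h) := by group
      rw [this]
      exact Subgroup.mul_mem_sup ha hb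
  · set B := SW o ⊓ MulAction.stabilizer (Equiv.Perm GolayPt) p with hB
    let φ : ↥B →* Equiv.Perm {x // x ∈ o} := (res o).comp (Subgroup.inclusion inf_le_left)
    have hinj : Function.Injective φ := by
      rw [injective_iff_map_eq_one]
      rintro ⟨g, hg⟩ h1
      have h2 : (Subgroup.inclusion (inf_le_left : B ≤ SW o) ⟨g, hg⟩) ∈ (res o).ker := h1
      rw [res_ker, Subgroup.mem_subgroupOf] at h2
      have h3 : g ∈ PW o ⊓ B := ⟨h2, hg⟩
      rw [hbot, Subgroup.mem_bot] at h3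
      exact Subtype.ext h3
    have hrange : φ.range = alternatingGroup {x // x ∈ o} := by
      rw [← range_res ho]
      apply le_antisymm
      · rintro _ ⟨g, rfl⟩
        exact ⟨_, rfl⟩
      · rintro _ ⟨⟨h, hh⟩, rfl⟩
        obtain ⟨a, ha, hb⟩ := hdec h hh
        refine ⟨⟨a⁻¹ * h, hb⟩, ?_⟩
        have hker : (⟨a, PW_le_SW o ha⟩ : ↥(SW o)) ∈ (res o).ker := by
          rw [res_ker, Subgroup.mem_subgroupOf]; exact ha
        have e : (⟨h, hh⟩ : ↥(SW o)) = ⟨a, PW_le_SW o ha⟩ *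
            (Subgroup.inclusion (inf_le_left : B ≤ SW o) ⟨a⁻¹ * h, hb⟩) := by
          apply Subtype.ext
          change h = a * (a⁻¹ * h)
          group
        rw [e, map_mul, MonoidHom.mem_ker.1 hker, one_mul]
        rfl
    have hcard : Fintype.card {x // x ∈ o} = 8 := by rw [Fintype.card_coe]; exact ho.2
    exact ⟨((MonoidHom.ofInjective hinj).trans (MulEquiv.subgroupCongr hrange)).trans
      (Equiv.altCongrHom (Fintype.equivFinOfCardEq hcard))⟩

end Cfsg.Agent.S1554
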