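import Cfsg.Statements.S5394
import Cfsg.Agent.Lib.Helper94M24D

set_option autoImplicit false
open Cfsg

namespace Cfsg.Agent.S5394

open scoped Pointwise
open Cfsg Cfsg.Agent.Lib.Helper33Golay Cfsg.Agent.Lib.Helper94M24A Cfsg.Agent.Lib.Helper94M24B
  Cfsg.Agent.Lib.Helper94M24C Cfsg.Agent.Lib.Helper94M24D

theorem fixed_eq_dec {P m : ℕ} (hv : validPerm P = true)
    (h : r24.all (fun i => (Nat.beq (img P i) i) == m.testBit i) = true) :
    (Finset.univ.filter fun p => toPerm P p = p) = dec m := by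
  ext p
  have := List.all_eq_true.1 h (idx p) (mem_r24.2 (idx_lt p))
  simp only [beq_iff_eq] at this
  simp only [Finset.mem_filter, Finset.mem_univ, true_and, mem_dec, ← this]
  constructor
  · intro e
    rw [← idx_toPerm hv, e]; exact Nat.beq_refl _
  · intro e
    rw [toPerm_apply hv, Nat.eq_of_beq_eq_true e, pt_idx]

theorem fixed_conj (g k : Equiv.Perm GolayPt) :
    (Finset.univ.filter fun p => g p = p) = k⁻¹ • (Finset.univ.filter fun p => (k * g * k⁻¹) p = p) := by
  ext p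
  rw [Finset.mem_inv_smul_finset_iff]
  rw [Finset.mem_filter, Finset.mem_filter]
  simp

theorem pow2_of_order {g : Equiv.Perm GolayPt} (h : orderOf g = 2) : g ^ 2 = 1 ∧ g ≠ 1 := by
  refine ⟨h ▸ pow_orderOf_eq_one g, fun e => ?_⟩
  rw [e, orderOf_one] at h; omega

theorem order_rep {P : ℕ} (hP : validPerm P = true) (h2 : isPow2 P = true) (hne : cntFix P ≠ 24) :
    orderOf (toPerm P) = 2 := by
  apply orderOf_eq_prime ((isPow2_iff hP).1 h2)
  intro e
  apply hne
  rw [← card_fixed hP, e]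
  simp [Fintype.card_option, ZMod.card]

theorem conj_of_same {x y r k l : Equiv.Perm GolayPt} (hk : k * x * k⁻¹ = r) (hl : l * y * l⁻¹ = r) :
    (l⁻¹ * k) * x * (l⁻¹ * k)⁻¹ = y := by
  have : y = l⁻¹ * r * l := by rw [← hl]; group
  rw [this, ← hk]; group

theorem fix_t2A : (Finset.univ.filter fun p => toPerm t2A p = p) = dec 8536111 :=
  fixed_eq_dec (inM24_valid t2A_in) (by decide +kernel)



/-- The automorphism group of the length-24 code built from the squares modulo 23 has exactly two conjugacy classes of involutions: an involution either fixes exactly the eight points of an octad or has no fixed points, both kinds occur, and any two involutions of the same kind are conjugate in the group. -/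
theorem result : (∀ g ∈ Cfsg.M24, orderOf g = 2 → (Finset.univ.filter fun p => g p = p) ∈ Cfsg.octads ∨ ∀ p, g p ≠ p) ∧ (∃ g ∈ Cfsg.M24, orderOf g = 2 ∧ (Finset.univ.filter fun p => g p = p) ∈ Cfsg.octads) ∧ (∃ g ∈ Cfsg.M24, orderOf g = 2 ∧ ∀ p, g p ≠ p) ∧ ∀ g ∈ Cfsg.M24, ∀ h ∈ Cfsg.M24, orderOf g = 2 → orderOf h = 2 → ((∀ p, g p ≠ p) ↔ (∀ p, h p ≠ p)) → ∃ k ∈ Cfsg.M24, k * g * k⁻¹ = h := by
  refine ⟨?_, ?_, ?_, ?_⟩
  · intro g hg ho
    obtain ⟨h2, hne⟩ := pow2_of_order ho
    by_cases hf : ∃ p, g p = p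
    · left
      obtain ⟨k, hk, e⟩ := class2F hg h2 hne hf
      rw [fixed_conj g k, e, fix_t2A]
      exact smul_mem_octads (M24.inv_mem hk) (dec_mem_octads (by decide +kernel))
    · right
      push Not at hf
      exact hf
  · refine ⟨toPerm t2A, toPerm_mem_M24 t2A_in,
      order_rep (inM24_valid t2A_in) (by decide +kernel) (by rw [cnt_t2A]; norm_num), ?_⟩
    rw [fix_t2A]
    exact dec_mem_octads (by decide +kernel)
  · exact ⟨toPerm t2B, toPerm_mem_M24 t2B_in,
      order_rep (inM24_valid t2B_in) (by decide +kernel) (by rw [cnt_t2B]; norm_num),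
      (cntFix_eq_zero_iff (inM24_valid t2B_in)).1 cnt_t2B⟩
  · intro g hg h hh og oh hiff
    obtain ⟨g2, gne⟩ := pow2_of_order og
    obtain ⟨h2, hne⟩ := pow2_of_order oh
    by_cases hf : ∀ p, g p ≠ p
    · obtain ⟨k, hk, e⟩ := class2B hg g2 hf
      obtain ⟨l, hl, e'⟩ := class2B hh h2 (hiff.1 hf)
      exact ⟨l⁻¹ * k, M24.mul_mem (M24.inv_mem hl) hk, conj_of_same e e'⟩
    · have hf' : ¬ ∀ p, h p ≠ p := fun x => hf (hiff.2 x)
      push Not at hf hf'
      obtain ⟨k, hk, e⟩ := class2F hg g2 gne hf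
      obtain ⟨l, hl, e'⟩ := class2F hh h2 hne hf'
      exact ⟨l⁻¹ * k, M24.mul_mem (M24.inv_mem hl) hk, conj_of_same e e'⟩

end Cfsg.Agent.S5394
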