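import Cfsg.Statements.S0922
import Cfsg.Agent.Lib.Helper81Second2

set_option autoImplicit false
open Cfsg

namespace Cfsg.Agent.S0922

open Cfsg.Agent.Lib.Helper81Local Cfsg.Agent.Lib.Helper81Base Cfsg.Agent.Lib.Helper81Block
  Cfsg.Agent.Lib.Helper81Orth Cfsg.Agent.Lib.Helper81Second2
/-- Let H be a subgroup of the finite group G and let the block b of H induce the block B of G (relative to a maximal ideal M of the algebraic integers containing the prime p). Let h ∈ H be such that the centralizer in G of the p-part of h lies in H, and let χ be an irreducible character of G not in B. Then the sum over k ∈ H of (the idempotent coefficient of b at k) times χ (k * h) vanishes; that is, χ annihilates f_b h where f_b is the sum of the central idempotents of the members of b. -/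
theorem result {G : Type*} [Group G] [Finite G] (p : ℕ) [Fact p.Prime] (M : Ideal Cfsg.AlgInt) (hM : Cfsg.IsPModular p M) (H : Subgroup G) (b : Set (Cfsg.IrrCharacter H)) (B : Set (Cfsg.IrrCharacter G)) (hind : Cfsg.IsInducedBlock M H b B) (h : H) (hC : ∀ z : G, Cfsg.IsPPart p (h : G) z → Subgroup.centralizer ({z} : Set G) ≤ H) (χ : Cfsg.IrrCharacter G) (hχ : χ ∉ B) : ∑ᶠ k : H, Cfsg.blockCoeff b k * (χ : G → ℂ) ((k : G) * (h : G)) = 0 := by
  classical
  have hMp := hM.2.1.isPrime
  let _ : Fintype G := Fintype.ofFinite G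
  let _ : Fintype H := Fintype.ofFinite H
  rw [finsum_eq_sum_of_fintype]
  obtain ⟨z, hz⟩ := exists_ppart hM.1 (h : G)
  have hC' : Subgroup.centralizer ({z⁻¹} : Set G) ≤ H := by
    intro t ht
    apply hC z hz
    rw [Subgroup.mem_centralizer_singleton_iff] at ht ⊢
    have : Commute t z⁻¹ := ht
    exact (Commute.inv_right_iff.mp this).eq
  have hdisj : ∀ χ₀ ∈ B, χ₀ ∉ blockOf M (χ : G → ℂ) := by
    intro χ₀ h0 h1
    exact hχ (isPBlock_mem_of_sameBlock hind.2.1 h0 (sameBlock_symm h1))
  have key := second_main_core hM H hind (isPBlock_blockOf χ) hdisj (h : G)⁻¹ z⁻¹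
    (H.inv_mem h.2) (isPPart_inv hz) hC' χ (self_mem_blockOf χ)
  rw [← key]
  apply Finset.sum_congr rfl
  intro k _
  rw [inv_inv, irr_mul_comm]

end Cfsg.Agent.S0922
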