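import Cfsg.Statements.S4689
import Cfsg.Agent.Lib.H25SCNFIN
import Cfsg.Agent.Lib.Helper80StarMain

set_option autoImplicit false
open Cfsg

namespace Cfsg.Agent.S4689

/-- Fix a prime p and a maximal ideal M of the algebraic integers containing p, and a nilpotent p-block B of the finite group G. Then B has p-regular rank one (a single irreducible Brauer character), and some χ₀ ∈ B restricts to that Brauer character: every χ ∈ B agrees on the p-regular elements with a natural-number multiple of χ₀. -/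
theorem result {G : Type*} [Group G] [Fintype G] (p : ℕ) [Fact p.Prime] (M : Ideal Cfsg.AlgInt) (hM : Cfsg.IsPModular p M) (B : Set (Cfsg.IrrCharacter G)) (hnil : Cfsg.IsNilpotentBlock p M B) : Cfsg.blockRank p B = 1 ∧ ∃ χ₀ ∈ B, ∀ χ ∈ B, ∃ d : ℕ, ∀ x : G, Cfsg.pRegularPart p (χ : G → ℂ) x = (d : ℂ) * Cfsg.pRegularPart p (χ₀ : G → ℂ) x := by
  classical
  obtain ⟨P, hP⟩ := Cfsg.Agent.Lib.Helper20Induced.exists_defectGroup hM hnil.1
  obtain ⟨e, hmax⟩ := Cfsg.Agent.Lib.Helper80Corr.exists_maximal_of_defectGroup hM hnil.1 hP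
  haveI := hM.2.1.isPrime
  have hgen := Cfsg.Agent.Lib.Helper80StarMain.starGenP hM hmax
  obtain ⟨χ₀, hχ₀, Ψ, hΨ⟩ := Cfsg.Agent.Lib.H25SCNFIN.nil_final hM hmax hgen hnil
  have key : ∀ χ ∈ B, ∃ d : ℕ, ∀ x : G, Cfsg.pRegularPart p (χ : G → ℂ) x
      = (d : ℂ) * Cfsg.pRegularPart p (χ₀ : G → ℂ) x := by
    intro χ hχ
    refine ⟨Cfsg.charDegree ((Ψ.symm ⟨χ, hχ⟩ : Cfsg.IrrCharacter P) : P → ℂ), fun x => ?_⟩
    have h1 := (hΨ (Ψ.symm ⟨χ, hχ⟩)).1 x
    rw [Equiv.apply_symm_apply] at h1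
    rw [Cfsg.Agent.Lib.Helper81Rank.pRegularPart_apply, Cfsg.Agent.Lib.Helper81Rank.pRegularPart_apply]
    by_cases hx : p ∣ orderOf x
    · rw [if_neg (not_not.2 hx), if_neg (not_not.2 hx), mul_zero]
    · rw [if_pos hx, if_pos hx]
      exact h1 hx
  refine ⟨?_, χ₀, hχ₀, key⟩
  have hv : Cfsg.pRegularPart p (χ₀ : G → ℂ) ≠ 0 := by
    intro h
    have h1 := congrFun h 1
    rw [Cfsg.Agent.Lib.Helper81Rank.pRegularPart_apply, if_pos (by
      rw [orderOf_one]; exact (Fact.out : p.Prime).one_lt.ne' ∘ Nat.dvd_one.1)] at h1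
    exact Cfsg.Agent.Lib.Helper81Base.irr_one_ne_zero χ₀ h1
  have hspan : Submodule.span ℂ ((fun χ : Cfsg.IrrCharacter G =>
      Cfsg.pRegularPart p (χ : G → ℂ)) '' B) = Submodule.span ℂ {Cfsg.pRegularPart p (χ₀ : G → ℂ)} := by
    apply le_antisymm
    · rw [Submodule.span_le]
      rintro _ ⟨χ, hχ, rfl⟩
      obtain ⟨d, hd⟩ := key χ hχ
      rw [SetLike.mem_coe, Submodule.mem_span_singleton]
      refine ⟨(d : ℂ), ?_⟩
      funext x
      rw [Pi.smul_apply, smul_eq_mul]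
      exact (hd x).symm
    · rw [Submodule.span_le, Set.singleton_subset_iff]
      exact Submodule.subset_span ⟨χ₀, hχ₀, rfl⟩
  unfold Cfsg.blockRank
  rw [hspan]
  exact finrank_span_singleton hv

end Cfsg.Agent.S4689
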