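import Cfsg.Statements.S2540
import Mathlib

set_option autoImplicit false
open Cfsg

namespace Cfsg.Agent.S2540

open Matrix Matrix.SpecialLinearGroup
open scoped commutatorElement


section aux
variable {F : Type*} [Field F] {ι : Type*} [DecidableEq ι] [Fintype ι]

theorem transv_smul_apply {i j : ι} (hij : i ≠ j) (c : F) (w : ι → F) (k : ι) :
    ((SpecialLinearGroup.transvection hij c) • w) k = if k = i then w i + c * w j else w k := by
  simp only [Matrix.SpecialLinearGroup.smul_def, transvection_coe, add_smul, one_smul, Pi.add_apply]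
  split_ifs with h
  · subst h
    simp [Matrix.single_mulVec_eq]
  · simp [Matrix.single_mulVec_eq, h]

theorem diag2n_smul_apply {i j : ι} (hij : i ≠ j) (a : F) (ha : a ≠ 0) (w : ι → F) (k : ι) :
    ((diag2n hij a ha) • w) k = if k = i then a * w i else if k = j then a⁻¹ * w j else w k := by
  simp only [Matrix.SpecialLinearGroup.smul_def, diag2n_coe]
  change (diagonal _ *ᵥ w) k = _
  rw [Matrix.mulVec_diagonal]
  split_ifs with h1 h2 <;> simp_all

theorem SL_ext_smul (A B : SpecialLinearGroup ι F) (h : ∀ w : ι → F, A • w = B • w) : A = B :=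
  Subtype.ext <| Matrix.ext_iff_smul.2 h

theorem diag2n_decompose {i j : ι} (hij : i ≠ j) (a : F) (ha : a ≠ 0) :
    diag2n hij a ha = SpecialLinearGroup.transvection hij a *
      SpecialLinearGroup.transvection hij.symm (- a⁻¹) *
      SpecialLinearGroup.transvection hij a *
      SpecialLinearGroup.transvection hij (-1) *
      SpecialLinearGroup.transvection hij.symm 1 *
      SpecialLinearGroup.transvection hij (-1) := by
  apply SL_ext_smul
  intro w
  funext k
  simp only [mul_smul, transv_smul_apply, diag2n_smul_apply]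
  by_cases h1 : k = i
  · subst h1
    simp [hij, hij.symm]
    field_simp
    ring
  · by_cases h2 : k = j
    · subst h2
      simp [hij, hij.symm]
      field_simp
      ring
    · simp [h1, h2]

theorem transvection_induction [Nontrivial ι] (P : SpecialLinearGroup ι F → Prop)
    (htransvec : ∀ (i j : ι) (h : i ≠ j) c, P (SpecialLinearGroup.transvection h c))
    (hmul : ∀ A B, P A → P B → P (A * B)) (A : SpecialLinearGroup ι F) : P A := by
  refine diagonal_transvection_induction' P _ (fun i j hij c hc ↦ ?_) htransvec hmul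
  rw [diag2n_decompose hij c hc]
  refine hmul _ _ (hmul _ _ (hmul _ _ (hmul _ _ (hmul _ _ ?_ ?_) ?_) ?_) ?_) ?_
  all_goals exact htransvec _ _ _ _

theorem transvection_eq_commutator {i j k : ι} (hij : i ≠ j) (hik : i ≠ k) (hkj : k ≠ j) (c : F) :
    SpecialLinearGroup.transvection hij c =
      ⁅SpecialLinearGroup.transvection hik c, SpecialLinearGroup.transvection hkj 1⁆ := by
  rw [commutatorElement_def, transvection_inv, transvection_inv]
  apply SL_ext_smul
  intro w
  funext l
  simp only [mul_smul, transv_smul_apply]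
  by_cases h1 : l = i
  · subst h1
    simp [hij, hik, hkj, hij.symm, hik.symm, hkj.symm]
    ring
  · by_cases h2 : l = k
    · subst h2
      simp [hij, hik, hkj, hij.symm, hik.symm, hkj.symm]
    · simp [h1, h2]

theorem commutator_eq_top_of_three (h3 : 3 ≤ Fintype.card ι) :
    commutator (SpecialLinearGroup ι F) = ⊤ := by
  have : Nontrivial ι := Fintype.one_lt_card_iff_nontrivial.mp (by omega)
  refine le_antisymm le_top (fun A _ ↦ transvection_induction _ ?_ (fun _ _ ↦ mul_mem) A)
  intro i j hij c
  obtain ⟨k, hk⟩ : ∃ k, k ∉ ({i, j} : Finset ι) := by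
    by_contra hcon
    push Not at hcon
    have h1 : (Finset.univ : Finset ι) ⊆ {i, j} := fun x _ => hcon x
    have h2 := Finset.card_le_card h1
    have h3' : ({i, j} : Finset ι).card ≤ 2 := Finset.card_le_two
    rw [Finset.card_univ] at h2
    omega
  simp only [Finset.mem_insert, Finset.mem_singleton, not_or] at hk
  rw [transvection_eq_commutator hij (Ne.symm hk.1) hk.2 c]
  exact Subgroup.commutator_mem_commutator (Subgroup.mem_top _) (Subgroup.mem_top _)

open scoped LinearAlgebra.Projectivization

theorem iSup_lineStab_eq_top [Nontrivial ι] :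
    (⨆ p : ℙ F (ι → F), lineStab p.submodule) = (⊤ : Subgroup (SpecialLinearGroup ι F)) := by
  refine le_antisymm le_top (fun A _ ↦ transvection_induction _ ?_ (fun _ _ ↦ mul_mem) A)
  intro i j hij c
  have h1 := SL2Gen.transvection_mem_lineStab hij c
  rw [← Projectivization.submodule_mk (K := F) _ (Pi.single_ne_zero_iff.2 one_ne_zero)] at h1
  exact Subgroup.mem_iSup_of_mem _ h1

noncomputable def iwasawa [Nontrivial ι] : MulAction.IwasawaStructure (SpecialLinearGroup ι F) (ℙ F (ι → F)) where
  T := fun p => lineStab p.submodule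
  is_comm p := by
    rw [← Projectivization.mk_rep p, Projectivization.submodule_mk]
    exact lineStab_isMulCommutative_of_span p.rep p.rep_nonzero
  is_conj g p := by
    rw [PSL.smul_submodule, Matrix.SpecialLinearGroup.lineStab_smul]
  is_generator := iSup_lineStab_eq_top

theorem commutator_eq_top_of_card {n : ℕ} [Fintype F] (hn : 2 ≤ n) (hex : ¬ (n = 2 ∧ Fintype.card F ≤ 3)) :
    commutator (SpecialLinearGroup (Fin n) F) = ⊤ := by
  classical
  by_cases h3 : 3 ≤ n
  · exact commutator_eq_top_of_three (by simpa using h3)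
  · obtain rfl : n = 2 := by omega
    have h4 : 4 ≤ Fintype.card F := by
      by_contra hcon
      exact hex ⟨rfl, by omega⟩
    obtain ⟨x, hx⟩ : IsCyclic Fˣ := by infer_instance
    have hord : orderOf x = Fintype.card F - 1 := by
      rw [orderOf_eq_card_of_forall_mem_zpowers hx, Nat.card_eq_fintype_card, Fintype.card_units]
    refine SL2.commutator_eq_top (a := (x : F)) (Units.ne_zero x) (fun h ↦ ?_)
    have h5 : x ^ 2 = 1 := Units.ext (by simpa using h)
    have h6 := orderOf_le_of_pow_eq_one zero_lt_two h5
    omega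

/-- if `g t g⁻¹ = r t` for a transvection `t` then `r = 1`. -/
theorem scalar_eq_one {i j : ι} (hij : i ≠ j) (c r : F) (A B : Matrix ι ι F) (hAB : A * B = 1) (hBA : B * A = 1)
    (h : A * (Matrix.transvection i j c) * B = r • (Matrix.transvection i j c)) : r = 1 := by
  set T := Matrix.transvection i j c with hT
  have h1 : (T - 1) * (T - 1) = 0 := by
    simp [hT, Matrix.transvection, single_mul_single_of_ne _ _ _ _ hij.symm]
  have h2 : (A * T * B - 1) * (A * T * B - 1) = 0 := by
    have : A * T * B - 1 = A * (T - 1) * B := by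
      rw [mul_sub, sub_mul, mul_one, hAB]
    rw [this]
    calc A * (T - 1) * B * (A * (T - 1) * B) = A * (T - 1) * (B * A) * (T - 1) * B := by
          simp only [mul_assoc]
      _ = A * ((T - 1) * (T - 1)) * B := by rw [hBA]; simp only [mul_assoc, mul_one]
      _ = 0 := by rw [h1]; simp
  rw [h] at h2
  have h3 := congrFun (congrFun h2 i) i
  rw [Matrix.mul_apply, Finset.sum_eq_single i] at h3
  · simp [hT, Matrix.transvection, Matrix.single_apply, hij.symm] at h3
    exact sub_eq_zero.mp h3
  · intro k _ hk
    simp [hT, Matrix.transvection, hij, hk, hk.symm, Matrix.single_apply, Matrix.one_apply]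
  · simp

end aux

/-- Let F be a finite field and n ≥ 1, excluding the case n = 2 with #F ≤ 3. A subgroup of GL_n(F) that is normalized by every element of SL_n(F) either consists of scalar matrices or contains SL_n(F). -/
theorem result {F : Type*} [Field F] [Fintype F] (n : ℕ) (hn : 1 ≤ n) (hex : ¬ (n = 2 ∧ Fintype.card F ≤ 3)) (G : Subgroup (Matrix.GeneralLinearGroup (Fin n) F)) (hG : ∀ s : Matrix.SpecialLinearGroup (Fin n) F, ∀ g ∈ G, (Matrix.SpecialLinearGroup.toGL s) * g * (Matrix.SpecialLinearGroup.toGL s)⁻¹ ∈ G) : (∀ g ∈ G, ∃ c : F, (g : Matrix (Fin n) (Fin n) F) = c • (1 : Matrix (Fin n) (Fin n) F)) ∨ (Matrix.SpecialLinearGroup.toGL : Matrix.SpecialLinearGroup (Fin n) F →* _).range ≤ G := by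
  classical
  by_cases h1 : n = 1
  · subst h1
    left
    intro g _
    refine ⟨(g : Matrix (Fin 1) (Fin 1) F) 0 0, ?_⟩
    ext i j
    rw [Subsingleton.elim i 0, Subsingleton.elim j 0]
    simp
  have hn2 : 2 ≤ n := by omega
  have : Nontrivial (Fin n) := Fin.nontrivial_iff_two_le.mpr hn2
  let N : Subgroup (Matrix.SpecialLinearGroup (Fin n) F) := G.comap Matrix.SpecialLinearGroup.toGL
  have hNn : N.Normal := by
    constructor
    intro x hx s
    change Matrix.SpecialLinearGroup.toGL (s * x * s⁻¹) ∈ G
    rw [map_mul, map_mul, map_inv]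
    exact hG s _ hx
  by_cases hfix : MulAction.fixedPoints N (Projectivization F (Fin n → F)) = Set.univ
  · left
    have hNc : ∀ x ∈ N, x ∈ Subgroup.center (Matrix.SpecialLinearGroup (Fin n) F) := by
      intro x hx
      rw [← Projectivization.SL_mulAction_ker, MonoidHom.mem_ker]
      ext p
      have hp : p ∈ MulAction.fixedPoints N (Projectivization F (Fin n → F)) := hfix ▸ Set.mem_univ p
      exact hp ⟨x, hx⟩
    intro g hg
    have hcomm : ∀ t : TransvectionStruct (Fin n) F, Commute t.toMatrix (g : Matrix (Fin n) (Fin n) F) := by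
      intro t
      set s : Matrix.SpecialLinearGroup (Fin n) F := t.toSpecialLinearGroup with hs
      set S : GL (Fin n) F := Matrix.SpecialLinearGroup.toGL s with hS
      have hST : (S : Matrix (Fin n) (Fin n) F) = t.toMatrix := rfl
      have hc : g * (S * g⁻¹ * S⁻¹) ∈ G :=
        G.mul_mem hg (hG s _ (G.inv_mem hg))
      set c : GL (Fin n) F := g * (S * g⁻¹ * S⁻¹) with hcdef
      have hdet : (c : Matrix (Fin n) (Fin n) F).det = 1 := by
        have h3 : Matrix.GeneralLinearGroup.det c = 1 := by
          rw [hcdef]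
          simp only [map_mul, map_inv]
          rw [mul_comm (Matrix.GeneralLinearGroup.det S), mul_assoc, mul_inv_cancel, mul_one, mul_inv_cancel]
        have h4 := congrArg Units.val h3
        simpa using h4
      let x : Matrix.SpecialLinearGroup (Fin n) F := ⟨(c : Matrix (Fin n) (Fin n) F), hdet⟩
      have hxc : Matrix.SpecialLinearGroup.toGL x = c := Units.ext rfl
      have hxN : x ∈ N := by
        change Matrix.SpecialLinearGroup.toGL x ∈ G
        rw [hxc]; exact hc
      obtain ⟨r, _, hr⟩ := Matrix.SpecialLinearGroup.mem_center_iff.mp (hNc x hxN)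
      have hr' : (c : Matrix (Fin n) (Fin n) F) = Matrix.scalar (Fin n) r := hr.symm
      have e0 : c * S = g * S * g⁻¹ := by
        rw [hcdef]; group
      have e1 : (g : Matrix (Fin n) (Fin n) F) * t.toMatrix * ((g⁻¹ : GL (Fin n) F) : Matrix (Fin n) (Fin n) F) = r • t.toMatrix := by
        have e2 := congrArg Units.val e0
        simp only [Units.val_mul] at e2
        rw [← hST, ← e2, hr']
        simp [Matrix.scalar_apply, ← Matrix.smul_eq_diagonal_mul]
      have hgi : (g : Matrix (Fin n) (Fin n) F) * ((g⁻¹ : GL (Fin n) F) : Matrix (Fin n) (Fin n) F) = 1 := by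
        rw [← Units.val_mul, mul_inv_cancel]; rfl
      have hig : ((g⁻¹ : GL (Fin n) F) : Matrix (Fin n) (Fin n) F) * (g : Matrix (Fin n) (Fin n) F) = 1 := by
        rw [← Units.val_mul, inv_mul_cancel]; rfl
      have hr1 : r = 1 := scalar_eq_one t.hij t.c r _ _ hgi hig e1
      rw [hr1, one_smul] at e1
      have e3 : (g : Matrix (Fin n) (Fin n) F) * t.toMatrix = t.toMatrix * (g : Matrix (Fin n) (Fin n) F) := by
        calc (g : Matrix (Fin n) (Fin n) F) * t.toMatrix
            = (g : Matrix (Fin n) (Fin n) F) * t.toMatrix * (((g⁻¹ : GL (Fin n) F) : Matrix (Fin n) (Fin n) F) * (g : Matrix (Fin n) (Fin n) F)) := by rw [hig, mul_one]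
          _ = ((g : Matrix (Fin n) (Fin n) F) * t.toMatrix * ((g⁻¹ : GL (Fin n) F) : Matrix (Fin n) (Fin n) F)) * (g : Matrix (Fin n) (Fin n) F) := by simp only [mul_assoc]
          _ = t.toMatrix * (g : Matrix (Fin n) (Fin n) F) := by rw [e1]
      exact e3.symm
    obtain ⟨c, hc⟩ := Matrix.mem_range_scalar_of_commute_transvectionStruct hcomm
    refine ⟨c, ?_⟩
    rw [← hc]
    ext i j
    simp [Matrix.scalar_apply, Matrix.diagonal_apply, Matrix.one_apply]
  · right
    have h2 := (iwasawa (F := F) (ι := Fin n)).commutator_le N hfix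
    rw [commutator_eq_top_of_card hn2 hex] at h2
    rintro _ ⟨s, rfl⟩
    exact h2 (Subgroup.mem_top s)

end Cfsg.Agent.S2540
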