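import Cfsg.Statements.S2617
import Cfsg.Agent.Lib.Helper7QForms

set_option autoImplicit false
open Cfsg

namespace Cfsg.Agent.S2617

/-- The two standard quadratic forms of even dimension 2m over a finite field are not isometric: there is no linear isomorphism carrying the elliptic form Σ_(i<m−1) x_i y_i + z₁² + z₁z₂ + ζ z₂² (t² + t + ζ without roots) to the hyperbolic form Σ_(i<m) x_i y_i (they have different Witt index). -/
theorem result {F : Type*} [Field F] [Finite F] {m : ℕ} (hm : 1 ≤ m) (ζ : F) (hζ : ∀ t : F, t ^ 2 + t + ζ ≠ 0) (g : (Fin m ⊕ Fin m → F) ≃ₗ[F] ((Fin (m - 1) ⊕ Fin (m - 1)) ⊕ Fin 2 → F)) : ¬ (∀ v : Fin m ⊕ Fin m → F, Cfsg.quadFormMinus (m - 1) F 1 ζ (g v) = Cfsg.quadFormPlus m F v) := by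
  classical
  intro hg
  haveI : Fintype F := Fintype.ofFinite F
  obtain ⟨k, rfl⟩ : ∃ k, m = k + 1 := ⟨m - 1, by omega⟩
  change (Fin (k + 1) ⊕ Fin (k + 1) → F) ≃ₗ[F] ((Fin k ⊕ Fin k) ⊕ Fin 2 → F) at g
  change ∀ v : Fin (k + 1) ⊕ Fin (k + 1) → F,
    Cfsg.quadFormMinus k F 1 ζ (g v) = Cfsg.quadFormPlus (k + 1) F v at hg
  have hab : ∀ z₁ z₂ : F, z₁ ^ 2 + 1 * z₁ * z₂ + ζ * z₂ ^ 2 = 0 → z₁ = 0 ∧ z₂ = 0 := by
    intro z₁ z₂ h
    by_cases hz : z₂ = 0
    · subst hz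
      refine ⟨?_, rfl⟩
      have : z₁ ^ 2 = 0 := by linear_combination h
      simpa using this
    · exfalso
      apply hζ (z₁ / z₂)
      field_simp
      linear_combination h
  have h1 := Cfsg.Agent.Lib.Helper7QForms.cntQ_plus_zero (F := F) (k + 1)
  have h2 := Cfsg.Agent.Lib.Helper7QForms.cntQ_minus_zero (F := F) 1 ζ hab k
  rw [← Cfsg.Agent.Lib.Helper7QForms.card_plus] at h1
  rw [← Cfsg.Agent.Lib.Helper7QForms.card_minus] at h2
  have hcard : Nat.card {v : Fin (k + 1) ⊕ Fin (k + 1) → F // Cfsg.quadFormPlus (k + 1) F v = 0}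
      = Nat.card {v : (Fin k ⊕ Fin k) ⊕ Fin 2 → F // Cfsg.quadFormMinus k F 1 ζ v = 0} := by
    apply Nat.card_congr
    exact g.toEquiv.subtypeEquiv (fun v => by
      change _ ↔ Cfsg.quadFormMinus k F 1 ζ (g v) = 0
      rw [hg])
  rw [hcard] at h1
  have hq : 2 ≤ Fintype.card F := Fintype.one_lt_card
  generalize Nat.card {v : (Fin k ⊕ Fin k) ⊕ Fin 2 → F // Cfsg.quadFormMinus k F 1 ζ v = 0} = M at h1 h2
  generalize hqq : Fintype.card F = q at h1 h2 hq
  have hpos : 0 < q ^ k := pow_pos (by omega) k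
  have e1 : q ^ (2 * (k + 1)) = q * q ^ (2 * k + 1) := by ring
  have e2 : q ^ (k + 1 + 1) = q * q * q ^ k := by ring
  have e3 : q ^ (k + 1) = q * q ^ k := by ring
  rw [e1, e2, e3] at h1
  rw [e3] at h2
  generalize q ^ (2 * k + 1) = A at h1 h2
  generalize q ^ k = B at h1 h2 hpos
  have h3 : q * M + q * (q * B) = q * A + q * B := by rw [← mul_add, h2, mul_add]
  have h4 : q * B + q * B = q * (q * B) + q * (q * B) := by nlinarith
  have h6 : 0 < q * B := Nat.mul_pos (by omega) hpos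
  have h5 : q * B < q * (q * B) := by
    calc q * B = 1 * (q * B) := by ring
      _ < q * (q * B) := Nat.mul_lt_mul_of_pos_right (by omega) h6
  omega

end Cfsg.Agent.S2617
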