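import Cfsg.Statements.S0818
import Cfsg.Agent.S2696
import Cfsg.Agent.Lib.Helper18GamD
import Cfsg.Agent.Lib.Helper50Out
import Cfsg.Agent.Lib.Helper51OrthInst2

set_option autoImplicit false
open Cfsg

namespace Cfsg.Agent.S0818

/-- |Aut(PΩ⁻_2m(q))| for q = p^f, m ≥ 4 (form quadFormMinus (m−1) with anisotropic binary part): |PΩ⁻_2m(q)| times f, times 2 if p = 2, and times 4 or 8 if p is odd according as m(q−1)/2 is even or odd. -/
theorem result {F : Type*} [Field F] [Fintype F] (p f : ℕ) [Fact p.Prime] (hf : 1 ≤ f) (hF : Fintype.card F = p ^ f) (m : ℕ) (hm : 4 ≤ m) (a b : F) (hab : ∀ z₁ z₂ : F, z₁ ^ 2 + a * z₁ * z₂ + b * z₂ ^ 2 = 0 → z₁ = 0 ∧ z₂ = 0) : Nat.card (MulAut (Cfsg.POmega F (Cfsg.quadFormMinus (m - 1) F a b))) = (if p = 2 then 2 else (if Even (m * (p ^ f - 1) / 2) then 4 else 8)) * f * Nat.card (Cfsg.POmega F (Cfsg.quadFormMinus (m - 1) F a b)) := by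
  obtain ⟨k, rfl⟩ : ∃ k, m = k + 1 := ⟨m - 1, by omega⟩
  rw [Nat.add_sub_cancel]
  have hk : 3 ≤ k := by omega
  have htop := Cfsg.Agent.S2696.result (F := F) hk a b hab
  have hpr := Cfsg.Agent.Lib.Helper18GamD.prO_surjective_minus k hab
  rw [← Cfsg.Agent.Lib.Helper49Forms.coe_QMinus k a b] at htop hpr ⊢
  have hQ := Cfsg.Agent.Lib.Helper49Rank.QMinus_nondegenerate k hab
  have hcard : Fintype.card ((Fin k ⊕ Fin k) ⊕ Fin 2) = 2 * (k + 1) :=
    Cfsg.Agent.Lib.Helper51OrthInst.card_minus k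
  have hx : ∃ x, Cfsg.Agent.Lib.Helper49Forms.QMinus k F a b x = 1 := by
    refine ⟨Pi.single (Sum.inr 0) 1, ?_⟩
    rw [Cfsg.Agent.Lib.Helper49Forms.coe_QMinus]
    simp [Cfsg.quadFormMinus]
  rw [Cfsg.Agent.Lib.Helper18GamB.card_aut _ hQ (by omega)
    (Cfsg.Agent.Lib.Helper18GamB.sAut_surjective _ htop) hpr,
    (Cfsg.Agent.Lib.Helper50Out.ringAut_cyclic_card hF).2]
  congr 2
  by_cases hp : p = 2
  · rw [if_pos hp]
    subst hp
    have : CharP F 2 := charP_of_card_eq_prime_pow hF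
    exact Cfsg.Agent.Lib.Helper18GamD.index_K0_two _ hQ hx (by omega)
  · rw [if_neg hp]
    have hpodd : Odd p := (Fact.out : p.Prime).odd_of_ne_two hp
    have hoddF : Odd (Fintype.card F) := by rw [hF]; exact hpodd.pow
    have h2 : (2 : F) ≠ 0 := Cfsg.Agent.Lib.Helper49Forms.two_ne_zero_of_odd rfl hoddF
    have G := Cfsg.Agent.Lib.Helper51OrthInst.good_QMinus h2 (by omega : 2 ≤ k) hab
    have hneg := Cfsg.Agent.Lib.Helper51OrthInst2.negIn_QMinus hoddF k hab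
    rw [hF] at hneg hoddF
    obtain ⟨j, hj⟩ := hoddF
    have e1 : (k + 1) * (p ^ f - 1) / 2 = (k + 1) * j := by
      rw [hj, Nat.add_sub_cancel, mul_left_comm, Nat.mul_div_cancel_left _ (by norm_num)]
    rw [e1]
    by_cases hN : Cfsg.Agent.Lib.Helper51OrthIdx3.NegIn (Cfsg.Agent.Lib.Helper49Forms.QMinus k F a b)
    · rw [Cfsg.Agent.Lib.Helper51OrthDiag.index_K0_of_neg _ G hcard hN]
      obtain ⟨h3, h4⟩ := hneg.1 hN
      rw [if_neg]
      rw [Nat.even_mul, not_or, Nat.not_even_iff_odd, Nat.not_even_iff_odd]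
      refine ⟨h3.add_one, ?_⟩
      rw [Nat.odd_iff]
      omega
    · rw [Cfsg.Agent.Lib.Helper51OrthDiag.index_K0_of_not _ G hcard hN]
      rw [if_pos]
      rw [Nat.even_mul]
      by_contra hcon
      rw [not_or, Nat.not_even_iff_odd, Nat.not_even_iff_odd] at hcon
      apply hN
      rw [hneg]
      obtain ⟨h3, h4⟩ := hcon
      refine ⟨?_, ?_⟩
      · rw [Nat.odd_add_one, Nat.not_odd_iff_even] at h3
        exact h3
      · rw [Nat.odd_iff] at h4
        omega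

end Cfsg.Agent.S0818
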