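import Cfsg.Statements.S2566
import Mathlib
import Cfsg.Agent.Lib.Helper18Transfer
import Cfsg.Agent.Lib.Helper7OPlus

set_option autoImplicit false
open Cfsg

namespace Cfsg.Agent.S2566

open Matrix

abbrev I := Fin 2 ⊕ Fin 2

abbrev V := I → ZMod 2

abbrev q0 : V → ZMod 2 := Cfsg.quadFormPlus 2 (ZMod 2)

abbrev G := ↥(Cfsg.isometryGroup (ZMod 2) q0)

/-- the three nonzero vectors of the plane -/
def vv : Fin 3 → Fin 2 → ZMod 2 := ![![1, 0], ![0, 1], ![1, 1]]

/-- the two-dimensional representation of the symmetric group of degree three -/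
def P (σ : Equiv.Perm (Fin 3)) : Matrix (Fin 2) (Fin 2) (ZMod 2) :=
  Matrix.of fun i j => vv (σ (Fin.castSucc j)) i

/-- left multiplication on two by two matrices with coordinates
`x₁ = α, x₂ = β, y₁ = δ, y₂ = γ` -/
def mA (σ : Equiv.Perm (Fin 3)) : Matrix I I (ZMod 2) :=
  Matrix.fromBlocks (Matrix.of ![![P σ 0 0, 0], ![0, P σ 0 0]]) (Matrix.of ![![0, P σ 0 1], ![P σ 0 1, 0]])
    (Matrix.of ![![0, P σ 1 0], ![P σ 1 0, 0]]) (Matrix.of ![![P σ 1 1, 0], ![0, P σ 1 1]])

/-- transposition of two by two matrices -/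
def T : Matrix I I (ZMod 2) :=
  Matrix.fromBlocks (Matrix.of ![![1, 0], ![0, 0]]) (Matrix.of ![![0, 0], ![0, 1]])
    (Matrix.of ![![0, 0], ![0, 1]]) (Matrix.of ![![1, 0], ![0, 0]])

set_option maxRecDepth 100000 in
theorem mA_one : mA 1 = 1 := by decide +kernel

set_option maxRecDepth 100000 in
theorem mA_mul : ∀ σ τ, mA (σ * τ) = mA σ * mA τ := by decide +kernel

set_option maxRecDepth 100000 in
theorem mA_pres : ∀ σ (v : V), q0 (mA σ *ᵥ v) = q0 v := by decide +kernel

set_option maxRecDepth 100000 in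
theorem T_sq : T * T = 1 := by decide +kernel

set_option maxRecDepth 100000 in
theorem T_pres : ∀ v : V, q0 (T *ᵥ v) = q0 v := by decide +kernel

set_option maxRecDepth 100000 in
theorem comm_AB : ∀ σ τ, mA σ * (T * mA τ * T) = (T * mA τ * T) * mA σ := by decide +kernel

set_option maxRecDepth 100000 in
theorem inj_AB : ∀ σ τ, mA σ * (T * mA τ * T) = 1 → σ = 1 ∧ τ = 1 := by decide +kernel

def mAhom : Equiv.Perm (Fin 3) →* Matrix I I (ZMod 2) where
  toFun := mA
  map_one' := mA_one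
  map_mul' := mA_mul

def phiA : Equiv.Perm (Fin 3) →* G :=
  (MonoidHom.toHomUnits mAhom).codRestrict _ (fun σ =>
    Cfsg.Agent.Lib.Helper18Transfer.mem_iso.2 (fun v => mA_pres σ v))

def gT : G := ⟨⟨T, T, T_sq, T_sq⟩, Cfsg.Agent.Lib.Helper18Transfer.mem_iso.2 T_pres⟩

def phiB : Equiv.Perm (Fin 3) →* G := (MulAut.conj gT).toMonoidHom.comp phiA

theorem coe_phiA (σ : Equiv.Perm (Fin 3)) :
    (((phiA σ : G) : Matrix.GeneralLinearGroup I (ZMod 2)) : Matrix I I (ZMod 2)) = mA σ := rfl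

theorem coe_phiB (σ : Equiv.Perm (Fin 3)) :
    (((phiB σ : G) : Matrix.GeneralLinearGroup I (ZMod 2)) : Matrix I I (ZMod 2)) = T * mA σ * T := rfl

theorem G_ext {g h : G} (H : ((g : Matrix.GeneralLinearGroup I (ZMod 2)) : Matrix I I (ZMod 2))
    = ((h : Matrix.GeneralLinearGroup I (ZMod 2)) : Matrix I I (ZMod 2))) : g = h :=
  Subtype.ext (Units.ext H)

theorem commAB (σ τ : Equiv.Perm (Fin 3)) : Commute (phiA σ) (phiB τ) :=
  G_ext (comm_AB σ τ)

def phi : Equiv.Perm (Fin 3) × Equiv.Perm (Fin 3) →* G := MonoidHom.noncommCoprod phiA phiB commAB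

theorem phi_injective : Function.Injective phi := by
  rw [injective_iff_map_eq_one]
  rintro ⟨σ, τ⟩ h
  have h1 : mA σ * (T * mA τ * T) = 1 := by
    have := congrArg (fun g : G => ((g : Matrix.GeneralLinearGroup I (ZMod 2)) : Matrix I I (ZMod 2))) h
    exact this
  obtain ⟨rfl, rfl⟩ := inj_AB σ τ h1
  rfl

theorem phiA_injective : Function.Injective phiA := by
  intro σ τ h
  have := @phi_injective (σ, 1) (τ, 1) (by simp [phi, MonoidHom.noncommCoprod_apply, h])
  exact (Prod.ext_iff.1 this).1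

theorem card_G : Nat.card G = 72 := by
  rw [Cfsg.Agent.Lib.Helper7OPlus.card_isometryGroup_plus 2 (by norm_num)]
  simp [ZMod.card]

/-- The full orthogonal group of the plus-type form x₁y₁ + x₂y₂ in dimension 4 over the field of two elements has order 72 and is isomorphic to the wreath product of the symmetric group of degree 3 by a group of order 2: it has a normal subgroup isomorphic to the direct product of two symmetric groups of degree 3, of index 2, whose two direct factors are interchanged by conjugation by some element. -/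
theorem result :
    Nat.card ↥(Cfsg.isometryGroup (ZMod 2) (Cfsg.quadFormPlus 2 (ZMod 2))) = 72 ∧
    ∃ (A B : Subgroup ↥(Cfsg.isometryGroup (ZMod 2) (Cfsg.quadFormPlus 2 (ZMod 2)))),
      Nonempty (↥A ≃* Equiv.Perm (Fin 3)) ∧ Nonempty (↥B ≃* Equiv.Perm (Fin 3)) ∧ A ⊓ B = ⊥ ∧ (∀ a ∈ A, ∀ b ∈ B, a * b = b * a) ∧
      (A ⊔ B).index = 2 ∧ ∃ g : ↥(Cfsg.isometryGroup (ZMod 2) (Cfsg.quadFormPlus 2 (ZMod 2))), A.map (MulAut.conj g).toMonoidHom = B := by
  refine ⟨card_G, phiA.range, phiB.range, ⟨(MonoidHom.ofInjective phiA_injective).symm⟩,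
    ⟨(MonoidHom.ofInjective ((MulAut.conj gT).injective.comp phiA_injective)).symm⟩, ?_, ?_, ?_,
    gT, ?_⟩
  · rw [eq_bot_iff]
    rintro x ⟨⟨σ, rfl⟩, ⟨τ, hτ⟩⟩
    have h1 : phi (σ, τ⁻¹) = 1 := by
      simp only [phi, MonoidHom.noncommCoprod_apply, map_inv]
      rw [hτ, mul_inv_cancel]
    have h2 := phi_injective (h1.trans (map_one phi).symm)
    have h3 : σ = 1 := (Prod.ext_iff.1 h2).1
    rw [h3, map_one]
    exact Subgroup.mem_bot.2 rfl
  · rintro _ ⟨σ, rfl⟩ _ ⟨τ, rfl⟩
    exact commAB σ τ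
  · have h1 : phiA.range ⊔ phiB.range = phi.range := (MonoidHom.noncommCoprod_range _ _ _).symm
    have h2 : Nat.card phi.range = 36 := by
      rw [← Nat.card_congr (MonoidHom.ofInjective phi_injective).toEquiv, Nat.card_prod,
        Nat.card_eq_fintype_card, Fintype.card_perm]
      rfl
    have h3 := Subgroup.card_mul_index phi.range
    rw [h2, card_G] at h3
    rw [h1]
    omega
  · exact MonoidHom.map_range _ _

end Cfsg.Agent.S2566
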