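import Cfsg.Statements.S2437
import Cfsg.Agent.S2432
-- import your own Cfsg.Agent.* helpers here

set_option autoImplicit false
open Cfsg

namespace Cfsg.Agent.S2437

open Cfsg.Agent.Lib.Helper46SL2 Cfsg.Agent.Lib.Helper46Borel Cfsg.Agent.S2432

theorem commute_mB {F : Type*} [Field F] (a c : Fˣ) (e f : F) :
    Commute (mB (a, e)) (mB (c, f)) ↔ f * ((a : F) - (a : F)⁻¹) = e * ((c : F) - (c : F)⁻¹) := by
  rw [commute_iff_eq, Subtype.ext_iff]
  constructor
  · intro h
    have h01 := congrArg (fun A : Matrix.SpecialLinearGroup (Fin 2) F => A 0 1) h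
    simp only [Subgroup.coe_mul, mul_01, mB, mk2_00, mk2_01, mk2_11] at h01
    linear_combination h01
  · intro h
    apply ext2
    · simp only [Subgroup.coe_mul, mul_00, mB, mk2_00, mk2_01, mk2_10]
      ring
    · simp only [Subgroup.coe_mul, mul_01, mB, mk2_00, mk2_01, mk2_11]
      linear_combination h
    · simp only [Subgroup.coe_mul, mul_10, mB, mk2_00, mk2_10, mk2_11]
      ring
    · simp only [Subgroup.coe_mul, mul_11, mB, mk2_01, mk2_10, mk2_11]
      ring

theorem count_lin {F : Type*} [Field F] [Fintype F] [DecidableEq F] (x y : F) :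
    ∑ e : F, ∑ f : F, (if f * x = e * y then 1 else 0) =
      Fintype.card F + (if x = 0 ∧ y = 0 then Fintype.card F * (Fintype.card F - 1) else 0) := by
  by_cases hx : x = 0
  · by_cases hy : y = 0
    · subst hx hy
      simp only [mul_zero, if_true, and_self, Finset.sum_const, Finset.card_univ, smul_eq_mul, mul_one]
      have : 1 ≤ Fintype.card F := Fintype.card_pos
      obtain ⟨m, hm⟩ := Nat.exists_eq_add_of_le this
      rw [hm]
      simp
      ring
    · subst hx
      rw [if_neg (fun h => hy h.2), add_zero, Finset.sum_eq_single (0 : F)]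
      · simp
      · intro e _ he
        apply Finset.sum_eq_zero
        intro f _
        rw [if_neg]
        rw [mul_zero]
        exact (mul_ne_zero he hy).symm
      · intro h0
        exact absurd (Finset.mem_univ _) h0
  · rw [if_neg (fun h => hx h.1), add_zero]
    have h1 : ∀ e : F, ∑ f : F, (if f * x = e * y then 1 else 0) = 1 := by
      intro e
      rw [Finset.sum_eq_single (e * y / x)]
      · rw [if_pos (by field_simp)]
      · intro f _ hf
        rw [if_neg]
        intro h
        apply hf
        field_simp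
        exact h
      · intro h0
        exact absurd (Finset.mem_univ _) h0
    simp_rw [h1]
    simp

theorem sub_inv_eq_zero_iff {F : Type*} [Field F] (a : Fˣ) :
    (a : F) - (a : F)⁻¹ = 0 ↔ a = 1 ∨ a = -1 := by
  have ha := a.ne_zero
  constructor
  · intro h
    have h2 : ((a : F) - 1) * ((a : F) + 1) = 0 := by
      field_simp at h
      linear_combination h
    rcases mul_eq_zero.mp h2 with h3 | h3
    · left
      apply Units.ext
      rw [Units.val_one]
      linear_combination h3
    · right
      apply Units.ext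
      rw [Units.val_neg, Units.val_one]
      linear_combination h3
  · rintro (rfl | rfl)
    · simp
    · simp [inv_neg]

theorem sum_pm {F : Type*} [Field F] [Fintype F] [DecidableEq F] (hodd : Odd (Fintype.card F)) (X : ℕ) :
    ∑ a : Fˣ, (if (a : F) - (a : F)⁻¹ = 0 then X else 0) = 2 * X := by
  have hne : (1 : Fˣ) ≠ -1 := by
    intro h
    have h2 : (1 : F) = -1 := by
      have := congrArg Units.val h
      simpa using this
    have hchar : ringChar F ≠ 2 := by
      intro h2'
      have := FiniteField.even_card_iff_char_two.mp h2'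
      exact (Nat.not_even_iff_odd.mpr hodd) (Nat.even_iff.mpr this)
    exact (Ring.neg_one_ne_one_of_char_ne_two hchar) h2.symm
  rw [← Finset.sum_filter]
  have : Finset.filter (fun a : Fˣ => (a : F) - (a : F)⁻¹ = 0) Finset.univ = {1, -1} := by
    ext a
    simp [sub_inv_eq_zero_iff]
  rw [this, Finset.sum_pair hne]
  ring

/-- Over a finite field F with q elements, q odd, the upper triangular subgroup of SL₂ (a Borel subgroup, of order q(q − 1)) has exactly q + 3 conjugacy classes. -/
theorem result {F : Type*} [Field F] [Fintype F] (hodd : Odd (Fintype.card F)) :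
    Nat.card (ConjClasses ((Cfsg.upperTriangularGL 2 F).comap Matrix.SpecialLinearGroup.toGL)) = Fintype.card F + 3 := by
  classical
  let _ : Fintype (B F) := Fintype.ofFinite _
  have hmain := card_comm_eq_card_conjClasses_mul_card (B F)
  have hB : Nat.card (B F) = (Fintype.card F - 1) * Fintype.card F := by
    rw [← Nat.card_congr (Equiv.ofBijective _ (mB_bijective (F := F))), Nat.card_prod,
      Nat.card_eq_fintype_card, Nat.card_eq_fintype_card, Fintype.card_units]
  let E : (Fˣ × F) ≃ B F := Equiv.ofBijective _ (mB_bijective (F := F))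
  have hcount : Nat.card {p : B F × B F // Commute p.1 p.2} =
      ∑ a : Fˣ, ∑ c : Fˣ, ∑ e : F, ∑ f : F,
        (if f * ((a : F) - (a : F)⁻¹) = e * ((c : F) - (c : F)⁻¹) then 1 else 0) := by
    have e1 : {p : (Fˣ × F) × (Fˣ × F) // p.2.2 * ((p.1.1 : F) - (p.1.1 : F)⁻¹) =
        p.1.2 * ((p.2.1 : F) - (p.2.1 : F)⁻¹)} ≃ {p : B F × B F // Commute p.1 p.2} :=
      (Equiv.prodCongr E E).subtypeEquiv (by
        rintro ⟨⟨a, e⟩, ⟨c, f⟩⟩
        exact (commute_mB a c e f).symm)
    rw [← Nat.card_congr e1, Nat.card_eq_fintype_card, Fintype.card_subtype, Finset.card_filter,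
      Fintype.sum_prod_type, Fintype.sum_prod_type]
    apply Finset.sum_congr rfl
    intro a _
    simp_rw [Fintype.sum_prod_type]
    rw [Finset.sum_comm]
  simp_rw [count_lin] at hcount
  have h2 : ∀ a c : Fˣ, (if (a : F) - (a : F)⁻¹ = 0 ∧ (c : F) - (c : F)⁻¹ = 0 then
      Fintype.card F * (Fintype.card F - 1) else 0) =
      if (a : F) - (a : F)⁻¹ = 0 then (if (c : F) - (c : F)⁻¹ = 0 then
        Fintype.card F * (Fintype.card F - 1) else 0) else 0 := by
    intro a c
    split_ifs <;> simp_all
  have h3 : ∀ X : ℕ, ∑ a : Fˣ, ∑ c : Fˣ, (if (a : F) - (a : F)⁻¹ = 0 then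
      (if (c : F) - (c : F)⁻¹ = 0 then X else 0) else 0) = 2 * (2 * X) := by
    intro X
    have h4 : ∀ a : Fˣ, ∑ c : Fˣ, (if (a : F) - (a : F)⁻¹ = 0 then
      (if (c : F) - (c : F)⁻¹ = 0 then X else 0) else 0) =
        if (a : F) - (a : F)⁻¹ = 0 then 2 * X else 0 := by
      intro a
      split_ifs
      · exact sum_pm hodd X
      · simp
    simp_rw [h4]
    exact sum_pm hodd _
  simp_rw [h2, Finset.sum_add_distrib, h3] at hcount
  simp only [Finset.sum_const, Finset.card_univ, smul_eq_mul, Fintype.card_units] at hcount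
  rw [hcount, hB] at hmain
  have hq : 2 ≤ Fintype.card F := Fintype.one_lt_card
  obtain ⟨m, hm⟩ := Nat.exists_eq_add_of_le hq
  rw [hm] at hmain ⊢
  have e2 : 2 + m - 1 = m + 1 := by omega
  rw [e2] at hmain
  have hpos : 0 < (m + 1) * (2 + m) := by positivity
  apply Nat.eq_of_mul_eq_mul_right hpos
  rw [← hmain]
  ring

end Cfsg.Agent.S2437
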