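import Cfsg.Statements.S2430
import Cfsg.Agent.Lib.Helper46Tori2

set_option autoImplicit false
open Cfsg

namespace Cfsg.Agent.S2430

open Lib.Helper46SL2 Lib.Helper46Tori Lib.Helper46ToriNS Lib.Helper46Tori2 in
theorem main {F : Type*} [Field F] [Fintype F] (ℓ : ℕ) [Fact ℓ.Prime] (hℓ : ℓ ≠ 2)
    (P : Sylow ℓ (Matrix.SpecialLinearGroup (Fin 2) F)) (m : ℕ)
    (hm : m = Fintype.card F - 1 ∨ m = Fintype.card F + 1) (hℓm : ℓ ∣ m) :
    Nat.card (Subgroup.centralizer ((P : Subgroup (Matrix.SpecialLinearGroup (Fin 2) F)) : Set (Matrix.SpecialLinearGroup (Fin 2) F))) = m ∧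
      IsCyclic (Subgroup.centralizer ((P : Subgroup (Matrix.SpecialLinearGroup (Fin 2) F)) : Set (Matrix.SpecialLinearGroup (Fin 2) F))) ∧
      Nat.card (Subgroup.normalizer ((P : Subgroup (Matrix.SpecialLinearGroup (Fin 2) F)) : Set (Matrix.SpecialLinearGroup (Fin 2) F))) = 2 * m := by
  have hprime : ℓ.Prime := Fact.out
  have hq1 : 1 < Fintype.card F := Fintype.one_lt_card
  have hdvdG : ℓ ∣ Nat.card (Matrix.SpecialLinearGroup (Fin 2) F) := by
    rcases hm with rfl | rfl
    · exact hℓm.trans (card_D (F := F) ▸ Subgroup.card_subgroup_dvd_card (D F))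
    · obtain ⟨t0, z, hord, hz0, hsum⟩ := exists_nonsplit (F := F)
      exact hℓm.trans (card_T hord hz0 hsum ▸ Subgroup.card_subgroup_dvd_card _)
  have hPne : (P : Subgroup (Matrix.SpecialLinearGroup (Fin 2) F)) ≠ ⊥ := P.ne_bot_of_dvd_card hdvdG
  have hnt : Nontrivial (P : Subgroup (Matrix.SpecialLinearGroup (Fin 2) F)) :=
    (Subgroup.nontrivial_iff_ne_bot _).mpr hPne
  have hcnt := P.isPGroup'.center_nontrivial
  obtain ⟨⟨y, hy⟩, hne⟩ := exists_ne (1 : Subgroup.center (P : Subgroup (Matrix.SpecialLinearGroup (Fin 2) F)))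
  have hy1 : y ≠ 1 := fun h => hne (Subtype.ext h)
  set x : Matrix.SpecialLinearGroup (Fin 2) F := (y : Matrix.SpecialLinearGroup (Fin 2) F) with hx
  have hx1 : x ≠ 1 := fun h => hy1 (Subtype.ext h)
  have hxP : x ∈ P := y.2
  have hPT : (P : Subgroup (Matrix.SpecialLinearGroup (Fin 2) F)) ≤ Subgroup.centralizer {x} := by
    intro h hh
    rw [Subgroup.mem_centralizer_singleton_iff]
    have := Subgroup.mem_center_iff.mp hy ⟨h, hh⟩
    exact congrArg Subtype.val this
  obtain ⟨k, hk⟩ := P.isPGroup' y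
  have hxk : x ^ ℓ ^ k = 1 := by
    have := congrArg Subtype.val hk
    simpa using this
  have hℓx : ℓ ∣ orderOf x := by
    obtain ⟨j, -, hj⟩ := (Nat.dvd_prime_pow hprime).mp (orderOf_dvd_of_pow_eq_one hxk)
    rcases Nat.eq_zero_or_pos j with rfl | hjpos
    · rw [pow_zero, orderOf_eq_one_iff] at hj
      exact absurd hj hx1
    · rw [hj]
      exact dvd_pow_self ℓ hjpos.ne'
  have hℓ1 : ¬ ℓ ∣ 1 := fun h => hprime.one_lt.ne' (Nat.dvd_one.mp h)
  have hℓ2 : ¬ ℓ ∣ 2 := fun h => hℓ ((Nat.prime_dvd_prime_iff_eq hprime Nat.prime_two).mp h)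
  have hℓq : ¬ ℓ ∣ Fintype.card F := by
    intro h
    rcases hm with rfl | rfl
    · apply hℓ1
      have := Nat.dvd_sub h hℓm
      rwa [Nat.sub_sub_self hq1.le] at this
    · exact hℓ1 ((Nat.dvd_add_right h).mp hℓm)
  have hboth : ¬ (ℓ ∣ Fintype.card F - 1 ∧ ℓ ∣ Fintype.card F + 1) := by
    rintro ⟨h1, h2⟩
    apply hℓ2
    have := Nat.dvd_sub h2 h1
    have e : Fintype.card F + 1 - (Fintype.card F - 1) = 2 := by omega
    rwa [e] at this
  have h4 : tr x ^ 2 ≠ 4 := by
    intro h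
    have h1 := hℓx.trans (orderOf_dvd_of_pow_eq_one (pow_two_card_eq_one x h))
    rcases (Nat.Prime.dvd_mul hprime).mp h1 with h2 | h2
    · exact hℓ2 h2
    · exact hℓq h2
  have htorus : IsTorus (Subgroup.centralizer {x}) m := by
    rcases eigen_cases (tr x) with ⟨a, ha0, ha⟩ | ⟨l, hl0, hl, hlq, hl2, -⟩
    · have ha2 : a ^ 2 ≠ 1 := by
        intro h
        apply h4
        have : a⁻¹ = a := inv_eq_of_mul_eq_one_right (by rw [← sq]; exact h)
        rw [← ha, this]
        linear_combination 4 * h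
      have hxq : x ^ (Fintype.card F - 1) = 1 := by
        rw [pow_eq_one_iff_of_eigen (RingHom.id F) x a ha0 ha2 (by simpa using ha.symm)]
        exact FiniteField.pow_card_sub_one_eq_one a ha0
      have h1 := hℓx.trans (orderOf_dvd_of_pow_eq_one hxq)
      rcases hm with rfl | rfl
      · exact isTorus_split x a ha0 ha2 ha.symm
      · exact absurd ⟨h1, hℓm⟩ hboth
    · have hxq : x ^ (Fintype.card F + 1) = 1 := by
        rw [pow_eq_one_iff_of_eigen (algebraMap F (AlgebraicClosure F)) x l hl0 hl2 hl.symm]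
        exact hlq
      have h1 := hℓx.trans (orderOf_dvd_of_pow_eq_one hxq)
      rcases hm with rfl | rfl
      · exact absurd ⟨hℓm, h1⟩ hboth
      · exact isTorus_nonsplit x l hl0 hl hlq hl2
  obtain ⟨hc, hn⟩ := sylow_in_abelian P (Subgroup.centralizer {x}) htorus.1 hPT x hxP rfl
  rw [hc, hn]
  exact ⟨htorus.2.2.1, htorus.2.1, htorus.2.2.2⟩

/-- Let F be a finite field with q elements, q odd, ℓ an odd prime, and P a Sylow ℓ-subgroup of SL₂ over F. If ℓ divides q − 1, the centraliser of P is cyclic of order q − 1 (a split torus) and the normaliser of P has order 2(q − 1); if ℓ divides q + 1, the centraliser of P is cyclic of order q + 1 (a non-split torus) and the normaliser of P has order 2(q + 1). -/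
theorem result {F : Type*} [Field F] [Fintype F] (hodd : Odd (Fintype.card F)) (ℓ : ℕ) [Fact ℓ.Prime] (hℓ : ℓ ≠ 2)
    (P : Sylow ℓ (Matrix.SpecialLinearGroup (Fin 2) F)) :
    (ℓ ∣ Fintype.card F - 1 →
      Nat.card (Subgroup.centralizer ((P : Subgroup (Matrix.SpecialLinearGroup (Fin 2) F)) : Set (Matrix.SpecialLinearGroup (Fin 2) F))) = Fintype.card F - 1 ∧
      IsCyclic (Subgroup.centralizer ((P : Subgroup (Matrix.SpecialLinearGroup (Fin 2) F)) : Set (Matrix.SpecialLinearGroup (Fin 2) F))) ∧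
      Nat.card (Subgroup.normalizer ((P : Subgroup (Matrix.SpecialLinearGroup (Fin 2) F)) : Set (Matrix.SpecialLinearGroup (Fin 2) F))) = 2 * (Fintype.card F - 1)) ∧
    (ℓ ∣ Fintype.card F + 1 →
      Nat.card (Subgroup.centralizer ((P : Subgroup (Matrix.SpecialLinearGroup (Fin 2) F)) : Set (Matrix.SpecialLinearGroup (Fin 2) F))) = Fintype.card F + 1 ∧
      IsCyclic (Subgroup.centralizer ((P : Subgroup (Matrix.SpecialLinearGroup (Fin 2) F)) : Set (Matrix.SpecialLinearGroup (Fin 2) F))) ∧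
      Nat.card (Subgroup.normalizer ((P : Subgroup (Matrix.SpecialLinearGroup (Fin 2) F)) : Set (Matrix.SpecialLinearGroup (Fin 2) F))) = 2 * (Fintype.card F + 1)) := by
  exact ⟨fun h => main ℓ hℓ P _ (Or.inl rfl) h, fun h => main ℓ hℓ P _ (Or.inr rfl) h⟩

end Cfsg.Agent.S2430
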