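import Cfsg.Statements.S2431
import Mathlib
import Cfsg.Agent.Lib.Helper41SL2Q8

set_option autoImplicit false
open Cfsg

namespace Cfsg.Agent.S2431

/-- Let F be a finite field with q elements, q odd, and S a Sylow 2-subgroup of SL₂ over F. The centraliser of S is the centre of SL₂ (of order 2); S is its own normaliser when q ≡ ±1 mod 8, and has index 3 in its normaliser when q ≡ ±3 mod 8. -/
theorem result {F : Type*} [Field F] [Fintype F] (hodd : Odd (Fintype.card F)) (S : Sylow 2 (Matrix.SpecialLinearGroup (Fin 2) F)) :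
    Subgroup.centralizer ((S : Subgroup (Matrix.SpecialLinearGroup (Fin 2) F)) : Set (Matrix.SpecialLinearGroup (Fin 2) F)) = Subgroup.center (Matrix.SpecialLinearGroup (Fin 2) F) ∧
    ((Fintype.card F % 8 = 1 ∨ Fintype.card F % 8 = 7) →
      Subgroup.normalizer ((S : Subgroup (Matrix.SpecialLinearGroup (Fin 2) F)) : Set (Matrix.SpecialLinearGroup (Fin 2) F)) = (S : Subgroup (Matrix.SpecialLinearGroup (Fin 2) F))) ∧
    ((Fintype.card F % 8 = 3 ∨ Fintype.card F % 8 = 5) →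
      Nat.card (Subgroup.normalizer ((S : Subgroup (Matrix.SpecialLinearGroup (Fin 2) F)) : Set (Matrix.SpecialLinearGroup (Fin 2) F))) = 3 * Nat.card S) := by
  refine ⟨Cfsg.Agent.Lib.Helper41SL2.centralizer_sylow_two hodd S, ?_, ?_⟩
  · intro h
    apply Cfsg.Agent.Lib.Helper41SL2.normalizer_sylow_two_of_sixteen hodd _ S
    obtain ⟨j, r, hr, hq⟩ : ∃ j r, (r = 1 ∨ r = 7) ∧ Fintype.card F = 8 * j + r :=
      ⟨Fintype.card F / 8, Fintype.card F % 8, h, (Nat.div_add_mod _ _).symm⟩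
    rw [hq]
    rcases hr with rfl | rfl
    · refine ⟨4 * j ^ 2 + j, ?_⟩
      have : (8 * j + 1) ^ 2 = 16 * (4 * j ^ 2 + j) + 1 := by ring
      rw [this]; simp
    · refine ⟨4 * j ^ 2 + 7 * j + 3, ?_⟩
      have : (8 * j + 7) ^ 2 = 16 * (4 * j ^ 2 + 7 * j + 3) + 1 := by ring
      rw [this]; simp
  · intro h
    apply Cfsg.Agent.Lib.Helper41SL2.card_normalizer_sylow_two_of_not_sixteen hodd _ S
    obtain ⟨j, r, hr, hq⟩ : ∃ j r, (r = 3 ∨ r = 5) ∧ Fintype.card F = 8 * j + r :=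
      ⟨Fintype.card F / 8, Fintype.card F % 8, h, (Nat.div_add_mod _ _).symm⟩
    rw [hq]
    rcases hr with rfl | rfl
    · have : (8 * j + 3) ^ 2 = 16 * (4 * j ^ 2 + 3 * j) + 8 + 1 := by ring
      rw [this]; simp only [Nat.add_sub_cancel]; omega
    · have : (8 * j + 5) ^ 2 = 16 * (4 * j ^ 2 + 5 * j + 1) + 8 + 1 := by ring
      rw [this]; simp only [Nat.add_sub_cancel]; omega

end Cfsg.Agent.S2431
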