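import Cfsg.Statements.S2299
import Cfsg.Agent.Lib.Helper46SL2CharL
-- import your own Cfsg.Agent.* helpers here

set_option autoImplicit false
open Cfsg

namespace Cfsg.Agent.S2299

open Cfsg.Agent.Lib.Helper46SL2 Cfsg.Agent.Lib.Helper46Borel Cfsg.Agent.S2432
open Cfsg.Agent.Lib.Helper4Char
open Cfsg.Agent.Lib.Helper46SL2CharA Cfsg.Agent.Lib.Helper46SL2CharB Cfsg.Agent.Lib.Helper46SL2CharC
open Cfsg.Agent.Lib.Helper46SL2CharD Cfsg.Agent.Lib.Helper46SL2CharE Cfsg.Agent.Lib.Helper46SL2CharF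
open Cfsg.Agent.Lib.Helper46SL2CharJ Cfsg.Agent.Lib.Helper46SL2CharK Cfsg.Agent.Lib.Helper46SL2CharL

/-- Over a finite field F with q elements, q odd, every irreducible complex character of SL₂ has degree 1, q, q + 1, q − 1, (q + 1)/2 or (q − 1)/2; and when q ≥ 5 (so that these six numbers are distinct) there are exactly one irreducible character of degree 1, one of degree q, (q − 3)/2 of degree q + 1, (q − 1)/2 of degree q − 1, two of degree (q + 1)/2 and two of degree (q − 1)/2. -/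
theorem result {F : Type*} [Field F] [Fintype F] (hodd : Odd (Fintype.card F)) :
    (∀ χ : Matrix.SpecialLinearGroup (Fin 2) F → ℂ, Cfsg.IsIrrCharacter (Matrix.SpecialLinearGroup (Fin 2) F) χ →
      χ 1 = 1 ∨ χ 1 = (Fintype.card F : ℂ) ∨ χ 1 = (Fintype.card F : ℂ) + 1 ∨ χ 1 = (Fintype.card F : ℂ) - 1 ∨
        χ 1 = (((Fintype.card F + 1) / 2 : ℕ) : ℂ) ∨ χ 1 = (((Fintype.card F - 1) / 2 : ℕ) : ℂ)) ∧
    (5 ≤ Fintype.card F →
      Nat.card {χ : Cfsg.IrrCharacter (Matrix.SpecialLinearGroup (Fin 2) F) // (χ : Matrix.SpecialLinearGroup (Fin 2) F → ℂ) 1 = 1} = 1 ∧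
      Nat.card {χ : Cfsg.IrrCharacter (Matrix.SpecialLinearGroup (Fin 2) F) // (χ : Matrix.SpecialLinearGroup (Fin 2) F → ℂ) 1 = (Fintype.card F : ℂ)} = 1 ∧
      Nat.card {χ : Cfsg.IrrCharacter (Matrix.SpecialLinearGroup (Fin 2) F) // (χ : Matrix.SpecialLinearGroup (Fin 2) F → ℂ) 1 = (Fintype.card F : ℂ) + 1} = (Fintype.card F - 3) / 2 ∧
      Nat.card {χ : Cfsg.IrrCharacter (Matrix.SpecialLinearGroup (Fin 2) F) // (χ : Matrix.SpecialLinearGroup (Fin 2) F → ℂ) 1 = (Fintype.card F : ℂ) - 1} = (Fintype.card F - 1) / 2 ∧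
      Nat.card {χ : Cfsg.IrrCharacter (Matrix.SpecialLinearGroup (Fin 2) F) // (χ : Matrix.SpecialLinearGroup (Fin 2) F → ℂ) 1 = (((Fintype.card F + 1) / 2 : ℕ) : ℂ)} = 2 ∧
      Nat.card {χ : Cfsg.IrrCharacter (Matrix.SpecialLinearGroup (Fin 2) F) // (χ : Matrix.SpecialLinearGroup (Fin 2) F → ℂ) 1 = (((Fintype.card F - 1) / 2 : ℕ) : ℂ)} = 2) := by
  classical
  obtain ⟨C, hC⟩ := exists_isNS (F := F)
  constructor
  · intro χ hχ
    obtain ⟨n, hn, hcases⟩ := classify_deg hC hχ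
    rw [hn]
    rcases hcases with ⟨h1, -⟩ | ⟨h1, -⟩ | ⟨h1, -⟩ | ⟨h1, -⟩ | ⟨-, h1, -⟩ | ⟨-, h1, -⟩
    · left; rw [h1]; simp
    · right; left; rw [h1]
    · right; right; left; rw [h1]; simp
    · right; right; right; left; rw [h1, cast_sub_one]
    · right; right; right; right; left; rw [h1]
    · right; right; right; right; right; rw [h1]
  · intro hq
    refine ⟨card_deg_one (by omega), card_deg_q, ?_, ?_, card_deg_half_add hodd hq, card_deg_half_sub hodd hq⟩
    · have h1 := card_deg_add_one (F := F)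
      rw [card_ne_inv, card_mulChar, card_mulChar_self_inv_odd hodd] at h1
      omega
    · have h1 := card_deg_sub_one hC (by omega)
      have := finite_hom hC
      rw [card_ne_inv, card_hom hC, card_hom_self_inv_odd hodd hC] at h1
      omega

end Cfsg.Agent.S2299
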