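import Cfsg.Statements.S0600
import Cfsg.Agent.Lib.Helper13Thompson2

set_option autoImplicit false
open Cfsg
open Subgroup Cfsg.Agent.Lib.Helper13Offender Cfsg.Agent.Lib.Helper13Basic Cfsg.Agent.Lib.Helper13Thompson Cfsg.Agent.Lib.Helper13Thompson2 Cfsg.Agent.Lib.Helper40Sylow

namespace Cfsg.Agent.S0600

/-- A normal elementary abelian p-subgroup generated by the fixed points of the Sylow p-subgroups admits no nontrivial normal p-subgroup of G modulo its centralizer. -/
theorem result {G : Type*} [Group G] [Finite G] {p : ℕ} [Fact p.Prime] (V : Subgroup G) [V.Normal] (hV : Cfsg.IsElementaryAbelian p V) (hgen : V = ⨆ S : Sylow p G, V ⊓ Subgroup.centralizer ((S : Subgroup G) : Set G)) : Cfsg.pCore p (G ⧸ Subgroup.centralizer (V : Set G)) = ⊥ := by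
  unfold Cfsg.pCore
  rw [sSup_eq_bot]
  rintro N ⟨hNn, hNp⟩
  set C := centralizer (V : Set G) with hC
  set D := N.comap (QuotientGroup.mk' C) with hD
  haveI : D.Normal := hNn.comap _
  have hmap : D.map (QuotientGroup.mk' C) = N :=
    map_comap_eq_self_of_surjective (QuotientGroup.mk'_surjective C) N
  have hrel : ∃ k : ℕ, C.relIndex D = p ^ k := by
    obtain ⟨k, hk⟩ := IsPGroup.iff_card.mp hNp
    refine ⟨k, ?_⟩
    have := relIndex_ker (QuotientGroup.mk' C) (K := D)
    rw [QuotientGroup.ker_mk', hmap, hk] at this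
    exact this
  have hVD : V ≤ centralizer (D : Set G) := by
    rw [hgen]
    apply iSup_le
    intro S
    apply le_centralizer_of_sylow hrel S inf_le_right
    exact inf_le_left.trans (le_centralizer_iff.mp le_rfl)
  have hDC : D ≤ C := le_centralizer_iff.mp hVD
  rw [← hmap, ← le_bot_iff, map_le_iff_le_comap, MonoidHom.comap_bot, QuotientGroup.ker_mk']
  exact hDC

end Cfsg.Agent.S0600
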