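import Cfsg.Statements.S0552
import Mathlib

set_option autoImplicit false
open Cfsg

namespace Cfsg.Agent.S0552

/-- iterated derived subgroups of a subgroup, computed in the ambient group -/
def dser {G : Type*} [Group G] (C : Subgroup G) : ℕ → Subgroup G
  | 0 => C
  | n + 1 => ⁅dser C n, dser C n⁆

theorem dser_normal {G : Type*} [Group G] (C : Subgroup G) [C.Normal] (n : ℕ) :
    (dser C n).Normal := by
  induction n with
  | zero => exact (inferInstance : C.Normal)
  | succ n ih => 
    haveI := ih
    exact Subgroup.commutator_normal _ _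

theorem dser_le_derivedSeries {G : Type*} [Group G] (C : Subgroup G) (n : ℕ) :
    dser C n ≤ derivedSeries G n := by
  induction n with
  | zero => exact le_top
  | succ n ih => exact Subgroup.commutator_mono ih ih

theorem dser_le {G : Type*} [Group G] (C : Subgroup G) (n : ℕ) :
    dser C n ≤ C := by
  induction n with
  | zero => exact le_rfl
  | succ n ih => 
    refine (Subgroup.commutator_mono ih ih).trans ?_
    exact Subgroup.commutator_le_self C

theorem fitting_normal (G : Type*) [Group G] : (Cfsg.fittingSubgroup G).Normal :=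
  Subgroup.sSup_normal _ (fun _ h => h.1)

theorem centralizer_fitting_le {G : Type*} [Group G] [Group.IsSolvable G] :
    Subgroup.centralizer (Cfsg.fittingSubgroup G : Set G) ≤ Cfsg.fittingSubgroup G := by
  classical
  haveI := fitting_normal G
  set F := Cfsg.fittingSubgroup G with hF
  set C := Subgroup.centralizer (F : Set G) with hC
  have hex : ∃ n, dser C n ≤ F := by
    obtain ⟨n, hn⟩ := (Group.isSolvable_def G).mp inferInstance
    exact ⟨n, (dser_le_derivedSeries C n).trans (hn ▸ bot_le)⟩
  have hfind := Nat.find_spec hex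
  rcases hn : Nat.find hex with _ | k
  · rw [hn] at hfind; exact hfind
  · exfalso
    rw [hn] at hfind
    have hk : ¬ dser C k ≤ F := Nat.find_min hex (by omega)
    apply hk
    have hnorm : (dser C k).Normal := dser_normal C k
    have hnil : Group.IsNilpotent (dser C k) := by
      apply Subgroup.isNilpotent_of_lowerCentralSeries_eq_bot (n := 2)
      rw [Subgroup.lowerCentralSeries_succ, Subgroup.lowerCentralSeries_succ,
        Subgroup.lowerCentralSeries_zero]
      apply le_bot_iff.mp
      have h1 : ⁅⁅dser C k, dser C k⁆, dser C k⁆ ≤ ⁅F, C⁆ :=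
        Subgroup.commutator_mono hfind (dser_le C k)
      refine h1.trans ?_
      rw [Subgroup.commutator_comm, Subgroup.commutator_eq_bot_iff_le_centralizer.mpr le_rfl]
    exact le_sSup ⟨hnorm, hnil⟩

/-- Let σ be an automorphism of a finite solvable group G fixing every element of the Fitting subgroup. If σ is not the identity then the order of σ and the order of G have a common prime factor. -/
theorem result {G : Type*} [Group G] [Finite G] [Group.IsSolvable G] (σ : G ≃* G) (hσ : ∀ x ∈ Cfsg.fittingSubgroup G, σ x = x) (hne : σ ≠ MulEquiv.refl G) : ¬ (orderOf σ).Coprime (Nat.card G) := by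
  intro hcop
  apply hne
  haveI := fitting_normal G
  ext g
  have hz : g⁻¹ * σ g ∈ Cfsg.fittingSubgroup G := by
    apply centralizer_fitting_le
    rw [Subgroup.mem_centralizer_iff]
    intro x hx
    have h1 : g * x * g⁻¹ ∈ Cfsg.fittingSubgroup G :=
      (fitting_normal G).conj_mem x hx g
    have h2 := hσ _ h1
    rw [map_mul, map_mul, map_inv, hσ x hx] at h2
    have h3 : σ g * x = g * x * g⁻¹ * σ g := by
      rw [← h2]; group
    calc x * (g⁻¹ * σ g) = g⁻¹ * (g * x * g⁻¹ * σ g) := by group
      _ = g⁻¹ * (σ g * x) := by rw [h3]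
      _ = g⁻¹ * σ g * x := by group
  set z := g⁻¹ * σ g with hzdef
  have hσg : σ g = g * z := by rw [hzdef]; group
  have hpow : ∀ k : ℕ, (σ ^ k) g = g * z ^ k := by
    intro k
    induction k with
    | zero => simp
    | succ k ih =>
      rw [pow_succ', MulAut.mul_apply, ih, map_mul, map_pow, hσ z hz, hσg, pow_succ']
      group
  have h1 : z ^ orderOf σ = 1 := by
    have := hpow (orderOf σ)
    rw [pow_orderOf_eq_one] at this
    simpa using this.symm
  have h2 : z ^ Nat.card G = 1 := pow_card_eq_one'
  have h3 : orderOf z ∣ 1 := by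
    rw [← Nat.Coprime.gcd_eq_one hcop]
    exact Nat.dvd_gcd (orderOf_dvd_of_pow_eq_one h1) (orderOf_dvd_of_pow_eq_one h2)
  have h4 : z = 1 := orderOf_eq_one_iff.mp (Nat.dvd_one.mp h3)
  rw [hσg, h4]; simp

end Cfsg.Agent.S0552
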