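import Cfsg.Statements.S0604
import Cfsg.Agent.Lib.Helper13Thompson

set_option autoImplicit false
open Cfsg
open Subgroup Cfsg.Agent.Lib.Helper13Offender Cfsg.Agent.Lib.Helper13Basic Cfsg.Agent.Lib.Helper13Thompson

namespace Cfsg.Agent.S0604

/-- The Thompson subgroup of G is the join of the Thompson subgroups of its Sylow p-subgroups. -/
theorem result {G : Type*} [Group G] [Finite G] {p : ℕ} [Fact p.Prime] : Cfsg.thompsonSubgroup p G = ⨆ S : Sylow p G, Cfsg.thompsonSubgroupOf p (S : Subgroup G) := by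
  obtain ⟨A0, hA0⟩ := exists_max (G := G) p
  apply le_antisymm
  · apply sSup_le
    intro A hA
    obtain ⟨S, hS⟩ := (isPGroup_of_isElementaryAbelian hA.1).exists_le_sylow
    exact (le_thompsonOf hA hS).trans (le_iSup (fun S : Sylow p G => Cfsg.thompsonSubgroupOf p (S : Subgroup G)) S)
  · apply iSup_le
    intro S
    obtain ⟨S0, hS0⟩ := (isPGroup_of_isElementaryAbelian hA0.1).exists_le_sylow
    obtain ⟨g, hg⟩ := MulAction.exists_smul_eq G S0 S
    have h1 := max_map_equiv hA0 (MulAut.conj g)
    apply thompsonOf_le h1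
    rw [← hg]
    rintro _ ⟨a, ha, rfl⟩
    rw [Sylow.coe_subgroup_smul, Subgroup.mem_pointwise_smul_iff_inv_smul_mem]
    have e : (MulAut.conj g)⁻¹ • ((MulAut.conj g).toMonoidHom a) = a := by
      simp [MulAut.smul_def]
      group
    rw [e]
    exact hS0 ha

end Cfsg.Agent.S0604
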