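import Cfsg.Statements.S0601
import Cfsg.Agent.Lib.Helper13Thompson2
import Cfsg.Agent.Lib.Helper28Fitting

set_option autoImplicit false
open Cfsg
open Subgroup Cfsg.Agent.Lib.Helper13Offender Cfsg.Agent.Lib.Helper13Basic Cfsg.Agent.Lib.Helper13Thompson Cfsg.Agent.Lib.Helper13Thompson2 Cfsg.Agent.Lib.Helper40Sylow

namespace Cfsg.Agent.S0601

theorem normal_pgroup_le_sylow {G : Type*} [Group G] [Finite G] {p : ℕ} [Fact p.Prime]
    {N : Subgroup G} (hNn : N.Normal) (hN : IsPGroup p N) (S : Sylow p G) : N ≤ S := by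
  obtain ⟨S0, h0⟩ := hN.exists_le_sylow
  obtain ⟨g, rfl⟩ := MulAction.exists_smul_eq G S0 S
  intro x hx
  rw [sylow_smul_eq_cj, mem_cj]
  apply h0
  have := hNn.conj_mem x hx g⁻¹
  simpa using this

/-- When O_p(G) contains its centralizer, the normal closure of Ω₁(Z(S)) is elementary abelian and G has no nontrivial normal p-subgroup modulo its centralizer. -/
theorem result {G : Type*} [Group G] [Finite G] {p : ℕ} [Fact p.Prime] (hc : Subgroup.centralizer (Cfsg.pCore p G : Set G) ≤ Cfsg.pCore p G) : (⨆ S : Sylow p G, Cfsg.omegaOne p (((S : Subgroup G)) ⊓ Subgroup.centralizer ((S : Subgroup G) : Set G))).Normal ∧ Cfsg.IsElementaryAbelian p (⨆ S : Sylow p G, Cfsg.omegaOne p (((S : Subgroup G)) ⊓ Subgroup.centralizer ((S : Subgroup G) : Set G))) ∧ ∀ D : Subgroup G, D.Normal → Subgroup.centralizer ((⨆ S : Sylow p G, Cfsg.omegaOne p (((S : Subgroup G)) ⊓ Subgroup.centralizer ((S : Subgroup G) : Set G)) : Subgroup G) : Set G) ≤ D → (∃ k : ℕ, (Subgroup.centralizer ((⨆ S : Sylow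 p G, Cfsg.omegaOne p (((S : Subgroup G)) ⊓ Subgroup.centralizer ((S : Subgroup G) : Set G)) : Subgroup G) : Set G)).relIndex D = p ^ k) → D = Subgroup.centralizer ((⨆ S : Sylow p G, Cfsg.omegaOne p (((S : Subgroup G)) ⊓ Subgroup.centralizer ((S : Subgroup G) : Set G)) : Subgroup G) : Set G) := by
  have hPn : (Cfsg.pCore p G).Normal := Subgroup.sSup_normal _ (fun _ h => h.1)
  have hPp : IsPGroup p (Cfsg.pCore p G) := Cfsg.Agent.Lib.Helper28Fitting.pCore_isPGroup p
  have hWn := iSup_Om_normal (G := G) p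
  refine ⟨hWn, ?_, ?_⟩
  · have hZ : IsMulCommutative (Cfsg.pCore p G ⊓ centralizer (Cfsg.pCore p G : Set G) : Subgroup G) := by
      apply isMulCommutative_of_comm
      intro a ha b hb
      exact mem_centralizer_iff.mp hb.2 a ha.1
    apply isElementaryAbelian_mono _ (omegaOne_el (p := p) hZ)
    apply iSup_le
    intro S
    unfold Cfsg.omegaOne
    apply Subgroup.closure_mono
    rintro x ⟨hx, hxp⟩
    have hPS : Cfsg.pCore p G ≤ S := normal_pgroup_le_sylow hPn hPp S
    have h1 : x ∈ centralizer (Cfsg.pCore p G : Set G) := centralizer_le hPS hx.2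
    exact ⟨⟨hc h1, h1⟩, hxp⟩
  · intro D hDn hCD hrel
    apply le_antisymm _ hCD
    rw [le_centralizer_iff]
    apply iSup_le
    intro S
    apply le_centralizer_of_sylow hrel S ((Om_le p _).trans inf_le_right)
    rw [le_centralizer_iff]
    exact centralizer_le (le_iSup (fun S : Sylow p G => Om p (S : Subgroup G)) S)

end Cfsg.Agent.S0601
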