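import Cfsg.Statements.S0608
import Cfsg.Agent.Lib.Helper13Thompson2
import Cfsg.Agent.S0604

set_option autoImplicit false
open Cfsg
open Subgroup Cfsg.Agent.Lib.Helper13Offender Cfsg.Agent.Lib.Helper13Basic Cfsg.Agent.Lib.Helper13Thompson Cfsg.Agent.Lib.Helper13Thompson2 Cfsg.Agent.Lib.Helper40Sylow

namespace Cfsg.Agent.S0608

/-- With trivial p'-core, Thompson factorizability is equivalent to J(G) centralizing the subgroup generated by all Ω₁(Z(S)), S Sylow. -/
theorem result {G : Type*} [Group G] [Finite G] {p : ℕ} [Fact p.Prime] (hO : Cfsg.pPrimeCore p G = ⊥) : Cfsg.IsThompsonFactorizable p G ↔ Cfsg.thompsonSubgroup p G ≤ Subgroup.centralizer ((⨆ S : Sylow p G, Cfsg.omegaOne p (((S : Subgroup G)) ⊓ Subgroup.centralizer ((S : Subgroup G) : Set G)) : Subgroup G) : Set G) := by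
  constructor
  · intro hfac
    rw [Cfsg.Agent.S0604.result]
    apply iSup_le
    intro S
    rw [le_centralizer_iff]
    apply iSup_le
    intro S'
    unfold Cfsg.omegaOne
    rw [closure_le]
    rintro x ⟨hxZ, hxp⟩
    rw [SetLike.mem_coe, mem_centralizer_iff]
    intro j hj
    obtain ⟨g, hg⟩ := MulAction.exists_smul_eq G S S'
    have hS' : (S' : Subgroup G) = cj g S := by rw [← hg, sylow_smul_eq_cj]
    rw [hS', centralizer_cj] at hxZ
    have hy1 : g⁻¹ * x * g ∈ (S : Subgroup G) := mem_cj.mp hxZ.1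
    have hy2 : g⁻¹ * x * g ∈ centralizer ((S : Subgroup G) : Set G) := mem_cj.mp hxZ.2
    have hyp : (g⁻¹ * x * g) ^ p = 1 := by
      have : g⁻¹ * x * g = MulAut.conj g⁻¹ x := by simp
      rw [this, ← map_pow, hxp, map_one]
    have hyO : g⁻¹ * x * g ∈ Om p (S : Subgroup G) := Subgroup.subset_closure ⟨⟨hy1, hy2⟩, hyp⟩
    obtain ⟨x0, hx0, c, hc, n, hn, hgn⟩ := hfac S g⁻¹
    rw [hO, mem_bot] at hx0
    rw [hx0, one_mul] at hgn
    have hj' : n * j * n⁻¹ ∈ Cfsg.thompsonSubgroupOf p (S : Subgroup G) :=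
      (mem_normalizer_iff.mp hn j).mp hj
    have c1 : Commute (n * j * n⁻¹) (g⁻¹ * x * g) :=
      mem_centralizer_iff.mp hy2 _ (thompsonOf_le_self p _ hj')
    have c2 : Commute c (g⁻¹ * x * g) := (mem_centralizer_iff.mp hc _ hyO).symm
    have c3 : Commute (c * (n * j * n⁻¹) * c⁻¹) (g⁻¹ * x * g) :=
      (c2.mul_left c1).mul_left c2.inv_left
    have e : c * (n * j * n⁻¹) * c⁻¹ = g⁻¹ * j * g := by
      have hg' : g = (c * n)⁻¹ := by rw [← hgn, inv_inv]
      rw [hgn, hg']; group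
    rw [e] at c3
    have c4 := c3.eq
    calc j * x = g * ((g⁻¹ * j * g) * (g⁻¹ * x * g)) * g⁻¹ := by group
      _ = g * ((g⁻¹ * x * g) * (g⁻¹ * j * g)) * g⁻¹ := by rw [c4]
      _ = x * j := by group
  · intro hJ S g
    haveI := iSup_Om_normal (G := G) p
    obtain ⟨c, hc, n, hn, rfl⟩ := frattini_elt
      (centralizer ((⨆ S : Sylow p G, Om p (S : Subgroup G) : Subgroup G) : Set G)) S g
    refine ⟨1, one_mem _, c, ?_, n, ?_, by rw [one_mul]⟩
    · exact centralizer_le (le_iSup (fun S : Sylow p G => Om p (S : Subgroup G)) S) hc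
    · have h1 : Cfsg.thompsonSubgroupOf p (S : Subgroup G) ≤ (S : Subgroup G) ⊓
          centralizer ((⨆ S : Sylow p G, Om p (S : Subgroup G) : Subgroup G) : Set G) := by
        apply le_inf (thompsonOf_le_self p _)
        refine le_trans ?_ hJ
        rw [Cfsg.Agent.S0604.result]
        exact le_iSup (fun S : Sylow p G => Cfsg.thompsonSubgroupOf p (S : Subgroup G)) S
      have h2 := thompsonOf_eq_of_le inf_le_left h1
      rw [← h2]
      exact normalizer_le_normalizer_thompsonOf p _ hn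

end Cfsg.Agent.S0608
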