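import Cfsg.Statements.S0073
import Cfsg.Agent.Lib.Helper2Automizer

set_option autoImplicit false
open Cfsg

namespace Cfsg.Agent.S0073

theorem arith {p q : ℕ} (hp : p.Prime) (_hq : q.Prime) (hpq : p < q) :
    ¬ q ∣ p - 1 := by
  intro h
  have h1 : 0 < p - 1 := Nat.sub_pos_of_lt hp.one_lt
  have := Nat.le_of_dvd h1 h
  omega

/-- For a finite non-abelian simple group, either the cube of the least prime divisor of the order divides the order, or 12 does. -/
theorem result {G : Type*} [Group G] [Finite G] [IsSimpleGroup G] (hG : ∃ x y : G, x * y ≠ y * x) : (Nat.card G).minFac ^ 3 ∣ Nat.card G ∨ 12 ∣ Nat.card G := by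
  obtain ⟨x, y, hxy⟩ := hG
  have hcard1 : Nat.card G ≠ 1 := by
    intro h
    have := (Nat.card_eq_one_iff_unique.mp h).1
    exact hxy (Subsingleton.elim _ _)
  set p := (Nat.card G).minFac with hpdef
  have hp : p.Prime := Nat.minFac_prime hcard1
  have := Fact.mk hp
  have hpG : p ∣ Nat.card G := Nat.minFac_dvd _
  by_contra hcon
  push Not at hcon
  obtain ⟨hcube, h12⟩ := hcon
  let P : Sylow p G := default
  obtain ⟨k, hk⟩ := P.2.exists_card_eq
  have hk3 : k < 3 := by
    by_contra hk3
    push Not at hk3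
    apply hcube
    calc p ^ 3 ∣ p ^ k := pow_dvd_pow p hk3
      _ = Nat.card P := hk.symm
      _ ∣ Nat.card G := Subgroup.card_subgroup_dvd_card _
  have hk0 : k ≠ 0 := by
    rintro rfl
    have h1 : p ∣ Nat.card P := P.dvd_card_of_dvd_card hpG
    rw [hk, pow_zero] at h1
    exact hp.one_lt.ne' (Nat.dvd_one.1 h1)
  have hPcomm : IsMulCommutative P := by
    have : k = 1 ∨ k = 2 := by omega
    rcases this with rfl | rfl
    · rw [pow_one] at hk
      have := isCyclic_of_prime_card hk
      exact IsCyclic.isMulCommutative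
    · exact IsPGroup.isMulCommutative_of_card_eq_prime_sq hk
  have hnot : ¬ Subgroup.normalizer (P : Set G) ≤ Subgroup.centralizer (P : Set G) := by
    intro hle
    have hc := MonoidHom.ker_transferSylow_isComplement' P hle
    rcases (MonoidHom.transferSylow P hle).normal_ker.eq_bot_or_eq_top with h | h
    · rw [h, Subgroup.isComplement'_bot_left] at hc
      have hx : x ∈ (P : Subgroup G) := hc ▸ Subgroup.mem_top x
      have hy : y ∈ (P : Subgroup G) := hc ▸ Subgroup.mem_top y
      have := mul_comm' (⟨x, hx⟩ : P) ⟨y, hy⟩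
      exact hxy (congrArg Subtype.val this)
    · rw [h, Subgroup.isComplement'_top_left] at hc
      have h1 : Nat.card P = 1 := by
        have : Nat.card (P : Subgroup G) = 1 := by rw [hc]; exact Subgroup.card_bot
        exact this
      rw [hk] at h1
      exact hk0 ((Nat.pow_eq_one.1 h1).resolve_left hp.one_lt.ne')
  apply hnot
  apply Cfsg.Agent.Lib.Helper2Automizer.normalizer_le_centralizer_of_modEq P
  intro q hq hqG hqp d hd hdne hmod
  have hpq : p < q := lt_of_le_of_ne (Nat.minFac_le_of_dvd hq.two_le hqG) (Ne.symm hqp)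
  rw [hk] at hd hdne hmod
  obtain ⟨j, hjk, rfl⟩ := (Nat.dvd_prime_pow hp).1 hd
  have hjk' : j < k := lt_of_le_of_ne hjk (fun h => hdne (h ▸ rfl))
  have hdvd : q ∣ p ^ k - p ^ j :=
    (Nat.modEq_iff_dvd' (Nat.pow_le_pow_right hp.pos hjk)).1 hmod.symm
  have hcases : (j = 0 ∧ k = 1) ∨ (j = 0 ∧ k = 2) ∨ (j = 1 ∧ k = 2) := by omega
  rcases hcases with ⟨rfl, rfl⟩ | ⟨rfl, rfl⟩ | ⟨rfl, rfl⟩
  · rw [pow_one, pow_zero] at hdvd
    exact arith hp hq hpq hdvd
  · have h1 : p ^ 2 - p ^ 0 = (p - 1) * (p + 1) := by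
      obtain ⟨r, hr⟩ : ∃ r, p = r + 1 := ⟨p - 1, by have := hp.pos; omega⟩
      rw [hr]
      simp only [pow_zero, Nat.add_sub_cancel]
      have : (r + 1) ^ 2 = r * (r + 1 + 1) + 1 := by ring
      omega
    rw [h1] at hdvd
    rcases (Nat.Prime.dvd_mul hq).1 hdvd with h | h
    · exact arith hp hq hpq h
    · have hle := Nat.le_of_dvd (Nat.succ_pos p) h
      have hqp1 : q = p + 1 := by omega
      have hp2 : p = 2 := by
        rcases hp.eq_two_or_odd with h2 | h2
        · exact h2
        · rcases hq.eq_two_or_odd with h3 | h3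
          · have := hp.two_le; omega
          · omega
      apply h12
      have h4 : 4 ∣ Nat.card G := by
        have : Nat.card P ∣ Nat.card G := Subgroup.card_subgroup_dvd_card _
        rw [hk, hp2] at this
        exact this
      have h3 : 3 ∣ Nat.card G := by
        have : q = 3 := by omega
        exact this ▸ hqG
      exact Nat.Coprime.mul_dvd_of_dvd_of_dvd (by norm_num : Nat.Coprime 4 3) h4 h3
  · have h1 : p ^ 2 - p ^ 1 = p * (p - 1) := by
      rw [Nat.mul_sub, mul_one, pow_one, sq]
    rw [h1] at hdvd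
    rcases (Nat.Prime.dvd_mul hq).1 hdvd with h | h
    · exact hqp ((Nat.prime_dvd_prime_iff_eq hq hp).1 h)
    · exact arith hp hq hpq h

end Cfsg.Agent.S0073
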