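import Cfsg.Statements.S0985
import Cfsg.Agent.Lib.Helper21Action

set_option autoImplicit false
open Cfsg

namespace Cfsg.Agent.S0985

open Cfsg.Agent.Lib.Helper21Action

/-- `P` acts on the other Sylow subgroups. -/
instance otherAction {G : Type*} [Group G] {p : ℕ} (P : Sylow p G) :
    MulAction (P : Subgroup G) {R : Sylow p G // R ≠ P} where
  smul u R := ⟨(u : G) • R.1, by
    intro h
    apply R.2
    have h1 : (u : G) • P = P :=
      Sylow.smul_eq_iff_mem_normalizer.mpr (Subgroup.le_normalizer u.2)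
    exact smul_left_cancel (u : G) (h.trans h1.symm)⟩
  one_smul R := Subtype.ext (one_smul G R.1)
  mul_smul u v R := Subtype.ext (mul_smul (u : G) (v : G) R.1)

theorem smul_val {G : Type*} [Group G] {p : ℕ} (P : Sylow p G) (u : (P : Subgroup G))
    (R : {R : Sylow p G // R ≠ P}) : (u • R).1 = (u : G) • R.1 := rfl

theorem stabilizer_eq {G : Type*} [Group G] {p : ℕ} (P : Sylow p G)
    (R : {R : Sylow p G // R ≠ P}) :
    MulAction.stabilizer (P : Subgroup G) R = (R.1 : Subgroup G).subgroupOf (P : Subgroup G) := by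
  ext u
  rw [MulAction.mem_stabilizer_iff, Subgroup.mem_subgroupOf, Subtype.ext_iff, smul_val,
    Sylow.smul_eq_iff_mem_normalizer]
  have h := P.2.inf_normalizer_sylow R.1
  constructor
  · intro hu
    have : (u : G) ∈ (P : Subgroup G) ⊓ (R.1 : Subgroup G) := h ▸ ⟨u.2, hu⟩
    exact this.2
  · intro hu
    exact Subgroup.le_normalizer hu

/-- If the number of Sylow p-subgroups of a finite group is not congruent to 1 modulo p^k, then there are two distinct Sylow p-subgroups P and R such that the index of P ∩ R in P is at most p^(k-1). -/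
theorem result {G : Type*} [Group G] [Finite G] (p k : ℕ) [Fact p.Prime] (h : ¬ Nat.card (Sylow p G) ≡ 1 [MOD p ^ k]) : ∃ P R : Sylow p G, P ≠ R ∧ ((R : Subgroup G).subgroupOf (P : Subgroup G)).index ≤ p ^ (k - 1) := by
  classical
  have hp : p.Prime := Fact.out
  by_contra hcon
  push Not at hcon
  apply h
  obtain ⟨P⟩ : Nonempty (Sylow p G) := inferInstance
  have hk : k ≠ 0 := by
    rintro rfl
    apply h
    rw [pow_zero]
    exact Nat.modEq_one
  have hdvd : p ^ k ∣ Nat.card {R : Sylow p G // R ≠ P} := by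
    apply dvd_card_of_forall_dvd_index (A := (P : Subgroup G))
    intro R
    rw [stabilizer_eq]
    have h1 := hcon P R.1 R.2.symm
    have h2 : ((R.1 : Subgroup G).subgroupOf (P : Subgroup G)).index ∣ Nat.card (P : Subgroup G) :=
      Subgroup.index_dvd_card _
    obtain ⟨a, ha⟩ := P.2.exists_card_eq
    rw [ha] at h2
    obtain ⟨j, -, hj⟩ := (Nat.dvd_prime_pow hp).mp h2
    rw [hj] at h1 ⊢
    have h3 : k - 1 < j := (Nat.pow_lt_pow_iff_right hp.one_lt).mp h1
    exact pow_dvd_pow p (by omega)
  have : Fintype (Sylow p G) := Fintype.ofFinite _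
  have hcard : Nat.card (Sylow p G) = Nat.card {R : Sylow p G // R ≠ P} + 1 := by
    rw [Nat.card_eq_fintype_card, Nat.card_eq_fintype_card, Fintype.card_subtype_compl,
      Fintype.card_subtype_eq]
    have : 0 < Fintype.card (Sylow p G) := Fintype.card_pos
    omega
  rw [hcard]
  obtain ⟨c, hc⟩ := hdvd
  rw [hc]
  unfold Nat.ModEq
  simp

end Cfsg.Agent.S0985
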