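import Cfsg.Statements.S4733
import Cfsg.Agent.Lib.Helper81Defect

set_option autoImplicit false
open Cfsg

namespace Cfsg.Agent.S4733

open Cfsg.Agent.Lib.Helper81Local Cfsg.Agent.Lib.Helper81Base Cfsg.Agent.Lib.Helper81BB
  Cfsg.Agent.Lib.Helper81Block Cfsg.Agent.Lib.Helper81Orth Cfsg.Agent.Lib.Helper81Orth2
  Cfsg.Agent.Lib.Helper81Defect

/-- Let p be a prime, M a maximal ideal of the algebraic integers containing p, and B a p-block of the finite group G with k irreducible characters and p-regular rank l (the number of irreducible Brauer characters). Then l ≤ k, and the following are equivalent: B has defect 0; k = l = 1; k = l. -/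
theorem result {G : Type*} [Group G] [Finite G] (p : ℕ) [Fact p.Prime] (M : Ideal Cfsg.AlgInt) (hM : Cfsg.IsPModular p M) (B : Set (Cfsg.IrrCharacter G)) (hB : Cfsg.IsPBlock M B) : Cfsg.blockRank p B ≤ Nat.card B ∧ (Cfsg.blockDefect p B = 0 ↔ (Nat.card B = 1 ∧ Cfsg.blockRank p B = 1)) ∧ (Cfsg.blockDefect p B = 0 ↔ Nat.card B = Cfsg.blockRank p B) := by
  classical
  have hprime := hM.2.1.isPrime
  have hfin := Fintype.ofFinite G
  have hrange : (fun χ : Cfsg.IrrCharacter G => Cfsg.pRegularPart p (χ : G → ℂ)) '' B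
      = Set.range (fun χ : B => Cfsg.pRegularPart p ((χ : Cfsg.IrrCharacter G) : G → ℂ)) := by
    ext f
    simp
  have hrank : Cfsg.blockRank p B
      = (Set.range (fun χ : B => Cfsg.pRegularPart p ((χ : Cfsg.IrrCharacter G) : G → ℂ))).finrank ℂ := by
    rw [Cfsg.blockRank, hrange]
    rfl
  have hsingle : ∀ χ : Cfsg.IrrCharacter G, B = {χ} → Nat.card B = 1 ∧ Cfsg.blockRank p B = 1 := by
    rintro χ rfl
    refine ⟨by simp, ?_⟩
    rw [Cfsg.blockRank, Set.image_singleton]
    apply finrank_span_singleton
    intro h0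
    have := congrFun h0 1
    have h1 : Cfsg.IsPRegular p (1 : G) := by
      unfold Cfsg.IsPRegular
      rw [orderOf_one]; exact hM.1.one_lt.ne' ∘ Nat.dvd_one.mp
    simp only [Cfsg.pRegularPart, if_pos h1, Pi.zero_apply] at this
    exact irr_one_ne_zero χ this
  have hd := blockDefect_eq_zero_iff hM hB
  refine ⟨?_, ?_, ?_⟩
  · rw [hrank, Nat.card_eq_fintype_card]
    exact finrank_range_le_card _
  · rw [hd]
    constructor
    · rintro ⟨χ, h⟩
      exact hsingle χ h
    · rintro ⟨h1, _⟩
      obtain ⟨χ, hχ⟩ := Nat.card_eq_one_iff_exists.mp h1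
      refine ⟨χ, ?_⟩
      ext ψ
      simp only [Set.mem_singleton_iff]
      constructor
      · intro hψ
        exact congrArg Subtype.val (hχ ⟨ψ, hψ⟩)
      · rintro rfl
        exact χ.2
  · rw [hd]
    constructor
    · rintro ⟨χ, h⟩
      obtain ⟨h1, h2⟩ := hsingle χ h
      rw [h1, h2]
    · intro h
      rw [hrank, Nat.card_eq_fintype_card] at h
      have hli := linearIndependent_iff_card_eq_finrank_span.mpr h
      obtain ⟨χ, hχ⟩ := isPBlock_nonempty hB
      refine ⟨χ, ?_⟩
      rw [isPBlock_eq_blockOf hB hχ, ← defect_zero_iff hM]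
      apply not_dvd_card_div_of_vanish hM.1
      intro y hy
      have hsum : ∑ ψ : B, (starRingEnd ℂ) (((ψ : Cfsg.IrrCharacter G) : G → ℂ) y) •
          Cfsg.pRegularPart p ((ψ : Cfsg.IrrCharacter G) : G → ℂ) = 0 := by
        funext x
        rw [Finset.sum_apply]
        simp only [Pi.smul_apply, smul_eq_mul, Pi.zero_apply, Cfsg.pRegularPart]
        by_cases hx : Cfsg.IsPRegular p x
        · simp only [if_pos hx]
          have := weak_block_orth hM hB hx hy
          rw [← Finset.sum_filter, Finset.sum_subtype (Finset.univ.filter (· ∈ B))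
            (p := (· ∈ B)) (fun ψ => by simp)] at this
          refine Eq.trans ?_ this
          apply Finset.sum_congr rfl
          intro ψ _
          ring
        · simp [if_neg hx]
      have := Fintype.linearIndependent_iff.mp hli _ hsum ⟨χ, hχ⟩
      simpa using this

end Cfsg.Agent.S4733
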