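import Cfsg.Statements.S5021
import Cfsg.Agent.Lib.Helper85Special

set_option autoImplicit false
open Cfsg

namespace Cfsg.Agent.S5021

open Cfsg.Agent.Lib.Helper85RankOne Cfsg.Agent.Lib.Helper85Special

/-- In a special rank one group with abelian unipotent subgroups A and B, either A is an elementary abelian p-group for some prime p, or A is torsion-free and divisible (every element of A has an n-th root in A for every positive n). -/
theorem result {X : Type*} [Group X] {A B : Subgroup X} (h : Cfsg.IsRankOneGroup X A B)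
    (hs : Cfsg.IsSpecialRankOnePair A B) (hab : Cfsg.HasAbelianUnipotents A B) :
    (∃ p : ℕ, p.Prime ∧ Cfsg.IsElementaryAbelian p A) ∨
    ((∀ a ∈ A, a ≠ 1 → ¬ IsOfFinOrder a) ∧ ∀ a ∈ A, ∀ n : ℕ, 0 < n → ∃ c ∈ A, c ^ n = a) := by
  have hcomm := Cfsg.Agent.Lib.Helper85RankOne.isMulCommutative_iff.mp hab.1
  by_cases htor : ∃ a ∈ A, a ≠ 1 ∧ IsOfFinOrder a
  · left
    obtain ⟨a, ha, ha1, hfin⟩ := htor
    have hn0 : orderOf a ≠ 0 := (orderOf_pos_iff.mpr hfin).ne'
    have hn1 : orderOf a ≠ 1 := fun e => ha1 (orderOf_eq_one_iff.mp e)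
    set p := (orderOf a).minFac with hp
    have hpp : p.Prime := Nat.minFac_prime hn1
    have hpd : p ∣ orderOf a := Nat.minFac_dvd _
    set a' := a ^ (orderOf a / p) with ha'
    have hord : orderOf a' = p := orderOf_pow_orderOf_div hn0 hpd
    have ha'A : a' ∈ A := A.pow_mem ha _
    have ha'1 : a' ≠ 1 := by
      intro e
      rw [e, orderOf_one] at hord
      exact hpp.one_lt.ne hord
    have ha'p : a' ^ p = 1 := by rw [← hord]; exact pow_orderOf_eq_one a'
    refine ⟨p, hpp, hab.1, ?_⟩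
    intro c hc
    by_contra hcp
    have hc1 : c ≠ 1 := by
      rintro rfl
      exact hcp (one_pow p)
    have hmul : (a' * c) ^ p = c ^ p := by
      have hcm : Commute a' c := hcomm a' ha'A c hc
      rw [hcm.mul_pow, ha'p, one_mul]
    have hac1 : a' * c ≠ 1 := by
      intro e
      rw [e, one_pow] at hmul
      exact hcp hmul.symm
    obtain ⟨b₁, hb₁⟩ := exists_partner_left hs.1 hc hc1
    obtain ⟨b₂, hb₂⟩ := exists_partner_left hs.1 (A.mul_mem ha'A hc) hac1
    obtain ⟨d, hd⟩ := exists_partner_left hs.1 (A.pow_mem hc p) hcp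
    have e1 := partner_pow p hpp.one_le A B hs c b₁ d hb₁ hd
    have e2 := partner_pow p hpp.one_le A B hs (a' * c) b₂ d hb₂ (by rw [hmul]; exact hd)
    rw [e1] at e2
    rw [← e2] at hb₂
    have := Partner.unique_left hs.1 hb₂ hb₁
    exact ha'1 (by simpa using this)
  · right
    push Not at htor
    refine ⟨htor, ?_⟩
    intro a ha n hn
    by_cases ha1 : a = 1
    · exact ⟨1, A.one_mem, by rw [ha1, one_pow]⟩
    obtain ⟨b, hb⟩ := exists_partner_left hs.1 ha ha1
    have hbn : b ^ n ≠ 1 := by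
      intro e
      apply htor a ha ha1
      rw [isOfFinOrder_iff_pow_eq_one]
      refine ⟨n, hn, ?_⟩
      have := hb.pow_eq hs n
      rw [e] at this
      have h3 : b⁻¹ * (a ^ n)⁻¹ * b = 1 := by rw [← this]; group
      have h4 : (a ^ n)⁻¹ = 1 := by
        have : (a ^ n)⁻¹ = b * (b⁻¹ * (a ^ n)⁻¹ * b) * b⁻¹ := by group
        rw [this, h3]; group
      exact inv_eq_one.mp h4
    obtain ⟨u, hu⟩ := exists_partner_right hs.1 (B.pow_mem hb.memB n) hbn
    exact ⟨u, hu.memA, partner_pow n hn B A (special_symm hs) b a u hb.symm hu.symm⟩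

end Cfsg.Agent.S5021
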