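import Cfsg.Statements.S5017
import Cfsg.Agent.Lib.Helper85RankOne

set_option autoImplicit false
open Cfsg

namespace Cfsg.Agent.S5017

open Cfsg.Agent.Lib.Helper85RankOne

theorem dichotomy {X : Type*} [Group X] {A B : Subgroup X} (h : Cfsg.IsRankOneGroup X A B)
    (N : Subgroup X) (hN : N.Normal) : N ⊔ A = ⊤ ∨ N ≤ Subgroup.center X := by
  obtain ⟨htop, hp⟩ := h
  have hnorm : ∀ x ∈ A ⊔ B, conjBy N x = N := by
    intro x _
    rw [conjBy_eq_self_iff, Subgroup.normalizer_eq_top]
    trivial
  rcases normal_dichotomy hp (N := N) (by rw [htop]; exact le_top) hnorm with h1 | h1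
  · left
    rw [htop] at h1
    exact top_le_iff.mp h1
  · right
    intro n hn
    rw [Subgroup.mem_center_iff]
    intro y
    exact (h1 n hn y (by rw [htop]; trivial)).symm

/-- Let X be a rank one group with unipotent subgroups A and B and N a normal subgroup of X. Then either X = N A or N lies in the centre of X. Consequently a perfect rank one group is quasisimple. -/
theorem result {X : Type*} [Group X] {A B : Subgroup X} (h : Cfsg.IsRankOneGroup X A B) :
    (∀ N : Subgroup X, N.Normal → N ⊔ A = ⊤ ∨ N ≤ Subgroup.center X) ∧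
    (Group.IsPerfect X → Cfsg.IsQuasisimple X) := by
  refine ⟨dichotomy h, ?_⟩
  intro hperf
  refine ⟨hperf, ?_⟩
  have hp := h.2
  have hnt : Nontrivial (X ⧸ Subgroup.center X) := by
    by_contra hnt
    rw [not_nontrivial_iff_subsingleton] at hnt
    have hc : Subgroup.center X = ⊤ := QuotientGroup.subgroup_eq_top_of_subsingleton _ hnt
    apply not_commute hp
    intro a _ b _
    have ha : a ∈ Subgroup.center X := by rw [hc]; trivial
    exact (Subgroup.mem_center_iff.mp ha b).symm
  refine ⟨fun M hM => ?_⟩
  have hNn : (M.comap (QuotientGroup.mk' (Subgroup.center X))).Normal := hM.comap _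
  rcases dichotomy h _ hNn with h1 | h1
  · right
    set N := M.comap (QuotientGroup.mk' (Subgroup.center X)) with hNdef
    have hsurj : Function.Surjective ((QuotientGroup.mk' N).comp A.subtype) := by
      intro q
      obtain ⟨x, rfl⟩ := QuotientGroup.mk'_surjective N q
      have hx : x ∈ N ⊔ A := by rw [h1]; trivial
      rw [Subgroup.mem_sup_of_normal_left] at hx
      obtain ⟨n, hn, a, ha, rfl⟩ := hx
      refine ⟨⟨a, ha⟩, ?_⟩
      simp only [MonoidHom.coe_comp, Function.comp_apply, Subgroup.subtype_apply,
        QuotientGroup.mk'_apply]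
      rw [QuotientGroup.eq]
      have : a⁻¹ * (n * a) = a⁻¹ * n * a⁻¹⁻¹ := by group
      rw [this]
      exact hNn.conj_mem n hn a⁻¹
    have hnil : Group.IsNilpotent (X ⧸ N) := by
      have := hp.nilpotent_left
      exact Group.nilpotent_of_surjective _ hsurj
    have hsub : Subsingleton (X ⧸ N) := by
      by_contra hns
      rw [not_subsingleton_iff_nontrivial] at hns
      exact Group.IsPerfect.not_isNilpotent (X ⧸ N) hnil
    have hNtop : N = ⊤ := QuotientGroup.subgroup_eq_top_of_subsingleton _ hsub
    rw [eq_top_iff]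
    intro q _
    obtain ⟨x, rfl⟩ := QuotientGroup.mk'_surjective _ q
    have hx : x ∈ N := by rw [hNtop]; trivial
    exact hx
  · left
    rw [eq_bot_iff]
    intro q hq
    obtain ⟨x, rfl⟩ := QuotientGroup.mk'_surjective _ q
    have hx : x ∈ Subgroup.center X := h1 hq
    rw [Subgroup.mem_bot]
    exact (QuotientGroup.eq_one_iff x).mpr hx

end Cfsg.Agent.S5017
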