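import Cfsg.Statements.S5140
import Cfsg.Agent.Lib.Helper89GT
import Cfsg.Agent.Lib.H37PrDefs
import Cfsg.Agent.Lib.H37PrK0
import Cfsg.Agent.Lib.H37PrL
import Cfsg.Agent.Lib.H37PrBridge
import Cfsg.Agent.Lib.H37PrCore
import Cfsg.Agent.Lib.H37PrExt

set_option autoImplicit false
open Cfsg

namespace Cfsg.Agent.S5140

open Cfsg.FusionSystem Cfsg.Agent.Lib.Helper87Fusion Cfsg.Agent.Lib.H37PrDefs

/-- Let F be a saturated fusion system over a finite p-group S. Then F has a p'-residual subsystem: a saturated subsystem over S of index prime to p contained in every saturated subsystem over S of index prime to p. -/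
theorem result {Ω : Type*} [Group Ω] {S : Subgroup Ω} [Finite S] (p : ℕ) [Fact p.Prime] (hS : IsPGroup p S) (F : Cfsg.FusionSystem S) (hF : F.IsSaturated p) : ∃ E : Cfsg.FusionSystem S, F.IsPPrimeResidual p E := by
  have hG := Cfsg.Agent.Lib.H37PrK0.good F p
  have hE := Cfsg.Agent.Lib.H37PrK0.ext F p
  have hStop : F.IsCentric S := by
    refine ⟨le_rfl, fun Q hQ => ?_⟩
    have hQS : Q ≤ S := isConj_le_right hQ
    have hcard : Nat.card Q = Nat.card S := isConj_card_eq hQ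
    have : Q = S := Subgroup.eq_of_le_of_card_ge hQS hcard.ge
    rw [this]
    exact centralizerIn_le S S
  obtain ⟨F₀, hsat, -, hidx, -, hmin⟩ := Cfsg.Agent.Lib.Helper89GT.gt hS F hF
    {P | F.IsCentric P} (K0 F p)
    (fun P hP => hP.1)
    (fun P hP Q hQ => Cfsg.Agent.Lib.Helper87Fusion2.isCentric_of_isConj hP hQ)
    (fun P hP Q hPQ hQ => Cfsg.Agent.Lib.Helper87Fusion2.isCentric_of_le hP hPQ hQ)
    hStop
    (fun P hP => hP.1)
    hG.congr hG.conj hG.comp hG.inv
    (fun P P' f hP hPP' hf hK => hE P P' f hP hPP' hf hK)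
    (fun P f _ hf => Cfsg.Agent.Lib.H37PrL.frattini hS hF hG hf)
    hG.invar
    (fun P hP hPn => absurd hP hPn)
  refine ⟨F₀, hsat, hidx, fun D hD hDi => ?_⟩
  have hDF := Cfsg.Agent.Lib.H37PrBridge.le hDi
  have hgen := Cfsg.Agent.Lib.H37PrBridge.gen hDi
  exact hmin D (fun P _ f _ hK => Cfsg.Agent.Lib.H37PrCore.self
    (Cfsg.Agent.Lib.H37PrK0.le (Cfsg.Agent.Lib.H37PrCore.good hDF hgen)
      (Cfsg.Agent.Lib.H37PrExt.ext hS hF hDF hD hgen) hK))

end Cfsg.Agent.S5140
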