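import Cfsg.Statements.S0713
import Cfsg.Agent.Lib.Helper16Sylow
import Mathlib

set_option autoImplicit false
open Cfsg

namespace Cfsg.Agent.S0713

open Cfsg.Agent.Lib.Helper16Sylow
open Equiv Equiv.Perm MulAction

set_option linter.unusedSectionVars false

variable {α : Type*} [Fintype α] [DecidableEq α]

theorem card_fixing (s : Finset α) :
    Nat.card (fixingSubgroup (Perm α) ((s : Set α)ᶜ)) = s.card.factorial := by
  have h1 := (Equiv.Perm.isMultiplyPretransitive (α := α) ((s : Set α)ᶜ).ncard).index_of_fixingSubgroup_mul rfl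
  have h2 := Subgroup.index_mul_card (fixingSubgroup (Perm α) ((s : Set α)ᶜ))
  rw [Nat.card_perm] at h2
  have h3 : Nat.card α - ((s : Set α)ᶜ).ncard = s.card := by
    have := Set.ncard_add_ncard_compl (s : Set α)
    rw [Set.ncard_coe_finset] at this
    omega
  rw [h3, ← h2] at h1
  have hpos : 0 < (fixingSubgroup (Perm α) ((s : Set α)ᶜ)).index :=
    Nat.pos_of_ne_zero Subgroup.index_ne_zero_of_finite
  exact (Nat.eq_of_mul_eq_mul_left hpos h1).symm

theorem exists_agree (G : Subgroup (Perm α)) (Δ : Finset α)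
    (hk : IsMultiplyPretransitive G α Δ.card) (σ : Perm α) : ∃ h ∈ G, ∀ x ∈ Δ, h x = σ x := by
  let e := Δ.equivFin.symm
  let x : Fin Δ.card ↪ α := e.toEmbedding.trans (Function.Embedding.subtype _)
  obtain ⟨h, hh⟩ := hk.exists_smul_eq x (x.trans σ.toEmbedding)
  refine ⟨h, h.2, ?_⟩
  intro z hz
  have := DFunLike.congr_fun hh (e.symm ⟨z, hz⟩)
  simp only [x, Function.Embedding.smul_apply, Function.Embedding.trans_apply,
    Equiv.coe_toEmbedding, Equiv.apply_symm_apply, Function.Embedding.subtype_apply] at this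
  exact this

theorem disjoint_swap (g : Perm α) {u v : α} (hu : g u = u) (hv : g v = v) :
    Perm.Disjoint (swap u v) g := by
  intro x
  by_cases h1 : x = u
  · right; rw [h1, hu]
  · by_cases h2 : x = v
    · right; rw [h2, hv]
    · left; exact swap_apply_of_ne_of_ne h1 h2

theorem fix_of_disjoint {g s : Perm α} (hd : Perm.Disjoint s g) {x : α} (hx : g x = x) :
    g (s x) = s x := by
  have := hd.commute.eq
  have h2 := congrArg (fun τ : Perm α => τ x) this
  simp only [Perm.mul_apply, hx] at h2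
  exact h2.symm

theorem agree_mul {g n s n' s' : Perm α} (h1 : ∀ x, g x = x → n x = s x)
    (h2 : ∀ x, g x = x → n' x = s' x) (hd : Perm.Disjoint s' g) :
    ∀ x, g x = x → (n * n') x = (s * s') x := by
  intro x hx
  rw [Perm.mul_apply, Perm.mul_apply, h2 x hx, h1 _ (fix_of_disjoint hd hx)]

theorem agree_inv {g n s : Perm α} (h1 : ∀ x, g x = x → n x = s x) (hd : Perm.Disjoint s g) :
    ∀ x, g x = x → n⁻¹ x = s⁻¹ x := by
  intro x hx
  have h2 := fix_of_disjoint hd.inv_left hx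
  have h3 := h1 _ h2
  rw [Perm.inv_eq_iff_eq, h3]
  simp

theorem not_sq_dvd_factorial {p : ℕ} (hp : p.Prime) : ¬ p * p ∣ p.factorial := by
  intro h
  obtain ⟨q, rfl⟩ : ∃ q, p = q + 1 := ⟨p - 1, by have := hp.pos; omega⟩
  rw [Nat.factorial_succ] at h
  have h2 : (q + 1) ∣ q.factorial := Nat.dvd_of_mul_dvd_mul_left (Nat.succ_pos q) h
  have := (hp.dvd_factorial).1 h2
  omega

theorem frattini (G : Subgroup (Perm α)) {p : ℕ} (hp : p.Prime) {g : Perm α} (hgc : g.IsCycle)
    (hgp : g.support.card = p) (hg : g ∈ G) (h : Perm α) (hh : h ∈ G)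
    (hpres : ∀ x, g x = x → g (h⁻¹ x) = h⁻¹ x) (hpres' : ∀ x, g x = x → g (h x) = h x) :
    ∃ n ∈ G, (∀ x, g x = x → n x = h x) ∧ n * g * n⁻¹ ∈ Subgroup.zpowers g := by
  have : Fact p.Prime := ⟨hp⟩
  set F := fixingSubgroup (Perm α) ((g.support : Set α)ᶜ) with hF
  have hmemF : ∀ k : Perm α, k ∈ F ↔ ∀ x, g x = x → k x = x := by
    intro k
    rw [hF, mem_fixingSubgroup_iff]
    simp
  have hgF : g ∈ F := (hmemF g).2 fun x hx => hx
  have hT : IsSylowIn p (Subgroup.zpowers g) (G ⊓ F) := by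
    have hle : Subgroup.zpowers g ≤ G ⊓ F := by
      rw [Subgroup.zpowers_le]
      exact ⟨hg, hgF⟩
    have hcard : Nat.card (Subgroup.zpowers g) = p := by
      rw [Nat.card_zpowers, hgc.orderOf, hgp]
    refine ⟨hle, IsPGroup.of_card (n := 1) (by rw [hcard, pow_one]), ?_⟩
    intro hdvd
    have h1 : Nat.card (Subgroup.zpowers g) * (Subgroup.zpowers g).relIndex (G ⊓ F) = Nat.card (G ⊓ F : Subgroup (Perm α)) := by
      rw [← Subgroup.relIndex_bot_left, ← Subgroup.relIndex_bot_left]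
      exact Subgroup.relIndex_mul_relIndex ⊥ _ _ bot_le hle
    have h2 : Nat.card (G ⊓ F : Subgroup (Perm α)) ∣ p.factorial := by
      rw [← hgp, ← card_fixing]
      exact Subgroup.card_dvd_of_le inf_le_right
    apply not_sq_dvd_factorial hp
    refine dvd_trans ?_ h2
    rw [← h1, hcard]
    exact Nat.mul_dvd_mul_left _ hdvd
  have hQ : cj h (Subgroup.zpowers g) ≤ G ⊓ F := by
    intro y hy
    rw [mem_cj] at hy
    have hyG : y ∈ G := by
      have h1 : h⁻¹ * y * h ∈ G := (Subgroup.zpowers_le.2 hg) hy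
      have h2 := G.mul_mem (G.mul_mem hh h1) (G.inv_mem hh)
      have e : h * (h⁻¹ * y * h) * h⁻¹ = y := by group
      rwa [e] at h2
    refine Subgroup.mem_inf.2 ⟨hyG, ?_⟩
    rw [hmemF]
    intro x hx
    have h1 : h⁻¹ * y * h ∈ F := (Subgroup.zpowers_le.2 hgF) hy
    have h2 := (hmemF _).1 h1 _ (hpres x hx)
    simp only [Perm.mul_apply] at h2
    have h3 : h (h⁻¹ x) = x := by simp
    rw [h3] at h2
    have h4 := congrArg h h2
    simpa using h4
  obtain ⟨x, hx, hle⟩ := hT.exists_conj_le (isPGroup_cj hT.2.1 h) hQ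
  refine ⟨x * h, G.mul_mem hx.1 hh, ?_, ?_⟩
  · intro z hz
    rw [Perm.mul_apply]
    exact (hmemF x).1 hx.2 _ (hpres' z hz)
  · apply hle
    rw [← cj_mul]
    exact conj_mem_cj (Subgroup.mem_zpowers g)

theorem comm_of_conj {g n1 n2 : Perm α} (h1 : n1 * g * n1⁻¹ ∈ Subgroup.zpowers g)
    (h2 : n2 * g * n2⁻¹ ∈ Subgroup.zpowers g) :
    Commute ((n2 * n1)⁻¹ * (n1 * n2)) g := by
  obtain ⟨a, ha⟩ := h1
  obtain ⟨b, hb⟩ := h2
  have ha' : g ^ a = n1 * g * n1⁻¹ := ha
  have hb' : g ^ b = n2 * g * n2⁻¹ := hb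
  have e1 : (n1 * n2) * g * (n1 * n2)⁻¹ = g ^ (a * b) := by
    have : (n1 * n2) * g * (n1 * n2)⁻¹ = n1 * (n2 * g * n2⁻¹) * n1⁻¹ := by group
    rw [this, ← hb', ← conj_zpow, ← ha', zpow_mul]
  have e2 : (n2 * n1) * g * (n2 * n1)⁻¹ = g ^ (a * b) := by
    have : (n2 * n1) * g * (n2 * n1)⁻¹ = n2 * (n1 * g * n1⁻¹) * n2⁻¹ := by group
    rw [this, ← ha', ← conj_zpow, ← hb', mul_comm a b, zpow_mul]
  have e3 := e1.trans e2.symm
  unfold Commute SemiconjBy
  have e4 : (n1 * n2) * g = (n2 * n1) * g * (n2 * n1)⁻¹ * (n1 * n2) := by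
    rw [← e3]; group
  calc (n2 * n1)⁻¹ * (n1 * n2) * g = (n2 * n1)⁻¹ * ((n1 * n2) * g) := by group
    _ = (n2 * n1)⁻¹ * ((n2 * n1) * g * (n2 * n1)⁻¹ * (n1 * n2)) := by rw [e4]
    _ = g * ((n2 * n1)⁻¹ * (n1 * n2)) := by group

theorem eq_of_commute {g c τ : Perm α} (hgc : g.IsCycle) (hc : Commute c g)
    (hag : ∀ x, g x = x → c x = τ x) (hd : Perm.Disjoint τ g) :
    ∃ i : ℤ, (g ^ i)⁻¹ * c = τ := by
  obtain ⟨a, ha, hcyc⟩ := hgc
  have hcomm : ∀ x, c (g x) = g (c x) := by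
    intro x
    have := congrArg (fun σ : Perm α => σ x) hc.eq
    simpa using this
  have hca : g (c a) ≠ c a := by
    rw [← hcomm]
    intro h
    exact ha (c.injective h)
  obtain ⟨i, hi⟩ := hcyc hca
  refine ⟨i, ?_⟩
  ext x
  by_cases hx : g x = x
  · rw [Perm.mul_apply, hag x hx]
    have h1 := fix_of_disjoint hd hx
    rw [Perm.inv_eq_iff_eq]
    exact ((Perm.zpow_apply_eq_self_of_apply_eq_self h1 i)).symm
  · obtain ⟨j, hj⟩ := hcyc hx
    have h1 : τ x = x := (hd x).resolve_right hx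
    rw [Perm.mul_apply, h1, Perm.inv_eq_iff_eq, ← hj]
    have h2 : c ((g ^ j) a) = (g ^ j) (c a) := by
      have := congrArg (fun σ : Perm α => σ a) (hc.zpow_right j).eq
      simpa using this
    rw [h2, ← hi, ← Perm.mul_apply, ← Perm.mul_apply, ← zpow_add, ← zpow_add, add_comm]

/-- Jordan's Theorem: a primitive permutation group of degree `n ≥ 5` containing a `p`-cycle for a prime `p ≤ n - 3` contains the alternating group. -/
theorem result {α : Type*} [Fintype α] [DecidableEq α] (G : Subgroup (Equiv.Perm α)) (hG : MulAction.IsPreprimitive G α) {p : ℕ} (hp : p.Prime) (hn : 5 ≤ Fintype.card α) (hpn : p + 3 ≤ Fintype.card α) {g : Equiv.Perm α} (hgc : g.IsCycle) (hgp : g.support.card = p) (hg : g ∈ G) : alternatingGroup α ≤ G := by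
  obtain ⟨m, hm⟩ : ∃ m, Fintype.card α = p + (m + 1) := ⟨Fintype.card α - p - 1, by omega⟩
  have hsc : Set.ncard ((g.support : Set α)ᶜ) = m + 1 := by
    apply Nat.add_left_cancel
    rw [Set.ncard_add_ncard_compl, Set.ncard_coe_finset, hgp, Nat.card_eq_fintype_card, hm]
  have htr := isPretransitive_of_isCycle_mem hgc hg
  have hprim : IsPreprimitive (fixingSubgroup G ((g.support : Set α)ᶜ))
      (SubMulAction.ofFixingSubgroup G ((g.support : Set α)ᶜ)) := by
    classical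
    apply IsPreprimitive.of_prime_card
    convert hp
    rw [Nat.card_eq_fintype_card, Fintype.card_subtype, ← hgp]
    apply congr_arg
    ext x
    simp [SubMulAction.mem_ofFixingSubgroup_iff]
  have h3 : IsMultiplyPreprimitive G α (m + 2) := by
    apply hG.isMultiplyPreprimitive hsc _ hprim
    rw [Nat.card_eq_fintype_card, hm]
    have := hp.two_le
    omega
  have h4 : IsMultiplyPretransitive G α (m + 2) := inferInstance
  have hcardΔ : (g.supportᶜ).card = m + 1 := by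
    rw [Finset.card_compl, hgp, hm]; omega
  have h5 : IsMultiplyPretransitive G α (g.supportᶜ).card := by
    rw [hcardΔ]
    apply isMultiplyPretransitive_of_le (n := m + 2) (by omega)
    rw [Nat.card_eq_fintype_card, hm]
    have := hp.two_le
    omega
  have h6 : 2 < (g.supportᶜ).card := by rw [hcardΔ]; omega
  obtain ⟨d1, hd1, d2, hd2, d3, hd3, h12, h13, h23⟩ := Finset.two_lt_card.1 h6
  have hfix : ∀ x, x ∈ g.supportᶜ ↔ g x = x := by
    intro x; simp
  rw [hfix] at hd1 hd2 hd3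
  have hs1 := disjoint_swap g hd1 hd2
  have hs2 := disjoint_swap g hd2 hd3
  have key : ∀ s : Perm α, Perm.Disjoint s g → ∃ n ∈ G, (∀ x, g x = x → n x = s x) ∧
      n * g * n⁻¹ ∈ Subgroup.zpowers g := by
    intro s hs
    obtain ⟨h, hh, hhs⟩ := exists_agree G (g.supportᶜ) h5 s
    have hhs' : ∀ x, g x = x → h x = s x := fun x hx => hhs x ((hfix x).2 hx)
    obtain ⟨n, hn, hn1, hn2⟩ := frattini G hp hgc hgp hg h hh
      (fun x hx => by rw [agree_inv hhs' hs x hx]; exact fix_of_disjoint hs.inv_left hx)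
      (fun x hx => by rw [hhs' x hx]; exact fix_of_disjoint hs hx)
    exact ⟨n, hn, fun x hx => (hn1 x hx).trans (hhs' x hx), hn2⟩
  obtain ⟨n1, hn1, ha1, hc1⟩ := key _ hs1
  obtain ⟨n2, hn2, ha2, hc2⟩ := key _ hs2
  have hcomm := comm_of_conj hc1 hc2
  have hag : ∀ x, g x = x → ((n2 * n1)⁻¹ * (n1 * n2)) x
      = ((swap d2 d3 * swap d1 d2)⁻¹ * (swap d1 d2 * swap d2 d3)) x :=
    agree_mul (agree_inv (agree_mul ha2 ha1 hs1) (hs2.mul_left hs1)) (agree_mul ha1 ha2 hs2)
      (hs1.mul_left hs2)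
  have hdτ : Perm.Disjoint ((swap d2 d3 * swap d1 d2)⁻¹ * (swap d1 d2 * swap d2 d3)) g :=
    ((hs2.mul_left hs1).inv_left).mul_left (hs1.mul_left hs2)
  obtain ⟨i, hi⟩ := eq_of_commute hgc hcomm hag hdτ
  have hmem : ((swap d2 d3 * swap d1 d2)⁻¹ * (swap d1 d2 * swap d2 d3)) ∈ G := by
    rw [← hi]
    exact G.mul_mem (G.inv_mem (G.zpow_mem hg i))
      (G.mul_mem (G.inv_mem (G.mul_mem hn2 hn1)) (G.mul_mem hn1 hn2))
  have h3c : IsThreeCycle ((swap d2 d3 * swap d1 d2)⁻¹ * (swap d1 d2 * swap d2 d3)) := by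
    have e : (swap d2 d3 * swap d1 d2)⁻¹ * (swap d1 d2 * swap d2 d3)
        = (swap d2 d1 * swap d2 d3) * (swap d2 d1 * swap d2 d3) := by
      rw [mul_inv_rev, swap_inv, swap_inv, swap_comm d1 d2]
    rw [e]
    exact (isThreeCycle_swap_mul_swap_same h12.symm h23 h13).isThreeCycle_sq
  exact alternatingGroup_le_of_isPreprimitive_of_isThreeCycle_mem hG h3c hmem

end Cfsg.Agent.S0713
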