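import Cfsg.Statements.S4219
-- import your own Cfsg.Agent.* helpers here

set_option autoImplicit false
open Cfsg

namespace Cfsg.Agent.S4219

open scoped Pointwise

theorem key {G : Type*} [Group G] [Finite G] {α : Type*} [MulAction G α] {t : ℕ}
    (hG : MulAction.IsMultiplyPretransitive G α t) (x : Fin t ↪ α) {p : ℕ} [Fact p.Prime]
    (H : Subgroup G) (hH : ∀ g, g ∈ H ↔ g • x = x)
    (P : Sylow p H) (a : Fin t ↪ α)
    (ha : ∀ i, a i ∈ MulAction.fixedPoints ((P : Subgroup H).map H.subtype) α) :
    ∃ g ∈ Subgroup.normalizer ((((P : Subgroup H).map H.subtype) : Subgroup G) : Set G), g • a = x := by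
  obtain ⟨g, hg⟩ := MulAction.exists_smul_eq G a x
  have hqa : ∀ q ∈ (P : Subgroup H).map H.subtype, q • a = a := by
    intro q hq
    ext i
    exact ha i ⟨q, hq⟩
  have hQ'H : ((P : Subgroup H).map H.subtype).map (MulAut.conj g).toMonoidHom ≤ H := by
    rintro _ ⟨q, hq, rfl⟩
    rw [hH]
    show (g * q * g⁻¹) • x = x
    rw [← hg, mul_smul, mul_smul, inv_smul_smul, hqa q hq]
  have hcard : Nat.card ((((P : Subgroup H).map H.subtype).map (MulAut.conj g).toMonoidHom).subgroupOf H)
      = p ^ (Nat.card H).factorization p := by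
    rw [← P.card_eq_multiplicity, Nat.card_congr (Subgroup.subgroupOfEquivOfLe hQ'H).toEquiv,
      Subgroup.card_map_of_injective (MulAut.conj g).injective,
      Subgroup.card_map_of_injective H.subtype_injective]
  obtain ⟨h, hh⟩ := MulAction.exists_smul_eq H (Sylow.ofCard _ hcard) P
  have hP : (P : Subgroup H) = MulAut.conj h •
      ((((P : Subgroup H).map H.subtype).map (MulAut.conj g).toMonoidHom).subgroupOf H) := by
    have := congrArg (fun R : Sylow p H => (R : Subgroup H)) hh
    simp only [Sylow.coe_subgroup_smul, Sylow.coe_ofCard] at this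
    exact this.symm
  refine ⟨h * g, ?_, ?_⟩
  · rw [Subgroup.mem_normalizer_iff_map_conj_eq]
    apply Subgroup.eq_of_le_of_card_ge
    · rintro _ ⟨q, hq, rfl⟩
      have hq' : g * q * g⁻¹ ∈ ((P : Subgroup H).map H.subtype).map (MulAut.conj g).toMonoidHom :=
        ⟨q, hq, rfl⟩
      refine ⟨h * ⟨g * q * g⁻¹, hQ'H hq'⟩ * h⁻¹, ?_, ?_⟩
      · rw [SetLike.mem_coe, hP]
        exact Subgroup.smul_mem_pointwise_smul _ (MulAut.conj h) _ (Subgroup.mem_subgroupOf.mpr hq')
      · simp [mul_assoc]
    · rw [Subgroup.card_map_of_injective (f := ((MulAut.conj (↑h * g) : MulAut G) : G →* G))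
        (MulAut.conj _).injective]
  · rw [mul_smul, hg]
    exact (hH _).mp h.2

/-- Let a finite group `G` act `t`-fold transitively on a finite set, let `H` be the stabilizer of `t` distinct points and `P` a Sylow `p`-subgroup of `H`. Then the normalizer of `P` in `G` is `t`-fold transitive on the fixed points of `P`: any `t` distinct fixed points of `P` can be carried to any other `t` distinct fixed points of `P` by an element normalizing `P`. -/
theorem result {G : Type*} [Group G] [Finite G] {α : Type*} [Fintype α] [MulAction G α] {t : ℕ} (hG : MulAction.IsMultiplyPretransitive G α t) (x : Fin t ↪ α) {p : ℕ} [Fact p.Prime] (P : Sylow p (MulAction.stabilizer G x)) (a b : Fin t ↪ α) (ha : ∀ i, a i ∈ MulAction.fixedPoints ((P : Subgroup (MulAction.stabilizer G x)).map (MulAction.stabilizer G x).subtype) α) (hb : ∀ i, b i ∈ MulAction.fixedPoints ((P : Subgroup (MulAction.stabilizer G x)).map (MulAction.stabilizer G x).subtype) α) : ∃ g ∈ Subgroup.normalizer ((((P : Subgroup (MulAction.stabilizer G x)).map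 (MulAction.stabilizer G x).subtype) : Subgroup G) : Set G), g • a = b := by
  obtain ⟨g₁, hg₁, h₁⟩ := key hG x _ (fun _ => Iff.rfl) P a ha
  obtain ⟨g₂, hg₂, h₂⟩ := key hG x _ (fun _ => Iff.rfl) P b hb
  refine ⟨g₂⁻¹ * g₁, Subgroup.mul_mem _ (Subgroup.inv_mem _ hg₂) hg₁, ?_⟩
  rw [mul_smul, h₁, ← h₂, inv_smul_smul]

end Cfsg.Agent.S4219
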