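import Cfsg.Statements.S3761
import Cfsg.Agent.Lib.H93SCAct
import Cfsg.Agent.Lib.H93SCNtOdd
import Cfsg.Agent.Lib.H93SCNtTwo
import Cfsg.Agent.Lib.H93SCPartA
import Cfsg.Agent.Lib.H93SCIdx
import Cfsg.Agent.Lib.H93SCOm
import Cfsg.Agent.Lib.H93SCCharA
import Cfsg.Agent.Lib.H93SCCharB

set_option autoImplicit false
open Cfsg

namespace Cfsg.Agent.S3761

open Cfsg.Agent.Helper93SCDefs in
theorem partB {G : Type*} [Group G] [Finite G] {p n : ℕ} [Fact p.Prime] {U : Subgroup G} (D : Dat G p n U)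
    (hG : IsPGroup p G) (hn : 2 ≤ n) (hn2 : p = 2 → 3 ≤ n) (y : G)
    (hy : (D.κ y : ZMod (p ^ n)) = 1 + (p : ZMod (p ^ n)) ^ (n - 1)) :
    U.relIndex (Subgroup.centralizer (Cfsg.powerClosure p 1 U : Set G)) = p ∧
    Cfsg.IsElementaryAbelian p (Cfsg.omegaOne p (Subgroup.centralizer (Cfsg.powerClosure p 1 U : Set G))) ∧
    Nat.card ↥(Cfsg.omegaOne p (Subgroup.centralizer (Cfsg.powerClosure p 1 U : Set G))) = p ^ 2 ∧
    (Cfsg.omegaOne p (Subgroup.centralizer (Cfsg.powerClosure p 1 U : Set G))).Characteristic := by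
  refine ⟨H93SCIdx.relIndex_eq D hn y hy, (H93SCOm.omega_M D hn hn2 y hy).1,
    (H93SCOm.omega_M D hn hn2 y hy).2, ?_⟩
  by_cases h4 : p = 2 → ∀ g : G, (D.κ g : ZMod (p ^ n)).val % 4 = 1
  · exact H93SCCharA.char_of_cyclic_action D hG (by omega) h4
  · push Not at h4
    obtain ⟨hp, g, hg⟩ := h4
    subst hp
    exact H93SCCharB.char_of_neg D hn g hg

/-- Let G be a finite non-abelian p-group with a cyclic normal subgroup U of order p^n such that C_G(U) = U. Then either p = 2 and G is dihedral, generalized quaternion or semidihedral of order 2^(n+1); or, writing U₁ for the subgroup generated by the p-th powers of elements of U and M = C_G(U₁), the subgroup U has index p in M and the subgroup Ω₁(M) generated by the elements of M of order dividing p is elementary abelian of order p² and characteristic in G. -/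
theorem result {G : Type*} [Group G] [Finite G] {p : ℕ} [Fact p.Prime] (hG : IsPGroup p G) (hna : ¬ IsMulCommutative G) (U : Subgroup G) [U.Normal] (hU : IsCyclic U) (n : ℕ) (hUn : Nat.card U = p ^ n) (hC : Subgroup.centralizer (U : Set G) = U) : (p = 2 ∧ Nat.card G = 2 ^ (n + 1) ∧ ((∃ m : ℕ, Nonempty (G ≃* DihedralGroup m)) ∨ (∃ m : ℕ, Nonempty (G ≃* QuaternionGroup m)) ∨ Cfsg.IsQuasiDihedral G)) ∨ (U.relIndex (Subgroup.centralizer (Cfsg.powerClosure p 1 U : Set G)) = p ∧ Cfsg.IsElementaryAbelian p (Cfsg.omegaOne p (Subgroup.centralizer (Cfsg.powerClosure p 1 U : Set G))) ∧ Nat.card ↥(Cfsg.omegaOne p (Subgroup.centralizer (Cfsg.powerClosure p 1 U : Set G))) = p ^ 2 ∧ (Cfsg.omegaOne p (Subgroup.centralizer (Cfsg.powerClosure p 1 U : Set G))).Characteristic) := by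
  obtain ⟨D⟩ := H93SCAct.exists_dat U hU n hUn hC
  have hA1 : D.κ.range ≠ ⊥ := by
    intro h
    apply hna
    have hall : ∀ g : G, g ∈ U := fun g => (D.hker g).mp (by
      have h1 : D.κ g ∈ D.κ.range := ⟨g, rfl⟩
      rw [h] at h1
      exact Subgroup.mem_bot.mp h1)
    refine ⟨⟨fun a b => ?_⟩⟩
    obtain ⟨i, rfl⟩ := D.mem_iff.mp (hall a)
    obtain ⟨j, rfl⟩ := D.mem_iff.mp (hall b)
    exact ((Commute.refl D.u).pow_pow i.val j.val)
  have hA : IsPGroup p D.κ.range :=
    IsPGroup.of_surjective hG D.κ.rangeRestrict D.κ.rangeRestrict_surjective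
  by_cases hp : p = 2
  · subst hp
    rcases H93SCNtTwo.two_cases D.κ.range hA1 with ⟨hn, k, ⟨y, rfl⟩, hke⟩ | ⟨hn, hcard, k, ⟨g, rfl⟩, hke⟩
    · right
      exact partB D hG (by omega) (fun _ => hn) y (by rw [hke]; norm_num)
    · left
      exact ⟨rfl, H93SCPartA.partA D hn hcard g hke⟩
  · right
    obtain ⟨hn, k, ⟨y, rfl⟩, hke⟩ := H93SCNtOdd.exists_e_odd hp D.κ.range hA hA1
    exact partB D hG hn (fun h => absurd h hp) y hke

end Cfsg.Agent.S3761
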