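import Cfsg.Statements.S0838
import Mathlib

set_option autoImplicit false
open Cfsg

namespace Cfsg.Agent.S0838

open QuadraticMap QuadraticForm

variable {F : Type*} [Field F] {ι : Type*} [Fintype ι] [DecidableEq ι]

theorem sum_split (h : ι → F) (i j : ι) (hij : i ≠ j) :
    ∑ k, h k = h i + (h j + ∑ k ∈ (Finset.univ.erase i).erase j, h k) := by
  rw [← Finset.add_sum_erase Finset.univ h (Finset.mem_univ i),
    ← Finset.add_sum_erase (Finset.univ.erase i) h
      (Finset.mem_erase.mpr ⟨hij.symm, Finset.mem_univ j⟩)]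

theorem two_coord (w : ι → F) (i j : ι) (hij : i ≠ j) (x y : F)
    (hxy : w i * x ^ 2 + w j * y ^ 2 = 1) :
    Equivalent (weightedSumSquares F (Function.update (Function.update w i 1) j (w i * w j)))
      (weightedSumSquares F w) := by
  set a := w i with ha
  set b := w j with hb
  let f : (ι → F) →ₗ[F] (ι → F) := LinearMap.pi (fun k =>
    if k = i then x • LinearMap.proj i - (b * y) • LinearMap.proj j
    else if k = j then y • LinearMap.proj i + (a * x) • LinearMap.proj j
    else LinearMap.proj k)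
  let g : (ι → F) →ₗ[F] (ι → F) := LinearMap.pi (fun k =>
    if k = i then (a * x) • LinearMap.proj i + (b * y) • LinearMap.proj j
    else if k = j then (-y) • LinearMap.proj i + x • LinearMap.proj j
    else LinearMap.proj k)
  have hfi : ∀ v, f v i = x * v i - b * y * v j := by intro v; simp [f]
  have hfj : ∀ v, f v j = y * v i + a * x * v j := by intro v; simp [f, hij.symm]
  have hfk : ∀ v k, k ≠ i → k ≠ j → f v k = v k := by intro v k h1 h2; simp [f, h1, h2]
  have hgi : ∀ v, g v i = a * x * v i + b * y * v j := by intro v; simp [g]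
  have hgj : ∀ v, g v j = -y * v i + x * v j := by intro v; simp [g, hij.symm]
  have hgk : ∀ v k, k ≠ i → k ≠ j → g v k = v k := by intro v k h1 h2; simp [g, h1, h2]
  have hfg : f ∘ₗ g = LinearMap.id := by
    apply LinearMap.ext
    intro v
    funext k
    simp only [LinearMap.comp_apply, LinearMap.id_apply]
    by_cases h1 : k = i
    · subst h1
      rw [hfi, hgi, hgj]
      linear_combination (v k) * hxy
    · by_cases h2 : k = j
      · subst h2
        rw [hfj, hgi, hgj]
        linear_combination (v k) * hxy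
      · rw [hfk _ _ h1 h2, hgk _ _ h1 h2]
  have hgf : g ∘ₗ f = LinearMap.id := by
    apply LinearMap.ext
    intro v
    funext k
    simp only [LinearMap.comp_apply, LinearMap.id_apply]
    by_cases h1 : k = i
    · subst h1
      rw [hgi, hfi, hfj]
      linear_combination (v k) * hxy
    · by_cases h2 : k = j
      · subst h2
        rw [hgj, hfi, hfj]
        linear_combination (v k) * hxy
      · rw [hgk _ _ h1 h2, hfk _ _ h1 h2]
  let E : (ι → F) ≃ₗ[F] (ι → F) := LinearEquiv.ofLinearMap f g hfg hgf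
  refine ⟨⟨E, ?_⟩⟩
  intro v
  show weightedSumSquares F w (f v) = _
  simp only [weightedSumSquares_apply, smul_eq_mul]
  rw [sum_split _ i j hij, sum_split (fun k => Function.update (Function.update w i 1) j (a * b) k * (v k * v k)) i j hij]
  have hrest : ∑ k ∈ (Finset.univ.erase i).erase j, w k * (f v k * f v k) =
      ∑ k ∈ (Finset.univ.erase i).erase j,
        Function.update (Function.update w i 1) j (a * b) k * (v k * v k) := by
    refine Finset.sum_congr rfl fun k hk => ?_
    have h2 : k ≠ j := (Finset.mem_erase.mp hk).1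
    have h1 : k ≠ i := (Finset.mem_erase.mp (Finset.mem_erase.mp hk).2).1
    rw [hfk _ _ h1 h2, Function.update_of_ne h2, Function.update_of_ne h1]
  rw [hrest, hfi, hfj, Function.update_self, Function.update_of_ne hij, Function.update_self,
    ← ha, ← hb]
  linear_combination (v i * v i + a * b * (v j * v j)) * hxy

theorem exists_rep [Fintype F] (h2 : (2 : F) ≠ 0) (a b : F) (ha : a ≠ 0) (hb : b ≠ 0) :
    ∃ x y : F, a * x ^ 2 + b * y ^ 2 = 1 := by
  have hchar : ringChar F ≠ 2 := by
    intro h
    apply h2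
    have : ((ringChar F : ℕ) : F) = 0 := ringChar.Nat.cast_ringChar
    rw [h] at this
    exact_mod_cast this
  have hcard : Fintype.card F % 2 = 1 := FiniteField.odd_card_of_char_ne_two hchar
  open Polynomial in
  obtain ⟨x, y, hxy⟩ := FiniteField.exists_root_sum_quadratic
    (f := C a * X ^ 2) (g := C b * X ^ 2 - C 1)
    (by rw [degree_C_mul_X_pow 2 ha]; rfl)
    (by rw [degree_sub_C (by rw [degree_C_mul_X_pow 2 hb]; norm_num), degree_C_mul_X_pow 2 hb]; rfl) hcard
  refine ⟨x, y, ?_⟩
  simp at hxy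
  linear_combination hxy

theorem normal_form_aux [Fintype F] (h2 : (2 : F) ≠ 0) (w : ι → F) (hw : ∀ i, w i ≠ 0) (i0 : ι)
    (T : Finset ι) (hT : i0 ∉ T) :
    Equivalent (weightedSumSquares F w) (weightedSumSquares F
      (fun i => if i ∈ T then 1 else if i = i0 then w i0 * ∏ t ∈ T, w t else w i)) := by
  induction T using Finset.induction_on with
  | empty =>
    have : (fun i => if i ∈ (∅ : Finset ι) then 1 else if i = i0 then w i0 * ∏ t ∈ (∅ : Finset ι), w t
        else w i) = w := by
      funext i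
      by_cases h : i = i0
      · simp [h]
      · simp [h]
    rw [this]
  | insert t T ht ih =>
    have hi0t : i0 ≠ t := fun h => hT (h ▸ Finset.mem_insert_self _ _)
    have hi0T : i0 ∉ T := fun h => hT (Finset.mem_insert_of_mem h)
    refine (ih hi0T).trans ?_
    set wT : ι → F := fun i => if i ∈ T then 1 else if i = i0 then w i0 * ∏ t ∈ T, w t else w i
      with hwT
    have e1 : wT t = w t := by simp [hwT, ht, hi0t.symm]
    have e2 : wT i0 = w i0 * ∏ t ∈ T, w t := by simp [hwT, hi0T]
    have hne2 : wT i0 ≠ 0 := by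
      rw [e2]
      exact mul_ne_zero (hw i0) (Finset.prod_ne_zero_iff.mpr fun t _ => hw t)
    obtain ⟨x, y, hxy⟩ := exists_rep h2 (wT t) (wT i0) (by rw [e1]; exact hw t) hne2
    have key := (two_coord wT t i0 hi0t.symm x y hxy).symm
    convert key using 2
    funext k
    by_cases hk0 : k = i0
    · subst hk0
      rw [Function.update_self, e1, e2, Finset.prod_insert ht]
      simp [hT]
      ring
    · rw [Function.update_of_ne hk0]
      by_cases hkt : k = t
      · subst hkt
        simp
      · rw [Function.update_of_ne hkt]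
        simp [hwT, hkt, hk0]

theorem normal_form [Fintype F] (h2 : (2 : F) ≠ 0) (w : ι → F) (hw : ∀ i, w i ≠ 0) (i0 : ι) :
    Equivalent (weightedSumSquares F w) (weightedSumSquares F
      (fun i => if i = i0 then ∏ t, w t else 1)) := by
  have key := normal_form_aux h2 w hw i0 (Finset.univ.erase i0) (Finset.notMem_erase _ _)
  convert key using 2
  funext k
  by_cases hk : k = i0
  · subst hk
    simp [Finset.mul_prod_erase]
  · simp [hk]

/-- Over a finite field with 2 ≠ 0 and n odd: two quadratic forms Q₁, Q₂ on F^n with non-degenerate polar forms are similar — there are an invertible linear map g and a scalar c ≠ 0 with Q₂ (g v) = c · Q₁ v for all v. -/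
theorem result {F : Type*} [Field F] [Fintype F] (h2 : (2 : F) ≠ 0) {n : ℕ} (hn : Odd n) (Q₁ Q₂ : QuadraticForm F (Fin n → F)) (h₁ : (QuadraticMap.polarBilin Q₁).Nondegenerate) (h₂ : (QuadraticMap.polarBilin Q₂).Nondegenerate) : ∃ (g : (Fin n → F) ≃ₗ[F] (Fin n → F)) (c : F), c ≠ 0 ∧ ∀ v, Q₂ (g v) = c * Q₁ v := by
  have : Invertible (2 : F) := invertibleOfNonzero h2
  have sep : ∀ Q : QuadraticForm F (Fin n → F), (QuadraticMap.polarBilin Q).Nondegenerate →
      (associated (R := F) Q).SeparatingLeft := by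
    intro Q hQ x hx
    apply hQ.1 x
    intro y
    have h := hx y
    rw [← two_nsmul_associated F Q]
    simp only [LinearMap.smul_apply, h, smul_zero]
  obtain ⟨w₁, ⟨e₁⟩⟩ := equivalent_weightedSumSquares_units_of_nondegenerate' Q₁ (sep Q₁ h₁)
  obtain ⟨w₂, ⟨e₂⟩⟩ := equivalent_weightedSumSquares_units_of_nondegenerate' Q₂ (sep Q₂ h₂)
  have hD : ∀ (w : Fin (Module.finrank F (Fin n → F)) → Fˣ) v,
      weightedSumSquares F w v = weightedSumSquares F (fun i => (w i : F)) v := by
    intro w v
    simp [weightedSumSquares_apply, Units.smul_def]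
  set u₁ : Fin (Module.finrank F (Fin n → F)) → F := fun i => (w₁ i : F) with hu₁
  set u₂ : Fin (Module.finrank F (Fin n → F)) → F := fun i => (w₂ i : F) with hu₂
  have hu₁0 : ∀ i, u₁ i ≠ 0 := fun i => (w₁ i).ne_zero
  have hu₂0 : ∀ i, u₂ i ≠ 0 := fun i => (w₂ i).ne_zero
  let i0 : Fin (Module.finrank F (Fin n → F)) := ⟨0, by rw [Module.finrank_fin_fun]; exact hn.pos⟩
  set δ₁ := ∏ i, u₁ i with hδ₁
  set δ₂ := ∏ i, u₂ i with hδ₂
  have hδ₁0 : δ₁ ≠ 0 := Finset.prod_ne_zero_iff.mpr fun i _ => hu₁0 i
  have hδ₂0 : δ₂ ≠ 0 := Finset.prod_ne_zero_iff.mpr fun i _ => hu₂0 i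
  set c := δ₂ * δ₁ with hc
  have hc0 : c ≠ 0 := mul_ne_zero hδ₂0 hδ₁0
  obtain ⟨k, hk⟩ := hn
  obtain ⟨hA⟩ := normal_form h2 (fun i => c * u₁ i) (fun i => mul_ne_zero hc0 (hu₁0 i)) i0
  obtain ⟨hB⟩ := normal_form h2 u₂ hu₂0 i0
  have hprod : ∏ i, c * u₁ i = c ^ n * δ₁ := by
    rw [Finset.prod_mul_distrib, Finset.prod_const, Finset.card_univ, Fintype.card_fin]
    congr 2
    exact Module.finrank_fin_fun F
  rw [hprod] at hA
  have hC : IsometryEquiv
      (weightedSumSquares F (fun i => if i = i0 then c ^ n * δ₁ else 1))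
      (weightedSumSquares F (fun i => if i = i0 then δ₂ else 1)) := by
    refine isometryEquivWeightedSumSquaresWeightedSumSquares
      (fun i => if i = i0 then Units.mk0 (c ^ k * δ₁) (mul_ne_zero (pow_ne_zero _ hc0) hδ₁0) else 1) ?_
    intro i
    by_cases hi : i = i0
    · simp only [hi, if_true, Units.val_mk0]
      rw [hk, hc]
      ring
    · simp [hi]
  let H := hA.trans (hC.trans hB.symm)
  refine ⟨e₁.toLinearEquiv ≪≫ₗ H.toLinearEquiv ≪≫ₗ e₂.symm.toLinearEquiv, c, hc0, ?_⟩
  intro v
  show Q₂ (e₂.symm (H (e₁ v))) = c * Q₁ v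
  rw [e₂.symm.map_app, hD, H.map_app, ← e₁.map_app, hD]
  simp only [weightedSumSquares_apply, smul_eq_mul, Finset.mul_sum, mul_assoc]
  rfl

end Cfsg.Agent.S0838
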