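import Cfsg.Statements.S0212
import Mathlib

set_option autoImplicit false
open Cfsg

namespace Cfsg.Agent.S0212

theorem card_le_factorial_index {G : Type*} [Group G] [Finite G] [IsSimpleGroup G] (H : Subgroup G)
    (hH : H ≠ ⊤) : Nat.card G ≤ Nat.factorial H.index := by
  have hker : (MulAction.toPermHom G (G ⧸ H)).ker = ⊥ := by
    rw [← Subgroup.normalCore_eq_ker]
    rcases (Subgroup.normalCore_normal H).eq_bot_or_eq_top with h | h
    · exact h
    · exfalso
      apply hH
      rw [eq_top_iff, ← h]
      exact Subgroup.normalCore_le H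
  have hinj : Function.Injective (MulAction.toPermHom G (G ⧸ H)) :=
    (MonoidHom.ker_eq_bot_iff _).mp hker
  have := Nat.card_le_card_of_injective _ hinj
  rwa [Nat.card_perm] at this

theorem card_conj_eq_le {G : Type*} [Group G] [Fintype G] [DecidableEq G] (x y : G) :
    (Finset.univ.filter (fun a : G => a * x * a⁻¹ = y)).card ≤
      Nat.card (Subgroup.centralizer ({x} : Set G)) := by
  classical
  rcases (Finset.univ.filter (fun a : G => a * x * a⁻¹ = y)).eq_empty_or_nonempty with h | ⟨a₀, ha₀⟩
  · rw [h]; simp
  · rw [Finset.mem_filter] at ha₀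
    have ha₀ := ha₀.2
    rw [Nat.card_eq_fintype_card, ← Finset.card_univ]
    apply Finset.card_le_card_of_injOn
      (fun a => if h : a₀⁻¹ * a ∈ Subgroup.centralizer ({x} : Set G) then ⟨a₀⁻¹ * a, h⟩ else 1)
    · intro a _; simp
    · intro a ha b hb hab
      have hmem : ∀ a : G, a * x * a⁻¹ = y → a₀⁻¹ * a ∈ Subgroup.centralizer ({x} : Set G) := by
        intro a ha
        rw [Subgroup.mem_centralizer_singleton_iff]
        have h1 : a * x = y * a := by rw [← ha]; group
        have h2 : a₀⁻¹ * y = x * a₀⁻¹ := by rw [← ha₀]; group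
        calc a₀⁻¹ * a * x = a₀⁻¹ * (a * x) := by group
          _ = a₀⁻¹ * y * a := by rw [h1]; group
          _ = x * (a₀⁻¹ * a) := by rw [h2]; group
      simp only [Finset.coe_filter, Finset.mem_univ, true_and, Set.mem_setOf_eq] at ha hb
      simp only [dif_pos (hmem a ha), dif_pos (hmem b hb)] at hab
      have := congrArg Subtype.val hab
      simpa using this

/-- The Brauer–Fowler bound: if G is a finite simple group and t an involution of G whose centralizer has order n, then |G| ≤ (2n^2)!. -/
theorem result {G : Type*} [Group G] [Finite G] [IsSimpleGroup G] (t : G) (ht : orderOf t = 2) : Nat.card G ≤ Nat.factorial (2 * (Nat.card (Subgroup.centralizer ({t} : Set G))) ^ 2) := by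
  classical
  haveI : Fintype G := Fintype.ofFinite G
  set c := Nat.card (Subgroup.centralizer ({t} : Set G)) with hc
  have hcpos : 0 < c := Nat.card_pos
  by_cases htop : Subgroup.centralizer ({t} : Set G) = ⊤
  · have : Nat.card G = c := by rw [hc, htop, Subgroup.card_top]
    rw [this]
    calc c ≤ 2 * c ^ 2 := by nlinarith
      _ ≤ _ := Nat.self_le_factorial _
  -- the centre is trivial
  have hcent : ∀ x : G, x ≠ 1 → Subgroup.centralizer ({x} : Set G) ≠ ⊤ := by
    intro x hx1 hx
    have hxc : x ∈ Subgroup.center G := by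
      rw [Subgroup.mem_center_iff]
      intro g
      have : g ∈ Subgroup.centralizer ({x} : Set G) := by rw [hx]; trivial
      rw [Subgroup.mem_centralizer_singleton_iff] at this
      exact this
    rcases (inferInstance : (Subgroup.center G).Normal).eq_bot_or_eq_top with h | h
    · rw [h, Subgroup.mem_bot] at hxc
      exact hx1 hxc
    · apply htop
      rw [eq_top_iff]
      intro g _
      rw [Subgroup.mem_centralizer_singleton_iff]
      have : t ∈ Subgroup.center G := by rw [h]; trivial
      rw [Subgroup.mem_center_iff] at this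
      exact this g
  by_contra hbig
  push Not at hbig
  have hidx : ∀ x : G, x ≠ 1 → 2 * c ^ 2 + 1 ≤ (Subgroup.centralizer ({x} : Set G)).index := by
    intro x hx
    by_contra hlt
    push Not at hlt
    have h1 := card_le_factorial_index _ (hcent x hx)
    have h2 : Nat.factorial (Subgroup.centralizer ({x} : Set G)).index ≤ Nat.factorial (2 * c ^ 2) :=
      Nat.factorial_le (by omega)
    omega
  set g := Nat.card G with hg
  have hCx : ∀ x : G, x ≠ 1 →
      Nat.card (Subgroup.centralizer ({x} : Set G)) * (2 * c ^ 2 + 1) ≤ g := by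
    intro x hx
    rw [hg, ← (Subgroup.centralizer ({x} : Set G)).card_mul_index]
    exact Nat.mul_le_mul_left _ (hidx x hx)
  have h2c : 2 * c ≤ g := by
    have h1 := (Subgroup.centralizer ({t} : Set G)).card_mul_index
    have h2 : (Subgroup.centralizer ({t} : Set G)).index ≠ 1 := by
      rw [Ne, Subgroup.index_eq_one]; exact htop
    have h3 : (Subgroup.centralizer ({t} : Set G)).index ≠ 0 := Subgroup.index_ne_zero_of_finite
    have h4 : 2 ≤ (Subgroup.centralizer ({t} : Set G)).index := by omega
    rw [hg, ← h1, mul_comm]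
    exact Nat.mul_le_mul_left _ h4
  set I : Finset G := Finset.univ.filter (fun u => orderOf u = 2) with hI
  set m := I.card with hm
  have hsq : ∀ u ∈ I, u * u = 1 := by
    intro u hu
    rw [hI, Finset.mem_filter] at hu
    have := pow_orderOf_eq_one u
    rwa [hu.2, pow_two] at this
  -- g ≤ c * m
  have hgm : g ≤ c * m := by
    have h1 := Finset.card_le_mul_card_image (f := fun a : G => a * t * a⁻¹) Finset.univ c
      (by
        intro y _
        exact card_conj_eq_le t y)
    have h2 : (Finset.univ.image (fun a : G => a * t * a⁻¹)).card ≤ m := by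
      apply Finset.card_le_card
      intro y hy
      rw [Finset.mem_image] at hy
      obtain ⟨a, _, rfl⟩ := hy
      rw [hI, Finset.mem_filter]
      refine ⟨Finset.mem_univ _, ?_⟩
      have := orderOf_injective (MulAut.conj a).toMonoidHom (MulAut.conj a).injective t
      rw [← ht, ← this]
      simp
    rw [Finset.card_univ, ← Nat.card_eq_fintype_card] at h1
    calc g ≤ c * _ := h1
      _ ≤ c * m := Nat.mul_le_mul_left _ h2
  -- fibre counting
  have hfib : ∀ x : G, ((I ×ˢ I).filter (fun p => p.1 * p.2 = x)).card ≤
      (Finset.univ.filter (fun a : G => a * x * a⁻¹ = x⁻¹)).card := by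
    intro x
    apply Finset.card_le_card_of_injOn (fun p => p.1)
    · intro p hp
      simp only [Finset.coe_filter, Finset.mem_product, Set.mem_setOf_eq] at hp
      obtain ⟨⟨hu, hv⟩, hx⟩ := hp
      simp only [Finset.coe_filter, Finset.mem_univ, true_and, Set.mem_setOf_eq]
      have hu2 := hsq _ hu
      have hv2 := hsq _ hv
      have hui : p.1⁻¹ = p.1 := inv_eq_of_mul_eq_one_left hu2
      have hvi : p.2⁻¹ = p.2 := inv_eq_of_mul_eq_one_left hv2
      rw [← hx, mul_inv_rev, hui, hvi, ← mul_assoc, hu2, one_mul]
    · intro p hp q hq hpq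
      simp only [Finset.coe_filter, Finset.mem_product, Set.mem_setOf_eq] at hp hq
      simp only at hpq
      apply Prod.ext hpq
      have := hp.2.trans hq.2.symm
      rw [hpq] at this
      exact mul_left_cancel this
  have hfib1 : ((I ×ˢ I).filter (fun p => p.1 * p.2 = 1)).card ≤ m := by
    apply Finset.card_le_card_of_injOn (fun p => p.1)
    · intro p hp
      simp only [Finset.coe_filter, Finset.mem_product, Set.mem_setOf_eq] at hp
      exact hp.1.1
    · intro p hp q hq hpq
      simp only [Finset.coe_filter, Finset.mem_product, Set.mem_setOf_eq] at hp hq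
      simp only at hpq
      apply Prod.ext hpq
      have := hp.2.trans hq.2.symm
      rw [hpq] at this
      exact mul_left_cancel this
  have hsum : m * m = ∑ x : G, ((I ×ˢ I).filter (fun p => p.1 * p.2 = x)).card := by
    rw [hm, ← Finset.card_product]
    exact Finset.card_eq_sum_card_fiberwise (fun _ _ => Finset.mem_univ _)
  have hmain : (2 * c ^ 2 + 1) * (m * m) ≤ (2 * c ^ 2 + 1) * m + (g - 1) * g := by
    rw [hsum, Finset.mul_sum, ← Finset.add_sum_erase _ _ (Finset.mem_univ (1 : G))]
    apply Nat.add_le_add
    · exact Nat.mul_le_mul_left _ hfib1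
    · calc ∑ x ∈ Finset.univ.erase (1 : G), (2 * c ^ 2 + 1) * ((I ×ˢ I).filter (fun p => p.1 * p.2 = x)).card
          ≤ ∑ x ∈ Finset.univ.erase (1 : G), g := by
            apply Finset.sum_le_sum
            intro x hx
            have hx1 : x ≠ 1 := Finset.ne_of_mem_erase hx
            calc (2 * c ^ 2 + 1) * ((I ×ˢ I).filter (fun p => p.1 * p.2 = x)).card
                ≤ (2 * c ^ 2 + 1) * Nat.card (Subgroup.centralizer ({x} : Set G)) :=
                  Nat.mul_le_mul_left _ ((hfib x).trans (card_conj_eq_le x x⁻¹))
              _ ≤ g := by rw [mul_comm]; exact hCx x hx1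
        _ = (g - 1) * g := by
            rw [Finset.sum_const, Finset.card_erase_of_mem (Finset.mem_univ _), Finset.card_univ,
              ← Nat.card_eq_fintype_card, smul_eq_mul]
  -- arithmetic contradiction
  have hgpos : 1 ≤ g := by omega
  zify [hgpos] at hmain hgm h2c
  have hcz : (1 : ℤ) ≤ c := by exact_mod_cast hcpos
  have hmz : (0 : ℤ) ≤ m := by positivity
  have hgz : (1 : ℤ) ≤ g := by exact_mod_cast hgpos
  set M : ℤ := (c : ℤ) * m with hM
  have e1 : (2 * (c : ℤ) ^ 2 + 1) * ((m : ℤ) * m) - (2 * (c : ℤ) ^ 2 + 1) * m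
      = 2 * M * (M - c) + ((m : ℤ) * m - m) := by rw [hM]; ring
  have e2 : (g : ℤ) * g ≤ 2 * M * (M - c) := by nlinarith
  have e3 : (0 : ℤ) ≤ (m : ℤ) * m - m := by
    rcases Nat.eq_zero_or_pos m with h | h
    · rw [h]; simp
    · have : (1 : ℤ) ≤ m := by exact_mod_cast h
      nlinarith
  nlinarith

end Cfsg.Agent.S0212
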