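import Mathlib
import Cfsg.Statements.S2395

set_option autoImplicit false
open Cfsg

namespace Cfsg.Agent.S2395

open Cfsg.Lie Cfsg.Lie.ChevalleyDatum

section general

variable (D : ChevalleyDatum) (K : Type*) [Field K]

def Good (γ : ℕ) : Prop := ∀ v : K, D.scGen K γ v ∈ commutator (D.SteinbergCover K)

theorem scGen_add (r : ℕ) (hr : r < D.nroots) (t₁ t₂ : K) :
    D.scGen K r t₁ * D.scGen K r t₂ = D.scGen K r (t₁ + t₂) := by
  unfold scGen
  rw [← map_mul]
  apply PresentedGroup.mk_eq_mk_of_mul_inv_mem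
  exact Or.inl ⟨r, t₁, t₂, hr, rfl⟩

theorem scGen_zero (r : ℕ) (hr : r < D.nroots) : D.scGen K r 0 = 1 := by
  have := scGen_add D K r hr 0 0
  rw [add_zero] at this
  exact mul_eq_left.1 this

theorem scGen_neg (r : ℕ) (hr : r < D.nroots) (t : K) : (D.scGen K r t)⁻¹ = D.scGen K r (-t) := by
  rw [inv_eq_iff_mul_eq_one, scGen_add D K r hr, add_neg_cancel, scGen_zero D K r hr]

theorem word_mem (r s : ℕ) (hr : r < D.nroots) (hs : s < D.nroots) (h1 : s ≠ r) (h2 : s ≠ D.neg r)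
    (t u : K) :
    PresentedGroup.mk (D.steinbergRelsAB K) (D.stWord (D.commWord K r s t u)) ∈
      commutator (D.SteinbergCover K) := by
  have h : PresentedGroup.mk (D.steinbergRelsAB K)
      ((D.stX s u)⁻¹ * (D.stX r t)⁻¹ * D.stX s u * D.stX r t) =
      PresentedGroup.mk (D.steinbergRelsAB K) (D.stWord (D.commWord K r s t u)) := by
    apply PresentedGroup.mk_eq_mk_of_mul_inv_mem
    exact Or.inr ⟨r, s, t, u, hr, hs, h1, h2, rfl⟩
  rw [← h]
  simp only [map_mul, map_inv]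
  have := Subgroup.commutator_mem_commutator
    (Subgroup.mem_top ((PresentedGroup.mk (D.steinbergRelsAB K) (D.stX s u))⁻¹))
    (Subgroup.mem_top ((PresentedGroup.mk (D.steinbergRelsAB K) (D.stX r t))⁻¹))
  rw [commutatorElement_def, inv_inv, inv_inv] at this
  exact this

theorem mk_stWord_cons (p : ℕ × K) (w : List (ℕ × K)) :
    PresentedGroup.mk (D.steinbergRelsAB K) (D.stWord (p :: w)) =
      D.scGen K p.1 p.2 * PresentedGroup.mk (D.steinbergRelsAB K) (D.stWord w) := by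
  simp [stWord, scGen]

theorem mk_stWord_nil :
    PresentedGroup.mk (D.steinbergRelsAB K) (D.stWord ([] : List (ℕ × K))) = 1 := by
  simp [stWord]

theorem mk_stWord_mem (w : List (ℕ × K)) (h : ∀ e ∈ w, Good D K e.1) :
    PresentedGroup.mk (D.steinbergRelsAB K) (D.stWord w) ∈ commutator (D.SteinbergCover K) := by
  induction w with
  | nil => rw [mk_stWord_nil]; exact one_mem _
  | cons p w ih =>
    rw [mk_stWord_cons]
    exact mul_mem (h p (by simp) p.2) (ih fun e he => h e (by simp [he]))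

theorem ruleA (γ r s : ℕ) (c : ℤ) (hr : r < D.nroots) (hs : s < D.nroots) (h1 : s ≠ r)
    (h2 : s ≠ D.neg r) (hc : c = 1 ∨ c = -1) (h : D.commTerms r s = [(γ, c, 1, 1)]) :
    Good D K γ := by
  intro v
  have hw := word_mem D K r s hr hs h1 h2 (-(c : K) * v) 1
  unfold commWord at hw
  rw [h] at hw
  simp only [List.map_cons, List.map_nil, mk_stWord_cons, mk_stWord_nil, mul_one] at hw
  have e : (c : K) * (-(-(c : K) * v)) ^ 1 * 1 ^ 1 = v := by
    rcases hc with rfl | rfl <;> simp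
  rwa [e] at hw

theorem ruleB (γ₁ γ₂ r s : ℕ) (c₁ c₂ : ℤ) (rest : List (ℕ × ℤ × ℕ × ℕ))
    (hγ₁ : γ₁ < D.nroots) (hγ₂ : γ₂ < D.nroots)
    (hr : r < D.nroots) (hs : s < D.nroots) (h1 : s ≠ r)
    (h2 : s ≠ D.neg r) (hc₁ : c₁ = 1 ∨ c₁ = -1) (hc₂ : c₂ = 1 ∨ c₂ = -1)
    (h : D.commTerms r s = (γ₁, c₁, 1, 1) :: (γ₂, c₂, 2, 1) :: rest)
    (hrest : ∀ e ∈ rest, Good D K e.1) (hK : ∃ x : K, x ≠ 0 ∧ x ≠ 1) :
    Good D K γ₁ ∧ Good D K γ₂ := by
  have key : ∀ t u : K, D.scGen K γ₁ ((c₁ : K) * (-t) * u) * D.scGen K γ₂ ((c₂ : K) * t ^ 2 * u) ∈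
      commutator (D.SteinbergCover K) := by
    intro t u
    have hw := word_mem D K r s hr hs h1 h2 t u
    unfold commWord at hw
    rw [h] at hw
    simp only [List.map_cons, mk_stWord_cons] at hw
    have hr' : PresentedGroup.mk (D.steinbergRelsAB K) (D.stWord
        (rest.map fun c => (c.1, (c.2.1 : K) * (-t) ^ c.2.2.1 * u ^ c.2.2.2))) ∈
        commutator (D.SteinbergCover K) := by
      apply mk_stWord_mem
      intro e he
      obtain ⟨e', he', rfl⟩ := List.mem_map.1 he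
      exact hrest e' he'
    rw [← mul_assoc] at hw
    have := (Subgroup.mul_mem_cancel_right _ hr').1 hw
    simpa using this
  have g2 : Good D K γ₂ := by
    obtain ⟨x, hx0, hx1⟩ := hK
    intro v
    have hne : x ^ 2 - x ≠ 0 := by
      have : x ^ 2 - x = x * (x - 1) := by ring
      rw [this]
      exact mul_ne_zero hx0 (sub_ne_zero.2 hx1)
    set u : K := (c₂ : K) * v / (x ^ 2 - x) with hu
    have k1 := key x u
    have k2 := key 1 (x * u)
    have k3 := mul_mem (inv_mem k2) k1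
    have e1 : (c₁ : K) * (-1) * (x * u) = (c₁ : K) * (-x) * u := by ring
    rw [e1, mul_inv_rev, mul_assoc, inv_mul_cancel_left, scGen_neg D K γ₂ hγ₂,
      scGen_add D K γ₂ hγ₂] at k3
    have e2 : -((c₂ : K) * 1 ^ 2 * (x * u)) + (c₂ : K) * x ^ 2 * u = v := by
      have hcc : (c₂ : K) * (c₂ : K) = 1 := by rcases hc₂ with rfl | rfl <;> simp
      have hu2 : (x ^ 2 - x) * u = (c₂ : K) * v := by
        rw [hu]; field_simp
      linear_combination (c₂ : K) * hu2 + v * hcc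
    rwa [e2] at k3
  refine ⟨?_, g2⟩
  intro v
  have k1 := key (-(c₁ : K) * v) 1
  have := (Subgroup.mul_mem_cancel_right _ (g2 _)).1 k1
  have e : (c₁ : K) * (-(-(c₁ : K) * v)) * 1 = v := by
    rcases hc₁ with rfl | rfl <;> simp
  rwa [e] at this

def WitOK (W : Array (ℕ × ℕ × ℤ)) : Prop :=
  ∀ γ ∈ List.range D.nroots,
    (W.getD γ (0, 0, 0)).1 < D.nroots ∧ (W.getD γ (0, 0, 0)).2.1 < D.nroots ∧
    (W.getD γ (0, 0, 0)).2.1 ≠ (W.getD γ (0, 0, 0)).1 ∧
    (W.getD γ (0, 0, 0)).2.1 ≠ D.neg (W.getD γ (0, 0, 0)).1 ∧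
    ((W.getD γ (0, 0, 0)).2.2 = 1 ∨ (W.getD γ (0, 0, 0)).2.2 = -1) ∧
    D.commTerms (W.getD γ (0, 0, 0)).1 (W.getD γ (0, 0, 0)).2.1 = [(γ, (W.getD γ (0, 0, 0)).2.2, 1, 1)]

instance (W : Array (ℕ × ℕ × ℤ)) : Decidable (WitOK D W) := by
  unfold WitOK; infer_instance

theorem good_of_witOK (W : Array (ℕ × ℕ × ℤ)) (h : WitOK D W) (γ : ℕ) (hγ : γ < D.nroots) :
    Good D K γ := by
  obtain ⟨a, b, c, d, e, f⟩ := h γ (List.mem_range.2 hγ)
  exact ruleA D K γ _ _ _ a b c d e f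

theorem top_of_good (h : ∀ γ < D.nroots, Good D K γ) : commutator (D.SteinbergCover K) = ⊤ := by
  rw [eq_top_iff]
  intro x _
  apply PresentedGroup.generated_by
  rintro ⟨⟨r, hr⟩, t⟩
  have := h r hr t
  unfold scGen stX at this
  rw [dif_pos hr] at this
  exact this

end general

def witD4 : Array (ℕ × ℕ × ℤ) := #[(1, 9, 1), (0, 14, 1), (0, 15, -1), (0, 16, -1), (0, 17, 1), (1, 17, 1), (0, 19, -1), (0, 20, 1), (0, 21, 1), (0, 22, -1), (1, 20, -1), (1, 21, -1), (2, 22, -1), (3, 22, -1), (1, 23, -1), (2, 23, 1), (3, 23, 1), (4, 23, -1), (6, 22, 1), (6, 23, 1), (7, 23, -1), (8, 23, -1), (9, 23, 1), (14, 22, 1)]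

def witF4 : Array (ℕ × ℕ × ℤ) := #[(1, 23, 1), (0, 24, 1), (0, 26, 1), (7, 14, 1), (0, 31, -1), (0, 32, 1), (1, 32, 1), (3, 33, 1), (3, 34, 1), (3, 35, -1), (3, 36, 1), (3, 37, -1), (3, 38, 1), (3, 39, -1), (3, 40, -1), (0, 42, -1), (0, 43, 1), (1, 43, 1), (7, 37, -1), (7, 38, 1), (7, 39, -1), (0, 45, -1), (1, 45, -1), (0, 46, -1), (1, 47, -1), (2, 46, -1), (2, 47, -1), (8, 40, -1), (9, 40, 1), (10, 40, -1), (4, 46, 1), (4, 47, 1), (5, 47, -1), (7, 44, -1), (8, 44, -1), (9, 44, 1), (10, 44, -1), (11, 44, 1), (12, 44, -1), (13, 44, 1), (14, 44, 1), (15, 46, 1), (15, 47, 1), (16, 47, -1), (33, 40, 1), (21, 47, 1), (23, 47, 1), (24, 46, 1)]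

def witE6 : Array (ℕ × ℕ × ℤ) := #[(1, 25, 1), (0, 46, 1), (0, 47, -1), (0, 48, 1), (0, 49, -1), (0, 50, 1), (0, 51, -1), (0, 52, 1), (0, 53, 1), (0, 54, -1), (0, 55, 1), (1, 53, 1), (1, 54, -1), (1, 55, 1), (2, 55, 1), (5, 55, 1), (0, 61, -1), (0, 62, 1), (0, 63, -1), (0, 64, -1), (0, 65, 1), (0, 66, -1), (0, 67, 1), (0, 68, -1), (0, 69, 1), (0, 70, -1), (1, 64, -1), (1, 65, 1), (1, 66, -1), (2, 66, -1), (1, 67, -1), (1, 68, 1), (1, 69, -1), (2, 67, 1), (2, 68, -1), (3, 67, -1), (4, 68, -1), (3, 69, -1), (4, 69, 1), (2, 70, -1), (3, 70, 1), (4, 70, -1), (5, 69, -1), (5, 70, -1), (6, 70, 1), (7, 70, -1), (1, 71, -1), (2, 71, 1), (3, 71, -1), (4, 71, 1), (5, 71, -1), (6, 71, 1), (7, 71, -1), (8, 71, -1), (9, 71, 1), (10, 71, -1), (16, 66, 1), (16, 69, 1), (16, 70, 1), (17, 70, -1), (18, 70, 1), (16, 71, 1), (17, 71, -1), (18, 71, 1), (19, 71, 1), (20, 71, -1), (21, 71, 1), (22, 71, -1), (23, 71, 1), (24, 71, -1), (25, 71, 1), (46, 70, 1)]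

def witE7 : Array (ℕ × ℕ × ℤ) := #[(1, 32, 1), (0, 93, 1), (0, 94, -1), (0, 95, 1), (0, 96, -1), (0, 97, 1), (0, 98, -1), (0, 99, -1), (0, 100, 1), (0, 101, -1), (0, 102, 1), (0, 103, -1), (0, 104, 1), (0, 105, -1), (0, 106, -1), (0, 107, 1), (0, 108, -1), (0, 109, 1), (0, 110, -1), (0, 111, 1), (0, 112, 1), (0, 113, -1), (0, 114, 1), (0, 115, -1), (0, 116, 1), (0, 117, -1), (0, 118, 1), (0, 119, 1), (0, 120, -1), (0, 121, 1), (0, 122, -1), (0, 123, 1), (0, 124, -1), (1, 109, -1), (1, 110, 1), (1, 111, -1), (1, 112, -1), (1, 113, 1), (1, 114, -1), (1, 115, 1), (1, 116, -1), (1, 117, 1), (1, 118, -1), (2, 115, 1), (2, 116, -1), (2, 117, 1), (2, 118, -1), (3, 118, -1), (1, 119, -1), (1, 120, 1), (1, 121, -1), (1, 122, 1), (1, 123, -1), (2, 119, 1), (2, 120, -1), (2, 121, 1), (2, 122, -1), (3, 119, -1), (3, 120, 1), (3, 121, -1), (4, 119, 1), (4, 120, -1), (5, 119, -1), (6, 120, -1), (5, 121, -1), (6, 121, 1), (4, 122, -1), (5, 122, 1), (6,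 122, -1), (3, 123, -1), (4, 123, 1), (5, 123, -1), (6, 123, 1), (2, 124, -1), (3, 124, 1), (4, 124, -1), (5, 124, 1), (6, 124, -1), (7, 122, -1), (7, 123, -1), (8, 123, 1), (9, 123, -1), (10, 123, 1), (7, 124, -1), (8, 124, 1), (9, 124, -1), (10, 124, 1), (11, 124, -1), (12, 124, 1), (13, 124, -1), (14, 124, -1), (15, 124, 1), (16, 124, -1), (1, 125, -1), (2, 125, 1), (3, 125, -1), (4, 125, 1), (5, 125, -1), (6, 125, 1), (7, 125, 1), (8, 125, -1), (9, 125, 1), (10, 125, -1), (11, 125, 1), (12, 125, -1), (13, 125, 1), (14, 125, 1), (15, 125, -1), (16, 125, 1), (17, 125, -1), (18, 125, 1), (19, 125, -1), (20, 125, -1), (21, 125, 1), (22, 125, -1), (23, 125, 1), (24, 125, -1), (25, 125, 1), (26, 125, -1), (27, 125, -1), (28, 125, 1), (29, 125, -1), (30, 125, 1), (31, 125, -1), (32, 125, 1), (93, 124, 1)]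

def witE8 : Array (ℕ × ℕ × ℤ) := #[(1, 119, 1), (0, 120, 1), (0, 122, 1), (0, 125, 1), (0, 129, 1), (0, 134, 1), (0, 140, 1), (0, 146, 1), (0, 151, -1), (0, 155, 1), (0, 158, -1), (0, 160, 1), (0, 161, -1), (1, 161, -1), (0, 168, 1), (0, 173, -1), (0, 177, 1), (0, 180, -1), (0, 182, 1), (0, 183, -1), (1, 183, -1), (0, 187, -1), (0, 190, 1), (0, 192, -1), (0, 193, 1), (1, 193, 1), (0, 196, -1), (0, 198, 1), (0, 199, -1), (1, 199, -1), (0, 201, -1), (0, 202, 1), (1, 202, 1), (0, 203, -1), (1, 203, -1), (2, 203, -1), (0, 206, 1), (0, 208, -1), (0, 209, 1), (1, 209, 1), (0, 211, 1), (0, 212, -1), (1, 212, -1), (0, 213, 1), (1, 213, 1), (2, 213, 1), (0, 215, -1), (0, 216, 1), (1, 216, 1), (0, 217, -1), (1, 217, -1), (2, 217, -1), (0, 218, 1), (1, 218, 1), (2, 218, 1), (3, 218, 1), (0, 220, 1), (0, 221, -1), (1, 221, -1), (0, 222, 1), (1, 222, 1), (2, 222, 1), (0, 223, -1), (1, 223, -1), (2, 223, -1), (3, 223, -1), (0, 224, 1), (1, 224, 1),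 (2, 224, 1), (3, 224, 1), (4, 224, 1), (0, 225, -1), (1, 225, -1), (2, 225, -1), (3, 225, -1), (4, 225, -1), (5, 225, -1), (6, 225, -1), (0, 227, 1), (0, 228, -1), (1, 228, -1), (0, 229, 1), (1, 229, 1), (2, 229, 1), (0, 230, -1), (1, 230, -1), (2, 230, -1), (3, 230, -1), (0, 231, 1), (1, 231, 1), (2, 231, 1), (3, 231, 1), (4, 231, 1), (0, 232, -1), (1, 232, -1), (2, 232, -1), (3, 232, -1), (4, 232, -1), (5, 232, -1), (0, 233, -1), (1, 233, -1), (2, 233, -1), (3, 233, -1), (4, 233, -1), (5, 233, -1), (0, 234, -1), (1, 234, -1), (2, 234, -1), (3, 234, -1), (4, 234, -1), (0, 235, -1), (1, 235, -1), (2, 235, -1), (3, 235, -1), (0, 236, -1), (1, 236, -1), (2, 236, -1), (0, 237, -1), (1, 237, -1), (0, 238, -1), (1, 239, -1), (2, 238, -1), (2, 239, -1), (3, 237, -1), (3, 238, -1), (3, 239, -1), (4, 236, -1), (4, 237, -1), (4, 238, -1), (4, 239, -1), (5, 235, -1), (5, 236, -1), (5, 237, -1), (5, 238, -1), (5, 239, -1), (6, 234, -1), (6, 235, -1),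 (6, 236, -1), (6, 237, -1), (6, 238, -1), (6, 239, -1), (7, 234, -1), (7, 235, -1), (7, 236, -1), (7, 237, -1), (7, 238, -1), (7, 239, -1), (8, 235, 1), (8, 236, 1), (8, 237, 1), (8, 238, 1), (8, 239, 1), (9, 236, -1), (9, 237, -1), (9, 238, -1), (9, 239, -1), (10, 237, 1), (10, 238, 1), (10, 239, 1), (11, 238, -1), (11, 239, -1), (12, 239, 1), (14, 233, -1), (14, 234, -1), (14, 235, -1), (14, 236, -1), (14, 237, -1), (14, 238, -1), (14, 239, -1), (15, 235, 1), (15, 236, 1), (15, 237, 1), (15, 238, 1), (15, 239, 1), (16, 236, -1), (16, 237, -1), (16, 238, -1), (16, 239, -1), (17, 237, 1), (17, 238, 1), (17, 239, 1), (18, 238, -1), (18, 239, -1), (19, 239, 1), (21, 236, 1), (21, 237, 1), (21, 238, 1), (21, 239, 1), (22, 237, -1), (22, 238, -1), (22, 239, -1), (23, 238, 1), (23, 239, 1), (24, 239, -1), (26, 237, 1), (26, 238, 1), (26, 239, 1), (27, 238, -1), (27, 239, -1), (28, 239, 1), (30, 238, 1), (30, 239, 1), (31, 239, -1), (33, 239,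 1), (36, 237, -1), (36, 238, -1), (36, 239, -1), (37, 238, 1), (37, 239, 1), (38, 239, -1), (40, 238, -1), (40, 239, -1), (41, 239, 1), (43, 239, -1), (46, 238, 1), (46, 239, 1), (47, 239, -1), (49, 239, 1), (52, 239, -1), (56, 238, -1), (56, 239, -1), (57, 239, 1), (59, 239, -1), (62, 239, 1), (66, 239, -1), (71, 239, 1), (78, 238, -1), (78, 239, -1), (79, 239, 1), (81, 239, -1), (84, 239, 1), (88, 239, -1), (93, 239, 1), (99, 239, 1), (105, 239, 1), (110, 239, 1), (114, 239, 1), (117, 239, 1), (119, 239, 1), (120, 238, 1)]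

theorem goodG2 (K : Type*) [Field K] (hK : ∃ x : K, x ≠ 0 ∧ x ≠ 1) (γ : ℕ) (hγ : γ < chevG2.nroots) :
    Good chevG2 K γ := by
  have g1 : Good chevG2 K 1 := ruleA chevG2 K 1 0 6 1 (by decide) (by decide) (by decide) (by decide) (by decide) (by decide +kernel)
  have g5 : Good chevG2 K 5 := ruleA chevG2 K 5 0 10 (-1) (by decide) (by decide) (by decide) (by decide) (by decide) (by decide +kernel)
  have g0 : Good chevG2 K 0 := ruleA chevG2 K 0 1 5 1 (by decide) (by decide) (by decide) (by decide) (by decide) (by decide +kernel)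
  have g6 : Good chevG2 K 6 := ruleA chevG2 K 6 1 11 (-1) (by decide) (by decide) (by decide) (by decide) (by decide) (by decide +kernel)
  have g10 : Good chevG2 K 10 := ruleA chevG2 K 10 5 11 1 (by decide) (by decide) (by decide) (by decide) (by decide) (by decide +kernel)
  have g11 : Good chevG2 K 11 := ruleA chevG2 K 11 6 10 1 (by decide) (by decide) (by decide) (by decide) (by decide) (by decide +kernel)
  have a := ruleB chevG2 K 7 3 2 10 (-1) 1 [(0, 1, 3, 1), (5, 1, 3, 2)] (by decide) (by decide) (by decide) (by decide)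
    (by decide) (by decide) (by decide) (by decide) (by decide +kernel) (by simp [g0, g5]) hK
  have b := ruleB chevG2 K 8 4 2 11 (-1) (-1) [(1, -1, 3, 1), (6, -1, 3, 2)] (by decide) (by decide) (by decide) (by decide)
    (by decide) (by decide) (by decide) (by decide) (by decide +kernel) (by simp [g1, g6]) hK
  have c := ruleB chevG2 K 9 7 3 11 1 1 [(5, -1, 3, 1), (10, 1, 3, 2)] (by decide) (by decide) (by decide) (by decide)
    (by decide) (by decide) (by decide) (by decide) (by decide +kernel) (by simp [g5, g10]) hK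
  have d := ruleB chevG2 K 4 2 3 6 1 (-1) [(0, 1, 3, 1), (1, -1, 3, 2)] (by decide) (by decide) (by decide) (by decide)
    (by decide) (by decide) (by decide) (by decide) (by decide +kernel) (by simp [g0, g1]) hK
  have hγ' : γ < 12 := hγ
  interval_cases γ
  exacts [g0, g1, d.2, a.2, b.2, g5, g6, a.1, b.1, c.1, g10, g11]

theorem goodB2 (K : Type*) [Field K] (hK : ∃ x : K, x ≠ 0 ∧ x ≠ 1) (γ : ℕ) (hγ : γ < chevB2.nroots) :
    Good chevB2 K γ := by
  have a := ruleB chevB2 K 2 0 1 4 1 1 [] (by decide) (by decide) (by decide) (by decide)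
    (by decide) (by decide) (by decide) (by decide) (by decide +kernel) (by simp) hK
  have b := ruleB chevB2 K 5 3 1 7 (-1) 1 [] (by decide) (by decide) (by decide) (by decide)
    (by decide) (by decide) (by decide) (by decide) (by decide +kernel) (by simp) hK
  have c := ruleB chevB2 K 6 4 2 7 1 (-1) [] (by decide) (by decide) (by decide) (by decide)
    (by decide) (by decide) (by decide) (by decide) (by decide +kernel) (by simp) hK
  have d := ruleB chevB2 K 1 3 5 0 (-1) (-1) [] (by decide) (by decide) (by decide) (by decide)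
    (by decide) (by decide) (by decide) (by decide) (by decide +kernel) (by simp) hK
  have e := ruleB chevB2 K 6 7 5 4 (-1) (-1) [] (by decide) (by decide) (by decide) (by decide)
    (by decide) (by decide) (by decide) (by decide) (by decide +kernel) (by simp) hK
  have hγ' : γ < 8 := hγ
  interval_cases γ
  exacts [a.2, d.1, a.1, b.2, c.2, b.1, c.1, e.2]

/-- The group presented by Steinberg's generators x̄_r(t) subject only to (R1) (additivity) and (R2) (the commutator formula) is perfect, for each of the types G₂, B₂, D₄, F₄, E₆, E₇, E₈ over any field (for types B₂ and G₂ the field must have more than two elements — the cases where the Chevalley group is not simple are set aside). -/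
theorem result {K : Type*} [Field K] (D : Cfsg.Lie.ChevalleyDatum) (hD : D ∈ [Cfsg.Lie.chevG2, Cfsg.Lie.chevB2, Cfsg.Lie.chevD4, Cfsg.Lie.chevF4, Cfsg.Lie.chevE6, Cfsg.Lie.chevE7, Cfsg.Lie.chevE8]) (hK : D ∈ [Cfsg.Lie.chevB2, Cfsg.Lie.chevG2] → ∃ x : K, x ≠ 0 ∧ x ≠ 1) :
    commutator (D.SteinbergCover K) = ⊤ := by
  simp only [List.mem_cons, List.not_mem_nil, or_false] at hD
  rcases hD with rfl | rfl | rfl | rfl | rfl | rfl | rfl
  · exact top_of_good _ K (goodG2 K (hK (by simp)))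
  · exact top_of_good _ K (goodB2 K (hK (by simp)))
  · exact top_of_good _ K (good_of_witOK _ K witD4 (by decide +kernel))
  · exact top_of_good _ K (good_of_witOK _ K witF4 (by decide +kernel))
  · exact top_of_good _ K (good_of_witOK _ K witE6 (by decide +kernel))
  · exact top_of_good _ K (good_of_witOK _ K witE7 (by decide +kernel))
  · exact top_of_good _ K (good_of_witOK _ K witE8 (by decide +kernel))

end Cfsg.Agent.S2395
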