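import Cfsg.Statements.S1128
import Cfsg.Agent.Lib.Helper24RankOneC

set_option autoImplicit false
open Cfsg

namespace Cfsg.Agent.S1128

open MulAction Cfsg.Agent.Lib.Helper24Invert Cfsg.Agent.Lib.Helper24RankOne Cfsg.Agent.Lib.Helper24RankOneC

theorem eq_inv_of_odd_inverts {M : Type*} [Group M] {m x : M} (ho : Odd (orderOf m))
    (h : m * x * m⁻¹ = x⁻¹) : x = x⁻¹ := by
  obtain ⟨j, hj⟩ := ho
  have c : Commute (m * m) x := by
    show m * m * x = x * (m * m)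
    have e : m * m * x = m * (m * x * m⁻¹) * m⁻¹ * (m * m) := by group
    rw [e, h, ← conj_inv, h, inv_inv]
  have c2 : Commute ((m * m) ^ j) x⁻¹ := (c.pow_left j).inv_right
  have e1 : (m * m) ^ j * m = 1 := by
    rw [← pow_two, ← pow_mul, ← pow_succ, ← hj, pow_orderOf_eq_one]
  have e2 : ((m * m) ^ j * m) * x * ((m * m) ^ j * m)⁻¹ = x⁻¹ := by
    have : ((m * m) ^ j * m) * x * ((m * m) ^ j * m)⁻¹ =
        (m * m) ^ j * (m * x * m⁻¹) * ((m * m) ^ j)⁻¹ := by group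
    rw [this, h, c2.eq, mul_inv_cancel_right]
  rw [e1] at e2
  simpa using e2

theorem fpf {G Ω : Type*} [Group G] [Finite G] [MulAction G Ω] {a : Ω} {t : G} {Q : Subgroup G}
    (hS : Cfsg.IsRankOneSetup G Ω a t Q)
    (x : G) (hx : x ∈ Cfsg.invertedBy (MulAction.stabilizer G a ⊓ MulAction.stabilizer G (t • a)) t) (hx1 : x ≠ 1) :
    Q ⊓ Subgroup.centralizer {x} = ⊥ := by
  rw [Subgroup.eq_bot_iff_forall]
  intro q hq
  obtain ⟨hqQ, hqx⟩ := Subgroup.mem_inf.mp hq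
  rw [Subgroup.mem_centralizer_singleton_iff] at hqx
  by_contra hq1
  have hX : ({x} : Set G) ⊆ (DD G a t : Set G) := by
    rintro _ rfl
    exact hx.1
  have h3 : ∃ f : Ω, f ≠ a ∧ f ≠ t • a ∧ ∀ y ∈ ({x} : Set G), y • f = f := by
    refine ⟨q • t • a, smul_ne_a (hS.le hqQ) (ta_ne hS), ?_, ?_⟩
    · intro h
      exact hq1 (semireg hS hqQ (ta_ne hS) h)
    · rintro _ rfl
      rw [← mul_smul, ← hqx, mul_smul, (mem_DD.mp hx.1).2]
  obtain ⟨k, hk, hkx⟩ := conj_into_cent hS hX h3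
  have c := hkx x rfl
  have hti := t_inv hS
  have hk' := t_conj_DD hS hk
  have e1 : t * (k * x * k⁻¹) * t⁻¹ = k * x * k⁻¹ := by rw [← c, mul_inv_cancel_right]
  have e2 : t * (k * x * k⁻¹) * t⁻¹ = (t * k * t) * (t * x * t⁻¹) * (t * k * t)⁻¹ := by
    have : (t * k * t)⁻¹ = t * k⁻¹ * t⁻¹ := by simp only [mul_inv_rev, hti, mul_assoc]
    rw [this]
    have : t * k * t * (t * x * t⁻¹) * (t * k⁻¹ * t⁻¹) = t * k * (t * t) * x * (t⁻¹ * t) * k⁻¹ * t⁻¹ := by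
      group
    rw [this, hS.mul_self]; group
  rw [e2, hx.2] at e1
  have hm : k⁻¹ * (t * k * t) ∈ DD G a t := (DD G a t).mul_mem ((DD G a t).inv_mem hk) hk'
  have e3 : (k⁻¹ * (t * k * t)) * x⁻¹ * (k⁻¹ * (t * k * t))⁻¹ = (x⁻¹)⁻¹ := by
    have : (k⁻¹ * (t * k * t)) * x⁻¹ * (k⁻¹ * (t * k * t))⁻¹ =
        k⁻¹ * ((t * k * t) * x⁻¹ * (t * k * t)⁻¹) * k := by group
    rw [this, e1]; group
  have e4 := eq_inv_of_odd_inverts (odd_orderOf_DD hS hm) e3
  rw [inv_inv] at e4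
  apply hx1
  apply eq_one_of_sq (odd_orderOf_DD hS hx.1)
  nth_rewrite 1 [← e4]
  exact inv_mul_cancel x

/-- In the rank-one set-up (`G` finite and doubly transitive on `Ω`, `t` an involution moving `a`, `Q` normal in `G_a` with `G_a = Q D`, `Q ⊓ D = 1` for the two-point stabiliser `D = G_a ⊓ G_{t • a}`, `|Q|` even, `|D|` odd), with the action faithful and `G` containing two distinct commuting involutions: every non-identity element of `D` inverted by `t` acts fixed-point-freely on `Q`. -/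
theorem result {G Ω : Type*} [Group G] [Finite G] [MulAction G Ω] [FaithfulSMul G Ω] {a : Ω} {t : G} {Q : Subgroup G}
    (hS : Cfsg.IsRankOneSetup G Ω a t Q)
    (h2 : ∃ x y : G, x ≠ 1 ∧ y ≠ 1 ∧ x ≠ y ∧ x * x = 1 ∧ y * y = 1 ∧ x * y = y * x)
    (x : G) (hx : x ∈ Cfsg.invertedBy (MulAction.stabilizer G a ⊓ MulAction.stabilizer G (t • a)) t) (hx1 : x ≠ 1) :
    Q ⊓ Subgroup.centralizer {x} = ⊥ :=
  fpf hS x hx hx1

end Cfsg.Agent.S1128
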