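import Cfsg.Statements.S1499
-- import your own Cfsg.Agent.* helpers here

set_option autoImplicit false
open Cfsg

namespace Cfsg.Agent.S1499

theorem pow_trick {G : Type*} [Group G] (a u : G) (n m k : ℕ) (hau : a * u = u * a)
    (ha : a ^ n = 1) (hu : u ^ m = 1) (hk1 : k ≡ 1 [MOD n]) (hk0 : k ≡ 0 [MOD m]) :
    (a * u) ^ k = a := by
  have h1 : a ^ k = a := by
    have : a ^ k = a ^ 1 := by
      rw [pow_eq_pow_iff_modEq]
      exact hk1.of_dvd (orderOf_dvd_of_pow_eq_one ha)
    simpa using this
  have h2 : u ^ k = 1 := by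
    have : u ^ k = u ^ 0 := by
      rw [pow_eq_pow_iff_modEq]
      exact hk0.of_dvd (orderOf_dvd_of_pow_eq_one hu)
    simpa using this
  have hc : Commute a u := hau
  rw [hc.mul_pow, h1, h2, mul_one]

theorem pow_card_sub {G : Type*} [Group G] {K : Subgroup G} {x : G} (hx : x ∈ K) :
    x ^ Nat.card K = 1 := by
  have : (⟨x, hx⟩ : K) ^ Nat.card K = 1 := pow_card_eq_one'
  have h2 := congrArg Subtype.val this
  rwa [Subgroup.coe_pow, Subgroup.coe_one] at h2

theorem conj_eq {G : Type*} [Group G] [Finite G] (A : Set G) (L : Subgroup G) (H : G → Subgroup G)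
    (hD : Cfsg.DadeHypothesis A L H) (a b : G) (ha : a ∈ A) (hb : b ∈ A)
    (u v g : G) (hu : u ∈ H a) (hv : v ∈ H b) (h : g * (a * u) * g⁻¹ = b * v) :
    g * a * g⁻¹ = b := by
  set n := Nat.card ↥(L ⊓ Subgroup.centralizer ({a} : Set G)) *
    Nat.card ↥(L ⊓ Subgroup.centralizer ({b} : Set G)) with hn
  set m := Nat.card (H a) * Nat.card (H b) with hm
  have hcop : Nat.Coprime n m := by
    rw [hn, hm]
    apply Nat.Coprime.mul_left
    · apply Nat.Coprime.mul_right
      · exact (hD.coprime a ha a ha).symm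
      · exact (hD.coprime b hb a ha).symm
    · apply Nat.Coprime.mul_right
      · exact (hD.coprime a ha b hb).symm
      · exact (hD.coprime b hb b hb).symm
  obtain ⟨k, hk1, hk0⟩ := Nat.chineseRemainder hcop 1 0
  have haC : a ∈ L ⊓ Subgroup.centralizer ({a} : Set G) :=
    ⟨hD.subset ha, Subgroup.mem_centralizer_singleton_iff.2 rfl⟩
  have hbC : b ∈ L ⊓ Subgroup.centralizer ({b} : Set G) :=
    ⟨hD.subset hb, Subgroup.mem_centralizer_singleton_iff.2 rfl⟩
  have han : a ^ n = 1 := by
    rw [hn, pow_mul, pow_card_sub haC, one_pow]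
  have hbn : b ^ n = 1 := by
    rw [hn, mul_comm, pow_mul, pow_card_sub hbC, one_pow]
  have hum : u ^ m = 1 := by
    rw [hm, pow_mul, pow_card_sub hu, one_pow]
  have hvm : v ^ m = 1 := by
    rw [hm, mul_comm, pow_mul, pow_card_sub hv, one_pow]
  have hau : a * u = u * a := by
    have := hD.le_centralizer a ha hu
    rw [Subgroup.mem_centralizer_singleton_iff] at this
    exact this.symm
  have hbv : b * v = v * b := by
    have := hD.le_centralizer b hb hv
    rw [Subgroup.mem_centralizer_singleton_iff] at this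
    exact this.symm
  have h1 := pow_trick a u n m k hau han hum hk1 hk0
  have h2 := pow_trick b v n m k hbv hbn hvm hk1 hk0
  have h3 : (g * (a * u) * g⁻¹) ^ k = (b * v) ^ k := by rw [h]
  rw [conj_pow, h1, h2] at h3
  exact h3

/-- Under the Dade hypothesis for (A, L, H), let a, b ∈ A. If an element of the coset a·H(a) is conjugate in G to an element of b·H(b), then a and b are conjugate by an element of L. Moreover the set normaliser of the coset a·H(a) is the centraliser of a. -/
theorem result {G : Type*} [Group G] [Finite G] (A : Set G) (L : Subgroup G) (H : G → Subgroup G) (hD : Cfsg.DadeHypothesis A L H) (a b : G) (ha : a ∈ A) (hb : b ∈ A) : ((∃ u ∈ H a, ∃ v ∈ H b, ∃ g : G, g * (a * u) * g⁻¹ = b * v) → ∃ x ∈ L, x * a * x⁻¹ = b) ∧ Subgroup.normalizer ((fun u : G => a * u) '' (H a : Set G)) = Subgroup.centralizer ({a} : Set G) := by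
  constructor
  · rintro ⟨u, hu, v, hv, g, h⟩
    have hg := conj_eq A L H hD a b ha hb u v g hu hv h
    obtain ⟨x, hx, hxa⟩ := hD.fusion a ha g (hg ▸ hb)
    exact ⟨x, hx, hxa.trans hg⟩
  · have half : ∀ c ∈ Subgroup.centralizer ({a} : Set G), ∀ n : G,
        n ∈ (fun u : G => a * u) '' (H a : Set G) →
        c * n * c⁻¹ ∈ (fun u : G => a * u) '' (H a : Set G) := by
      rintro c hc n ⟨u, hu, rfl⟩
      refine ⟨c * u * c⁻¹, hD.conj_mem_H a ha c hc u hu, ?_⟩
      rw [Subgroup.mem_centralizer_singleton_iff] at hc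
      show a * (c * u * c⁻¹) = c * (a * u) * c⁻¹
      calc a * (c * u * c⁻¹) = (a * c) * u * c⁻¹ := by group
        _ = (c * a) * u * c⁻¹ := by rw [hc]
        _ = c * (a * u) * c⁻¹ := by group
    apply le_antisymm
    · intro g hg
      rw [Subgroup.mem_set_normalizer_iff] at hg
      have h1 : a ∈ (fun u : G => a * u) '' (H a : Set G) := ⟨1, (H a).one_mem, by simp⟩
      obtain ⟨v, hv, hv2⟩ := (hg a).1 h1
      have := conj_eq A L H hD a a ha ha 1 v g (H a).one_mem hv (by simpa using hv2.symm)
      rw [Subgroup.mem_centralizer_singleton_iff]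
      calc g * a = g * a * g⁻¹ * g := by group
        _ = a * g := by rw [this]
    · intro c hc
      rw [Subgroup.mem_set_normalizer_iff]
      intro n
      refine ⟨half c hc n, fun h => ?_⟩
      have := half c⁻¹ (Subgroup.inv_mem _ hc) _ h
      simpa [mul_assoc] using this

end Cfsg.Agent.S1499
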