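import Cfsg.Statements.S1500
import Cfsg.Agent.Lib.Helper32Dade
-- import your own Cfsg.Agent.* helpers here

set_option autoImplicit false
open Cfsg

namespace Cfsg.Agent.S1500

open Cfsg.Agent.Lib.Helper32Dade

theorem part2 {G : Type*} [Group G] [Fintype G] (A : Set G) (L : Subgroup G) [Fintype L]
    (H : G → Subgroup G) (hD : Cfsg.DadeHypothesis A L H) (α : L → ℂ)
    (hα : Cfsg.IsClassFunction L α) (hαA : ∀ x : L, (x : G) ∉ A → α x = 0)
    (χ : G → ℂ) (ψ : L → ℂ) (hχ : Cfsg.IsClassFunction G χ)
    (hψ : ∀ a : L, (a : G) ∈ A →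
      ψ a = (Nat.card (H a) : ℂ)⁻¹ * ∑ᶠ u ∈ (H a : Set G), χ (a * u)) :
    Cfsg.classInner (Cfsg.dadeIsometry A L H α) χ = Cfsg.classInner α ψ := by
  classical
  unfold Cfsg.classInner
  have hF : Cfsg.IsClassFunction G (fun g => (starRingEnd ℂ) (χ g)) := by
    intro g h
    show (starRingEnd ℂ) (χ (h * g * h⁻¹)) = (starRingEnd ℂ) (χ g)
    rw [hχ]
  rw [dade_sum hD α hα _ hF]
  have hGne : (Nat.card G : ℂ) ≠ 0 := by exact_mod_cast Nat.card_pos.ne'
  rw [← mul_assoc, ← mul_assoc, inv_mul_cancel₀ hGne, one_mul]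
  congr 1
  apply Finset.sum_congr rfl
  intro a _
  by_cases ha : (a : G) ∈ A
  · rw [if_pos ha, hψ a ha, map_mul, map_inv₀, Complex.conj_natCast]
    congr 2
    rw [finsum_mem_eq_sum_ite, finsum_mem_eq_sum_ite, map_sum]
    apply Finset.sum_congr rfl
    intro u _
    split_ifs <;> simp
  · rw [if_neg ha, hαA a ha, zero_mul]

/-- Under the Dade hypothesis for (A, L, H), let α be a class function of L vanishing outside A. Then (i) for every class function β of L vanishing outside A, the inner product over G of the Dade images of α and β equals the inner product of α and β over L; and (ii) for every class function χ of G and every function ψ on L whose value at each a ∈ A is the average of χ over the coset a·H(a), the inner product over G of the Dade image of α with χ equals the inner product over L of α with ψ. -/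
theorem result {G : Type*} [Group G] [Fintype G] (A : Set G) (L : Subgroup G) [Fintype L] (H : G → Subgroup G) (hD : Cfsg.DadeHypothesis A L H) (α : L → ℂ) (hα : Cfsg.IsClassFunction L α) (hαA : ∀ x : L, (x : G) ∉ A → α x = 0) : (∀ β : L → ℂ, Cfsg.IsClassFunction L β → (∀ x : L, (x : G) ∉ A → β x = 0) → Cfsg.classInner (Cfsg.dadeIsometry A L H α) (Cfsg.dadeIsometry A L H β) = Cfsg.classInner α β) ∧ (∀ (χ : G → ℂ) (ψ : L → ℂ), Cfsg.IsClassFunction G χ → (∀ a : L, (a : G) ∈ A → ψ a = (Nat.card (H a) : ℂ)⁻¹ * ∑ᶠ u ∈ (H a : Set G), χ (a * u)) → Cfsg.classInner (Cfsg.dadeIsometry A L H α) χ = Cfsg.classInner α ψ) := by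
  constructor
  · intro β hβ _
    exact part2 A L H hD α hα hαA _ β (dade_isClassFunction hD β hβ)
      (fun a ha => dade_avg hD β hβ a ha)
  · intro χ ψ hχ hψ
    exact part2 A L H hD α hα hαA χ ψ hχ hψ

end Cfsg.Agent.S1500
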