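import Cfsg.Statements.S1496
import Mathlib
-- import your own Cfsg.Agent.* helpers here

set_option autoImplicit false
open Cfsg

namespace Cfsg.Agent.S1496

theorem pow_trick {G : Type*} [Group G] (a u : G) (n m k : ℕ) (hau : a * u = u * a)
    (ha : a ^ n = 1) (hu : u ^ m = 1) (hk1 : k ≡ 1 [MOD n]) (hk0 : k ≡ 0 [MOD m]) :
    (a * u) ^ k = a := by
  have h1 : a ^ k = a := by
    have : a ^ k = a ^ 1 := by
      rw [pow_eq_pow_iff_modEq]
      exact hk1.of_dvd (orderOf_dvd_of_pow_eq_one ha)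
    simpa using this
  have h2 : u ^ k = 1 := by
    have : u ^ k = u ^ 0 := by
      rw [pow_eq_pow_iff_modEq]
      exact hk0.of_dvd (orderOf_dvd_of_pow_eq_one hu)
    simpa using this
  have hc : Commute a u := hau
  rw [hc.mul_pow, h1, h2, mul_one]

theorem pow_card_sub {G : Type*} [Group G] {K : Subgroup G} {x : G} (hx : x ∈ K) :
    x ^ Nat.card K = 1 := by
  have : (⟨x, hx⟩ : K) ^ Nat.card K = 1 := pow_card_eq_one'
  have h2 := congrArg Subtype.val this
  rwa [Subgroup.coe_pow, Subgroup.coe_one] at h2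

theorem conj_g {G : Type*} [Group G] [Finite G] (H : Subgroup G) (g : G)
    (hcop : Nat.Coprime (orderOf g) (Nat.card H)) (z c c₀ : G) (hc : c ∈ H) (hc₀ : c₀ ∈ H)
    (hcg : c * g = g * c) (hc₀g : c₀ * g = g * c₀) (h : z * (c * g) * z⁻¹ = c₀ * g) :
    z * g * z⁻¹ = g := by
  obtain ⟨k, hk1, hk0⟩ := Nat.chineseRemainder hcop 1 0
  have h1 := pow_trick g c _ _ k hcg.symm (pow_orderOf_eq_one g) (pow_card_sub hc) hk1 hk0
  have h2 := pow_trick g c₀ _ _ k hc₀g.symm (pow_orderOf_eq_one g) (pow_card_sub hc₀) hk1 hk0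
  have h3 : (z * (c * g) * z⁻¹) ^ k = (c₀ * g) ^ k := by rw [h]
  rw [conj_pow, hcg, hc₀g, h1, h2] at h3
  exact h3

/-- Let H be a subgroup of the finite group G and g an element normalising H whose order is coprime to the order of H. Then for every h ∈ H there are x ∈ H and c ∈ H commuting with g such that x * (h * g) * x⁻¹ = c * g. -/
theorem result {G : Type*} [Group G] [Finite G] (H : Subgroup G) (g : G) (hg : g ∈ Subgroup.normalizer (H : Set G)) (hcop : Nat.Coprime (orderOf g) (Nat.card H)) (h : G) (hh : h ∈ H) : ∃ x ∈ H, ∃ c ∈ H, c * g = g * c ∧ x * (h * g) * x⁻¹ = c * g := by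
  classical
  set C : Subgroup H := (Subgroup.centralizer ({g} : Set G)).subgroupOf H with hC
  have : Fintype H := Fintype.ofFinite _
  have : Fintype C := Fintype.ofFinite _
  have hgH : ∀ x ∈ H, g * x * g⁻¹ ∈ H := fun x hx => (Subgroup.mem_normalizer_iff.1 hg x).1 hx
  have hCg : ∀ c : H, c ∈ C ↔ (c : G) * g = g * c := by
    intro c
    rw [hC, Subgroup.mem_subgroupOf, Subgroup.mem_centralizer_singleton_iff]
  have hf : ∀ p : H × C, (p.1 : G) * ((p.2 : H) * g) * (p.1 : G)⁻¹ * g⁻¹ ∈ H := by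
    intro p
    have e : (p.1 : G) * ((p.2 : H) * g) * (p.1 : G)⁻¹ * g⁻¹
        = (p.1 : G) * (p.2 : H) * (g * (p.1 : G)⁻¹ * g⁻¹) := by group
    rw [e]
    exact H.mul_mem (H.mul_mem p.1.2 (p.2 : H).2) (hgH _ (H.inv_mem p.1.2))
  let f : H × C → H := fun p => ⟨_, hf p⟩
  have hfib : ∀ y ∈ (Finset.univ : Finset (H × C)).image f,
      ((Finset.univ : Finset (H × C)).filter (fun p => f p = y)).card ≤ Fintype.card C := by
    intro y hy
    obtain ⟨p₀, -, hp₀⟩ := Finset.mem_image.1 hy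
    have hcc : Fintype.card C = (C : Set H).toFinset.card := (Set.toFinset_card (C : Set H)).symm
    rw [hcc]
    apply Finset.card_le_card_of_injOn (fun p => p₀.1⁻¹ * p.1)
    · intro p hp
      have hp' : f p = y := by simpa using hp
      have e : f p = f p₀ := hp'.trans hp₀.symm
      have e' : (p.1 : G) * ((p.2 : H) * g) * (p.1 : G)⁻¹ * g⁻¹
          = (p₀.1 : G) * ((p₀.2 : H) * g) * (p₀.1 : G)⁻¹ * g⁻¹ := congrArg Subtype.val e
      have e2 : ((p₀.1 : G)⁻¹ * p.1) * ((p.2 : H) * g) * ((p₀.1 : G)⁻¹ * p.1)⁻¹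
          = (p₀.2 : H) * g := by
        have e3 := mul_right_cancel e'
        calc ((p₀.1 : G)⁻¹ * p.1) * ((p.2 : H) * g) * ((p₀.1 : G)⁻¹ * p.1)⁻¹
            = (p₀.1 : G)⁻¹ * ((p.1 : G) * ((p.2 : H) * g) * (p.1 : G)⁻¹) * p₀.1 := by group
          _ = (p₀.1 : G)⁻¹ * ((p₀.1 : G) * ((p₀.2 : H) * g) * (p₀.1 : G)⁻¹) * p₀.1 := by rw [e3]
          _ = (p₀.2 : H) * g := by group
      have e4 := conj_g H g hcop _ _ _ (p.2 : H).2 (p₀.2 : H).2 ((hCg _).1 p.2.2)
        ((hCg _).1 p₀.2.2) e2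
      simp only [Set.coe_toFinset, SetLike.mem_coe]
      rw [hCg]
      have : ((p₀.1⁻¹ * p.1 : H) : G) = (p₀.1 : G)⁻¹ * p.1 := by simp
      rw [this]
      calc (p₀.1 : G)⁻¹ * p.1 * g = ((p₀.1 : G)⁻¹ * p.1) * g * ((p₀.1 : G)⁻¹ * p.1)⁻¹
            * ((p₀.1 : G)⁻¹ * p.1) := by group
        _ = g * ((p₀.1 : G)⁻¹ * p.1) := by rw [e4]
    · intro p hp q hq hpq
      have hp' : f p = y := by simpa using hp
      have hq' : f q = y := by simpa using hq
      have h1 : p.1 = q.1 := by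
        have : p₀.1⁻¹ * p.1 = p₀.1⁻¹ * q.1 := hpq
        exact mul_left_cancel this
      have e : f p = f q := hp'.trans hq'.symm
      have e' : (p.1 : G) * ((p.2 : H) * g) * (p.1 : G)⁻¹ * g⁻¹
          = (q.1 : G) * ((q.2 : H) * g) * (q.1 : G)⁻¹ * g⁻¹ := congrArg Subtype.val e
      rw [h1] at e'
      have e3 := mul_right_cancel (mul_left_cancel (mul_right_cancel (mul_right_cancel e')))
      exact Prod.ext h1 (Subtype.ext (Subtype.ext e3))
  have hcard := Finset.card_le_mul_card_image (f := f) Finset.univ _ hfib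
  rw [Finset.card_univ, Fintype.card_prod, mul_comm] at hcard
  have hpos : 0 < Fintype.card C := Fintype.card_pos
  have hle : Fintype.card H ≤ ((Finset.univ : Finset (H × C)).image f).card :=
    Nat.le_of_mul_le_mul_left hcard hpos
  have huniv : (Finset.univ : Finset (H × C)).image f = Finset.univ :=
    Finset.eq_univ_of_card _ (le_antisymm (Finset.card_le_univ _) hle)
  have hmem : (⟨h, hh⟩ : H) ∈ (Finset.univ : Finset (H × C)).image f := by
    rw [huniv]; exact Finset.mem_univ _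
  obtain ⟨p, -, hp⟩ := Finset.mem_image.1 hmem
  have hp' : (p.1 : G) * ((p.2 : H) * g) * (p.1 : G)⁻¹ * g⁻¹ = h := congrArg Subtype.val hp
  refine ⟨(p.1 : G)⁻¹, H.inv_mem p.1.2, (p.2 : H), (p.2 : H).2, (hCg _).1 p.2.2, ?_⟩
  rw [← hp']
  group

end Cfsg.Agent.S1496
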