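import Cfsg.Statements.S1518
import Cfsg.Agent.Lib.Helper83Dade
import Cfsg.Agent.Lib.Helper32EqDeg
import Cfsg.Agent.S1500
import Cfsg.Agent.Lib.Helper4Burnside

set_option autoImplicit false
open Cfsg

namespace Cfsg.Agent.S1518


open Cfsg.Agent.Lib.Helper4Char Cfsg.Agent.Lib.Helper4Char2 Cfsg.Agent.Lib.Helper4Char4
open Cfsg.Agent.Lib.Helper32Virt Cfsg.Agent.Lib.Helper32Dade

theorem dade_conj {G : Type*} [Group G] (A : Set G) (L : Subgroup G) (H : G → Subgroup G)
    (α : L → ℂ) : conjFun (dadeIsometry A L H α) = dadeIsometry A L H (conjFun α) := by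
  funext g
  unfold conjFun dadeIsometry
  split_ifs with h
  · rfl
  · simp

theorem dade_neg {G : Type*} [Group G] (A : Set G) (L : Subgroup G) (H : G → Subgroup G)
    (α : L → ℂ) : dadeIsometry A L H (-α) = - dadeIsometry A L H α := by
  funext g
  rw [Pi.neg_apply]
  unfold dadeIsometry
  split_ifs with h
  · rfl
  · simp

theorem dade_zero {G : Type*} [Group G] (A : Set G) (L : Subgroup G) (H : G → Subgroup G) :
    dadeIsometry A L H (0 : L → ℂ) = 0 := by
  funext g
  unfold dadeIsometry
  split_ifs with h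
  · rfl
  · rfl

theorem dade_one {G : Type*} [Group G] {A : Set G} {L : Subgroup G} {H : G → Subgroup G}
    (hD : DadeHypothesis A L H) (α : L → ℂ) : dadeIsometry A L H α 1 = 0 := by
  apply dade_apply_of_not
  rintro ⟨⟨x, a⟩, ha, hu⟩
  change (a : G) ∈ A at ha
  change (a : G)⁻¹ * (x * 1 * x⁻¹) ∈ H (a : G) at hu
  have e : (a : G)⁻¹ * (x * 1 * x⁻¹) = (a : G)⁻¹ := by group
  rw [e] at hu
  have h1 : (a : G) ∈ H (a : G) := by simpa using (H (a : G)).inv_mem hu
  have h2 : (a : G) ∈ H (a : G) ⊓ (L ⊓ Subgroup.centralizer ({(a : G)} : Set G)) :=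
    ⟨h1, a.2, Subgroup.mem_centralizer_singleton_iff.mpr rfl⟩
  rw [hD.inf_eq_bot a ha, Subgroup.mem_bot] at h2
  rw [h2] at ha
  exact hD.one_not_mem ha


/-- Under the Dade hypothesis for (A, L, H): if χ is an irreducible character of L vanishing at every non-identity element of L outside A, then the Dade image of χ − conj χ equals μ − conj μ for some irreducible character μ of G. -/
theorem result {G : Type*} [Group G] [Fintype G] (A : Set G) (L : Subgroup G) [Fintype L] (H : G → Subgroup G) (hD : Cfsg.DadeHypothesis A L H) (χ : L → ℂ) (hχ : Cfsg.IsIrrCharacter L χ) (hsupp : ∀ x : L, x ≠ 1 → (x : G) ∉ A → χ x = 0) : ∃ μ : G → ℂ, Cfsg.IsIrrCharacter G μ ∧ Cfsg.dadeIsometry A L H (χ - Cfsg.conjFun χ) = μ - Cfsg.conjFun μ := by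
  classical
  have hχc : IsIrrCharacter L (conjFun χ) := IsIrrCharacter.conj hχ
  by_cases hreal : χ = conjFun χ
  · refine ⟨fun _ => 1, Cfsg.Agent.Lib.Helper4Burnside.isIrrCharacter_one, ?_⟩
    rw [← hreal, sub_self, dade_zero]
    funext g
    simp [conjFun]
  · set α : L → ℂ := χ - conjFun χ with hα
    have hgen : IsGeneralizedCharacter L α := gen_sub (gen_of_irr hχ) (gen_of_irr hχc)
    have hαA : ∀ x : L, (x : G) ∉ A → α x = 0 := by
      intro x hx
      by_cases hx1 : x = 1
      · subst hx1
        simp only [hα, Pi.sub_apply, conjFun]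
        rw [IsCharacter.conj_degree (IsIrrCharacter.isCharacter hχ), sub_self]
      · simp only [hα, Pi.sub_apply, conjFun]
        rw [hsupp x hx1 hx]; simp
    have hcl := gen_isClassFunction hgen
    have hnorm : classInner α α = 2 := by
      simp only [hα]
      rw [classInner_sub_left, classInner_sub_right, classInner_sub_right,
        classInner_irr_self hχ, classInner_irr_self hχc, classInner_irr_ne hχ hχc hreal,
        classInner_irr_ne hχc hχ (fun h => hreal h.symm)]
      norm_num
    have h1 := (Cfsg.Agent.S1500.result A L H hD α hcl hαA).1 α hcl hαA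
    rw [hnorm] at h1
    have h2 := Cfsg.Agent.Lib.Helper83Dade.dade_gen hD hgen hαA
    obtain ⟨μ₁, μ₂, hμ₁, hμ₂, hne, hd⟩ :=
      Cfsg.Agent.Lib.Helper32EqDeg.norm_two_diff h2 h1 (dade_one hD α)
    have hconjα : conjFun α = -α := by
      funext x
      simp [hα, conjFun]
    have h3 : conjFun (dadeIsometry A L H α) = - dadeIsometry A L H α := by
      rw [dade_conj, hconjα, dade_neg]
    rw [hd] at h3
    have hμ₁c : IsIrrCharacter G (conjFun μ₁) := IsIrrCharacter.conj hμ₁
    have hμ₂c : IsIrrCharacter G (conjFun μ₂) := IsIrrCharacter.conj hμ₂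
    have h4 : conjFun μ₁ + μ₁ = μ₂ + conjFun μ₂ := by
      funext g
      have := congrFun h3 g
      simp only [conjFun, Pi.sub_apply, Pi.neg_apply, map_sub, Pi.add_apply] at this ⊢
      linear_combination this
    have h5 : conjFun μ₁ = μ₂ := by
      by_contra hcon
      have := congrArg (fun f => classInner f μ₂) h4
      simp only [classInner_add_left] at this
      rw [classInner_irr_ne hμ₁c hμ₂ hcon, classInner_irr_ne hμ₁ hμ₂ hne, classInner_irr_self hμ₂,
        classInner_irr hμ₂c hμ₂] at this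
      split_ifs at this <;> norm_num at this
    exact ⟨μ₁, hμ₁, by rw [hd, h5]⟩

end Cfsg.Agent.S1518
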