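import Cfsg.Statements.S1593
import Cfsg.Agent.Lib.Helper34Ternary

set_option autoImplicit false
open Cfsg

namespace Cfsg.Agent.S1593

open Cfsg.Agent.Lib.Helper34Ternary

set_option maxRecDepth 100000 in
theorem minw : ∀ a : P6, phi a ≠ 0 → 6 ≤ (Cfsg.ternarySupport (phi a)).card := by
  decide +kernel

set_option maxRecDepth 100000 in
theorem joined : ∀ p q : ArrayPt, ∃ a : P6, (Cfsg.ternarySupport (phi a)).card = 6 ∧ phi a p ≠ 0 ∧ phi a q ≠ 0 := by
  decide +kernel

theorem unit_cases (u : (ZMod 3)ˣ) : u = 1 ∨ u = -1 := by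
  revert u; decide

theorem key (c : Cfsg.ArrayPt → (ZMod 3)ˣ) (h : (∀ x ∈ Cfsg.ternaryGolayCode, Cfsg.monomialMap 1 c x ∈ Cfsg.ternaryGolayCode))
    (p q : ArrayPt) (hp : c p = 1) (hq : c q = -1) : False := by
  obtain ⟨a, ha, hap, haq⟩ := joined p q
  set x := phi a with hx
  have hxm : x ∈ ternaryGolayCode := phi_mem a
  have hym := h x hxm
  have hzm : x - monomialMap 1 c x ∈ ternaryGolayCode := Submodule.sub_mem _ hxm hym
  have hval : ∀ i, (x - monomialMap 1 c x) i = x i - (c i : ZMod 3) * x i := fun i => rfl
  have hz0 : x - monomialMap 1 c x ≠ 0 := by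
    intro h0
    have := congrFun h0 q
    rw [hval, hq] at this
    simp only [Units.val_neg, Units.val_one, Pi.zero_apply] at this
    apply haq
    have c3 := c3
    linear_combination 2 * this - x q * c3
  have hw := forall_code (fun z => z ≠ 0 → 6 ≤ (ternarySupport z).card) minw _ hzm hz0
  have hss : ternarySupport (x - monomialMap 1 c x) ⊂ ternarySupport x := by
    rw [Finset.ssubset_iff_of_subset]
    · refine ⟨p, ?_, ?_⟩
      · simp [ternarySupport, hap]
      · simp [ternarySupport, hval, hp]
    · intro i hi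
      simp only [ternarySupport, Finset.mem_filter, Finset.mem_univ, true_and, hval] at hi ⊢
      intro h0
      apply hi
      rw [h0]; ring
  have := Finset.card_lt_card hss
  omega

/-- The only sign changes preserving the length-12 ternary code are the identity and negation of all coordinates. -/
theorem result (c : Cfsg.ArrayPt → (ZMod 3)ˣ) (h : (∀ x ∈ Cfsg.ternaryGolayCode, Cfsg.monomialMap 1 c x ∈ Cfsg.ternaryGolayCode)) : (∀ p, c p = 1) ∨ (∀ p, c p = -1) := by
  rcases unit_cases (c (0, 0)) with h0 | h0
  · left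
    intro p
    rcases unit_cases (c p) with hp | hp
    · exact hp
    · exact (key c h _ _ h0 hp).elim
  · right
    intro p
    rcases unit_cases (c p) with hp | hp
    · exact (key c h _ _ hp h0).elim
    · exact hp

end Cfsg.Agent.S1593
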