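import Cfsg.Statements.S1691
-- import your own Cfsg.Agent.* helpers here

set_option autoImplicit false
open Cfsg

namespace Cfsg.Agent.S1691

open Cfsg.Spor Cfsg.Spor.Fi24

abbrev rels : Set (FreeGroup Gen) := coxRelators edges ∪ {r | r ∈ extra}

/-- the sign map on generators -/
def sgn : Gen → Multiplicative (ZMod 2) := fun _ => Multiplicative.ofAdd 1

theorem sgn_sq (u : Multiplicative (ZMod 2)) : u * u = 1 := by
  revert u; decide

theorem lift_sgn_rel : ∀ r ∈ rels, FreeGroup.lift sgn r = 1 := by
  intro r hr
  rcases hr with hr | hr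
  · obtain ⟨x, -, y, -, rfl⟩ := hr
    simp only [map_pow, map_mul, FreeGroup.lift_apply_of, sgn]
    rw [sgn_sq, one_pow]
  · simp only [extra, Set.mem_setOf_eq, List.mem_cons, List.not_mem_nil, or_false] at hr
    rcases hr with rfl | rfl
    · simp only [map_pow, map_mul, map_inv, FreeGroup.lift_apply_of, sgn]
      decide
    · simp only [map_pow, map_mul, map_inv, FreeGroup.lift_apply_of, sgn]
      decide

def sgnHom : Fi24 →* Multiplicative (ZMod 2) := PresentedGroup.toGroup lift_sgn_rel

theorem sgnHom_surj : Function.Surjective sgnHom := by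
  intro u
  have h : u = 1 ∨ u = Multiplicative.ofAdd 1 := by revert u; decide
  rcases h with rfl | rfl
  · exact ⟨1, map_one _⟩
  · exact ⟨PresentedGroup.of Gen.d, PresentedGroup.toGroup.of lift_sgn_rel⟩

abbrev q : Fi24 →* Abelianization Fi24 := Abelianization.of

theorem node_mem (x : Gen) : x ∈ coxNodes edges := by
  cases x <;> decide

theorem sq_one (x : Gen) : (PresentedGroup.of x : Fi24) * PresentedGroup.of x = 1 := by
  have h : (FreeGroup.of x * FreeGroup.of x) ^ coxLabel edges x x ∈ rels :=
    Or.inl ⟨x, node_mem x, x, node_mem x, rfl⟩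
  have h2 := PresentedGroup.one_of_mem h
  have h3 : coxLabel edges x x = 1 := by simp [coxLabel]
  rw [h3, pow_one, map_mul] at h2
  exact h2

theorem edge_rel (x y : Gen) (h3 : coxLabel edges x y = 3) :
    ((PresentedGroup.of x : Fi24) * PresentedGroup.of y) ^ 3 = 1 := by
  have h : (FreeGroup.of x * FreeGroup.of y) ^ coxLabel edges x y ∈ rels :=
    Or.inl ⟨x, node_mem x, y, node_mem y, rfl⟩
  have h2 := PresentedGroup.one_of_mem h
  rw [h3, map_pow, map_mul] at h2
  exact h2

theorem q_eq (x y : Gen) (h3 : coxLabel edges x y = 3) :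
    q (PresentedGroup.of x) = q (PresentedGroup.of y) := by
  have hx := congrArg q (sq_one x)
  have hy := congrArg q (sq_one y)
  have hxy := congrArg q (edge_rel x y h3)
  simp only [map_mul, map_pow, map_one] at hx hy hxy
  set X := q (PresentedGroup.of x)
  set Y := q (PresentedGroup.of y)
  have e1 : (X * Y) ^ 3 = (X * X) * (Y * Y) * (X * Y) := by
    rw [pow_three]
    simp only [mul_comm, mul_left_comm]
  rw [e1, hx, hy, one_mul, one_mul] at hxy
  calc X = X * (Y * Y) := by rw [hy, mul_one]
    _ = (X * Y) * Y := by rw [mul_assoc]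
    _ = Y := by rw [hxy, one_mul]

theorem q_all (x : Gen) : q (PresentedGroup.of x) = q (PresentedGroup.of Gen.d) := by
  have hc := q_eq .c .d (by decide)
  have hb := (q_eq .b .c (by decide)).trans hc
  have ha := (q_eq .a .b (by decide)).trans hb
  have hk := (q_eq .k .a (by decide)).trans ha
  have hl := (q_eq .l .k (by decide)).trans hk
  have he := (q_eq .e .d (by decide))
  have hf := (q_eq .f .e (by decide)).trans he
  have hg := (q_eq .g .f (by decide)).trans hf
  have hj := (q_eq .j .g (by decide)).trans hg
  have hh := (q_eq .h .d (by decide))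
  have hi := (q_eq .i .h (by decide)).trans hh
  cases x <;> first | rfl | assumption

theorem q_mem (g : Fi24) :
    q g = 1 ∨ q g = q (PresentedGroup.of Gen.d) := by
  have hd := congrArg q (sq_one Gen.d)
  simp only [map_mul, map_one] at hd
  have key : ∀ w : FreeGroup Gen, q (PresentedGroup.mk rels w) = 1 ∨
      q (PresentedGroup.mk rels w) = q (PresentedGroup.of Gen.d) := by
    intro w
    induction w using FreeGroup.induction_on with
    | C1 => left; simp
    | of x => right; exact q_all x
    | inv_of x _ =>
      right
      rw [map_inv, map_inv]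
      have : q (PresentedGroup.mk rels (FreeGroup.of x)) = q (PresentedGroup.of Gen.d) := q_all x
      rw [this]
      exact inv_eq_of_mul_eq_one_left hd
    | mul x y hx hy =>
      rw [map_mul, map_mul]
      rcases hx with hx | hx <;> rcases hy with hy | hy <;> rw [hx, hy]
      · left; simp
      · right; simp
      · right; simp
      · left; exact hd
  obtain ⟨w, rfl⟩ := PresentedGroup.mk_surjective rels g
  exact key w

/-- The commutator subgroup of the presented group Fi₂₄ has index 2 (the presented group is Fi₂₄′:2 with Fi₂₄′ its derived subgroup). -/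
theorem result : (commutator Cfsg.Spor.Fi24).index = 2 := by
  have hle : commutator Fi24 ≤ sgnHom.ker := Abelianization.commutator_subset_ker sgnHom
  have hker : sgnHom.ker.index = 2 := by
    rw [Subgroup.index_ker, MonoidHom.range_eq_top.mpr sgnHom_surj]
    simp [Nat.card_eq_fintype_card]
  have hge : sgnHom.ker ≤ commutator Fi24 := by
    intro g hg
    rw [MonoidHom.mem_ker] at hg
    rcases q_mem g with h | h
    · exact (QuotientGroup.eq_one_iff g).mp h
    · exfalso
      have h2 : g⁻¹ * PresentedGroup.of Gen.d ∈ commutator Fi24 := QuotientGroup.eq.mp h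
      have h3 := hle h2
      rw [MonoidHom.mem_ker, map_mul, map_inv, hg] at h3
      have h4 : sgnHom (PresentedGroup.of Gen.d) = Multiplicative.ofAdd 1 :=
        PresentedGroup.toGroup.of lift_sgn_rel
      rw [h4] at h3
      revert h3
      decide
  rw [le_antisymm hle hge]
  exact hker

end Cfsg.Agent.S1691
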