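import Cfsg.Statements.S3769
import Cfsg.Agent.Lib.Helper27BG34L
import Cfsg.Agent.Lib.Helper27BG34M

set_option autoImplicit false
open Cfsg

namespace Cfsg.Agent.S3769

open scoped commutatorElement

/-- Let G and V be subgroups of a finite group with G solvable of odd order normalizing V, V an elementary abelian ℓ-group for a prime ℓ not dividing the order of G, and suppose G has a normal Hall subgroup K with a complement R of prime order. If C_V(R) = 1, then [R, K] centralizes V. -/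
theorem result {X : Type*} [Group X] [Finite X] (G : Subgroup X) (hsolv : Group.IsSolvable G) (hodd : Odd (Nat.card G)) (V : Subgroup X) {ℓ : ℕ} (hℓ : ℓ.Prime) (hV : Cfsg.IsElementaryAbelian ℓ V) (hℓG : ¬ ℓ ∣ Nat.card G) (hGV : G ≤ Subgroup.normalizer (V : Set X)) (K R : Subgroup X) (hKG : K ≤ G) (hKn : G ≤ Subgroup.normalizer (K : Set X)) (hHall : (Nat.card K).Coprime (K.relIndex G)) (hRG : R ≤ G) (hR : (Nat.card R).Prime) (hKR : K ⊓ R = ⊥) (hKRG : K ⊔ R = G) (hCV : V ⊓ Subgroup.centralizer (R : Set X) = ⊥) : ⁅R, K⁆ ≤ Subgroup.centralizer (V : Set X) := by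
  classical
  haveI : Fact ℓ.Prime := ⟨hℓ⟩
  haveI := hV.1
  letI : CommGroup V := { (inferInstance : Group V) with mul_comm := fun a b => mul_comm' a b }
  obtain ⟨d, ρL, hρLinj, hρLfix⟩ := Cfsg.Agent.Lib.Helper27BG34L.exists_rep_fix ℓ V
    (fun x => Subtype.ext (hV.2 x x.2)) (AlgebraicClosure (ZMod ℓ))
  let ψ : G →* MulAut V := V.normalizerMonoidHom.comp (Subgroup.inclusion hGV)
  have hψ : ∀ (h : G) (v : V), ((ψ h v : V) : X) = h * v * (h : X)⁻¹ := fun h v => rfl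
  have hψ1 : ∀ h : G, ψ h = 1 → (h : X) ∈ Subgroup.centralizer (V : Set X) := by
    intro h hh
    rw [Subgroup.mem_centralizer_iff]
    intro v hv
    have h4 := congrArg (fun f : MulAut V => ((f ⟨v, hv⟩ : V) : X)) hh
    simp only [hψ, MulAut.one_apply] at h4
    calc v * h = (h * v * (h : X)⁻¹) * h := by rw [h4]
      _ = h * v := by group
  -- generator of `R`
  haveI : Fact (Nat.card R).Prime := ⟨hR⟩
  obtain ⟨⟨x, hxR⟩, hxgen⟩ := (isCyclic_of_prime_card (α := R) rfl).exists_generator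
  have hxord : orderOf x = Nat.card R := by
    have h1 := orderOf_eq_card_of_forall_mem_zpowers hxgen
    rwa [Subgroup.orderOf_mk] at h1
  have hRgen : ∀ y ∈ R, ∃ i : ℕ, y = x ^ i := by
    intro y hy
    obtain ⟨i, hi⟩ := mem_powers_iff_mem_zpowers.mpr (hxgen ⟨y, hy⟩)
    exact ⟨i, (congrArg Subtype.val hi).symm⟩
  have hxG : x ∈ G := hRG hxR
  obtain ⟨r, hr⟩ : ∃ r, r = Nat.card R := ⟨_, rfl⟩
  rw [← hr] at hR hxord
  have hrG : r ∣ Nat.card G := by rw [hr]; exact Subgroup.card_dvd_of_le hRG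
  have hKGd : Nat.card K ∣ Nat.card G := Subgroup.card_dvd_of_le hKG
  have hcopK : (Nat.card K).Coprime r := by
    apply Nat.Coprime.coprime_dvd_right _ hHall
    haveI : (K.subgroupOf G).Normal := (Subgroup.normal_subgroupOf_iff_le_normalizer hKG).mpr hKn
    have h1 := Subgroup.pow_index_mem (K.subgroupOf G) (⟨x, hxG⟩ : G)
    have h2 : x ^ (K.relIndex G) ∈ K := Subgroup.mem_subgroupOf.mp h1
    have h3 : x ^ (K.relIndex G) ∈ K ⊓ R := ⟨h2, pow_mem hxR _⟩
    rw [hKR, Subgroup.mem_bot] at h3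
    rw [← hxord]
    exact orderOf_dvd_of_pow_eq_one h3
  -- the group `Q`
  let ψK : K →* MulAut V := ψ.comp (Subgroup.inclusion hKG)
  let Q : Subgroup (MulAut V) := ψK.range
  have hQcard : Nat.card Q ∣ Nat.card K := Subgroup.card_range_dvd ψK
  let a : MulAut V := ψ ⟨x, hxG⟩
  have hconj : ∀ t ∈ Q, a * t * a⁻¹ ∈ Q := by
    rintro _ ⟨k, rfl⟩
    have hk : x * k * x⁻¹ ∈ K := (Subgroup.mem_normalizer_iff.mp (hKn hxG) k).mp k.2
    refine ⟨⟨x * k * x⁻¹, hk⟩, ?_⟩
    show ψ ⟨x * k * x⁻¹, hKG hk⟩ = ψ ⟨x, hxG⟩ * ψ ⟨k, hKG k.2⟩ * (ψ ⟨x, hxG⟩)⁻¹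
    rw [← map_inv, ← map_mul, ← map_mul]
    rfl
  have hconj' : ∀ t ∈ Q, a⁻¹ * t * a ∈ Q := by
    rintro _ ⟨k, rfl⟩
    have hk : x⁻¹ * k * x⁻¹⁻¹ ∈ K :=
      (Subgroup.mem_normalizer_iff.mp (inv_mem (hKn hxG)) k).mp k.2
    rw [inv_inv] at hk
    refine ⟨⟨x⁻¹ * k * x, hk⟩, ?_⟩
    show ψ ⟨x⁻¹ * k * x, hKG hk⟩ = (ψ ⟨x, hxG⟩)⁻¹ * ψ ⟨k, hKG k.2⟩ * ψ ⟨x, hxG⟩
    rw [← map_inv, ← map_mul, ← map_mul]
    rfl
  let σ : Q ≃* Q :=
    { toFun := fun t => ⟨a * t * a⁻¹, hconj t t.2⟩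
      invFun := fun t => ⟨a⁻¹ * t * a, hconj' t t.2⟩
      left_inv := fun t => Subtype.ext (by simp [mul_assoc])
      right_inv := fun t => Subtype.ext (by simp [mul_assoc])
      map_mul' := fun s t => Subtype.ext (by simp [mul_assoc]) }
  have hcast : ∀ n : ℕ, n ∣ Nat.card G → ((n : ℕ) : AlgebraicClosure (ZMod ℓ)) ≠ 0 := by
    intro n hn h0
    rw [CharP.cast_eq_zero_iff (AlgebraicClosure (ZMod ℓ)) ℓ] at h0
    exact hℓG (h0.trans hn)
  have hmain := Cfsg.Agent.Lib.Helper27BG34M.main (F := AlgebraicClosure (ZMod ℓ)) (ρL a) r hR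
    (hodd.of_dvd_nat hrG) (hcast r hrG)
    (by
      rw [← map_pow]
      have : a ^ r = 1 := by
        show (ψ ⟨x, hxG⟩) ^ r = 1
        rw [← map_pow]
        have h1 : (⟨x, hxG⟩ : G) ^ r = 1 := Subtype.ext (by
          rw [Subgroup.coe_pow, Subgroup.coe_one]
          show x ^ r = 1
          rw [← hxord]; exact pow_orderOf_eq_one x)
        rw [h1, map_one]
      rw [this, map_one])
    (hρLfix a (by
      intro v hv
      have h1 : x * v * x⁻¹ = v := congrArg Subtype.val hv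
      have h2 : (v : X) ∈ V ⊓ Subgroup.centralizer (R : Set X) := by
        refine ⟨v.2, ?_⟩
        show (v : X) ∈ Subgroup.centralizer (R : Set X)
        rw [Subgroup.mem_centralizer_iff]
        intro y hy
        obtain ⟨i, rfl⟩ := hRgen y hy
        have h3 : Commute x (v : X) := by
          show x * v = v * x
          calc x * v = (x * v * x⁻¹) * x := by group
            _ = v * x := by rw [h1]
        exact (h3.pow_left i)
      rw [hCV, Subgroup.mem_bot] at h2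
      exact Subtype.ext h2))
    Q σ (ρL.comp Q.subtype)
    (hρLinj.comp Subtype.val_injective)
    (hcast _ (hQcard.trans hKGd))
    (hodd.of_dvd_nat (hQcard.trans hKGd))
    (Nat.Coprime.coprime_dvd_left hQcard hcopK)
    (by
      intro t
      show ρL a * ρL t = ρL (a * t * a⁻¹) * ρL a
      rw [← map_mul, ← map_mul]
      congr 1
      group)
  -- conclusion
  have hcomm : ∀ k : K, Commute a (ψ ⟨k, hKG k.2⟩) := by
    intro k
    have h1 := hmain ⟨ψK k, ⟨k, rfl⟩⟩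
    have h2 : a * ψK k * a⁻¹ = ψK k := congrArg Subtype.val h1
    show a * ψK k = ψK k * a
    calc a * ψK k = (a * ψK k * a⁻¹) * a := by group
      _ = ψK k * a := by rw [h2]
  rw [Subgroup.commutator_le]
  intro y hy k hk
  obtain ⟨i, rfl⟩ := hRgen y hy
  have hmem : ⁅x ^ i, k⁆ ∈ G :=
    Subgroup.commutator_le_self G (Subgroup.commutator_mem_commutator (pow_mem hxG i) (hKG hk))
  apply hψ1 ⟨⁅x ^ i, k⁆, hmem⟩
  have h1 : (⟨⁅x ^ i, k⁆, hmem⟩ : G) = ⁅(⟨x, hxG⟩ : G) ^ i, ⟨k, hKG hk⟩⁆ := rfl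
  rw [h1, map_commutatorElement, map_pow, commutatorElement_eq_one_iff_commute]
  exact (hcomm ⟨k, hk⟩).pow_left i

end Cfsg.Agent.S3769
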