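import Cfsg.Statements.S1078
import Cfsg.Agent.Lib.Helper23St6

set_option autoImplicit false
open Cfsg

namespace Cfsg.Agent.S1078

open Cfsg.Agent.Lib Cfsg.Agent.Lib.Helper23Diag

theorem bG2 : cartanMat Cfsg.Lie.chevG2 * (Helper23AgrG2.V * Helper23AgrG2.U) = 1 := by decide +kernel
theorem bF4 : cartanMat Cfsg.Lie.chevF4 * (Helper23AgrF4.V * Helper23AgrF4.U) = 1 := by decide +kernel
theorem bE8 : cartanMat Cfsg.Lie.chevE8 * (Helper23AgrE8.V * Helper23AgrE8.U) = 1 := by decide +kernel

/-- For G₂, F₄, E₈ the presented group has trivial centre (the universal and adjoint groups coincide). -/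
theorem result {K : Type*} [Field K] (D : Cfsg.Lie.ChevalleyDatum) (hD : D ∈ [Cfsg.Lie.chevG2, Cfsg.Lie.chevF4, Cfsg.Lie.chevE8]) :
    Subgroup.center (D.SteinbergGroup K) = ⊥ := by
  simp only [List.mem_cons, List.not_mem_nil, or_false] at hD
  rcases hD with rfl | rfl | rfl
  · exact Helper23St.center_eq_bot (by simp [Helper22ChevBasic.Std]) K _ bG2
  · exact Helper23St.center_eq_bot (by simp [Helper22ChevBasic.Std]) K _ bF4
  · exact Helper23St.center_eq_bot (by simp [Helper22ChevBasic.Std]) K _ bE8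

end Cfsg.Agent.S1078
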