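import Cfsg.Statements.S2581

set_option autoImplicit false
open Cfsg

namespace Cfsg.Agent.S2581

open Matrix

section comm

variable {F : Type*} [Field F] {t : ℕ} (d : Fin t → ℕ)

abbrev II := (k : Fin t) × Fin (d k)

variable {d}

theorem II_ext {x y : II d} (h1 : x.1 = y.1) (h2 : x.2.val = y.2.val) : x = y := by
  obtain ⟨k, i⟩ := x
  obtain ⟨l, j⟩ := y
  simp only at h1 h2
  subst h1
  congr 1
  exact Fin.ext h2

variable (d) (F)

def NN : Matrix (II d) (II d) F :=
  Matrix.of fun x y => if x.1 = y.1 ∧ x.2.val = y.2.val + 1 then 1 else 0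

theorem JJ_eq : Cfsg.jordanTypeMatrix d F = 1 + NN F d := by
  ext ⟨k, i⟩ ⟨l, j⟩
  rw [Cfsg.jordanTypeMatrix, Matrix.blockDiagonal'_apply, Matrix.add_apply, Matrix.one_apply]
  by_cases h : k = l
  · subst h
    rw [dif_pos rfl]
    simp only [Cfsg.jordanBlock, NN, Matrix.of_apply, cast_eq, true_and, Sigma.mk.injEq, heq_eq_eq,
      Fin.ext_iff]
    split_ifs <;> first | omega | simp
  · rw [dif_neg h]
    simp [NN, h]

variable {d} {F}

theorem mul_NN (X : Matrix (II d) (II d) F) (x y : II d) :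
    (X * NN F d) x y = if h : y.2.val + 1 < d y.1 then X x ⟨y.1, ⟨y.2.val + 1, h⟩⟩ else 0 := by
  rw [Matrix.mul_apply]
  by_cases h : y.2.val + 1 < d y.1
  · rw [dif_pos h, Finset.sum_eq_single (⟨y.1, ⟨y.2.val + 1, h⟩⟩ : II d)]
    · simp [NN]
    · intro b _ hb
      have : ¬ (b.1 = y.1 ∧ b.2.val = y.2.val + 1) := by
        rintro ⟨h1, h2⟩
        exact hb (II_ext h1 h2)
      simp [NN, this]
    · intro h'; exact absurd (Finset.mem_univ _) h'
  · rw [dif_neg h]
    apply Finset.sum_eq_zero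
    intro b _
    have : ¬ (b.1 = y.1 ∧ b.2.val = y.2.val + 1) := by
      rintro ⟨h1, h2⟩
      have h3 := b.2.2
      have h4 : d b.1 = d y.1 := by rw [h1]
      omega
    simp [NN, this]

theorem NN_mul (X : Matrix (II d) (II d) F) (x y : II d) :
    (NN F d * X) x y = if h : 1 ≤ x.2.val then X ⟨x.1, ⟨x.2.val - 1, by have := x.2.2; omega⟩⟩ y else 0 := by
  rw [Matrix.mul_apply]
  by_cases h : 1 ≤ x.2.val
  · rw [dif_pos h, Finset.sum_eq_single (⟨x.1, ⟨x.2.val - 1, by have := x.2.2; omega⟩⟩ : II d)]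
    · have : x.2.val = x.2.val - 1 + 1 := by omega
      simp [NN, ← this]
    · intro b _ hb
      have : ¬ (x.1 = b.1 ∧ x.2.val = b.2.val + 1) := by
        rintro ⟨h1, h2⟩
        exact hb (II_ext h1.symm (by simp only; omega))
      simp [NN, this]
    · intro h'; exact absurd (Finset.mem_univ _) h'
  · rw [dif_neg h]
    apply Finset.sum_eq_zero
    intro b _
    have : ¬ (x.1 = b.1 ∧ x.2.val = b.2.val + 1) := by
      rintro ⟨h1, h2⟩
      omega
    simp [NN, this]

theorem comm_iff (X : Matrix (II d) (II d) F) :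
    X * Cfsg.jordanTypeMatrix d F = Cfsg.jordanTypeMatrix d F * X ↔ X * NN F d = NN F d * X := by
  rw [JJ_eq, mul_add, add_mul, mul_one, one_mul, add_right_inj]

/-- the matrix with first columns `c` -/
def XC (c : Fin t → II d → F) : Matrix (II d) (II d) F :=
  Matrix.of fun x y => if h : y.2.val ≤ x.2.val then
    c y.1 ⟨x.1, ⟨x.2.val - y.2.val, by have := x.2.2; omega⟩⟩ else 0

/-- admissible first columns -/
def Adm (c : Fin t → II d → F) : Prop := ∀ l (x : II d), x.2.val + d l < d x.1 → c l x = 0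

theorem XC_comm (c : Fin t → II d → F) (hc : Adm c) : XC c * NN F d = NN F d * XC c := by
  ext x y
  rw [mul_NN, NN_mul]
  by_cases h1 : y.2.val + 1 ≤ x.2.val
  · rw [dif_pos (by omega : 1 ≤ x.2.val)]
    have e1 : XC c ⟨x.1, ⟨x.2.val - 1, by have := x.2.2; omega⟩⟩ y
        = c y.1 ⟨x.1, ⟨x.2.val - (y.2.val + 1), by have := x.2.2; omega⟩⟩ := by
      simp only [XC, Matrix.of_apply]
      rw [dif_pos (by omega)]
      congr 3
      omega
    rw [e1]
    by_cases h2 : y.2.val + 1 < d y.1
    · rw [dif_pos h2]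
      simp only [XC, Matrix.of_apply]
      rw [dif_pos h1]
    · rw [dif_neg h2]
      symm
      apply hc
      have := x.2.2
      have := y.2.2
      simp only
      omega
  · have e1 : (if h : 1 ≤ x.2.val then XC c ⟨x.1, ⟨x.2.val - 1, by have := x.2.2; omega⟩⟩ y else 0) = 0 := by
      split_ifs with h
      · simp only [XC, Matrix.of_apply]
        rw [dif_neg (by omega)]
      · rfl
    rw [e1]
    split_ifs with h
    · simp only [XC, Matrix.of_apply]
      rw [dif_neg h1]
    · rfl

/-- first columns -/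
def col (hd : ∀ k, 1 ≤ d k) (X : Matrix (II d) (II d) F) : Fin t → II d → F :=
  fun l x => X x ⟨l, ⟨0, hd l⟩⟩

theorem XC_apply_of_le (c : Fin t → II d → F) (x y : II d) (h : y.2.val ≤ x.2.val) :
    XC c x y = c y.1 ⟨x.1, ⟨x.2.val - y.2.val, by have := x.2.2; omega⟩⟩ := by
  simp only [XC, Matrix.of_apply]
  rw [dif_pos h]

theorem XC_apply_of_lt (c : Fin t → II d → F) (x y : II d) (h : x.2.val < y.2.val) :
    XC c x y = 0 := by
  simp only [XC, Matrix.of_apply]
  rw [dif_neg (by omega)]

theorem col_XC (hd : ∀ k, 1 ≤ d k) (c : Fin t → II d → F) : col hd (XC c) = c := by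
  funext l x
  unfold col
  rw [XC_apply_of_le _ _ _ (Nat.zero_le _)]
  show c l _ = c l x
  congr 1

theorem eq_XC (hd : ∀ k, 1 ≤ d k) (X : Matrix (II d) (II d) F) (hX : X * NN F d = NN F d * X) :
    X = XC (col hd X) := by
  have key : ∀ (j : ℕ) (x y : II d), y.2.val = j → X x y = XC (col hd X) x y := by
    intro j
    induction j with
    | zero =>
      intro x y hy
      rw [XC_apply_of_le _ _ _ (by omega)]
      unfold col
      congr 1
      · exact II_ext rfl (by simp only; omega)
      · exact II_ext rfl hy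
    | succ j ih =>
      intro x y hy
      have hj : j < d y.1 := by have := y.2.2; omega
      have h1 := congrFun (congrFun hX x) (⟨y.1, ⟨j, hj⟩⟩ : II d)
      rw [mul_NN, NN_mul] at h1
      have hy' : (⟨y.1, ⟨j + 1, by have := y.2.2; omega⟩⟩ : II d) = y := II_ext rfl hy.symm
      rw [dif_pos (by have := y.2.2; simp only; omega)] at h1
      simp only at h1
      rw [hy'] at h1
      rw [h1]
      by_cases h2 : 1 ≤ x.2.val
      · rw [dif_pos h2, ih _ _ rfl]
        by_cases h3 : y.2.val ≤ x.2.val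
        · rw [XC_apply_of_le _ _ _ h3, XC_apply_of_le _ _ _ (by simp only; omega)]
          congr 1
          exact II_ext rfl (by simp only; omega)
        · rw [XC_apply_of_lt _ x y (by omega), XC_apply_of_lt _ _ _ (by simp only; omega)]
      · rw [dif_neg h2, XC_apply_of_lt _ _ _ (by omega)]
  ext x y
  exact key _ x y rfl

theorem adm_col (hd : ∀ k, 1 ≤ d k) (X : Matrix (II d) (II d) F) (hX : X * NN F d = NN F d * X) :
    Adm (col hd X) := by
  intro l x hx
  have hl := hd l
  have h1 := congrFun (congrFun hX (⟨x.1, ⟨x.2.val + d l, hx⟩⟩ : II d)) (⟨l, ⟨d l - 1, by omega⟩⟩ : II d)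
  rw [mul_NN, NN_mul, dif_neg (by simp only; omega), dif_pos (by simp only; omega)] at h1
  rw [eq_XC hd X hX, XC_apply_of_le _ _ _ (by simp only; omega)] at h1
  rw [h1]
  congr 1
  exact II_ext rfl (by simp only; omega)

/-- ordering key -/
def key (x : II d) : ℕᵒᵈ ×ₗ ℕ := toLex (OrderDual.toDual x.2.val, d x.1)

theorem key_eq_iff (x y : II d) : key x = key y ↔ x.2.val = y.2.val ∧ d x.1 = d y.1 := by
  unfold key
  rw [toLex_inj, Prod.mk.injEq, OrderDual.toDual_inj]

theorem XC_blockTriangular (c : Fin t → II d → F) (hc : Adm c) : (XC c).BlockTriangular key := by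
  intro x y hxy
  unfold key at hxy
  rw [Prod.Lex.toLex_lt_toLex] at hxy
  simp only [OrderDual.toDual_lt_toDual, OrderDual.toDual_inj] at hxy
  rcases hxy with h | ⟨h1, h2⟩
  · exact XC_apply_of_lt _ _ _ h
  · rw [XC_apply_of_le _ _ _ (by omega)]
    apply hc
    simp only
    omega

/-- the diagonal blocks -/
def MA (hd : ∀ k, 1 ≤ d k) (c : Fin t → II d → F) (a : ℕ) : Matrix {k // d k = a} {k // d k = a} F :=
  Matrix.of fun k l => c l.1 ⟨k.1, ⟨0, hd k.1⟩⟩

def blockEquiv (x₀ : II d) : {x : II d // key x = key x₀} ≃ {k // d k = d x₀.1} where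
  toFun x := ⟨x.1.1, ((key_eq_iff _ _).1 x.2).2⟩
  invFun k := ⟨⟨k.1, ⟨x₀.2.val, by rw [k.2]; exact x₀.2.2⟩⟩, (key_eq_iff _ _).2 ⟨rfl, k.2⟩⟩
  left_inv x := by
    apply Subtype.ext
    exact II_ext rfl ((key_eq_iff _ _).1 x.2).1.symm
  right_inv k := rfl

theorem block_eq (hd : ∀ k, 1 ≤ d k) (c : Fin t → II d → F) (x₀ : II d) :
    (XC c).toSquareBlock key (key x₀) = (MA hd c (d x₀.1)).submatrix (blockEquiv x₀) (blockEquiv x₀) := by
  ext x y
  rw [Matrix.toSquareBlock_def, Matrix.of_apply, Matrix.submatrix_apply]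
  have h1 := ((key_eq_iff _ _).1 x.2).1
  have h2 := ((key_eq_iff _ _).1 y.2).1
  rw [XC_apply_of_le _ _ _ (by omega)]
  simp only [MA, Matrix.of_apply, blockEquiv, Equiv.coe_fn_mk]
  congr 1
  exact II_ext rfl (by simp only; omega)

theorem det_ne_zero_iff (hd : ∀ k, 1 ≤ d k) (c : Fin t → II d → F) (hc : Adm c) :
    (XC c).det ≠ 0 ↔ ∀ a, (MA hd c a).det ≠ 0 := by
  rw [(XC_blockTriangular c hc).det, Finset.prod_ne_zero_iff]
  constructor
  · intro h a
    by_cases hne : Nonempty {k // d k = a}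
    · obtain ⟨⟨k, rfl⟩⟩ := hne
      have := h (key (⟨k, ⟨0, hd k⟩⟩ : II d)) (Finset.mem_image_of_mem _ (Finset.mem_univ _))
      rw [block_eq hd, Matrix.det_submatrix_equiv_self] at this
      exact this
    · rw [not_nonempty_iff] at hne
      rw [Matrix.det_isEmpty]
      exact one_ne_zero
  · intro h v hv
    obtain ⟨x₀, _, rfl⟩ := Finset.mem_image.1 hv
    rw [block_eq hd, Matrix.det_submatrix_equiv_self]
    exact h _

end comm

theorem inner_count (a b : ℕ) (ha : 1 ≤ a) (hb : 1 ≤ b) :
    ∑ i : Fin a, (if ¬ (i.val + b < a) ∧ ¬ (i.val = 0 ∧ a = b) then 1 else 0)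
      = if a = b then a - 1 else min a b := by
  rw [Fin.sum_univ_eq_sum_range (fun i : ℕ => if ¬ (i + b < a) ∧ ¬ (i = 0 ∧ a = b) then 1 else 0),
    Finset.sum_boole]
  have h : (Finset.range a).filter (fun i => ¬ (i + b < a) ∧ ¬ (i = 0 ∧ a = b))
      = Finset.Ico (if a = b then 1 else a - b) a := by
    ext i
    simp only [Finset.mem_filter, Finset.mem_range, Finset.mem_Ico]
    split_ifs <;> omega
  rw [h, Nat.card_Ico]
  simp only [Nat.cast_id]
  split_ifs <;> omega

theorem sum_fiber {t : ℕ} (d : Fin t → ℕ) (n : ℕ) (hn : ∀ k, d k < n) (f : ℕ → ℕ) :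
    ∑ k, f (d k) = ∑ i ∈ Finset.range n, (Finset.univ.filter (fun k : Fin t => d k = i)).card * f i := by
  rw [← Finset.sum_fiberwise_of_maps_to (s := Finset.univ) (t := Finset.range n) (g := d)
    (fun k _ => Finset.mem_range.2 (hn k))]
  apply Finset.sum_congr rfl
  intro i _
  rw [Finset.sum_congr rfl (g := fun _ => f i) (fun k hk => by rw [(Finset.mem_filter.1 hk).2]),
    Finset.sum_const, smul_eq_mul]

theorem gamma_eq {t : ℕ} (d : Fin t → ℕ) (n : ℕ) (hn : ∀ k, d k < n) :
    ∑ l, ∑ k, (if d k = d l then d k - 1 else min (d k) (d l))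
      = 2 * (∑ i ∈ Finset.range n, ∑ j ∈ Finset.range n,
          if i < j then i * (Finset.univ.filter (fun k : Fin t => d k = i)).card
            * (Finset.univ.filter (fun k : Fin t => d k = j)).card else 0)
        + ∑ i ∈ Finset.range n, (i - 1) * (Finset.univ.filter (fun k : Fin t => d k = i)).card ^ 2 := by
  set m : ℕ → ℕ := fun i => (Finset.univ.filter (fun k : Fin t => d k = i)).card with hm
  have h1 : ∀ l, ∑ k, (if d k = d l then d k - 1 else min (d k) (d l))
      = ∑ i ∈ Finset.range n, m i * (if i = d l then i - 1 else min i (d l)) := by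
    intro l
    exact sum_fiber d n hn (fun i => if i = d l then i - 1 else min i (d l))
  rw [Finset.sum_congr rfl (fun l _ => h1 l)]
  rw [sum_fiber d n hn (fun j => ∑ i ∈ Finset.range n, m i * (if i = j then i - 1 else min i j))]
  have h2 : ∀ j ∈ Finset.range n, m j * ∑ i ∈ Finset.range n, m i * (if i = j then i - 1 else min i j)
      = ∑ i ∈ Finset.range n, ((if i < j then i * m i * m j else 0) + (if j < i then j * m j * m i else 0)
        + (if i = j then (i - 1) * m i ^ 2 else 0)) := by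
    intro j _
    rw [Finset.mul_sum]
    apply Finset.sum_congr rfl
    intro i _
    rcases lt_trichotomy i j with h | h | h
    · rw [if_neg (by omega), if_pos h, if_neg (by omega), if_neg (by omega), min_eq_left (by omega)]
      ring
    · subst h
      simp only [if_true, lt_irrefl, if_false]
      ring
    · rw [if_neg (by omega), if_neg (by omega), if_pos h, if_neg (by omega), min_eq_right (by omega)]
      ring
  rw [Finset.sum_congr rfl h2]
  simp only [Finset.sum_add_distrib]
  rw [Finset.sum_comm, two_mul]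
  congr 1
  apply Finset.sum_congr rfl
  intro j hj
  rw [Finset.sum_ite_eq' (Finset.range n) j, if_pos hj]


section count

variable {F : Type*} [Field F] {t : ℕ} {d : Fin t → ℕ}

theorem card_det_ne_zero [Fintype F] (K : Type*) [Fintype K] [DecidableEq K] :
    Nat.card {M : Matrix K K F // M.det ≠ 0}
      = ∏ j : Fin (Fintype.card K), (Fintype.card F ^ Fintype.card K - Fintype.card F ^ (j : ℕ)) := by
  rw [← Matrix.card_GL_field]
  apply Nat.card_congr
  let e := Fintype.equivFin K
  exact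
    { toFun := fun M => Matrix.GeneralLinearGroup.mkOfDetNeZero (Matrix.reindex e e M.1)
        (by rw [Matrix.det_reindex_self]; exact M.2)
      invFun := fun g => ⟨Matrix.reindex e.symm e.symm g.1, by
        rw [Matrix.det_reindex_self]
        exact ((Matrix.isUnit_iff_isUnit_det g.1).1 g.isUnit).ne_zero⟩
      left_inv := fun M => by
        apply Subtype.ext
        show Matrix.reindex e.symm e.symm (Matrix.reindex e e M.1) = M.1
        simp
      right_inv := fun g => by
        apply Units.ext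
        show Matrix.reindex e e (Matrix.reindex e.symm e.symm g.1) = g.1
        simp }

def commEquiv (hd : ∀ k, 1 ≤ d k) :
    {g : GL (II d) F // (g : Matrix (II d) (II d) F) * Cfsg.jordanTypeMatrix d F
      = Cfsg.jordanTypeMatrix d F * (g : Matrix (II d) (II d) F)}
    ≃ {c : Fin t → II d → F // Adm c ∧ ∀ a, (MA hd c a).det ≠ 0} where
  toFun g := ⟨col hd g.1.1, adm_col hd _ ((comm_iff _).1 g.2), by
    rw [← det_ne_zero_iff hd _ (adm_col hd _ ((comm_iff _).1 g.2)), ← eq_XC hd _ ((comm_iff _).1 g.2)]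
    exact ((Matrix.isUnit_iff_isUnit_det g.1.1).1 g.1.isUnit).ne_zero⟩
  invFun c := ⟨Matrix.GeneralLinearGroup.mkOfDetNeZero (XC c.1) ((det_ne_zero_iff hd _ c.2.1).2 c.2.2),
    (comm_iff _).2 (XC_comm _ c.2.1)⟩
  left_inv g := by
    apply Subtype.ext
    apply Units.ext
    exact (eq_XC hd _ ((comm_iff _).1 g.2)).symm
  right_inv c := by
    apply Subtype.ext
    exact col_XC hd c.1

variable (d)

abbrev RR := {p : Fin t × II d // ¬ (p.2.2.val + d p.1 < d p.2.1) ∧ ¬ (p.2.2.val = 0 ∧ d p.2.1 = d p.1)}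

variable {d}

def build (n : ℕ) (hn : ∀ k, d k < n) (r : RR d → F)
    (M : (a : Fin n) → Matrix {k // d k = a.val} {k // d k = a.val} F) : Fin t → II d → F :=
  fun l x => if h1 : x.2.val + d l < d x.1 then 0 else
    if h2 : x.2.val = 0 ∧ d x.1 = d l then M ⟨d l, hn l⟩ ⟨x.1, h2.2⟩ ⟨l, rfl⟩ else r ⟨(l, x), h1, h2⟩

theorem build_adm (n : ℕ) (hn : ∀ k, d k < n) (r : RR d → F)
    (M : (a : Fin n) → Matrix {k // d k = a.val} {k // d k = a.val} F) : Adm (build n hn r M) := by
  intro l x h
  unfold build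
  rw [dif_pos h]

theorem MA_build (hd : ∀ k, 1 ≤ d k) (n : ℕ) (hn : ∀ k, d k < n) (r : RR d → F)
    (M : (a : Fin n) → Matrix {k // d k = a.val} {k // d k = a.val} F) (a : Fin n) :
    MA hd (build n hn r M) a.val = M a := by
  ext k l
  obtain ⟨a, ha⟩ := a
  obtain ⟨l, hl⟩ := l
  obtain ⟨k, hk⟩ := k
  simp only at hl hk
  subst hl
  simp only [MA, Matrix.of_apply, build]
  rw [dif_neg (by omega), dif_pos ⟨trivial, hk⟩]

theorem build_RR (n : ℕ) (hn : ∀ k, d k < n) (r : RR d → F)
    (M : (a : Fin n) → Matrix {k // d k = a.val} {k // d k = a.val} F) (p : RR d) :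
    build n hn r M p.1.1 p.1.2 = r p := by
  unfold build
  rw [dif_neg p.2.1, dif_neg p.2.2]

theorem build_self (hd : ∀ k, 1 ≤ d k) (n : ℕ) (hn : ∀ k, d k < n) (c : Fin t → II d → F) (hc : Adm c) :
    build n hn (fun p : RR d => c p.1.1 p.1.2) (fun a => MA hd c a.val) = c := by
  funext l x
  unfold build
  by_cases h1 : x.2.val + d l < d x.1
  · rw [dif_pos h1, hc l x h1]
  · rw [dif_neg h1]
    by_cases h2 : x.2.val = 0 ∧ d x.1 = d l
    · rw [dif_pos h2]
      simp only [MA, Matrix.of_apply]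
      congr 1
      exact II_ext rfl h2.1.symm
    · rw [dif_neg h2]

def paramEquiv (hd : ∀ k, 1 ≤ d k) (n : ℕ) (hn : ∀ k, d k < n) :
    {c : Fin t → II d → F // Adm c ∧ ∀ a, (MA hd c a).det ≠ 0}
    ≃ (RR d → F) × ((a : Fin n) → {M : Matrix {k // d k = a.val} {k // d k = a.val} F // M.det ≠ 0}) where
  toFun c := (fun p => c.1 p.1.1 p.1.2, fun a => ⟨MA hd c.1 a.val, c.2.2 a.val⟩)
  invFun p := ⟨build n hn p.1 (fun a => (p.2 a).1), build_adm _ _ _ _, by
    intro a
    by_cases ha : a < n
    · have := MA_build hd n hn p.1 (fun a => (p.2 a).1) ⟨a, ha⟩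
      simp only at this
      rw [this]
      exact (p.2 ⟨a, ha⟩).2
    · have : IsEmpty {k // d k = a} := ⟨fun k => ha (by rw [← k.2]; exact hn k.1)⟩
      rw [Matrix.det_isEmpty]
      exact one_ne_zero⟩
  left_inv c := by
    apply Subtype.ext
    exact build_self hd n hn c.1 c.2.1
  right_inv p := by
    apply Prod.ext
    · funext r
      exact build_RR n hn p.1 (fun a => (p.2 a).1) r
    · funext a
      apply Subtype.ext
      exact MA_build hd n hn p.1 (fun a => (p.2 a).1) a

theorem card_RR (hd : ∀ k, 1 ≤ d k) :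
    Fintype.card (RR d) = ∑ l, ∑ k, (if d k = d l then d k - 1 else min (d k) (d l)) := by
  rw [Fintype.card_subtype, Finset.card_filter, Fintype.sum_prod_type]
  apply Finset.sum_congr rfl
  intro l _
  rw [Fintype.sum_sigma]
  apply Finset.sum_congr rfl
  intro k _
  exact inner_count (d k) (d l) (hd k) (hd l)

theorem card_det_ne_zero' [Fintype F] (K : Type*) [Fintype K] [DecidableEq K] (m : ℕ)
    (hm : Fintype.card K = m) :
    Nat.card {M : Matrix K K F // M.det ≠ 0}
      = ∏ j : Fin m, (Fintype.card F ^ m - Fintype.card F ^ (j : ℕ)) := by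
  subst hm
  exact card_det_ne_zero K

end count

/-- Order of the centraliser in GL of a unipotent matrix of given Jordan type over the field with q elements: if the type has a_i blocks of size i (all block sizes at least 1), the invertible matrices commuting with it number q^γ · Π_i |GL_(a_i)(q)| with γ = 2 Σ_(i<j) i a_i a_j + Σ_i (i − 1) a_i² (a group of order q^γ extended by Π GL_(a_i)(q)). -/
theorem result {F : Type*} [Field F] [Fintype F] {q : ℕ} (hF : Fintype.card F = q) {t : ℕ} (d : Fin t → ℕ) (hd : ∀ k, 1 ≤ d k) : Nat.card {g : GL ((k : Fin t) × Fin (d k)) F // (g : Matrix ((k : Fin t) × Fin (d k)) ((k : Fin t) × Fin (d k)) F) * Cfsg.jordanTypeMatrix d F = Cfsg.jordanTypeMatrix d F * (g : Matrix ((k : Fin t) × Fin (d k)) ((k : Fin t) × Fin (d k)) F)} = q ^ (2 * (∑ i ∈ Finset.range (Finset.univ.sup d + 1), ∑ j ∈ Finset.range (Finset.univ.sup d + 1), if i < j then i * (Finset.univ.filter (fun k : Fin t => d k = i)).card * (Finset.univ.filter (fun k : Fin t => d k = j)).card else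 0) + ∑ i ∈ Finset.range (Finset.univ.sup d + 1), (i - 1) * (Finset.univ.filter (fun k : Fin t => d k = i)).card ^ 2) * ∏ i ∈ Finset.range (Finset.univ.sup d + 1), ∏ j : Fin ((Finset.univ.filter (fun k : Fin t => d k = i)).card), (q ^ (Finset.univ.filter (fun k : Fin t => d k = i)).card - q ^ (j : ℕ)) := by
  subst hF
  have hn : ∀ k, d k < Finset.univ.sup d + 1 :=
    fun k => Nat.lt_succ_of_le (Finset.le_sup (f := d) (Finset.mem_univ k))
  rw [Nat.card_congr ((commEquiv hd).trans (paramEquiv hd _ hn)), Nat.card_prod, Nat.card_fun,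
    Nat.card_pi, Nat.card_eq_fintype_card, Nat.card_eq_fintype_card, card_RR hd, gamma_eq d _ hn,
    Finset.prod_range]
  congr 1
  apply Finset.prod_congr rfl
  intro a _
  exact card_det_ne_zero' _ _ (Fintype.card_subtype _)

end Cfsg.Agent.S2581
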