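import Cfsg.Statements.S2568
import Cfsg.Agent.Lib.Helper48EigMat
import Cfsg.Agent.Lib.Helper48EigCount
import Cfsg.Agent.Lib.Helper48JordanClass

set_option autoImplicit false
open Cfsg

namespace Cfsg.Agent.S2568

open Cfsg.Agent.Lib.Helper48Eig Cfsg.Agent.Lib.Helper48EigMat Cfsg.Agent.Lib.Helper48EigCount

/-- the set-up over the algebraic closure: a primitive root and Frobenius maps -/
theorem exists_setup (F : Type*) [Field F] (p : ℕ) [Fact p.Prime] [CharP F p] (r : ℕ)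
    (hr : r.Prime) (hrp : r ≠ p) :
    (∃ ζ : AlgebraicClosure F, IsPrimitiveRoot ζ r) ∧
      ∀ e : ℕ, ∃ Φ : AlgebraicClosure F →+* AlgebraicClosure F, ∀ x, Φ x = x ^ p ^ e := by
  have hp : p.Prime := Fact.out
  have _ : NeZero (r : F) := ⟨by
    intro h0
    rw [CharP.cast_eq_zero_iff F p] at h0
    exact hrp ((Nat.prime_dvd_prime_iff_eq hp hr).1 h0).symm⟩
  have _ : CharP (AlgebraicClosure F) p :=
    charP_of_injective_algebraMap (algebraMap F (AlgebraicClosure F)).injective p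
  have _ : ExpChar (AlgebraicClosure F) p := ExpChar.prime hp
  exact ⟨HasEnoughRootsOfUnity.exists_primitiveRoot _ r,
    fun e => ⟨iterateFrobenius (AlgebraicClosure F) p e, fun x => rfl⟩⟩

theorem gl_pow_eq_one {F : Type*} [Field F] {n : ℕ} (g : GL (Fin n) F) (r : ℕ) :
    g ^ r = 1 ↔ g.1 ^ r = 1 := by
  rw [← Units.val_pow_eq_pow_val, Units.ext_iff, Units.val_one]

theorem result {F : Type*} [Field F] [Fintype F] {p q : ℕ} [Fact p.Prime] [CharP F p] (hF : Fintype.card F = q) (n r i t : ℕ) (hr : r.Prime) (hrp : r ≠ p) (hi : i = orderOf (q : ZMod r)) (ht : t * i = r - 1) : Nat.card {C : ConjClasses (GL (Fin n) F) // ∃ g : GL (Fin n) F, ConjClasses.mk g = C ∧ orderOf g = r} = Nat.choose (n / i + t) t - 1 := by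
  have hp : p.Prime := Fact.out
  have _ : Fact r.Prime := ⟨hr⟩
  obtain ⟨⟨ζ, hζ⟩, hfrob⟩ := exists_setup F p r hr hrp
  obtain ⟨e, _, he⟩ := FiniteField.card F p
  rw [hF] at he
  obtain ⟨Φ, hΦ⟩ := hfrob e
  rw [← he, ← hF] at hΦ
  have hrp' : r.Coprime p := (Nat.coprime_primes hr hp).2 hrp
  have hcop : q.Coprime r := by rw [he]; exact (hrp'.symm).pow_left _
  set u : (ZMod r)ˣ := ZMod.unitOfCoprime q hcop with hu
  have huq : ((Fintype.card F : ℕ) : ZMod r) = u := by rw [hF]; rfl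
  have hord : orderOf u = i := by rw [hi, ← orderOf_units]; rfl
  rw [← card_invariant_ne u i t n hord ht]
  apply Cfsg.Agent.Lib.Helper48JordanClass.card_classes
    (fun (g : GL (Fin n) F) (a : ZMod r → ℕ) => HasMult ζ g.1 a)
  · intro g hg
    exact exists_hasMult hζ g.1 ((gl_pow_eq_one g r).1 (by rw [← hg, pow_orderOf_eq_one]))
  · intro g g' a h h'
    obtain ⟨P, hP⟩ := h.conj p hrp' h'
    rw [isConj_iff]
    refine ⟨P, ?_⟩
    rw [mul_inv_eq_iff_eq_mul]
    exact Units.ext hP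
  · intro g g' a a' h h' hc
    rw [isConj_iff] at hc
    obtain ⟨P, hP⟩ := hc
    rw [mul_inv_eq_iff_eq_mul] at hP
    exact h.unique hζ h' P (congrArg Units.val hP)
  · rintro a ⟨⟨hinv, hsum⟩, _⟩
    obtain ⟨M, hM⟩ := exists_matrix p ζ hζ.pow_eq_one Φ hΦ u huq n a hinv hsum
    have h1 : M * M ^ (r - 1) = 1 := by
      rw [← pow_succ', Nat.sub_add_cancel hr.one_le, hM.1]
    exact ⟨⟨M, M ^ (r - 1), h1, mul_eq_one_comm.1 h1⟩, hM⟩
  · intro g a h
    have h1 : g = 1 ↔ a = Pi.single 0 n := by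
      rw [← Units.val_inj, Units.val_one, h.eq_one_iff p hrp' hζ, Fintype.card_fin]
    constructor
    · intro hg
      refine ⟨⟨h.invariant hζ Φ hΦ u huq, by rw [h.sum, Fintype.card_fin]⟩, ?_⟩
      intro ha
      rw [h1.2 ha, orderOf_one] at hg
      exact hr.one_lt.ne hg
    · rintro ⟨_, hne⟩
      exact orderOf_eq_prime ((gl_pow_eq_one g r).2 h.1) (fun hg => hne (h1.1 hg))

end Cfsg.Agent.S2568
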