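import Cfsg.Statements.S0076
import Cfsg.Agent.Lib.Helper2Sylow

set_option autoImplicit false
open Cfsg

namespace Cfsg.Agent.S0076

open Pointwise in
/-- Two P-invariant subsets of a Sylow p-subgroup P that are conjugate in G are conjugate under the normalizer of P. -/
theorem result {G : Type*} [Group G] [Finite G] {p : ℕ} [Fact p.Prime] (P : Sylow p G) (X Y : Set G) (hXP : X ⊆ P) (hYP : Y ⊆ P) (hX : ∀ x ∈ P, (fun y => x * y * x⁻¹) '' X = X) (hY : ∀ x ∈ P, (fun y => x * y * x⁻¹) '' Y = Y) (g : G) (hg : (fun y => g * y * g⁻¹) '' X = Y) : ∃ n ∈ Subgroup.normalizer (P : Set G), (fun y => n * y * n⁻¹) '' X = Y := by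
  have key : ∀ (S : Set G) (x : G), x ∈ Subgroup.normalizer S ↔ (fun y => x * y * x⁻¹) '' S = S := by
    intro S x
    rw [Subgroup.mem_normalizer_iff_conj_image_eq]
    rfl
  have h1 : (P : Subgroup G) ≤ Subgroup.normalizer Y := fun x hx => (key Y x).2 (hY x hx)
  have h2 : ((g • P : Sylow p G) : Subgroup G) ≤ Subgroup.normalizer Y := by
    intro x hx
    rw [Sylow.coe_subgroup_smul, Subgroup.mem_pointwise_smul_iff_inv_smul_mem] at hx
    rw [key, ← hg]
    have h3 := hX _ hx
    conv_rhs => rw [← h3]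
    simp only [Set.image_image, MulAut.smul_def, MulAut.conj_apply, map_inv, MulAut.inv_apply, MulAut.conj_symm_apply]
    congr 1
    funext y
    group
  obtain ⟨h, hh, hn⟩ := Cfsg.Agent.Lib.Helper2Sylow.exists_mul_mem_normalizer P _ g h1 h2
  refine ⟨h * g, hn, ?_⟩
  have h4 := (key Y h).1 hh
  conv_rhs => rw [← h4, ← hg]
  simp only [Set.image_image]
  congr 1
  funext y
  group

end Cfsg.Agent.S0076
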