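import Cfsg.Statements.S1012
import Cfsg.Agent.Lib.Helper6Small
import Cfsg.Agent.Lib.Helper6Syl

set_option autoImplicit false
open Cfsg

namespace Cfsg.Agent.S1012

/-- A group of order 24 containing no element of order 6 is isomorphic to the symmetric group of degree 4. -/
theorem result {G : Type*} [Group G] [Finite G] (h : Nat.card G = 24) (h6 : ∀ g : G, orderOf g ≠ 6) : Nonempty (G ≃* Equiv.Perm (Fin 4)) := by
  apply Cfsg.Agent.Lib.Helper6Small.s4_of_card h
  intro y hy hnorm
  have hn1 : orderOf y ≠ 1 := fun h1 => hy (orderOf_eq_one_iff.1 h1)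
  have hn24 : orderOf y ∣ 24 := h ▸ orderOf_dvd_natCard y
  obtain ⟨r, hr, hrn⟩ := Nat.exists_prime_and_dvd hn1
  have hr24 : r ∣ 2 ^ 3 * 3 := hrn.trans hn24
  have hr23 : r = 2 ∨ r = 3 := by
    rcases (Nat.Prime.dvd_mul hr).1 hr24 with h1 | h1
    · left; exact (Nat.prime_dvd_prime_iff_eq hr Nat.prime_two).1 (hr.dvd_of_dvd_pow h1)
    · right; exact (Nat.prime_dvd_prime_iff_eq hr Nat.prime_three).1 h1
  set w := y ^ (orderOf y / r) with hwdef
  have hw : orderOf w = r := orderOf_pow_orderOf_div (orderOf_pos y).ne' hrn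
  have hw1 : w ≠ 1 := fun h1 => by
    rw [h1, orderOf_one] at hw; exact hr.one_lt.ne hw
  have hwn : ∀ g : G, ∃ k : ℤ, g * w * g⁻¹ = w ^ k := by
    intro g
    obtain ⟨k, hk⟩ := hnorm.conj_mem y (Subgroup.mem_zpowers y) g
    refine ⟨k, ?_⟩
    simp only at hk
    rw [hwdef, ← conj_pow, ← hk, ← zpow_natCast, ← zpow_natCast, ← zpow_mul, ← zpow_mul, mul_comm]
  have hconj1 : ∀ g : G, g * w * g⁻¹ ≠ 1 := by
    intro g h1
    apply hw1
    have : w = g⁻¹ * (g * w * g⁻¹) * g := by group
    rw [this, h1]; group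
  rcases hr23 with rfl | rfl
  · -- central involution
    have hcomm : ∀ g : G, Commute w g := by
      intro g
      obtain ⟨k, hk⟩ := hwn g
      have h2 : g * w * g⁻¹ = w := by
        rw [← zpow_mod_orderOf, hw] at hk
        rcases Int.emod_two_eq_zero_or_one k with h3 | h3
        · rw [Nat.cast_ofNat, h3, zpow_zero] at hk; exact absurd hk (hconj1 g)
        · rw [Nat.cast_ofNat, h3, zpow_one] at hk; exact hk
      have : g * w = w * g := by
        calc g * w = g * w * g⁻¹ * g := by group
          _ = w * g := by rw [h2]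
      exact this.symm
    haveI : Fact (Nat.Prime 3) := ⟨Nat.prime_three⟩
    obtain ⟨x, hx⟩ := exists_prime_orderOf_dvd_card' (G := G) 3 (by rw [h]; norm_num)
    have := (hcomm x).orderOf_mul_eq_mul_orderOf_of_coprime (by rw [hw, hx]; norm_num)
    rw [hw, hx] at this
    exact h6 _ this
  · have hsub : {a : G | IsConj w a} ⊆ {w, w ^ 2} := by
      intro a ha
      obtain ⟨g, hg⟩ := isConj_iff.1 ha
      obtain ⟨k, hk⟩ := hwn g
      rw [hg] at hk
      rw [← zpow_mod_orderOf, hw] at hk
      have h3 : k % 3 = 0 ∨ k % 3 = 1 ∨ k % 3 = 2 := by omega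
      rcases h3 with h3 | h3 | h3
      · rw [Nat.cast_ofNat, h3, zpow_zero] at hk
        exact absurd (hg.trans hk) (hconj1 g)
      · rw [Nat.cast_ofNat, h3, zpow_one] at hk; left; exact hk
      · rw [Nat.cast_ofNat, h3] at hk; right
        rw [Set.mem_singleton_iff, hk]; exact zpow_ofNat w 2
    have hc2 : Nat.card {a : G // IsConj w a} ≤ 2 := by
      have h1 : Nat.card {a : G // IsConj w a} = {a : G | IsConj w a}.ncard := rfl
      rw [h1]
      calc _ ≤ ({w, w ^ 2} : Set G).ncard := Set.ncard_le_ncard hsub (Set.toFinite _)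
        _ ≤ 2 := by
          refine (Set.ncard_insert_le _ _).trans ?_
          rw [Set.ncard_singleton]
    have hmul := Cfsg.Agent.Lib.Helper6Syl.card_conj_mul_card_centralizer w
    rw [h] at hmul
    have h2 : 2 ∣ Nat.card (Subgroup.centralizer ({w} : Set G)) := by
      set c := Nat.card {a : G // IsConj w a}
      set z := Nat.card (Subgroup.centralizer ({w} : Set G))
      interval_cases c <;> omega
    haveI : Fact (Nat.Prime 2) := ⟨Nat.prime_two⟩
    obtain ⟨t, ht⟩ := exists_prime_orderOf_dvd_card' 2 h2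
    have ht2 : orderOf (t : G) = 2 := by rw [Subgroup.orderOf_coe]; exact ht
    have hcomm : Commute (t : G) w := by
      have := Subgroup.mem_centralizer_singleton_iff.1 t.2
      exact this
    have := hcomm.orderOf_mul_eq_mul_orderOf_of_coprime (by rw [hw, ht2]; norm_num)
    rw [hw, ht2] at this
    exact h6 _ this

end Cfsg.Agent.S1012
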