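import Cfsg.Statements.S0606
import Cfsg.Agent.Lib.Helper13Offender

set_option autoImplicit false
open Cfsg

namespace Cfsg.Agent.S0606

/-- Elementary abelian p-subgroups of maximal order are best offenders on any normal elementary abelian p-subgroup. -/
theorem result {G : Type*} [Group G] [Finite G] {p : ℕ} [Fact p.Prime] (V : Subgroup G) [V.Normal] (hV : Cfsg.IsElementaryAbelian p V) (A : Subgroup G) (hA : A ∈ Cfsg.maxElementaryAbelianSubgroups p G) : Cfsg.IsBestOffenderOn p V A := by
  obtain ⟨hAe, hAmax⟩ := hA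
  haveI := hAe.1
  refine ⟨?_, ?_, ?_⟩
  · intro B hB
    have hBe := Cfsg.Agent.Lib.Helper13Offender.isElementaryAbelian_mono hB hAe
    have hCe : Cfsg.IsElementaryAbelian p (V ⊓ Subgroup.centralizer (B : Set G)) :=
      Cfsg.Agent.Lib.Helper13Offender.isElementaryAbelian_mono inf_le_left hV
    have hc : ∀ h ∈ B, ∀ k ∈ V ⊓ Subgroup.centralizer (B : Set G), h * k = k * h :=
      fun h hh k hk => Subgroup.mem_centralizer_iff.mp hk.2 h hh
    have hE := Cfsg.Agent.Lib.Helper13Offender.isElementaryAbelian_sup hBe hCe hc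
    have h1 := hAmax _ hE
    have h2 := Cfsg.Agent.Lib.Helper13Offender.card_mul_card_le B (V ⊓ Subgroup.centralizer (B : Set G))
    have h3 : B ⊓ (V ⊓ Subgroup.centralizer (B : Set G)) ≤ V ⊓ Subgroup.centralizer (A : Set G) := by
      intro x hx
      refine ⟨hx.2.1, ?_⟩
      show x ∈ Subgroup.centralizer (A : Set G)
      rw [Subgroup.mem_centralizer_iff]
      intro a ha
      exact Cfsg.Agent.Lib.Helper13Basic.comm_of_mem A ha (hB hx.1)
    exact h2.trans (Nat.mul_le_mul h1 (Subgroup.card_le_of_le h3))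
  · rw [Subgroup.commutator_self_eq_bot_iff.mpr hAe.1]
    exact bot_le
  · intro a ha
    rw [hAe.2 a ha]
    exact one_mem _

end Cfsg.Agent.S0606
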