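import Cfsg.Statements.S0607
import Cfsg.Agent.Lib.Helper13Offender
import Cfsg.Agent.S0606

set_option autoImplicit false
open Cfsg
open Subgroup Cfsg.Agent.Lib.Helper13Offender Cfsg.Agent.Lib.Helper13Basic
open scoped commutatorElement

namespace Cfsg.Agent.S0607

/-- The replacement Theorem for the Thompson subgroup: from A of maximal order among elementary abelian p-subgroups one obtains A₀ = [V, A] C_A([V, A]) of the same kind, quadratic on V and nontrivial on V when A is. -/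
theorem result {G : Type*} [Group G] [Finite G] {p : ℕ} [Fact p.Prime] (V : Subgroup G) [V.Normal] (hV : Cfsg.IsElementaryAbelian p V) (A : Subgroup G) (hA : A ∈ Cfsg.maxElementaryAbelianSubgroups p G) : (⁅V, A⁆ ⊔ (A ⊓ Subgroup.centralizer ((⁅V, A⁆ : Subgroup G) : Set G))) ∈ Cfsg.maxElementaryAbelianSubgroups p G ∧ ⁅⁅V, ⁅V, A⁆ ⊔ (A ⊓ Subgroup.centralizer ((⁅V, A⁆ : Subgroup G) : Set G))⁆, ⁅V, A⁆ ⊔ (A ⊓ Subgroup.centralizer ((⁅V, A⁆ : Subgroup G) : Set G))⁆ = ⊥ ∧ (⁅V, A⁆ ≠ ⊥ → ⁅V, ⁅V, A⁆ ⊔ (A ⊓ Subgroup.centralizer ((⁅V, A⁆ : Subgroup G) : Set G))⁆ ≠ ⊥) := by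
  have hAV : A ≤ normalizer (V : Set G) := le_normalizer_of_normal
  obtain ⟨hmax, hab, hAp⟩ := Cfsg.Agent.S0606.result V hV A hA
  obtain ⟨hAe, hAmax⟩ := hA
  haveI := hV.1
  haveI := hAe.1
  obtain ⟨h1, h2⟩ := timmesfeld hAV hab hmax V le_rfl
  set W : Subgroup G := ⁅V, A⁆ with hW
  set As : Subgroup G := A ⊓ centralizer (W : Set G) with hAs
  have hWV : W ≤ V := commutator_le_of_le_normalizer hAV le_rfl
  have hc : ∀ h ∈ W, ∀ k ∈ As, h * k = k * h := fun h hh k hk => mem_centralizer_iff.mp hk.2 h hh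
  have hA0e : Cfsg.IsElementaryAbelian p (W ⊔ As) :=
    isElementaryAbelian_sup (isElementaryAbelian_mono hWV hV) (isElementaryAbelian_mono inf_le_left hAe) hc
  have hCA : CV V A ≤ A := by
    have hE : Cfsg.IsElementaryAbelian p (A ⊔ CV V A) :=
      isElementaryAbelian_sup hAe (isElementaryAbelian_mono inf_le_left hV)
        (fun h hh k hk => mem_centralizer_iff.mp hk.2 h hh)
    have h3 := hAmax _ hE
    have h4 : A = A ⊔ CV V A := eq_of_le_of_card_ge le_sup_left h3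
    calc CV V A ≤ A ⊔ CV V A := le_sup_right
      _ = A := h4.symm
  have hCAs : CV V A ≤ As := by
    apply le_inf hCA
    intro x hx
    rw [mem_centralizer_iff]
    intro w hw
    exact comm_of_mem V (hWV hw) hx.1
  have k1 := card_mul_card_le As (CV V As)
  have k2 : As ⊔ CV V As ≤ W ⊔ As := by
    rw [h2]
    exact sup_le le_sup_right (sup_le le_sup_left (hCAs.trans le_sup_right))
  have k3 : As ⊓ CV V As ≤ CV V A := by
    intro x hx
    refine ⟨hx.2.1, ?_⟩
    show x ∈ centralizer (A : Set G)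
    rw [mem_centralizer_iff]
    intro a ha
    exact comm_of_mem A ha hx.1.1
  have hle : Nat.card A ≤ Nat.card (W ⊔ As : Subgroup G) := by
    have k4 : Nat.card A * Nat.card (CV V A) ≤ Nat.card (W ⊔ As : Subgroup G) * Nat.card (CV V A) := by
      rw [← h1]
      exact k1.trans (Nat.mul_le_mul (card_le_of_le k2) (card_le_of_le k3))
    exact Nat.le_of_mul_le_mul_right k4 Nat.card_pos
  refine ⟨⟨hA0e, fun B hB => (hAmax B hB).trans hle⟩, ?_, ?_⟩
  · have q1 : ⁅V, W ⊔ As⁆ ≤ W := by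
      rw [commutator_le]
      intro v hv g hg
      obtain ⟨w, hw, k, hk, rfl⟩ := (mem_sup_of_commute hc).mp hg
      have hvk : ⁅v, k⁆ ∈ V := comm_mem_of_le_normalizer hAV hk.1 hv
      have e : ⁅v, w * k⁆ = ⁅v, k⁆ := by
        calc ⁅v, w * k⁆ = (v * w) * k * v⁻¹ * k⁻¹ * w⁻¹ := by rw [commutatorElement_def]; group
          _ = (w * v) * k * v⁻¹ * k⁻¹ * w⁻¹ := by rw [comm_of_mem V hv (hWV hw)]
          _ = (w * ⁅v, k⁆) * w⁻¹ := by rw [commutatorElement_def]; group
          _ = (⁅v, k⁆ * w) * w⁻¹ := by rw [comm_of_mem V (hWV hw) hvk]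
          _ = ⁅v, k⁆ := by group
      rw [e]
      exact commutator_mem_commutator hv hk.1
    have q2 : W ⊔ As ≤ centralizer (W : Set G) := by
      apply sup_le _ inf_le_right
      intro x hx
      rw [mem_centralizer_iff]
      intro w hw
      exact comm_of_mem V (hWV hw) (hWV hx)
    rw [← le_bot_iff]
    calc ⁅⁅V, W ⊔ As⁆, W ⊔ As⁆ ≤ ⁅W, W ⊔ As⁆ := commutator_mono q1 le_rfl
      _ = ⊥ := commutator_eq_bot_iff_le_centralizer.mpr (le_centralizer_iff.mp q2)
  · intro hne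
    have h5 := commutator_ne_bot hV hAV hAp le_rfl h2 hne
    intro hbot
    apply h5
    rw [← le_bot_iff, ← hbot]
    exact commutator_mono le_rfl le_sup_right

end Cfsg.Agent.S0607
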