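import Cfsg.Statements.S0623
import Cfsg.Agent.Lib.Helper14Stable
import Cfsg.Agent.Lib.Helper14Quad

set_option autoImplicit false
open Cfsg

namespace Cfsg.Agent.S0623

open Cfsg.Agent.Lib.Helper14Stable Cfsg.Agent.Lib.Helper14Quad

universe u

theorem stableNormalClosure_map_normal {S H : Type u} [Group S] [Finite S] [Group H] {p : ℕ}
    {τ : S →* H} (hτ : Cfsg.IsStableEmbedding p τ) :
    ((Cfsg.stableNormalClosure p S).map τ).Normal := by
  constructor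
  rintro _ ⟨w, hw, rfl⟩ h
  have h0 : ((Cfsg.omegaCenterThompson p S).map τ).Normal :=
    omegaCenterThompson_map_normal hτ.1 hτ.2.2.2.2.1
  obtain ⟨w₀, _, hw₀'⟩ := h0.conj_mem _
    ⟨w, stableNormalClosure_le_omegaCenterThompson p hw, rfl⟩ h
  refine ⟨w₀, ?_, hw₀'⟩
  rw [SetLike.mem_coe]
  unfold Cfsg.stableNormalClosure
  rw [Subgroup.mem_sInf]
  intro W₁ hW₁
  have h1 : (W₁.map τ).Normal := hW₁.2 H τ hτ
  have hw1 : w ∈ W₁ := (sInf_le hW₁ : Cfsg.stableNormalClosure p S ≤ W₁) hw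
  obtain ⟨w₁, hw₁, hw₁'⟩ := h1.conj_mem _ ⟨w, hw1, rfl⟩ h
  have : w₁ = w₀ := hτ.1 (hw₁'.trans hw₀'.symm)
  rw [← this]
  exact hw₁

/-- an element acting quadratically on the image of `W(S)` agrees modulo the centralizer with
an element of the image of `S` -/
theorem exists_rep {S H : Type u} [Group S] [Finite S] [Group H] {p : ℕ} [Fact p.Prime]
    {τ : S →* H} (hτ : Cfsg.IsStableEmbedding p τ) (a : H)
    (ha : ⁅⁅(Cfsg.stableNormalClosure p S).map τ, Subgroup.zpowers a⁆, Subgroup.zpowers a⁆ = ⊥) :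
    ∃ s : S, ∃ c ∈ Subgroup.centralizer (((Cfsg.stableNormalClosure p S).map τ : Subgroup H) : Set H),
      τ s = a * c := by
  have hn := stableNormalClosure_map_normal hτ
  obtain ⟨hinj, hfin, ⟨P, hP⟩, _, _, h6⟩ := hτ
  have hst := h6 ((Cfsg.stableNormalClosure p S).map τ)
    (Subgroup.map_mono (stableNormalClosure_le_omegaCenterThompson p))
  have h1 := hst a ha
  set C := Subgroup.centralizer (((Cfsg.stableNormalClosure p S).map τ : Subgroup H) : Set H) with hC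
  have h2 : Cfsg.pCore p (H ⧸ C) ≤ (P : Subgroup H).map (QuotientGroup.mk' C) := by
    apply sSup_le
    rintro N ⟨hN, hNp⟩
    exact hNp.le_sylow_of_normal (P.mapSurjective (QuotientGroup.mk'_surjective C))
  obtain ⟨y, hy, hya⟩ := h2 h1
  rw [SetLike.mem_coe, hP] at hy
  obtain ⟨s, rfl⟩ := hy
  refine ⟨s, a⁻¹ * τ s, ?_, by group⟩
  rw [← QuotientGroup.eq]
  exact hya.symm

/-- No element of a finite p-group acts quadratically and nontrivially on the stable normal closure W(S). -/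
theorem result {S : Type*} [Group S] [Finite S] {p : ℕ} [Fact p.Prime] (hS : IsPGroup p S) (x : S) (hq : ⁅⁅Cfsg.stableNormalClosure p S, Subgroup.zpowers x⁆, Subgroup.zpowers x⁆ = ⊥) : ⁅Cfsg.stableNormalClosure p S, Subgroup.zpowers x⁆ = ⊥ := by
  set W := Cfsg.stableNormalClosure p S with hW
  set Q : Set S := {s : S | ⁅⁅W, Subgroup.zpowers s⁆, Subgroup.zpowers s⁆ = ⊥} with hQ
  have key : W ≤ W ⊓ Subgroup.centralizer Q := by
    apply sInf_le
    refine ⟨le_inf (omegaOne_center_le_stableNormalClosure p)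
      ((omegaOne_le _).trans (Subgroup.center_le_centralizer _)), ?_⟩
    intro H _ τ hτ
    have hn : (W.map τ).Normal := stableNormalClosure_map_normal hτ
    constructor
    rintro _ ⟨w, ⟨hw1, hw2⟩, rfl⟩ h
    obtain ⟨w₂, hw₂, hw₂'⟩ := hn.conj_mem _ ⟨w, hw1, rfl⟩ h
    refine ⟨w₂, ⟨hw₂, ?_⟩, hw₂'⟩
    intro s hs
    have hs1 : ⁅⁅W.map τ, Subgroup.zpowers (τ s)⁆, Subgroup.zpowers (τ s)⁆ = ⊥ :=
      (quad_map_iff hτ.1 W s).mpr hs
    have hs2 := quad_conj (W.map τ) h⁻¹ hs1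
    obtain ⟨s', c, hc, hsc⟩ := exists_rep hτ _ hs2
    have hs3 : ⁅⁅W.map τ, Subgroup.zpowers (τ s')⁆, Subgroup.zpowers (τ s')⁆ = ⊥ := by
      rw [hsc]
      exact quad_mul_centralizer (W.map τ) hc hs2
    have hs' : s' ∈ Q := (quad_map_iff hτ.1 W s').mp hs3
    have e1 : τ s' * τ w = τ w * τ s' := by
      rw [← map_mul, ← map_mul, hw2 s' hs']
    have e2 : τ w * c = c * τ w := hc _ ⟨w, hw1, rfl⟩
    have e3 : h⁻¹ * τ s * h⁻¹⁻¹ = τ s' * c⁻¹ := by rw [hsc]; group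
    have e4 : τ s = h * (τ s' * c⁻¹) * h⁻¹ := by rw [← e3]; group
    have e5 : c⁻¹ * τ w = τ w * c⁻¹ := by
      calc c⁻¹ * τ w = c⁻¹ * (τ w * c) * c⁻¹ := by group
        _ = c⁻¹ * (c * τ w) * c⁻¹ := by rw [e2]
        _ = τ w * c⁻¹ := by group
    apply hτ.1
    rw [map_mul, map_mul, hw₂', e4]
    calc h * (τ s' * c⁻¹) * h⁻¹ * (h * τ w * h⁻¹) = h * (τ s' * (c⁻¹ * τ w)) * h⁻¹ := by group
      _ = h * (τ s' * τ w * c⁻¹) * h⁻¹ := by rw [e5]; group
      _ = h * (τ w * τ s' * c⁻¹) * h⁻¹ := by rw [e1]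
      _ = h * τ w * h⁻¹ * (h * (τ s' * c⁻¹) * h⁻¹) := by group
  rw [comm_eq_bot_iff]
  intro v hv
  exact ((key hv).2 x hq).symm

end Cfsg.Agent.S0623
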