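import Cfsg.Statements.S2157
-- import your own Cfsg.Agent.* helpers here

set_option autoImplicit false
open Cfsg

namespace Cfsg.Agent.S2157

open Cfsg.Lie

/-- consistency of one chain: each step is `r +` the previous root. -/
def chainAux (D : ChevalleyDatum) (r : ℕ) : ℕ → List (ℕ × ℤ) → Bool
  | _, [] => true
  | s, (u, _) :: rest =>
    decide (s < D.nroots) && decide (D.chainRoot r s 1 = some u) && chainAux D r u rest

def chainOK (D : ChevalleyDatum) : Bool :=
  (List.range D.nroots).all fun r =>
    (D.chain.getD r #[]).toList.all fun e => chainAux D r e.1 e.2.toList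

theorem chainAux_spec {F : Type*} [Field F] (D : ChevalleyDatum) (χ : ℕ → Fˣ)
    (hχ : D.IsRootCharacter χ) (r : ℕ) (hr : r < D.nroots) :
    ∀ (l : List (ℕ × ℤ)) (s : ℕ), chainAux D r s l = true →
      ∀ (n : ℕ) (q : (ℕ × ℤ) × ℕ), q ∈ l.zipIdx n → χ q.1.1 = χ r ^ (q.2 + 1 - n) * χ s := by
  intro l
  induction l with
  | nil => intro s _ n q hq; simp at hq
  | cons a rest ih =>
    intro s h n q hq
    obtain ⟨u, m⟩ := a
    simp only [chainAux, Bool.and_eq_true, decide_eq_true_eq] at h
    obtain ⟨⟨hs, hroot⟩, hrest⟩ := h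
    have hu : χ u = χ r * χ s := hχ.2 r s u hr hs hroot
    rw [List.zipIdx_cons, List.mem_cons] at hq
    rcases hq with rfl | hq
    · simp [hu]
    · have h1 := ih u hrest (n + 1) q hq
      have hle : n + 1 ≤ q.2 := List.le_snd_of_mem_zipIdx hq
      rw [h1, hu]
      have : q.2 + 1 - n = (q.2 + 1 - (n + 1)) + 1 := by omega
      rw [this, pow_succ, mul_assoc]

theorem chainCoeff_spec {F : Type*} [Field F] (D : ChevalleyDatum) (hD : chainOK D = true)
    (χ : ℕ → Fˣ) (hχ : D.IsRootCharacter χ) (r : ℕ) (hr : r < D.nroots) (s u : ℕ)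
    (km : ℕ × ℤ) (hkm : km ∈ D.chainCoeff r s u) : χ u = χ r ^ km.1 * χ s := by
  unfold ChevalleyDatum.chainCoeff at hkm
  simp only [List.mem_flatMap, List.mem_filter, List.mem_map, decide_eq_true_eq] at hkm
  obtain ⟨e, ⟨he, hes⟩, q, ⟨hq, hqu⟩, rfl⟩ := hkm
  unfold chainOK at hD
  rw [List.all_eq_true] at hD
  have h1 := hD r (List.mem_range.mpr hr)
  rw [List.all_eq_true] at h1
  have h2 := h1 e he
  have h3 := chainAux_spec D χ hχ r hr e.2.toList e.1 h2 0 q hq
  rw [hqu, hes] at h3
  simpa using h3

theorem main {F : Type*} [Field F] (D : ChevalleyDatum) (hD : chainOK D = true)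
    (χ : ℕ → Fˣ) (hχ : D.IsRootCharacter χ) (r : ℕ) (hr : r < D.nroots) (t : F) :
    D.charDiag F χ * D.x F r t * D.charDiag F (fun s => (χ s)⁻¹) = D.x F r ((χ r : F) * t) := by
  unfold ChevalleyDatum.charDiag ChevalleyDatum.x
  rw [dif_pos hr, dif_pos hr]
  ext row col
  rw [Matrix.mul_diagonal, Matrix.diagonal_mul]
  have hneg : χ (D.negIdx.getD r 0) = (χ r)⁻¹ := hχ.1 r hr
  rcases col with i | s
  · rcases row with i' | u
    · simp [ChevalleyDatum.xMat]
    · simp only [ChevalleyDatum.xMat, Matrix.of_apply, Sum.elim_inr, Sum.elim_inl, mul_one]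
      split_ifs with h
      · subst h; ring
      · simp
  · simp only [ChevalleyDatum.xMat, Matrix.of_apply, Sum.elim_inr]
    by_cases h1 : s = ⟨r, hr⟩
    · subst h1
      simp only [if_true]
      rcases row with i' | u
      · simp
      · simp only [Sum.elim_inr]
        split_ifs with h
        · subst h; simp
        · simp
    · rw [if_neg h1, if_neg h1]
      by_cases h2 : s.val = D.negIdx.getD r 0
      · rw [if_pos h2, if_pos h2]
        have hs : χ s.val = (χ r)⁻¹ := by rw [h2]; exact hneg
        rcases row with i' | u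
        · simp only [Sum.elim_inl, hs, inv_inv]; ring
        · simp only [Sum.elim_inr]
          split_ifs with h3 h4
          · subst h3; simp
          · subst h4; simp only [hs, inv_inv]; ring
          · simp
      · rw [if_neg h2, if_neg h2]
        rcases row with i' | u
        · simp
        · simp only [Sum.elim_inr]
          rw [mul_add, add_mul]
          congr 1
          · split_ifs with h3
            · subst h3; simp
            · simp
          · rw [← List.sum_map_mul_left, ← List.sum_map_mul_right]
            congr 1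
            apply List.map_congr_left
            intro km hkm
            have h5 := chainCoeff_spec D hD χ hχ r hr s.val u.val km hkm
            rw [h5]
            simp only [Units.val_mul, Units.val_pow_eq_pow_val, Units.val_inv_eq_inv_val]
            have hne : (χ s.val : F) ≠ 0 := (χ s.val).ne_zero
            field_simp
            ring

theorem okG2 : chainOK chevG2 = true := by decide +kernel
theorem okB2 : chainOK chevB2 = true := by decide +kernel
theorem okD4 : chainOK chevD4 = true := by decide +kernel
theorem okF4 : chainOK chevF4 = true := by decide +kernel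
theorem okE6 : chainOK chevE6 = true := by decide +kernel
theorem okE7 : chainOK chevE7 = true := by decide +kernel
theorem okE8 : chainOK chevE8 = true := by decide +kernel

/-- In a Chevalley group of type G₂, B₂, D₄, F₄, E₆, E₇ or E₈, for every character `χ` of the root lattice with values in `Fˣ` the diagonal matrix `ĥ(χ)` (identity on the coroot coordinates, `χ(s)` on the coordinate of `e_s`) conjugates each root element `x_r(t)` to `x_r(χ(r) t)`: `ĥ(χ) x_r(t) ĥ(χ)⁻¹ = x_r(χ(r) t)` as matrices, with `ĥ(χ)⁻¹` written as `ĥ(χ⁻¹)`. -/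
theorem result {F : Type*} [Field F] (D : Cfsg.Lie.ChevalleyDatum) (hD : D ∈ [Cfsg.Lie.chevG2, Cfsg.Lie.chevB2, Cfsg.Lie.chevD4, Cfsg.Lie.chevF4, Cfsg.Lie.chevE6, Cfsg.Lie.chevE7, Cfsg.Lie.chevE8]) (χ : ℕ → Fˣ) (hχ : D.IsRootCharacter χ) (r : ℕ) (hr : r < D.nroots) (t : F) :
    D.charDiag F χ * D.x F r t * D.charDiag F (fun s => (χ s)⁻¹) = D.x F r ((χ r : F) * t) := by
  have hok : chainOK D = true := by
    simp only [List.mem_cons, List.not_mem_nil, or_false] at hD
    rcases hD with rfl | rfl | rfl | rfl | rfl | rfl | rfl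
    · exact okG2
    · exact okB2
    · exact okD4
    · exact okF4
    · exact okE6
    · exact okE7
    · exact okE8
  exact main D hok χ hχ r hr t

end Cfsg.Agent.S2157
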