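import Cfsg.Statements.S0720
import Cfsg.Agent.Lib.Helper16W2pI
import Mathlib

set_option autoImplicit false
open Cfsg

namespace Cfsg.Agent.S0720

open Cfsg.Agent.Helper16W2p

variable {α : Type*} [Fintype α] [DecidableEq α]

omit [Fintype α] [DecidableEq α] in
lemma mem_orbit_iff (G : Subgroup (Equiv.Perm α)) (a b b' : α) :
    b' ∈ MulAction.orbit (MulAction.stabilizer G a) b ↔ Rel G a b a b' := by
  constructor
  · rintro ⟨h, hb⟩
    exact ⟨h.1.1, h.1.2, h.2, hb⟩
  · rintro ⟨g, hg, h1, h2⟩
    exact ⟨⟨⟨g, hg⟩, h1⟩, h2⟩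

lemma card_orbit_eq (G : Subgroup (Equiv.Perm α)) (a b : α) :
    Nat.card (MulAction.orbit (MulAction.stabilizer G a) b) = kk G a b := by
  classical
  rw [Nat.card_coe_set_eq]
  have : MulAction.orbit (MulAction.stabilizer G a) b =
      ((Finset.univ.filter (fun y => Rel G a b a y) : Finset α) : Set α) := by
    ext y
    simp [mem_orbit_iff]
  rw [this, Set.ncard_coe_finset]
  unfold kk
  congr

omit [Fintype α] [DecidableEq α] in
lemma two_trans_of (G : Subgroup (Equiv.Perm α)) [MulAction.IsPretransitive G α] (a₀ : α)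
    (h : ∀ b b', b ≠ a₀ → b' ≠ a₀ → Rel G a₀ b a₀ b') : MulAction.IsMultiplyPretransitive G α 2 := by
  rw [MulAction.is_two_pretransitive_iff]
  intro a b c d hab hcd
  obtain ⟨g1, hg1⟩ := MulAction.exists_smul_eq G a a₀
  obtain ⟨g2, hg2⟩ := MulAction.exists_smul_eq G c a₀
  have h1 : g1 • b ≠ a₀ := by
    rw [← hg1]; exact fun e => hab (MulAction.injective g1 e).symm
  have h2 : g2 • d ≠ a₀ := by
    rw [← hg2]; exact fun e => hcd (MulAction.injective g2 e).symm
  obtain ⟨k, hk, e1, e2⟩ := h _ _ h1 h2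
  refine ⟨g2⁻¹ * ⟨k, hk⟩ * g1, ?_, ?_⟩
  · rw [mul_smul, mul_smul, hg1, inv_smul_eq_iff, hg2]; exact e1
  · rw [mul_smul, mul_smul, inv_smul_eq_iff]; exact e2

lemma trans_of_four (G : Subgroup (Equiv.Perm α)) (hG : MulAction.IsPreprimitive G α)
    {π : Equiv.Perm α} (hπ : π ∈ G) (hπp : π ^ 2 = 1) (hfix : ∀ ω, π ω ≠ ω)
    (hcard : Fintype.card α = 2 * 2) (a₀ : α) :
    ∀ b b', b ≠ a₀ → b' ≠ a₀ → Rel G a₀ b a₀ b' := by
  haveI : Fact (Nat.Prime 2) := ⟨Nat.prime_two⟩
  intro b b' hb hb'
  by_cases hbb : b = b'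
  · subst hbb; exact ⟨1, G.one_mem, rfl, rfl⟩
  obtain ⟨g, hg, hga, hgb⟩ := exists_move G hG hπ hπp hfix hcard hb
  obtain ⟨g', hg', hga', hgb'⟩ := exists_move G hG hπ hπp hfix hcard hb'
  have h1 : g b ≠ a₀ := by
    intro e; apply hb; apply g.injective; rw [e, hga]
  have h2 : g' b' ≠ a₀ := by
    intro e; apply hb'; apply g'.injective; rw [e, hga']
  by_cases c1 : g b = b'
  · exact ⟨g, hg, hga, c1⟩
  by_cases c2 : g' b' = b
  · refine ⟨g'⁻¹, G.inv_mem hg', ?_, ?_⟩
    · rw [Equiv.Perm.inv_eq_iff_eq, hga']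
    · rw [Equiv.Perm.inv_eq_iff_eq, c2]
  have hxy : g b = g' b' := by
    by_contra hne
    have hc : ({a₀, b, b', g b, g' b'} : Finset α).card = 5 := by
      rw [Finset.card_insert_of_notMem, Finset.card_insert_of_notMem, Finset.card_insert_of_notMem,
        Finset.card_insert_of_notMem, Finset.card_singleton]
      · simpa using hne
      · simp only [Finset.mem_insert, Finset.mem_singleton, not_or]
        exact ⟨fun e => c1 e.symm, fun e => hgb' e.symm⟩
      · simp only [Finset.mem_insert, Finset.mem_singleton, not_or]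
        exact ⟨hbb, fun e => hgb e.symm, fun e => c2 e.symm⟩
      · simp only [Finset.mem_insert, Finset.mem_singleton, not_or]
        exact ⟨hb.symm, hb'.symm, h1.symm, h2.symm⟩
    have := Finset.card_le_univ ({a₀, b, b', g b, g' b'} : Finset α)
    rw [hc, hcard] at this
    omega
  refine ⟨g'⁻¹ * g, G.mul_mem (G.inv_mem hg') hg, ?_, ?_⟩
  · rw [Equiv.Perm.mul_apply, hga, Equiv.Perm.inv_eq_iff_eq, hga']
  · rw [Equiv.Perm.mul_apply, hxy]; simp

/-- Wielandt's Theorem on primitive groups of degree `2p`: such a group is doubly transitive, or it has rank 3, `p = 2a² + 2a + 1`, and subdegrees `a(2a+1)` and `(a+1)(2a+1)`. -/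
theorem result {α : Type*} [Fintype α] [DecidableEq α] {p : ℕ} (hp : p.Prime) (hα : Fintype.card α = 2 * p) (G : Subgroup (Equiv.Perm α)) (hG : MulAction.IsPreprimitive G α) (a₀ : α) : MulAction.IsMultiplyPretransitive G α 2 ∨ (Nat.card (MulAction.orbitRel.Quotient (MulAction.stabilizer G a₀) α) = 3 ∧ ∃ a : ℕ, 0 < a ∧ p = 2 * a ^ 2 + 2 * a + 1 ∧ ∀ b : α, b ≠ a₀ → Nat.card (MulAction.orbit (MulAction.stabilizer G a₀) b) = a * (2 * a + 1) ∨ Nat.card (MulAction.orbit (MulAction.stabilizer G a₀) b) = (a + 1) * (2 * a + 1)) := by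
  classical
  haveI : Fact p.Prime := ⟨hp⟩
  haveI : MulAction.IsPretransitive G α := hG.toIsPretransitive
  haveI : Nonempty α := ⟨a₀⟩
  have hdvd : p ∣ Nat.card G := by
    refine Dvd.dvd.trans ?_ (card_dvd G)
    rw [hα]; exact ⟨2, by ring⟩
  obtain ⟨π', hπ'⟩ := exists_prime_orderOf_dvd_card' p hdvd
  obtain ⟨π, hπdef⟩ : ∃ π : Equiv.Perm α, π = π' := ⟨_, rfl⟩
  have hπG : π ∈ G := by rw [hπdef]; exact π'.2
  have hord : orderOf π = p := by rw [hπdef, ← hπ']; exact Subgroup.orderOf_coe π'
  have hπp : π ^ p = 1 := by rw [← hord]; exact pow_orderOf_eq_one π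
  by_cases hfix : ∃ ω, π ω = ω
  · -- a `p`-cycle: Jordan
    left
    obtain ⟨ω, hω⟩ := hfix
    obtain ⟨n, hn⟩ := Equiv.Perm.cycleType_prime_order (σ := π) (by rw [hord]; exact hp)
    have hsum := Equiv.Perm.sum_cycleType π
    rw [hn, Multiset.sum_replicate, hord, smul_eq_mul] at hsum
    have hlt : π.support.card < Fintype.card α := by
      apply Finset.card_lt_univ_of_notMem (x := ω)
      simp [hω]
    rw [← hsum, hα] at hlt
    have hn0 : n = 0 := by
      by_contra h0
      have : 2 ≤ n + 1 := by omega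
      have := Nat.mul_le_mul_right p this
      omega
    subst hn0
    have hcyc : π.IsCycle := by
      rw [← Equiv.Perm.card_cycleType_eq_one, hn]; simp
    have hsupp : π.support.card = p := by rw [← hsum]; simp
    have hp2 := hp.two_le
    have hsn : ((π.support : Set α)ᶜ).ncard = (p - 1) + 1 := by
      have := Set.ncard_add_ncard_compl (π.support : Set α)
      rw [Set.ncard_coe_finset, hsupp, Nat.card_eq_fintype_card, hα] at this
      omega
    exact hG.is_two_pretransitive hsn (by rw [Nat.card_eq_fintype_card, hα]; omega)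
      (Equiv.Perm.isPretransitive_of_isCycle_mem hcyc hπG)
  · push Not at hfix
    by_cases hp2 : p = 2
    · left
      subst hp2
      exact two_trans_of G a₀ (trans_of_four G hG hπG hπp hfix hα a₀)
    · let C : Cfg p α := ⟨G, hG, π, hπG, hπp, hfix, hα, hp2⟩
      set H := MulAction.stabilizer G a₀ with hH
      let Q := MulAction.orbitRel.Quotient H α
      letI : Fintype Q := Fintype.ofFinite Q
      let mk : α → Q := fun b => Quotient.mk'' b
      have hmk : ∀ b b', mk b = mk b' ↔ Rel G a₀ b' a₀ b := by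
        intro b b'
        rw [← mem_orbit_iff]
        exact Quotient.eq''
      have hmk0 : ∀ b, mk b = mk a₀ ↔ b = a₀ := by
        intro b
        rw [hmk]
        constructor
        · rintro ⟨g, _, e1, e2⟩; exact e2.symm.trans e1
        · rintro rfl; exact ⟨1, G.one_mem, rfl, rfl⟩
      have hsurj : ∀ q : Q, ∃ b, mk b = q := fun q => ⟨q.out, Quotient.out_eq' q⟩
      obtain ⟨T, hT⟩ : ∃ T : Finset Q, T = Finset.univ.erase (mk a₀) := ⟨_, rfl⟩
      have hmemT : ∀ b, mk b ∈ T ↔ b ≠ a₀ := by
        intro b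
        rw [hT, Finset.mem_erase, Ne, hmk0]; simp
      have hcardQ : Nat.card Q = T.card + 1 := by
        rw [hT, Finset.card_erase_of_mem (Finset.mem_univ _), Nat.card_eq_fintype_card,
          Finset.card_univ]
        have : 0 < Fintype.card Q := Fintype.card_pos_iff.2 ⟨mk a₀⟩
        omega
      rcases Nat.lt_or_ge T.card 2 with hT1 | hT2
      · left
        apply two_trans_of G a₀
        intro b b' hb hb'
        have := Finset.card_le_one.1 (by omega : T.card ≤ 1) _ ((hmemT b').2 hb') _ ((hmemT b).2 hb)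
        exact (hmk b' b).1 this
      · rcases Nat.lt_or_ge 2 T.card with hT3 | hT3
        · exfalso
          obtain ⟨q1, q2, q3, m1, m2, m3, n12, n13, n23⟩ := Finset.two_lt_card_iff.1 hT3
          obtain ⟨b1, rfl⟩ := hsurj q1
          obtain ⟨b2, rfl⟩ := hsurj q2
          obtain ⟨b3, rfl⟩ := hsurj q3
          exact rank_le_three C a₀ b1 b2 b3 ((hmemT _).1 m1) ((hmemT _).1 m2) ((hmemT _).1 m3)
            (fun e => n12 ((hmk _ _).2 e).symm) (fun e => n12 ((hmk _ _).2 e))
            (fun e => n13 ((hmk _ _).2 e).symm) (fun e => n23 ((hmk _ _).2 e).symm)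
        · right
          have hT2' : T.card = 2 := by omega
          refine ⟨by rw [hcardQ, hT2'], ?_⟩
          obtain ⟨q1, q2, hq12, hTeq⟩ := Finset.card_eq_two.1 hT2'
          obtain ⟨b1, rfl⟩ := hsurj q1
          obtain ⟨b2, rfl⟩ := hsurj q2
          have m1 : mk b1 ∈ T := by rw [hTeq]; simp
          have m2 : mk b2 ∈ T := by rw [hTeq]; simp
          have hall : ∀ b, b = a₀ ∨ Rel G a₀ b1 a₀ b ∨ Rel G a₀ b2 a₀ b := by
            intro b
            by_cases hb : b = a₀
            · left; exact hb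
            · right
              have := (hmemT b).2 hb
              rw [hTeq, Finset.mem_insert, Finset.mem_singleton] at this
              rcases this with e | e
              · left; exact (hmk _ _).1 e
              · right; exact (hmk _ _).1 e
          have hR3 : R3 C a₀ b1 b2 :=
            ⟨(hmemT _).1 m1, (hmemT _).1 m2, fun e => hq12 ((hmk _ _).2 e).symm, hall⟩
          obtain ⟨n, hn0, hn1, hn2⟩ := rank_three_params C hR3
          refine ⟨n, hn0, hn1, ?_⟩
          intro b hb
          have key : ∀ b', Rel G a₀ b' a₀ b →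
              Nat.card (MulAction.orbit H b) = kk G a₀ b' := by
            intro b' e
            rw [← card_orbit_eq, ← hH]
            have : MulAction.orbit H b = MulAction.orbit H b' :=
              MulAction.orbit_eq_iff.2 ((mem_orbit_iff G a₀ b' b).2 e)
            rw [this]
          rcases hall b with e | e | e
          · exact absurd e hb
          · rw [key b1 e]
            rcases hn2 with ⟨g1, _⟩ | ⟨g1, _⟩
            · left; exact g1
            · right; exact g1
          · rw [key b2 e]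
            rcases hn2 with ⟨_, g2⟩ | ⟨_, g2⟩
            · right; exact g2
            · left; exact g2

end Cfsg.Agent.S0720
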