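import Cfsg.Statements.S0177
import Mathlib
import Cfsg.Agent.Lib.Helper5Ind
import Cfsg.Agent.Lib.Helper82Linear
import Cfsg.Agent.S0178

set_option autoImplicit false
open Cfsg

namespace Cfsg.Agent.S0177

open Lib.Helper4Char Lib.Helper4Char2 Lib.Helper4Char4 Lib.Helper19Ind Lib.Helper5Ind

variable {G : Type*} [Group G] [Fintype G]

open scoped Classical in
theorem sum_mem_int {ψ : G → ℂ} (hψ : Cfsg.IsCharacter G ψ) (B : Subgroup G) :
    ∑ a ∈ Finset.univ.filter (fun a : G => a ∈ B), ψ a ∈ (Int.castRingHom ℂ).range := by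
  obtain ⟨n, hn⟩ := IsCharacter.classInner_nat (IsCharacter.restrict B hψ)
    (IsCharacter.one (G := B))
  have h1 : ∑ a ∈ Finset.univ.filter (fun a : G => a ∈ B), ψ a = ∑ b : B, ψ b := by
    rw [Finset.sum_subtype (p := fun a => a ∈ B)]
    intro x; simp
  unfold Cfsg.classInner at hn
  have h2 : ∑ b : B, ψ b = (Nat.card B : ℂ) * n := by
    rw [← hn, ← mul_assoc, mul_inv_cancel₀ (Lib.Helper19Ind.card_ne_zero B), one_mul]
    simp
  rw [h1, h2]
  exact ⟨(Nat.card B : ℤ) * n, by simp⟩

open scoped Classical in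
theorem gen_sum_int {ψ : G → ℂ} (hψ : Cfsg.IsCharacter G ψ) (B : Subgroup G) :
    ∑ a ∈ Finset.univ.filter (fun a : G => Subgroup.zpowers a = B), ψ a
      ∈ (Int.castRingHom ℂ).range := by
  induction' h : Nat.card B using Nat.strong_induction_on with n ih generalizing B
  letI : Fintype (Subgroup G) := Fintype.ofFinite _
  have h1 := Finset.sum_fiberwise_of_maps_to (s := Finset.univ.filter (fun a : G => a ∈ B))
    (t := Finset.univ.filter (fun C : Subgroup G => C ≤ B)) (g := fun a => Subgroup.zpowers a)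
    (by
      intro x hx
      simp only [Finset.mem_filter, Finset.mem_univ, true_and] at hx ⊢
      exact Subgroup.zpowers_le.mpr hx) ψ
  have h2 : ∀ C ∈ Finset.univ.filter (fun C : Subgroup G => C ≤ B),
      ∑ x ∈ (Finset.univ.filter (fun a : G => a ∈ B)) with Subgroup.zpowers x = C, ψ x =
        ∑ a ∈ Finset.univ.filter (fun a : G => Subgroup.zpowers a = C), ψ a := by
    intro C hC
    simp only [Finset.mem_filter, Finset.mem_univ, true_and] at hC
    apply Finset.sum_congr _ (fun _ _ => rfl)
    ext x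
    simp only [Finset.mem_filter, Finset.mem_univ, true_and]
    constructor
    · exact fun h => h.2
    · intro h
      exact ⟨hC (h ▸ Subgroup.mem_zpowers x), h⟩
  rw [Finset.sum_congr rfl h2] at h1
  have hB : B ∈ Finset.univ.filter (fun C : Subgroup G => C ≤ B) := by simp
  rw [← Finset.add_sum_erase _ _ hB] at h1
  have h3 := sum_mem_int hψ B
  rw [← h1] at h3
  have h4 : ∑ C ∈ (Finset.univ.filter (fun C : Subgroup G => C ≤ B)).erase B,
      ∑ a ∈ Finset.univ.filter (fun a : G => Subgroup.zpowers a = C), ψ a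
        ∈ (Int.castRingHom ℂ).range := by
    apply Subring.sum_mem
    intro C hC
    simp only [Finset.mem_erase, Finset.mem_filter, Finset.mem_univ, true_and] at hC
    refine ih (Nat.card C) ?_ C rfl
    rw [← h]
    have hlt : C < B := lt_of_le_of_ne hC.2 hC.1
    exact lt_of_le_of_ne (Nat.le_of_dvd Nat.card_pos (Subgroup.card_dvd_of_le hlt.le))
      (fun he => hlt.ne (Subgroup.eq_of_le_of_card_ge hlt.le he.ge))
  have h5 := Subring.sub_mem _ h3 h4
  rwa [add_sub_cancel_right] at h5

open scoped Classical in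
theorem extend_gen (χ : G → ℂ) (A : Subgroup G) (y : G) :
    Cfsg.extendByZero A (fun a : A => if Subgroup.zpowers (a : G) = A then
      (Nat.card A : ℂ) * χ a else 0) y =
      if Subgroup.zpowers y = A then (Nat.card A : ℂ) * χ y else 0 := by
  by_cases hy : y ∈ A
  · rw [extendByZero_of_mem A _ hy]
  · rw [extendByZero_of_not_mem A _ hy, if_neg]
    intro h
    exact hy (h ▸ Subgroup.mem_zpowers y)

open scoped Classical in
theorem main_formula [Fintype (Subgroup G)] (χ : G → ℂ) (hχ : Cfsg.IsClassFunction G χ) :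
    (Nat.card G : ℂ) • χ = ∑ A : Subgroup G, Cfsg.indFun A
      (fun a : A => if Subgroup.zpowers (a : G) = A then (Nat.card A : ℂ) * χ a else 0) := by
  funext g
  simp only [Pi.smul_apply, smul_eq_mul, Finset.sum_apply, indFun_apply, extend_gen]
  have h1 : ∀ A : Subgroup G, (Nat.card A : ℂ)⁻¹ * ∑ x : G,
      (if Subgroup.zpowers (x⁻¹ * g * x) = A then (Nat.card A : ℂ) * χ (x⁻¹ * g * x) else 0) =
      ∑ x : G, if Subgroup.zpowers (x⁻¹ * g * x) = A then χ g else 0 := by
    intro A
    rw [Finset.mul_sum]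
    apply Finset.sum_congr rfl
    intro x _
    have hx : χ (x⁻¹ * g * x) = χ g := by
      have := hχ g x⁻¹
      rwa [inv_inv] at this
    split_ifs
    · rw [hx, ← mul_assoc, inv_mul_cancel₀ (Lib.Helper19Ind.card_ne_zero A), one_mul]
    · simp
  simp only [h1]
  rw [Finset.sum_comm]
  simp [Nat.card_eq_fintype_card]

def Good (f : G → ℂ) : Prop :=
  ∃ l : List ((A : Subgroup G) × ((A →* ℂˣ) × ℤ)), (∀ t ∈ l, IsCyclic t.1) ∧
    f = (l.map fun t => (t.2.2 : ℂ) • Cfsg.indFun t.1 (fun a => (t.2.1 a : ℂ))).sum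

theorem Good.zero : Good (0 : G → ℂ) := ⟨[], by simp, by simp⟩

theorem Good.add {f g : G → ℂ} (hf : Good f) (hg : Good g) : Good (f + g) := by
  obtain ⟨l, hl, rfl⟩ := hf
  obtain ⟨l', hl', rfl⟩ := hg
  refine ⟨l ++ l', ?_, by simp⟩
  intro t ht
  rcases List.mem_append.mp ht with h | h
  · exact hl t h
  · exact hl' t h

theorem Good.sum {ι : Type*} (s : Finset ι) (f : ι → G → ℂ) (h : ∀ i ∈ s, Good (f i)) :
    Good (∑ i ∈ s, f i) := by
  classical
  induction s using Finset.induction_on with
  | empty => simpa using Good.zero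
  | insert a s ha ih =>
    rw [Finset.sum_insert ha]
    exact Good.add (h a (Finset.mem_insert_self a s))
      (ih (fun i hi => h i (Finset.mem_insert_of_mem hi)))

theorem Good.single (A : Subgroup G) (hA : IsCyclic A) (lam : A →* ℂˣ) (n : ℤ) :
    Good ((n : ℂ) • Cfsg.indFun A (fun a => (lam a : ℂ))) :=
  ⟨[⟨A, lam, n⟩], by simpa using hA, by simp⟩

omit [Fintype G] in
theorem irr_one_of_comm [IsMulCommutative G] (φ : Cfsg.IrrCharacter G) : (φ : G → ℂ) 1 = 1 := by
  obtain ⟨n, ρ, hρ, h⟩ := φ.2
  rw [← h, Representation.char_one,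
    Representation.IsIrreducible.finrank_eq_one_of_isMulCommutative ρ]
  simp

omit [Fintype G] in
theorem zpowers_coe_eq_iff (A : Subgroup G) (a : A) :
    Subgroup.zpowers (a : G) = A ↔ Subgroup.zpowers a = ⊤ := by
  constructor
  · intro h
    apply Subgroup.map_injective A.subtype_injective
    rw [MonoidHom.map_zpowers, ← MonoidHom.range_eq_map, Subgroup.range_subtype]
    exact h
  · intro h
    have := congrArg (Subgroup.map A.subtype) h
    rw [MonoidHom.map_zpowers, ← MonoidHom.range_eq_map, Subgroup.range_subtype] at this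
    exact this

open scoped Classical in
theorem good_term {χ : G → ℂ} (hχ : Cfsg.IsCharacter G χ) (A : Subgroup G) :
    Good (Cfsg.indFun A
      (fun a : A => if Subgroup.zpowers (a : G) = A then (Nat.card A : ℂ) * χ a else 0)) := by
  by_cases hA : IsCyclic A
  · set f : A → ℂ :=
      fun a : A => if Subgroup.zpowers (a : G) = A then (Nat.card A : ℂ) * χ a else 0 with hf
    have hcl : Cfsg.IsClassFunction A f := by
      intro g h
      rw [mul_comm' h g, mul_assoc, mul_inv_cancel, mul_one]
    rw [classFunction_eq_sum f hcl, indFun_sum]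
    apply Good.sum
    intro φ _
    have h1 : (φ : A → ℂ) 1 = 1 := irr_one_of_comm φ
    have hint : Cfsg.classInner f (φ : A → ℂ) ∈ (Int.castRingHom ℂ).range := by
      have hψ : Cfsg.IsCharacter A ((fun a : A => χ a) * (fun a => (starRingEnd ℂ) ((φ : A → ℂ) a))) :=
        IsCharacter.mul (IsCharacter.restrict A hχ)
          (IsCharacter.conj (IsIrrCharacter.isCharacter φ.2))
      have h2 := gen_sum_int hψ ⊤
      have h3 : Cfsg.classInner f (φ : A → ℂ) =
          ∑ a ∈ Finset.univ.filter (fun a : A => Subgroup.zpowers a = ⊤),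
            ((fun a : A => χ a) * (fun a => (starRingEnd ℂ) ((φ : A → ℂ) a))) a := by
        unfold Cfsg.classInner
        rw [Finset.sum_filter, Finset.mul_sum]
        apply Finset.sum_congr rfl
        intro a _
        simp only [hf, zpowers_coe_eq_iff, Pi.mul_apply]
        split_ifs
        · rw [← mul_assoc, ← mul_assoc, inv_mul_cancel₀ (Lib.Helper19Ind.card_ne_zero A), one_mul]
        · simp
      rw [h3]
      exact h2
    obtain ⟨n, hn⟩ := hint
    rw [indFun_smul, ← hn]
    have h4 : (φ : A → ℂ) = fun a => ((Lib.Helper82Linear.homOfLinear φ h1 a : ℂˣ) : ℂ) := by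
      funext a
      rw [Lib.Helper82Linear.homOfLinear_apply]
    rw [h4]
    exact Good.single A hA _ n
  · have h0 : (fun a : A => if Subgroup.zpowers (a : G) = A then (Nat.card A : ℂ) * χ a else 0)
        = 0 := by
      funext a
      rw [if_neg]
      · rfl
      · intro h
        apply hA
        rw [← h]
        infer_instance
    rw [h0, indFun_zero]
    exact Good.zero

/-- The Artin induction Theorem: for a character χ of a finite group, |G| • χ is a ℤ-linear combination of functions induced from homomorphisms of cyclic subgroups into ℂˣ. -/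
theorem result {G : Type*} [Group G] [Fintype G] (χ : G → ℂ) (hχ : Cfsg.IsCharacter G χ) : ∃ l : List ((A : Subgroup G) × ((A →* ℂˣ) × ℤ)), (∀ t ∈ l, IsCyclic t.1) ∧ (Nat.card G : ℂ) • χ = (l.map fun t => (t.2.2 : ℂ) • Cfsg.indFun t.1 (fun a => (t.2.1 a : ℂ))).sum := by
  classical
  letI : Fintype (Subgroup G) := Fintype.ofFinite _
  have h := main_formula χ (IsCharacter.isClassFunction hχ)
  have hg : Good ((Nat.card G : ℂ) • χ) := by
    rw [h]
    exact Good.sum _ _ (fun A _ => good_term hχ A)
  exact hg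

end Cfsg.Agent.S0177
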