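import Cfsg.Statements.S3745
import Cfsg.Agent.Lib.Helper65RelHall
import Cfsg.Agent.Lib.Helper1Coprime

set_option autoImplicit false
open Cfsg

namespace Cfsg.Agent.S3745

open Pointwise
open Cfsg.Agent.Lib.Helper65RelHall

/-- Coprime action on a solvable group and Hall subgroups. Let A and G be subgroups of a finite group with A normalizing G, the orders of A and G coprime, and G solvable, and let π be a set of primes. Then (a) G has an A-invariant Hall π-subgroup; (b) any two A-invariant Hall π-subgroups of G are conjugate by an element of C_G(A); (c) every A-invariant π-subgroup of G lies in an A-invariant Hall π-subgroup of G. -/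
theorem result {X : Type*} [Group X] [Finite X] (A G : Subgroup X) (hAG : A ≤ Subgroup.normalizer (G : Set X)) (hcop : (Nat.card A).Coprime (Nat.card G)) (hsolv : Group.IsSolvable G) (π : Set ℕ) : (∃ H : Subgroup X, Cfsg.IsPiHallOf π H G ∧ A ≤ Subgroup.normalizer (H : Set X)) ∧ (∀ H₁ H₂ : Subgroup X, Cfsg.IsPiHallOf π H₁ G → A ≤ Subgroup.normalizer (H₁ : Set X) → Cfsg.IsPiHallOf π H₂ G → A ≤ Subgroup.normalizer (H₂ : Set X) → ∃ c ∈ G ⊓ Subgroup.centralizer (A : Set X), H₂ = H₁.map (MulAut.conj c).toMonoidHom) ∧ (∀ U : Subgroup X, U ≤ G → A ≤ Subgroup.normalizer (U : Set X) → (∀ p : ℕ, p.Prime → p ∣ Nat.card U → p ∈ π) → ∃ H : Subgroup X, Cfsg.IsPiHallOf π H G ∧ A ≤ Subgroup.normalizer (H : Set X) ∧ U ≤ H) := by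
  classical
  obtain ⟨m₀, n, hGmn, hm₀, hn⟩ := exists_pi_split π (Nat.card G) Nat.card_pos
  have hmn₀ : m₀.Coprime n := coprime_of_pi hm₀ hn
  have hGpos : 0 < Nat.card G := Nat.card_pos
  have hApos : 0 < Nat.card A := Nat.card_pos
  have hm₀pos : 0 < m₀ := Nat.pos_of_ne_zero (by rintro rfl; simp at hGmn; omega)
  have hnpos : 0 < n := Nat.pos_of_ne_zero (by rintro rfl; simp at hGmn; omega)
  set Γ : Subgroup X := A ⊔ G with hΓdef
  have hAΓ : A ≤ Γ := le_sup_left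
  have hGΓ : G ≤ Γ := le_sup_right
  have hΓcard : Nat.card Γ = Nat.card A * Nat.card G := card_sup_of_coprime' A G hAG hcop
  have hnorm : Γ ≤ Subgroup.normalizer (G : Set X) := sup_le hAG Subgroup.le_normalizer
  have hAn : (Nat.card A).Coprime n := Nat.Coprime.coprime_dvd_right ⟨m₀, by rw [hGmn, mul_comm]⟩ hcop
  obtain ⟨hC, hD⟩ := relHall_in Γ G hGΓ hnorm hsolv (Nat.card A * m₀) n
    (by rw [hΓcard, hGmn]; ring) (Nat.Coprime.mul_left hAn hmn₀) ⟨m₀, by rw [hGmn, mul_comm]⟩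
  have hrel : ∀ H : Subgroup X, H ≤ G → Nat.card H * H.relIndex G = Nat.card G := by
    intro H hH
    have := Subgroup.relIndex_mul_relIndex ⊥ H G bot_le hH
    simpa [Subgroup.relIndex_bot_left] using this
  have hall_iff : ∀ H : Subgroup X, H ≤ G → (Cfsg.IsPiHallOf π H G ↔ Nat.card H = m₀) := by
    intro H hH
    have hr := hrel H hH
    constructor
    · rintro ⟨-, h1, h2⟩
      apply Nat.dvd_antisymm
      · have : Nat.card H ∣ m₀ * n := ⟨_, by rw [← hGmn, hr]⟩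
        exact (Nat.Coprime.dvd_mul_right (coprime_of_pi h1 hn)).mp this
      · have : m₀ ∣ Nat.card H * H.relIndex G := ⟨n, by rw [hr, hGmn]⟩
        exact (Nat.Coprime.dvd_mul_right
          (coprime_of_pi hm₀ (fun p hp hd hπ => h2 p hp hπ hd))).mp this
    · intro hc
      refine ⟨hH, fun p hp hd => hm₀ p hp (hc ▸ hd), fun p hp hπ hd => ?_⟩
      rw [hc, hGmn] at hr
      have : H.relIndex G = n := Nat.eq_of_mul_eq_mul_left hm₀pos hr
      exact hn p hp (this ▸ hd) hπ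
  -- if `A ≤ L ≤ Γ` has order `|A| m₀` then `L ⊓ G` has order `m₀`
  have hinf : ∀ L : Subgroup X, L ≤ Γ → A ≤ L → Nat.card L = Nat.card A * m₀ →
      Nat.card ↥(L ⊓ G) = m₀ := by
    intro L hL hAL hLc
    have hsup : L ⊔ G = Γ := le_antisymm (sup_le hL hGΓ) (sup_le (hAL.trans le_sup_left) le_sup_right)
    have := card_sup_mul_card_inf L G (hL.trans hnorm)
    rw [hsup, hΓcard, hLc] at this
    have h2 : (Nat.card A * Nat.card G) * Nat.card ↥(L ⊓ G) = (Nat.card A * Nat.card G) * m₀ := by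
      rw [this]; ring
    exact Nat.eq_of_mul_eq_mul_left (by positivity) h2
  have key : ∀ U : Subgroup X, U ≤ G → A ≤ Subgroup.normalizer (U : Set X) →
      (∀ p : ℕ, p.Prime → p ∣ Nat.card U → p ∈ π) →
      ∃ H : Subgroup X, Cfsg.IsPiHallOf π H G ∧ A ≤ Subgroup.normalizer (H : Set X) ∧ U ≤ H := by
    intro U hU hAU hUπ
    have hK : A ⊔ U ≤ Γ := sup_le hAΓ (hU.trans hGΓ)
    have hKn : (Nat.card ↥(A ⊔ U)).Coprime n :=
      Nat.Coprime.coprime_dvd_left (card_sup_dvd A U hAU)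
        (Nat.Coprime.mul_left hAn (coprime_of_pi hUπ hn))
    obtain ⟨L, hL, hLc, hKL⟩ := hD _ hK hKn
    have hAL : A ≤ L := le_sup_left.trans hKL
    refine ⟨L ⊓ G, (hall_iff _ inf_le_right).mpr (hinf L hL hAL hLc), ?_,
      le_inf (le_sup_right.trans hKL) hU⟩
    intro a ha
    rw [mem_norm_iff, Subgroup.smul_inf, mem_norm_iff.mp (hAG ha),
      mem_norm_iff.mp (Subgroup.le_normalizer (hAL ha))]
  refine ⟨?_, ?_, key⟩
  · obtain ⟨H, hH, hAH, -⟩ := key ⊥ bot_le (by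
      intro a _
      rw [mem_norm_iff]; simp) (by
      intro p hp hd
      simp only [Subgroup.card_bot, Nat.dvd_one] at hd
      exact absurd hd hp.one_lt.ne')
    exact ⟨H, hH, hAH⟩
  · intro H₁ H₂ hH₁ hAH₁ hH₂ hAH₂
    have hc₁ := (hall_iff H₁ hH₁.1).mp hH₁
    have hc₂ := (hall_iff H₂ hH₂.1).mp hH₂
    have hcopH : ∀ H : Subgroup X, H ≤ G → (Nat.card A).Coprime (Nat.card H) := fun H hH =>
      Nat.Coprime.coprime_dvd_right (Subgroup.card_dvd_of_le hH) hcop
    have hLc : ∀ H : Subgroup X, H ≤ G → A ≤ Subgroup.normalizer (H : Set X) → Nat.card H = m₀ →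
        Nat.card ↥(A ⊔ H) = Nat.card A * m₀ := by
      intro H hH hAH hc
      rw [card_sup_of_coprime' A H hAH (hcopH H hH), hc]
    have hLG : ∀ H : Subgroup X, H ≤ G → A ≤ Subgroup.normalizer (H : Set X) → Nat.card H = m₀ →
        (A ⊔ H) ⊓ G = H := by
      intro H hH hAH hc
      symm
      apply Subgroup.eq_of_le_of_card_ge (le_inf le_sup_right hH)
      rw [hinf _ (sup_le hAΓ (hH.trans hGΓ)) le_sup_left (hLc H hH hAH hc), hc]
    obtain ⟨g, hgΓ, hg⟩ := hC (A ⊔ H₁) (A ⊔ H₂) (sup_le hAΓ (hH₁.1.trans hGΓ))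
      (sup_le hAΓ (hH₂.1.trans hGΓ)) (hLc H₁ hH₁.1 hAH₁ hc₁) (hLc H₂ hH₂.1 hAH₂ hc₂)
    have hgΓ' : g ∈ ((G ⊔ A : Subgroup X) : Set X) := by
      rw [sup_comm]; exact hgΓ
    rw [Subgroup.coe_mul_of_right_le_normalizer_left G A hAG] at hgΓ'
    obtain ⟨x, hx, a, ha, rfl⟩ := Set.mem_mul.mp hgΓ'
    have hxL : MulAut.conj x • (A ⊔ H₁) = A ⊔ H₂ := by
      rw [← hg, map_mul, ← smul_smul,
        mem_norm_iff.mp (Subgroup.le_normalizer ((le_sup_left : A ≤ A ⊔ H₁) ha))]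
    have hxH : MulAut.conj x • H₁ = H₂ := by
      rw [← hLG H₁ hH₁.1 hAH₁ hc₁, Subgroup.smul_inf, hxL,
        mem_norm_iff.mp (Subgroup.le_normalizer hx), hLG H₂ hH₂.1 hAH₂ hc₂]
    have hB : MulAut.conj x • A ≤ H₂ ⊔ A := by
      rw [sup_comm, ← hxL]
      exact Subgroup.pointwise_smul_le_pointwise_smul_iff.mpr le_sup_left
    have hH₂sol : Group.IsSolvable H₂ :=
      Group.isSolvable_of_isSolvable_injective (f := Subgroup.inclusion hH₂.1)
        (Subgroup.inclusion_injective hH₂.1)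
    obtain ⟨u, hu, hub⟩ := Cfsg.Agent.Lib.Helper1Coprime.sz_rel hAH₂ (hcopH H₂ hH₂.1)
      (Or.inr hH₂sol) hB (Cfsg.Agent.Lib.Helper1Basic.card_conj_smul x A)
    have hcG : u * x ∈ G := G.mul_mem (hH₂.1 hu) hx
    have hdisj : A ⊓ G = ⊥ := (Subgroup.disjoint_of_coprime_natCard hcop).eq_bot
    refine ⟨u * x, Subgroup.mem_inf.mpr ⟨hcG, ?_⟩, ?_⟩
    · rw [Subgroup.mem_centralizer_iff]
      intro a' ha'
      have h1 : u * (x * a' * x⁻¹) * u⁻¹ ∈ A :=
        hub _ (Cfsg.Agent.Lib.Helper1Basic.conj_mem_conj_smul ha')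
      have h2 : (u * x) * a' * (u * x)⁻¹ * a'⁻¹ ∈ A := by
        have e : (u * x) * a' * (u * x)⁻¹ = u * (x * a' * x⁻¹) * u⁻¹ := by group
        rw [e]
        exact A.mul_mem h1 (A.inv_mem ha')
      have h3 : (u * x) * a' * (u * x)⁻¹ * a'⁻¹ ∈ G := by
        have e : (u * x) * a' * (u * x)⁻¹ * a'⁻¹ = (u * x) * (a' * (u * x)⁻¹ * a'⁻¹) := by group
        rw [e]
        exact G.mul_mem hcG ((Subgroup.mem_normalizer_iff.mp (hAG ha') _).mp (G.inv_mem hcG))
      have h4 : (u * x) * a' * (u * x)⁻¹ * a'⁻¹ ∈ A ⊓ G := ⟨h2, h3⟩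
      rw [hdisj, Subgroup.mem_bot] at h4
      have h5 : (u * x) * a' = a' * (u * x) := by
        have := congrArg (fun t => t * a' * (u * x)) h4
        simpa [mul_assoc] using this
      exact h5.symm
    · have : MulAut.conj (u * x) • H₁ = H₂ := by
        rw [map_mul, ← smul_smul, hxH, mem_norm_iff.mp (Subgroup.le_normalizer hu)]
      exact this.symm

end Cfsg.Agent.S3745
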