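import Cfsg.Statements.S4224
import Cfsg.Agent.Lib.Helper74Regular

set_option autoImplicit false
open Cfsg

namespace Cfsg.Agent.S4224

/-- In a regular `p`-group, for all elements `a`, `b` and every power `q = p^k`: `a^q` commutes with `b` if and only if the commutator `a⁻¹b⁻¹ab` has `q`-th power equal to `1`. -/
theorem result {G : Type*} [Group G] [Finite G] {p : ℕ} [Fact p.Prime] (hG : Cfsg.IsRegularPGroup p G) (a b : G) (k : ℕ) : a ^ p ^ k * b = b * a ^ p ^ k ↔ (a⁻¹ * b⁻¹ * a * b) ^ p ^ k = 1 := by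
  have h1 : a⁻¹ * b⁻¹ * a * b = a⁻¹ * (b⁻¹ * a * b⁻¹⁻¹) := by group
  rw [h1, ← Cfsg.Agent.Lib.Helper74Regular.pow_eq_iff hG k, conj_pow, inv_inv]
  constructor
  · intro h
    calc a ^ p ^ k = b⁻¹ * (b * a ^ p ^ k) := by group
      _ = b⁻¹ * (a ^ p ^ k * b) := by rw [h]
      _ = b⁻¹ * a ^ p ^ k * b := by group
  · intro h
    calc a ^ p ^ k * b = b * (b⁻¹ * a ^ p ^ k * b) := by group
      _ = b * a ^ p ^ k := by rw [← h]

end Cfsg.Agent.S4224
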