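import Cfsg.Statements.S0644
-- import your own Cfsg.Agent.* helpers here
import Mathlib
import Cfsg.Agent.Lib.Helper74Regular
import Cfsg.Agent.S4224
import Cfsg.Agent.S0641

set_option autoImplicit false
open Cfsg

namespace Cfsg.Agent.S0644


open Subgroup Cfsg.Agent.Lib.Helper74Regular
open scoped commutatorElement

theorem exists_coatom {G : Type*} [Group G] [Finite G] {p : ℕ} [Fact p.Prime]
    (hG : IsPGroup p G) (x : G) (hx : zpowers x ≠ ⊤) :
    ∃ M : Subgroup G, M ≠ ⊤ ∧ x ∈ M ∧ commutator G ≤ M := by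
  rcases eq_top_or_exists_le_coatom (zpowers x) with h | ⟨M, hM, hle⟩
  · exact absurd h hx
  · have := hG.isNilpotent
    have hMn : M.Normal := Group.normalizerCondition_of_isNilpotent.normal_of_coatom M hM
    refine ⟨M, hM.1, hle (mem_zpowers x), ?_⟩
    have hnt : Nontrivial (G ⧸ M) := by
      by_contra h
      have hs : Subsingleton (G ⧸ M) := not_nontrivial_iff_subsingleton.mp h
      apply hM.1
      rw [eq_top_iff]
      intro g _
      exact (QuotientGroup.eq_one_iff g).1 (Subsingleton.elim _ _)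
    have hlt := Group.IsSolvable.commutator_lt_top_of_nontrivial (G ⧸ M)
    have h1 : M ≤ (commutator (G ⧸ M)).comap (QuotientGroup.mk' M) := by
      intro g hg
      rw [Subgroup.mem_comap]
      have : (QuotientGroup.mk' M) g = 1 := (QuotientGroup.eq_one_iff g).2 hg
      rw [this]; exact one_mem _
    have h2 : (commutator (G ⧸ M)).comap (QuotientGroup.mk' M) ≠ ⊤ := by
      intro h
      apply hlt.ne
      rw [← Subgroup.map_comap_eq_self_of_surjective (QuotientGroup.mk'_surjective M)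
        (commutator (G ⧸ M)), h]
      exact (MonoidHom.range_eq_map _).symm.trans
        (MonoidHom.range_eq_top.2 (QuotientGroup.mk'_surjective M))
    have h3 : M = (commutator (G ⧸ M)).comap (QuotientGroup.mk' M) := by
      rcases lt_or_eq_of_le h1 with h | h
      · exact absurd (hM.2 _ h) h2
      · exact h
    rw [h3, ← Subgroup.map_le_iff_le_comap, _root_.commutator_def, Subgroup.map_commutator]
    exact Subgroup.commutator_mono le_top le_top

theorem pow_mul_pow.{u} {p : ℕ} [Fact p.Prime] (k : ℕ) : ∀ (n : ℕ) (G : Type u) [Group G] [Finite G],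
    Nat.card G = n → Cfsg.IsRegularPGroup p G →
    ∀ x y : G, ∃ z : G, x ^ p ^ k * y ^ p ^ k = z ^ p ^ k := by
  intro n
  induction n using Nat.strong_induction_on with
  | _ n ih =>
    intro G _ _ hn hG x y
    by_cases hK : closure ({x, y} : Set G) = ⊤
    swap
    · have hxK : x ∈ closure ({x, y} : Set G) := subset_closure (by simp)
      have hyK : y ∈ closure ({x, y} : Set G) := subset_closure (by simp)
      obtain ⟨z, hz⟩ := ih _ (hn ▸ card_lt_of_ne_top hK) (closure ({x, y} : Set G)) rfl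
        (regular_subgroup hG _) ⟨x, hxK⟩ ⟨y, hyK⟩
      exact ⟨z, congrArg Subtype.val hz⟩
    by_cases hcyc : zpowers (x * y) = ⊤
    · exact ⟨x * y, by rw [(comm_of_zpowers_eq_top hcyc x y).mul_pow]⟩
    obtain ⟨M, hMtop, hxM, hcM⟩ := exists_coatom hG.1 (x * y) hcyc
    have hnt : Nontrivial G := by
      by_contra h
      have : Subsingleton G := not_nontrivial_iff_subsingleton.mp h
      exact hcyc (Subsingleton.elim _ _)
    have hnil := hG.1.isNilpotent
    have hcomm_lt : commutator G ≠ ⊤ := (Group.IsSolvable.commutator_lt_top_of_nontrivial G).ne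
    have hIH := ih _ (hn ▸ card_lt_of_ne_top hcomm_lt) (commutator G) rfl
      (regular_subgroup hG _)
    obtain ⟨c, hc, heq⟩ := hG.2 x y k
    rw [hK] at hc
    have hc' : ∃ d ∈ commutator G, c = d ^ p ^ k := by
      unfold Cfsg.powerClosure at hc
      clear heq
      induction hc using Subgroup.closure_induction with
      | mem y hy => exact hy
      | one => exact ⟨1, one_mem _, by simp⟩
      | mul a b _ _ iha ihb =>
        obtain ⟨d, hd, rfl⟩ := iha
        obtain ⟨e, he, rfl⟩ := ihb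
        obtain ⟨z, hz⟩ := hIH ⟨d, hd⟩ ⟨e, he⟩
        exact ⟨z, z.2, congrArg Subtype.val hz⟩
      | inv a _ iha =>
        obtain ⟨d, hd, rfl⟩ := iha
        exact ⟨d⁻¹, inv_mem hd, by rw [inv_pow]⟩
    obtain ⟨d, hd, rfl⟩ := hc'
    obtain ⟨z, hz⟩ := ih _ (hn ▸ card_lt_of_ne_top hMtop) M rfl (regular_subgroup hG _)
      ⟨x * y, hxM⟩ ⟨d⁻¹, inv_mem (hcM hd)⟩
    refine ⟨z, ?_⟩
    have hz' : (x * y) ^ p ^ k * d⁻¹ ^ p ^ k = (z : G) ^ p ^ k := congrArg Subtype.val hz
    rw [← hz', heq, inv_pow, mul_inv_cancel_right]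

theorem mem_powerClosure {G : Type*} [Group G] [Finite G] {p : ℕ} [Fact p.Prime]
    (hG : Cfsg.IsRegularPGroup p G) (H : Subgroup G) (n : ℕ) (c : G)
    (hc : c ∈ Cfsg.powerClosure p n H) : ∃ d ∈ H, c = d ^ p ^ n := by
  unfold Cfsg.powerClosure at hc
  induction hc using Subgroup.closure_induction with
  | mem y hy => exact hy
  | one => exact ⟨1, one_mem _, by simp⟩
  | mul a b _ _ iha ihb =>
    obtain ⟨d, hd, rfl⟩ := iha
    obtain ⟨e, he, rfl⟩ := ihb
    obtain ⟨z, hz⟩ := pow_mul_pow n _ H rfl (regular_subgroup hG _) ⟨d, hd⟩ ⟨e, he⟩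
    exact ⟨z, z.2, congrArg Subtype.val hz⟩
  | inv a _ iha =>
    obtain ⟨d, hd, rfl⟩ := iha
    exact ⟨d⁻¹, inv_mem hd, by rw [inv_pow]⟩

theorem powerClosure_normal {G : Type*} [Group G] (p n : ℕ) (D : Subgroup G) [hD : D.Normal] :
    (Cfsg.powerClosure p n D).Normal := by
  constructor
  intro c hc g
  unfold Cfsg.powerClosure at hc ⊢
  induction hc using Subgroup.closure_induction with
  | mem y hy =>
    obtain ⟨x, hx, rfl⟩ := hy
    exact subset_closure ⟨g * x * g⁻¹, hD.conj_mem x hx g, by rw [conj_pow]⟩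
  | one => simp
  | mul a b _ _ iha ihb =>
    have : g * (a * b) * g⁻¹ = (g * a * g⁻¹) * (g * b * g⁻¹) := by group
    rw [this]; exact mul_mem iha ihb
  | inv a _ iha =>
    have : g * a⁻¹ * g⁻¹ = (g * a * g⁻¹)⁻¹ := by group
    rw [this]; exact inv_mem iha

theorem comm_pow_mem {K : Type*} [Group K] [Finite K] {p : ℕ} [Fact p.Prime]
    (hK : Cfsg.IsRegularPGroup p K) (n : ℕ) (x y : K) :
    ⁅x ^ p ^ n, y ^ p ^ n⁆ ∈ Cfsg.powerClosure p n (commutator K) := by
  haveI := powerClosure_normal p n (commutator K)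
  set N := Cfsg.powerClosure p n (commutator K) with hN
  have hQ : Cfsg.IsRegularPGroup p (K ⧸ N) := Cfsg.Agent.S0641.result hK N
  have h1 : ((x : K ⧸ N)⁻¹ * ((y ^ p ^ n : K) : K ⧸ N)⁻¹ * (x : K ⧸ N) * ((y ^ p ^ n : K) : K ⧸ N)) ^ p ^ n
      = 1 := by
    have : ((x : K ⧸ N)⁻¹ * ((y ^ p ^ n : K) : K ⧸ N)⁻¹ * (x : K ⧸ N) * ((y ^ p ^ n : K) : K ⧸ N)) ^ p ^ n
      = (((x⁻¹ * (y ^ p ^ n)⁻¹ * x * (y ^ p ^ n)) ^ p ^ n : K) : K ⧸ N) := rfl
    rw [this, QuotientGroup.eq_one_iff]
    refine subset_closure ⟨_, ?_, rfl⟩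
    have : x⁻¹ * (y ^ p ^ n)⁻¹ * x * (y ^ p ^ n) = ⁅x⁻¹, (y ^ p ^ n)⁻¹⁆ := by
      rw [commutatorElement_def]; group
    rw [this]
    exact Subgroup.commutator_mem_commutator (mem_top _) (mem_top _)
  have h2 := (Cfsg.Agent.S4224.result hQ (x : K ⧸ N) ((y ^ p ^ n : K) : K ⧸ N) n).2 h1
  rw [← QuotientGroup.eq_one_iff]
  have h5 : ((⁅x ^ p ^ n, y ^ p ^ n⁆ : K) : K ⧸ N) =
      ⁅((x ^ p ^ n : K) : K ⧸ N), ((y ^ p ^ n : K) : K ⧸ N)⁆ :=
    map_commutatorElement (QuotientGroup.mk' N) _ _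
  rw [h5, commutatorElement_eq_one_iff_mul_comm]
  exact h2


/-- In a regular p-group the p^n-th powers of the elements of any subgroup H form a subgroup, whose derived subgroup is contained in the subgroup generated by the p^n-th powers of elements of the derived subgroup of H. -/
theorem result {G : Type*} [Group G] [Finite G] {p : ℕ} [Fact p.Prime] (hG : Cfsg.IsRegularPGroup p G) (H : Subgroup G) (n : ℕ) : {y : G | ∃ x ∈ H, y = x ^ (p ^ n)} = (Cfsg.powerClosure p n H : Set G) ∧ ⁅Cfsg.powerClosure p n H, Cfsg.powerClosure p n H⁆ ≤ Cfsg.powerClosure p n ⁅H, H⁆ := by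
  constructor
  · ext y
    constructor
    · intro hy
      exact Subgroup.subset_closure hy
    · intro hy
      exact mem_powerClosure hG H n y hy
  · rw [Subgroup.commutator_le]
    intro g₁ h₁ g₂ h₂
    obtain ⟨x, hx, rfl⟩ := mem_powerClosure hG H n g₁ h₁
    obtain ⟨y, hy, rfl⟩ := mem_powerClosure hG H n g₂ h₂
    have h := comm_pow_mem (Cfsg.Agent.Lib.Helper74Regular.regular_subgroup hG H) n ⟨x, hx⟩ ⟨y, hy⟩
    have h2 : ⁅H, H⁆ = (commutator H).map H.subtype := by
      rw [_root_.commutator_def, Subgroup.map_commutator, ← MonoidHom.range_eq_map, Subgroup.range_subtype]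
    rw [h2, Cfsg.Agent.Lib.Helper74Regular.powerClosure_map]
    exact ⟨_, h, by simp [commutatorElement_def]⟩

end Cfsg.Agent.S0644
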