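import Cfsg.Statements.S0868
import Cfsg.Agent.Lib.Helper19Gal2

set_option autoImplicit false
open scoped ComplexConjugate
open Cfsg

namespace Cfsg.Agent.S0868

/-- Let N be a normal subgroup of the finite group G, χ an irreducible character of G whose restriction ϑ to N is irreducible, and ψ an irreducible character of G. Define η on G by η g = (1 / order of N) * Σ over n in N of ψ (n * g) * conj (χ (n * g)). Then: if the restriction of ψ to N has nonzero inner product with ϑ, η is an irreducible character of G; if that inner product is zero, η vanishes identically; and if ψ = χ then η is identically 1. -/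
theorem result {G : Type*} [Group G] [Fintype G] (N : Subgroup G) [N.Normal] [Fintype N] (χ : G → ℂ) (hχ : Cfsg.IsIrrCharacter G χ) (hχN : Cfsg.IsIrrCharacter N (fun n : N => χ n)) (ψ : G → ℂ) (hψ : Cfsg.IsIrrCharacter G ψ) (η : G → ℂ) (hη : η = fun g => (Nat.card N : ℂ)⁻¹ * ∑ n : N, ψ ((n : G) * g) * conj (χ ((n : G) * g))) : (Cfsg.classInner (fun n : N => ψ n) (fun n : N => χ n) ≠ 0 → Cfsg.IsIrrCharacter G η) ∧ (Cfsg.classInner (fun n : N => ψ n) (fun n : N => χ n) = 0 → η = 0) ∧ (ψ = χ → η = fun _ => 1) := by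
  classical
  have hχc := Lib.Helper4Char.IsIrrCharacter.isCharacter hχ
  have hψc := Lib.Helper4Char.IsIrrCharacter.isCharacter hψ
  have hχcl := Lib.Helper4Char.IsIrrCharacter.isClassFunction hχ
  have hψcl := Lib.Helper4Char.IsIrrCharacter.isClassFunction hψ
  have hN0 : (Nat.card N : ℂ) ≠ 0 := by exact_mod_cast Nat.card_pos.ne'
  have hG0 : (Nat.card G : ℂ) ≠ 0 := by exact_mod_cast Nat.card_pos.ne'
  set F : G → ℂ := fun g => ψ g * conj (χ g) with hF
  have hFcl : Cfsg.IsClassFunction G F :=
    Lib.Helper4Char.IsClassFunction.mul hψcl (Lib.Helper4Char.IsClassFunction.conj hχcl)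
  have hηF : ∀ g, η g = (Nat.card N : ℂ)⁻¹ * ∑ n : N, F ((n : G) * g) := by
    intro g; rw [hη]
  -- η is a class function
  have hηcl : Cfsg.IsClassFunction G η := by
    intro g h
    rw [hηF, hηF]
    congr 1
    rw [← Equiv.sum_comp (MulAut.conjNormal h : N ≃* N).toEquiv]
    refine Finset.sum_congr rfl fun n _ => ?_
    simp only [MulEquiv.toEquiv_eq_coe, MulEquiv.coe_toEquiv, MulAut.conjNormal_apply]
    have : h * (n : G) * h⁻¹ * (h * g * h⁻¹) = h * ((n : G) * g) * h⁻¹ := by group
    rw [this, hFcl]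
  have hηleft : ∀ (m : N) (g : G), η ((m : G) * g) = η g := by
    intro m g
    rw [hηF, hηF]
    congr 1
    rw [← Equiv.sum_comp (Equiv.mulRight m⁻¹)]
    refine Finset.sum_congr rfl fun n _ => ?_
    simp only [Equiv.coe_mulRight, Subgroup.coe_mul, Subgroup.coe_inv]
    congr 1
    group
  have hηright : ∀ (m : N) (g : G), η (g * (m : G)) = η g := by
    intro m g
    have h1 : g * (m : G) = ((MulAut.conjNormal g m : N) : G) * g := by
      rw [MulAut.conjNormal_apply]; group
    rw [h1, hηleft]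
  -- inner products
  have hin1 : ∀ β : G → ℂ, Cfsg.IsIrrCharacter G β → (∀ n : N, β n = β 1) →
      Cfsg.classInner η β = Cfsg.classInner ψ (β * χ) := by
    intro β hβ hker
    have hβc := Lib.Helper4Char.IsIrrCharacter.isCharacter hβ
    have hβcl := Lib.Helper4Char.IsIrrCharacter.isClassFunction hβ
    have hβn : ∀ (n : N) (g : G), β ((n : G) * g) = β g := by
      intro n g
      have h1 : (n : G) * g = g⁻¹⁻¹ * (g⁻¹ * ((n : G) * g)) := by group
      have h2 := hβcl (g * (n : G)) g⁻¹
      have h3 : g⁻¹ * (g * (n : G)) * g⁻¹⁻¹ = (n : G) * g := by group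
      rw [h3] at h2
      rw [h2]
      exact Lib.Helper82Quot.char_mul_of_mem_ker hβc g (hker n)
    unfold Cfsg.classInner
    congr 1
    have h1 : ∀ g, η g * conj (β g)
        = (Nat.card N : ℂ)⁻¹ * ∑ n : N, F ((n : G) * g) * conj (β ((n : G) * g)) := by
      intro g
      rw [hηF, mul_assoc, Finset.sum_mul]
      simp only [hβn]
    simp only [h1]
    rw [← Finset.mul_sum, Finset.sum_comm]
    have h2 : ∀ n : N, ∑ g : G, F ((n : G) * g) * conj (β ((n : G) * g)) = ∑ g : G, F g * conj (β g) := by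
      intro n
      exact Equiv.sum_comp (Equiv.mulLeft (n : G)) (fun g => F g * conj (β g))
    simp only [h2]
    rw [Finset.sum_const, Finset.card_univ, nsmul_eq_mul, ← Nat.card_eq_fintype_card, ← mul_assoc,
      inv_mul_cancel₀ hN0, one_mul]
    refine Finset.sum_congr rfl fun g _ => ?_
    simp only [hF, Pi.mul_apply, map_mul]
    ring
  have hin2 : ∀ β : G → ℂ, Cfsg.IsIrrCharacter G β → (¬ ∀ n : N, β n = β 1) →
      Cfsg.classInner η β = 0 := by
    intro β hβ hker
    have hz : ∀ g : G, ∑ n : N, β (g * n) = 0 := by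
      rcases Lib.Helper82Schur.irr_sum_normal_eq_zero_or ⟨β, hβ⟩ N with h | h
      · exact absurd (fun n : N => h n n.2) hker
      · exact h
    unfold Cfsg.classInner
    have h1 : (Nat.card N : ℂ) * ∑ g : G, η g * conj (β g) = 0 := by
      rw [Nat.card_eq_fintype_card, ← nsmul_eq_mul, ← Finset.card_univ, ← Finset.sum_const]
      have h2 : ∀ m : N, ∑ g : G, η g * conj (β g) = ∑ g : G, η g * conj (β (g * (m : G))) := by
        intro m
        rw [← Equiv.sum_comp (Equiv.mulRight (m : G)) (fun g => η g * conj (β g))]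
        refine Finset.sum_congr rfl fun g _ => ?_
        simp only [Equiv.coe_mulRight, hηright]
      rw [Finset.sum_congr rfl (fun m _ => h2 m), Finset.sum_comm]
      apply Finset.sum_eq_zero
      intro g _
      rw [← Finset.mul_sum, ← map_sum, hz, map_zero, mul_zero]
    rcases mul_eq_zero.mp h1 with h | h
    · exact absurd h hN0
    · rw [h, mul_zero]
  have hgal := Lib.Helper19Gal2.gallagher N.subtype N.subtype_injective MulAut.conjNormal
    (fun g n => MulAut.conjNormal_apply g n) hχN hχ (fun _ => rfl)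
  have hmain : ∀ β₀ : G → ℂ, Cfsg.IsIrrCharacter G β₀ → (∀ n : N, β₀ n = β₀ 1) → β₀ * χ = ψ → η = β₀ := by
    intro β₀ hβ₀ hker₀ hprod
    rw [Lib.Helper4Char.classFunction_eq_sum η hηcl, Finset.sum_eq_single (⟨β₀, hβ₀⟩ : Cfsg.IrrCharacter G)]
    · rw [hin1 β₀ hβ₀ hker₀, hprod, Lib.Helper4Char.classInner_irr_self hψ, one_smul]
    · intro β _ hne
      by_cases hker : ∀ n : N, (β : G → ℂ) n = (β : G → ℂ) 1
      · rw [hin1 β β.2 hker]
        have h1 : Cfsg.IsIrrCharacter G ((β : G → ℂ) * χ) := (hgal.mapsTo ⟨β.2, hker⟩).1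
        rw [Lib.Helper4Char.classInner_irr_ne hψ h1, zero_smul]
        intro h2
        apply hne
        apply Subtype.ext
        exact hgal.injOn ⟨β.2, hker⟩ ⟨hβ₀, hker₀⟩ (h2.symm.trans hprod.symm)
      · rw [hin2 β β.2 hker, zero_smul]
    · intro h; exact absurd (Finset.mem_univ _) h
  refine ⟨?_, ?_, ?_⟩
  · intro h
    obtain ⟨β₀, ⟨hβ₀, hker₀⟩, hprod⟩ := hgal.surjOn ⟨hψ, h⟩
    rw [hmain β₀ hβ₀ hker₀ hprod]
    exact hβ₀
  · intro h
    apply Lib.Helper4Char.eq_zero_of_classInner_irr_eq_zero η hηcl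
    intro β hβ
    by_cases hker : ∀ n : N, β n = β 1
    · rw [hin1 β hβ hker]
      have h1 := hgal.mapsTo ⟨hβ, hker⟩
      apply Lib.Helper4Char.classInner_irr_ne hψ h1.1
      intro h2
      apply h1.2
      show Cfsg.classInner (fun n : N => (β * χ) n) (fun n : N => χ n) = 0
      rw [← h2]
      exact h
    · exact hin2 β hβ hker
  · intro h
    apply hmain _ Lib.Helper82Linear.isIrrCharacter_one (fun _ => rfl)
    rw [h]
    funext g
    simp

end Cfsg.Agent.S0868
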