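import Cfsg.Statements.S5016
import Mathlib

set_option autoImplicit false
open Cfsg

namespace Cfsg.Agent.S5016

open Matrix

section
variable {k : Type*} [Field k]

/-- lower unitriangular -/
def Lo (x : k) : Matrix.SpecialLinearGroup (Fin 2) k := ⟨!![1, 0; x, 1], by simp [Matrix.det_fin_two]⟩

/-- upper unitriangular -/
def Up (x : k) : Matrix.SpecialLinearGroup (Fin 2) k := ⟨!![1, x; 0, 1], by simp [Matrix.det_fin_two]⟩

theorem Lo_mul (x y : k) : Lo x * Lo y = Lo (x + y) := by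
  apply Subtype.ext
  show !![1, 0; x, 1] * !![1, 0; y, 1] = !![1, 0; x + y, 1]
  simp [Matrix.mul_fin_two]

theorem Up_mul (x y : k) : Up x * Up y = Up (x + y) := by
  apply Subtype.ext
  show !![1, x; 0, 1] * !![1, y; 0, 1] = !![1, x + y; 0, 1]
  simp [Matrix.mul_fin_two, add_comm]

theorem Lo_zero : Lo (0 : k) = 1 := by
  apply Subtype.ext
  show !![1, 0; 0, 1] = (1 : Matrix (Fin 2) (Fin 2) k)
  exact Matrix.one_fin_two.symm

theorem Up_zero : Up (0 : k) = 1 := by
  apply Subtype.ext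
  show !![1, 0; 0, 1] = (1 : Matrix (Fin 2) (Fin 2) k)
  exact Matrix.one_fin_two.symm

theorem Lo_inv (x : k) : (Lo x)⁻¹ = Lo (-x) := by
  apply inv_eq_of_mul_eq_one_left
  rw [Lo_mul, neg_add_cancel, Lo_zero]

theorem Up_inv (x : k) : (Up x)⁻¹ = Up (-x) := by
  apply inv_eq_of_mul_eq_one_left
  rw [Up_mul, neg_add_cancel, Up_zero]

theorem mem_lower (g : Matrix.SpecialLinearGroup (Fin 2) k) :
    g ∈ Cfsg.lowerUnipotentSL2 k ↔ ∃ x, g = Lo x := by
  constructor
  · intro h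
    unfold Cfsg.lowerUnipotentSL2 at h
    induction h using Subgroup.closure_induction with
    | mem g hg =>
      obtain ⟨h1, h2, h3⟩ := hg
      refine ⟨(g : Matrix (Fin 2) (Fin 2) k) 1 0, ?_⟩
      apply Subtype.ext
      refine Matrix.ext fun i j => ?_
      fin_cases i <;> fin_cases j <;> simp [Lo, h1, h2, h3]
    | one => exact ⟨0, Lo_zero.symm⟩
    | mul a b _ _ ha hb =>
      obtain ⟨x, rfl⟩ := ha
      obtain ⟨y, rfl⟩ := hb
      exact ⟨_, Lo_mul x y⟩
    | inv a _ ha =>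
      obtain ⟨x, rfl⟩ := ha
      exact ⟨_, Lo_inv x⟩
  · rintro ⟨x, rfl⟩
    apply Subgroup.subset_closure
    refine ⟨?_, ?_, ?_⟩ <;> simp [Lo]

theorem mem_upper (g : Matrix.SpecialLinearGroup (Fin 2) k) :
    g ∈ Cfsg.upperUnipotentSL2 k ↔ ∃ x, g = Up x := by
  constructor
  · intro h
    unfold Cfsg.upperUnipotentSL2 at h
    induction h using Subgroup.closure_induction with
    | mem g hg =>
      obtain ⟨h1, h2, h3⟩ := hg
      refine ⟨(g : Matrix (Fin 2) (Fin 2) k) 0 1, ?_⟩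
      apply Subtype.ext
      refine Matrix.ext fun i j => ?_
      fin_cases i <;> fin_cases j <;> simp [Up, h1, h2, h3]
    | one => exact ⟨0, Up_zero.symm⟩
    | mul a b _ _ ha hb =>
      obtain ⟨x, rfl⟩ := ha
      obtain ⟨y, rfl⟩ := hb
      exact ⟨_, Up_mul x y⟩
    | inv a _ ha =>
      obtain ⟨x, rfl⟩ := ha
      exact ⟨_, Up_inv x⟩
  · rintro ⟨x, rfl⟩
    apply Subgroup.subset_closure
    refine ⟨?_, ?_, ?_⟩ <;> simp [Up]

theorem lhs_eq (s x : k) : ((Up (-s) * Lo x * Up s : Matrix.SpecialLinearGroup (Fin 2) k) :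
    Matrix (Fin 2) (Fin 2) k) = !![1 - s * x, -s ^ 2 * x; x, 1 + s * x] := by
  show !![1, -s; 0, 1] * !![1, 0; x, 1] * !![1, s; 0, 1] = _
  simp only [Matrix.mul_fin_two]
  refine Matrix.ext fun i j => ?_
  fin_cases i <;> fin_cases j <;> simp <;> ring

theorem rhs_eq (t y : k) : ((Lo (-t) * Up y * Lo t : Matrix.SpecialLinearGroup (Fin 2) k) :
    Matrix (Fin 2) (Fin 2) k) = !![1 + y * t, y; -t ^ 2 * y, 1 - t * y] := by
  show !![1, 0; -t, 1] * !![1, y; 0, 1] * !![1, 0; t, 1] = _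
  simp only [Matrix.mul_fin_two]
  refine Matrix.ext fun i j => ?_
  fin_cases i <;> fin_cases j <;> simp <;> ring

theorem key (s t x : k) (h : s * t = 1) :
    Up (-s) * Lo x * Up s = Lo (-t) * Up (-s ^ 2 * x) * Lo t := by
  apply Subtype.ext
  rw [lhs_eq, rhs_eq]
  refine Matrix.ext fun i j => ?_
  fin_cases i <;> fin_cases j <;> simp
  · linear_combination (s * x) * h
  · linear_combination (-(s * t + 1) * x) * h
  · linear_combination (-(s * x)) * h

theorem mem_conjBy {G : Type*} [Group G] (A : Subgroup G) (g h : G) :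
    h ∈ Cfsg.conjBy A g ↔ ∃ a ∈ A, g * a * g⁻¹ = h := by
  simp [Cfsg.conjBy, Subgroup.mem_map]

theorem conj_eq (s t : k) (h : s * t = 1) :
    Cfsg.conjBy (Cfsg.lowerUnipotentSL2 k) (Up s)⁻¹ = Cfsg.conjBy (Cfsg.upperUnipotentSL2 k) (Lo t)⁻¹ := by
  ext g
  rw [mem_conjBy, mem_conjBy]
  constructor
  · rintro ⟨a, ha, rfl⟩
    obtain ⟨x, rfl⟩ := (mem_lower a).1 ha
    refine ⟨Up (-s ^ 2 * x), (mem_upper _).2 ⟨_, rfl⟩, ?_⟩
    rw [inv_inv, inv_inv, Up_inv, Lo_inv, key s t x h]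
  · rintro ⟨a, ha, rfl⟩
    obtain ⟨y, rfl⟩ := (mem_upper a).1 ha
    refine ⟨Lo (-t ^ 2 * y), (mem_lower _).2 ⟨_, rfl⟩, ?_⟩
    rw [inv_inv, inv_inv, Up_inv, Lo_inv, key s t _ h]
    congr 3
    linear_combination ((s * t + 1) * y) * h

theorem Lo_ne_one {t : k} (h : Lo t ≠ 1) : t ≠ 0 := by
  rintro rfl
  exact h Lo_zero

theorem Up_ne_one {t : k} (h : Up t ≠ 1) : t ≠ 0 := by
  rintro rfl
  exact h Up_zero

theorem Lo_ne_one' {t : k} (h : t ≠ 0) : Lo t ≠ 1 := by
  intro h1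
  have := congrArg (fun g : Matrix.SpecialLinearGroup (Fin 2) k => (g : Matrix (Fin 2) (Fin 2) k) 1 0) h1
  simp [Lo] at this
  exact h this

theorem Up_ne_one' {t : k} (h : t ≠ 0) : Up t ≠ 1 := by
  intro h1
  have := congrArg (fun g : Matrix.SpecialLinearGroup (Fin 2) k => (g : Matrix (Fin 2) (Fin 2) k) 0 1) h1
  simp [Up] at this
  exact h this

theorem comm_lower : IsMulCommutative ↥(Cfsg.lowerUnipotentSL2 k) := by
  refine ⟨⟨fun a b => ?_⟩⟩
  obtain ⟨x, hx⟩ := (mem_lower a.1).1 a.2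
  obtain ⟨y, hy⟩ := (mem_lower b.1).1 b.2
  apply Subtype.ext
  show a.1 * b.1 = b.1 * a.1
  rw [hx, hy, Lo_mul, Lo_mul, add_comm]

theorem comm_upper : IsMulCommutative ↥(Cfsg.upperUnipotentSL2 k) := by
  refine ⟨⟨fun a b => ?_⟩⟩
  obtain ⟨x, hx⟩ := (mem_upper a.1).1 a.2
  obtain ⟨y, hy⟩ := (mem_upper b.1).1 b.2
  apply Subtype.ext
  show a.1 * b.1 = b.1 * a.1
  rw [hx, hy, Up_mul, Up_mul, add_comm]

theorem pair : Cfsg.IsRankOnePair (Cfsg.lowerUnipotentSL2 k) (Cfsg.upperUnipotentSL2 k) where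
  ne := by
    intro h
    have h1 : Lo (1 : k) ∈ Cfsg.upperUnipotentSL2 k := by
      rw [← h]; exact (mem_lower _).2 ⟨_, rfl⟩
    obtain ⟨y, hy⟩ := (mem_upper _).1 h1
    have := congrArg (fun g : Matrix.SpecialLinearGroup (Fin 2) k => (g : Matrix (Fin 2) (Fin 2) k) 1 0) hy
    simp [Lo, Up] at this
  nilpotent_left := by
    exact ⟨1, Subgroup.upperCentralSeries_one_eq_top_iff.2 comm_lower⟩
  nilpotent_right := by
    exact ⟨1, Subgroup.upperCentralSeries_one_eq_top_iff.2 comm_upper⟩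
  cond_left := by
    intro a ha ha1
    obtain ⟨t, rfl⟩ := (mem_lower a).1 ha
    have ht := Lo_ne_one ha1
    exact ⟨Up t⁻¹, (mem_upper _).2 ⟨_, rfl⟩, Up_ne_one' (inv_ne_zero ht),
      conj_eq _ _ (inv_mul_cancel₀ ht)⟩
  cond_right := by
    intro a ha ha1
    obtain ⟨s, rfl⟩ := (mem_upper a).1 ha
    have hs := Up_ne_one ha1
    exact ⟨Lo s⁻¹, (mem_lower _).2 ⟨_, rfl⟩, Lo_ne_one' (inv_ne_zero hs),
      (conj_eq _ _ (mul_inv_cancel₀ hs)).symm⟩

end

/-- For any field k, the special linear group SL₂(k) is a special rank one group with abelian unipotent subgroups, the unipotent subgroups being the group of lower unitriangular matrices and the group of upper unitriangular matrices. -/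
theorem result (k : Type*) [Field k] :
    Cfsg.IsRankOneGroup (Matrix.SpecialLinearGroup (Fin 2) k) (Cfsg.lowerUnipotentSL2 k) (Cfsg.upperUnipotentSL2 k) ∧
    Cfsg.IsSpecialRankOnePair (Cfsg.lowerUnipotentSL2 k) (Cfsg.upperUnipotentSL2 k) ∧
    Cfsg.HasAbelianUnipotents (Cfsg.lowerUnipotentSL2 k) (Cfsg.upperUnipotentSL2 k) := by
  refine ⟨⟨?_, pair⟩, ⟨pair, ?_⟩, comm_lower, comm_upper⟩
  · rw [eq_top_iff]
    intro g _
    refine Matrix.SL2.transvection_induction
      (fun g => g ∈ Cfsg.lowerUnipotentSL2 k ⊔ Cfsg.upperUnipotentSL2 k) ?_ ?_ g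
    · intro i j h c
      fin_cases i <;> fin_cases j
      · exact absurd rfl h
      · apply Subgroup.mem_sup_right
        rw [mem_upper]
        refine ⟨c, ?_⟩
        apply Subtype.ext
        refine Matrix.ext fun i j => ?_
        fin_cases i <;> fin_cases j <;>
          simp [Up, Matrix.SpecialLinearGroup.transvection, Matrix.transvection, Matrix.single_apply]
      · apply Subgroup.mem_sup_left
        rw [mem_lower]
        refine ⟨c, ?_⟩
        apply Subtype.ext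
        refine Matrix.ext fun i j => ?_
        fin_cases i <;> fin_cases j <;>
          simp [Lo, Matrix.SpecialLinearGroup.transvection, Matrix.transvection, Matrix.single_apply]
      · exact absurd rfl h
    · intro A B hA hB
      exact mul_mem hA hB
  · intro a ha ha1 b hb hb1 hab
    obtain ⟨t, rfl⟩ := (mem_lower a).1 ha
    obtain ⟨s, rfl⟩ := (mem_upper b).1 hb
    have ht := Lo_ne_one ha1
    have hs := Up_ne_one hb1
    have h1 : (Up s)⁻¹ * Lo 1 * ((Up s)⁻¹)⁻¹ ∈ Cfsg.conjBy (Cfsg.lowerUnipotentSL2 k) (Up s)⁻¹ :=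
      (mem_conjBy _ _ _).2 ⟨Lo 1, (mem_lower _).2 ⟨_, rfl⟩, rfl⟩
    rw [hab, mem_conjBy] at h1
    obtain ⟨u, hu, hu1⟩ := h1
    obtain ⟨y, rfl⟩ := (mem_upper u).1 hu
    rw [inv_inv, inv_inv, Up_inv, Lo_inv] at hu1
    have h2 := congrArg (fun g : Matrix.SpecialLinearGroup (Fin 2) k => (g : Matrix (Fin 2) (Fin 2) k)) hu1
    simp only [lhs_eq, rhs_eq] at h2
    have e00 := congrFun (congrFun h2 0) 0
    have e01 := congrFun (congrFun h2 0) 1
    simp at e00 e01
    have hst : s * t = 1 := by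
      have : s * (s * t - 1) = 0 := by
        rw [e01] at e00
        linear_combination -e00
      have := (mul_eq_zero.1 this).resolve_left hs
      linear_combination this
    rw [Up_inv, Lo_inv, key s t t hst]
    congr 3
    linear_combination (-s) * hst

end Cfsg.Agent.S5016
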