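import Cfsg.Statements.S5552
import Cfsg.Agent.Lib.Helper93LeechIrr

set_option autoImplicit false
open Cfsg

namespace Cfsg.Agent.S5552

open Cfsg.Agent.Lib.Helper93LeechIrr

/-- On the Leech lattice of the definitions, let Q be a function to the field with two elements that is constant on cosets of twice the lattice, is a quadratic form there (Q(u+v+w) + Q(u) + Q(v) + Q(w) = Q(u+v) + Q(u+w) + Q(v+w) for all u, v, w), is invariant under every lattice automorphism, and is not identically zero. Then Q(v) is the squared length of v divided by 16, reduced modulo 2, for every lattice vector v (squared lengths of lattice vectors are multiples of 16). -/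
theorem result (Q : ↥Cfsg.leechLattice → ZMod 2) (hcoset : ∀ v w : ↥Cfsg.leechLattice, Q (v + (w + w)) = Q v) (hquad : ∀ u v w : ↥Cfsg.leechLattice, Q (u + v + w) + Q u + Q v + Q w = Q (u + v) + Q (u + w) + Q (v + w)) (hinv : ∀ (g : ↥Cfsg.Co0) (v : ↥Cfsg.leechLattice), Q (g • v) = Q v) (hne : ∃ v : ↥Cfsg.leechLattice, Q v ≠ 0) (v : ↥Cfsg.leechLattice) : Q v = ((Cfsg.sqNorm (v : Cfsg.GolayPt → ℤ) / 16 : ℤ) : ZMod 2) := by
  have hT : ∀ u w : ↥Cfsg.leechLattice,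
      Cfsg.sqNorm (u : Cfsg.GolayPt → ℤ) = Cfsg.sqNorm (w : Cfsg.GolayPt → ℤ) →
      Cfsg.sqNorm (u : Cfsg.GolayPt → ℤ) ≤ 64 → Q u = Q w := by
    intro u w h hn
    obtain ⟨g, hg⟩ := Cfsg.Agent.Lib.Helper93LeechIrr.short_trans u w h hn
    rw [← hg, hinv]
  have Q0 : Q 0 = 0 := by
    have h := hquad 0 0 0
    simp only [add_zero] at h
    generalize Q 0 = a at h ⊢
    revert a; decide
  have nadd : ∀ a b : ↥Cfsg.leechLattice, Cfsg.sqNorm ((a + b : ↥Cfsg.leechLattice) : Cfsg.GolayPt → ℤ)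
      = Cfsg.sqNorm (a : Cfsg.GolayPt → ℤ) + 2 * Cfsg.dotInt (a : Cfsg.GolayPt → ℤ) (b : Cfsg.GolayPt → ℤ)
        + Cfsg.sqNorm (b : Cfsg.GolayPt → ℤ) := fun a b =>
    Cfsg.Agent.Lib.Helper33LCo0.sqNorm_add _ _
  have dadd : ∀ a b c : ↥Cfsg.leechLattice,
      Cfsg.dotInt ((a + b : ↥Cfsg.leechLattice) : Cfsg.GolayPt → ℤ) (c : Cfsg.GolayPt → ℤ)
      = Cfsg.dotInt (a : Cfsg.GolayPt → ℤ) (c : Cfsg.GolayPt → ℤ)
        + Cfsg.dotInt (b : Cfsg.GolayPt → ℤ) (c : Cfsg.GolayPt → ℤ) := fun a b c =>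
    Cfsg.Agent.Lib.Helper33LPair.dot_add_left _ _ _
  -- value on minimal vectors
  have q2 : Q vB = 0 := by
    have e := hquad vA vB vC
    have a1 : Q vA = Q vB := hT _ _ (by rw [nA, nB]) (by rw [nA]; norm_num)
    have a2 : Q vC = Q vB := hT _ _ (by rw [nC, nB]) (by rw [nC]; norm_num)
    have a3 : Q (vA + vC) = Q (vA + vB) :=
      hT _ _ (by rw [nadd, nadd, nA, nB, nC, dAB, dAC]) (by rw [nadd, nA, nC, dAC]; norm_num)
    have a4 : Q (vA + vB + vC) = Q (vB + vC) :=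
      hT _ _ (by rw [nadd, nadd, nadd, dadd, nA, nB, nC, dAB, dAC, dBC]; norm_num)
        (by rw [nadd, nadd, dadd, nA, nB, nC, dAB, dAC, dBC]; norm_num)
    rw [a1, a2, a3, a4] at e
    generalize Q vB = a at e ⊢
    generalize Q (vB + vC) = b at e
    generalize Q (vA + vB) = c at e
    revert a b c; decide
  have q4 : Q (vB + vF) = 0 := by
    have e := hquad vB vE vF
    have a1 : Q vE = Q vB := hT _ _ (by rw [nE, nB]) (by rw [nE]; norm_num)
    have a2 : Q vF = Q vB := hT _ _ (by rw [nF, nB]) (by rw [nF]; norm_num)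
    have a3 : Q (vB + vE) = Q vB :=
      hT _ _ (by rw [nadd, nB, nE, dBE]; norm_num) (by rw [nadd, nB, nE, dBE]; norm_num)
    have a4 : Q (vE + vF) = Q (vB + vF) :=
      hT _ _ (by rw [nadd, nadd, nB, nE, nF, dEF, dBF]) (by rw [nadd, nE, nF, dEF]; norm_num)
    have a5 : Q (vB + vE + vF) = Q (vB + vF) :=
      hT _ _ (by rw [nadd, nadd, nadd, dadd, nB, nE, nF, dBE, dBF, dEF]; norm_num)
        (by rw [nadd, nadd, dadd, nB, nE, nF, dBE, dBF, dEF]; norm_num)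
    rw [a1, a2, a3, a4, a5, q2] at e
    generalize Q (vB + vF) = b at e ⊢
    revert b; decide
  have h32 : ∀ u : ↥Cfsg.leechLattice, Cfsg.sqNorm (u : Cfsg.GolayPt → ℤ) = 32 → Q u = 0 := by
    intro u hu
    rw [hT u vB (by rw [hu, nB]) (by rw [hu]; norm_num), q2]
  have h64 : ∀ u : ↥Cfsg.leechLattice, Cfsg.sqNorm (u : Cfsg.GolayPt → ℤ) = 64 → Q u = 0 := by
    intro u hu
    rw [hT u (vB + vF) (by rw [hu, nadd, nB, nF, dBF]; norm_num) (by rw [hu]), q4]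
  have h48 : ∀ u : ↥Cfsg.leechLattice, Cfsg.sqNorm (u : Cfsg.GolayPt → ℤ) = 48 → Q u = 1 := by
    obtain ⟨v0, hv0⟩ := hne
    obtain ⟨y, z, hn, hyz⟩ := Cfsg.Agent.Lib.Helper93LeechIrr.rep v0
    rw [hyz, hcoset] at hv0
    have hy48 : Cfsg.sqNorm (y : Cfsg.GolayPt → ℤ) = 48 := by
      rcases Cfsg.Agent.Lib.Helper93LeechIrr.short_cases y.2 hn with h | h | h | h
      · exact absurd (by rw [show y = 0 from Subtype.ext h, Q0]) hv0
      · exact absurd (h32 y h) hv0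
      · exact h
      · exact absurd (h64 y h) hv0
    intro u hu
    rw [hT u y (by rw [hu, hy48]) (by rw [hu]; norm_num)]
    generalize Q y = a at hv0 ⊢
    revert a; decide
  -- the general vector
  obtain ⟨y, z, hn, hyz⟩ := Cfsg.Agent.Lib.Helper93LeechIrr.rep v
  have hd8 : (8 : ℤ) ∣ Cfsg.dotInt (y : Cfsg.GolayPt → ℤ) (z : Cfsg.GolayPt → ℤ) := by
    have b1 := Cfsg.Agent.Lib.Helper93LeechIrr.sixteen_dvd' (y + z).2
    have b2 := Cfsg.Agent.Lib.Helper93LeechIrr.sixteen_dvd' y.2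
    have b3 := Cfsg.Agent.Lib.Helper93LeechIrr.sixteen_dvd' z.2
    rw [nadd] at b1
    omega
  have hz16 := Cfsg.Agent.Lib.Helper93LeechIrr.sixteen_dvd' z.2
  have hnv : Cfsg.sqNorm (v : Cfsg.GolayPt → ℤ) = Cfsg.sqNorm (y : Cfsg.GolayPt → ℤ)
      + 4 * Cfsg.dotInt (y : Cfsg.GolayPt → ℤ) (z : Cfsg.GolayPt → ℤ)
      + 4 * Cfsg.sqNorm (z : Cfsg.GolayPt → ℤ) := by
    rw [hyz, nadd, nadd, Cfsg.Agent.Lib.Helper33LPair.dot_self]
    have : Cfsg.dotInt (y : Cfsg.GolayPt → ℤ) ((z + z : ↥Cfsg.leechLattice) : Cfsg.GolayPt → ℤ)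
        = 2 * Cfsg.dotInt (y : Cfsg.GolayPt → ℤ) (z : Cfsg.GolayPt → ℤ) := by
      show Cfsg.dotInt (y : Cfsg.GolayPt → ℤ) ((z : Cfsg.GolayPt → ℤ) + (z : Cfsg.GolayPt → ℤ)) = _
      rw [Cfsg.Agent.Lib.Helper33LPair.dot_add_right]; ring
    rw [this]; ring
  obtain ⟨k1, hk1⟩ := hd8
  obtain ⟨k2, hk2⟩ := hz16
  have hcast : ∀ (k c : ℤ), ((2 * k + c : ℤ) : ZMod 2) = ((c : ℤ) : ZMod 2) := by
    intro k c
    rw [ZMod.intCast_eq_intCast_iff_dvd_sub]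
    exact ⟨-k, by push_cast; ring⟩
  have hQ : Q v = Q y := by rw [hyz, hcoset]
  rw [hQ]
  rcases Cfsg.Agent.Lib.Helper93LeechIrr.short_cases y.2 hn with h | h | h | h
  · have hy0 : Cfsg.sqNorm (y : Cfsg.GolayPt → ℤ) = 0 := by
      rw [h]; exact Cfsg.Agent.Lib.Helper93LeechIrr.sqNorm_zero
    have : Cfsg.sqNorm (v : Cfsg.GolayPt → ℤ) / 16 = 2 * (k1 + 2 * k2) + 0 := by omega
    rw [this, hcast, show y = 0 from Subtype.ext h, Q0]; rfl
  · have : Cfsg.sqNorm (v : Cfsg.GolayPt → ℤ) / 16 = 2 * (k1 + 2 * k2 + 1) + 0 := by omega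
    rw [this, hcast, h32 y h]; rfl
  · have : Cfsg.sqNorm (v : Cfsg.GolayPt → ℤ) / 16 = 2 * (k1 + 2 * k2 + 1) + 1 := by omega
    rw [this, hcast, h48 y h]; rfl
  · have : Cfsg.sqNorm (v : Cfsg.GolayPt → ℤ) / 16 = 2 * (k1 + 2 * k2 + 2) + 0 := by omega
    rw [this, hcast, h64 y h]; rfl

end Cfsg.Agent.S5552
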