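import Cfsg.Statements.S5407
import Cfsg.Agent.Lib.Helper93Monster5

set_option autoImplicit false
open Cfsg

namespace Cfsg.Agent.S5407

open Cfsg.Agent.Lib.Helper93Monster Cfsg.Agent.Lib.Helper93Monster5

/-- Let G be a finite group of Monster type at the involution z with Q the extraspecial normal subgroup of order 2^25 of C = C_G(z) (so C/Q is identified with the first Conway group with Q modulo its centre the Leech lattice modulo 2, and z is not weakly closed in Q). Then under any such identification ψ of the Leech lattice modulo 2 with Q modulo its centre, an element x of Q is a conjugate of z other than z exactly when x modulo the centre is the image under ψ of a lattice vector of squared length 64 in the coordinates used here, that is, of norm 8 in the customary normalisation in which the minimal vectors have norm 4 (twice the minimal norm). -/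
theorem result {G : Type*} [Group G] [Finite G] (z : G) (Q : Subgroup (Subgroup.centralizer ({z} : Set G))) [Q.Normal] (hM : Cfsg.IsOfMonsterType z Q) (e : (Subgroup.centralizer ({z} : Set G)) ⧸ Q ≃* Cfsg.Spor.Co1) (ψ : Cfsg.leechLattice → Q ⧸ Subgroup.center Q) (hψ : Cfsg.IsLeechModTwoIso Q e ψ) (x : Q) : (IsConj z ((x : Subgroup.centralizer ({z} : Set G)) : G) ∧ ((x : Subgroup.centralizer ({z} : Set G)) : G) ≠ z) ↔ ∃ v : Cfsg.leechLattice, Cfsg.sqNorm (v : Cfsg.GolayPt → ℤ) = 64 ∧ ψ v = QuotientGroup.mk x := by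
  obtain ⟨⟨hz2, hF, hE, hcard, g, ⟨hgc, hgQ⟩, hgz⟩, -⟩ := hM
  have hP := pk_z hz2 hE hF
  constructor
  · rintro ⟨hc, hne⟩
    rw [isConj_iff] at hc
    obtain ⟨k, hk⟩ := hc
    exact (type4_of_conj hz2 hE hF hcard hψ x k hk.symm (by rw [hk]; exact hne)).2
  · rintro ⟨v, hn, hv⟩
    have hxc := not_central_of_norm64 hψ hn hv
    obtain ⟨-, vr, hnr, hvr⟩ := type4_of_conj hz2 hE hF hcard hψ
      (⟨⟨g * z * g⁻¹, hgc⟩, hgQ⟩ : Q) g rfl hgz
    obtain ⟨h, hh⟩ := conj_of_same_norm hP hψ hvr hv (by rw [hnr, hn]) (by rw [hnr]) hxc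
    have hh' : (h : G) * (g * z * g⁻¹) * (h : G)⁻¹ = ((x : Subgroup.centralizer ({z} : Set G)) : G) :=
      congrArg (fun x : Q => ((x : Subgroup.centralizer ({z} : Set G)) : G)) hh
    refine ⟨?_, ?_⟩
    · rw [isConj_iff]
      exact ⟨(h : G) * g, by rw [← hh']; group⟩
    · intro hxz
      apply hxc
      rw [hP.cen]
      right
      exact Subtype.ext (Subtype.ext hxz)

end Cfsg.Agent.S5407
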