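import Cfsg.Statements.S5411
import Cfsg.Agent.Lib.Helper93Monster

set_option autoImplicit false
open Cfsg

namespace Cfsg.Agent.S5411

open Cfsg.Agent.Lib.Helper93Monster

/-- Let G be a finite group of Monster type at the involution z with Q the extraspecial normal subgroup of order 2^25 of C = C_G(z) (so C/Q is identified with the first Conway group with Q modulo its centre the Leech lattice modulo 2, and z is not weakly closed in Q). Then C acts transitively by conjugation on the involutions of Q that are not conjugate to z in G. -/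
theorem result {G : Type*} [Group G] [Finite G] (z : G) (Q : Subgroup (Subgroup.centralizer ({z} : Set G))) [Q.Normal] (hM : Cfsg.IsOfMonsterType z Q) (s t : G) (hsQ : ∃ hsc : s ∈ Subgroup.centralizer ({z} : Set G), (⟨s, hsc⟩ : Subgroup.centralizer ({z} : Set G)) ∈ Q) (htQ : ∃ htc : t ∈ Subgroup.centralizer ({z} : Set G), (⟨t, htc⟩ : Subgroup.centralizer ({z} : Set G)) ∈ Q) (hs2 : orderOf s = 2) (ht2 : orderOf t = 2) (hs : ¬ IsConj z s) (ht : ¬ IsConj z t) : ∃ h ∈ Subgroup.centralizer ({z} : Set G), h * s * h⁻¹ = t := by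
  obtain ⟨⟨hz2, hF, hE, -, g, ⟨hgc, hgQ⟩, hgz⟩, e, ψ, hψ⟩ := hM
  obtain ⟨hsc, hsQ'⟩ := hsQ
  obtain ⟨htc, htQ'⟩ := htQ
  have hP := pk_z hz2 hE hF
  -- general facts on an involution of `Q` different from `z`
  have key : ∀ (r : G) (hrc : r ∈ Subgroup.centralizer ({z} : Set G))
      (hrQ : (⟨r, hrc⟩ : Subgroup.centralizer ({z} : Set G)) ∈ Q), r * r = 1 → r ≠ 1 → r ≠ z →
      (⟨⟨r, hrc⟩, hrQ⟩ : Q) ∉ Subgroup.center Q ∧
      ∃ v : Cfsg.leechLattice, ψ v = QuotientGroup.mk (⟨⟨r, hrc⟩, hrQ⟩ : Q) ∧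
        (Cfsg.sqNorm (v : Cfsg.GolayPt → ℤ) = 32 ∨ Cfsg.sqNorm (v : Cfsg.GolayPt → ℤ) = 64) := by
    intro r hrc hrQ hr2 hr1 hrz
    have hc : (⟨⟨r, hrc⟩, hrQ⟩ : Q) ∉ Subgroup.center Q := by
      intro hc
      rcases (hP.cen _).1 hc with h | h
      · exact hr1 (congrArg (fun x : Q => ((x : Subgroup.centralizer ({z} : Set G)) : G)) h)
      · exact hrz (congrArg (fun x : Q => ((x : Subgroup.centralizer ({z} : Set G)) : G)) h)
    exact ⟨hc, norm_of_invol hE hψ (Subtype.ext (Subtype.ext hr2)) hc⟩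
  have sq_of : ∀ r : G, orderOf r = 2 → r * r = 1 ∧ r ≠ 1 := by
    intro r hr
    refine ⟨?_, ?_⟩
    · rw [← sq, ← hr]; exact pow_orderOf_eq_one r
    · rintro rfl
      rw [orderOf_one] at hr
      omega
  have hsz : s ≠ z := fun h => hs (h ▸ IsConj.refl z)
  have htz : t ≠ z := fun h => ht (h ▸ IsConj.refl z)
  obtain ⟨hsC, vs, hvs, hns⟩ := key s hsc hsQ' (sq_of s hs2).1 (sq_of s hs2).2 hsz
  obtain ⟨htC, vt, hvt, hnt⟩ := key t htc htQ' (sq_of t ht2).1 (sq_of t ht2).2 htz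
  have hg2 : g * z * g⁻¹ * (g * z * g⁻¹) = 1 := by
    have : g * z * g⁻¹ * (g * z * g⁻¹) = g * (z * z) * g⁻¹ := by group
    rw [this, (sq_of z hz2).1]; group
  have hg1 : g * z * g⁻¹ ≠ 1 := by
    intro h
    rw [conj_eq_one_iff] at h
    exact (sq_of z hz2).2 h
  obtain ⟨hrC, vr, hvr, hnr⟩ := key (g * z * g⁻¹) hgc hgQ hg2 hg1 hgz
  -- conjugacy in `C` gives conjugacy in `G`
  have fin : ∀ (a b : G) (hac : a ∈ Subgroup.centralizer ({z} : Set G))
      (haQ : (⟨a, hac⟩ : Subgroup.centralizer ({z} : Set G)) ∈ Q)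
      (hbc : b ∈ Subgroup.centralizer ({z} : Set G))
      (hbQ : (⟨b, hbc⟩ : Subgroup.centralizer ({z} : Set G)) ∈ Q) (va vb : Cfsg.leechLattice),
      ψ va = QuotientGroup.mk (⟨⟨a, hac⟩, haQ⟩ : Q) → ψ vb = QuotientGroup.mk (⟨⟨b, hbc⟩, hbQ⟩ : Q) →
      (⟨⟨b, hbc⟩, hbQ⟩ : Q) ∉ Subgroup.center Q →
      Cfsg.sqNorm (va : Cfsg.GolayPt → ℤ) = Cfsg.sqNorm (vb : Cfsg.GolayPt → ℤ) →
      Cfsg.sqNorm (va : Cfsg.GolayPt → ℤ) ≤ 64 →
      ∃ h ∈ Subgroup.centralizer ({z} : Set G), h * a * h⁻¹ = b := by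
    intro a b hac haQ hbc hbQ va vb hva hvb hbC hn h64
    obtain ⟨h, hh⟩ := conj_of_same_norm hP hψ hva hvb hn h64 hbC
    exact ⟨h, h.2, congrArg (fun x : Q => ((x : Subgroup.centralizer ({z} : Set G)) : G)) hh⟩
  by_cases hst : Cfsg.sqNorm (vs : Cfsg.GolayPt → ℤ) = Cfsg.sqNorm (vt : Cfsg.GolayPt → ℤ)
  · exact fin s t hsc hsQ' htc htQ' vs vt hvs hvt htC hst (by omega)
  · exfalso
    by_cases hrs : Cfsg.sqNorm (vr : Cfsg.GolayPt → ℤ) = Cfsg.sqNorm (vs : Cfsg.GolayPt → ℤ)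
    · obtain ⟨h, -, hh⟩ := fin _ s hgc hgQ hsc hsQ' vr vs hvr hvs hsC hrs (by omega)
      apply hs
      rw [isConj_iff]
      exact ⟨h * g, by rw [← hh]; group⟩
    · have hrt : Cfsg.sqNorm (vr : Cfsg.GolayPt → ℤ) = Cfsg.sqNorm (vt : Cfsg.GolayPt → ℤ) := by omega
      obtain ⟨h, -, hh⟩ := fin _ t hgc hgQ htc htQ' vr vt hvr hvt htC hrt (by omega)
      apply ht
      rw [isConj_iff]
      exact ⟨h * g, by rw [← hh]; group⟩

end Cfsg.Agent.S5411
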