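import Cfsg.Statements.S0377
import Cfsg.Agent.S0376
import Cfsg.Agent.S0366
import Cfsg.Agent.Lib.Helper10Simple

set_option autoImplicit false
open Cfsg

namespace Cfsg.Agent.S0377

open MulAction

theorem card_GolayPt : Nat.card GolayPt = 24 := by
  rw [Nat.card_eq_fintype_card, Fintype.card_option, ZMod.card]

/-- The point stabiliser in the code's group is simple. -/
theorem result (p : Cfsg.GolayPt) : IsSimpleGroup (MulAction.stabilizer Cfsg.M24 p) := by
  have h5 := S0366.result
  have hp23 : Fact (Nat.Prime 23) := ⟨by norm_num⟩
  have htr : IsPretransitive M24 GolayPt :=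
    is_one_pretransitive_iff.1 (isMultiplyPretransitive_of_le (n := 5) (by norm_num)
      (by rw [card_GolayPt]; norm_num))
  have h2 : IsMultiplyPretransitive M24 GolayPt (Nat.succ 1) :=
    isMultiplyPretransitive_of_le (n := 5) (by norm_num) (by rw [card_GolayPt]; norm_num)
  have h1 : IsMultiplyPretransitive (stabilizer M24 p) (SubMulAction.ofStabilizer M24 p) 1 :=
    SubMulAction.ofStabilizer.isMultiplyPretransitive.mp h2
  have htr' : IsPretransitive (stabilizer M24 p) (SubMulAction.ofStabilizer M24 p) :=
    is_one_pretransitive_iff.1 h1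
  have hcardα : Nat.card (SubMulAction.ofStabilizer M24 p) = 23 := by
    have := SubMulAction.nat_card_ofStabilizer_add_one_eq (G := M24) p
    rw [card_GolayPt] at this
    omega
  refine Lib.Helper10Simple.simple_of_prime_degree (α := SubMulAction.ofStabilizer M24 p)
    23 443520 11 hcardα ?_ ?_ (by norm_num) (by norm_num) (by norm_num) ?_
  · intro g hg
    apply Subtype.ext
    apply Subtype.ext
    refine Equiv.ext fun y => ?_
    by_cases hy : y = p
    · rw [hy]; exact g.2
    · have := hg ⟨y, hy⟩
      exact congrArg Subtype.val this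
  · rw [S0376.result]
  · intro m i hm hmi hi
    have hm22 : m ≤ 22 := Nat.le_of_dvd (by norm_num) hm
    interval_cases m <;> omega

end Cfsg.Agent.S0377
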