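import Cfsg.Statements.S0365
import Cfsg.Agent.S0377

set_option autoImplicit false
open Cfsg

namespace Cfsg.Agent.S0365

open MulAction

/-- The code's group is simple. -/
theorem result : IsSimpleGroup Cfsg.M24 := by
  have h5 := S0366.result
  have h2 : IsMultiplyPretransitive M24 GolayPt 2 :=
    isMultiplyPretransitive_of_le (n := 5) (by norm_num) (by rw [S0377.card_GolayPt]; norm_num)
  refine Lib.Helper10Simple.simple_of_simple_stabilizer (α := GolayPt) h2 ?_ none
    (S0377.result none) 2 3 Nat.prime_two Nat.prime_three (by norm_num)
    (by rw [S0377.card_GolayPt]; norm_num) (by rw [S0377.card_GolayPt]; norm_num)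
  intro g hg
  apply Subtype.ext
  exact Equiv.ext fun y => hg y

end Cfsg.Agent.S0365
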