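import Cfsg.Statements.S5652
import Cfsg.Agent.Lib.Helper95SpStd
-- import your own Cfsg.Agent.* helpers here

set_option autoImplicit false
open Cfsg

namespace Cfsg.Agent.S5652

open Module Cfsg.Agent.Lib.Helper95Basic Cfsg.Agent.Lib.Helper95Sp Cfsg.Agent.Lib.Helper95Form
  Cfsg.Agent.Lib.Helper95Cen Cfsg.Agent.Lib.Helper95SpStd

section abstract

variable {K V : Type*} [Field K] [AddCommGroup V] [Module K V]
variable {B : LinearMap.BilinForm K V}

/-- data of a quadratic form polarising to `B` over a perfect field of characteristic two -/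
structure QD (B : LinearMap.BilinForm K V) (Q : V → K) : Prop where
  two : (2 : K) = 0
  perf : ∀ a : K, ∃ b, b * b = a
  smul : ∀ (c : K) (v : V), Q (c • v) = c ^ 2 * Q v
  add : ∀ x y, Q (x + y) = Q x + Q y + B x y

variable {Q : V → K}

lemma QD.zero (h : QD B Q) : Q 0 = 0 := by
  have := h.smul 0 0
  simpa using this

lemma QD.vv (h : QD B Q) (v : V) : v + v = 0 := by
  rw [← two_smul K, h.two, zero_smul]

lemma QD.symm (h : QD B Q) (hA : B.IsAlt) (x y : V) : B x y = B y x := by
  rw [alt_swap hA x y]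
  linear_combination (- B y x) * h.two

/-- vectors orthogonal to a small set with prescribed value of `Q` -/
lemma QD.exists_perp [FiniteDimensional K V] (h : QD B Q) (hB : B.Nondegenerate) (hA : B.IsAlt)
    (hdim : 7 ≤ finrank K V) (U : Finset V) (hU : U.card ≤ 3) (d : K) :
    ∃ y, (∀ u ∈ U, B u y = 0) ∧ Q y = d := by
  set S := Submodule.span K (U : Set V) with hS
  have hSfr : finrank K S ≤ 3 := le_trans (finrank_span_finset_le_card U) hU
  set T := B.orthogonal S with hT
  have hTfr : finrank K T = finrank K V - finrank K S := LinearMap.BilinForm.finrank_orthogonal hB S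
  obtain ⟨y0, hy0T, hy0⟩ : ∃ y0 ∈ T, Q y0 ≠ 0 := by
    by_contra hcon
    push Not at hcon
    have h1 : T ≤ B.orthogonal T := by
      intro x hx y hy
      have h2 := h.add y x
      rw [hcon _ (T.add_mem hy hx), hcon y hy, hcon x hx] at h2
      simpa using h2.symm
    rw [hT, LinearMap.BilinForm.orthogonal_orthogonal hB hA.isRefl S, ← hT] at h1
    have := Submodule.finrank_mono h1
    omega
  obtain ⟨b, hb⟩ := h.perf (d / Q y0)
  refine ⟨b • y0, fun u hu => ?_, ?_⟩
  · rw [map_smul, hy0T u (Submodule.subset_span hu), smul_zero]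
  · rw [h.smul, pow_two, hb]
    field_simp

lemma QD.stv_Q (h : QD B Q) (hA : B.IsAlt) (v x : V) :
    Q (stv B hA v 1 x) = Q x + (B x v) ^ 2 * (Q v + 1) := by
  rw [stv_apply, h.add, h.smul, map_smul, smul_eq_mul]
  ring

theorem cen_univ [FiniteDimensional K V] (h : QD B Q) (hB : B.Nondegenerate) (hA : B.IsAlt)
    (hdim : 7 ≤ finrank K V) (M : Subgroup (V ≃ₗ[K] V))
    (hM : ∀ e : V ≃ₗ[K] V, (∀ u v, B (e u) (e v) = B u v) → (∀ x, Q (e x) = Q x) → e ∈ M)
    (hMiso : ∀ e ∈ M, ∀ u v, B (e u) (e v) = B u v)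
    (g : V ≃ₗ[K] V) (hgM : g ∈ M) (hg : ¬ ∀ x, Q (g x) = Q x) : ∀ v, v ∈ cen hA M := by
  have hS1 : ∀ v, Q v = 1 → stv B hA v 1 ∈ M := by
    intro v hv
    refine hM _ (stv_isometry hA v 1) fun x => ?_
    rw [h.stv_Q hA, hv]
    linear_combination (B x v) ^ 2 * h.two
  have hSmap : ∀ e ∈ M, ∀ v, stv B hA v 1 ∈ M → stv B hA (e v) 1 ∈ M := by
    intro e he v hv
    rw [← conj_stv hA e (hMiso e he) v 1]
    exact M.mul_mem (M.mul_mem he hv) (M.inv_mem he)
  -- Step 0
  obtain ⟨v0, hv0, hgv0⟩ : ∃ v, Q v = 1 ∧ Q (g v) ≠ 1 := by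
    by_contra hcon
    push Not at hcon
    apply hg
    intro v
    by_cases hv : Q v = 0
    · obtain ⟨u, hu, hQu⟩ := h.exists_perp hB hA hdim {v} (by simp) 1
      have huv : B u v = 0 := alt_zero hA (hu v (by simp))
      have h1 : Q (u + v) = 1 := by rw [h.add, hQu, hv, huv]; ring
      have h2 := hcon _ h1
      rw [map_add, h.add, hcon u hQu, hMiso g hgM, huv] at h2
      rw [hv]
      linear_combination h2
    · obtain ⟨b, hb⟩ := h.perf (Q v)
      have hb0 : b ≠ 0 := by
        rintro rfl
        exact hv (by simpa using hb.symm)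
      have h1 : Q (b⁻¹ • v) = 1 := by
        rw [h.smul, ← hb]
        field_simp
      have h2 := hcon _ h1
      rw [map_smul, h.smul] at h2
      rw [← hb]
      field_simp at h2
      linear_combination h2
  set w0 := g v0 with hw0
  have hv00 : v0 ≠ 0 := by
    rintro rfl
    rw [h.zero] at hv0
    exact zero_ne_one hv0
  have hw00 : w0 ≠ 0 := by
    intro h0
    exact hv00 (g.map_eq_zero_iff.1 h0)
  have hw0S : stv B hA w0 1 ∈ M := hSmap g hgM v0 (hS1 v0 hv0)
  -- Step A, first case
  have hA1 : ∀ w x, stv B hA w 1 ∈ M → Q x = Q w → B x w ≠ 0 → stv B hA x 1 ∈ M := by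
    intro w x hw hQ hxw
    obtain ⟨b, hb⟩ := h.perf (B x w)
    have hb0 : b ≠ 0 := by
      rintro rfl
      exact hxw (by simpa using hb.symm)
    have hQu : Q (b⁻¹ • (x + w)) = 1 := by
      rw [h.smul, h.add, hQ, ← hb]
      field_simp
      linear_combination (Q w) * h.two
    have h1 := hSmap _ (hS1 _ hQu) w hw
    have h2 : stv B hA (b⁻¹ • (x + w)) 1 w = x := by
      rw [stv_apply, map_smul, map_add, hA w, add_zero, h.symm hA w x, ← hb, smul_smul]
      have : 1 * b⁻¹ • (b * b) * b⁻¹ = 1 := by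
        rw [smul_eq_mul]
        field_simp
      rw [this, one_smul, add_comm x w, ← add_assoc, h.vv, zero_add]
    rwa [h2] at h1
  have hA2 : ∀ w x, stv B hA w 1 ∈ M → w ≠ 0 → x ≠ 0 → Q x = Q w → stv B hA x 1 ∈ M := by
    intro w x hw hw0 hx0 hQ
    by_cases hxw : B x w = 0
    · obtain ⟨z0, -, hz0w, hz0x⟩ := exists_both_ne_zero ⊤ (B.flip w) (B.flip x)
        (by
          by_contra hcon
          push Not at hcon
          exact hw0 (hB.2 w fun y => hcon y Submodule.mem_top))
        (by
          by_contra hcon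
          push Not at hcon
          exact hx0 (hB.2 x fun y => hcon y Submodule.mem_top))
      simp only [LinearMap.BilinForm.flip_apply] at hz0w hz0x
      classical
      obtain ⟨y, hy, hQy⟩ := h.exists_perp hB hA hdim {w, x, z0} Finset.card_le_three (Q w + Q z0)
      have hyw : B y w = 0 := alt_zero hA (hy w (by simp))
      have hyx : B y x = 0 := alt_zero hA (hy x (by simp))
      have hyz : B z0 y = 0 := hy z0 (by simp)
      have hQz : Q (z0 + y) = Q w := by
        rw [h.add, hQy, hyz]
        linear_combination (Q z0) * h.two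
      have hz : stv B hA (z0 + y) 1 ∈ M := hA1 w (z0 + y) hw hQz (by simpa [hyw] using hz0w)
      refine hA1 (z0 + y) x hz (by rw [hQz, hQ]) ?_
      intro h0
      have := alt_zero hA h0
      rw [map_add, LinearMap.add_apply, hyx, add_zero] at this
      exact hz0x this
    · exact hA1 w x hw hQ hxw
  -- Step B
  have hBs : ∀ d, ∃ s, stv B hA s 1 ∈ M ∧ s ≠ 0 ∧ Q s = d := by
    intro d
    obtain ⟨w, -, hQw⟩ := h.exists_perp hB hA hdim ∅ (by simp) 1
    have hw0' : w ≠ 0 := by
      rintro rfl
      rw [h.zero] at hQw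
      exact zero_ne_one hQw
    by_cases hd : d = 1
    · exact ⟨w, hS1 w hQw, hw0', by rw [hQw, hd]⟩
    · set c := Q w0 with hc
      have hc1 : 1 + c ≠ 0 := by
        intro h0
        apply hgv0
        linear_combination h0 - h.two
      obtain ⟨l, hl⟩ := h.perf ((d + 1) / (1 + c))
      have hl0 : l ≠ 0 := by
        rintro rfl
        have h1 : (d + 1) / (1 + c) = 0 := by simpa using hl.symm
        rcases div_eq_zero_iff.1 h1 with h2 | h2
        · apply hd
          linear_combination h2 - h.two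
        · exact hc1 h2
      obtain ⟨p, hp⟩ : ∃ p, B w p ≠ 0 := by
        by_contra hcon
        push Not at hcon
        exact hw0' (hB.1 w hcon)
      set u0 := (l / B w p) • p with hu0
      have hwu0 : B w u0 = l := by
        rw [hu0, map_smul, smul_eq_mul]
        field_simp
      classical
      obtain ⟨y, hy, hQy⟩ := h.exists_perp hB hA hdim {w, u0} (le_trans Finset.card_le_two (by norm_num))
        (c + Q u0)
      have hwy : B w y = 0 := hy w (by simp)
      have hu0y : B u0 y = 0 := hy u0 (by simp)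
      have hQu : Q (u0 + y) = c := by
        rw [h.add, hQy, hu0y]
        linear_combination (Q u0) * h.two
      have hwu : B w (u0 + y) = l := by rw [map_add, hwu0, hwy, add_zero]
      have hu0' : u0 + y ≠ 0 := by
        intro h0
        rw [h0, map_zero] at hwu
        exact hl0 hwu.symm
      have huS : stv B hA (u0 + y) 1 ∈ M := hA2 w0 (u0 + y) hw0S hw00 hu0' hQu
      refine ⟨stv B hA (u0 + y) 1 w, hSmap _ huS w (hS1 w hQw), ?_, ?_⟩
      · intro h0
        exact hw0' ((stv B hA (u0 + y) 1).map_eq_zero_iff.1 h0)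
      · rw [h.stv_Q hA, hQw, hwu, hQu, pow_two, hl]
        field_simp
        linear_combination (1 + c) * h.two
  intro v c
  obtain ⟨b, hb⟩ := h.perf c
  have h1 : stv B hA v c = stv B hA (b • v) 1 := by
    ext x
    simp only [stv_apply, map_smul, smul_eq_mul, smul_smul, ← hb]
    congr 1
    ring
  rw [h1]
  by_cases hbv : b • v = 0
  · rw [hbv]
    exact zero_mem_cen 1
  · obtain ⟨s, hsS, hs0, hQs⟩ := hBs (Q (b • v))
    exact hA2 s (b • v) hsS hs0 hbv hQs.symm

theorem exists_not_isom [FiniteDimensional K V] (h : QD B Q) (hB : B.Nondegenerate) (hA : B.IsAlt)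
    (hdim : 7 ≤ finrank K V) :
    ∃ e : V ≃ₗ[K] V, (∀ u v, B (e u) (e v) = B u v) ∧ ¬ ∀ x, Q (e x) = Q x := by
  obtain ⟨w, -, hQw⟩ := h.exists_perp hB hA hdim ∅ (by simp) 1
  have hw0' : w ≠ 0 := by
    rintro rfl
    rw [h.zero] at hQw
    exact zero_ne_one hQw
  obtain ⟨p, hp⟩ : ∃ p, B w p ≠ 0 := by
    by_contra hcon
    push Not at hcon
    exact hw0' (hB.1 w hcon)
  classical
  obtain ⟨y, hy, hQy⟩ := h.exists_perp hB hA hdim {w, p} (le_trans Finset.card_le_two (by norm_num)) 1
  have hwy : B w y = 0 := hy w (by simp)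
  have hpy : B p y = 0 := hy p (by simp)
  have hQv : Q (w + y) = 0 := by
    rw [h.add, hQw, hQy, hwy]
    linear_combination h.two
  refine ⟨stv B hA (w + y) 1, stv_isometry hA _ _, fun hall => ?_⟩
  have h1 := hall p
  rw [h.stv_Q hA, hQv, map_add, hpy, add_zero] at h1
  have h2 : (B p w) ^ 2 = 0 := by linear_combination h1
  exact hp (alt_zero hA (pow_eq_zero_iff (two_ne_zero) |>.1 h2))

end abstract

/-- For a finite field F of characteristic two and m ≥ 7, let Q be a non-degenerate quadratic form on F^(2m) whose polar form is the standard alternating form. Then the elements of Sp_2m(F) that are similarities of Q (they are exactly the isometries of Q) form a maximal subgroup of Sp_2m(F). -/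
theorem result {F : Type*} [Field F] [Fintype F] (m : ℕ) (hm : 7 ≤ m) (heven : ¬ Odd (Fintype.card F)) (Q : (Fin m ⊕ Fin m → F) → F) (hQ : Cfsg.Geo.IsNondegenerateQuadraticForm Q) (hpol : ∀ u v, QuadraticMap.polar Q u v = Cfsg.sympForm m F u v) : Cfsg.Geo.IsMaximalIn (Cfsg.spGL m F) (Cfsg.Geo.quadSimilarityGroup Q ⊓ Cfsg.spGL m F) := by
  have hchar : ringChar F = 2 := by
    rw [FiniteField.even_card_iff_char_two]
    rcases Nat.even_or_odd (Fintype.card F) with h | h
    · exact Nat.even_iff.1 h
    · exact absurd h heven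
  haveI : CharP F 2 := hchar ▸ ringChar.charP F
  have hqd : QD (stdB F m) Q :=
    { two := CharTwo.two_eq_zero
      perf := fun a => by
        obtain ⟨b, hb⟩ := FiniteField.isSquare_of_char_two hchar a
        exact ⟨b, hb.symm⟩
      smul := hQ.smul
      add := fun x y => by
        have := hpol x y
        rw [QuadraticMap.polar] at this
        rw [stdB_apply, ← this]
        ring }
  have hfin : finrank F (Fin m ⊕ Fin m → F) = 2 * m := by
    rw [Module.finrank_fintype_fun_eq_card, Fintype.card_sum, Fintype.card_fin]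
    ring
  have hdim : 7 ≤ finrank F (Fin m ⊕ Fin m → F) := by omega
  -- similarities of Q inside Sp are isometries of Q
  have hsim : ∀ e : (Fin m ⊕ Fin m → F) ≃ₗ[F] (Fin m ⊕ Fin m → F),
      (∀ u v, stdB F m (e u) (e v) = stdB F m u v) → mkGL e ∈ Cfsg.Geo.quadSimilarityGroup Q →
      ∀ x, Q (e x) = Q x := by
    intro e he hmem x
    obtain ⟨c, hc⟩ := hmem
    simp only [mkGL_mulVec] at hc
    obtain ⟨a, ha⟩ : ∃ a : Fin m ⊕ Fin m → F, a ≠ 0 := by
      haveI : Nonempty (Fin m ⊕ Fin m) := ⟨Sum.inl ⟨0, by omega⟩⟩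
      exact exists_ne 0
    obtain ⟨b, hb⟩ : ∃ b, stdB F m a b ≠ 0 := by
      by_contra hcon
      push Not at hcon
      exact ha ((stdB_nondegenerate m).1 a hcon)
    have h1 := hqd.add (e a) (e b)
    rw [← map_add, hc, hc, hc, he, hqd.add] at h1
    have h2 : ((c : F) - 1) * stdB F m a b = 0 := by linear_combination h1
    rcases mul_eq_zero.1 h2 with h3 | h3
    · rw [hc, sub_eq_zero.1 h3, one_mul]
    · exact absurd h3 hb
  apply sp_maximal
  · obtain ⟨e, he, hne⟩ := exists_not_isom hqd (stdB_nondegenerate m) (stdB_isAlt m) hdim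
    exact ⟨e, he, fun h => hne (hsim e he h)⟩
  · intro M hM hMiso g hgM hgX
    refine cen_univ hqd (stdB_nondegenerate m) (stdB_isAlt m) hdim M ?_ hMiso g hgM ?_
    · intro e he heQ
      refine hM e he ⟨1, fun v => ?_⟩
      rw [mkGL_mulVec, heQ, Units.val_one, one_mul]
    · intro h
      apply hgX
      refine ⟨1, fun v => ?_⟩
      rw [mkGL_mulVec, h, Units.val_one, one_mul]

end Cfsg.Agent.S5652
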