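import Cfsg.Statements.S5648
import Cfsg.Agent.S5652
import Cfsg.Agent.Lib.Helper96Decomp

set_option autoImplicit false
open Cfsg

namespace Cfsg.Agent.S5648

open Module Cfsg.Agent.Lib.Helper95Basic Cfsg.Agent.Lib.Helper95Sp Cfsg.Agent.Lib.Helper95Form
  Cfsg.Agent.Lib.Helper95Cen Cfsg.Agent.Lib.Helper95SpStd Cfsg.Agent.Lib.Helper96Decomp

section abstract

variable {K V : Type*} [Field K] [AddCommGroup V] [Module K V]
variable {B : LinearMap.BilinForm K V} {t : ℕ}

/-- a decomposition into hyperbolic planes with chosen symplectic bases, over the field of order 2 -/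
structure Dat (B : LinearMap.BilinForm K V) (D : Fin t → Submodule K V) (e f : Fin t → V) :
    Prop where
  two : ∀ a : K, a = 0 ∨ a = 1
  alt : B.IsAlt
  he : ∀ i, e i ∈ D i
  hf : ∀ i, f i ∈ D i
  hef : ∀ i, B (e i) (f i) = 1
  hexp : ∀ i, ∀ y ∈ D i, y = B y (f i) • e i + B y (e i) • f i
  orth : ∀ i j, i ≠ j → ∀ u ∈ D i, ∀ v ∈ D j, B u v = 0
  span : iSup D = ⊤

/-- the local anisotropic form -/
def ql (B : LinearMap.BilinForm K V) (e f : Fin t → V) (i : Fin t) (x : V) : K :=
  (B x (f i)) ^ 2 + B x (f i) * B x (e i) + (B x (e i)) ^ 2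

/-- the quadratic form -/
def QQ (B : LinearMap.BilinForm K V) (e f : Fin t → V) (x : V) : K := ∑ i, ql B e f i x

variable {D : Fin t → Submodule K V} {e f : Fin t → V}

lemma Dat.two_eq (h : Dat B D e f) : (2 : K) = 0 := by
  rcases h.two 2 with h2 | h2
  · exact h2
  · exfalso
    have : (1 : K) = 0 := by linear_combination h2
    exact one_ne_zero this

lemma Dat.B_sum (h : Dat B D e f) (x y : V) :
    B x y = ∑ i, (B x (f i) * B y (e i) + B x (e i) * B y (f i)) := by
  have hy : y ∈ iSup D := by rw [h.span]; exact Submodule.mem_top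
  refine Submodule.iSup_induction D
    (motive := fun y => B x y = ∑ i, (B x (f i) * B y (e i) + B x (e i) * B y (f i))) hy ?_ ?_ ?_
  · intro j y hy
    rw [Finset.sum_eq_single j]
    · conv_lhs => rw [h.hexp j y hy]
      simp only [map_add, map_smul, smul_eq_mul]
      ring
    · intro i _ hij
      rw [h.orth j i (Ne.symm hij) y hy (e i) (h.he i), h.orth j i (Ne.symm hij) y hy (f i) (h.hf i)]
      ring
    · intro hj
      exact absurd (Finset.mem_univ j) hj
  · simp
  · intro y z hy hz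
    simp only [map_add, LinearMap.add_apply, hy, hz, ← Finset.sum_add_distrib]
    refine Finset.sum_congr rfl fun i _ => ?_
    ring

lemma Dat.QQ_add (h : Dat B D e f) (x y : V) : QQ B e f (x + y) = QQ B e f x + QQ B e f y + B x y := by
  rw [h.B_sum x y]
  simp only [QQ, ← Finset.sum_add_distrib]
  refine Finset.sum_congr rfl fun i _ => ?_
  simp only [ql, map_add, LinearMap.add_apply]
  linear_combination (B x (f i) * B y (f i) + B x (e i) * B y (e i)) * h.two_eq

lemma QQ_smul (c : K) (x : V) : QQ B e f (c • x) = c ^ 2 * QQ B e f x := by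
  simp only [QQ, Finset.mul_sum]
  refine Finset.sum_congr rfl fun i _ => ?_
  simp only [ql, map_smul, LinearMap.smul_apply, smul_eq_mul]
  ring

open Classical in
lemma Dat.ql_eq (h : Dat B D e f) (i : Fin t) (x : V) :
    ql B e f i x = if ∀ d ∈ D i, B x d = 0 then 0 else 1 := by
  split_ifs with hx
  · simp [ql, hx _ (h.he i), hx _ (h.hf i)]
  · have : ¬ (B x (f i) = 0 ∧ B x (e i) = 0) := by
      rintro ⟨h1, h2⟩
      apply hx
      intro d hd
      rw [h.hexp i d hd, map_add, map_smul, map_smul, h1, h2]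
      simp
    unfold ql
    rcases h.two (B x (f i)) with h1 | h1 <;> rcases h.two (B x (e i)) with h2 | h2
    · exact absurd ⟨h1, h2⟩ this
    · rw [h1, h2]; ring
    · rw [h1, h2]; ring
    · rw [h1, h2]
      linear_combination h.two_eq

/-- invariance under isometries permuting the members -/
lemma Dat.QQ_map (h : Dat B D e f) (g : V → V) (hg : ∀ x y, B (g x) (g y) = B x y)
    (σ : Equiv.Perm (Fin t)) (hσ : ∀ i, ∀ y ∈ D (σ i), ∃ x ∈ D i, g x = y)
    (hσ' : ∀ i, ∀ x ∈ D i, g x ∈ D (σ i)) (x : V) : QQ B e f (g x) = QQ B e f x := by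
  classical
  unfold QQ
  rw [← Equiv.sum_comp σ]
  refine Finset.sum_congr rfl fun i _ => ?_
  rw [h.ql_eq, h.ql_eq]
  have : (∀ d ∈ D (σ i), B (g x) d = 0) ↔ (∀ d ∈ D i, B x d = 0) := by
    constructor
    · intro h1 d hd
      rw [← hg]
      exact h1 _ (hσ' i d hd)
    · intro h1 d hd
      obtain ⟨d', hd', rfl⟩ := hσ i d hd
      rw [hg]
      exact h1 d' hd'
  simp only [this]

lemma Dat.QQ_mem (h : Dat B D e f) (i : Fin t) (a : V) (ha : a ∈ D i) (b : V) (hb : b ∈ D i)
    (hab : B a b ≠ 0) : QQ B e f a = 1 := by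
  classical
  unfold QQ
  rw [Finset.sum_eq_single i]
  · rw [h.ql_eq, if_neg]
    intro h1
    exact hab (h1 b hb)
  · intro j _ hji
    rw [h.ql_eq, if_pos]
    intro d hd
    exact h.orth i j (Ne.symm hji) a ha d hd
  · intro hi
    exact absurd (Finset.mem_univ i) hi

lemma exists_basis [FiniteDimensional K V] (two : ∀ a : K, a = 0 ∨ a = 1) (hA : B.IsAlt)
    (W : Submodule K V) (hW : finrank K W = 2) (hnd : ∀ w ∈ W, w ≠ 0 → ∃ x ∈ W, B w x ≠ 0) :
    ∃ e ∈ W, ∃ f ∈ W, B e f = 1 ∧ ∀ y ∈ W, y = B y f • e + B y e • f := by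
  have h2 : (2 : K) = 0 := by
    rcases two 2 with h2 | h2
    · exact h2
    · exfalso
      have : (1 : K) = 0 := by linear_combination h2
      exact one_ne_zero this
  obtain ⟨e, heW, he0⟩ : ∃ e ∈ W, e ≠ 0 := by
    by_contra hcon
    push Not at hcon
    have : W = ⊥ := (Submodule.eq_bot_iff W).2 hcon
    rw [this, finrank_bot] at hW
    omega
  obtain ⟨f, hfW, hef⟩ := hnd e heW he0
  have hef1 : B e f = 1 := (two _).resolve_left hef
  have hfe1 : B f e = 1 := by
    rw [alt_swap hA f e, hef1]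
    linear_combination (-1 : K) * h2
  refine ⟨e, heW, f, hfW, hef1, ?_⟩
  have hli : LinearIndependent K ![e, f] := by
    rw [LinearIndependent.pair_iff]
    intro a b hab
    have h3 := congrArg (fun z => B z f) hab
    have h4 := congrArg (fun z => B z e) hab
    simp only [map_add, map_smul, LinearMap.add_apply, LinearMap.smul_apply, smul_eq_mul, hA f,
      hA e, hef1, hfe1, map_zero, LinearMap.zero_apply] at h3 h4
    constructor
    · simpa using h3
    · simpa using h4
  have hspan : Submodule.span K (Set.range ![e, f]) = W := by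
    apply Submodule.eq_of_le_of_finrank_eq
    · rw [Submodule.span_le]
      rintro _ ⟨i, rfl⟩
      fin_cases i
      · exact heW
      · exact hfW
    · rw [finrank_span_eq_card hli, hW]
      simp
  intro y hy
  by_contra hne
  have hz0 : y - (B y f • e + B y e • f) ≠ 0 := sub_ne_zero.2 hne
  have hzW : y - (B y f • e + B y e • f) ∈ W :=
    W.sub_mem hy (W.add_mem (W.smul_mem _ heW) (W.smul_mem _ hfW))
  obtain ⟨x, hxW, hx⟩ := hnd _ hzW hz0
  apply hx
  rw [← hspan] at hxW
  refine Submodule.span_induction (p := fun x _ => B (y - (B y f • e + B y e • f)) x = 0)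
    ?_ ?_ ?_ ?_ hxW
  · rintro _ ⟨i, rfl⟩
    fin_cases i
    · simp only [map_sub, map_add, map_smul, LinearMap.sub_apply, LinearMap.add_apply,
        LinearMap.smul_apply, smul_eq_mul]
      show B y e - (B y f * B e e + B y e * B f e) = 0
      rw [hA e, hfe1]
      ring
    · simp only [map_sub, map_add, map_smul, LinearMap.sub_apply, LinearMap.add_apply,
        LinearMap.smul_apply, smul_eq_mul]
      show B y f - (B y f * B e f + B y e * B f f) = 0
      rw [hA f, hef1]
      ring
  · simp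
  · intro a b _ _ ha hb
    rw [map_add, ha, hb, add_zero]
  · intro c a _ ha
    rw [map_smul, ha, smul_zero]

lemma Dat.hfe (h : Dat B D e f) (i : Fin t) : B (f i) (e i) = 1 := by
  rw [alt_swap h.alt, h.hef]
  linear_combination (-1 : K) * h.two_eq

lemma Dat.QQ_three (h : Dat B D e f) (i0 i1 i2 : Fin t) (h01 : i0 ≠ i1) (h02 : i0 ≠ i2)
    (h12 : i1 ≠ i2) : QQ B e f (e i0 + e i1 + e i2) = 1 := by
  have hne : ∀ i, B (e i) (f i) ≠ 0 := fun i => by rw [h.hef]; exact one_ne_zero
  rw [h.QQ_add, h.QQ_add, h.QQ_mem i0 _ (h.he i0) _ (h.hf i0) (hne i0),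
    h.QQ_mem i1 _ (h.he i1) _ (h.hf i1) (hne i1), h.QQ_mem i2 _ (h.he i2) _ (h.hf i2) (hne i2),
    map_add, LinearMap.add_apply, h.orth i0 i1 h01 _ (h.he i0) _ (h.he i1),
    h.orth i0 i2 h02 _ (h.he i0) _ (h.he i2), h.orth i1 i2 h12 _ (h.he i1) _ (h.he i2)]
  linear_combination h.two_eq

lemma Dat.not_mem (h : Dat B D e f) (i0 i1 i2 : Fin t) (h01 : i0 ≠ i1) (h02 : i0 ≠ i2)
    (h12 : i1 ≠ i2) (j : Fin t) : f i0 + (e i0 + e i1 + e i2) ∉ D j := by
  intro hmem
  have h1 : B (f i0 + (e i0 + e i1 + e i2)) (f i1) = 1 := by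
    simp only [map_add, LinearMap.add_apply]
    rw [h.orth i0 i1 h01 _ (h.hf i0) _ (h.hf i1), h.orth i0 i1 h01 _ (h.he i0) _ (h.hf i1),
      h.orth i2 i1 (Ne.symm h12) _ (h.he i2) _ (h.hf i1), h.hef]
    ring
  have h2 : B (f i0 + (e i0 + e i1 + e i2)) (f i2) = 1 := by
    simp only [map_add, LinearMap.add_apply]
    rw [h.orth i0 i2 h02 _ (h.hf i0) _ (h.hf i2), h.orth i0 i2 h02 _ (h.he i0) _ (h.hf i2),
      h.orth i1 i2 h12 _ (h.he i1) _ (h.hf i2), h.hef]
    ring
  have hj1 : j = i1 := by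
    by_contra hne
    rw [h.orth j i1 hne _ hmem _ (h.hf i1)] at h1
    exact zero_ne_one h1
  have hj2 : j = i2 := by
    by_contra hne
    rw [h.orth j i2 hne _ hmem _ (h.hf i2)] at h2
    exact zero_ne_one h2
  exact h12 (hj1.symm.trans hj2)

end abstract

/-- Over the field with 2 elements and for m ≥ 7, let D be a decomposition of F^(2m) into t pairwise orthogonal non-degenerate 2-dimensional subspaces for the standard alternating form (t = m ≥ 2). Then the elements of Sp_2m(2) permuting the members of D form a subgroup that is not maximal: some subgroup lies strictly between it and Sp_2m(2). -/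
theorem result {F : Type*} [Field F] [Fintype F] (m : ℕ) (hm : 7 ≤ m) (hq : Fintype.card F = 2) {t : ℕ} (D : Fin t → Submodule F (Fin m ⊕ Fin m → F)) (hD : Cfsg.Geo.IsNondegenerateMDecomposition (Cfsg.sympForm m F) 2 D) : ∃ K : Subgroup (Matrix.GeneralLinearGroup (Fin m ⊕ Fin m) F), Cfsg.Geo.decompositionStabilizer D ⊓ Cfsg.spGL m F < K ∧ K < Cfsg.spGL m F := by
  classical
  have two : ∀ a : F, a = 0 ∨ a = 1 := by
    intro a
    by_contra hcon
    push Not at hcon
    have h3 : ({0, 1, a} : Finset F).card = 3 := by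
      rw [Finset.card_insert_of_notMem, Finset.card_insert_of_notMem, Finset.card_singleton]
      · simpa using hcon.2.symm
      · simp only [Finset.mem_insert, Finset.mem_singleton, not_or]
        exact ⟨zero_ne_one, hcon.1.symm⟩
    have := Finset.card_le_univ ({0, 1, a} : Finset F)
    omega
  have hex : ∀ i, ∃ e ∈ D i, ∃ f ∈ D i, stdB F m e f = 1 ∧
      ∀ y ∈ D i, y = stdB F m y f • e + stdB F m y e • f := fun i =>
    exists_basis two (stdB_isAlt m) (D i) (hD.decomp.finrank_eq i)
      (fun w hw hw0 => (hD.nondegenerate i w hw hw0).2)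
  choose e he f hf hef hexp using hex
  have hdat : Dat (stdB F m) D e f :=
    { two := two
      alt := stdB_isAlt m
      he := he
      hf := hf
      hef := hef
      hexp := hexp
      orth := fun i j hij u hu v hv => hD.orthogonal i j hij u hu v hv
      span := hD.decomp.iSup_eq_top }
  have hpol : ∀ u v, QuadraticMap.polar (QQ (stdB F m) e f) u v = Cfsg.sympForm m F u v := by
    intro u v
    rw [QuadraticMap.polar, hdat.QQ_add, stdB_apply]
    ring
  have hpol' : QuadraticMap.polar (QQ (stdB F m) e f) = Cfsg.sympForm m F := by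
    funext u v
    exact hpol u v
  have hQ : Cfsg.Geo.IsNondegenerateQuadraticForm (QQ (stdB F m) e f) :=
    { smul := QQ_smul
      polar_bilinear := by rw [hpol']; exact (sympForm_isSymplectic m).bilinear
      nondegenerate := by rw [hpol']; exact (sympForm_isSymplectic m).nondegenerate }
  have heven : ¬ Odd (Fintype.card F) := by rw [hq]; decide
  refine ⟨Cfsg.Geo.quadSimilarityGroup (QQ (stdB F m) e f) ⊓ Cfsg.spGL m F, ?_,
    (Cfsg.Agent.S5652.result m hm heven _ hQ hpol).1⟩
  have hqd : Cfsg.Agent.S5652.QD (stdB F m) (QQ (stdB F m) e f) :=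
    { two := hdat.two_eq
      perf := fun a => by
        rcases two a with rfl | rfl
        · exact ⟨0, by simp⟩
        · exact ⟨1, by simp⟩
      smul := QQ_smul
      add := hdat.QQ_add }
  have ht : 7 ≤ t := by
    have := card_le_mul hD.decomp
    rw [Fintype.card_sum, Fintype.card_fin] at this
    omega
  rw [lt_iff_le_not_ge]
  constructor
  · rintro g ⟨hg1, hg2⟩
    refine ⟨?_, hg2⟩
    obtain ⟨σ, hσ⟩ := exists_perm_of_mem_stab hg1
    refine ⟨1, fun v => ?_⟩
    rw [Units.val_one, one_mul]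
    have hg3 : ∀ x y, stdB F m ((g : Matrix (Fin m ⊕ Fin m) (Fin m ⊕ Fin m) F).mulVec x)
        ((g : Matrix (Fin m ⊕ Fin m) (Fin m ⊕ Fin m) F).mulVec y) = stdB F m x y :=
      fun x y => (mem_spGL_iff m g).1 hg2 x y
    refine hdat.QQ_map (fun x => (g : Matrix (Fin m ⊕ Fin m) (Fin m ⊕ Fin m) F).mulVec x) hg3 σ
      ?_ ?_ v
    · intro i y hy
      refine ⟨((g⁻¹ : GL _ F) : Matrix _ _ F).mulVec y, ?_, ?_⟩
      · rw [hσ i, mulVec_inv_mulVec]
        exact hy
      · exact mulVec_inv_mulVec g y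
    · intro i x hx
      exact (hσ i x).1 hx
  · intro hle
    set i0 : Fin t := ⟨0, by omega⟩ with hi0
    set i1 : Fin t := ⟨1, by omega⟩ with hi1
    set i2 : Fin t := ⟨2, by omega⟩ with hi2
    have h01 : i0 ≠ i1 := by simp [hi0, hi1]
    have h02 : i0 ≠ i2 := by simp [hi0, hi2]
    have h12 : i1 ≠ i2 := by simp [hi1, hi2]
    have hv := hdat.QQ_three i0 i1 i2 h01 h02 h12
    have hmem : mkGL (stv (stdB F m) (stdB_isAlt m) (e i0 + e i1 + e i2) 1) ∈
        Cfsg.Geo.quadSimilarityGroup (QQ (stdB F m) e f) ⊓ Cfsg.spGL m F := by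
      constructor
      · refine ⟨1, fun x => ?_⟩
        rw [mkGL_mulVec, hqd.stv_Q, hv, Units.val_one, one_mul]
        linear_combination (stdB F m x (e i0 + e i1 + e i2)) ^ 2 * hdat.two_eq
      · exact (mkGL_mem_spGL_iff m _).2 (stv_isometry _ _ _)
    obtain ⟨σ, hσ⟩ := exists_perm_of_mem_stab (hle hmem).1
    have h1 := (hσ i0 (f i0)).1 (hf i0)
    rw [mkGL_mulVec, stv_apply] at h1
    have h2 : stdB F m (f i0) (e i0 + e i1 + e i2) = 1 := by
      rw [map_add, map_add, hdat.hfe, hdat.orth i0 i1 h01 _ (hf i0) _ (he i1),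
        hdat.orth i0 i2 h02 _ (hf i0) _ (he i2)]
      ring
    rw [h2, one_mul, one_smul] at h1
    exact hdat.not_mem i0 i1 i2 h01 h02 h12 _ h1

end Cfsg.Agent.S5648
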