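import Cfsg.Statements.S0011
import Mathlib

set_option autoImplicit false
open Cfsg

namespace Cfsg.Agent.S0011

open Subgroup

/-- If the Frattini quotient of a finite group is nilpotent then the group is nilpotent. -/
theorem result {G : Type*} [Group G] [Finite G]
    (h : Group.IsNilpotent (G ⧸ frattini G)) : Group.IsNilpotent G := by
  have q : Group.IsNilpotent G ↔ ∀ (p : ℕ), Fact (Nat.Prime p) → ∀ (P : Sylow p G), (P : Subgroup G).Normal :=
    (Group.isNilpotent_of_finite_tfae (G := G)).out 0 3
  have q' : Group.IsNilpotent (G ⧸ frattini G) ↔ ∀ (p : ℕ), Fact (Nat.Prime p) →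
      ∀ (P : Sylow p (G ⧸ frattini G)), (P : Subgroup (G ⧸ frattini G)).Normal :=
    (Group.isNilpotent_of_finite_tfae (G := G ⧸ frattini G)).out 0 3
  rw [q]
  intro p hp P
  let π := QuotientGroup.mk' (frattini G)
  have hπ : Function.Surjective π := QuotientGroup.mk'_surjective _
  have h1 : ((P : Subgroup G).map π).Normal := by
    have := q'.mp h p hp (P.mapSurjective hπ)
    rwa [Sylow.coe_mapSurjective] at this
  have h2 : (((P : Subgroup G).map π).comap π).Normal := h1.comap π
  rw [comap_map_eq, QuotientGroup.ker_mk'] at h2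
  have h3 := Sylow.normalizer_sup_eq_top' P (N := (P : Subgroup G) ⊔ frattini G) le_sup_left
  have h4 : normalizer ((P : Subgroup G) : Set G) ⊔ frattini G = ⊤ := by
    rw [eq_top_iff, ← h3]
    exact sup_le le_sup_left (sup_le (le_normalizer.trans le_sup_left) le_sup_right)
  exact normalizer_eq_top_iff.mp (frattini_nongenerating h4)

end Cfsg.Agent.S0011
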