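import Cfsg.Statements.S0014
import Mathlib
import Cfsg.Agent.Lib.Helper21Basis
import Cfsg.Agent.Lib.Helper3PGroup

set_option autoImplicit false
open Cfsg
open scoped commutatorElement

namespace Cfsg.Agent.S0014

/-- Burnside's basis Theorem: in a finite p-group whose Frattini quotient has order p ^ n, every generating set contains n elements that already generate, and no set with fewer than n elements generates. -/
theorem result {G : Type*} [Group G] [Finite G] (p n : ℕ) [Fact p.Prime]
    (hG : IsPGroup p G) (hn : (frattini G).index = p ^ n) :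
    (∀ S : Finset G, Subgroup.closure (S : Set G) = ⊤ → ∃ T : Finset G, T ⊆ S ∧ T.card = n ∧ Subgroup.closure (T : Set G) = ⊤) ∧
    (∀ T : Finset G, Subgroup.closure (T : Set G) = ⊤ → n ≤ T.card) := by
  classical
  set π : G →* G ⧸ frattini G := QuotientGroup.mk' (frattini G) with hπ
  have hπs : Function.Surjective π := QuotientGroup.mk'_surjective _
  let C : CommGroup (G ⧸ frattini G) :=
    { (inferInstance : Group (G ⧸ frattini G)) with
      mul_comm := by
        intro a b
        obtain ⟨x, rfl⟩ := hπs a
        obtain ⟨y, rfl⟩ := hπs b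
        rw [← map_mul, ← map_mul]
        apply QuotientGroup.eq.mpr
        apply Cfsg.Agent.Lib.Helper3PGroup.commutator_le_frattini hG
        have e : (x * y)⁻¹ * (y * x) = ⁅y⁻¹, x⁻¹⁆ := by
          rw [commutatorElement_def]; group
        rw [e]
        exact Subgroup.commutator_mem_commutator (Subgroup.mem_top _) (Subgroup.mem_top _) }
  have hexp : ∀ a : G ⧸ frattini G, a ^ p = 1 := by
    intro a
    obtain ⟨x, rfl⟩ := hπs a
    rw [← map_pow]
    exact (QuotientGroup.eq_one_iff _).mpr (Cfsg.Agent.Lib.Helper3PGroup.pow_mem_frattini hG x)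
  have hcard : Nat.card (G ⧸ frattini G) = p ^ n := hn
  obtain ⟨hA, hB⟩ := @Cfsg.Agent.Lib.Helper21Basis.elem_ab (G ⧸ frattini G) C _ p n _ hexp hcard
  have hcl : ∀ T : Finset G, Subgroup.closure (T : Set G) = ⊤ ↔
      Subgroup.closure ((T.image π : Finset (G ⧸ frattini G)) : Set (G ⧸ frattini G)) = ⊤ := by
    intro T
    rw [Finset.coe_image, ← MonoidHom.map_closure]
    constructor
    · intro h
      rw [h]
      exact Subgroup.map_top_of_surjective π hπs
    · intro h
      apply frattini_nongenerating
      have h1 := Subgroup.comap_map_eq π (Subgroup.closure (T : Set G))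
      rw [h, Subgroup.comap_top, hπ, QuotientGroup.ker_mk'] at h1
      exact h1.symm
  refine ⟨?_, ?_⟩
  · intro S hS
    obtain ⟨T', hT'S, hT'c, hT'⟩ := hA (S.image π) ((hcl S).mp hS)
    have hex : ∀ q ∈ T', ∃ s ∈ S, π s = q := by
      intro q hq
      have := hT'S hq
      rw [Finset.mem_image] at this
      exact this
    let f : G ⧸ frattini G → G := fun q => if h : ∃ s ∈ S, π s = q then h.choose else 1
    have hf1 : ∀ q ∈ T', f q ∈ S ∧ π (f q) = q := by
      intro q hq
      have h := hex q hq
      simp only [f, dif_pos h]
      exact h.choose_spec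
    refine ⟨T'.image f, ?_, ?_, ?_⟩
    · intro x hx
      rw [Finset.mem_image] at hx
      obtain ⟨q, hq, rfl⟩ := hx
      exact (hf1 q hq).1
    · rw [Finset.card_image_of_injOn, hT'c]
      intro a ha b hb hab
      have h1 := (hf1 a ha).2
      have h2 := (hf1 b hb).2
      rw [← h1, ← h2, hab]
    · rw [hcl]
      have : (T'.image f).image π = T' := by
        rw [Finset.image_image]
        ext q
        rw [Finset.mem_image]
        constructor
        · rintro ⟨a, ha, rfl⟩
          rw [Function.comp_apply, (hf1 a ha).2]; exact ha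
        · intro hq
          exact ⟨q, hq, (hf1 q hq).2⟩
      rw [this]
      exact hT'
  · intro T hT
    exact (hB (T.image π) ((hcl T).mp hT)).trans Finset.card_image_le

end Cfsg.Agent.S0014
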