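import Cfsg.Statements.S0018
import Cfsg.Agent.Lib.Helper1Fitting
import Cfsg.Agent.Lib.Helper1Hall
import Cfsg.Agent.S0017

set_option autoImplicit false
open Cfsg

namespace Cfsg.Agent.S0018

open Subgroup Cfsg.Agent.Lib.Helper1Fitting

/-- A finite solvable group whose Sylow p-subgroups are abelian has p-length one: a Sylow p-subgroup together with the largest normal subgroup of order prime to p generates a normal subgroup. -/
theorem result {G : Type*} [Group G] [Finite G] [Group.IsSolvable G]
    (p : ℕ) [Fact p.Prime] (P : Sylow p G) (hP : IsMulCommutative P) :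
    ((P : Subgroup G) ⊔ Cfsg.pPrimeCore p G).Normal := by
  set N := Cfsg.pPrimeCore p G with hN
  have hNn : N.Normal := pPrimeCore_normal p
  let π := QuotientGroup.mk' N
  have hπ : Function.Surjective π := QuotientGroup.mk'_surjective N
  have h1 : Cfsg.pPrimeCore p (G ⧸ N) = ⊥ := by
    rw [eq_bot_iff]
    apply sSup_le
    rintro M ⟨hMn, hMc⟩
    have h2 : M.comap π ≤ N := by
      apply le_pPrimeCore (hMn.comap π)
      rw [Cfsg.Agent.Lib.Helper1Hall.card_comap_mk']
      exact Nat.Coprime.mul_left (card_pPrimeCore_coprime p) hMc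
    have h3 := Subgroup.map_mono (f := π) h2
    rw [map_comap_eq_self_of_surjective hπ] at h3
    refine h3.trans ?_
    rw [le_bot_iff, Subgroup.map_eq_bot_iff, QuotientGroup.ker_mk']
  have h2 := Cfsg.Agent.S0017.result (G := G ⧸ N) p h1
  have hOn : (Cfsg.pCore p (G ⧸ N)).Normal := pCore_normal p
  have h3 : Cfsg.pCore p (G ⧸ N) ≤ (P : Subgroup G).map π := by
    have := (pCore_isPGroup (G := G ⧸ N) p).le_sylow_of_normal (P.mapSurjective hπ)
    rwa [Sylow.coe_mapSurjective] at this
  have h4 : IsMulCommutative ((P : Subgroup G).map π) := inferInstance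
  have h5 : (P : Subgroup G).map π ≤ Cfsg.pCore p (G ⧸ N) :=
    ((le_centralizer_iff_isMulCommutative).mpr h4).trans ((centralizer_le h3).trans h2)
  have h6 : (P : Subgroup G).map π = Cfsg.pCore p (G ⧸ N) := le_antisymm h5 h3
  have h7 : (((P : Subgroup G).map π).comap π).Normal := by
    rw [h6]; exact hOn.comap π
  rwa [comap_map_eq, QuotientGroup.ker_mk'] at h7

end Cfsg.Agent.S0018
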