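import Cfsg.Statements.S0020
import Cfsg.Agent.S0003
import Cfsg.Agent.S0007

set_option autoImplicit false
open Pointwise
open Cfsg

namespace Cfsg.Agent.S0020

open Subgroup Cfsg.Agent.Lib.Helper1Basic

theorem index_inf_finset {G : Type*} [Group G] [Finite G] (f : ℕ → Subgroup G) (v : ℕ → ℕ)
    (s : Finset ℕ) (hs : ∀ q ∈ s, q.Prime) (hf : ∀ q ∈ s, (f q).index = q ^ v q) :
    (s.inf f).index = ∏ q ∈ s, q ^ v q := by
  induction s using Finset.induction_on with
  | empty => simp
  | insert a s ha ih =>
    have ih' := ih (fun q hq => hs q (Finset.mem_insert_of_mem hq))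
      (fun q hq => hf q (Finset.mem_insert_of_mem hq))
    rw [Finset.inf_insert, Finset.prod_insert ha]
    have hcop : (f a).index.Coprime (s.inf f).index := by
      rw [hf a (Finset.mem_insert_self a s), ih']
      apply Nat.Coprime.prod_right
      intro q hq
      apply Nat.Coprime.pow
      rw [Nat.coprime_primes (hs a (Finset.mem_insert_self a s)) (hs q (Finset.mem_insert_of_mem hq))]
      rintro rfl
      exact ha hq
    rw [(Cfsg.Agent.S0007.result (f a) (s.inf f) hcop).1, hf a (Finset.mem_insert_self a s), ih']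

theorem mul_eq_of_card {G : Type*} [Group G] [Finite G] {A B T : Subgroup G} (hA : A ≤ T) (hB : B ≤ T)
    (hcard : Nat.card A * Nat.card B = Nat.card T) (hcop : (Nat.card A).Coprime (Nat.card B)) :
    (A : Set G) * (B : Set G) = T := by
  have hc : IsComplement' (A.subgroupOf T) (B.subgroupOf T) := by
    apply isComplement'_of_coprime
    · rw [card_subgroupOf_of_le hA, card_subgroupOf_of_le hB, hcard]
    · rw [card_subgroupOf_of_le hA, card_subgroupOf_of_le hB]; exact hcop
  apply Set.Subset.antisymm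
  · rintro _ ⟨a, ha, b, hb, rfl⟩
    exact T.mul_mem (hA ha) (hB hb)
  · intro t ht
    have h1 : (⟨t, ht⟩ : T) ∈ ((A.subgroupOf T : Subgroup T) : Set T) * ((B.subgroupOf T : Subgroup T) : Set T) := by
      rw [hc.mul_eq]; trivial
    obtain ⟨a, ha, b, hb, hab⟩ := h1
    exact ⟨a, ha, b, hb, congrArg Subtype.val hab⟩

theorem pow_mul_prod_erase (v : ℕ → ℕ) (s : Finset ℕ) (q : ℕ) (h : q ∈ s ∨ v q = 0) :
    q ^ v q * ∏ r ∈ s.erase q, r ^ v r = ∏ r ∈ s, r ^ v r := by
  by_cases hq : q ∈ s
  · exact Finset.mul_prod_erase s (fun r => r ^ v r) hq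
  · rw [Finset.erase_eq_of_notMem hq, h.resolve_left hq, pow_zero, one_mul]

/-- A finite solvable group admits a Sylow system: Sylow subgroups, one for each prime, that pairwise permute as sets. -/
theorem result {G : Type*} [Group G] [Finite G] [Group.IsSolvable G] :
    ∃ S : (p : Nat.Primes) → Sylow (p : ℕ) G,
      ∀ p q : Nat.Primes, (S p : Set G) * (S q : Set G) = (S q : Set G) * (S p : Set G) := by
  set n := Nat.card G with hn
  have hn0 : n ≠ 0 := Nat.card_pos.ne'
  set v : ℕ → ℕ := fun q => n.factorization q with hv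
  have hex : ∀ q : ℕ, ∃ H : Subgroup G, q.Prime → H.index = q ^ v q := by
    intro q
    by_cases hq : q.Prime
    · obtain ⟨H, hH⟩ := Cfsg.Agent.S0003.result (G := G) (n / q ^ n.factorization q) (q ^ n.factorization q)
        (by rw [mul_comm]; exact (Nat.ordProj_mul_ordCompl_eq_self n q).symm)
        (Nat.Coprime.pow_right _ (Nat.coprime_ordCompl hq hn0).symm)
      refine ⟨H, fun _ => ?_⟩
      have h1 := H.card_mul_index
      rw [hH, ← hn] at h1
      have h2 := Nat.ordProj_mul_ordCompl_eq_self n q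
      rw [mul_comm] at h2
      have hpos : 0 < n / q ^ n.factorization q := by
        rcases Nat.eq_zero_or_pos (n / q ^ n.factorization q) with h0 | h0
        · rw [h0, zero_mul] at h2; exact absurd h2.symm hn0
        · exact h0
      exact Nat.eq_of_mul_eq_mul_left hpos (h1.trans h2.symm)
    · exact ⟨⊤, fun h => absurd h hq⟩
  choose f hf using hex
  set π := n.primeFactors with hπ
  have hπprime : ∀ q ∈ π, q.Prime := fun q hq => Nat.prime_of_mem_primeFactors hq
  have hprod : ∏ r ∈ π, r ^ v r = n := by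
    have := Nat.prod_factorization_pow_eq_self hn0
    rwa [Finsupp.prod, Nat.support_factorization] at this
  have hv0 : ∀ q, q ∈ π ∨ v q = 0 := by
    intro q
    by_cases hq : q ∈ π
    · exact Or.inl hq
    · right
      rw [hπ, ← Nat.support_factorization, Finsupp.mem_support_iff, not_not] at hq
      exact hq
  have hidx : ∀ s : Finset ℕ, s ⊆ π → (s.inf f).index = ∏ q ∈ s, q ^ v q := fun s hs =>
    index_inf_finset f v s (fun q hq => hπprime q (hs hq)) (fun q hq => hf q (hπprime q (hs hq)))
  have hcardS : ∀ p : ℕ, Nat.card ((π.erase p).inf f : Subgroup G) = p ^ v p := by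
    intro p
    have h1 := ((π.erase p).inf f).card_mul_index
    rw [hidx _ (Finset.erase_subset _ _), ← hn, ← hprod, ← pow_mul_prod_erase v π p (hv0 p)] at h1
    refine Nat.eq_of_mul_eq_mul_right (Finset.prod_pos fun r hr => ?_) h1
    exact pow_pos (hπprime r (Finset.mem_of_mem_erase hr)).pos _
  have hcardT : ∀ p q : ℕ, p ≠ q →
      Nat.card (((π.erase p).erase q).inf f : Subgroup G) = p ^ v p * q ^ v q := by
    intro p q hpq
    have h1 := (((π.erase p).erase q).inf f).card_mul_index
    rw [hidx _ ((Finset.erase_subset _ _).trans (Finset.erase_subset _ _)), ← hn, ← hprod,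
      ← pow_mul_prod_erase v π p (hv0 p), ← pow_mul_prod_erase v (π.erase p) q
        ((hv0 q).imp (fun h => Finset.mem_erase.mpr ⟨hpq.symm, h⟩) id), ← mul_assoc] at h1
    refine Nat.eq_of_mul_eq_mul_right (Finset.prod_pos fun r hr => ?_) h1
    exact pow_pos (hπprime r (Finset.mem_of_mem_erase (Finset.mem_of_mem_erase hr))).pos _
  refine ⟨fun p => haveI : Fact (p : ℕ).Prime := ⟨p.2⟩; Sylow.ofCard ((π.erase p).inf f) (hcardS p), ?_⟩
  intro p q
  by_cases hpq : (p : ℕ) = q
  · have : p = q := Subtype.ext hpq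
    subst this
    rfl
  change (((π.erase p).inf f : Subgroup G) : Set G) * (((π.erase q).inf f : Subgroup G) : Set G) =
    (((π.erase q).inf f : Subgroup G) : Set G) * (((π.erase p).inf f : Subgroup G) : Set G)
  have hcop : ((p : ℕ) ^ v p).Coprime ((q : ℕ) ^ v q) :=
    Nat.Coprime.pow _ _ ((Nat.coprime_primes p.2 q.2).mpr hpq)
  have hA : (π.erase p).inf f ≤ ((π.erase p).erase q).inf f := Finset.inf_mono (Finset.erase_subset _ _)
  have hB : (π.erase q).inf f ≤ ((π.erase p).erase q).inf f := by
    apply Finset.inf_mono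
    intro r hr
    rw [Finset.mem_erase, Finset.mem_erase] at hr
    exact Finset.mem_erase.mpr ⟨hr.1, hr.2.2⟩
  rw [mul_eq_of_card hA hB (by rw [hcardS, hcardS, hcardT _ _ hpq]) (by rw [hcardS, hcardS]; exact hcop),
    mul_eq_of_card hB hA (by rw [hcardS, hcardS, hcardT _ _ hpq, mul_comm])
      (by rw [hcardS, hcardS]; exact hcop.symm)]

end Cfsg.Agent.S0020
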