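import Cfsg.Statements.S0021
import Cfsg.Agent.S0006
import Cfsg.Agent.S0020

set_option autoImplicit false
open Pointwise
open Cfsg

namespace Cfsg.Agent.S0021

open Subgroup Cfsg.Agent.Lib.Helper1Basic

/-- the product of two permuting subgroups, as a subgroup -/
def mulSubgroup {G : Type*} [Group G] (A B : Subgroup G) (h : (A : Set G) * (B : Set G) = (B : Set G) * (A : Set G)) :
    Subgroup G where
  carrier := (A : Set G) * (B : Set G)
  one_mem' := ⟨1, A.one_mem, 1, B.one_mem, one_mul 1⟩
  mul_mem' := by
    rintro _ _ ⟨a, ha, b, hb, rfl⟩ ⟨a', ha', b', hb', rfl⟩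
    have h1 : b * a' ∈ (A : Set G) * (B : Set G) := h ▸ ⟨b, hb, a', ha', rfl⟩
    obtain ⟨a'', ha'', b'', hb'', e⟩ := h1
    refine ⟨a * a'', A.mul_mem ha ha'', b'' * b', B.mul_mem hb'' hb', ?_⟩
    simp only at e ⊢
    calc a * a'' * (b'' * b') = a * (a'' * b'') * b' := by group
      _ = a * (b * a') * b' := by rw [e]
      _ = a * b * (a' * b') := by group
  inv_mem' := by
    rintro _ ⟨a, ha, b, hb, rfl⟩
    rw [h]
    exact ⟨b⁻¹, B.inv_mem hb, a⁻¹, A.inv_mem ha, by simp⟩

theorem exists_prod {G : Type*} [Group G] [Finite G] (S' : ℕ → Subgroup G) (v : ℕ → ℕ)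
    (hperm : ∀ a b, (S' a : Set G) * (S' b : Set G) = (S' b : Set G) * (S' a : Set G))
    (T : Finset ℕ) (hT : ∀ q ∈ T, q.Prime) (hcard : ∀ q ∈ T, Nat.card (S' q) = q ^ v q) :
    ∃ J : Subgroup G, Nat.card J = ∏ q ∈ T, q ^ v q ∧
      ∀ a, (S' a : Set G) * (J : Set G) = (J : Set G) * (S' a : Set G) := by
  induction T using Finset.induction_on with
  | empty =>
    refine ⟨⊥, by simp, fun a => ?_⟩
    simp
  | insert b T hb ih =>
    obtain ⟨J, hJ, hJperm⟩ := ih (fun q hq => hT q (Finset.mem_insert_of_mem hq))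
      (fun q hq => hcard q (Finset.mem_insert_of_mem hq))
    refine ⟨mulSubgroup (S' b) J (hJperm b), ?_, fun a => ?_⟩
    · rw [Finset.prod_insert hb, ← hJ, ← hcard b (Finset.mem_insert_self b T)]
      apply Nat.le_antisymm
      · exact Set.natCard_mul_le
      · apply Nat.le_of_dvd Nat.card_pos
        apply Nat.Coprime.mul_dvd_of_dvd_of_dvd
        · rw [hcard b (Finset.mem_insert_self b T), hJ]
          apply Nat.Coprime.prod_right
          intro q hq
          apply Nat.Coprime.pow
          rw [Nat.coprime_primes (hT b (Finset.mem_insert_self b T)) (hT q (Finset.mem_insert_of_mem hq))]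
          rintro rfl
          exact hb hq
        · apply card_dvd_of_le
          intro x hx
          exact ⟨x, hx, 1, J.one_mem, mul_one x⟩
        · apply card_dvd_of_le
          intro x hx
          exact ⟨1, (S' b).one_mem, x, hx, one_mul x⟩
    · change (S' a : Set G) * ((S' b : Set G) * (J : Set G)) = ((S' b : Set G) * (J : Set G)) * (S' a : Set G)
      rw [← mul_assoc, hperm a b, mul_assoc, hJperm a, mul_assoc]

/-- A finite group with a family of pairwise permuting Sylow subgroups, one for each prime, is solvable (this direction rests on Burnside's two-prime Theorem). -/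
theorem result {G : Type*} [Group G] [Finite G]
    (S : (p : Nat.Primes) → Sylow (p : ℕ) G)
    (hS : ∀ p q : Nat.Primes, (S p : Set G) * (S q : Set G) = (S q : Set G) * (S p : Set G)) :
    Group.IsSolvable G := by
  apply Cfsg.Agent.S0006.result
  intro p hp
  set n := Nat.card G with hn
  have hn0 : n ≠ 0 := Nat.card_pos.ne'
  set v : ℕ → ℕ := fun q => n.factorization q with hv
  let S' : ℕ → Subgroup G := fun q => if h : q.Prime then (S ⟨q, h⟩ : Subgroup G) else ⊥
  have hperm : ∀ a b, (S' a : Set G) * (S' b : Set G) = (S' b : Set G) * (S' a : Set G) := by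
    intro a b
    by_cases ha : a.Prime
    · by_cases hb : b.Prime
      · simp only [S', dif_pos ha, dif_pos hb]
        exact hS ⟨a, ha⟩ ⟨b, hb⟩
      · simp [S', dif_neg hb]
    · simp [S', dif_neg ha]
  set π := n.primeFactors with hπ
  have hπprime : ∀ q ∈ π, q.Prime := fun q hq => Nat.prime_of_mem_primeFactors hq
  have hprod : ∏ r ∈ π, r ^ v r = n := by
    have := Nat.prod_factorization_pow_eq_self hn0
    rwa [Finsupp.prod, Nat.support_factorization] at this
  have hv0 : p ∈ π ∨ v p = 0 := by
    by_cases hq : p ∈ π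
    · exact Or.inl hq
    · right
      rw [hπ, ← Nat.support_factorization, Finsupp.mem_support_iff, not_not] at hq
      exact hq
  obtain ⟨J, hJ, -⟩ := exists_prod S' v hperm (π.erase p)
    (fun q hq => hπprime q (Finset.mem_of_mem_erase hq)) (by
      intro q hq
      have hqp := hπprime q (Finset.mem_of_mem_erase hq)
      have : Fact q.Prime := ⟨hqp⟩
      simp only [S', dif_pos hqp]
      exact (S ⟨q, hqp⟩).card_eq_multiplicity)
  refine ⟨J, ?_⟩
  have h1 := J.card_mul_index
  rw [hJ, ← hn, ← hprod, ← Cfsg.Agent.S0020.pow_mul_prod_erase v π p hv0, mul_comm] at h1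
  refine Nat.eq_of_mul_eq_mul_right (Finset.prod_pos fun r hr => ?_) h1
  exact pow_pos (hπprime r (Finset.mem_of_mem_erase hr)).pos _

end Cfsg.Agent.S0021
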