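import Cfsg.Statements.S0030
import Cfsg.Agent.Lib.Helper1Coprime

set_option autoImplicit false
open Cfsg

namespace Cfsg.Agent.S0030

open Subgroup Cfsg.Agent.Lib.Helper1Basic Cfsg.Agent.Lib.Helper1Coprime

theorem result {G : Type*} [Group G] [Finite G] (A K : Subgroup G) (hAK : A ≤ Subgroup.normalizer (K : Set G))
    (hcop : (Nat.card A).Coprime (Nat.card K)) (hsolv : Group.IsSolvable A ∨ Group.IsSolvable K)
    (X Y : Subgroup G) (hX : X ≤ K) (hY : Y ≤ K) (hXA : A ≤ Subgroup.normalizer (X : Set G)) (hYA : A ≤ Subgroup.normalizer (Y : Set G))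
    (hXY : ∀ k ∈ K, ∃ x ∈ X, ∃ y ∈ Y, k = x * y) (k : G) (hk : k ∈ K ⊓ Subgroup.centralizer (A : Set G)) :
    ∃ x ∈ X ⊓ Subgroup.centralizer (A : Set G), ∃ y ∈ Y ⊓ Subgroup.centralizer (A : Set G), k = x * y := by
  obtain ⟨x, hx, y, hy, rfl⟩ := hXY k hk.1
  have hDK : X ⊓ Y ≤ K := inf_le_left.trans hX
  have hDA : A ≤ normalizer ((X ⊓ Y : Subgroup G) : Set G) := by
    apply le_normalizer_of_forall_conj_mem
    intro a ha d hd
    exact ⟨conj_mem_of_le_normalizer hXA ha hd.1, conj_mem_of_le_normalizer hYA ha hd.2⟩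
  obtain ⟨u, hu, hc⟩ := exists_mul_mem_centralizer hDA
    (Nat.Coprime.of_dvd_right (card_dvd_of_le hDK) hcop)
    (hsolv.imp id (fun h => @isSolvable_of_le _ _ _ _ h hDK)) x⁻¹ (by
      intro a ha
      have hcomm : a * (x * y) = x * y * a := (mem_centralizer_iff.mp hk.2) a ha
      rw [inv_inv]
      refine ⟨X.mul_mem (conj_mem_of_le_normalizer hXA ha (X.inv_mem hx)) hx, ?_⟩
      have e : a * x⁻¹ * a⁻¹ * x = (a * y * a⁻¹) * y⁻¹ := by
        have h1 : a * y * a⁻¹ = a * x⁻¹ * a⁻¹ * (a * (x * y)) * a⁻¹ := by group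
        rw [h1, hcomm]; group
      rw [e]
      exact Y.mul_mem (conj_mem_of_le_normalizer hYA ha hy) (Y.inv_mem hy))
  have hc' : x * u⁻¹ ∈ centralizer (A : Set G) := by
    have := inv_mem hc
    simpa using this
  refine ⟨x * u⁻¹, ⟨X.mul_mem hx (X.inv_mem hu.1), hc'⟩, u * y, ⟨Y.mul_mem hu.2 hy, ?_⟩, by group⟩
  have e : u * y = (x * u⁻¹)⁻¹ * (x * y) := by group
  rw [e]
  exact (centralizer (A : Set G)).mul_mem ((centralizer (A : Set G)).inv_mem hc') hk.2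

end Cfsg.Agent.S0030
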