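import Cfsg.Statements.S0046
import Cfsg.Agent.Lib.Helper1FrobThm
import Cfsg.Agent.Lib.Helper2Conj

set_option autoImplicit false
open Pointwise
open Cfsg

namespace Cfsg.Agent.S0046

open Subgroup Cfsg.Agent.Lib.Helper2Conj

universe u

theorem exists_mem_normalizer_not_mem {G : Type*} [Group G] {D M : Subgroup G}
    (hM : Group.IsNilpotent M) (hD : D < M) :
    ∃ x ∈ M, x ∈ normalizer (D : Set G) ∧ x ∉ D := by
  have hnc : NormalizerCondition M := Group.normalizerCondition_of_isNilpotent
  have h1 : D.subgroupOf M < ⊤ := by
    rw [lt_top_iff_ne_top, Ne, subgroupOf_eq_top]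
    exact fun h => hD.not_ge h
  have h2 := hnc _ h1
  obtain ⟨x, hx1, hx2⟩ := SetLike.exists_of_lt h2
  rw [← subgroupOf_normalizer_eq hD.le] at hx1
  exact ⟨x, x.2, hx1, hx2⟩

theorem card_lt_of_lt {G : Type*} [Group G] [Finite G] {H K : Subgroup G} (h : H < K) :
    Nat.card H < Nat.card K := by
  apply lt_of_le_of_ne (card_le_of_le h.le)
  intro he
  exact h.ne (eq_of_le_of_card_ge h.le he.ge)

theorem isCoatom_conj_smul {G : Type*} [Group G] {M : Subgroup G} (hM : IsCoatom M) (g : G) :
    IsCoatom (MulAut.conj g • M) := by
  have h1 : MulAut.conj g • M = M.comap ((MulAut.conj g).symm : G ≃* G).toMonoidHom :=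
    map_equiv_eq_comap_symm (MulAut.conj g) M
  rw [h1]
  exact (isCoatom_comap ((MulAut.conj g).symm : G ≃* G)).2 hM

theorem schmidt_aux (n : ℕ) : ∀ (G : Type u) [Group G] [Finite G], Nat.card G = n →
    (∀ M : Subgroup G, IsCoatom M → Group.IsNilpotent M) → Group.IsSolvable G := by
  induction n using Nat.strong_induction_on with
  | _ n ih =>
    intro G _ _ hn h
    by_cases hN : ∃ N : Subgroup G, N.Normal ∧ N ≠ ⊥ ∧ N ≠ ⊤
    · obtain ⟨N, hNn, hNb, hNt⟩ := hN
      obtain ⟨M, hM, hNM⟩ := (eq_top_or_exists_le_coatom N).resolve_left hNt
      have hMn := h M hM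
      have hNnil : Group.IsNilpotent N :=
        Group.nilpotent_of_mulEquiv (subgroupOfEquivOfLe hNM)
      have hNsol : Group.IsSolvable N := inferInstance
      have hQ : Group.IsSolvable (G ⧸ N) := by
        apply ih (Nat.card (G ⧸ N)) _ (G ⧸ N) rfl
        · intro M' hM'
          have h1 := isCoatom_comap_of_surjective (QuotientGroup.mk'_surjective N) hM'
          have h2 := h _ h1
          have h3 : (M'.comap (QuotientGroup.mk' N)).map (QuotientGroup.mk' N) = M' :=
            map_comap_eq_self_of_surjective (QuotientGroup.mk'_surjective N) M'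
          rw [← h3]
          exact Group.nilpotent_of_surjective
            ((QuotientGroup.mk' N).subgroupMap (M'.comap (QuotientGroup.mk' N)))
            (MonoidHom.subgroupMap_surjective _ _)
        · rw [← hn, ← N.card_mul_index]
          have h1 : 1 < Nat.card N := by
            rw [Finite.one_lt_card_iff_nontrivial]
            exact (nontrivial_iff_ne_bot N).2 hNb
          have h2 : 0 < N.index := Nat.pos_of_ne_zero N.index_ne_zero_of_finite
          change N.index < _
          nlinarith
      exact Group.isSolvable_of_ker_le_range N.subtype (QuotientGroup.mk' N)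
        (by rw [QuotientGroup.ker_mk', range_subtype])
    · by_contra hns
      have hsimple : ∀ N : Subgroup G, N.Normal → N = ⊥ ∨ N = ⊤ := by
        intro N hNn
        by_contra hcon
        push Not at hcon
        exact hN ⟨N, hNn, hcon.1, hcon.2⟩
      have hnt : Nontrivial G := by
        by_contra hcon
        rw [not_nontrivial_iff_subsingleton] at hcon
        exact hns inferInstance
      have hcyc : ∀ x : G, zpowers x ≠ ⊤ := by
        intro x hx
        apply hns
        apply Group.isSolvable_of_comm
        intro a b
        have ha : a ∈ zpowers x := hx ▸ mem_top a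
        have hb : b ∈ zpowers x := hx ▸ mem_top b
        obtain ⟨i, rfl⟩ := mem_zpowers_iff.1 ha
        obtain ⟨j, rfl⟩ := mem_zpowers_iff.1 hb
        rw [← zpow_add, ← zpow_add, add_comm]
      have hMb : ∀ M : Subgroup G, IsCoatom M → M ≠ ⊥ := by
        rintro M hM rfl
        obtain ⟨x, hx⟩ := exists_ne (1 : G)
        apply hcyc x
        apply hM.2
        rw [bot_lt_iff_ne_bot]
        intro hz
        exact hx (zpowers_eq_bot.1 hz)
      have hself : ∀ M : Subgroup G, IsCoatom M → normalizer (M : Set G) = M := by
        intro M hM
        by_contra hne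
        have h1 : M < normalizer (M : Set G) := lt_of_le_of_ne le_normalizer (Ne.symm hne)
        have h2 := hM.2 _ h1
        rcases hsimple M (normalizer_eq_top_iff.1 h2) with h3 | h3
        · exact hMb M hM h3
        · exact hM.1 h3
      have hTI : ∀ k : ℕ, ∀ M L : Subgroup G, IsCoatom M → IsCoatom L → M ≠ L →
          Nat.card G - Nat.card (M ⊓ L : Subgroup G) = k → M ⊓ L = ⊥ := by
        intro k
        induction k using Nat.strong_induction_on with
        | _ k ihk =>
          intro M L hM hL hML hk
          by_contra hD
          have hDM : M ⊓ L < M := by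
            apply lt_of_le_of_ne inf_le_left
            intro he
            have h1 : M ≤ L := inf_eq_left.1 he
            rcases h1.eq_or_lt with h2 | h2
            · exact hML h2
            · exact hL.1 (hM.2 _ h2)
          have hDL : M ⊓ L < L := by
            apply lt_of_le_of_ne inf_le_right
            intro he
            have h1 : L ≤ M := inf_eq_right.1 he
            rcases h1.eq_or_lt with h2 | h2
            · exact hML h2.symm
            · exact hM.1 (hL.2 _ h2)
          have hNt : normalizer ((M ⊓ L : Subgroup G) : Set G) ≠ ⊤ := by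
            intro htop
            rcases hsimple _ (normalizer_eq_top_iff.1 htop) with h3 | h3
            · exact hD h3
            · exact hM.1 (top_le_iff.1 (h3 ▸ inf_le_left))
          obtain ⟨H, hH, hNH⟩ := (eq_top_or_exists_le_coatom _).resolve_left hNt
          have key : ∀ M' : Subgroup G, IsCoatom M' → M ⊓ L < M' → H = M' := by
            intro M' hM' hlt
            by_contra hne
            obtain ⟨x, hx1, hx2, hx3⟩ := exists_mem_normalizer_not_mem (h M' hM') hlt
            have h1 : M ⊓ L < H ⊓ M' := by
              apply lt_of_le_of_ne (le_inf (le_normalizer.trans hNH) hlt.le)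
              intro he
              apply hx3
              rw [he]
              exact mem_inf.2 ⟨hNH hx2, hx1⟩
            have h2 := card_lt_of_lt h1
            have h3 : Nat.card (H ⊓ M' : Subgroup G) ≤ Nat.card G := card_le_card_group _
            have h4 := ihk (Nat.card G - Nat.card (H ⊓ M' : Subgroup G)) (by omega) H M' hH hM' hne
              rfl
            rw [h4] at h1
            exact not_lt_bot h1
          exact hML ((key M hM hDM).symm.trans (key L hL hDL))
      obtain ⟨M, hM, -⟩ := (eq_top_or_exists_le_coatom (⊥ : Subgroup G)).resolve_left bot_ne_top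
      have hF : IsFrobeniusComplement M := by
        refine ⟨hMb M hM, hM.1, fun g hg => ?_⟩
        apply hTI _ M _ hM (isCoatom_conj_smul hM g) _ rfl
        intro he
        apply hg
        rw [← hself M hM]
        exact conj_smul_eq_iff_mem_normalizer.1 he.symm
      obtain ⟨N, -, hNn, hc⟩ := Cfsg.Agent.Lib.Helper1FrobThm.frobenius_theorem M hF
      rcases hsimple N hNn with h3 | h3
      · apply hM.1
        have := hc.sup_eq_top
        rwa [h3, bot_sup_eq] at this
      · apply hMb M hM
        have := hc.disjoint.eq_bot
        rwa [h3, top_inf_eq] at this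

/-- Schmidt's Theorem on minimal non-nilpotent groups: a finite group in which every maximal subgroup is nilpotent is solvable. -/
theorem result {G : Type*} [Group G] [Finite G]
    (h : ∀ M : Subgroup G, IsCoatom M → Group.IsNilpotent M) : Group.IsSolvable G := by
  exact schmidt_aux _ G rfl h

end Cfsg.Agent.S0046
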