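import Cfsg.Statements.S0047
import Mathlib.Tactic.Group

set_option autoImplicit false
open Cfsg
open scoped commutatorElement

namespace Cfsg.Agent.S0047

variable {G : Type*} [Group G]

theorem comm_right {a b₂ a₂ : G} (h : a * a₂ = a₂ * a) : ⁅a, b₂ * a₂⁆ = ⁅a, b₂⁆ := by
  rw [commutatorElement_mul_right_eq_mul_conj, commutatorElement_eq_one_iff_mul_comm.2 h]
  group

theorem comm_left {a₃ b₃ b₂ : G} (h : b₃ * b₂ = b₂ * b₃) : ⁅a₃ * b₃, b₂⁆ = ⁅a₃, b₂⁆ := by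
  rw [commutatorElement_mul_left_eq_conj_mul, commutatorElement_eq_one_iff_mul_comm.2 h]
  group

theorem key (A B : Subgroup G) [IsMulCommutative A] [IsMulCommutative B]
    (hAB : ∀ g : G, ∃ a ∈ A, ∃ b ∈ B, g = a * b)
    {a b a₁ b₁ : G} (ha : a ∈ A) (hb : b ∈ B) (ha₁ : a₁ ∈ A) (hb₁ : b₁ ∈ B) :
    (b₁ * a₁) * ⁅a, b⁆ * (b₁ * a₁)⁻¹ = (a₁ * b₁) * ⁅a, b⁆ * (a₁ * b₁)⁻¹ := by
  have hBA : ∀ g : G, ∃ b ∈ B, ∃ a ∈ A, g = b * a := by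
    intro g
    obtain ⟨a, ha, b, hb, h⟩ := hAB g⁻¹
    refine ⟨b⁻¹, inv_mem hb, a⁻¹, inv_mem ha, ?_⟩
    rw [← mul_inv_rev, ← h, inv_inv]
  obtain ⟨b₂, hb₂, a₂, ha₂, h1⟩ := hBA (a₁ * b * a₁⁻¹)
  obtain ⟨a₃, ha₃, b₃, hb₃, h2⟩ := hAB (b₁ * a * b₁⁻¹)
  have cA : ∀ {x y : G}, x ∈ A → y ∈ A → x * y = y * x := fun hx hy => setLike_mul_comm hx hy
  have cB : ∀ {x y : G}, x ∈ B → y ∈ B → x * y = y * x := fun hx hy => setLike_mul_comm hx hy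
  have e1 : a₁ * a * a₁⁻¹ = a := by rw [cA ha₁ ha, mul_inv_cancel_right]
  have e2 : b₁ * b₂ * b₁⁻¹ = b₂ := by rw [cB hb₁ hb₂, mul_inv_cancel_right]
  have e3 : b₁ * b * b₁⁻¹ = b := by rw [cB hb₁ hb, mul_inv_cancel_right]
  have e4 : a₁ * a₃ * a₁⁻¹ = a₃ := by rw [cA ha₁ ha₃, mul_inv_cancel_right]
  have L : (b₁ * a₁) * ⁅a, b⁆ * (b₁ * a₁)⁻¹ = ⁅a₃, b₂⁆ := by
    calc (b₁ * a₁) * ⁅a, b⁆ * (b₁ * a₁)⁻¹ = b₁ * (a₁ * ⁅a, b⁆ * a₁⁻¹) * b₁⁻¹ := by group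
      _ = b₁ * ⁅a, b₂ * a₂⁆ * b₁⁻¹ := by rw [conjugate_commutatorElement, e1, h1]
      _ = b₁ * ⁅a, b₂⁆ * b₁⁻¹ := by rw [comm_right (cA ha ha₂)]
      _ = ⁅a₃ * b₃, b₂⁆ := by rw [conjugate_commutatorElement, e2, h2]
      _ = ⁅a₃, b₂⁆ := comm_left (cB hb₃ hb₂)
  have R : (a₁ * b₁) * ⁅a, b⁆ * (a₁ * b₁)⁻¹ = ⁅a₃, b₂⁆ := by
    calc (a₁ * b₁) * ⁅a, b⁆ * (a₁ * b₁)⁻¹ = a₁ * (b₁ * ⁅a, b⁆ * b₁⁻¹) * a₁⁻¹ := by group
      _ = a₁ * ⁅a₃ * b₃, b⁆ * a₁⁻¹ := by rw [conjugate_commutatorElement, e3, h2]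
      _ = a₁ * ⁅a₃, b⁆ * a₁⁻¹ := by rw [comm_left (cB hb₃ hb)]
      _ = ⁅a₃, b₂ * a₂⁆ := by rw [conjugate_commutatorElement, e4, h1]
      _ = ⁅a₃, b₂⁆ := comm_right (cA ha₃ ha₂)
  rw [L, R]

theorem comm_gens (A B : Subgroup G) [IsMulCommutative A] [IsMulCommutative B]
    (hAB : ∀ g : G, ∃ a ∈ A, ∃ b ∈ B, g = a * b)
    {a b a₁ b₁ : G} (ha : a ∈ A) (hb : b ∈ B) (ha₁ : a₁ ∈ A) (hb₁ : b₁ ∈ B) :
    ⁅a, b⁆ * ⁅a₁, b₁⁆ = ⁅a₁, b₁⁆ * ⁅a, b⁆ := by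
  have h := key A B hAB ha hb (inv_mem ha₁) (inv_mem hb₁)
  have h2 : ⁅a₁, b₁⁆ * ⁅a, b⁆ * ⁅a₁, b₁⁆⁻¹ = ⁅a, b⁆ := by
    have h3 := congrArg (fun z => (b₁⁻¹ * a₁⁻¹)⁻¹ * z * (b₁⁻¹ * a₁⁻¹)) h
    have e1 : (b₁⁻¹ * a₁⁻¹)⁻¹ * ((b₁⁻¹ * a₁⁻¹) * ⁅a, b⁆ * (b₁⁻¹ * a₁⁻¹)⁻¹) * (b₁⁻¹ * a₁⁻¹) = ⁅a, b⁆ := by
      group
    have e2 : (b₁⁻¹ * a₁⁻¹)⁻¹ * ((a₁⁻¹ * b₁⁻¹) * ⁅a, b⁆ * (a₁⁻¹ * b₁⁻¹)⁻¹) * (b₁⁻¹ * a₁⁻¹)
        = ⁅a₁, b₁⁆ * ⁅a, b⁆ * ⁅a₁, b₁⁆⁻¹ := by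
      rw [commutatorElement_def a₁ b₁]; group
    rw [e1, e2] at h3
    exact h3.symm
  exact (mul_inv_eq_iff_eq_mul.1 h2).symm

/-- A finite group which is the product AB of two abelian subgroups A and B is solvable. -/
theorem result {G : Type*} [Group G] [Finite G] (A B : Subgroup G)
    [IsMulCommutative A] [IsMulCommutative B] (hAB : ∀ g : G, ∃ a ∈ A, ∃ b ∈ B, g = a * b) :
    Group.IsSolvable G := by
  have htop : A ⊔ B = ⊤ := by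
    rw [eq_top_iff]
    intro g _
    obtain ⟨a, ha, b, hb, rfl⟩ := hAB g
    exact mul_mem (Subgroup.mem_sup_left ha) (Subgroup.mem_sup_right hb)
  have hnormal : (⁅A, B⁆ : Subgroup G).Normal := by
    rw [← Subgroup.normalizer_eq_top_iff, eq_top_iff, ← htop]
    exact sup_le (Subgroup.normalizer_commutator_ge_left A B)
      (Subgroup.normalizer_commutator_ge_right A B)
  have hK : IsMulCommutative (⁅A, B⁆ : Subgroup G) := by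
    rw [Subgroup.commutator_def]
    apply Subgroup.isMulCommutative_closure
    rintro _ ⟨a, ha, b, hb, rfl⟩ _ ⟨a₁, ha₁, b₁, hb₁, rfl⟩
    exact comm_gens A B hAB ha hb ha₁ hb₁
  have hQ : IsMulCommutative (G ⧸ (⁅A, B⁆ : Subgroup G)) := by
    have cAB : ∀ {x y : G}, x ∈ A → y ∈ B →
        (x : G ⧸ (⁅A, B⁆ : Subgroup G)) * (y : G ⧸ (⁅A, B⁆ : Subgroup G)) = y * x := by
      intro x y hx hy
      rw [← commutatorElement_eq_one_iff_mul_comm]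
      have := map_commutatorElement (QuotientGroup.mk' (⁅A, B⁆ : Subgroup G)) x y
      rw [QuotientGroup.mk'_apply, QuotientGroup.mk'_apply, QuotientGroup.mk'_apply] at this
      rw [← this, QuotientGroup.eq_one_iff]
      exact Subgroup.commutator_mem_commutator hx hy
    have cA : ∀ {x y : G}, x ∈ A → y ∈ A →
        (x : G ⧸ (⁅A, B⁆ : Subgroup G)) * (y : G ⧸ (⁅A, B⁆ : Subgroup G)) = y * x := by
      intro x y hx hy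
      rw [← QuotientGroup.mk_mul, ← QuotientGroup.mk_mul, setLike_mul_comm hx hy]
    have cB : ∀ {x y : G}, x ∈ B → y ∈ B →
        (x : G ⧸ (⁅A, B⁆ : Subgroup G)) * (y : G ⧸ (⁅A, B⁆ : Subgroup G)) = y * x := by
      intro x y hx hy
      rw [← QuotientGroup.mk_mul, ← QuotientGroup.mk_mul, setLike_mul_comm hx hy]
    refine ⟨⟨fun x y => ?_⟩⟩
    obtain ⟨g, rfl⟩ := QuotientGroup.mk'_surjective _ x
    obtain ⟨g', rfl⟩ := QuotientGroup.mk'_surjective _ y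
    obtain ⟨a, ha, b, hb, rfl⟩ := hAB g
    obtain ⟨a', ha', b', hb', rfl⟩ := hAB g'
    simp only [QuotientGroup.mk'_apply, QuotientGroup.mk_mul]
    calc (a : G ⧸ (⁅A, B⁆ : Subgroup G)) * b * (a' * b') = a * (b * a') * b' := by group
      _ = a * (a' * b) * b' := by rw [cAB ha' hb]
      _ = (a * a') * (b * b') := by group
      _ = (a' * a) * (b' * b) := by rw [cA ha ha', cB hb hb']
      _ = a' * (a * b') * b := by group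
      _ = a' * (b' * a) * b := by rw [cAB ha hb']
      _ = a' * b' * (a * b) := by group
  have s1 : Group.IsSolvable (⁅A, B⁆ : Subgroup G) :=
    Group.isSolvable_of_comm (fun a b => mul_comm' a b)
  have s2 : Group.IsSolvable (G ⧸ (⁅A, B⁆ : Subgroup G)) :=
    Group.isSolvable_of_comm (fun a b => mul_comm' a b)
  exact (Group.isSolvable_iff_subgroup_quotient (⁅A, B⁆ : Subgroup G)).2 ⟨s1, s2⟩

end Cfsg.Agent.S0047
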