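import Cfsg.Statements.S0049
import Mathlib.GroupTheory.SchurZassenhaus

set_option autoImplicit false
open Cfsg

namespace Cfsg.Agent.S0049

/-- A prime divisor of the order of a finite group also divides the index of the Frattini subgroup. -/
theorem result {G : Type*} [Group G] [Finite G] (p : ℕ) (hp : p.Prime) (hdvd : p ∣ Nat.card G) :
    p ∣ (frattini G).index := by
  by_contra hnd
  haveI := Fact.mk hp
  let P : Sylow p (frattini G) := default
  have frattini_argument := Sylow.normalizer_sup_eq_top P
  have normalizer_P := frattini_nongenerating frattini_argument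
  have hnormal : (Subgroup.map (frattini G).subtype P).Normal :=
    Subgroup.normalizer_eq_top_iff.mp normalizer_P
  have hindex : (Subgroup.map (frattini G).subtype (P : Subgroup (frattini G))).index
      = (P : Subgroup (frattini G)).index * (frattini G).index := Subgroup.index_map_subtype _
  have hcard : Nat.card (Subgroup.map (frattini G).subtype (P : Subgroup (frattini G)))
      = Nat.card P := Subgroup.card_subtype _ _
  obtain ⟨k, hk⟩ := P.2.exists_card_eq
  have hcop : Nat.Coprime (Nat.card (Subgroup.map (frattini G).subtype (P : Subgroup (frattini G))))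
      (Subgroup.map (frattini G).subtype (P : Subgroup (frattini G))).index := by
    rw [hcard, hk, hindex]
    apply Nat.Coprime.pow_left
    rw [Nat.Prime.coprime_iff_not_dvd hp, Nat.Prime.dvd_mul hp]
    rintro (h | h)
    · exact P.not_dvd_index h
    · exact hnd h
  obtain ⟨H, hH⟩ := Subgroup.exists_right_complement'_of_coprime hcop
  have h1 : H ⊔ frattini G = ⊤ := by
    rw [eq_top_iff, ← hH.sup_eq_top, sup_comm]
    exact sup_le_sup_left (Subgroup.map_subtype_le _) H
  have h2 : H = ⊤ := frattini_nongenerating h1
  rw [h2, Subgroup.isComplement'_top_right] at hH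
  have h3 : (Subgroup.map (frattini G).subtype (P : Subgroup (frattini G))).index = Nat.card G := by
    rw [hH, Subgroup.index_bot]
  rw [← h3, hindex, Nat.Prime.dvd_mul hp] at hdvd
  rcases hdvd with h | h
  · exact P.not_dvd_index h
  · exact hnd h

end Cfsg.Agent.S0049
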