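import Cfsg.Statements.S0050
import Cfsg.Agent.S0004
import Cfsg.Agent.Lib.Helper2Conj

set_option autoImplicit false
open Pointwise
open Cfsg

namespace Cfsg.Agent.S0050

open Cfsg.Agent.Lib.Helper2Conj

/-- Frattini argument for Hall subgroups: if L is a solvable normal subgroup and H a subgroup of L of order coprime to its index in L, then L together with the normaliser of H generates the whole group. -/
theorem result {G : Type*} [Group G] [Finite G] (L : Subgroup G) [L.Normal] (hL : Group.IsSolvable L)
    (H : Subgroup G) (hHL : H ≤ L) (hHall : (Nat.card H).Coprime (H.relIndex L)) :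
    L ⊔ Subgroup.normalizer (H : Set G) = ⊤ := by
  rw [eq_top_iff]
  intro g _
  have hgL : MulAut.conj g • H ≤ L := by
    intro x hx
    rw [mem_conj_smul] at hx
    have h1 := hHL hx
    have h2 := (inferInstance : L.Normal).conj_mem _ h1 g
    simpa [mul_assoc] using h2
  have hc1 : Nat.card (H.subgroupOf L) = Nat.card H :=
    Nat.card_congr (Subgroup.subgroupOfEquivOfLe hHL).toEquiv
  have hc2 : Nat.card ((MulAut.conj g • H).subgroupOf L) = Nat.card H := by
    rw [Nat.card_congr (Subgroup.subgroupOfEquivOfLe hgL).toEquiv, card_conj_smul]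
  have hcard : Nat.card L = Nat.card H * H.relIndex L := by
    rw [← hc1]
    exact ((H.subgroupOf L).card_mul_index).symm
  obtain ⟨l, hl⟩ := Cfsg.Agent.S0004.result (G := L) _ _ hcard hHall _ _ hc1 hc2
  rw [Subgroup.conj_smul_subgroupOf hHL] at hl
  have hlL : MulAut.conj (l : G) • H ≤ L := by
    intro x hx
    rw [mem_conj_smul] at hx
    have h1 := hHL hx
    have h2 := (inferInstance : L.Normal).conj_mem _ h1 l
    simpa [mul_assoc] using h2
  have heq : MulAut.conj (l : G) • H = MulAut.conj g • H := by
    have := congrArg (Subgroup.map L.subtype) hl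
    rwa [Subgroup.subgroupOf_map_subtype, Subgroup.subgroupOf_map_subtype,
      inf_of_le_left hlL, inf_of_le_left hgL] at this
  have hn : (l : G)⁻¹ * g ∈ Subgroup.normalizer (H : Set G) := by
    rw [← conj_smul_eq_iff_mem_normalizer, ← conj_smul_smul, ← heq, conj_smul_smul,
      inv_mul_cancel, map_one, one_smul]
  have : g = (l : G) * ((l : G)⁻¹ * g) := by group
  rw [this]
  exact Subgroup.mul_mem _ (Subgroup.mem_sup_left l.2) (Subgroup.mem_sup_right hn)

end Cfsg.Agent.S0050
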