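import Cfsg.Statements.S0053

set_option autoImplicit false
open Cfsg

namespace Cfsg.Agent.S0053

/-- An abelian minimal normal subgroup N of a finite group is complemented exactly when N is not inside the Frattini subgroup. -/
theorem result {G : Type*} [Group G] [Finite G]
    (N : Subgroup G) [N.Normal] [IsMulCommutative N] (hN : N ≠ ⊥)
    (hmin : ∀ M : Subgroup G, M.Normal → M ≤ N → M = ⊥ ∨ M = N) :
    (∃ H : Subgroup G, Subgroup.IsComplement' N H) ↔ ¬ N ≤ frattini G := by
  constructor
  · rintro ⟨H, hH⟩ hle
    have h1 : H ⊔ frattini G = ⊤ := by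
      rw [eq_top_iff, ← hH.sup_eq_top, sup_comm]
      exact sup_le_sup_left hle H
    have h2 : H = ⊤ := frattini_nongenerating h1
    rw [h2, Subgroup.isComplement'_top_right] at hH
    exact hN hH
  · intro hle
    have : ∃ M : Subgroup G, IsCoatom M ∧ ¬ N ≤ M := by
      by_contra hcon
      push Not at hcon
      apply hle
      unfold frattini Order.radical
      exact le_iInf₂ (fun M hM => hcon M hM)
    obtain ⟨M, hM, hNM⟩ := this
    have hsup : N ⊔ M = ⊤ := by
      apply hM.2
      exact lt_of_le_of_ne le_sup_right (fun h => hNM (h ▸ le_sup_left))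
    have hnorm : (N ⊓ M).Normal := by
      rw [← Subgroup.normalizer_eq_top_iff, eq_top_iff, ← hsup]
      apply sup_le
      · rw [Subgroup.le_normalizer_iff]
        intro h hh k hk
        have hcomm : h * k = k * h := by
          have := mul_comm' (⟨h, hh⟩ : N) ⟨k, hk.1⟩
          exact congrArg Subtype.val this
        rw [hcomm, mul_inv_cancel_right]
        exact hk
      · rw [Subgroup.le_normalizer_iff]
        intro h hh k hk
        exact ⟨‹N.Normal›.conj_mem k hk.1 h, M.mul_mem (M.mul_mem hh hk.2) (M.inv_mem hh)⟩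
    have hbot : N ⊓ M = ⊥ := by
      rcases hmin _ hnorm inf_le_left with h | h
      · exact h
      · exact absurd (inf_eq_left.1 h) hNM
    refine ⟨M, Subgroup.isComplement'_of_disjoint_and_mul_eq_univ (disjoint_iff.2 hbot) ?_⟩
    rw [← Subgroup.normal_mul, hsup, Subgroup.coe_top]

end Cfsg.Agent.S0053
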