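import Cfsg.Statements.S0054
import Mathlib.GroupTheory.PGroup
import Mathlib.GroupTheory.Perm.Cycle.Type
import Mathlib.Tactic.Group

set_option autoImplicit false
open Cfsg

namespace Cfsg.Agent.S0054

/-- A regular normal subgroup of a finite 2-transitive group is elementary abelian: it is commutative and all its elements have order dividing one prime. -/
theorem result {G : Type*} [Group G] [Finite G]
    {X : Type*} [Nonempty X] [MulAction G X] (h2 : MulAction.IsMultiplyPretransitive G X 2)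
    (N : Subgroup G) [N.Normal] (htrans : MulAction.IsPretransitive N X) (hreg : ∀ x : X, MulAction.stabilizer N x = ⊥) :
    IsMulCommutative N ∧ ∃ p : ℕ, p.Prime ∧ ∀ n ∈ N, n ^ p = 1 := by
  rw [MulAction.is_two_pretransitive_iff] at h2
  obtain ⟨x₀⟩ := ‹Nonempty X›
  have hreg' : ∀ n ∈ N, n • x₀ = x₀ → n = 1 := by
    intro n hn h
    have h1 : (⟨n, hn⟩ : N) ∈ MulAction.stabilizer N x₀ := h
    rw [hreg, Subgroup.mem_bot] at h1
    exact congrArg Subtype.val h1
  have hconj : ∀ n ∈ N, n ≠ 1 → ∀ m ∈ N, m ≠ 1 → ∃ g : G, g * n * g⁻¹ = m := by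
    intro n hn hn1 m hm hm1
    obtain ⟨g, hg1, hg2⟩ := h2 (a := x₀) (b := n • x₀) (c := x₀) (d := m • x₀)
      (fun h => hn1 (hreg' n hn h.symm)) (fun h => hm1 (hreg' m hm h.symm))
    refine ⟨g, ?_⟩
    have h3 : (m⁻¹ * (g * n * g⁻¹)) • x₀ = x₀ := by
      have h4 : g⁻¹ • x₀ = x₀ := by rw [inv_smul_eq_iff, hg1]
      rw [mul_smul, mul_smul, mul_smul, h4, hg2, inv_smul_smul]
    have h5 := hreg' _ (mul_mem (inv_mem hm) (‹N.Normal›.conj_mem n hn g)) h3
    exact (inv_mul_eq_one.1 h5).symm
  by_cases hN : N = ⊥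
  · subst hN
    refine ⟨⟨⟨fun a b => Subsingleton.elim _ _⟩⟩, 2, Nat.prime_two, ?_⟩
    intro n hn
    rw [Subgroup.mem_bot] at hn
    rw [hn, one_pow]
  · have hcard : Nat.card N ≠ 1 := by rwa [Ne, Subgroup.card_eq_one]
    have hp := Nat.minFac_prime hcard
    set p := (Nat.card N).minFac with hpdef
    have := Fact.mk hp
    obtain ⟨w, hw⟩ := exists_prime_orderOf_dvd_card' (G := N) p (Nat.minFac_dvd _)
    have hw1 : (w : G) ≠ 1 := by
      intro h
      have : w = 1 := Subtype.ext h
      rw [this, orderOf_one] at hw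
      exact hp.one_lt.ne hw
    have hwp : (w : G) ^ p = 1 := by
      have := pow_orderOf_eq_one w
      rw [hw] at this
      exact_mod_cast congrArg Subtype.val this
    have hpow : ∀ n ∈ N, n ^ p = 1 := by
      intro n hn
      by_cases hn1 : n = 1
      · rw [hn1, one_pow]
      · obtain ⟨g, rfl⟩ := hconj w w.2 hw1 n hn hn1
        rw [conj_pow, hwp]
        group
    refine ⟨?_, p, hp, hpow⟩
    have hpg : IsPGroup p N := by
      intro n
      refine ⟨1, ?_⟩
      rw [pow_one]
      exact Subtype.ext (by simpa using hpow n n.2)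
    have hnt : Nontrivial N := (Subgroup.nontrivial_iff_ne_bot N).2 hN
    have hcn : Nontrivial (Subgroup.center N) := hpg.center_nontrivial
    obtain ⟨⟨z, hz⟩, hz1⟩ := exists_ne (1 : Subgroup.center N)
    have hz1' : (z : G) ≠ 1 := by
      intro h
      apply hz1
      exact Subtype.ext (Subtype.ext h)
    refine ⟨⟨fun a b => ?_⟩⟩
    by_cases ha : (a : G) = 1
    · have : a = 1 := Subtype.ext ha
      rw [this, one_mul, mul_one]
    · obtain ⟨g, hg⟩ := hconj z z.2 hz1' a a.2 ha
      have hb : g⁻¹ * (b : G) * g ∈ N := by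
        have := ‹N.Normal›.conj_mem b b.2 g⁻¹
        simpa using this
      have hc := Subgroup.mem_center_iff.1 hz ⟨_, hb⟩
      have hc' : g⁻¹ * (b : G) * g * z = z * (g⁻¹ * (b : G) * g) := congrArg Subtype.val hc
      apply Subtype.ext
      rw [Subgroup.coe_mul, Subgroup.coe_mul, ← hg]
      calc g * z * g⁻¹ * b = g * (z * (g⁻¹ * b * g)) * g⁻¹ := by group
        _ = g * (g⁻¹ * b * g * z) * g⁻¹ := by rw [hc']
        _ = b * (g * z * g⁻¹) := by group

end Cfsg.Agent.S0054
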