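import Cfsg.Statements.S0057
import Cfsg.Agent.S0055
import Cfsg.Agent.S0023
import Cfsg.Agent.S0026
import Cfsg.Agent.S0027
import Cfsg.Agent.Lib.Helper30SZ
import Cfsg.Agent.Lib.Helper56CD
import Cfsg.Agent.Lib.Helper60Core

set_option autoImplicit false
open Cfsg
open scoped Pointwise commutatorElement

namespace Cfsg.Agent.S0057

/-- Under coprime action, if the centraliser of A in K has prime index p in K then the commutator subgroup [K, A] has order exactly p. -/
theorem result {G : Type*} [Group G] [Finite G] (A K : Subgroup G) (hAK : A ≤ Subgroup.normalizer (K : Set G))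
    (hcop : (Nat.card A).Coprime (Nat.card K)) (hsolv : Group.IsSolvable A ∨ Group.IsSolvable K)
    (p : ℕ) (hp : p.Prime) (hidx : (K ⊓ Subgroup.centralizer (A : Set G)).relIndex K = p) :
    Nat.card (⁅K, A⁆ : Subgroup G) = p := by
  classical
  have : Fact p.Prime := ⟨hp⟩
  obtain ⟨P0, hPA⟩ := Cfsg.Agent.S0023.result A K hAK hcop hsolv p
  set P : Subgroup G := (P0 : Subgroup K).map K.subtype with hPdef
  set C : Subgroup G := K ⊓ Subgroup.centralizer (A : Set G) with hCdef
  have hPK : P ≤ K := Subgroup.map_subtype_le _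
  have hCK : C ≤ K := inf_le_left
  have hPp : IsPGroup p P := P0.isPGroup'.map _
  have hcardP : Nat.card P = p ^ (Nat.card K).factorization p := by
    rw [hPdef, Subgroup.card_map_of_injective K.subtype_injective]
    exact P0.card_eq_multiplicity
  have hcardK : Nat.card K = p * Nat.card C := by
    rw [← hidx, mul_comm]; exact (Cfsg.Agent.Lib.Helper60Core.card_mul_relIndex hCK).symm
  have hKpos : Nat.card K ≠ 0 := Nat.card_pos.ne'
  have hPC : ¬ P ≤ C := by
    intro h
    have h1 : Nat.card P ∣ Nat.card C := Subgroup.card_dvd_of_le h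
    have h2 : p ^ ((Nat.card K).factorization p + 1) ∣ Nat.card K := by
      rw [pow_succ, ← hcardP, hcardK, mul_comm]
      exact Nat.mul_dvd_mul_left _ h1
    exact Nat.pow_succ_factorization_not_dvd hKpos hp h2
  set D : Subgroup G := P ⊓ C with hDdef
  have hDP : D ≤ P := inf_le_left
  have hDA : D ≤ Subgroup.centralizer (A : Set G) := fun x hx => hx.2.2
  have hDeq : D = P ⊓ Subgroup.centralizer (A : Set G) := by
    apply le_antisymm
    · exact fun x hx => ⟨hx.1, hx.2.2⟩
    · exact fun x hx => ⟨hx.1, hPK hx.1, hx.2⟩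
  -- index of D in P is a nontrivial power of p
  have hrel : p ∣ D.relIndex P := by
    obtain ⟨n, hn⟩ := (IsPGroup.iff_card.mp hPp)
    have h1 : D.relIndex P ∣ p ^ n := by
      rw [← hn]; exact Subgroup.relIndex_dvd_card D P
    obtain ⟨m, _, hm⟩ := (Nat.dvd_prime_pow hp).mp h1
    rcases Nat.eq_zero_or_pos m with rfl | hm0
    · exfalso
      rw [pow_zero, Subgroup.relIndex_eq_one] at hm
      exact hPC (fun x hx => (hm hx).2)
    · rw [hm]; exact dvd_pow_self p hm0.ne'
  have hcardPD : Nat.card P = D.relIndex P * Nat.card D := by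
    rw [mul_comm]; exact (Cfsg.Agent.Lib.Helper60Core.card_mul_relIndex hDP).symm
  have hmulset := Cfsg.Agent.Lib.Helper56CD.card_mul_set P C
  have hsub : (P : Set G) * (C : Set G) ⊆ (K : Set G) := by
    rintro _ ⟨x, hx, c, hc, rfl⟩
    exact K.mul_mem (hPK hx) (hCK hc)
  have hDpos : 0 < Nat.card D := Nat.card_pos
  have hCpos : 0 < Nat.card C := Nat.card_pos
  have hle : Nat.card K ≤ Nat.card ((P : Set G) * (C : Set G) : Set G) := by
    obtain ⟨t, ht⟩ := hrel
    have ht0 : 0 < t := by
      rcases Nat.eq_zero_or_pos t with rfl | h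
      · rw [mul_zero] at ht; rw [ht, zero_mul] at hcardPD
        exact absurd hcardPD Nat.card_pos.ne'
      · exact h
    apply Nat.le_of_mul_le_mul_right _ hDpos
    rw [hmulset, hcardK, hcardPD, ht]
    nlinarith [Nat.mul_pos hCpos hDpos, Nat.mul_pos hp.pos (Nat.mul_pos hCpos hDpos)]
  have hKeq : (P : Set G) * (C : Set G) = (K : Set G) := by
    apply Set.eq_of_subset_of_ncard_le hsub _ (Set.toFinite _)
    rw [← Nat.card_coe_set_eq, ← Nat.card_coe_set_eq]
    exact hle
  have hrelp : D.relIndex P = p := by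
    have h1 : Nat.card ((P : Set G) * (C : Set G) : Set G) = Nat.card K := by rw [hKeq]; rfl
    rw [h1, hcardK, hcardPD] at hmulset
    have h2 : p * (Nat.card C * Nat.card D) = D.relIndex P * (Nat.card C * Nat.card D) := by
      calc p * (Nat.card C * Nat.card D) = p * Nat.card C * Nat.card D := by ring
        _ = D.relIndex P * Nat.card D * Nat.card C := hmulset
        _ = _ := by ring
    exact (Nat.eq_of_mul_eq_mul_right (Nat.mul_pos hCpos hDpos) h2).symm
  -- [K,A] = [P,A]
  have hLeq : ⁅K, A⁆ = ⁅P, A⁆ := by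
    apply le_antisymm _ (Subgroup.commutator_mono hPK le_rfl)
    rw [Subgroup.commutator_le]
    intro k hk a ha
    have hk' : k ∈ (P : Set G) * (C : Set G) := by rw [hKeq]; exact hk
    obtain ⟨x, hx, c, hc, rfl⟩ := hk'
    have hca : a * c = c * a := (Subgroup.mem_centralizer_iff.mp hc.2 a ha)
    have : ⁅x * c, a⁆ = ⁅x, a⁆ := by
      rw [commutatorElement_def, commutatorElement_def]
      calc x * c * a * (x * c)⁻¹ * a⁻¹ = x * (c * a) * c⁻¹ * x⁻¹ * a⁻¹ := by group
        _ = x * (a * c) * c⁻¹ * x⁻¹ * a⁻¹ := by rw [hca]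
        _ = _ := by group
    rw [this]
    exact Subgroup.commutator_mem_commutator hx ha
  rw [hLeq]
  set L : Subgroup G := ⁅P, A⁆ with hLdef
  have hcopP : (Nat.card A).Coprime (Nat.card P) := Cfsg.Agent.Lib.Helper30SZ.coprime_of_le hcop hPK
  have hsolvP := Cfsg.Agent.Lib.Helper30SZ.solvable_or_of_le hsolv hPK
  have hLP : L ≤ P := Cfsg.Agent.Lib.Helper30SZ.commutator_le_of_le_normalizer hPA
  have hLA : A ≤ Subgroup.normalizer (L : Set G) :=
    Cfsg.Agent.Lib.Helper30SZ.le_normalizer_commutator hPA Subgroup.le_normalizer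
  have hsup : L ⊔ D = P := by
    rw [hDeq]; exact Cfsg.Agent.S0026.result A P hPA hcopP hsolvP
  have hLL : ⁅L, A⁆ = L := Cfsg.Agent.S0027.result A P hPA hcopP hsolvP
  -- D normal in P
  have hDn : (D.subgroupOf P).Normal := by
    apply Subgroup.normal_of_index_eq_minFac_card
    have h1 : (D.subgroupOf P).index = p := hrelp
    rw [h1, hcardP]
    have : (Nat.card K).factorization p ≠ 0 := by
      intro h0
      rw [h0, pow_zero] at hcardP
      have : P = ⊥ := (Subgroup.card_eq_one).mp hcardP
      exact hPC (this ▸ bot_le)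
    exact (Nat.Prime.pow_minFac hp this).symm
  have hPD : P ≤ Subgroup.normalizer (D : Set G) :=
    (Subgroup.normal_subgroupOf_iff_le_normalizer hDP).mp hDn
  have hLD : L ≤ Subgroup.centralizer (D : Set G) := by
    rw [← Subgroup.commutator_eq_bot_iff_le_centralizer]
    apply Subgroup.commutator_commutator_eq_bot_of_rotate
    · have : ⁅A, D⁆ = ⊥ := by
        rw [Subgroup.commutator_comm, Subgroup.commutator_eq_bot_iff_le_centralizer]; exact hDA
      rw [this]; exact Subgroup.commutator_bot_left _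
    · have h1 : ⁅D, P⁆ ≤ D := Cfsg.Agent.Lib.Helper30SZ.commutator_le_of_le_normalizer hPD
      have h2 : ⁅D, A⁆ = ⊥ := by
        rw [Subgroup.commutator_eq_bot_iff_le_centralizer]; exact hDA
      exact le_bot_iff.mp (h2 ▸ Subgroup.commutator_mono h1 le_rfl)
  -- the map L → P/D
  let f : L →* (P ⧸ D.subgroupOf P) := (QuotientGroup.mk' (D.subgroupOf P)).comp (Subgroup.inclusion hLP)
  have hcardQ : Nat.card (P ⧸ D.subgroupOf P) = p := hrelp
  have : IsCyclic (P ⧸ D.subgroupOf P) := isCyclic_of_prime_card hcardQ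
  have hker : ∀ x : L, x ∈ f.ker ↔ (x : G) ∈ D := by
    intro x
    rw [MonoidHom.mem_ker]
    simp only [f, MonoidHom.comp_apply, QuotientGroup.mk'_apply, QuotientGroup.eq_one_iff,
      Subgroup.mem_subgroupOf, Subgroup.coe_inclusion]
  have : IsMulCommutative L := by
    apply MonoidHom.isMulCommutative_of_isCyclic_of_ker_le_center f
    intro x hx
    rw [Subgroup.mem_center_iff]
    intro y
    have h1 := (hker x).mp hx
    have h2 := Subgroup.mem_centralizer_iff.mp (hLD y.2) x h1
    exact Subtype.ext h2.symm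
  have h55 := (Cfsg.Agent.S0055.result A L hLA (Cfsg.Agent.Lib.Helper30SZ.coprime_of_le hcopP hLP)).1
  rw [hLL] at h55
  have hinj : Function.Injective f := by
    rw [← MonoidHom.ker_eq_bot_iff, eq_bot_iff]
    intro x hx
    have h1 := (hker x).mp hx
    have h2 : (x : G) ∈ (L ⊓ Subgroup.centralizer (A : Set G)) ⊓ L := ⟨⟨x.2, hDA h1⟩, x.2⟩
    rw [h55] at h2
    exact Subgroup.mem_bot.mpr (Subtype.ext (Subgroup.mem_bot.mp h2))
  have hdvd : Nat.card L ∣ p := by
    rw [← hcardQ]; exact Subgroup.card_dvd_of_injective f hinj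
  rcases (Nat.dvd_prime hp).mp hdvd with h1 | h1
  · exfalso
    have : L = ⊥ := Subgroup.card_eq_one.mp h1
    rw [this, bot_sup_eq] at hsup
    exact hPC (fun x hx => ((hsup ▸ hx : x ∈ D)).2)
  · exact h1

end Cfsg.Agent.S0057
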