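import Cfsg.Statements.S3743
-- import your own Cfsg.Agent.* helpers here

set_option autoImplicit false
open Cfsg

namespace Cfsg.Agent.S3743

open scoped Pointwise

theorem mem_norm_iff {G : Type*} [Group G] {K : Subgroup G} {g : G} :
    g ∈ Subgroup.normalizer (K : Set G) ↔ MulAut.conj g • K = K :=
  Subgroup.mem_normalizer_iff_map_conj_eq

theorem relIndex_sup {G : Type*} [Group G] (T N : Subgroup G)
    (h : T ≤ Subgroup.normalizer (N : Set G)) : N.relIndex (T ⊔ N) = N.relIndex T := by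
  letI := Subgroup.normal_subgroupOf_of_le_normalizer h
  letI := Subgroup.normal_subgroupOf_sup_of_le_normalizer h
  exact (Nat.card_congr (QuotientGroup.quotientInfEquivProdNormalizerQuotient T N h).toEquiv).symm

theorem card_sup_dvd {G : Type*} [Group G] (T N : Subgroup G)
    (h : T ≤ Subgroup.normalizer (N : Set G)) :
    Nat.card ↥(T ⊔ N) ∣ Nat.card T * Nat.card N := by
  have h1 := Subgroup.relIndex_mul_relIndex ⊥ N (T ⊔ N) bot_le le_sup_right
  rw [Subgroup.relIndex_bot_left, Subgroup.relIndex_bot_left, relIndex_sup T N h] at h1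
  rw [← h1, mul_comm]
  exact Nat.mul_dvd_mul_right (Subgroup.relIndex_dvd_card N T) _

theorem radical {G : Type*} [Group G] [Finite G] (P : Subgroup G → Prop)
    (hsup : ∀ T N : Subgroup G, T ≤ Subgroup.normalizer (N : Set G) → P T → P N → P (T ⊔ N))
    (hconj : ∀ (g : G) (N : Subgroup G), P N → P (MulAut.conj g • N))
    (K : Subgroup G) (hK : K.IsSubnormal) :
    ∀ N : Subgroup G, N ≤ K → K ≤ Subgroup.normalizer (N : Set G) → P N →
      ∃ M : Subgroup G, M.Normal ∧ P M ∧ N ≤ M := by
  induction hK with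
  | top =>
    intro N _ hN hP
    refine ⟨N, ?_, hP, le_rfl⟩
    exact Subgroup.normalizer_eq_top_iff.mp (top_le_iff.mp hN)
  | step H K hHK hKsub hnorm ih =>
    intro N hNH hHN hP
    have hKH : K ≤ Subgroup.normalizer (H : Set G) :=
      (Subgroup.normal_subgroupOf_iff_le_normalizer hHK).mp hnorm
    let S : Set (Subgroup G) := {M | M ≤ H ∧ H ≤ Subgroup.normalizer (M : Set G) ∧ P M}
    have hne : S.Nonempty := ⟨N, hNH, hHN, hP⟩
    obtain ⟨T, hT, hTmax⟩ := (Set.toFinite S).exists_maximal hne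
    have hall : ∀ M ∈ S, M ≤ T := by
      intro M hM
      have hmem : M ⊔ T ∈ S := by
        refine ⟨sup_le hM.1 hT.1, ?_, hsup M T (hM.1.trans hT.2.1) hM.2.2 hT.2.2⟩
        intro h hh
        exact Subgroup.normalizer_inf_normalizer_le_normalizer_sup M T ⟨hM.2.1 hh, hT.2.1 hh⟩
      exact le_sup_left.trans (hTmax hmem le_sup_right)
    have hSconj : ∀ M ∈ S, ∀ k ∈ K, MulAut.conj k • M ∈ S := by
      intro M hM k hk
      refine ⟨?_, ?_, hconj k M hM.2.2⟩
      · have h1 : MulAut.conj k • H = H := mem_norm_iff.mp (hKH hk)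
        rw [← h1]
        exact Subgroup.pointwise_smul_le_pointwise_smul_iff.mpr hM.1
      · intro a ha
        rw [mem_norm_iff, smul_smul, ← map_mul]
        have ha' : k⁻¹ * a * k ∈ H := (Subgroup.mem_normalizer_iff''.mp (hKH hk) a).mp ha
        have h2 : a * k = k * (k⁻¹ * a * k) := by group
        rw [h2, map_mul, ← smul_smul, mem_norm_iff.mp (hM.2.1 ha')]
    have hKT : K ≤ Subgroup.normalizer (T : Set G) := by
      intro k hk
      rw [mem_norm_iff]
      apply le_antisymm (hall _ (hSconj T hT k hk))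
      have := hall _ (hSconj T hT k⁻¹ (K.inv_mem hk))
      rw [map_inv, Subgroup.pointwise_smul_subset_iff, inv_inv] at this
      exact this
    obtain ⟨M, hMn, hMP, hTM⟩ := ih T (hT.1.trans hHK) hKT hT.2.2
    exact ⟨M, hMn, hMP, (hall N ⟨hNH, hHN, hP⟩).trans hTM⟩

theorem iSup_sylow_eq_top {G : Type*} [Group G] [Finite G] (P : ∀ p : Nat.Primes, Sylow (p : ℕ) G) :
    ⨆ p : Nat.Primes, (P p : Subgroup G) = ⊤ := by
  rw [← Subgroup.index_eq_one]
  by_contra hne
  obtain ⟨q, hq, hdvd⟩ := Nat.exists_prime_and_dvd hne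
  have : Fact q.Prime := ⟨hq⟩
  have hle : (P ⟨q, hq⟩ : Subgroup G) ≤ ⨆ p : Nat.Primes, (P p : Subgroup G) :=
    le_iSup (fun p : Nat.Primes => (P p : Subgroup G)) ⟨q, hq⟩
  exact (P ⟨q, hq⟩).not_dvd_index (hdvd.trans (Subgroup.index_dvd_of_le hle))

theorem le_normalizer_map_subtype {G : Type*} [Group G] (A : Subgroup G) (Q : Subgroup A)
    (hQ : Q.Normal) : A ≤ Subgroup.normalizer ((Q.map A.subtype : Subgroup G) : Set G) := by
  intro a ha
  rw [Subgroup.mem_normalizer_iff]
  intro h
  constructor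
  · rintro ⟨y, hy, rfl⟩
    exact ⟨⟨a, ha⟩ * y * ⟨a, ha⟩⁻¹, hQ.conj_mem y hy _, rfl⟩
  · rintro ⟨y, hy, hyh⟩
    refine ⟨⟨a, ha⟩⁻¹ * y * ⟨a, ha⟩, ?_, ?_⟩
    · have := hQ.conj_mem y hy (⟨a, ha⟩⁻¹)
      simpa using this
    · simp only [Subgroup.subtype_apply, Subgroup.coe_mul, Subgroup.coe_inv] at hyh ⊢
      rw [hyh]; group

/-- In a finite group G, every subnormal nilpotent subgroup lies in the Fitting subgroup F(G), and, for a set of primes π, every subnormal subgroup all of whose prime divisors lie in π lies in O_π(G). -/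
theorem result {G : Type*} [Group G] [Finite G] (A : Subgroup G) (hA : A.IsSubnormal) : (Group.IsNilpotent A → A ≤ Cfsg.fittingSubgroup G) ∧ ∀ π : Set ℕ, (∀ p : ℕ, p.Prime → p ∣ Nat.card A → p ∈ π) → A ≤ Cfsg.piCore π G := by
  classical
  constructor
  · intro hnil
    have hP : ∀ p : Nat.Primes, Nonempty (Sylow (p : ℕ) A) := fun p => inferInstance
    let P : ∀ p : Nat.Primes, Sylow (p : ℕ) A := fun p => Classical.choice (hP p)
    have htop := iSup_sylow_eq_top P
    have h1 : A = (⨆ p : Nat.Primes, (P p : Subgroup A)).map A.subtype := by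
      rw [htop, ← MonoidHom.range_eq_map, Subgroup.range_subtype]
    rw [h1, Subgroup.map_iSup]
    apply iSup_le
    intro p
    have : Fact (p : ℕ).Prime := ⟨p.2⟩
    have hnorm : (P p : Subgroup A).Normal := inferInstance
    obtain ⟨M, hMn, hMP, hle⟩ := radical (fun N : Subgroup G => IsPGroup (p : ℕ) N)
      (fun T N h hT hN => hT.to_sup_of_normal_right' hN h)
      (fun g N hN => hN.map _) A hA ((P p : Subgroup A).map A.subtype)
      (Subgroup.map_subtype_le _) (le_normalizer_map_subtype A _ hnorm) ((P p).2.map A.subtype)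
    exact hle.trans (le_sSup ⟨hMn, hMP.isNilpotent⟩)
  · intro π hπ
    obtain ⟨M, hMn, hMP, hle⟩ := radical
      (fun N : Subgroup G => ∀ p : ℕ, p.Prime → p ∣ Nat.card N → p ∈ π)
      (by
        intro T N h hT hN p hp hd
        rcases (Nat.Prime.dvd_mul hp).mp (hd.trans (card_sup_dvd T N h)) with h | h
        · exact hT p hp h
        · exact hN p hp h)
      (by
        intro g N hN p hp hd
        apply hN p hp
        rwa [Nat.card_congr (Subgroup.equivSMul (MulAut.conj g) N).toEquiv])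
      A hA A le_rfl Subgroup.le_normalizer hπ
    exact hle.trans (le_sSup ⟨hMn, hMP⟩)

end Cfsg.Agent.S3743
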