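import Cfsg.Statements.S0070
import Cfsg.Agent.Lib.Helper2Frattini
import Cfsg.Agent.Lib.Helper28Fitting

set_option autoImplicit false
open Cfsg

namespace Cfsg.Agent.S0070

open Cfsg.Agent.Lib.Helper28Fitting

/-- The Fitting subgroup commutes with passing to the Frattini quotient: the Fitting subgroup of G modulo its Frattini subgroup is the image of the Fitting subgroup of G. -/
theorem result {G : Type*} [Group G] [Finite G] :
    Cfsg.fittingSubgroup (G ⧸ frattini G) = (Cfsg.fittingSubgroup G).map (QuotientGroup.mk' (frattini G)) := by
  have hs : Function.Surjective (QuotientGroup.mk' (frattini G)) := QuotientGroup.mk'_surjective _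
  apply le_antisymm
  · set M : Subgroup G := (Cfsg.fittingSubgroup (G ⧸ frattini G)).comap (QuotientGroup.mk' (frattini G))
      with hM
    have hFn : (Cfsg.fittingSubgroup (G ⧸ frattini G)).Normal := fitting_normal
    have hMn : M.Normal := hFn.comap _
    have hmap : M.map (QuotientGroup.mk' (frattini G)) = Cfsg.fittingSubgroup (G ⧸ frattini G) :=
      Subgroup.map_comap_eq_self_of_surjective hs _
    have hΦ : frattini G ≤ M := by
      have := (QuotientGroup.mk' (frattini G)).ker_le_comap (Cfsg.fittingSubgroup (G ⧸ frattini G))
      rwa [QuotientGroup.ker_mk'] at this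
    have hnil : Group.IsNilpotent (M.map (QuotientGroup.mk' (frattini G))) := by
      rw [hmap]; exact fitting_isNilpotent
    have hMnil : Group.IsNilpotent M :=
      Cfsg.Agent.Lib.Helper2Frattini.isNilpotent_of_map_mk_frattini hΦ hnil
    rw [← hmap]
    exact Subgroup.map_mono (le_fitting hMn hMnil)
  · apply le_fitting
    · exact (fitting_normal (G := G)).map _ hs
    · have := fitting_isNilpotent (G := G)
      exact Group.nilpotent_of_surjective
        ((QuotientGroup.mk' (frattini G)).subgroupMap (Cfsg.fittingSubgroup G))
        (MonoidHom.subgroupMap_surjective _ _)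

end Cfsg.Agent.S0070
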