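import Cfsg.Statements.S0075
import Cfsg.Agent.Lib.Helper2Residual

set_option autoImplicit false
open Cfsg
open scoped commutatorElement

namespace Cfsg.Agent.S0075

/-- For an abelian Sylow p-subgroup T, its intersection with the subgroup generated by the elements of order prime to p is the commutator of T with its normalizer. -/
theorem result {G : Type*} [Group G] [Finite G] {p : ℕ} [Fact p.Prime] (T : Sylow p G) (hT : IsMulCommutative T) : (T : Subgroup G) ⊓ Cfsg.pResidual p G = ⁅(T : Subgroup G), Subgroup.normalizer (T : Set G)⁆ := by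
  apply le_antisymm
  · refine (Cfsg.Agent.Lib.Helper2Residual.sylow_inf_pResidual_le_focal T).trans ?_
    rw [Subgroup.focalSubgroup_def, Subgroup.closure_le]
    rintro g ⟨hgP, x, hx, u, rfl⟩
    have hy : (u⁻¹)⁻¹ * x⁻¹ * u⁻¹ ∈ T := by
      have : (u⁻¹)⁻¹ * x⁻¹ * u⁻¹ = x⁻¹ * ⁅x, u⁆ := by
        rw [commutatorElement_def]; group
      rw [this]
      exact mul_mem (inv_mem hx) hgP
    obtain ⟨n, hn, hn2⟩ := T.conj_eq_normalizer_conj_of_mem x⁻¹ u⁻¹ (inv_mem hx) hy
    have : ⁅x, u⁆ = ⁅x, n⁻¹⁆ := by
      rw [commutatorElement_def, commutatorElement_def, mul_assoc, mul_assoc, mul_assoc, mul_assoc]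
      congr 1
      rw [inv_inv] at hn2 ⊢
      rw [← mul_assoc, ← mul_assoc, hn2]
    rw [this]
    exact Subgroup.commutator_mem_commutator hx (inv_mem hn)
  · apply le_inf
    · rw [Subgroup.commutator_le]
      intro x hx n hn
      rw [commutatorElement_def, mul_assoc, mul_assoc]
      refine mul_mem hx ?_
      rw [← mul_assoc]
      exact (Subgroup.mem_normalizer_iff.1 hn x⁻¹).1 (inv_mem hx)
    · exact (Subgroup.commutator_mono le_top le_top).trans
        (Cfsg.Agent.Lib.Helper2Residual.commutator_le_pResidual_of_abelian_sylow T)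

end Cfsg.Agent.S0075
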