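import Cfsg.Statements.S0079
import Cfsg.Agent.Lib.Helper2TateC

set_option autoImplicit false
open Cfsg

namespace Cfsg.Agent.S0079

open Subgroup Cfsg.Agent.Lib.Helper2TateC Cfsg.Agent.Lib.Helper2Residual

/-- A nilpotent Hall subgroup has a normal complement exactly when elements of it that are conjugate in the whole group are already conjugate inside it. -/
theorem result {G : Type*} [Group G] [Finite G] (H : Subgroup G) (hH : Group.IsNilpotent H) (hHall : Nat.Coprime (Nat.card H) H.index) : (∃ N : Subgroup G, N.Normal ∧ N.IsComplement' H) ↔ ∀ x ∈ H, ∀ y ∈ H, (∃ g : G, g * x * g⁻¹ = y) → ∃ h ∈ H, h * x * h⁻¹ = y := by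
  constructor
  · rintro ⟨N, hN, hc⟩ x hx y hy ⟨g, rfl⟩
    obtain ⟨⟨n, h⟩, hnh⟩ := hc.2 g
    simp only at hnh
    refine ⟨h, h.2, ?_⟩
    have h1 : (g * x * g⁻¹) * ((h : G) * x * (h : G)⁻¹)⁻¹ ∈ N ⊓ H := by
      refine mem_inf.2 ⟨?_, mul_mem hy (inv_mem (mul_mem (mul_mem h.2 hx) (inv_mem h.2)))⟩
      have e : (g * x * g⁻¹) * ((h : G) * x * (h : G)⁻¹)⁻¹
          = (n : G) * (((h : G) * x * (h : G)⁻¹) * (n : G)⁻¹ * ((h : G) * x * (h : G)⁻¹)⁻¹) := by
        rw [← hnh]; group
      rw [e]
      exact mul_mem n.2 (hN.conj_mem _ (inv_mem n.2) _)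
    rw [hc.disjoint.eq_bot, mem_bot] at h1
    exact (mul_inv_eq_one.1 h1).symm
  · intro hfus
    have key : ∀ p : ℕ, p.Prime → p ∣ Nat.card H → (Nat.card (Cfsg.pResidual p G)).Coprime p := by
      intro p hp hpH
      have : Fact p.Prime := ⟨hp⟩
      have PH : Sylow p H := default
      have hpg : IsPGroup p ((PH : Subgroup H).map H.subtype) := PH.2.map _
      have hidx : ¬ p ∣ ((PH : Subgroup H).map H.subtype).index := by
        rw [index_map_subtype]
        apply Nat.Prime.not_dvd_mul hp PH.not_dvd_index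
        intro hd
        have := Nat.dvd_gcd hpH hd
        rw [hHall.gcd_eq_one] at this
        exact hp.one_lt.ne' (Nat.dvd_one.1 this)
      apply coprime_card_pResidual_of_control (hpg.toSylow hidx)
      rintro _ ⟨x, hx, rfl⟩ g ⟨y, hy, hyx⟩
      obtain ⟨h, hh, hh2⟩ := hfus x x.2 y y.2 ⟨g, hyx.symm⟩
      obtain ⟨u, hu, hu2⟩ := exists_conj_in_sylow_of_nilpotent PH x hx ⟨h, hh⟩
      refine ⟨u, ⟨u, hu, rfl⟩, ?_⟩
      have h3 := congrArg Subtype.val hu2
      simp only [coe_mul, coe_inv] at h3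
      rw [← hyx]
      change (y : G) = u * x * (u : G)⁻¹
      rw [← h3, hh2]
    let N : Subgroup G := ⨅ p : {p : ℕ // p.Prime ∧ p ∣ Nat.card H}, Cfsg.pResidual p G
    have hNn : N.Normal := normal_iInf_normal (fun p => pResidual_normal _)
    have hNle : ∀ p : ℕ, p.Prime → p ∣ Nat.card H → N ≤ Cfsg.pResidual p G :=
      fun p hp hpH => iInf_le (fun p : {p : ℕ // p.Prime ∧ p ∣ Nat.card H} =>
        Cfsg.pResidual (p : ℕ) G) ⟨p, hp, hpH⟩
    have hcop : (Nat.card N).Coprime (Nat.card H) := by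
      apply Nat.coprime_of_dvd
      intro q hq hqN hqH
      have h1 := key q hq hqH
      have h2 : q ∣ Nat.card (Cfsg.pResidual q G) := hqN.trans (card_dvd_of_le (hNle q hq hqH))
      have := Nat.dvd_gcd h2 dvd_rfl
      rw [h1.gcd_eq_one] at this
      exact hq.one_lt.ne' (Nat.dvd_one.1 this)
    have hsup : N ⊔ H = ⊤ := by
      rw [← index_eq_one]
      by_contra hne
      obtain ⟨q, hq, hqd⟩ := Nat.exists_prime_and_dvd hne
      have : Fact q.Prime := ⟨hq⟩
      have hqH : ¬ q ∣ Nat.card H := by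
        intro hd
        have := Nat.dvd_gcd hd (hqd.trans (index_dvd_of_le le_sup_right))
        rw [hHall.gcd_eq_one] at this
        exact hq.one_lt.ne' (Nat.dvd_one.1 this)
      have Q : Sylow q G := default
      have hQN : (Q : Subgroup G) ≤ N := by
        intro x hx
        rw [mem_iInf]
        rintro ⟨p, hp, hpH⟩
        apply mem_pResidual_of_coprime
        obtain ⟨j, hj⟩ := (Q.2 ⟨x, hx⟩)
        have hj' : x ^ q ^ j = 1 := by
          have := congrArg Subtype.val hj
          simpa using this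
        apply Nat.Coprime.coprime_dvd_left (orderOf_dvd_of_pow_eq_one hj')
        apply Nat.Coprime.pow_left
        rw [Nat.coprime_primes hq hp]
        rintro rfl
        exact hqH hpH
      exact Q.not_dvd_index (hqd.trans (index_dvd_of_le (hQN.trans le_sup_left)))
    refine ⟨N, hNn, ?_⟩
    apply isComplement'_of_disjoint_and_mul_eq_univ (disjoint_of_coprime_natCard hcop)
    rw [← normal_mul, hsup]
    rfl

end Cfsg.Agent.S0079
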