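import Cfsg.Statements.S0082
import Cfsg.Agent.Lib.Helper2PComp
import Cfsg.Agent.Lib.Helper2Residual
import Mathlib.GroupTheory.SpecificGroups.ZGroup

set_option autoImplicit false
open Cfsg

namespace Cfsg.Agent.S0082

/-- With a cyclic Sylow p-subgroup, either there is a normal p-complement or the elements of order prime to p generate the whole group. -/
theorem result {G : Type*} [Group G] [Finite G] {p : ℕ} [Fact p.Prime] (P : Sylow p G) (hP : IsCyclic P) : Cfsg.HasNormalPComplement p G ∨ Cfsg.pResidual p G = ⊤ := by
  have hc : IsMulCommutative P := IsCyclic.isMulCommutative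
  rcases Sylow.normalizer_le_centralizer_or_le_commutator P with h | h
  · exact Or.inl (Cfsg.Agent.Lib.Helper2PComp.hasNormalPComplement_of_normalizer_le_centralizer P h)
  · right
    apply Cfsg.Agent.Lib.Helper2Residual.pResidual_eq_top_of_sylow_le P
    exact h.trans (Cfsg.Agent.Lib.Helper2Residual.commutator_le_pResidual_of_abelian_sylow P)

end Cfsg.Agent.S0082
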