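import Cfsg.Statements.S0083
import Cfsg.Agent.Lib.Helper2PComp

set_option autoImplicit false
open Cfsg

namespace Cfsg.Agent.S0083

/-- For an abelian Sylow p-subgroup P, a normal p-complement exists exactly when the normalizer of P is an internal direct product of P with some subgroup. -/
theorem result {G : Type*} [Group G] [Finite G] {p : ℕ} [Fact p.Prime] (P : Sylow p G) (hP : IsMulCommutative P) : Cfsg.HasNormalPComplement p G ↔ ∃ Q : Subgroup G, Q ≤ Subgroup.centralizer (P : Set G) ∧ Q ⊓ (P : Subgroup G) = ⊥ ∧ Q ⊔ (P : Subgroup G) = Subgroup.normalizer (P : Set G) := by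
  constructor
  · intro h
    obtain ⟨N, hN, hc⟩ := (Cfsg.Agent.Lib.Helper2PComp.hasNormalPComplement_iff P).1 h
    have hdisj : N ⊓ (P : Subgroup G) = ⊥ := hc.disjoint.eq_bot
    refine ⟨N ⊓ Subgroup.normalizer (P : Set G), ?_, ?_, ?_⟩
    · intro q hq x hx
      have hx' : x ∈ (P : Subgroup G) := hx
      have h1 : x * q * x⁻¹ * q⁻¹ ∈ N :=
        mul_mem (hN.conj_mem q hq.1 x) (inv_mem hq.1)
      have h2 : x * q * x⁻¹ * q⁻¹ ∈ (P : Subgroup G) := by
        have := (Subgroup.mem_normalizer_iff.1 hq.2 x⁻¹).1 (inv_mem hx')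
        have h3 := mul_mem hx' this
        simpa [mul_assoc] using h3
      have h3 : x * q * x⁻¹ * q⁻¹ ∈ N ⊓ (P : Subgroup G) := ⟨h1, h2⟩
      rw [hdisj, Subgroup.mem_bot] at h3
      have : x * q = q * x := by
        have := congrArg (fun z => z * q * x) h3
        simpa [mul_assoc] using this
      exact this
    · rw [inf_right_comm, hdisj, bot_inf_eq]
    · apply le_antisymm
      · exact sup_le inf_le_right Subgroup.le_normalizer
      · intro g hg
        obtain ⟨⟨n, x⟩, hnx⟩ := hc.2 g
        simp only at hnx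
        have hn : (n : G) ∈ Subgroup.normalizer (P : Set G) := by
          have : (n : G) = g * (x : G)⁻¹ := by rw [← hnx]; group
          rw [this]
          exact mul_mem hg (inv_mem (Subgroup.le_normalizer x.2))
        rw [← hnx]
        exact mul_mem (Subgroup.mem_sup_left ⟨n.2, hn⟩) (Subgroup.mem_sup_right x.2)
  · rintro ⟨Q, hQ, -, hsup⟩
    apply Cfsg.Agent.Lib.Helper2PComp.hasNormalPComplement_of_normalizer_le_centralizer P
    rw [← hsup]
    exact sup_le hQ P.le_centralizer

end Cfsg.Agent.S0083
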