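import Cfsg.Statements.S0085
import Cfsg.Agent.Lib.Helper2PComp
import Cfsg.Agent.Lib.Helper2Automizer
import Mathlib.Tactic.NormNum.Prime

set_option autoImplicit false
open Cfsg

namespace Cfsg.Agent.S0085

/-- A group whose Sylow 2-subgroups are elementary abelian of order 8 and whose order is prime to 3 and to 7 has a normal 2-complement. -/
theorem result {G : Type*} [Group G] [Finite G] (T : Sylow 2 G) (h8 : Nat.card T = 8) (he : ∀ x : T, x * x = 1) (h3 : ¬ 3 ∣ Nat.card G) (h7 : ¬ 7 ∣ Nat.card G) : Cfsg.HasNormalPComplement 2 G := by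
  have hc : IsMulCommutative T := by
    refine ⟨⟨fun a b => ?_⟩⟩
    have ha : a⁻¹ = a := inv_eq_of_mul_eq_one_right (he a)
    have hb : b⁻¹ = b := inv_eq_of_mul_eq_one_right (he b)
    have hab : (a * b)⁻¹ = a * b := inv_eq_of_mul_eq_one_right (he (a * b))
    rw [mul_inv_rev, ha, hb] at hab
    exact hab.symm
  apply Cfsg.Agent.Lib.Helper2PComp.hasNormalPComplement_of_normalizer_le_centralizer T
  apply Cfsg.Agent.Lib.Helper2Automizer.normalizer_le_centralizer_of_modEq T
  intro q hq hqG hq2 d hd hd8 hmod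
  rw [h8] at hd hd8 hmod
  have hdle : d ≤ 8 := Nat.le_of_dvd (by norm_num) hd
  have hdvd : q ∣ 8 - d := (Nat.modEq_iff_dvd' hdle).1 hmod.symm
  interval_cases d
  · simp at hd
  · have : q = 7 := (Nat.prime_dvd_prime_iff_eq hq (by norm_num)).1 hdvd
    exact h7 (this ▸ hqG)
  · have h6 : q ∣ 2 * 3 := hdvd
    rcases (Nat.Prime.dvd_mul hq).1 h6 with h | h
    · exact hq2 ((Nat.prime_dvd_prime_iff_eq hq (by norm_num)).1 h)
    · have : q = 3 := (Nat.prime_dvd_prime_iff_eq hq (by norm_num)).1 h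
      exact h3 (this ▸ hqG)
  · norm_num at hd
  · have h6 : q ∣ 2 * 2 := hdvd
    rcases (Nat.Prime.dvd_mul hq).1 h6 with h | h
    · exact hq2 ((Nat.prime_dvd_prime_iff_eq hq (by norm_num)).1 h)
    · exact hq2 ((Nat.prime_dvd_prime_iff_eq hq (by norm_num)).1 h)
  · norm_num at hd
  · norm_num at hd
  · norm_num at hd
  · exact hd8 rfl

end Cfsg.Agent.S0085
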