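import Cfsg.Statements.S0087
import Cfsg.Agent.Lib.Helper3Hall

set_option autoImplicit false
open Cfsg

namespace Cfsg.Agent.S0087

open scoped IsMulCommutative
open Cfsg.Agent.Lib.Helper3Hall

/-- A Hall subgroup that is central in its normalizer has a normal complement. -/
theorem result {G : Type*} [Group G] [Finite G] (H : Subgroup G) (hHall : Nat.Coprime (Nat.card H) H.index) (h : Subgroup.normalizer (H : Set G) ≤ Subgroup.centralizer (H : Set G)) : ∃ N : Subgroup G, N.Normal ∧ N.IsComplement' H := by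
  haveI hH : IsMulCommutative H :=
    ⟨⟨fun a b => Subtype.ext (h (Subgroup.le_normalizer b.2) a a.2)⟩⟩
  have key : ∀ y ∈ H, ∀ (k : ℕ) (g₀ : G), g₀⁻¹ * y ^ k * g₀ ∈ H → g₀⁻¹ * y ^ k * g₀ = y ^ k := by
    intro y hy k g₀ hk
    exact hall_fusion H hHall h (y ^ k) g₀ (H.pow_mem hy k) hk
  have hV : ∀ y : H, MonoidHom.transfer (MonoidHom.id H) (y : G) = y ^ H.index := by
    intro y
    rw [MonoidHom.transfer_eq_pow (MonoidHom.id H) (y : G) (key y y.2)]
    rfl
  refine ⟨(MonoidHom.transfer (MonoidHom.id H)).ker, inferInstance, ?_⟩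
  apply Subgroup.isComplement'_of_card_mul_and_disjoint
  · have hsurj : (MonoidHom.transfer (MonoidHom.id H)).range = ⊤ := by
      rw [eq_top_iff]
      intro b _
      refine ⟨((powCoprime hHall).symm b : H), ?_⟩
      rw [hV]
      exact (powCoprime hHall).apply_symm_apply b
    have h1 := (MonoidHom.transfer (MonoidHom.id H)).ker.card_mul_index
    rw [Subgroup.index_ker, hsurj, Subgroup.card_top] at h1
    exact h1
  · rw [Subgroup.disjoint_def]
    intro y hyk hyH
    have h1 := hV ⟨y, hyH⟩
    rw [MonoidHom.mem_ker] at hyk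
    have h2 : (⟨y, hyH⟩ : H) ^ H.index = 1 := by rw [← h1]; exact hyk
    have h3 : (powCoprime hHall) ⟨y, hyH⟩ = (powCoprime hHall) 1 := by
      simp only [powCoprime_apply, one_pow]
      exact h2
    have h4 := (powCoprime hHall).injective h3
    exact congrArg Subtype.val h4

end Cfsg.Agent.S0087
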