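import Cfsg.Statements.S0090
import Mathlib
import Cfsg.Agent.S0088

set_option autoImplicit false
open Cfsg

namespace Cfsg.Agent.S0090

open scoped IsMulCommutative commutatorElement

theorem key {G : Type*} [Group G] [Finite G] (A : Subgroup G) [hAn : A.Normal]
    (hc : IsMulCommutative A) (hHall : Nat.Coprime (Nat.card A) A.index) :
    A ≤ ⁅A, (⊤ : Subgroup G)⁆ ⊔ (Subgroup.center G ⊓ A) := by
  classical
  obtain ⟨K, hK⟩ := Subgroup.exists_right_complement'_of_coprime hHall
  haveI : Fintype K := Fintype.ofFinite K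
  have hcardK : Nat.card K = A.index := hK.symm.index_eq_card.symm
  let τ : A → A := fun a => ∏ k : K, MulAut.conjNormal (k : G) a
  set N : Subgroup A := (⁅A, (⊤ : Subgroup G)⁆).subgroupOf A with hN
  have hτZ : ∀ a : A, ((τ a : A) : G) ∈ Subgroup.center G := by
    intro a
    have h1 : ∀ k' : K, MulAut.conjNormal (k' : G) (τ a) = τ a := by
      intro k'
      change MulAut.conjNormal (k' : G) (∏ k : K, MulAut.conjNormal (k : G) a) = _
      rw [map_prod]
      apply Fintype.prod_equiv (Equiv.mulLeft k')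
      intro k
      rw [Equiv.coe_mulLeft, Subgroup.coe_mul, map_mul, MulAut.mul_apply]
    rw [Subgroup.mem_center_iff]
    intro g
    have hg : g ∈ A ⊔ K := by rw [hK.sup_eq_top]; exact Subgroup.mem_top g
    obtain ⟨a', ha', k', hk', rfl⟩ := Subgroup.mem_sup_of_normal_left.mp hg
    have h2 := congrArg Subtype.val (h1 ⟨k', hk'⟩)
    rw [MulAut.conjNormal_apply] at h2
    have h3 : k' * (τ a : G) = (τ a : G) * k' := by
      calc k' * (τ a : G) = (k' * (τ a : G) * k'⁻¹) * k' := by group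
        _ = (τ a : G) * k' := by rw [h2]
    have h4 : a' * (τ a : G) = (τ a : G) * a' := by
      have := mul_comm (⟨a', ha'⟩ : A) (τ a)
      exact congrArg Subtype.val this
    calc a' * k' * (τ a : G) = a' * (k' * (τ a : G)) := by group
      _ = a' * ((τ a : G) * k') := by rw [h3]
      _ = (a' * (τ a : G)) * k' := by group
      _ = ((τ a : G) * a') * k' := by rw [h4]
      _ = (τ a : G) * (a' * k') := by group
  have hτN : ∀ a : A, (QuotientGroup.mk' N) (τ a) = (QuotientGroup.mk' N a) ^ Nat.card K := by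
    intro a
    change (QuotientGroup.mk' N) (∏ k : K, MulAut.conjNormal (k : G) a) = _
    rw [map_prod, Nat.card_eq_fintype_card, ← Finset.card_univ, ← Finset.prod_const]
    apply Finset.prod_congr rfl
    intro k _
    rw [QuotientGroup.mk'_apply, QuotientGroup.mk'_apply, QuotientGroup.eq, hN,
      Subgroup.mem_subgroupOf]
    have h1 : (((MulAut.conjNormal (k : G) a)⁻¹ * a : A) : G) = ⁅(k : G), (a : G)⁻¹⁆ := by
      rw [Subgroup.coe_mul, Subgroup.coe_inv, MulAut.conjNormal_apply, commutatorElement_def]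
      group
    rw [h1, Subgroup.commutator_comm]
    exact Subgroup.commutator_mem_commutator (Subgroup.mem_top _) (A.inv_mem a.2)
  intro b hb
  set a : A := (powCoprime hHall).symm ⟨b, hb⟩ with ha
  have hab : a ^ A.index = ⟨b, hb⟩ := (powCoprime hHall).apply_symm_apply _
  have h1 : (a ^ A.index) * (τ a)⁻¹ ∈ N := by
    rw [← QuotientGroup.eq_one_iff, ← QuotientGroup.mk'_apply, map_mul, map_inv, hτN, hcardK,
      map_pow, mul_inv_cancel]
  have h2 : b = ((a ^ A.index * (τ a)⁻¹ : A) : G) * (τ a : G) := by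
    rw [Subgroup.coe_mul, Subgroup.coe_inv, hab]
    group
  rw [h2]
  exact Subgroup.mul_mem_sup (Subgroup.mem_subgroupOf.mp h1) ⟨hτZ a, (τ a).2⟩

/-- An abelian normal Hall subgroup A splits as the internal direct product of G' ∩ A and Z(G) ∩ A, and [A, G] = G' ∩ A. -/
theorem result {G : Type*} [Group G] [Finite G] (A : Subgroup G) [A.Normal] (hc : IsMulCommutative A) (hHall : Nat.Coprime (Nat.card A) A.index) : ⁅A, (⊤ : Subgroup G)⁆ = commutator G ⊓ A ∧ (commutator G ⊓ A) ⊓ (Subgroup.center G ⊓ A) = ⊥ ∧ (commutator G ⊓ A) ⊔ (Subgroup.center G ⊓ A) = A := by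
  have h88 := Cfsg.Agent.S0088.result A hc hHall
  have hk := key A hc hHall
  have hle : ⁅A, (⊤ : Subgroup G)⁆ ≤ commutator G ⊓ A :=
    le_inf (Subgroup.commutator_mono le_top le_rfl) (Subgroup.commutator_le_left _ _)
  have h2 : (commutator G ⊓ A) ⊓ (Subgroup.center G ⊓ A) = ⊥ := by
    rw [eq_bot_iff, ← h88]
    rintro x ⟨⟨h1, h2⟩, ⟨h3, _⟩⟩
    exact ⟨⟨h2, h1⟩, h3⟩
  refine ⟨le_antisymm hle ?_, h2, ?_⟩
  · rintro x ⟨hx1, hx2⟩
    haveI : (⁅A, (⊤ : Subgroup G)⁆).Normal := inferInstance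
    obtain ⟨c, hcm, z, hz, rfl⟩ := Subgroup.mem_sup_of_normal_left.mp (hk hx2)
    have hz1 : z ∈ (commutator G ⊓ A) ⊓ (Subgroup.center G ⊓ A) := by
      refine ⟨⟨?_, hz.2⟩, hz⟩
      have : z = c⁻¹ * (c * z) := by group
      rw [this]
      exact Subgroup.mul_mem _ (Subgroup.inv_mem _ (hle hcm).1) hx1
    rw [h2, Subgroup.mem_bot] at hz1
    rw [hz1, mul_one]; exact hcm
  · apply le_antisymm
    · exact sup_le inf_le_right inf_le_right
    · exact hk.trans (sup_le_sup_right hle _)

end Cfsg.Agent.S0090
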