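import Cfsg.Statements.S0091
-- import your own Cfsg.Agent.* helpers here

set_option autoImplicit false
open Cfsg

namespace Cfsg.Agent.S0091

open scoped commutatorElement

/-- If a nontrivial Sylow p-subgroup controls its own fusion then it is not contained in the derived subgroup. -/
theorem result {G : Type*} [Group G] [Finite G] {p : ℕ} [Fact p.Prime] (P : Sylow p G) (hp : p ∣ Nat.card G) (h : ∀ x ∈ P, ∀ y ∈ P, (∃ g : G, g * x * g⁻¹ = y) → ∃ z ∈ P, z * x * z⁻¹ = y) : ¬ (P : Subgroup G) ≤ commutator G := by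
  intro hle
  have h1 : commutator G ⊓ (P : Subgroup G) = (P : Subgroup G).focalSubgroup :=
    Subgroup.commutator_inf_eq_focalSubgroup P
  have h2 : (P : Subgroup G).focalSubgroup ≤ ⁅(P : Subgroup G), (P : Subgroup G)⁆ := by
    rw [Subgroup.focalSubgroup_def, Subgroup.closure_le]
    rintro g ⟨hg, x, hx, u, rfl⟩
    have hg' : ⁅x, u⁆ ∈ (P : Subgroup G) := hg
    have hxi : x⁻¹ ∈ (P : Subgroup G) := Subgroup.inv_mem _ hx
    have h3 : u * x⁻¹ * u⁻¹ ∈ (P : Subgroup G) := by
      have : u * x⁻¹ * u⁻¹ = x⁻¹ * ⁅x, u⁆ := by rw [commutatorElement_def]; group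
      rw [this]
      exact Subgroup.mul_mem _ hxi hg'
    obtain ⟨z, hz, hz2⟩ := h x⁻¹ hxi (u * x⁻¹ * u⁻¹) h3 ⟨u, rfl⟩
    have h4 : ⁅x, u⁆ = ⁅x, z⁆ := by
      rw [commutatorElement_def, commutatorElement_def]
      calc x * u * x⁻¹ * u⁻¹ = x * (u * x⁻¹ * u⁻¹) := by group
        _ = x * (z * x⁻¹ * z⁻¹) := by rw [hz2]
        _ = x * z * x⁻¹ * z⁻¹ := by group
    rw [h4]
    exact Subgroup.commutator_mem_commutator hx hz
  have h3 : (P : Subgroup G) ≤ ⁅(P : Subgroup G), (P : Subgroup G)⁆ := by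
    calc (P : Subgroup G) = commutator G ⊓ (P : Subgroup G) := (inf_eq_right.mpr hle).symm
      _ = (P : Subgroup G).focalSubgroup := h1
      _ ≤ _ := h2
  have hne : (P : Subgroup G) ≠ ⊥ := P.ne_bot_of_dvd_card hp
  haveI : Nontrivial (P : Subgroup G) := (Subgroup.nontrivial_iff_ne_bot _).mpr hne
  haveI : Group.IsNilpotent (P : Subgroup G) := P.2.isNilpotent
  have h5 := Group.IsSolvable.commutator_lt_top_of_nontrivial (P : Subgroup G)
  have h6 : commutator (P : Subgroup G) = ⊤ := by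
    rw [eq_top_iff, ← Subgroup.map_subtype_le_map_subtype, Subgroup.map_subtype_commutator]
    refine le_trans ?_ h3
    exact Subgroup.map_subtype_le _
  exact h5.ne h6

end Cfsg.Agent.S0091
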