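import Cfsg.Statements.S0092
import Cfsg.Agent.Lib.Helper2Tate

set_option autoImplicit false
open Cfsg

namespace Cfsg.Agent.S0092

open Subgroup Cfsg.Agent.Lib.Helper2Tate Cfsg.Agent.Lib.Helper2Residual

/-- If the Sylow p-subgroups of O^p(G) are abelian then G splits over O^p(G). -/
theorem result {G : Type*} [Group G] [Finite G] {p : ℕ} [Fact p.Prime] (h : ∀ Q : Sylow p (Cfsg.pResidual p G), IsMulCommutative Q) : ∃ K : Subgroup G, K.IsComplement' (Cfsg.pResidual p G) := by
  have P : Sylow p G := default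
  have hKn : (Cfsg.pResidual p G).Normal := pResidual_normal p
  have hK : Cfsg.pResidual p G ≤
      closure {g : G | g ∈ Cfsg.pResidual p G ∧ (orderOf g).Coprime p} :=
    closure_mono (fun g hg => ⟨subset_closure hg, hg⟩)
  have hab : ⁅(P : Subgroup G) ⊓ Cfsg.pResidual p G, (P : Subgroup G) ⊓ Cfsg.pResidual p G⁆ ≤ ⊥ := by
    have hpg : IsPGroup p (((P : Subgroup G) ⊓ Cfsg.pResidual p G).subgroupOf
        (Cfsg.pResidual p G)) :=
      (P.2.to_le inf_le_left).comap_subtype
    obtain ⟨Q, hQ⟩ := hpg.exists_le_sylow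
    have hQc := h Q
    rw [commutator_le]
    intro a ha b hb
    have ha' : (⟨a, (mem_inf.1 ha).2⟩ : Cfsg.pResidual p G) ∈ Q := hQ ha
    have hb' : (⟨b, (mem_inf.1 hb).2⟩ : Cfsg.pResidual p G) ∈ Q := hQ hb
    have hc := setLike_mul_comm ha' hb'
    have hc' : a * b = b * a := congrArg Subtype.val hc
    rw [mem_bot, commutatorElement_eq_one_iff_mul_comm]
    exact hc'
  obtain ⟨T, -, hT2, hT3, hT4⟩ := tate_concrete P (Cfsg.pResidual p G) hK ⊥ bot_le
    le_normalizer_of_normal hab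
  refine ⟨T, ?_⟩
  apply isComplement'_of_disjoint_and_mul_eq_univ (disjoint_iff.2 hT3)
  rw [← mul_normal]
  have : T ⊔ Cfsg.pResidual p G = ⊤ := by
    rw [eq_top_iff, ← sylow_sup_pResidual_eq_top P, ← hT4]
    exact sup_le (sup_le le_sup_left (inf_le_right.trans le_sup_right)) le_sup_right
  rw [this]; rfl

end Cfsg.Agent.S0092
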