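import Cfsg.Statements.S0094
import Cfsg.Agent.Lib.Helper3Class2
import Cfsg.Agent.Lib.Helper3PGroup

set_option autoImplicit false
open Cfsg

namespace Cfsg.Agent.S0094

open scoped commutatorElement
open Cfsg.Agent.Lib.Helper3Class2 Cfsg.Agent.Lib.Helper3PGroup

/-- In a special p-group every central element has order dividing p. -/
theorem result {P : Type*} [Group P] [Finite P] {p : ℕ} [Fact p.Prime] (h : Cfsg.IsSpecial p P) (z : P) (hz : z ∈ Subgroup.center P) : z ^ p = 1 := by
  obtain ⟨hP, hF, hC⟩ := h
  rw [← hC, commutator_eq_closure] at hz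
  have key : z ∈ Subgroup.center P ∧ z ^ p = 1 := by
    induction hz using Subgroup.closure_induction with
    | mem x hx =>
      obtain ⟨a, b, rfl⟩ := hx
      have hc : ⁅a, b⁆ ∈ Subgroup.center P := by
        rw [← hC]
        exact Subgroup.commutator_mem_commutator (Subgroup.mem_top a) (Subgroup.mem_top b)
      refine ⟨hc, ?_⟩
      rw [← commutator_pow_left a b (commute_of_mem_center hc a)]
      have hap : a ^ p ∈ Subgroup.center P := by
        rw [← hF]; exact pow_mem_frattini hP a
      rw [commutatorElement_eq_one_iff_commute]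
      exact commute_of_mem_center hap b
    | one => exact ⟨Subgroup.one_mem _, one_pow p⟩
    | mul x y _ _ hx hy =>
      refine ⟨Subgroup.mul_mem _ hx.1 hy.1, ?_⟩
      rw [(commute_of_mem_center hx.1 y).mul_pow, hx.2, hy.2, one_mul]
    | inv x _ hx =>
      exact ⟨Subgroup.inv_mem _ hx.1, by rw [inv_pow, hx.2, inv_one]⟩
  exact key.2

end Cfsg.Agent.S0094
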