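import Cfsg.Statements.S0097
import Cfsg.Agent.Lib.Helper3Class2
import Cfsg.Agent.Lib.Helper3PGroup

set_option autoImplicit false
open Cfsg

namespace Cfsg.Agent.S0097

open scoped commutatorElement
open Cfsg.Agent.Lib.Helper3Class2 Cfsg.Agent.Lib.Helper3PGroup

/-- For odd p and E extraspecial, the subgroup generated by the elements of order dividing p has exponent dividing p and index at most p. -/
theorem result {E : Type*} [Group E] [Finite E] {p : ℕ} [Fact p.Prime] (hp : p ≠ 2) (h : Cfsg.IsExtraspecial p E) : (Subgroup.closure {x : E | x ^ p = 1}).index ≤ p ∧ ∀ g ∈ Subgroup.closure {x : E | x ^ p = 1}, g ^ p = 1 := by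
  obtain ⟨⟨hP, hF, hC⟩, hZ⟩ := h
  have hpp : p.Prime := Fact.out
  have h2 : ⁅commutator E, (⊤ : Subgroup E)⁆ = ⊥ := by
    rw [Subgroup.commutator_eq_bot_iff_le_centralizer, Subgroup.coe_top,
      Subgroup.centralizer_univ, hC]
  refine ⟨?_, fun g hg => omega_exponent_class2 hpp hp h2 g hg⟩
  have hzp : ∀ z ∈ Subgroup.center E, z ^ p = 1 := by
    intro z hz
    have : (⟨z, hz⟩ : Subgroup.center E) ^ Nat.card (Subgroup.center E) = 1 := pow_card_eq_one'
    rw [hZ] at this
    have h3 := congrArg Subtype.val this
    rwa [Subgroup.coe_pow, Subgroup.coe_one] at h3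
  let f : E →* Subgroup.center E :=
    { toFun := fun x => ⟨x ^ p, by rw [← hF]; exact pow_mem_frattini hP x⟩
      map_one' := Subtype.ext (one_pow p)
      map_mul' := by
        intro x y
        apply Subtype.ext
        have hc := commutator_mem_center_of_class2 h2 y x
        exact mul_pow_prime_class2 hpp hp x y (commute_of_mem_center hc x)
          (commute_of_mem_center hc y) (hzp _ hc) }
  have hker : f.ker ≤ Subgroup.closure {x : E | x ^ p = 1} := by
    intro x hx
    apply Subgroup.subset_closure
    have := congrArg Subtype.val (MonoidHom.mem_ker.mp hx)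
    exact this
  have h3 : (Subgroup.closure {x : E | x ^ p = 1}).index ∣ f.ker.index :=
    Subgroup.index_dvd_of_le hker
  rw [Subgroup.index_ker] at h3
  have h4 : Nat.card f.range ∣ p := by
    rw [← hZ]; exact Subgroup.card_subgroup_dvd_card _
  exact Nat.le_of_dvd hpp.pos (h3.trans h4)

end Cfsg.Agent.S0097
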