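import Cfsg.Statements.S0098
import Cfsg.Agent.Lib.Helper91ES3
import Cfsg.Agent.S0752

set_option autoImplicit false
open Cfsg

namespace Cfsg.Agent.S0098

open scoped commutatorElement
open Cfsg.Agent.Lib.Helper91ES3

/-- symplectic coordinates on an extraspecial group of exponent `p`. -/
theorem coords {p : ℕ} [Fact p.Prime] {E : Type*} [Group E] [Finite E]
    (hE : Cfsg.IsExtraspecial p E) (hexp : ∀ x : E, x ^ p = 1) :
    ∃ (z : E) (ℓ : E → ZMod p) (k m : ℕ) (π : E →* Multiplicative (Fin k → ZMod p))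
      (B : LinearMap.BilinForm (ZMod p) (Fin k → ZMod p))
      (b : Module.Basis ((Fin m ⊕ Fin m) ⊕ Fin 0) (ZMod p) (Fin k → ZMod p)),
      Pk p E z ℓ ∧ Function.Surjective π ∧ (∀ x, π x = 1 ↔ x ∈ Subgroup.center E) ∧
      Nat.card E = p ^ (k + 1) ∧ k = 2 * m ∧
      (∀ x y, B (Multiplicative.toAdd (π x)) (Multiplicative.toAdd (π y)) = ℓ ⁅x, y⁆) ∧
      (∀ i j : Fin m, B (b (Sum.inl (Sum.inl i))) (b (Sum.inl (Sum.inr j))) = if i = j then 1 else 0) ∧
      (∀ i j : Fin m, B (b (Sum.inl (Sum.inr i))) (b (Sum.inl (Sum.inl j))) = -(if j = i then 1 else 0)) ∧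
      (∀ i j : Fin m, B (b (Sum.inl (Sum.inl i))) (b (Sum.inl (Sum.inl j))) = 0) ∧
      (∀ i j : Fin m, B (b (Sum.inl (Sum.inr i))) (b (Sum.inl (Sum.inr j))) = 0) := by
  obtain ⟨z, ℓ, h⟩ := exists_pk hE
  obtain ⟨k, ⟨e⟩⟩ := exists_equiv_of_exp p (E ⧸ Subgroup.center E) (by
    intro a b
    induction a using QuotientGroup.induction_on with
    | H a =>
      induction b using QuotientGroup.induction_on with
      | H b =>
        rw [← commutatorElement_eq_one_iff_mul_comm]
        have : ⁅(a : E ⧸ Subgroup.center E), (b : E ⧸ Subgroup.center E)⁆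
            = ((⁅a, b⁆ : E) : E ⧸ Subgroup.center E) := by
          simp [commutatorElement_def]
        rw [this, QuotientGroup.eq_one_iff]
        exact h.com a b) (by
    intro a
    induction a using QuotientGroup.induction_on with
    | H a =>
      rw [← QuotientGroup.mk_pow, hexp a]
      rfl)
  let π : E →* Multiplicative (Fin k → ZMod p) :=
    e.toMonoidHom.comp (QuotientGroup.mk' (Subgroup.center E))
  have hπ : Function.Surjective π := e.surjective.comp (QuotientGroup.mk'_surjective _)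
  have hker : ∀ x, π x = 1 ↔ x ∈ Subgroup.center E := by
    intro x
    show e (x : E ⧸ Subgroup.center E) = 1 ↔ _
    rw [map_eq_one_iff e e.injective, QuotientGroup.eq_one_iff]
  have hcard : Nat.card E = p ^ (k + 1) := by
    have h1 := Subgroup.card_eq_card_quotient_mul_card_subgroup (Subgroup.center E)
    rw [hE.2, Nat.card_congr e.toEquiv] at h1
    have h2 : Nat.card (Multiplicative (Fin k → ZMod p)) = p ^ k := by
      show Nat.card (Fin k → ZMod p) = p ^ k
      rw [Nat.card_eq_fintype_card, Fintype.card_fun]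
      simp
    rw [h1, h2, pow_succ]
  obtain ⟨B, halt, hB⟩ := h.exists_form π hπ hker
  obtain ⟨m, r, b, r1, r2, r3, r4⟩ := Cfsg.Agent.S0752.result B halt
  have hr : r = 0 := by
    by_contra hr
    let j : Fin r := ⟨0, Nat.pos_of_ne_zero hr⟩
    apply b.ne_zero (Sum.inr j)
    obtain ⟨x, hx⟩ := hπ (Multiplicative.ofAdd (b (Sum.inr j)))
    have hxu : b (Sum.inr j) = Multiplicative.toAdd (π x) := by rw [hx]; rfl
    have hcen : x ∈ Subgroup.center E := by
      rw [Subgroup.mem_center_iff]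
      intro y
      have h1 := r4 j (Multiplicative.toAdd (π y))
      rw [hxu, hB] at h1
      have h2 := h.eq_one_of_log (h.com _ _) h1
      rw [commutatorElement_eq_one_iff_mul_comm] at h2
      exact h2.symm
    rw [← hker] at hcen
    rw [hxu, hcen]; rfl
  subst hr
  have hk : k = 2 * m := by
    have h1 := Module.finrank_eq_card_basis b
    simp at h1
    omega
  refine ⟨z, ℓ, k, m, π, B, b, h, hπ, hker, hcard, hk, hB, r1, ?_, r2, r3⟩
  intro i j
  rw [← halt.neg_eq (b (Sum.inl (Sum.inl j))) (b (Sum.inl (Sum.inr i))), r1]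

/-- For odd p, extraspecial p-groups of exponent p are determined up to isomorphism by their order. -/
theorem result {E₁ : Type*} {E₂ : Type*} [Group E₁] [Group E₂] [Finite E₁] [Finite E₂] {p : ℕ} [Fact p.Prime] (hp : p ≠ 2) (h₁ : Cfsg.IsExtraspecial p E₁) (h₂ : Cfsg.IsExtraspecial p E₂) (he₁ : Monoid.exponent E₁ = p) (he₂ : Monoid.exponent E₂ = p) (hc : Nat.card E₁ = Nat.card E₂) : Nonempty (E₁ ≃* E₂) := by
  have hx1 : ∀ x : E₁, x ^ p = 1 := fun x => by rw [← he₁]; exact Monoid.pow_exponent_eq_one x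
  have hx2 : ∀ x : E₂, x ^ p = 1 := fun x => by rw [← he₂]; exact Monoid.pow_exponent_eq_one x
  obtain ⟨z, ℓ, k, m, π, B, b, h, hπ, hker, hcard, hk, hB, a1, a2, a3, a4⟩ := coords h₁ hx1
  obtain ⟨z', ℓ', k', m', π', B', b', h', hπ', hker', hcard', hk', hB', a1', a2', a3', a4'⟩ :=
    coords h₂ hx2
  have hp1 : 1 < p := (Fact.out : p.Prime).one_lt
  have hkk : k = k' := by
    rw [hcard, hcard'] at hc
    have := Nat.pow_right_injective hp1 hc
    omega
  have hmm : m = m' := by omega
  subst hmm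
  subst hkk
  let T : (Fin k → ZMod p) ≃ₗ[ZMod p] (Fin k → ZMod p) := b.equiv b' (Equiv.refl _)
  have hT : ∀ i, T (b i) = b' i := fun i => by simp [T]
  have hBT : ∀ u v, B u v = B' (T u) (T v) := by
    have : B = B'.compl₁₂ T.toLinearMap T.toLinearMap := by
      apply LinearMap.BilinForm.ext_basis b
      intro i j
      rw [LinearMap.compl₁₂_apply]
      show _ = B' (T (b i)) (T (b j))
      rw [hT, hT]
      rcases i with (i | i) | i <;> rcases j with (j | j) | j
      · rw [a3, a3']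
      · rw [a1, a1']
      · exact j.elim0
      · rw [a2, a2']
      · rw [a4, a4']
      · exact j.elim0
      · exact i.elim0
      · exact i.elim0
      · exact i.elim0
    intro u v
    rw [this]
    rfl
  let TM : Multiplicative (Fin k → ZMod p) ≃* Multiplicative (Fin k → ZMod p) :=
    AddEquiv.toMultiplicative T.toAddEquiv
  have hzc : ∀ g, g * z = z * g := fun g =>
    (Subgroup.mem_center_iff.1 ((h.cen z).2 ⟨1, (pow_one z).symm⟩)) g
  have hzc' : ∀ g, g * z' = z' * g := fun g =>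
    (Subgroup.mem_center_iff.1 ((h'.cen z').2 ⟨1, (pow_one z').symm⟩)) g
  refine iso_of_fibre p (TM.toMonoidHom.comp π) π' (TM.surjective.comp hπ) hπ' z z' h.ne h'.ne
    hzc hzc' ?_ ?_ hx1 hx2 ?_
  · intro x
    rw [← h.cen, ← hker]
    show TM (π x) = 1 ↔ _
    rw [map_eq_one_iff TM TM.injective]
  · intro x
    rw [← h'.cen, ← hker']
  · intro x y x' y' e1 e2
    refine ⟨(ℓ ⁅x, y⁆).val, h.log_eq _ (h.com _ _), ?_⟩
    have e3 : ℓ ⁅x, y⁆ = ℓ' ⁅x', y'⁆ := by
      rw [← hB, ← hB', hBT, ← e1, ← e2]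
      rfl
    rw [e3]
    exact h'.log_eq _ (h'.com _ _)

end Cfsg.Agent.S0098
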