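import Cfsg.Statements.S0099
import Cfsg.Agent.Lib.Helper91ES2

set_option autoImplicit false
open Cfsg

namespace Cfsg.Agent.S0099

/-- Among three extraspecial 2-groups of equal order, some two are isomorphic. -/
theorem result {E₁ : Type*} {E₂ : Type*} {E₃ : Type*} [Group E₁] [Group E₂] [Group E₃] [Finite E₁] [Finite E₂] [Finite E₃] (h₁ : Cfsg.IsExtraspecial 2 E₁) (h₂ : Cfsg.IsExtraspecial 2 E₂) (h₃ : Cfsg.IsExtraspecial 2 E₃) (h12 : Nat.card E₁ = Nat.card E₂) (h23 : Nat.card E₂ = Nat.card E₃) : Nonempty (E₁ ≃* E₂) ∨ Nonempty (E₂ ≃* E₃) ∨ Nonempty (E₁ ≃* E₃) := by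
  obtain ⟨m1, _, c1, t1⟩ := Cfsg.Agent.Lib.Helper91ES2.classify h₁
  obtain ⟨m2, _, c2, t2⟩ := Cfsg.Agent.Lib.Helper91ES2.classify h₂
  obtain ⟨m3, _, c3, t3⟩ := Cfsg.Agent.Lib.Helper91ES2.classify h₃
  have e12 : m1 = m2 := by
    rw [c1, c2] at h12
    have := Nat.pow_right_injective le_rfl h12
    omega
  have e23 : m2 = m3 := by
    rw [c2, c3] at h23
    have := Nat.pow_right_injective le_rfl h23
    omega
  subst e12 e23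
  rcases t1 with ⟨⟨a1⟩⟩ | ⟨⟨a1⟩⟩ <;> rcases t2 with ⟨⟨a2⟩⟩ | ⟨⟨a2⟩⟩ <;> rcases t3 with ⟨⟨a3⟩⟩ | ⟨⟨a3⟩⟩
  · exact Or.inl ⟨a1.trans a2.symm⟩
  · exact Or.inl ⟨a1.trans a2.symm⟩
  · exact Or.inr (Or.inr ⟨a1.trans a3.symm⟩)
  · exact Or.inr (Or.inl ⟨a2.trans a3.symm⟩)
  · exact Or.inr (Or.inl ⟨a2.trans a3.symm⟩)
  · exact Or.inr (Or.inr ⟨a1.trans a3.symm⟩)
  · exact Or.inl ⟨a1.trans a2.symm⟩
  · exact Or.inl ⟨a1.trans a2.symm⟩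

end Cfsg.Agent.S0099
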