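import Cfsg.Statements.S0101
import Cfsg.Agent.Lib.Helper3PGroup

set_option autoImplicit false
open Cfsg

namespace Cfsg.Agent.S0101

open scoped IsMulCommutative
open Cfsg.Agent.Lib.Helper3PGroup

/-- In a perfect central extension, the kernel meets each Sylow p-subgroup P inside the Frattini subgroup of P. -/
theorem result {H : Type*} {G : Type*} [Group H] [Group G] [Finite H] (σ : H →* G) (hσ : Function.Surjective σ) (hc : σ.ker ≤ Subgroup.center H) (hH : commutator H = ⊤) {p : ℕ} [Fact p.Prime] (P : Sylow p H) : σ.ker ⊓ (P : Subgroup H) ≤ (frattini P).map (P : Subgroup H).subtype := by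
  rintro z ⟨hzk, hzP⟩
  have hzP' : z ∈ (P : Subgroup H) := hzP
  have hzZ : z ∈ Subgroup.center H := hc hzk
  refine ⟨⟨z, hzP'⟩, ?_, rfl⟩
  rw [SetLike.mem_coe, mem_frattini_iff]
  intro M hM
  haveI hMn : M.Normal := coatom_normal P.2 hM
  haveI : IsMulCommutative ((P : Subgroup H) ⧸ M) :=
    Subgroup.Normal.quotient_commutative_iff_commutator_le.mpr (commutator_le_coatom P.2 hM)
  let ϕ : (P : Subgroup H) →* (P : Subgroup H) ⧸ M := QuotientGroup.mk' M
  have key : ∀ (k : ℕ) (g₀ : H), g₀⁻¹ * z ^ k * g₀ ∈ (P : Subgroup H) →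
      g₀⁻¹ * z ^ k * g₀ = z ^ k := by
    intro k g₀ _
    have h1 : z ^ k ∈ Subgroup.center H := Subgroup.pow_mem _ hzZ k
    rw [Subgroup.mem_center_iff] at h1
    rw [mul_assoc, ← h1 g₀]; group
  have h1 := MonoidHom.transfer_eq_pow ϕ z key
  have h2 : MonoidHom.transfer ϕ z = 1 :=
    Abelianization.commutator_subset_ker (MonoidHom.transfer ϕ) (by rw [hH]; exact Subgroup.mem_top z)
  rw [h2] at h1
  have h3 : (⟨z, hzP'⟩ : (P : Subgroup H)) ^ (P : Subgroup H).index ∈ M := by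
    have h4 := (QuotientGroup.eq_one_iff _).mp h1.symm
    exact h4
  have h4 : (⟨z, hzP'⟩ : (P : Subgroup H)) ^ p ∈ M := pow_mem_coatom P.2 hM _
  have hcop : Nat.Coprime (P : Subgroup H).index p :=
    ((Nat.Prime.coprime_iff_not_dvd Fact.out).mpr P.not_dvd_index).symm
  have h5 : (⟨z, hzP'⟩ : (P : Subgroup H)) ^ (Nat.gcd (P : Subgroup H).index p) ∈ M := by
    rw [← zpow_natCast, Nat.gcd_eq_gcd_ab, zpow_add, zpow_mul, zpow_mul, zpow_natCast, zpow_natCast]
    exact M.mul_mem (M.zpow_mem h3 _) (M.zpow_mem h4 _)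
  rw [hcop, pow_one] at h5
  exact h5

end Cfsg.Agent.S0101
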