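import Cfsg.Statements.S0102
import Mathlib.GroupTheory.SpecificGroups.Cyclic
import Cfsg.Agent.S0088

set_option autoImplicit false
open Cfsg

namespace Cfsg.Agent.S0102

/-- A finite perfect group with cyclic Sylow p-subgroups has no perfect central extension whose kernel has order divisible by p. -/
theorem result {G : Type*} {H : Type*} [Group G] [Group H] [Finite G] [Finite H] (hG : commutator G = ⊤) {p : ℕ} [Fact p.Prime] (hcyc : ∀ P : Sylow p G, IsCyclic P) (σ : H →* G) (hσ : Function.Surjective σ) (hz : σ.ker ≤ Subgroup.center H) (hH : commutator H = ⊤) : ¬ p ∣ Nat.card σ.ker := by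
  intro hdvd
  obtain ⟨k, hk⟩ := exists_prime_orderOf_dvd_card' (G := σ.ker) p hdvd
  have hko : orderOf (k : H) = p := by rw [Subgroup.orderOf_coe]; exact hk
  have hpg : IsPGroup p (Subgroup.zpowers (k : H)) := by
    apply IsPGroup.of_card (n := 1)
    rw [Nat.card_zpowers, hko, pow_one]
  obtain ⟨Q, hQ⟩ := hpg.exists_le_sylow
  have hkQ : (k : H) ∈ (Q : Subgroup H) := hQ (Subgroup.mem_zpowers _)
  -- the image of Q is cyclic
  let f : (Q : Subgroup H) →* G := σ.comp (Q : Subgroup H).subtype
  have hfr : IsPGroup p f.range := by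
    have := Q.2.map σ
    have he : f.range = (Q : Subgroup H).map σ := by
      rw [MonoidHom.range_comp, Subgroup.range_subtype]
    rw [he]; exact this
  obtain ⟨P, hP⟩ := hfr.exists_le_sylow
  haveI : IsCyclic (P : Subgroup G) := hcyc P
  haveI : IsCyclic f.range := Subgroup.isCyclic_of_le hP
  have hker : f.rangeRestrict.ker ≤ Subgroup.center (Q : Subgroup H) := by
    intro x hx
    rw [MonoidHom.ker_rangeRestrict, MonoidHom.mem_ker] at hx
    have hx' : (x : H) ∈ σ.ker := hx
    have hx2 := hz hx'
    rw [Subgroup.mem_center_iff] at hx2 ⊢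
    intro y
    exact Subtype.ext (hx2 y)
  have hcomm : IsMulCommutative (Q : Subgroup H) :=
    f.rangeRestrict.isMulCommutative_of_isCyclic_of_ker_le_center hker
  have h1 := Cfsg.Agent.S0088.result (Q : Subgroup H) hcomm Q.card_coprime_index
  have h2 : (k : H) ∈ (Q : Subgroup H) ⊓ commutator H ⊓ Subgroup.center H :=
    ⟨⟨hkQ, by rw [hH]; exact Subgroup.mem_top _⟩, hz k.2⟩
  rw [h1, Subgroup.mem_bot] at h2
  rw [h2, orderOf_one] at hko
  exact (Fact.out : p.Prime).one_lt.ne hko

end Cfsg.Agent.S0102
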