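import Cfsg.Statements.S0104
import Cfsg.Agent.Lib.Helper3Basic

set_option autoImplicit false
open Cfsg

namespace Cfsg.Agent.S0104

open Cfsg.Agent.Lib.Helper3Basic

/-- A subgroup Z of a Sylow p-subgroup P that is normalized by N_G(P) is weakly closed in P exactly when it is normal in every Sylow p-subgroup containing it. -/
theorem result {G : Type*} [Group G] [Finite G] {p : ℕ} [Fact p.Prime] (P : Sylow p G) (Z : Subgroup G) (hZP : Z ≤ (P : Subgroup G)) (hZN : Subgroup.normalizer (P : Set G) ≤ Subgroup.normalizer (Z : Set G)) : Cfsg.IsWeaklyClosed Z P ↔ ∀ R : Sylow p G, Z ≤ (R : Subgroup G) → (R : Subgroup G) ≤ Subgroup.normalizer (Z : Set G) := by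
  have hPN : (P : Subgroup G) ≤ Subgroup.normalizer (Z : Set G) :=
    le_trans (Subgroup.le_normalizer (H := (P : Subgroup G))) hZN
  constructor
  · rintro ⟨-, hW⟩ R hZR
    obtain ⟨g, hg⟩ := MulAction.exists_smul_eq G P R
    have h1 : Z.map (MulAut.conj g⁻¹).toMonoidHom ≤ (P : Subgroup G) := by
      intro x hx
      rw [mem_map_conj, inv_inv] at hx
      have h2 : g * x * g⁻¹ ∈ R := hZR hx
      rw [← hg, mem_smul_sylow] at h2
      have : g⁻¹ * (g * x * g⁻¹) * g = x := by group
      rw [this] at h2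
      exact h2
    have h2 := hW g⁻¹ h1
    have h3 : g⁻¹ ∈ Subgroup.normalizer (Z : Set G) :=
      Subgroup.mem_normalizer_iff_map_conj_eq.mpr h2
    have h4 : g ∈ Subgroup.normalizer (Z : Set G) := by
      simpa using Subgroup.inv_mem _ h3
    intro r hr
    have hr' : r ∈ R := hr
    rw [← hg, mem_smul_sylow] at hr'
    have h5 : g⁻¹ * r * g ∈ Subgroup.normalizer (Z : Set G) := hPN hr'
    have h6 : r = g * (g⁻¹ * r * g) * g⁻¹ := by group
    rw [h6]
    exact Subgroup.mul_mem _ (Subgroup.mul_mem _ h4 h5) h3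
  · intro hR
    refine ⟨hZP, ?_⟩
    intro g hg
    have h1 : Z ≤ ((g⁻¹ • P : Sylow p G) : Subgroup G) := by
      intro z hz
      change z ∈ (g⁻¹ • P : Sylow p G)
      rw [mem_smul_sylow, inv_inv]
      apply hg
      rw [mem_map_conj]
      have : g⁻¹ * (g * z * g⁻¹) * g = z := by group
      rw [this]; exact hz
    have h2 := hR _ h1
    obtain ⟨n, hn, hn2⟩ := sylow_conj_in_subgroup P (g⁻¹ • P) _ hPN h2
    rw [smul_smul, Sylow.smul_eq_iff_mem_normalizer] at hn2
    have h3 : n * g⁻¹ ∈ Subgroup.normalizer (Z : Set G) := hZN hn2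
    have h4 : g⁻¹ ∈ Subgroup.normalizer (Z : Set G) := by
      have : g⁻¹ = n⁻¹ * (n * g⁻¹) := by group
      rw [this]
      exact Subgroup.mul_mem _ (Subgroup.inv_mem _ hn) h3
    have h5 : g ∈ Subgroup.normalizer (Z : Set G) := by
      simpa using Subgroup.inv_mem _ h4
    exact Subgroup.mem_normalizer_iff_map_conj_eq.mp h5

end Cfsg.Agent.S0104
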