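import Cfsg.Statements.S0105
import Mathlib
import Cfsg.Agent.S0074
import Cfsg.Agent.S0090

set_option autoImplicit false
open Cfsg

namespace Cfsg.Agent.S0105

open scoped IsMulCommutative commutatorElement

/-- With an abelian Sylow p-subgroup P, some quotient of G is isomorphic to the part of P central in N_G(P). -/
theorem result {G : Type*} [Group G] [Finite G] {p : ℕ} [Fact p.Prime] (P : Sylow p G) (hP : IsMulCommutative P) : ∃ (N : Subgroup G) (hN : N.Normal), Nonempty (G ⧸ N ≃* ((P : Subgroup G) ⊓ Subgroup.centralizer (Subgroup.normalizer (P : Set G) : Set G) : Subgroup G)) := by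
  set P₀ : Subgroup G := (P : Subgroup G) with hP₀
  set M : Subgroup G := Subgroup.normalizer (P₀ : Set G) with hM
  set W : Subgroup G := P₀ ⊓ Subgroup.centralizer (M : Set G) with hW
  set F : Subgroup G := P₀.focalSubgroup with hF
  have hFeq : F = ⁅M, M⁆ ⊓ P₀ := by
    rw [hF, ← Subgroup.commutator_inf_eq_focalSubgroup P]
    exact Cfsg.Agent.S0074.result P hP
  have hPM : P₀ ≤ M := Subgroup.le_normalizer
  set P' : Subgroup M := P₀.subgroupOf M with hP'
  haveI hP'n : P'.Normal := Subgroup.normal_in_normalizer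
  haveI hP'c : IsMulCommutative P' := by
    haveI : IsMulCommutative P₀ := hP
    exact Subgroup.subgroupOf_isMulCommutative _ _
  have hHall : Nat.Coprime (Nat.card P') P'.index := (P.subtype hPM).card_coprime_index
  obtain ⟨-, h2, h3⟩ := Cfsg.Agent.S0090.result P' hP'c hHall
  have hcomm : ∀ y : M, y ∈ commutator M ↔ (y : G) ∈ ⁅M, M⁆ := by
    intro y
    rw [← Subgroup.map_subtype_commutator]
    constructor
    · intro hy; exact ⟨y, hy, rfl⟩
    · rintro ⟨z, hz, hzy⟩
      have : z = y := Subtype.ext hzy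
      exact this ▸ hz
  have hcent : ∀ y : M, y ∈ Subgroup.center M ↔ (y : G) ∈ Subgroup.centralizer (M : Set G) := by
    intro y
    rw [Subgroup.mem_center_iff, Subgroup.mem_centralizer_iff]
    constructor
    · intro h g hg
      exact congrArg Subtype.val (h ⟨g, hg⟩)
    · intro h g
      exact Subtype.ext (h g g.2)
  have hdisj : ∀ x ∈ F, x ∈ W → x = 1 := by
    intro x hxF hxW
    rw [hFeq] at hxF
    have hxM : x ∈ M := hPM hxW.1
    have h4 : (⟨x, hxM⟩ : M) ∈ (commutator M ⊓ P') ⊓ (Subgroup.center M ⊓ P') :=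
      ⟨⟨(hcomm _).mpr hxF.1, Subgroup.mem_subgroupOf.mpr hxF.2⟩,
        ⟨(hcent _).mpr hxW.2, Subgroup.mem_subgroupOf.mpr hxW.1⟩⟩
    rw [h2, Subgroup.mem_bot] at h4
    exact congrArg Subtype.val h4
  have hsup : ∀ x ∈ P₀, ∃ c ∈ F, ∃ z ∈ W, c * z = x := by
    intro x hx
    have hxM : x ∈ M := hPM hx
    have h4 : (⟨x, hxM⟩ : M) ∈ (commutator M ⊓ P') ⊔ (Subgroup.center M ⊓ P') := by
      rw [h3]; exact Subgroup.mem_subgroupOf.mpr hx
    obtain ⟨c, hc, z, hz, hcz⟩ := Subgroup.mem_sup_of_normal_left.mp h4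
    refine ⟨c, ?_, z, ?_, congrArg Subtype.val hcz⟩
    · rw [hFeq]
      exact ⟨(hcomm _).mp hc.1, Subgroup.mem_subgroupOf.mp hc.2⟩
    · exact ⟨Subgroup.mem_subgroupOf.mp hz.2, (hcent _).mp hz.1⟩
  have hWP : W ≤ P₀ := inf_le_left
  let f : W →* P₀ ⧸ P₀.focalSubgroupOf :=
    (QuotientGroup.mk' P₀.focalSubgroupOf).comp (Subgroup.inclusion hWP)
  have hf : Function.Bijective f := by
    constructor
    · rw [injective_iff_map_eq_one]
      intro w hw
      have h4 : Subgroup.inclusion hWP w ∈ P₀.focalSubgroupOf :=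
        (QuotientGroup.eq_one_iff _).mp hw
      rw [Subgroup.focalSubgroupOf_def, Subgroup.mem_subgroupOf] at h4
      exact Subtype.ext (hdisj w h4 w.2)
    · intro q
      obtain ⟨x, rfl⟩ := QuotientGroup.mk'_surjective _ q
      obtain ⟨c, hc, z, hz, hcz⟩ := hsup x x.2
      refine ⟨⟨z, hz⟩, ?_⟩
      change QuotientGroup.mk' _ (Subgroup.inclusion hWP ⟨z, hz⟩) = QuotientGroup.mk' _ x
      rw [QuotientGroup.mk'_apply, QuotientGroup.mk'_apply, QuotientGroup.eq,
        Subgroup.focalSubgroupOf_def, Subgroup.mem_subgroupOf]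
      have h5 : (((Subgroup.inclusion hWP ⟨z, hz⟩)⁻¹ * x : P₀) : G) = z⁻¹ * c * z := by
        rw [Subgroup.coe_mul, Subgroup.coe_inv, ← hcz]
        simp [mul_assoc]
      rw [h5]
      have hcP : c ∈ P₀ := P₀.focalSubgroup_le hc
      have hzc : z⁻¹ * c * z = c := by
        have := mul_comm (⟨c, hcP⟩ : P₀) ⟨z, hWP hz⟩
        have h6 : c * z = z * c := congrArg Subtype.val this
        rw [mul_assoc, h6]; group
      rw [hzc]; exact hc
  refine ⟨P₀.transferFocal.ker, inferInstance, ⟨?_⟩⟩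
  exact (Subgroup.transferFocal.quotientKerMulEquivQuotientFocalSubroupOf P).trans
    (MulEquiv.ofBijective f hf).symm

end Cfsg.Agent.S0105
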