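import Cfsg.Statements.S0618
import Cfsg.Agent.Lib.Helper55Hol2
import Cfsg.Agent.S0600
import Cfsg.Agent.S0601
import Cfsg.Agent.S0608

set_option autoImplicit false
open Cfsg

namespace Cfsg.Agent.S0618

/-- A p-separable group with trivial p'-core in which the Thompson factorization fails has p = 2 or 3, and J(G) induces on the normal closure of Ω₁(Z(S)) a group containing a normal SL(2, p). -/
theorem result {G : Type*} [Group G] [Finite G] {p : ℕ} [Fact p.Prime] (hsep : Cfsg.IsPSolvable p G) (hO : Cfsg.pPrimeCore p G = ⊥) (hnf : ¬ Cfsg.IsThompsonFactorizable p G) : (p = 2 ∨ p = 3) ∧ ∃ E : Subgroup G, Subgroup.centralizer ((⨆ S : Sylow p G, Cfsg.omegaOne p ((S : Subgroup G) ⊓ Subgroup.centralizer ((S : Subgroup G) : Set G))) : Set G) ≤ E ∧ E ≤ Cfsg.thompsonSubgroup p G ⊔ Subgroup.centralizer ((⨆ S : Sylow p G, Cfsg.omegaOne p ((S : Subgroup G) ⊓ Subgroup.centralizer ((S : Subgroup G) : Set G))) : Set G) ∧ Cfsg.thompsonSubgroup p G ⊔ Subgroup.centralizer ((⨆ S : Sylow p G, Cfsg.omegaOne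 p ((S : Subgroup G) ⊓ Subgroup.centralizer ((S : Subgroup G) : Set G))) : Set G) ≤ Subgroup.normalizer (E : Set G) ∧ ∃ hn : ((Subgroup.centralizer ((⨆ S : Sylow p G, Cfsg.omegaOne p ((S : Subgroup G) ⊓ Subgroup.centralizer ((S : Subgroup G) : Set G))) : Set G)).subgroupOf E).Normal, Nonempty ((↥E ⧸ (Subgroup.centralizer ((⨆ S : Sylow p G, Cfsg.omegaOne p ((S : Subgroup G) ⊓ Subgroup.centralizer ((S : Subgroup G) : Set G))) : Set G)).subgroupOf E) ≃* Matrix.SpecialLinearGroup (Fin 2) (ZMod p)) := by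
  have hc := Cfsg.Agent.Lib.Helper38HH.centralizer_pCore_le hsep hO
  obtain ⟨hVn, hV, -⟩ := Cfsg.Agent.S0601.result (G := G) (p := p) hc
  have hJ := (not_congr (Cfsg.Agent.S0608.result (G := G) (p := p) hO)).1 hnf
  set V : Subgroup G := ⨆ S : Sylow p G, Cfsg.omegaOne p ((S : Subgroup G) ⊓ Subgroup.centralizer ((S : Subgroup G) : Set G)) with hVdef
  have hgen : V = ⨆ S : Sylow p G, V ⊓ Subgroup.centralizer ((S : Subgroup G) : Set G) := by
    apply le_antisymm
    · conv_lhs => rw [hVdef]
      refine iSup_le fun S => le_trans ?_ (le_iSup (fun S : Sylow p G => V ⊓ Subgroup.centralizer ((S : Subgroup G) : Set G)) S)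
      refine le_inf (le_iSup (fun S : Sylow p G => Cfsg.omegaOne p ((S : Subgroup G) ⊓ Subgroup.centralizer ((S : Subgroup G) : Set G))) S) ?_
      unfold Cfsg.omegaOne
      rw [Subgroup.closure_le]
      rintro x ⟨hx, -⟩
      exact hx.2
    · exact iSup_le fun S => inf_le_left
  have hOp := Cfsg.Agent.S0600.result V hV hgen
  have key : Subgroup.centralizer (⨆ S : Sylow p G, ((Cfsg.omegaOne p ((S : Subgroup G) ⊓ Subgroup.centralizer ((S : Subgroup G) : Set G)) : Subgroup G) : Set G)) = Subgroup.centralizer (V : Set G) := by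
    apply le_antisymm
    · intro x hx
      have h1 : V ≤ Subgroup.centralizer {x} := by
        rw [hVdef]
        refine iSup_le fun S y hy => ?_
        rw [Subgroup.mem_centralizer_iff]
        intro z hz
        have hz' : z = x := hz
        rw [hz']
        refine ((Subgroup.mem_centralizer_iff.1 hx) y ?_).symm
        rw [Set.iSup_eq_iUnion]
        exact Set.mem_iUnion.2 ⟨S, hy⟩
      rw [Subgroup.mem_centralizer_iff]
      intro y hy
      exact ((Subgroup.mem_centralizer_iff.1 (h1 hy)) x rfl).symm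
    · apply Subgroup.centralizer_le
      rw [Set.iSup_eq_iUnion]
      exact Set.iUnion_subset fun S => (le_iSup (fun S : Sylow p G => Cfsg.omegaOne p ((S : Subgroup G) ⊓ Subgroup.centralizer ((S : Subgroup G) : Set G))) S)
  rw [key]
  exact Cfsg.Agent.Lib.Helper55Hol.exists_SL2_section hsep hV hOp hJ

end Cfsg.Agent.S0618
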