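import Cfsg.Statements.S0109
import Cfsg.Agent.S0618
import Cfsg.Agent.Lib.Helper55Q8
import Cfsg.Agent.Lib.Helper55PSolv

set_option autoImplicit false
open Cfsg

namespace Cfsg.Agent.S0109

/-- The Thompson factorization Theorem for solvable groups states that, with p odd (and abelian Sylow 2-subgroups when p = 3) and no nontrivial normal subgroup of order prime to p, every element of G is a product of an element normalizing J(P) and an element centralizing the elements of order dividing p in the centre of P. -/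
theorem result {G : Type*} [Group G] [Finite G] {p : ℕ} [Fact p.Prime] (hp : p ≠ 2) (hs : Group.IsSolvable G) (h3 : p = 3 → ∀ T : Sylow 2 G, IsMulCommutative T) (hF : ∀ N : Subgroup G, N.Normal → Nat.Coprime (Nat.card N) p → N = ⊥) (P : Sylow p G) (g : G) : ∃ a ∈ Subgroup.normalizer (Cfsg.thompsonSubgroupOf p (P : Subgroup G) : Set G), ∃ c ∈ Subgroup.centralizer {x : G | x ∈ (P : Subgroup G) ∧ (∀ y ∈ (P : Subgroup G), x * y = y * x) ∧ x ^ p = 1}, g = a * c := by
  have hsep := Cfsg.Agent.Lib.Helper55PSolv.isPSolvable_of_isSolvable p hs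
  have hO : Cfsg.pPrimeCore p G = ⊥ :=
    hF _ Cfsg.Agent.Lib.Helper40Cores.pPrimeCore_normal Cfsg.Agent.Lib.Helper40Cores.pPrimeCore_coprime
  have hfac : Cfsg.IsThompsonFactorizable p G := by
    by_contra hnf
    obtain ⟨h23, E, -, -, -, hn, ⟨e⟩⟩ := Cfsg.Agent.S0618.result hsep hO hnf
    obtain rfl : p = 3 := h23.resolve_left hp
    exact Cfsg.Agent.Lib.Helper55FF.false_of_section (h3 rfl) E
      (e.toMonoidHom.comp (QuotientGroup.mk' _))
      (e.surjective.comp (QuotientGroup.mk'_surjective _))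
  obtain ⟨x, hx, c, hc, n, hn, hg⟩ := hfac P g⁻¹
  rw [hO, Subgroup.mem_bot] at hx
  refine ⟨n⁻¹, inv_mem hn, c⁻¹, inv_mem ?_, ?_⟩
  · refine Subgroup.centralizer_le ?_ hc
    rintro y ⟨hy1, hy2, hy3⟩
    refine Subgroup.subset_closure ⟨Subgroup.mem_inf.2 ⟨hy1, ?_⟩, hy3⟩
    rw [Subgroup.mem_centralizer_iff]
    intro z hz
    exact (hy2 z hz).symm
  · rw [← mul_inv_rev, ← inv_inj, inv_inv, hg, hx, one_mul]

end Cfsg.Agent.S0109
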