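import Cfsg.Statements.S0110
import Cfsg.Agent.Lib.Helper3ExtraInner

set_option autoImplicit false
open Cfsg

namespace Cfsg.Agent.S0110

open scoped commutatorElement
open Cfsg.Agent.Lib.Helper3ExtraInner

/-- In a p-group G, an extraspecial subgroup E with [G, E] ≤ Z(E) satisfies G = E C_G(E). -/
theorem result {G : Type*} [Group G] [Finite G] {p : ℕ} [Fact p.Prime] (hG : IsPGroup p G) (E : Subgroup G) (hE : Cfsg.IsExtraspecial p E) (h : ⁅(⊤ : Subgroup G), E⁆ ≤ E ⊓ Subgroup.centralizer (E : Set G)) : E ⊔ Subgroup.centralizer (E : Set G) = ⊤ := by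
  rw [eq_top_iff]
  intro g _
  have hcomm : ∀ (k : G) (e : G), e ∈ E → ⁅k, e⁆ ∈ E ⊓ Subgroup.centralizer (E : Set G) :=
    fun k e he => h (Subgroup.commutator_mem_commutator (Subgroup.mem_top k) he)
  have hconj : ∀ e : E, g * (e : G) * g⁻¹ ∈ E := by
    intro e
    have : g * (e : G) * g⁻¹ = ⁅g, (e : G)⁆ * e := by rw [commutatorElement_def]; group
    rw [this]
    exact E.mul_mem (hcomm g e e.2).1 e.2
  let α : E →* E :=
    { toFun := fun e => ⟨g * (e : G) * g⁻¹, hconj e⟩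
      map_one' := by apply Subtype.ext; simp
      map_mul' := by
        intro a b
        apply Subtype.ext
        simp only [Subgroup.coe_mul]
        group }
  have hα : ∀ e : E, e⁻¹ * α e ∈ Subgroup.center E := by
    intro e
    rw [Subgroup.mem_center_iff]
    intro b
    apply Subtype.ext
    have h1 : ((e⁻¹ * α e : E) : G) = (⁅g, (e : G)⁻¹⁆)⁻¹ := by
      change (e : G)⁻¹ * (g * (e : G) * g⁻¹) = _
      rw [commutatorElement_def]; group
    have h2 := Subgroup.inv_mem _ (hcomm g (e : G)⁻¹ (E.inv_mem e.2)).2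
    change (b : G) * ((e⁻¹ * α e : E) : G) = ((e⁻¹ * α e : E) : G) * (b : G)
    rw [h1]
    exact Subgroup.mem_centralizer_iff.mp h2 b b.2
  obtain ⟨e₀, he₀⟩ := inner_of_trivial_mod_center (p := p) (Nat.card E) E le_rfl hE α hα
  have h1 : (e₀ : G)⁻¹ * g ∈ Subgroup.centralizer (E : Set G) := by
    rw [Subgroup.mem_centralizer_iff]
    intro e he
    have h2 : g * e * g⁻¹ = (e₀ : G) * e * (e₀ : G)⁻¹ := congrArg Subtype.val (he₀ ⟨e, he⟩)
    calc e * ((e₀ : G)⁻¹ * g) = (e₀ : G)⁻¹ * ((e₀ : G) * e * (e₀ : G)⁻¹) * g := by group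
      _ = (e₀ : G)⁻¹ * (g * e * g⁻¹) * g := by rw [h2]
      _ = (e₀ : G)⁻¹ * g * e := by group
  have h2 : g = (e₀ : G) * ((e₀ : G)⁻¹ * g) := by group
  rw [h2]
  exact Subgroup.mul_mem_sup e₀.2 h1

end Cfsg.Agent.S0110
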