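import Cfsg.Statements.S0114
import Cfsg.Agent.Lib.Helper3TwoMax
import Cfsg.Agent.S0206

set_option autoImplicit false
open Cfsg

namespace Cfsg.Agent.S0114

/-- The central quotient of a 2-group of maximal class is dihedral. -/
theorem result {X : Type*} [Group X] [Finite X] (n : ℕ) (hn : 3 ≤ n) (hX : Nat.card X = 2 ^ n) (hc : Group.nilpotencyClass X = n - 1) : Nonempty (X ⧸ Subgroup.center X ≃* DihedralGroup (2 ^ (n - 2))) := by
  haveI : Fact (Nat.Prime 2) := ⟨Nat.prime_two⟩
  obtain ⟨hidx, _⟩ := Lib.Helper3TwoMax.maxclass_abelianization n hn hX hc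
  obtain ⟨m, rfl⟩ : ∃ m, n = m + 3 := ⟨n - 3, by omega⟩
  have hP : IsPGroup 2 X := IsPGroup.of_card hX
  obtain ⟨C, hCc, hCi⟩ := Lib.Helper3TwoMax.exists_cyclic_index_two m X hX hidx
  have hC : ∀ a ∈ C, ∀ b ∈ C, a * b = b * a := by
    intro a ha b hb
    exact congrArg Subtype.val ((IsCyclic.commGroup (α := C)).mul_comm ⟨a, ha⟩ ⟨b, hb⟩)
  obtain ⟨⟨x, hxC⟩, hgen⟩ := hCc.exists_generator
  have hgen' : ∀ c ∈ C, ∃ k : ℤ, x ^ k = c := by
    intro c hc
    obtain ⟨k, hk⟩ := Subgroup.mem_zpowers_iff.mp (hgen ⟨c, hc⟩)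
    exact ⟨k, by simpa using congrArg Subtype.val hk⟩
  obtain ⟨t, ht⟩ := Lib.Helper3TwoMax.exists_not_mem_of_index_two C hCi
  have hnc := Lib.Helper3TwoMax.not_comm_of_index_four m hX hidx
  have key1 : ∀ s, s ∉ C → ∀ c ∈ C, c * s = s * c → c ∈ Subgroup.center X := by
    intro s hs c hc hcs
    rw [Subgroup.mem_center_iff]
    intro g
    by_cases hg : g ∈ C
    · exact hC g hg c hc
    · have hd : g * s⁻¹ ∈ C := by
        rw [Subgroup.mul_mem_iff_of_index_two hCi, Subgroup.inv_mem_iff]
        exact ⟨fun h => absurd h hg, fun h => absurd h hs⟩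
      have h1 := hC (g * s⁻¹) hd c hc
      calc g * c = (g * s⁻¹) * (s * c) := by group
        _ = (g * s⁻¹) * (c * s) := by rw [hcs]
        _ = ((g * s⁻¹) * c) * s := by group
        _ = (c * (g * s⁻¹)) * s := by rw [h1]
        _ = c * g := by group
  have hZC : Subgroup.center X ≤ C := by
    intro s hsZ
    by_contra hs
    apply hnc
    have hall : ∀ g : X, g ∈ Subgroup.center X := by
      intro g
      by_cases hg : g ∈ C
      · exact key1 s hs g hg (Subgroup.mem_center_iff.mp hsZ g)
      · have hd : g * s⁻¹ ∈ C := by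
          rw [Subgroup.mul_mem_iff_of_index_two hCi, Subgroup.inv_mem_iff]
          exact ⟨fun h => absurd h hg, fun h => absurd h hs⟩
        have : g = (g * s⁻¹) * s := by group
        rw [this]
        exact Subgroup.mul_mem _ (key1 s hs _ hd (Subgroup.mem_center_iff.mp hsZ _)) hsZ
    intro a b
    exact (Subgroup.mem_center_iff.mp (hall b) a)
  have hK := Lib.Helper3TwoMax.card_inf_centralizer_le (m + 1) hX hidx C hC hCi t ht
  have hZK : Subgroup.center X ≤ C ⊓ Subgroup.centralizer {t} := by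
    refine le_inf hZC ?_
    intro w hw
    rw [Subgroup.mem_centralizer_singleton_iff]
    exact (Subgroup.mem_center_iff.mp hw t).symm
  have hZcard : Nat.card (Subgroup.center X) = 2 := by
    have h1 : Nat.card (Subgroup.center X) ≤ 2 := (Subgroup.card_le_of_le hZK).trans hK
    have h2 : Nat.card (Subgroup.center X) ≠ 1 := by
      intro h
      rw [Subgroup.card_eq_one] at h
      obtain ⟨b, _, hbZ, hb1⟩ := Lib.Helper3PGroup.normal_inf_center_ne_bot hP ⊤ (by
        intro htop
        have := Subgroup.card_top (G := X)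
        rw [htop, Subgroup.card_bot, hX] at this
        have h3 : 2 ^ (m + 3) = 2 ^ m * 8 := by ring
        have h4 : 0 < 2 ^ m := by positivity
        omega)
      rw [h] at hbZ
      exact hb1 (Subgroup.mem_bot.mp hbZ)
    have h3 : 0 < Nat.card (Subgroup.center X) := Nat.card_pos
    omega
  have hYcard : Nat.card (X ⧸ Subgroup.center X) = 2 ^ (m + 2) := by
    have := Subgroup.card_eq_card_quotient_mul_card_subgroup (Subgroup.center X)
    rw [hX, hZcard] at this
    have h2 : 2 ^ (m + 3) = 2 ^ (m + 2) * 2 := by ring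
    omega
  have hord : ∀ s, s ∉ C → orderOf (s : X ⧸ Subgroup.center X) = 2 := by
    intro s hs
    apply orderOf_eq_prime
    · rw [← QuotientGroup.mk_pow, QuotientGroup.eq_one_iff]
      exact key1 s hs _ (Subgroup.sq_mem_of_index_two hCi s) (by group)
    · rw [Ne, QuotientGroup.eq_one_iff]
      exact fun h => hs (hZC h)
  have htx : t * x ∉ C := by
    rw [Subgroup.mul_mem_iff_of_index_two hCi]
    exact fun h => ht (h.mpr hxC)
  have hne : (t : X ⧸ Subgroup.center X) ≠ ((t * x : X) : X ⧸ Subgroup.center X) := by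
    intro h
    rw [QuotientGroup.eq] at h
    have hxZ : x ∈ Subgroup.center X := by simpa using h
    have hCZ : C ≤ Subgroup.center X := by
      intro c hc
      obtain ⟨k, rfl⟩ := hgen' c hc
      exact Subgroup.zpow_mem _ hxZ k
    have h1 := Subgroup.card_le_of_le hCZ
    have h2 := Subgroup.card_mul_index C
    rw [hCi, hX] at h2
    have h3 : 2 ^ (m + 3) = 2 ^ m * 8 := by ring
    have h4 : 0 < 2 ^ m := by positivity
    omega
  have hcl : Subgroup.closure ({(t : X ⧸ Subgroup.center X),
      ((t * x : X) : X ⧸ Subgroup.center X)} : Set (X ⧸ Subgroup.center X)) = ⊤ := by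
    rw [eq_top_iff]
    intro y _
    obtain ⟨g, rfl⟩ := QuotientGroup.mk_surjective y
    set H := Subgroup.closure ({(t : X ⧸ Subgroup.center X),
      ((t * x : X) : X ⧸ Subgroup.center X)} : Set (X ⧸ Subgroup.center X)) with hH
    have h1 : (t : X ⧸ Subgroup.center X) ∈ H := Subgroup.subset_closure (by simp)
    have h2 : ((t * x : X) : X ⧸ Subgroup.center X) ∈ H := Subgroup.subset_closure (by simp)
    have h3 : (x : X ⧸ Subgroup.center X) ∈ H := by
      have : (x : X ⧸ Subgroup.center X) = (t : X ⧸ Subgroup.center X)⁻¹ *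
          ((t * x : X) : X ⧸ Subgroup.center X) := by
        rw [← QuotientGroup.mk_inv, ← QuotientGroup.mk_mul]; congr 1; group
      rw [this]; exact H.mul_mem (H.inv_mem h1) h2
    have h4 : ∀ c ∈ C, (c : X ⧸ Subgroup.center X) ∈ H := by
      intro c hc
      obtain ⟨k, rfl⟩ := hgen' c hc
      rw [QuotientGroup.mk_zpow]
      exact H.zpow_mem h3 k
    by_cases hg : g ∈ C
    · exact h4 g hg
    · have hd : t⁻¹ * g ∈ C := by
        rw [Subgroup.mul_mem_iff_of_index_two hCi, Subgroup.inv_mem_iff]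
        exact ⟨fun h => absurd h ht, fun h => absurd h hg⟩
      have : (g : X ⧸ Subgroup.center X) = (t : X ⧸ Subgroup.center X) *
          ((t⁻¹ * g : X) : X ⧸ Subgroup.center X) := by
        rw [← QuotientGroup.mk_mul]; congr 1; group
      rw [this]; exact H.mul_mem h1 (h4 _ hd)
  obtain ⟨e⟩ := S0206.result (t : X ⧸ Subgroup.center X) ((t * x : X) : X ⧸ Subgroup.center X)
    (hord t ht) (hord _ htx) hne
  have hm : orderOf ((t : X ⧸ Subgroup.center X) * ((t * x : X) : X ⧸ Subgroup.center X)) =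
      2 ^ (m + 3 - 2) := by
    have h1 := Nat.card_congr e.toEquiv
    rw [hcl, Subgroup.card_top, hYcard, DihedralGroup.nat_card] at h1
    have h2 : 2 ^ (m + 2) = 2 * 2 ^ (m + 3 - 2) := by
      have : m + 3 - 2 = m + 1 := by omega
      rw [this]; ring
    omega
  rw [hm, hcl] at e
  exact ⟨Subgroup.topEquiv.symm.trans e⟩

end Cfsg.Agent.S0114
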