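import Cfsg.Statements.S0119
import Cfsg.Agent.Lib.Helper3PGroup

set_option autoImplicit false
open Cfsg

namespace Cfsg.Agent.S0119

open Subgroup
open scoped commutatorElement

variable {G : Type*} [Group G]

/-- in a class two group, `x ↦ ⁅x, y⁆` is multiplicative -/
theorem comm_mul_left (hcl : commutator G ≤ center G) (x₁ x₂ y : G) :
    ⁅x₁ * x₂, y⁆ = ⁅x₁, y⁆ * ⁅x₂, y⁆ := by
  have h : ⁅x₂, y⁆ ∈ center G := hcl (commutator_mem_commutator (mem_top _) (mem_top _))
  have h1 := (mem_center_iff.1 h) x₁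
  calc ⁅x₁ * x₂, y⁆ = (x₁ * ⁅x₂, y⁆) * x₁⁻¹ * ⁅x₁, y⁆ := by
        simp only [commutatorElement_def]; group
    _ = (⁅x₂, y⁆ * x₁) * x₁⁻¹ * ⁅x₁, y⁆ := by rw [h1]
    _ = ⁅x₂, y⁆ * ⁅x₁, y⁆ := by group
    _ = ⁅x₁, y⁆ * ⁅x₂, y⁆ := ((mem_center_iff.1 h) _).symm

theorem comm_pow_left (hcl : commutator G ≤ center G) (x y : G) (n : ℕ) :
    ⁅x ^ n, y⁆ = ⁅x, y⁆ ^ n := by
  induction n with
  | zero => simp
  | succ n ih => rw [pow_succ, comm_mul_left hcl, ih, pow_succ]

theorem comm_pow_right (hcl : commutator G ≤ center G) (x y : G) (n : ℕ) :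
    ⁅x, y ^ n⁆ = ⁅x, y⁆ ^ n := by
  rw [← commutatorElement_inv, comm_pow_left hcl, ← inv_pow, commutatorElement_inv]

/-- If a p'-group A of automorphisms of a p-group G satisfies G = [G, A] and acts trivially on every characteristic abelian subgroup, then G is special with centre equal to the fixed points of A. -/
theorem result {G : Type*} [Group G] [Finite G] {p : ℕ} [Fact p.Prime] (hG : IsPGroup p G) (A : Subgroup (MulAut G)) (hA : Nat.Coprime (Nat.card A) p) (hGA : Subgroup.closure {x : G | ∃ g : G, ∃ a ∈ A, x = g⁻¹ * a g} = ⊤) (hchar : ∀ H : Subgroup G, H.Characteristic → IsMulCommutative H → ∀ a ∈ A, ∀ h ∈ H, a h = h) : Cfsg.IsSpecial p G ∧ (∀ g : G, (g ∈ Subgroup.center G ↔ ∀ a ∈ A, a g = g)) := by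
  classical
  -- Step 1: characteristic abelian subgroups are central
  have hcentral : ∀ X : Subgroup G, X.Characteristic → IsMulCommutative X → X ≤ center G := by
    intro X hX hXc x hx
    have hXn : X.Normal := normal_of_characteristic X
    have h1 : (⊤ : Subgroup G) ≤ centralizer {x} := by
      rw [← hGA, closure_le]
      rintro s ⟨g, a, ha, rfl⟩
      rw [SetLike.mem_coe, mem_centralizer_singleton_iff]
      have h2 := hchar X hX hXc a ha (g * x * g⁻¹) (hXn.conj_mem x hx g)
      have h3 := hchar X hX hXc a ha x hx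
      rw [map_mul, map_mul, map_inv, h3] at h2
      calc g⁻¹ * a g * x = g⁻¹ * (a g * x * (a g)⁻¹) * a g := by group
        _ = g⁻¹ * (g * x * g⁻¹) * a g := by rw [h2]
        _ = x * (g⁻¹ * a g) := by group
    rw [mem_center_iff]
    intro g
    exact (mem_centralizer_singleton_iff.1 (h1 (mem_top g)))
  -- Step 2: class at most two
  have hnil : Group.IsNilpotent G := hG.isNilpotent
  have hstep : ∀ k : ℕ, 1 ≤ k → (⊤ : Subgroup G).lowerCentralSeries (k + 1) ≤ center G →
      (⊤ : Subgroup G).lowerCentralSeries k ≤ center G := by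
    intro k hk h
    set L := (⊤ : Subgroup G).lowerCentralSeries k with hL
    have hLc : L.Characteristic := by rw [hL]; infer_instance
    have hLG : L ≤ commutator G := by
      rw [← top_lowerCentralSeries_one]
      exact Subgroup.lowerCentralSeries_antitone _ hk
    have h1 : ⁅⁅L, (⊤ : Subgroup G)⁆, (⊤ : Subgroup G)⁆ = ⊥ := by
      rw [eq_bot_iff, commutator_le]
      intro x hx y _
      have hx' : x ∈ center G := h hx
      rw [mem_bot, commutatorElement_eq_one_iff_mul_comm]
      exact ((mem_center_iff.1 hx') y).symm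
    have h2 : ⁅⁅(⊤ : Subgroup G), L⁆, (⊤ : Subgroup G)⁆ = ⊥ := by
      rw [commutator_comm ⊤ L]; exact h1
    have h3 : ⁅⁅(⊤ : Subgroup G), (⊤ : Subgroup G)⁆, L⁆ = ⊥ :=
      commutator_commutator_eq_bot_of_rotate h2 h1
    apply hcentral L hLc
    refine ⟨⟨fun x y => ?_⟩⟩
    apply Subtype.ext
    have h4 : ⁅(x : G), (y : G)⁆ ∈ ⁅⁅(⊤ : Subgroup G), (⊤ : Subgroup G)⁆, L⁆ :=
      commutator_mem_commutator (hLG x.2) y.2
    rw [h3, mem_bot, commutatorElement_eq_one_iff_mul_comm] at h4
    exact h4
  have hcl : commutator G ≤ center G := by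
    obtain ⟨n, hn⟩ := Subgroup.nilpotent_iff_lowerCentralSeries.1 hnil
    have key : ∀ j k : ℕ, 1 ≤ k → (⊤ : Subgroup G).lowerCentralSeries (k + j) = ⊥ →
        (⊤ : Subgroup G).lowerCentralSeries k ≤ center G := by
      intro j
      induction j with
      | zero => intro k _ h; rw [add_zero] at h; rw [h]; exact bot_le
      | succ j ih =>
        intro k hk h
        apply hstep k hk
        apply ih (k + 1) (by omega)
        rw [← h]; congr 1; omega
    rw [← top_lowerCentralSeries_one]
    apply key n 1 le_rfl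
    have := Subgroup.lowerCentralSeries_antitone (⊤ : Subgroup G) (show n ≤ 1 + n by omega)
    rw [hn] at this
    exact le_bot_iff.1 this
  -- Step 3: fixed points lie in the derived subgroup
  have hfix : ∀ g : G, (∀ a ∈ A, a g = g) → g ∈ commutator G := by
    intro g hg
    have : Fintype A := Fintype.ofFinite A
    let Nm : G →* Abelianization G :=
      ∏ a : A, (Abelianization.of.comp ((a : MulAut G).toMonoidHom))
    have hNm : ∀ x : G, Nm x = ∏ a : A, Abelianization.of ((a : MulAut G) x) := by
      intro x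
      simp only [Nm, MonoidHom.finsetProd_apply]
      rfl
    have hinv : ∀ (b : A) (x : G), Nm ((b : MulAut G) x) = Nm x := by
      intro b x
      rw [hNm, hNm]
      refine Fintype.prod_equiv (Equiv.mulRight b) _ _ ?_
      intro a
      simp [MulAut.mul_apply]
    have htriv : ∀ x : G, Nm x = 1 := by
      intro x
      have h1 : (⊤ : Subgroup G) ≤ Nm.ker := by
        rw [← hGA, closure_le]
        rintro s ⟨y, a, ha, rfl⟩
        rw [SetLike.mem_coe, MonoidHom.mem_ker, map_mul, map_inv, hinv ⟨a, ha⟩ y]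
        simp
      exact MonoidHom.mem_ker.1 (h1 (mem_top x))
    have h2 : (Abelianization.of g) ^ (Nat.card A) = 1 := by
      rw [← htriv g, hNm]
      rw [Finset.prod_congr rfl (fun a _ => by rw [hg a a.2])]
      simp [Nat.card_eq_fintype_card]
    obtain ⟨k, hk⟩ := hG g
    have h3 : (Abelianization.of g) ^ (p ^ k) = 1 := by
      rw [← map_pow, hk, map_one]
    have h4 : (Abelianization.of g) ^ (Nat.gcd (Nat.card A) (p ^ k)) = 1 :=
      pow_gcd_eq_one.2 ⟨h2, h3⟩
    rw [Nat.Coprime.pow_right k hA, pow_one] at h4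
    have h5 : g ∈ (Abelianization.of (G := G)).ker := MonoidHom.mem_ker.2 h4
    rwa [Abelianization.ker_of] at h5
  -- Step 4 : the derived subgroup has exponent p
  have hgen : ∀ n : ℕ, (∀ x y : G, ⁅x, y⁆ ^ n = 1) → ∀ c ∈ commutator G, c ^ n = 1 := by
    intro n h c hc
    let K : Subgroup G :=
      { carrier := {c | c ∈ center G ∧ c ^ n = 1}
        mul_mem' := by
          rintro c d ⟨hc1, hc2⟩ ⟨hd1, hd2⟩
          refine ⟨(center G).mul_mem hc1 hd1, ?_⟩
          have hcd : Commute c d := ((mem_center_iff.1 hc1) d).symm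
          rw [hcd.mul_pow, hc2, hd2, one_mul]
        one_mem' := ⟨(center G).one_mem, one_pow n⟩
        inv_mem' := by
          rintro c ⟨hc1, hc2⟩
          exact ⟨(center G).inv_mem hc1, by rw [inv_pow, hc2, inv_one]⟩ }
    have h1 : commutator G ≤ K := by
      rw [commutator_def, commutator_le]
      intro x _ y _
      exact ⟨hcl (commutator_mem_commutator (mem_top x) (mem_top y)), h x y⟩
    exact (h1 hc).2
  have hdown : ∀ m : ℕ, (∀ c ∈ commutator G, c ^ (p ^ (m + 2)) = 1) →
      ∀ c ∈ commutator G, c ^ (p ^ (m + 1)) = 1 := by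
    intro m hm
    set a := p ^ (m + 1) with ha
    set T : Set G := {z | ∃ x : G, z = x ^ a} with hT
    have hTc : (closure T).Characteristic := by
      rw [characteristic_iff_map_le]
      intro φ
      rw [MonoidHom.map_closure, closure_le]
      rintro _ ⟨_, ⟨x, rfl⟩, rfl⟩
      apply subset_closure
      exact ⟨φ x, by simp⟩
    have hTcomm : ∀ u ∈ T, ∀ v ∈ T, u * v = v * u := by
      rintro _ ⟨x, rfl⟩ _ ⟨y, rfl⟩
      rw [← commutatorElement_eq_one_iff_mul_comm, comm_pow_left hcl, comm_pow_right hcl, ← pow_mul]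
      have h1 := hm ⁅x, y⁆ (commutator_mem_commutator (mem_top x) (mem_top y))
      have h2 : a * a = p ^ (m + 2) * p ^ m := by
        rw [ha, ← pow_add, ← pow_add]; congr 1; omega
      rw [h2, pow_mul, h1, one_pow]
    have hTab : IsMulCommutative (closure T) := isMulCommutative_closure hTcomm
    have hTZ := hcentral _ hTc hTab
    apply hgen
    intro x y
    rw [← comm_pow_left hcl, commutatorElement_eq_one_iff_mul_comm]
    exact ((mem_center_iff.1 (hTZ (subset_closure ⟨x, rfl⟩))) y).symm
  have hexp : ∀ c ∈ commutator G, c ^ p = 1 := by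
    obtain ⟨n, hn⟩ := IsPGroup.iff_card.1 hG
    have key : ∀ m : ℕ, (∀ c ∈ commutator G, c ^ (p ^ (m + 1)) = 1) →
        ∀ c ∈ commutator G, c ^ p = 1 := by
      intro m
      induction m with
      | zero => intro h c hc; simpa using h c hc
      | succ m ih => intro h; exact ih (hdown m h)
    apply key n
    intro c _
    rw [pow_succ, pow_mul, ← hn, pow_card_eq_one', one_pow]
  have hZfix : ∀ g ∈ center G, ∀ a ∈ A, a g = g := by
    intro g hg a ha
    exact hchar (center G) inferInstance inferInstance a ha g hg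
  have hZG : center G ≤ commutator G := fun g hg => hfix g (hZfix g hg)
  have hEq : commutator G = center G := le_antisymm hcl hZG
  refine ⟨⟨hG, ?_, hEq⟩, ?_⟩
  · apply le_antisymm
    · apply Cfsg.Agent.Lib.Helper3PGroup.frattini_le_of_elementary (p := p) _ hcl
      intro x
      rw [mem_center_iff]
      intro y
      have h1 := comm_pow_left hcl x y p
      rw [hexp _ (commutator_mem_commutator (mem_top x) (mem_top y)),
        commutatorElement_eq_one_iff_mul_comm] at h1
      exact h1.symm
    · rw [← hEq]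
      exact Cfsg.Agent.Lib.Helper3PGroup.commutator_le_frattini hG
  · intro g
    exact ⟨hZfix g, fun h => hcl (hfix g h)⟩

end Cfsg.Agent.S0119
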