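import Cfsg.Statements.S0120
import Cfsg.Agent.Lib.Helper30Coprime

set_option autoImplicit false
open Cfsg

namespace Cfsg.Agent.S0120

open Cfsg.Agent.Lib.Helper30Coprime

/-- For odd p, a p'-automorphism of a p-group acting trivially on the elements of order dividing p is trivial. -/
theorem result {G : Type*} [Group G] [Finite G] {p : ℕ} [Fact p.Prime] (hp : p ≠ 2) (hG : IsPGroup p G) (a : MulAut G) (ha : Nat.Coprime (orderOf a) p) (h : ∀ x : G, x ^ p = 1 → a x = x) : a = 1 := by
  let X := G ⋊[MonoidHom.id (MulAut G)] (MulAut G)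
  have hfin : Finite X := Finite.of_equiv _ SemidirectProduct.equivProd.symm
  let P : Subgroup X := (SemidirectProduct.inl : G →* X).range
  let A : Subgroup X := Subgroup.zpowers (SemidirectProduct.inr a : X)
  have hconj : ∀ (k : ℤ) (x : G), (SemidirectProduct.inr a : X) ^ k * SemidirectProduct.inl x *
      ((SemidirectProduct.inr a : X) ^ k)⁻¹ = SemidirectProduct.inl ((a ^ k) x) := by
    intro k x
    have := SemidirectProduct.inl_aut (φ := MonoidHom.id (MulAut G)) (a ^ k) x
    rw [MonoidHom.id_apply] at this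
    rw [this, map_zpow, map_inv, map_zpow]
  have hcardA : Nat.card A = orderOf a := by
    rw [Nat.card_zpowers]
    exact orderOf_injective (SemidirectProduct.inr : MulAut G →* X) SemidirectProduct.inr_injective a
  have hP : IsPGroup p P := by
    have : IsPGroup p (SemidirectProduct.inl : G →* X).range := IsPGroup.of_surjective hG _
      (MonoidHom.rangeRestrict_surjective _)
    exact this
  have hAP : A ≤ Subgroup.normalizer (P : Set X) := by
    rw [Subgroup.le_normalizer_iff]
    rintro _ ⟨k, rfl⟩ _ ⟨x, rfl⟩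
    exact ⟨(a ^ k) x, (hconj k x).symm⟩
  have hpowfix : ∀ (k : ℤ) (x : G), a x = x → (a ^ k) x = x := by
    intro k x hx
    have hmem : a ∈ MulAction.stabilizer (MulAut G) x := hx
    exact (MulAction.stabilizer (MulAut G) x).zpow_mem hmem k
  have hfix : ∀ b ∈ A, ∀ y ∈ P, y ^ p = 1 → b * y * b⁻¹ = y := by
    rintro _ ⟨k, rfl⟩ _ ⟨x, rfl⟩ hxp
    have hx : x ^ p = 1 := by
      apply SemidirectProduct.inl_injective (φ := MonoidHom.id (MulAut G))
      rw [map_pow, map_one]
      exact hxp
    show (SemidirectProduct.inr a : X) ^ k * SemidirectProduct.inl x *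
      ((SemidirectProduct.inr a : X) ^ k)⁻¹ = SemidirectProduct.inl x
    rw [hconj k x, hpowfix k x (h x hx)]
  have key := centralizes_of_fix_order_p p hp A (hcardA ▸ ha) P hP hAP hfix
  ext x
  have h1 := key (SemidirectProduct.inr a) (Subgroup.mem_zpowers _) (SemidirectProduct.inl x) ⟨x, rfl⟩
  have h2 := hconj 1 x
  rw [zpow_one, zpow_one] at h2
  rw [h2] at h1
  exact SemidirectProduct.inl_injective h1

end Cfsg.Agent.S0120
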