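import Cfsg.Statements.S0123
import Cfsg.Agent.Lib.Helper3Class3

set_option autoImplicit false
open Cfsg

namespace Cfsg.Agent.S0123

open scoped commutatorElement

/-- For a p-group of small class relative to p (class ≤ 2 with p odd, or class ≤ 3 with p > 3) whose derived subgroup is generated by elements of order dividing p, the p-th power map is multiplicative. -/
theorem result {R : Type*} [Group R] [Finite R] {p : ℕ} [Fact p.Prime] (hR : IsPGroup p R) (hcl : (p ≠ 2 ∧ ⁅commutator R, (⊤ : Subgroup R)⁆ = ⊥) ∨ (3 < p ∧ ⁅⁅commutator R, (⊤ : Subgroup R)⁆, (⊤ : Subgroup R)⁆ = ⊥)) (hder : commutator R ≤ Subgroup.closure {x : R | x ^ p = 1}) (x y : R) : (x * y) ^ p = x ^ p * y ^ p := by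
  have hpp := (Fact.out : p.Prime)
  have hmem : ∀ a b : R, ⁅a, b⁆ ∈ commutator R := fun a b =>
    Subgroup.commutator_mem_commutator (Subgroup.mem_top a) (Subgroup.mem_top b)
  rcases hcl with ⟨hp2, h2⟩ | ⟨hp3, h3⟩
  · have hc := Lib.Helper3Class2.commutator_mem_center_of_class2 h2 y x
    exact Lib.Helper3Class2.mul_pow_prime_class2 hpp hp2 x y
      (Lib.Helper3Class2.commute_of_mem_center hc x) (Lib.Helper3Class2.commute_of_mem_center hc y)
      (Lib.Helper3Class2.omega_exponent_class2 hpp hp2 h2 _ (hder (hmem y x)))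
  · exact Lib.Helper3Class3.mul_pow_prime_class3 hpp hp3 x y
      (Lib.Helper3Class3.class3_central h3 y x x) (Lib.Helper3Class3.class3_central h3 y x y)
      (Lib.Helper3Class3.omega_exponent_class3 hpp hp3 h3 _ (hder (hmem y x)))
      (Lib.Helper3Class3.omega_exponent_class3 hpp hp3 h3 _ (hder (hmem _ x)))
      (Lib.Helper3Class3.omega_exponent_class3 hpp hp3 h3 _ (hder (hmem _ y)))

end Cfsg.Agent.S0123
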