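import Cfsg.Statements.S0125
import Cfsg.Agent.Lib.Helper3Hall

set_option autoImplicit false
open Cfsg

namespace Cfsg.Agent.S0125

open Cfsg.Agent.Lib.Helper3Hall

/-- The centralizer of a self-centralizing normal subgroup A of a Sylow p-subgroup is the direct product of A with a normal p'-subgroup. -/
theorem result {G : Type*} [Group G] [Finite G] {p : ℕ} [Fact p.Prime] (R : Sylow p G) (A : Subgroup G) (hAR : A ≤ (R : Subgroup G)) (hAn : (R : Subgroup G) ≤ Subgroup.normalizer (A : Set G)) (hC : (R : Subgroup G) ⊓ Subgroup.centralizer (A : Set G) = A) : ∃ H : Subgroup G, H ≤ Subgroup.centralizer (A : Set G) ∧ Nat.Coprime (Nat.card H) p ∧ Subgroup.centralizer (A : Set G) ≤ Subgroup.normalizer (H : Set G) ∧ H ⊓ A = ⊥ ∧ H ⊔ A = Subgroup.centralizer (A : Set G) := by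
  have hpp : p.Prime := Fact.out
  set C := Subgroup.centralizer (A : Set G) with hCdef
  have hAC : A ≤ C := by rw [← hC]; exact inf_le_right
  have hAp : IsPGroup p A := R.2.to_le hAR
  obtain ⟨S', hS'⟩ := (hAp.comap_subtype (K := C)).exists_le_sylow
  have hCN : C ≤ Subgroup.normalizer (A : Set G) := by
    intro c hc
    rw [Subgroup.mem_normalizer_iff]
    intro a
    constructor
    · intro ha
      have h1 : a * c = c * a := Subgroup.mem_centralizer_iff.mp hc a ha
      have h2 : c * a * c⁻¹ = a := by rw [← h1]; group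
      rw [h2]; exact ha
    · intro ha
      have h1 := Subgroup.mem_centralizer_iff.mp hc _ ha
      have h2 : a = c * a * c⁻¹ := by
        have : c * a * c⁻¹ * c = c * (c * a * c⁻¹) := h1
        have h3 : c * a = c * (c * a * c⁻¹) := by rw [← this]; group
        exact mul_left_cancel h3
      rw [h2]; exact ha
  -- the Sylow subgroup S' of C equals A
  have hSeq : (S' : Subgroup C) = A.subgroupOf C := by
    symm
    apply Subgroup.eq_of_le_of_card_ge hS'
    set S := (S' : Subgroup C).map C.subtype with hS
    have hSp : IsPGroup p S := S'.2.map _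
    have hSC : S ≤ C := Subgroup.map_subtype_le _
    obtain ⟨n, hnN, hn⟩ := psub_conj_in_subgroup R (Subgroup.normalizer (A : Set G)) S hAn
      (hSC.trans hCN) hSp
    have hle : S.map (MulAut.conj n⁻¹).toMonoidHom ≤ A := by
      rintro _ ⟨s, hs, rfl⟩
      have h1 : (MulAut.conj n⁻¹).toMonoidHom s = n⁻¹ * s * n := by simp
      rw [h1, ← hC]
      refine Subgroup.mem_inf.mpr ⟨hn s hs, ?_⟩
      rw [Subgroup.mem_centralizer_iff]
      intro a ha
      have h2 : n * a * n⁻¹ ∈ A := (Subgroup.mem_normalizer_iff.mp hnN a).mp ha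
      have h3 := Subgroup.mem_centralizer_iff.mp (hSC hs) _ h2
      calc a * (n⁻¹ * s * n) = n⁻¹ * ((n * a * n⁻¹) * s) * n := by group
        _ = n⁻¹ * (s * (n * a * n⁻¹)) * n := by rw [h3]
        _ = n⁻¹ * s * n * a := by group
    calc Nat.card (S' : Subgroup C) = Nat.card S :=
          (Subgroup.card_map_of_injective C.subtype_injective).symm
      _ = Nat.card (S.map (MulAut.conj n⁻¹).toMonoidHom) :=
          (Subgroup.card_map_of_injective (MulAut.conj n⁻¹).injective).symm
      _ ≤ Nat.card A := Subgroup.card_le_of_le hle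
      _ = Nat.card (A.subgroupOf C) := (Nat.card_congr (Subgroup.subgroupOfEquivOfLe hAC).toEquiv).symm
  have hP : Subgroup.normalizer (S' : Set C) ≤ Subgroup.centralizer (S' : Set C) := by
    intro c _
    rw [Subgroup.mem_centralizer_iff]
    intro a ha
    have ha' : a ∈ (S' : Subgroup C) := ha
    rw [hSeq, Subgroup.mem_subgroupOf] at ha'
    apply Subtype.ext
    exact Subgroup.mem_centralizer_iff.mp c.2 a ha'
  have hcompl := MonoidHom.ker_transferSylow_isComplement' S' hP
  have hnd := MonoidHom.not_dvd_card_ker_transferSylow S' hP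
  set K := (MonoidHom.transferSylow S' hP).ker with hK
  rw [hSeq] at hcompl
  refine ⟨K.map C.subtype, Subgroup.map_subtype_le _, ?_, ?_, ?_, ?_⟩
  · rw [Subgroup.card_map_of_injective C.subtype_injective]
    exact ((Nat.Prime.coprime_iff_not_dvd hpp).mpr hnd).symm
  · rw [← Subgroup.normal_subgroupOf_iff_le_normalizer (Subgroup.map_subtype_le _)]
    have : (K.map C.subtype).subgroupOf C = K := by
      rw [← Subgroup.comap_subtype]
      exact Subgroup.comap_map_eq_self_of_injective C.subtype_injective K
    rw [this]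
    infer_instance
  · have h1 := hcompl.disjoint.eq_bot
    rw [← Subgroup.map_subgroupOf_eq_of_le hAC, ← Subgroup.map_inf_eq _ _ _ C.subtype_injective, h1,
      Subgroup.map_bot]
  · have h1 := hcompl.sup_eq_top
    conv_lhs => rw [← Subgroup.map_subgroupOf_eq_of_le hAC]
    rw [← Subgroup.map_sup, h1, ← MonoidHom.range_eq_map, Subgroup.range_subtype]

end Cfsg.Agent.S0125
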