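import Cfsg.Statements.S0131
import Mathlib


set_option autoImplicit false
open Cfsg

namespace Cfsg.Agent.S0131

open scoped commutatorElement

/-- P/P' has a normal complement in G exactly when the focal subgroup G' ∩ P is as small as possible, namely P'. -/
theorem result {G : Type*} [Group G] [Finite G] {p : ℕ} [Fact p.Prime] (P : Sylow p G) : (∃ N : Subgroup G, N.Normal ∧ N ⊓ (P : Subgroup G) = ⁅(P : Subgroup G), (P : Subgroup G)⁆ ∧ N ⊔ (P : Subgroup G) = ⊤) ↔ commutator G ⊓ (P : Subgroup G) = ⁅(P : Subgroup G), (P : Subgroup G)⁆ := by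
  have hp : p.Prime := Fact.out
  have hle : ⁅(P : Subgroup G), (P : Subgroup G)⁆ ≤ commutator G ⊓ (P : Subgroup G) :=
    le_inf (Subgroup.commutator_mono le_top le_top) (Subgroup.commutator_le_self _)
  constructor
  · rintro ⟨N, hN, hNP, hsup⟩
    apply le_antisymm _ hle
    have hGN : commutator G ≤ N := by
      rw [commutator_def, Subgroup.commutator_le]
      intro x _ y _
      have hx : x ∈ N ⊔ (P : Subgroup G) := by rw [hsup]; exact Subgroup.mem_top x
      have hy : y ∈ N ⊔ (P : Subgroup G) := by rw [hsup]; exact Subgroup.mem_top y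
      obtain ⟨n, hn, a, ha, rfl⟩ := Subgroup.mem_sup_of_normal_left.mp hx
      obtain ⟨n', hn', b, hb, rfl⟩ := Subgroup.mem_sup_of_normal_left.mp hy
      rw [← QuotientGroup.eq_one_iff, ← QuotientGroup.mk'_apply, map_commutatorElement, map_mul,
        map_mul]
      have h1 : QuotientGroup.mk' N n = 1 := (QuotientGroup.eq_one_iff n).mpr hn
      have h2 : QuotientGroup.mk' N n' = 1 := (QuotientGroup.eq_one_iff n').mpr hn'
      rw [h1, h2, one_mul, one_mul, ← map_commutatorElement]
      apply (QuotientGroup.eq_one_iff _).mpr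
      have h3 : ⁅a, b⁆ ∈ N ⊓ (P : Subgroup G) := by
        rw [hNP]; exact Subgroup.commutator_mem_commutator ha hb
      exact h3.1
    rw [← hNP]
    exact inf_le_inf_right _ hGN
  · intro h
    set n := Nat.card (Abelianization G) with hn
    have hn0 : n ≠ 0 := Nat.card_pos.ne'
    set k := n.factorization p with hk
    set m := n / p ^ k with hm
    have hmul : p ^ k * m = n := Nat.ordProj_mul_ordCompl_eq_self n p
    have hcop : p.Coprime m := Nat.coprime_ordCompl hp hn0
    let f : G →* Abelianization G := (powMonoidHom m).comp Abelianization.of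
    have hf : ∀ g, f g = (Abelianization.of g) ^ m := fun g => rfl
    refine ⟨f.ker, MonoidHom.normal_ker f, ?_, ?_⟩
    · rw [← h]
      apply le_antisymm
      · intro g hg
        obtain ⟨hg1, hg2⟩ := Subgroup.mem_inf.mp hg
        refine Subgroup.mem_inf.mpr ⟨?_, hg2⟩
        rw [← Abelianization.ker_of, MonoidHom.mem_ker]
        have h1 : (Abelianization.of g) ^ m = 1 := hg1
        obtain ⟨j, hj⟩ := P.isPGroup' ⟨g, hg2⟩
        have h2 : g ^ p ^ j = 1 := by
          have := congrArg Subtype.val hj
          simpa using this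
        have h3 : (Abelianization.of g) ^ p ^ j = 1 := by rw [← map_pow, h2, map_one]
        have h4 : orderOf (Abelianization.of g) ∣ Nat.gcd m (p ^ j) :=
          Nat.dvd_gcd (orderOf_dvd_of_pow_eq_one h1) (orderOf_dvd_of_pow_eq_one h3)
        have h5 : Nat.gcd m (p ^ j) = 1 := (Nat.Coprime.pow_right j hcop.symm)
        rw [h5, Nat.dvd_one, orderOf_eq_one_iff] at h4
        exact h4
      · apply inf_le_inf_right
        intro g hg
        rw [← Abelianization.ker_of, MonoidHom.mem_ker] at hg
        rw [MonoidHom.mem_ker, hf, hg, one_pow]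
    · rw [← Subgroup.index_eq_one]
      have h1 : (f.ker ⊔ (P : Subgroup G)).index ∣ f.ker.index := Subgroup.index_dvd_of_le le_sup_left
      have h2 : (f.ker ⊔ (P : Subgroup G)).index ∣ (P : Subgroup G).index :=
        Subgroup.index_dvd_of_le le_sup_right
      have h3 : IsPGroup p f.range := by
        rintro ⟨y, g, rfl⟩
        refine ⟨k, ?_⟩
        apply Subtype.ext
        change (f g) ^ p ^ k = 1
        rw [hf, ← pow_mul, mul_comm, hmul, hn, pow_card_eq_one']
      obtain ⟨j, hj⟩ := IsPGroup.iff_card.mp h3
      rw [Subgroup.index_ker, hj] at h1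
      obtain ⟨i, -, hi⟩ := (Nat.dvd_prime_pow hp).mp h1
      rcases Nat.eq_zero_or_pos i with h0 | hpos
      · rw [hi, h0, pow_zero]
      · exfalso
        apply P.not_dvd_index
        refine dvd_trans ?_ h2
        rw [hi]
        exact dvd_pow_self p hpos.ne'


end Cfsg.Agent.S0131
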