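import Cfsg.Statements.S0132
import Cfsg.Agent.Lib.Helper11Counting

set_option autoImplicit false
open Cfsg

namespace Cfsg.Agent.S0132

/-- A minimal non-p-nilpotent finite group is a minimal non-nilpotent group with a normal Sylow p-subgroup. -/
theorem result {G : Type*} [Group G] [Finite G] {p : ℕ} [Fact p.Prime] (h1 : ¬ Cfsg.HasNormalPComplement p G) (h2 : ∀ H : Subgroup G, H ≠ ⊤ → Cfsg.HasNormalPComplement p H) : (∀ H : Subgroup G, H ≠ ⊤ → Group.IsNilpotent H) ∧ ¬ Group.IsNilpotent G ∧ ∀ P : Sylow p G, (P : Subgroup G).Normal := by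
  have hpp : p.Prime := Fact.out
  rw [← Lib.Helper11Frobenius.hasNPC_iff] at h1
  have h2' : ∀ H : Subgroup G, H ≠ ⊤ → Lib.Helper11Frobenius.HasNPC p H :=
    fun H hH => Lib.Helper11Frobenius.hasNPC_iff.mpr (h2 H hH)
  have hF : ¬ Lib.Helper11Frobenius.FrobCond p G := fun h => h1 (Lib.Helper11Frobenius.frobenius h)
  unfold Lib.Helper11Frobenius.FrobCond at hF
  push Not at hF
  obtain ⟨Q, hQ, g, hgN, hgp, hgC⟩ := hF
  set Z := Subgroup.zpowers g with hZ
  have hK : Q ⊔ Z = ⊤ := by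
    by_contra hne
    have h3 := Lib.Helper11Frobenius.frobCond_of_hasNPC (h2' _ hne)
    have hgK : g ∈ Q ⊔ Z := Subgroup.mem_sup_right (Subgroup.mem_zpowers g)
    have h4 := h3 (Q.subgroupOf (Q ⊔ Z)) hQ.comap_subtype ⟨g, hgK⟩ (by
      rw [Subgroup.mem_normalizer_iff]
      intro x
      exact Subgroup.mem_normalizer_iff.mp hgN x) (by rwa [Subgroup.orderOf_mk])
    apply hgC
    intro x hx
    exact congrArg Subtype.val (h4 ⟨x, Subgroup.mem_sup_left hx⟩ hx)
  have hQn : Q.Normal := by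
    rw [← Subgroup.normalizer_eq_top_iff, eq_top_iff, ← hK]
    exact sup_le Subgroup.le_normalizer (by rw [hZ, Subgroup.zpowers_le]; exact hgN)
  have hsurj : Function.Surjective ((QuotientGroup.mk' Q).comp Z.subtype) := by
    intro y
    obtain ⟨x, rfl⟩ := QuotientGroup.mk'_surjective Q y
    have hx : x ∈ ((Q ⊔ Z : Subgroup G) : Set G) := by rw [hK]; trivial
    rw [Subgroup.normal_mul] at hx
    obtain ⟨q, hq, z, hz, rfl⟩ := hx
    refine ⟨⟨z, hz⟩, ?_⟩
    simp only [MonoidHom.coe_comp, Function.comp_apply, Subgroup.coe_subtype, map_mul]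
    have hq1 : (QuotientGroup.mk' Q) q = 1 := (QuotientGroup.eq_one_iff q).mpr hq
    rw [hq1, one_mul]
  have hcyc : IsCyclic (G ⧸ Q) := isCyclic_of_surjective _ hsurj
  have hnilQ : Group.IsNilpotent (G ⧸ Q) := by
    let _ : CommGroup (G ⧸ Q) := IsCyclic.commGroup
    infer_instance
  have hcardQ : (Nat.card (G ⧸ Q)).Coprime p := by
    have h3 : Nat.card (G ⧸ Q) ∣ Nat.card Z := Subgroup.card_dvd_of_surjective _ hsurj
    rw [hZ, Nat.card_zpowers] at h3
    exact Nat.Coprime.coprime_dvd_left h3 hgp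
  have hpel : ∀ x : G, (∃ k : ℕ, x ^ p ^ k = 1) → x ∈ Q := by
    rintro x ⟨k, hk⟩
    rw [← QuotientGroup.eq_one_iff, ← orderOf_eq_one_iff]
    have ha : orderOf (x : G ⧸ Q) ∣ p ^ k := by
      apply orderOf_dvd_of_pow_eq_one
      rw [← QuotientGroup.mk_pow, hk, QuotientGroup.mk_one]
    have hb : orderOf (x : G ⧸ Q) ∣ Nat.card (G ⧸ Q) := orderOf_dvd_natCard _
    exact Nat.Coprime.eq_one_of_dvd (Nat.Coprime.pow_right k (Nat.Coprime.coprime_dvd_left hb hcardQ)) ha
  refine ⟨?_, ?_, ?_⟩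
  · intro H hH
    obtain ⟨N, hN, hNc, k, hk⟩ := h2' H hH
    have hnilN : Group.IsNilpotent (H ⧸ N) := by
      have : IsPGroup p (H ⧸ N) := IsPGroup.of_card (n := k) (by rw [← hk, Subgroup.index_eq_card])
      exact this.isNilpotent
    let φ : H →* (G ⧸ Q) × (H ⧸ N) := ((QuotientGroup.mk' Q).comp H.subtype).prod (QuotientGroup.mk' N)
    have hφ : Function.Injective φ := by
      rw [injective_iff_map_eq_one]
      intro x hx
      have hx1 : (QuotientGroup.mk' Q) (x : G) = 1 := congrArg Prod.fst hx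
      have hx2 : (QuotientGroup.mk' N) x = 1 := congrArg Prod.snd hx
      have hxQ : (x : G) ∈ Q := (QuotientGroup.eq_one_iff _).mp hx1
      have hxN : x ∈ N := (QuotientGroup.eq_one_iff _).mp hx2
      have hc := (Lib.Helper11Frobenius.mem_iff_coprime N hNc k hk x).mp hxN
      obtain ⟨j, hj⟩ := hQ ⟨x, hxQ⟩
      have hj' : x ^ p ^ j = 1 := by
        apply Subtype.ext
        simpa using congrArg Subtype.val hj
      have hd : orderOf x ∣ p ^ j := orderOf_dvd_of_pow_eq_one hj'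
      exact orderOf_eq_one_iff.mp (Nat.Coprime.eq_one_of_dvd (Nat.Coprime.pow_right j hc) hd)
    exact Group.nilpotent_of_mulEquiv (MonoidHom.ofInjective hφ).symm
  · intro hnil
    have hfin : IsOfFinOrder g := isOfFinOrder_of_finite g
    obtain ⟨r, hrp, hrd, R, hRZ, hRp, hRC⟩ :=
      Lib.Helper11Counting.exists_prime_subgroup_not_centralizing Q g hfin hgC
    have : Fact r.Prime := ⟨hrp⟩
    obtain ⟨S, hRS⟩ := hRp.exists_le_sylow
    have hSn : (S : Subgroup G).Normal := inferInstance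
    have hrp' : r ≠ p := by
      rintro rfl
      have : r ∣ Nat.gcd (orderOf g) r := Nat.dvd_gcd hrd dvd_rfl
      rw [Nat.Coprime] at hgp
      rw [hgp] at this
      exact hrp.one_lt.ne' (Nat.dvd_one.mp this)
    have hdis : Disjoint (S : Subgroup G) Q := IsPGroup.disjoint_of_ne r p hrp' _ _ S.isPGroup' hQ
    apply hRC
    intro x hx y hy
    exact (Subgroup.commute_of_normal_of_disjoint _ _ hSn hQn hdis x y (hRS hx) hy).symm
  · intro P
    have h3 : Q ≤ (P : Subgroup G) := hQ.le_sylow_of_normal P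
    have h4 : (P : Subgroup G) ≤ Q := by
      intro x hx
      apply hpel
      obtain ⟨j, hj⟩ := P.isPGroup' ⟨x, hx⟩
      exact ⟨j, by simpa using congrArg Subtype.val hj⟩
    rw [le_antisymm h4 h3]
    exact hQn

end Cfsg.Agent.S0132
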