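import Cfsg.Statements.S0166
import Cfsg.Agent.Lib.H4SfDefs
import Cfsg.Agent.Lib.H4SfBase
import Cfsg.Agent.Lib.H4SfAdd
import Cfsg.Agent.Lib.H4SfIrr
import Cfsg.Agent.Lib.Helper4Char4
import Cfsg.Agent.Lib.Helper4Equiv

set_option autoImplicit false
open Cfsg

namespace Cfsg.Agent.S0166

open Cfsg.Agent.Lib.H4SfDefs Cfsg.Agent.Lib.H4SfBase Cfsg.Agent.Lib.H4SfAdd
  Cfsg.Agent.Lib.H4SfIrr Cfsg.Agent.Lib.Helper4Char Cfsg.Agent.Lib.Helper4Char4

/-- Brauer's splitting field Theorem: a complex representation of a finite group of exponent m is equivalent to a representation by matrices with entries in ℚ adjoined exp(2πi/m). -/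
theorem result {G : Type*} [Group G] [Finite G] (n : ℕ) (ρ : Representation ℂ G (Fin n → ℂ)) : ∃ σ : Representation ℂ G (Fin n → ℂ), Nonempty (ρ.Equiv σ) ∧ ∀ g : G, ∀ i j : Fin n, LinearMap.toMatrix' (σ g) i j ∈ Algebra.adjoin ℚ ({Complex.exp (2 * Real.pi * Complex.I / (Monoid.exponent G : ℂ))} : Set ℂ) := by
  classical
  have : Fintype G := Fintype.ofFinite G
  set m := Monoid.exponent G with hm
  have hm0 : m ≠ 0 := Monoid.exponent_ne_zero_of_finite
  set ζ : ℂ := Complex.exp (2 * Real.pi * Complex.I / (m : ℂ)) with hζ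
  have hprim : IsPrimitiveRoot ζ m := Complex.isPrimitiveRoot_exp m hm0
  have hint : IsIntegral ℚ ζ := (hprim.isIntegral (Nat.pos_of_ne_zero hm0)).tower_top
  let F := IntermediateField.adjoin ℚ ({ζ} : Set ℂ)
  have hFmem : ∀ x : ℂ, x ∈ Set.range (algebraMap F ℂ) → x ∈ Algebra.adjoin ℚ ({ζ} : Set ℂ) := by
    rintro x ⟨y, rfl⟩
    have h1 : (algebraMap F ℂ y) ∈ (IntermediateField.adjoin ℚ ({ζ} : Set ℂ)).toSubalgebra := y.2
    rwa [IntermediateField.adjoin_simple_toSubalgebra_of_isAlgebraic hint.isAlgebraic] at h1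
  have hF : ∀ z : ℂ, z ^ Monoid.exponent G = 1 → z ∈ Set.range (algebraMap F ℂ) := by
    intro z hz
    obtain ⟨i, -, rfl⟩ := hprim.eq_pow_of_pow_eq_one hz
    have hζF : ζ ∈ IntermediateField.adjoin ℚ ({ζ} : Set ℂ) :=
      IntermediateField.mem_adjoin_simple_self ℚ ζ
    exact ⟨⟨ζ ^ i, pow_mem hζF i⟩, rfl⟩
  -- the character of `ρ` is afforded over `F`
  have hχ : Cfsg.IsCharacter G ρ.character := ⟨n, ρ, rfl⟩
  obtain ⟨mu, hsum, -⟩ := IsCharacter.eq_sum_nat hχ
  have hFc : IsFChar F G ρ.character := by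
    rw [hsum]
    apply IsFChar.sum
    intro χ _
    have := IsFChar.natMul (isFChar_irr hF χ.2) (mu χ)
    convert this using 1
    ext g
    simp
  obtain ⟨n', σ, hσ, hent⟩ := IsFChar.exists_complex hFc
  have hn : n' = n := by
    have h1 := congrFun hσ 1
    simp only [Representation.character, map_one] at h1
    have h2 : LinearMap.trace ℂ (Fin n' → ℂ) 1 = (n' : ℂ) := by
      rw [LinearMap.trace_one]; simp
    have h3 : LinearMap.trace ℂ (Fin n → ℂ) 1 = (n : ℂ) := by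
      rw [LinearMap.trace_one]; simp
    rw [h2, h3] at h1
    exact_mod_cast h1
  subst hn
  refine ⟨σ, ?_, fun g i j => hFmem _ (hent g i j)⟩
  exact Cfsg.Agent.Lib.Helper4Equiv.equiv_of_char_eq ρ σ hσ.symm

end Cfsg.Agent.S0166
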