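import Cfsg.Statements.S0167
import Cfsg.Agent.Lib.Helper4Char2
import Cfsg.Agent.Lib.Helper82Schur

set_option autoImplicit false
open Cfsg

namespace Cfsg.Agent.S0167

open scoped ComplexConjugate
open Cfsg.Agent.Lib.Helper4Char Cfsg.Agent.Lib.Helper4Char2

theorem sum_irr_commutator {G : Type*} [Group G] [Fintype G] (χ : Cfsg.IrrCharacter G) :
    ∑ a : G, ∑ b : G, (χ : G → ℂ) (a * b * a⁻¹ * b⁻¹)
      = (Nat.card G : ℂ) ^ 2 / (χ : G → ℂ) 1 := by
  obtain ⟨n, ρ, hirr, hχ⟩ := χ.2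
  have h := congrArg (LinearMap.trace ℂ (Fin n → ℂ)) (Cfsg.Agent.Lib.Helper82Schur.sum_commutator ρ)
  simp only [map_sum, map_smul, smul_eq_mul] at h
  have h1 : LinearMap.trace ℂ (Fin n → ℂ) LinearMap.id = ρ.character 1 := by
    rw [Representation.char_one]; exact LinearMap.trace_id ℂ _
  rw [h1] at h
  have hne : ρ.character 1 ≠ 0 := Cfsg.Agent.Lib.Helper82Schur.char_one_ne_zero ρ
  rw [← hχ]
  change ∑ a : G, ∑ b : G, LinearMap.trace ℂ (Fin n → ℂ) (ρ (a * b * a⁻¹ * b⁻¹)) = _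
  rw [h]
  field_simp

theorem key {G : Type*} [Group G] [Fintype G] (g : G) :
    (Nat.card G : ℂ) ^ 2 * ∑ χ : Cfsg.IrrCharacter G, conj ((χ : G → ℂ) g) / (χ : G → ℂ) 1
      = (((open scoped Classical in ∑ a : G, ∑ b : G, if IsConj (a * b * a⁻¹ * b⁻¹) g then
          Nat.card (Subgroup.centralizer ({a * b * a⁻¹ * b⁻¹} : Set G)) else 0 : ℕ)) : ℂ) := by
  classical
  push_cast
  have h1 : ∀ a b : G, ((if IsConj (a * b * a⁻¹ * b⁻¹) g then
      (Nat.card (Subgroup.centralizer ({a * b * a⁻¹ * b⁻¹} : Set G)) : ℂ) else 0))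
      = ∑ χ : Cfsg.IrrCharacter G, (χ : G → ℂ) (a * b * a⁻¹ * b⁻¹) * conj ((χ : G → ℂ) g) :=
    fun a b => (col_orth _ _).symm
  simp only [h1]
  have h2 : ∑ a : G, ∑ b : G, ∑ χ : Cfsg.IrrCharacter G,
      (χ : G → ℂ) (a * b * a⁻¹ * b⁻¹) * conj ((χ : G → ℂ) g)
      = ∑ χ : Cfsg.IrrCharacter G, (∑ a : G, ∑ b : G, (χ : G → ℂ) (a * b * a⁻¹ * b⁻¹))
        * conj ((χ : G → ℂ) g) := by
    simp only [Finset.sum_mul]
    calc ∑ a : G, ∑ b : G, ∑ χ : Cfsg.IrrCharacter G,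
          (χ : G → ℂ) (a * b * a⁻¹ * b⁻¹) * conj ((χ : G → ℂ) g)
        = ∑ a : G, ∑ χ : Cfsg.IrrCharacter G, ∑ b : G,
          (χ : G → ℂ) (a * b * a⁻¹ * b⁻¹) * conj ((χ : G → ℂ) g) :=
          Finset.sum_congr rfl (fun a _ => Finset.sum_comm)
      _ = _ := Finset.sum_comm
  rw [h2, Finset.mul_sum]
  apply Finset.sum_congr rfl
  intro χ _
  rw [sum_irr_commutator]
  ring


/-- An element g of a finite group is a commutator if and only if the sum over the irreducible characters χ of χ g / χ 1 is nonzero. -/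
theorem result {G : Type*} [Group G] [Finite G] (g : G) : (∃ a b : G, g = a * b * a⁻¹ * b⁻¹) ↔ ∑ᶠ χ : Cfsg.IrrCharacter G, (χ : G → ℂ) g / (χ : G → ℂ) 1 ≠ 0 := by
  classical
  cases nonempty_fintype G
  rw [finsum_eq_sum_of_fintype]
  have hk := key g
  have hconj : conj (∑ χ : Cfsg.IrrCharacter G, (χ : G → ℂ) g / (χ : G → ℂ) 1)
      = ∑ χ : Cfsg.IrrCharacter G, conj ((χ : G → ℂ) g) / (χ : G → ℂ) 1 := by
    rw [map_sum]
    apply Finset.sum_congr rfl
    intro χ _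
    rw [map_div₀, IsCharacter.conj_degree (IsIrrCharacter.isCharacter χ.2)]
  rw [← hconj] at hk
  have hG : (Nat.card G : ℂ) ^ 2 ≠ 0 := pow_ne_zero 2 card_ne_zero
  constructor
  · rintro ⟨a, b, rfl⟩ h0
    rw [h0, map_zero, mul_zero] at hk
    have h1 : (∑ a' : G, ∑ b' : G, if IsConj (a' * b' * a'⁻¹ * b'⁻¹) (a * b * a⁻¹ * b⁻¹) then
          Nat.card (Subgroup.centralizer ({a' * b' * a'⁻¹ * b'⁻¹} : Set G)) else 0 : ℕ) = 0 := by
      exact_mod_cast hk.symm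
    have h2 := (Finset.sum_eq_zero_iff.mp h1) a (Finset.mem_univ a)
    have h3 := (Finset.sum_eq_zero_iff.mp h2) b (Finset.mem_univ b)
    rw [if_pos (IsConj.refl _)] at h3
    exact Nat.card_pos.ne' h3
  · intro hne
    by_contra hcon
    push Not at hcon
    apply hne
    have h1 : (∑ a' : G, ∑ b' : G, if IsConj (a' * b' * a'⁻¹ * b'⁻¹) g then
          Nat.card (Subgroup.centralizer ({a' * b' * a'⁻¹ * b'⁻¹} : Set G)) else 0 : ℕ) = 0 := by
      apply Finset.sum_eq_zero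
      intro a _
      apply Finset.sum_eq_zero
      intro b _
      rw [if_neg]
      intro hc
      obtain ⟨c, hc⟩ := isConj_iff.mp hc
      apply hcon (c * a * c⁻¹) (c * b * c⁻¹)
      rw [← hc]
      group
    rw [h1, Nat.cast_zero, mul_eq_zero] at hk
    rcases hk with hk | hk
    · exact absurd hk hG
    · exact (map_eq_zero _).mp hk

end Cfsg.Agent.S0167
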