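import Cfsg.Statements.S0172
-- import your own Cfsg.Agent.* helpers here
import Mathlib

set_option autoImplicit false
open Cfsg

namespace Cfsg.Agent.S0172

section Group

variable {G : Type*} [Group G] [Finite G] (K H : Subgroup G) [K.Normal]

include K H in
/-- In a Frobenius group `G = K H`, every element outside `K` is a `K`-conjugate of an element
of `H`. -/
theorem exists_conj_of_not_mem (hKH' : K ⊔ H = ⊤)
    (hfpf : ∀ h ∈ H, h ≠ 1 → ∀ k ∈ K, h * k = k * h → k = 1) (y : G) (hy : y ∉ K) :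
    ∃ u ∈ K, ∃ h ∈ H, h ≠ 1 ∧ y = u * h * u⁻¹ := by
  have hy' : y ∈ K ⊔ H := by rw [hKH']; exact Subgroup.mem_top y
  obtain ⟨k, hk, h, hh, rfl⟩ := Subgroup.mem_sup_of_normal_left.mp hy'
  have hne : h ≠ 1 := by
    rintro rfl
    exact hy (by simpa using hk)
  let f : K → K := fun u => ⟨u * (h * (u : G)⁻¹ * h⁻¹),
    K.mul_mem u.2 (‹K.Normal›.conj_mem _ (K.inv_mem u.2) h)⟩
  have hinj : Function.Injective f := by
    intro u v huv
    have h1 : (u : G) * (h * (u : G)⁻¹ * h⁻¹) = v * (h * (v : G)⁻¹ * h⁻¹) :=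
      congrArg Subtype.val huv
    have h2 : h * ((v : G)⁻¹ * u) = ((v : G)⁻¹ * u) * h := by
      have h3 : (v : G)⁻¹ * u * h * (u : G)⁻¹ = h * (v : G)⁻¹ := by
        have := congrArg (fun z => (v : G)⁻¹ * z * h) h1
        simp only [mul_assoc, inv_mul_cancel_left, inv_mul_cancel, mul_one] at this
        simpa [mul_assoc] using this
      calc h * ((v : G)⁻¹ * u) = (h * (v : G)⁻¹) * u := by rw [mul_assoc]
        _ = ((v : G)⁻¹ * u * h * (u : G)⁻¹) * u := by rw [h3]
        _ = (v : G)⁻¹ * u * h := by rw [inv_mul_cancel_right]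
    have h4 := hfpf h hh hne ((v : G)⁻¹ * u) (K.mul_mem (K.inv_mem v.2) u.2) h2
    apply Subtype.ext
    exact (inv_mul_eq_one.mp h4).symm
  obtain ⟨u, hu⟩ := (Finite.injective_iff_surjective.mp hinj) ⟨k, hk⟩
  refine ⟨u, u.2, h, hh, hne, ?_⟩
  have h1 : (u : G) * (h * (u : G)⁻¹ * h⁻¹) = k := congrArg Subtype.val hu
  rw [← h1]
  group

include K H in
theorem eq_one_of_commute_of_not_mem (hKH' : K ⊔ H = ⊤)
    (hfpf : ∀ h ∈ H, h ≠ 1 → ∀ k ∈ K, h * k = k * h → k = 1) (y : G) (hy : y ∉ K)
    (c : G) (hc : c ∈ K) (hyc : y * c = c * y) : c = 1 := by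
  obtain ⟨u, hu, h, hh, hne, rfl⟩ := exists_conj_of_not_mem K H hKH' hfpf y hy
  have h1 : h * (u⁻¹ * c * u) = (u⁻¹ * c * u) * h := by
    have := congrArg (fun z => u⁻¹ * z * u) hyc
    simp only [mul_assoc, inv_mul_cancel_left, inv_mul_cancel, mul_one] at this
    simpa [mul_assoc] using this
  have h2 := hfpf h hh hne (u⁻¹ * c * u) (by
    have := ‹K.Normal›.conj_mem c hc u⁻¹
    simpa using this) h1
  have h3 : c = u * (u⁻¹ * c * u) * u⁻¹ := by group
  rw [h3, h2]
  group

end Group

theorem cpsum (X : Type*) [Group X] [Fintype X] :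
    Nat.card {p : X × X // Commute p.1 p.2} = ∑ g : X, Nat.card {x : X // Commute g x} := by
  rw [Nat.card_congr (Equiv.subtypeProdEquivSigmaSubtype (fun a b : X => Commute a b)), Nat.card_sigma]

theorem c_one (X : Type*) [Group X] : Nat.card {x : X // Commute (1 : X) x} = Nat.card X :=
  Nat.card_congr (Equiv.subtypeUnivEquiv (fun x => Commute.one_left x))

theorem c_sub {G : Type*} [Group G] (K : Subgroup G) (k : K)
    (h : ∀ x : G, Commute (k : G) x → x ∈ K) :
    Nat.card {x : G // Commute (k : G) x} = Nat.card {x : K // Commute k x} := by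
  symm
  apply Nat.card_eq_of_bijective
    (fun x : {x : K // Commute k x} => (⟨(x.1 : G), congrArg Subtype.val x.2.eq⟩ : {x : G // Commute (k : G) x}))
  constructor
  · intro x y hxy
    apply Subtype.ext
    apply Subtype.ext
    exact congrArg (fun z : {x : G // Commute (k : G) x} => (z : G)) hxy
  · intro x
    exact ⟨⟨⟨x.1, h x.1 x.2⟩, Subtype.ext x.2.eq⟩, rfl⟩

theorem c_conj {G : Type*} [Group G] (u h : G) :
    Nat.card {x : G // Commute (u * h * u⁻¹) x} = Nat.card {x : G // Commute h x} := by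
  apply Nat.card_congr
  refine (MulAut.conj u⁻¹).toEquiv.subtypeEquiv ?_
  intro x
  show Commute (u * h * u⁻¹) x ↔ Commute h (u⁻¹ * x * u⁻¹⁻¹)
  constructor
  · intro hc
    show h * (u⁻¹ * x * u⁻¹⁻¹) = (u⁻¹ * x * u⁻¹⁻¹) * h
    have := hc.eq
    calc h * (u⁻¹ * x * u⁻¹⁻¹) = u⁻¹ * ((u * h * u⁻¹) * x) * u := by group
      _ = u⁻¹ * (x * (u * h * u⁻¹)) * u := by rw [this]
      _ = (u⁻¹ * x * u⁻¹⁻¹) * h := by group
  · intro hc
    show (u * h * u⁻¹) * x = x * (u * h * u⁻¹)
    have := hc.eq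
    calc (u * h * u⁻¹) * x = u * (h * (u⁻¹ * x * u⁻¹⁻¹)) * u⁻¹ := by group
      _ = u * ((u⁻¹ * x * u⁻¹⁻¹) * h) * u⁻¹ := by rw [this]
      _ = x * (u * h * u⁻¹) := by group


/-- Class number of a Frobenius group: if G = K H with K normal, K ⊓ H trivial and no non-identity element of H commuting with a non-identity element of K, then |H| * k(G) + 1 = |H| * k(H) + k(K), where k denotes the number of conjugacy classes. -/
theorem result {G : Type*} [Group G] [Finite G] (K H : Subgroup G) [K.Normal] (hKH : K ⊓ H = ⊥) (hKH' : K ⊔ H = ⊤) (hfpf : ∀ h ∈ H, h ≠ 1 → ∀ k ∈ K, h * k = k * h → k = 1) : Nat.card H * Nat.card (ConjClasses G) + 1 = Nat.card H * Nat.card (ConjClasses H) + Nat.card (ConjClasses K) := by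
  classical
  haveI := Fintype.ofFinite G
  haveI := Fintype.ofFinite K
  haveI := Fintype.ofFinite H
  have hdisj : ∀ x : G, x ∈ K → x ∈ H → x = 1 := by
    intro x hxK hxH
    have : x ∈ K ⊓ H := ⟨hxK, hxH⟩
    rwa [hKH, Subgroup.mem_bot] at this
  have hcompl : Subgroup.IsComplement' K H := by
    apply Subgroup.isComplement'_of_disjoint_and_mul_eq_univ (disjoint_iff.2 hKH)
    rw [← Subgroup.normal_mul, hKH']
    rfl
  -- L1
  have L1 : ∀ k : K, k ≠ 1 → Nat.card {x : G // Commute (k : G) x} = Nat.card {x : K // Commute k x} := by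
    intro k hk
    apply c_sub
    intro x hx
    by_contra hxK
    apply hk
    apply Subtype.ext
    exact eq_one_of_commute_of_not_mem K H hKH' hfpf x hxK k k.2 hx.eq.symm
  -- L3
  have L3 : ∀ h : H, h ≠ 1 → Nat.card {x : G // Commute (h : G) x} = Nat.card {x : H // Commute h x} := by
    intro h hh
    apply c_sub
    intro x hx
    have hx' : x ∈ K ⊔ H := by rw [hKH']; exact Subgroup.mem_top x
    obtain ⟨k', hk', x', hx'H, rfl⟩ := Subgroup.mem_sup_of_normal_left.mp hx'
    have h1 : k'⁻¹ * ((h : G) * k' * (h : G)⁻¹) = x' * h * x'⁻¹ * (h : G)⁻¹ := by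
      have h2 : (h : G) * (k' * x') = (k' * x') * h := hx.eq
      calc k'⁻¹ * ((h : G) * k' * (h : G)⁻¹) = k'⁻¹ * ((h : G) * (k' * x')) * x'⁻¹ * (h : G)⁻¹ := by group
        _ = k'⁻¹ * ((k' * x') * h) * x'⁻¹ * (h : G)⁻¹ := by rw [h2]
        _ = x' * h * x'⁻¹ * (h : G)⁻¹ := by group
    have h3 : k'⁻¹ * ((h : G) * k' * (h : G)⁻¹) = 1 := by
      apply hdisj
      · exact K.mul_mem (K.inv_mem hk') (‹K.Normal›.conj_mem _ hk' _)
      · rw [h1]
        exact H.mul_mem (H.mul_mem (H.mul_mem hx'H h.2) (H.inv_mem hx'H)) (H.inv_mem h.2)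
    have h4 : (h : G) * k' = k' * h := by
      have h5 : (h : G) * k' * (h : G)⁻¹ = k' := (inv_mul_eq_one.1 h3).symm
      calc (h : G) * k' = ((h : G) * k' * (h : G)⁻¹) * h := by group
        _ = k' * h := by rw [h5]
    have h6 := hfpf h h.2 (fun e => hh (Subtype.ext e)) k' hk' h4
    rw [h6, one_mul]
    exact hx'H
  -- L2
  have L2 : ∀ (k : K) (h : H), h ≠ 1 →
      Nat.card {x : G // Commute ((k : G) * h) x} = Nat.card {x : H // Commute h x} := by
    intro k h hh
    have hnK : (k : G) * h ∉ K := by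
      intro hm
      apply hh
      apply Subtype.ext
      apply hdisj _ _ h.2
      have := K.mul_mem (K.inv_mem k.2) hm
      simpa using this
    obtain ⟨u, hu, h', hh', -, he⟩ := exists_conj_of_not_mem K H hKH' hfpf _ hnK
    have hhh : h' = h := by
      have h1 : h' * (h : G)⁻¹ = (u * h' * u⁻¹ * h'⁻¹)⁻¹ * k := by
        have : (k : G) = u * h' * u⁻¹ * (h : G)⁻¹ := by rw [← he]; group
        rw [this]; group
      have h2 : h' * (h : G)⁻¹ = 1 := by
        apply hdisj
        · rw [h1]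
          apply K.mul_mem (K.inv_mem _) k.2
          have : u * h' * u⁻¹ * h'⁻¹ = u * (h' * u⁻¹ * h'⁻¹) := by group
          rw [this]
          exact K.mul_mem hu (‹K.Normal›.conj_mem _ (K.inv_mem hu) _)
        · exact H.mul_mem hh' (H.inv_mem h.2)
      exact mul_inv_eq_one.1 h2
    rw [he, hhh, c_conj, L3 h hh]
  have cG := card_comm_eq_card_conjClasses_mul_card G
  have cK := card_comm_eq_card_conjClasses_mul_card K
  have cH := card_comm_eq_card_conjClasses_mul_card H
  rw [cpsum] at cG cK cH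
  set E := ∑ h ∈ (Finset.univ : Finset H).erase 1, Nat.card {x : H // Commute h x} with hE
  set EK := ∑ k ∈ (Finset.univ : Finset K).erase 1, Nat.card {x : K // Commute k x} with hEK
  have sH : Nat.card H + E = Nat.card (ConjClasses H) * Nat.card H := by
    rw [← cH, ← Finset.add_sum_erase Finset.univ _ (Finset.mem_univ (1 : H)), c_one]
  have sK : Nat.card K + EK = Nat.card (ConjClasses K) * Nat.card K := by
    rw [← cK, ← Finset.add_sum_erase Finset.univ _ (Finset.mem_univ (1 : K)), c_one]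
  have sG : Nat.card G + EK + Nat.card K * E = Nat.card (ConjClasses G) * Nat.card G := by
    rw [← cG]
    let e : K × H ≃ G := Equiv.ofBijective (fun x : K × H => (x.1 : G) * x.2) hcompl
    rw [← Equiv.sum_comp e, Fintype.sum_prod_type]
    have h1 : ∀ k : K, ∑ h : H, Nat.card {x : G // Commute (e (k, h)) x}
        = Nat.card {x : G // Commute (k : G) x} + E := by
      intro k
      rw [← Finset.add_sum_erase Finset.univ _ (Finset.mem_univ (1 : H))]
      congr 1
      · show Nat.card {x : G // Commute ((k : G) * ((1 : H) : G)) x} = _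
        rw [Subgroup.coe_one, mul_one]
      · apply Finset.sum_congr rfl
        intro h hh
        exact L2 k h (Finset.ne_of_mem_erase hh)
    simp only [h1]
    rw [Finset.sum_add_distrib, Finset.sum_const, Finset.card_univ, smul_eq_mul,
      ← Finset.add_sum_erase Finset.univ _ (Finset.mem_univ (1 : K)), Subgroup.coe_one, c_one,
      Nat.card_eq_fintype_card (α := K)]
    congr 2
    apply Finset.sum_congr rfl
    intro k hk
    exact (L1 k (Finset.ne_of_mem_erase hk)).symm
  have hcard : Nat.card K * Nat.card H = Nat.card G := hcompl.card_mul_card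
  have hpos : 0 < Nat.card K := Nat.card_pos
  apply Nat.eq_of_mul_eq_mul_left hpos
  rw [← hcard] at sG
  nlinarith [sG, sK, sH]

end Cfsg.Agent.S0172
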