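import Cfsg.Statements.S0180
import Mathlib
import Cfsg.Agent.Lib.Helper5Galois
import Cfsg.Agent.Lib.Helper4Char2

set_option autoImplicit false
open Cfsg

namespace Cfsg.Agent.S0180

/-- Every irreducible complex character of a finite group takes only rational values if and only if g is conjugate to g ^ m for every element g and every m coprime to the group order. -/
theorem result {G : Type*} [Group G] [Finite G] : (∀ χ : Cfsg.IrrCharacter G, ∀ g : G, ∃ q : ℚ, (χ : G → ℂ) g = (q : ℂ)) ↔ ∀ m : ℕ, m.Coprime (Nat.card G) → ∀ g : G, IsConj g (g ^ m) := by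
  classical
  haveI : Fintype G := Fintype.ofFinite G
  have hn : 0 < Nat.card G := Nat.card_pos
  have hG : ∀ g : G, g ^ Nat.card G = 1 := fun g => pow_card_eq_one'
  constructor
  · intro hrat m hm g
    rw [Lib.Helper4Char2.isConj_iff_irr]
    rintro ⟨χ, d, ρ, hρ, rfl⟩
    obtain ⟨q, hq⟩ := hrat ⟨ρ.character, d, ρ, hρ, rfl⟩ g
    change ρ.character g = (q : ℂ) at hq
    change ρ.character g = ρ.character (g ^ m)
    obtain ⟨ψ, hψ⟩ := Lib.Helper5Galois.exists_ringHom_of_coprime (Nat.card G) hn m hm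
    rw [← Lib.Helper5Galois.apply_charK ρ (Nat.card G) hn hG ψ m hψ g]
    have : Lib.Helper5Galois.charK ρ g = ((q : ℚ) : Lib.Helper5Galois.K) := by
      apply Subtype.ext
      rw [Lib.Helper5Galois.charK_coe, hq]
      simp
    rw [this, map_ratCast, hq]
  · intro hconj
    rintro ⟨χ, d, ρ, hρ, rfl⟩ g
    change ∃ q : ℚ, ρ.character g = (q : ℂ)
    apply Lib.Helper5Galois.exists_rat_of_fixed (Lib.Helper5Galois.charK ρ g)
    intro ψ
    obtain ⟨m, hm, hψ⟩ := Lib.Helper5Galois.exists_pow_of_ringHom (Nat.card G) hn ψ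
    rw [Lib.Helper5Galois.apply_charK ρ (Nat.card G) hn hG ψ m hψ g, Lib.Helper5Galois.charK_coe]
    obtain ⟨c, hc⟩ := isConj_iff.mp (hconj m hm g)
    rw [← hc, Representation.char_conj]

end Cfsg.Agent.S0180
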