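import Cfsg.Statements.S0181
import Mathlib
import Cfsg.Agent.Lib.Helper82Schur

set_option autoImplicit false
open Cfsg

namespace Cfsg.Agent.S0181

/-- Let H be a normal subgroup of a finite group G and ρ an irreducible complex representation whose kernel does not contain H. If g commutes with no non-identity element of H, then the character of ρ vanishes at g. -/
theorem result {G : Type*} [Group G] [Finite G] {V : Type*} [AddCommGroup V] [Module ℂ V] [FiniteDimensional ℂ V] (ρ : Representation ℂ G V) [ρ.IsIrreducible] (H : Subgroup G) [H.Normal] (hker : ∃ h ∈ H, ρ h ≠ LinearMap.id) (g : G) (hg : ∀ h ∈ H, h * g = g * h → h = 1) : ρ.character g = 0 := by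
  classical
  haveI : Fintype H := Fintype.ofFinite _
  have hsum : ∑ n : H, ρ (n : G) = 0 := by
    rcases Lib.Helper82Schur.sum_normal_eq_zero_or ρ H with h | h
    · obtain ⟨h₀, hh₀, hne⟩ := hker
      exact absurd (h h₀ hh₀) hne
    · exact h
  -- every element of the coset H g is conjugate to g
  let φ : H → H := fun h => ⟨h * g * (h : G)⁻¹ * g⁻¹, by
    have h1 : g * (h : G)⁻¹ * g⁻¹ ∈ H := (inferInstance : H.Normal).conj_mem _ (H.inv_mem h.2) g
    have : (h : G) * g * (h : G)⁻¹ * g⁻¹ = h * (g * (h : G)⁻¹ * g⁻¹) := by group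
    rw [this]
    exact H.mul_mem h.2 h1⟩
  have hinj : Function.Injective φ := by
    intro a b hab
    have h1 : (a : G) * g * (a : G)⁻¹ * g⁻¹ = b * g * (b : G)⁻¹ * g⁻¹ := congrArg Subtype.val hab
    have h2 : (a : G) * g * (a : G)⁻¹ = b * g * (b : G)⁻¹ := mul_right_cancel h1
    have h3 : ((b : G)⁻¹ * a) * g = g * ((b : G)⁻¹ * a) := by
      calc ((b : G)⁻¹ * a) * g = (b : G)⁻¹ * ((a : G) * g * (a : G)⁻¹) * a := by group
        _ = (b : G)⁻¹ * (b * g * (b : G)⁻¹) * a := by rw [h2]
        _ = _ := by group
    have h4 := hg _ (H.mul_mem (H.inv_mem b.2) a.2) h3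
    apply Subtype.ext
    exact (inv_mul_eq_one.mp h4).symm
  have hsurj : Function.Surjective φ := Finite.surjective_of_injective hinj
  have hconst : ∀ k : H, ρ.character ((k : G) * g) = ρ.character g := by
    intro k
    obtain ⟨h, hh⟩ := hsurj k
    have h1 : (h : G) * g * (h : G)⁻¹ * g⁻¹ = k := congrArg Subtype.val hh
    have h2 : (k : G) * g = h * g * (h : G)⁻¹ := by rw [← h1]; group
    rw [h2, Representation.char_conj]
  have h0 : ∑ k : H, ρ.character ((k : G) * g) = 0 := by
    have : ∑ k : H, ρ.character ((k : G) * g) = LinearMap.trace ℂ V ((∑ n : H, ρ (n : G)) * ρ g) := by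
      rw [Finset.sum_mul, map_sum]
      apply Finset.sum_congr rfl
      intro k _
      rw [Representation.character, map_mul]
    rw [this, hsum, zero_mul, map_zero]
  rw [Finset.sum_congr rfl (fun k _ => hconst k), Finset.sum_const, Finset.card_univ,
    nsmul_eq_mul] at h0
  rcases mul_eq_zero.mp h0 with h | h
  · exfalso
    have : Fintype.card H ≠ 0 := Fintype.card_ne_zero
    exact this (by exact_mod_cast h)
  · exact h

end Cfsg.Agent.S0181
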