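import Cfsg.Statements.S0185
import Mathlib
import Cfsg.Agent.Lib.Helper4Char4
import Cfsg.Agent.Lib.Helper82Linear

set_option autoImplicit false
open Cfsg

namespace Cfsg.Agent.S0185

/-- If a finite group has a faithful complex representation of degree less than the smallest prime dividing its order, the group is abelian. -/
theorem result {G : Type*} [Group G] [Finite G] {V : Type*} [AddCommGroup V] [Module ℂ V] [FiniteDimensional ℂ V] (ρ : Representation ℂ G V) (hfaithful : Function.Injective ρ) (hdeg : ∀ p : ℕ, p.Prime → p ∣ Nat.card G → Module.finrank ℂ V < p) (a b : G) : a * b = b * a := by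
  classical
  haveI : Fintype G := Fintype.ofFinite G
  obtain ⟨m, hm, -⟩ := Lib.Helper4Char4.IsCharacter.eq_sum_nat (Lib.Helper4Char.isCharacter_of_rep ρ)
  -- degrees
  have hdeg' : ∀ ψ : Cfsg.IrrCharacter G, ∃ d : ℕ, 0 < d ∧ (ψ : G → ℂ) 1 = d ∧ d ∣ Nat.card G := by
    rintro ⟨ψ, n, σ, hσ, rfl⟩
    refine ⟨Module.finrank ℂ (Fin n → ℂ), Lib.Helper4Char.finrank_pos_of_irreducible σ, ?_,
      Lib.Helper4Char3.finrank_dvd_card σ⟩
    simp only [Representation.char_one]
  choose d hd0 hd1 hd2 using hdeg'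
  have hone : (Module.finrank ℂ V : ℂ) = ∑ ψ : Cfsg.IrrCharacter G, ((m ψ * d ψ : ℕ) : ℂ) := by
    have := congrFun hm 1
    rw [Representation.char_one] at this
    rw [this]
    simp only [Finset.sum_apply, Pi.smul_apply, smul_eq_mul, hd1]
    push_cast
    rfl
  have hone' : Module.finrank ℂ V = ∑ ψ : Cfsg.IrrCharacter G, m ψ * d ψ := by
    have : (Module.finrank ℂ V : ℂ) = ((∑ ψ : Cfsg.IrrCharacter G, m ψ * d ψ : ℕ) : ℂ) := by
      rw [hone]; push_cast; rfl
    exact_mod_cast this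
  have hlin : ∀ ψ : Cfsg.IrrCharacter G, m ψ ≠ 0 → d ψ = 1 := by
    intro ψ hψ
    by_contra hne
    obtain ⟨p, hp, hpd⟩ := Nat.exists_prime_and_dvd hne
    have h1 := hdeg p hp (hpd.trans (hd2 ψ))
    have h2 : p ≤ d ψ := Nat.le_of_dvd (hd0 ψ) hpd
    have h3 : m ψ * d ψ ≤ Module.finrank ℂ V := by
      rw [hone']
      exact Finset.single_le_sum (f := fun ψ => m ψ * d ψ) (fun _ _ => Nat.zero_le _)
        (Finset.mem_univ ψ)
    have h4 : d ψ ≤ m ψ * d ψ := Nat.le_mul_of_pos_left _ (Nat.pos_of_ne_zero hψ)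
    omega
  set c := a * b * a⁻¹ * b⁻¹ with hc
  have hcmem : c ∈ commutator G := by
    rw [hc, ← commutatorElement_def]
    exact Subgroup.commutator_mem_commutator (Subgroup.mem_top a) (Subgroup.mem_top b)
  have hχc : ρ.character c = (Module.finrank ℂ V : ℂ) := by
    rw [← Representation.char_one ρ, hm]
    simp only [Finset.sum_apply, Pi.smul_apply, smul_eq_mul]
    apply Finset.sum_congr rfl
    intro ψ _
    by_cases hψ : m ψ = 0
    · rw [hψ]; simp
    · have h1 : (ψ : G → ℂ) 1 = 1 := by rw [hd1, hlin ψ hψ]; simp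
      rw [Lib.Helper82Linear.irr_linear_eq_one_of_mem_commutator ψ h1 hcmem, h1]
  have hρc : ρ c = LinearMap.id := (Lib.Helper4Eigen.char_eq_finrank_iff ρ c).mp hχc
  have hc1 : c = 1 := by
    apply hfaithful
    rw [hρc, map_one]
    rfl
  rw [hc] at hc1
  have : a * b = (a * b * a⁻¹ * b⁻¹) * (b * a) := by group
  rw [this, hc1, one_mul]

end Cfsg.Agent.S0185
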