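import Cfsg.Statements.S0186
import Mathlib
import Cfsg.Agent.Lib.Helper4Char4
import Cfsg.Agent.Lib.Helper82Linear
import Cfsg.Agent.S0185

set_option autoImplicit false
open Cfsg

namespace Cfsg.Agent.S0186

/-- Let G be a finite simple group of order n and p a prime dividing n. If G has more than n / p^2 conjugacy classes, then every Sylow p-subgroup of G is abelian. -/
theorem result {G : Type*} [Group G] [Finite G] [IsSimpleGroup G] (p : ℕ) [Fact p.Prime] (hp : p ∣ Nat.card G) (hmany : Nat.card G < p ^ 2 * Nat.card (ConjClasses G)) (P : Sylow p G) (a b : G) (ha : a ∈ P) (hb : b ∈ P) : a * b = b * a := by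
  classical
  haveI : Fintype G := Fintype.ofFinite G
  have hp' : p.Prime := Fact.out
  obtain ⟨j, hj⟩ := P.2.exists_card_eq
  by_cases hp2 : p ^ 2 ∣ Nat.card G
  swap
  · -- the Sylow subgroup has order at most p
    have hj1 : j ≤ 1 := by
      by_contra hcon
      push Not at hcon
      apply hp2
      have h1 : p ^ j ∣ Nat.card G := hj ▸ Subgroup.card_subgroup_dvd_card _
      exact (pow_dvd_pow p hcon).trans h1
    have hcyc : IsCyclic (P : Subgroup G) := by
      interval_cases j
      · rw [pow_zero] at hj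
        haveI : Subsingleton (P : Subgroup G) := (Nat.card_eq_one_iff_unique.mp hj).1
        infer_instance
      · rw [pow_one] at hj
        exact isCyclic_of_prime_card hj
    have := (IsCyclic.isMulCommutative (α := (P : Subgroup G))).is_comm.comm ⟨a, ha⟩ ⟨b, hb⟩
    exact congrArg Subtype.val this
  -- degrees
  have hdeg' : ∀ ψ : Cfsg.IrrCharacter G, ∃ d : ℕ, 0 < d ∧ (ψ : G → ℂ) 1 = d :=
    fun ψ => Lib.Helper4Char2.IsIrrCharacter.exists_degree ψ.2
  choose d hd0 hd1 using hdeg'
  have hsq : ∑ ψ : Cfsg.IrrCharacter G, d ψ ^ 2 = Nat.card G := by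
    have h1 := Lib.Helper4Char2.sum_degree_sq (G := G)
    simp only [hd1] at h1
    exact_mod_cast h1
  have hk : Fintype.card (Cfsg.IrrCharacter G) = Nat.card (ConjClasses G) := by
    rw [← Nat.card_eq_fintype_card, Lib.Helper4Char2.card_irr_eq_card_conjClasses]
  set χ₀ := Lib.Helper82Linear.irrOne G with hχ₀
  have hex : ∃ ψ : Cfsg.IrrCharacter G, ψ ≠ χ₀ ∧ d ψ < p := by
    by_contra hcon
    push Not at hcon
    have h1 : (Fintype.card (Cfsg.IrrCharacter G) - 1) * p ^ 2 ≤
        ∑ ψ ∈ Finset.univ.erase χ₀, d ψ ^ 2 := by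
      rw [← Finset.card_univ, ← Finset.card_erase_of_mem (Finset.mem_univ χ₀), ← smul_eq_mul,
        ← Finset.sum_const]
      apply Finset.sum_le_sum
      intro ψ hψ
      exact Nat.pow_le_pow_left (hcon ψ (Finset.ne_of_mem_erase hψ)) 2
    have h2 : d χ₀ ^ 2 + ∑ ψ ∈ Finset.univ.erase χ₀, d ψ ^ 2 = Nat.card G := by
      rw [Finset.add_sum_erase _ (fun ψ => d ψ ^ 2) (Finset.mem_univ χ₀)]
      exact hsq
    have h3 : 1 ≤ d χ₀ ^ 2 := Nat.one_le_pow _ _ (hd0 χ₀)
    rw [hk] at h1
    obtain ⟨n', hn'⟩ := hp2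
    have hkpos : 0 < Nat.card (ConjClasses G) := Nat.card_pos
    set k := Nat.card (ConjClasses G) with hkdef
    have h4 : (k - 1) * p ^ 2 + 1 ≤ p ^ 2 * n' := by rw [← hn']; omega
    rw [hn'] at hmany
    have h5 : n' < k := Nat.lt_of_mul_lt_mul_left hmany
    have h6 : n' ≤ k - 1 := by omega
    have h7 : p ^ 2 * n' ≤ (k - 1) * p ^ 2 := by
      rw [mul_comm]; exact Nat.mul_le_mul_right _ h6
    omega
  obtain ⟨⟨ψ, m, ρ, hρ, rfl⟩, hne, hlt⟩ := hex
  have hdm : d ⟨ρ.character, m, ρ, hρ, rfl⟩ = Module.finrank ℂ (Fin m → ℂ) := by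
    have := hd1 ⟨ρ.character, m, ρ, hρ, rfl⟩
    simp only [Representation.char_one] at this
    exact_mod_cast this.symm
  rw [hdm] at hlt
  have hinj : Function.Injective ρ := by
    rw [← MonoidHom.ker_eq_bot_iff]
    rcases (MonoidHom.normal_ker ρ).eq_bot_or_eq_top with h | h
    · exact h
    · exfalso
      have htriv : ∀ g : G, ρ g = 1 := by
        intro g
        have : g ∈ ρ.ker := by rw [h]; trivial
        exact this
      have h1 := Lib.Helper4Char.classInner_irr_ne (χ := ρ.character) ⟨m, ρ, hρ, rfl⟩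
        Lib.Helper82Linear.isIrrCharacter_one (fun h => hne (Subtype.ext h))
      have h2 : ∀ g : G, ρ.character g = (Module.finrank ℂ (Fin m → ℂ) : ℂ) := by
        intro g
        rw [← Representation.char_one ρ, Representation.character, Representation.character,
          htriv g, htriv 1]
      unfold Cfsg.classInner at h1
      simp only [h2, map_one, mul_one, Finset.sum_const, Finset.card_univ, nsmul_eq_mul] at h1
      have h3 : (Module.finrank ℂ (Fin m → ℂ) : ℂ) ≠ 0 :=
        Nat.cast_ne_zero.mpr (Lib.Helper4Char.finrank_pos_of_irreducible ρ).ne'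
      have h4 : (Fintype.card G : ℂ) ≠ 0 := Nat.cast_ne_zero.mpr Fintype.card_ne_zero
      have h5 : (Nat.card G : ℂ)⁻¹ ≠ 0 := inv_ne_zero (Nat.cast_ne_zero.mpr Nat.card_pos.ne')
      exact (mul_ne_zero h5 (mul_ne_zero h4 h3)) h1
  have key := S0185.result (G := (P : Subgroup G)) (ρ.comp (P : Subgroup G).subtype)
    (hinj.comp Subtype.val_injective)
    (by
      intro q hq hqd
      rw [hj] at hqd
      have : q = p := (Nat.prime_dvd_prime_iff_eq hq hp').mp (hq.dvd_of_dvd_pow hqd)
      rw [this]; exact hlt)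
    ⟨a, ha⟩ ⟨b, hb⟩
  exact congrArg Subtype.val key

end Cfsg.Agent.S0186
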