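import Cfsg.Statements.S0189
import Mathlib

set_option autoImplicit false
open Cfsg

namespace Cfsg.Agent.S0189

/-- If a complex character of a finite group vanishes at every non-identity element of a Sylow p-subgroup P, then |P| divides its degree. -/
theorem result {G : Type*} [Group G] [Finite G] (p : ℕ) [Fact p.Prime] (P : Sylow p G) (χ : G → ℂ) (hχ : Cfsg.IsCharacter G χ) (hvan : ∀ g : G, g ∈ P → g ≠ 1 → χ g = 0) : ∃ k : ℕ, χ 1 = (Nat.card P : ℂ) * k := by
  classical
  obtain ⟨n, ρ, rfl⟩ := hχ
  haveI : Fintype (P : Subgroup G) := Fintype.ofFinite _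
  have hne : (Nat.card (P : Subgroup G) : ℂ) ≠ 0 := Nat.cast_ne_zero.mpr Nat.card_pos.ne'
  haveI : Invertible (Nat.card (P : Subgroup G) : ℂ) := invertibleOfNonzero hne
  let σ : Representation ℂ (P : Subgroup G) (Fin n → ℂ) := ρ.comp (P : Subgroup G).subtype
  have hσ : ∀ h : (P : Subgroup G), σ.character h = ρ.character (h : G) := fun h => rfl
  have key := Representation.card_inv_mul_sum_char_eq_finrank σ
  refine ⟨Module.finrank ℂ (Representation.invariants σ), ?_⟩
  rw [← key, Finset.sum_eq_single (1 : (P : Subgroup G))]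
  · rw [hσ, ← mul_assoc, mul_inv_cancel₀ hne, one_mul]
    rfl
  · intro b _ hb
    rw [hσ]
    exact hvan b b.2 (fun h => hb (Subtype.ext h))
  · intro h
    exact absurd (Finset.mem_univ _) h

end Cfsg.Agent.S0189
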