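import Cfsg.Statements.S0191
import Mathlib
import Cfsg.Agent.Lib.Helper5Galois
import Cfsg.Agent.Lib.Helper4Char4

set_option autoImplicit false
open Cfsg

namespace Cfsg.Agent.S0191

open Module Lib.Helper5Galois

theorem card_le_sum_of_one_le_prod {ι : Type*} (s : Finset ι) (f : ι → ℝ) (hpos : ∀ i ∈ s, 0 < f i)
    (hprod : 1 ≤ ∏ i ∈ s, f i) : (s.card : ℝ) ≤ ∑ i ∈ s, f i := by
  have h1 : ∀ i ∈ s, 1 + Real.log (f i) ≤ f i := by
    intro i hi
    have := Real.log_le_sub_one_of_pos (hpos i hi)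
    linarith
  have h2 : ∑ i ∈ s, (1 + Real.log (f i)) ≤ ∑ i ∈ s, f i := Finset.sum_le_sum h1
  rw [Finset.sum_add_distrib, ← Real.log_prod (fun i hi => (hpos i hi).ne')] at h2
  have h3 := Real.log_nonneg hprod
  simp only [Finset.sum_const, nsmul_eq_mul, mul_one] at h2
  linarith

theorem pow_val_mul {G : Type*} [Group G] [Finite G] (g : G) (u : (ZMod (Nat.card G))ˣ) (m : ℕ)
    (hm : m.Coprime (Nat.card G)) :
    (g ^ (u : ZMod (Nat.card G)).val) ^ m =
      g ^ ((u * ZMod.unitOfCoprime m hm : (ZMod (Nat.card G))ˣ) : ZMod (Nat.card G)).val := by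
  haveI : NeZero (Nat.card G) := ⟨Nat.card_pos.ne'⟩
  rw [← pow_mul]
  apply (pow_eq_pow_iff_modEq).mpr
  apply Nat.ModEq.of_dvd (orderOf_dvd_natCard g)
  rw [← ZMod.natCast_eq_natCast_iff]
  simp

theorem one_le_norm_prod {G : Type*} [Group G] [Finite G] {V : Type*} [AddCommGroup V] [Module ℂ V]
    [FiniteDimensional ℂ V] (ρ : Representation ℂ G V) (g : G)
    (hne : ∀ g : G, ρ.character g ≠ 0) [Fintype (ZMod (Nat.card G))ˣ] :
    1 ≤ ‖∏ u : (ZMod (Nat.card G))ˣ, ρ.character (g ^ (u : ZMod (Nat.card G)).val)‖ := by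
  have hn : 0 < Nat.card G := Nat.card_pos
  have hG : ∀ g : G, g ^ Nat.card G = 1 := fun g => pow_card_eq_one'
  set x : K := ∏ u : (ZMod (Nat.card G))ˣ, charK ρ (g ^ (u : ZMod (Nat.card G)).val) with hx
  have hxc : (x : ℂ) = ∏ u : (ZMod (Nat.card G))ˣ, ρ.character (g ^ (u : ZMod (Nat.card G)).val) := by
    rw [hx]
    push_cast
    rfl
  have hfix : ∀ ψ : K →+* ℂ, ψ x = (x : ℂ) := by
    intro ψ
    obtain ⟨m, hm, hψ⟩ := exists_pow_of_ringHom (Nat.card G) hn ψ
    rw [hxc, hx, map_prod]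
    simp only [apply_charK ρ (Nat.card G) hn hG ψ m hψ, pow_val_mul g _ m hm]
    exact Equiv.prod_comp (Equiv.mulRight (ZMod.unitOfCoprime m hm))
      (fun u : (ZMod (Nat.card G))ˣ => ρ.character (g ^ (u : ZMod (Nat.card G)).val))
  obtain ⟨q, hq⟩ := exists_rat_of_fixed x hfix
  have hint : IsIntegral ℤ (x : ℂ) := by
    rw [hxc]
    exact IsIntegral.prod _ (fun u _ => Lib.Helper4Eigen.char_isIntegral ρ _)
  rw [hq] at hint
  obtain ⟨y, hy⟩ := Lib.Helper4Char3.exists_int_of_isIntegral_rat q hint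
  rw [← hxc, hq, ← hy]
  have hy0 : y ≠ 0 := by
    rintro rfl
    have h0 : (x : ℂ) = 0 := by rw [hq, ← hy]; simp
    rw [hxc, Finset.prod_eq_zero_iff] at h0
    obtain ⟨u, -, hu⟩ := h0
    exact hne _ hu
  have : ((y : ℚ) : ℂ) = ((y : ℤ) : ℂ) := by push_cast; rfl
  rw [this, Complex.norm_intCast]
  exact_mod_cast Int.one_le_abs hy0

/-- An irreducible complex representation of a finite group of degree greater than 1 has a character that vanishes somewhere. -/
theorem result {G : Type*} [Group G] [Finite G] {V : Type*} [AddCommGroup V] [Module ℂ V] [FiniteDimensional ℂ V] (ρ : Representation ℂ G V) [ρ.IsIrreducible] (hdeg : 1 < Module.finrank ℂ V) : ∃ g : G, ρ.character g = 0 := by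
  classical
  by_contra hcon
  push Not at hcon
  haveI : Fintype G := Fintype.ofFinite G
  haveI : NeZero (Nat.card G) := ⟨Nat.card_pos.ne'⟩
  set U := (ZMod (Nat.card G))ˣ with hU
  set F : G → ℝ := fun g => ‖ρ.character g‖ ^ 2 with hF
  have hFpos : ∀ g, 0 < F g := fun g => by
    simp only [hF]
    have := norm_pos_iff.mpr (hcon g)
    positivity
  -- norm one
  have hnorm : ∑ g : G, F g = (Nat.card G : ℝ) := by
    have h1 := Lib.Helper4Char.classInner_irr_self (Lib.Helper4Char.isIrrCharacter_of_rep ρ)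
    unfold Cfsg.classInner at h1
    rw [inv_mul_eq_one₀ Lib.Helper4Char.card_ne_zero] at h1
    have h2 : ∀ g : G, ρ.character g * (starRingEnd ℂ) (ρ.character g) = ((F g : ℝ) : ℂ) := by
      intro g
      rw [Complex.mul_conj, Complex.normSq_eq_norm_sq]
    rw [Finset.sum_congr rfl (fun g _ => h2 g)] at h1
    have h3 : ((Nat.card G : ℝ) : ℂ) = ((∑ g : G, F g : ℝ) : ℂ) := by
      push_cast
      exact h1
    exact_mod_cast h3.symm
  -- each Galois orbit sum is at least |U|
  have horb : ∀ g : G, (Fintype.card U : ℝ) ≤ ∑ u : U, F (g ^ (u : ZMod (Nat.card G)).val) := by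
    intro g
    rw [← Finset.card_univ]
    apply card_le_sum_of_one_le_prod
    · intro u _
      exact hFpos _
    · have h1 := one_le_norm_prod ρ g hcon
      rw [norm_prod] at h1
      simp only [hF]
      rw [Finset.prod_pow]
      exact one_le_pow₀ h1
  -- double counting
  have hdouble : ∑ g : G, ∑ u : U, F (g ^ (u : ZMod (Nat.card G)).val) =
      (Fintype.card U : ℝ) * (Nat.card G : ℝ) := by
    rw [Finset.sum_comm]
    have : ∀ u : U, ∑ g : G, F (g ^ (u : ZMod (Nat.card G)).val) = (Nat.card G : ℝ) := by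
      intro u
      rw [← hnorm]
      exact Equiv.sum_comp (powCoprime (ZMod.val_coe_unit_coprime u).symm) F
    rw [Finset.sum_congr rfl (fun u _ => this u), Finset.sum_const, Finset.card_univ, nsmul_eq_mul]
  have hone : ∑ u : U, F ((1 : G) ^ (u : ZMod (Nat.card G)).val) =
      (Fintype.card U : ℝ) * (finrank ℂ V : ℝ) ^ 2 := by
    simp only [one_pow, hF, Representation.char_one, Finset.sum_const, Finset.card_univ,
      nsmul_eq_mul, Complex.norm_natCast]
  have hsplit : (Fintype.card U : ℝ) * (finrank ℂ V : ℝ) ^ 2 +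
      ((Nat.card G : ℝ) - 1) * (Fintype.card U : ℝ) ≤ (Fintype.card U : ℝ) * (Nat.card G : ℝ) := by
    rw [← hdouble, ← Finset.add_sum_erase _ _ (Finset.mem_univ (1 : G)), hone]
    apply add_le_add le_rfl
    calc ((Nat.card G : ℝ) - 1) * (Fintype.card U : ℝ)
        = ∑ g ∈ Finset.univ.erase (1 : G), (Fintype.card U : ℝ) := by
          rw [Finset.sum_const, Finset.card_erase_of_mem (Finset.mem_univ _), Finset.card_univ,
            nsmul_eq_mul, Nat.cast_sub Fintype.card_pos]
          congr 1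
          have : (Nat.card G : ℝ) = (Fintype.card G : ℝ) := by
            exact_mod_cast Nat.card_eq_fintype_card
          rw [this]
          simp
      _ ≤ _ := Finset.sum_le_sum (fun g _ => horb g)
  have hUpos : (0 : ℝ) < Fintype.card U := by
    exact_mod_cast Fintype.card_pos
  have hd : (2 : ℝ) ≤ finrank ℂ V := by exact_mod_cast hdeg
  have h4 : (4 : ℝ) ≤ (finrank ℂ V : ℝ) ^ 2 := by nlinarith
  have h5 : (Fintype.card U : ℝ) * ((finrank ℂ V : ℝ) ^ 2 - 1) ≤ 0 := by nlinarith
  have h6 : (0 : ℝ) < (Fintype.card U : ℝ) * ((finrank ℂ V : ℝ) ^ 2 - 1) :=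
    mul_pos hUpos (by linarith)
  linarith

end Cfsg.Agent.S0191
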