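import Cfsg.Statements.S0192
import Mathlib
import Cfsg.Agent.Lib.Helper4Char2
import Cfsg.Agent.Lib.Helper82Linear

set_option autoImplicit false
open Cfsg

namespace Cfsg.Agent.S0192

open scoped ComplexConjugate

theorem classInner_res_one {G : Type*} [Group G] {V : Type*} [AddCommGroup V] [Module ℂ V]
    [FiniteDimensional ℂ V] (ρ : Representation ℂ G V) (H : Subgroup G) [Fintype H] :
    Cfsg.classInner (fun x : H => ρ.character x) (fun _ => 1) =
      (Module.finrank ℂ (Representation.invariants (ρ.comp H.subtype)) : ℂ) := by
  have hne : (Nat.card H : ℂ) ≠ 0 := Nat.cast_ne_zero.mpr Nat.card_pos.ne'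
  haveI : Invertible (Nat.card H : ℂ) := invertibleOfNonzero hne
  rw [← Representation.card_inv_mul_sum_char_eq_finrank]
  unfold Cfsg.classInner
  congr 1
  apply Finset.sum_congr rfl
  intro x _
  simp only [map_one, mul_one]
  rfl

theorem classInner_one {G : Type*} [Group G] [Fintype G] {V : Type*} [AddCommGroup V] [Module ℂ V]
    [FiniteDimensional ℂ V] (ρ : Representation ℂ G V) :
    Cfsg.classInner ρ.character (fun _ => 1) =
      (Module.finrank ℂ (Representation.invariants ρ) : ℂ) := by
  have hne : (Nat.card G : ℂ) ≠ 0 := Nat.cast_ne_zero.mpr Nat.card_pos.ne'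
  haveI : Invertible (Nat.card G : ℂ) := invertibleOfNonzero hne
  rw [← Representation.card_inv_mul_sum_char_eq_finrank]
  unfold Cfsg.classInner
  congr 1
  apply Finset.sum_congr rfl
  intro x _
  simp only [map_one, mul_one]

/-- Brauer's generation criterion. Let G be a finite simple group, H₁ and H₂ subgroups, and χ a non-principal irreducible character. If the multiplicity of the principal character in χ restricted to H₁ ⊓ H₂ is less than the sum of the corresponding multiplicities for H₁ and H₂, then H₁ and H₂ do not generate G. -/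
theorem result {G : Type*} [Group G] [Fintype G] [IsSimpleGroup G] (H₁ H₂ : Subgroup G) [Fintype H₁] [Fintype H₂] [Fintype ↥(H₁ ⊓ H₂)] (χ : G → ℂ) (hχ : Cfsg.IsIrrCharacter G χ) (hχ1 : χ ≠ fun _ => 1) (hlt : (Cfsg.classInner (fun x : ↥(H₁ ⊓ H₂) => χ x) (fun _ => 1)).re < (Cfsg.classInner (fun x : H₁ => χ x) (fun _ => 1)).re + (Cfsg.classInner (fun x : H₂ => χ x) (fun _ => 1)).re) : H₁ ⊔ H₂ ≠ ⊤ := by
  classical
  obtain ⟨n, ρ, hρ, rfl⟩ := hχ
  intro htop
  rw [classInner_res_one, classInner_res_one, classInner_res_one] at hlt
  simp only [Complex.natCast_re] at hlt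
  have h0 : Module.finrank ℂ (Representation.invariants ρ) = 0 := by
    have h1 := Lib.Helper4Char.classInner_irr_ne ⟨n, ρ, hρ, rfl⟩ Lib.Helper82Linear.isIrrCharacter_one hχ1
    rw [classInner_one] at h1
    exact_mod_cast h1
  have hbot : Representation.invariants ρ = ⊥ := Submodule.finrank_eq_zero.mp h0
  have hinf : Representation.invariants (ρ.comp H₁.subtype) ⊓
      Representation.invariants (ρ.comp H₂.subtype) = ⊥ := by
    rw [eq_bot_iff, ← hbot]
    intro v hv
    rw [Representation.mem_invariants]
    let S : Subgroup G :=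
      { carrier := {g | ρ g v = v}
        mul_mem' := by
          intro a b ha hb
          simp only [Set.mem_setOf_eq] at ha hb ⊢
          rw [map_mul, Module.End.mul_apply, hb, ha]
        one_mem' := by simp
        inv_mem' := by
          intro a ha
          simp only [Set.mem_setOf_eq] at ha ⊢
          conv_lhs => rw [← ha]
          rw [← Module.End.mul_apply, ← map_mul, inv_mul_cancel, map_one, Module.End.one_apply] }
    have h1 : H₁ ≤ S := fun g hg => (Representation.mem_invariants _ v).mp hv.1 ⟨g, hg⟩
    have h2 : H₂ ≤ S := fun g hg => (Representation.mem_invariants _ v).mp hv.2 ⟨g, hg⟩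
    have h3 : S = ⊤ := by
      rw [eq_top_iff, ← htop]
      exact sup_le h1 h2
    intro g
    have : g ∈ S := by rw [h3]; trivial
    exact this
  have hsup : Representation.invariants (ρ.comp H₁.subtype) ⊔
      Representation.invariants (ρ.comp H₂.subtype) ≤
      Representation.invariants (ρ.comp (H₁ ⊓ H₂).subtype) := by
    apply sup_le
    · intro v hv
      rw [Representation.mem_invariants] at hv ⊢
      intro g
      exact hv ⟨g, g.2.1⟩
    · intro v hv
      rw [Representation.mem_invariants] at hv ⊢
      intro g
      exact hv ⟨g, g.2.2⟩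
  have h4 := Submodule.finrank_sup_add_finrank_inf_eq (Representation.invariants (ρ.comp H₁.subtype))
    (Representation.invariants (ρ.comp H₂.subtype))
  rw [hinf, finrank_bot, add_zero] at h4
  have h5 := Submodule.finrank_mono hsup
  have h6 : (Module.finrank ℂ (Representation.invariants (ρ.comp H₁.subtype)) : ℝ) +
      Module.finrank ℂ (Representation.invariants (ρ.comp H₂.subtype)) ≤
      Module.finrank ℂ (Representation.invariants (ρ.comp (H₁ ⊓ H₂).subtype)) := by
    rw [h4] at h5
    exact_mod_cast h5
  linarith

end Cfsg.Agent.S0192
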