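import Cfsg.Statements.S0193
import Mathlib
import Cfsg.Agent.Lib.Helper5Clifford

set_option autoImplicit false
open Cfsg

namespace Cfsg.Agent.S0193

/-- Let H be a normal subgroup of a finite group G and θ an irreducible character of H. Then |H| times the inner product of the induced function of θ with itself equals the number of g in G with θ(g h g⁻¹) = θ(h) for all h in H; in particular the induced character is irreducible when only elements of H stabilise θ. -/
theorem result {G : Type*} [Group G] [Fintype G] (H : Subgroup G) [hN : H.Normal] (θ : H → ℂ) (hθ : Cfsg.IsIrrCharacter H θ) : (Nat.card H : ℂ) * Cfsg.classInner (Cfsg.indFun H θ) (Cfsg.indFun H θ) = (Nat.card {g : G // ∀ h : H, θ ⟨g * h * g⁻¹, hN.conj_mem h h.2 g⟩ = θ h} : ℂ) := by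
  classical
  haveI : Fintype H := Fintype.ofFinite _
  rw [Lib.Helper5Clifford.classInner_ind_ind hN]
  have h1 : ∀ x : G, Cfsg.classInner θ (Lib.Helper5Clifford.cj hN θ x) =
      if (∀ h : H, θ ⟨x * h * x⁻¹, hN.conj_mem h h.2 x⟩ = θ h) then 1 else 0 := by
    intro x
    rw [Lib.Helper4Char.classInner_irr hθ (Lib.Helper5Clifford.cj_isIrr hN hθ x)]
    apply if_congr _ rfl rfl
    constructor
    · intro h n
      exact (congrFun h n).symm
    · intro h
      funext n
      exact (h n).symm
  rw [Finset.sum_congr rfl (fun x _ => h1 x), Finset.sum_boole, Nat.card_eq_fintype_card,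
    Fintype.card_subtype]

end Cfsg.Agent.S0193
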