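import Cfsg.Statements.S0194
import Mathlib
import Cfsg.Agent.Lib.Helper5Clifford
import Cfsg.Agent.S0161

set_option autoImplicit false
open scoped ComplexConjugate
open Cfsg

namespace Cfsg.Agent.S0194

/-- Let G have odd order, H be a normal subgroup and θ a non-principal irreducible character of H. Then the function induced from θ is orthogonal to its complex conjugate. -/
theorem result {G : Type*} [Group G] [Fintype G] (hodd : Odd (Nat.card G)) (H : Subgroup G) [H.Normal] (θ : H → ℂ) (hθ : Cfsg.IsIrrCharacter H θ) (hθ1 : θ ≠ fun _ => 1) : Cfsg.classInner (fun g => conj (Cfsg.indFun H θ g)) (Cfsg.indFun H θ) = 0 := by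
  classical
  haveI : Fintype H := Fintype.ofFinite _
  have hN : H.Normal := inferInstance
  rw [Lib.Helper5Clifford.indFun_conj]
  have hcard : (Nat.card H : ℂ) ≠ 0 := Lib.Helper19Ind.card_ne_zero H
  have key := Lib.Helper5Clifford.classInner_ind_ind hN (fun h => conj (θ h)) θ
  have hzero : ∑ x : G, Cfsg.classInner (fun h => conj (θ h)) (Lib.Helper5Clifford.cj hN θ x) = 0 := by
    apply Finset.sum_eq_zero
    intro x _
    apply Lib.Helper4Char.classInner_irr_ne (Lib.Helper4Char4.IsIrrCharacter.conj hθ)
      (Lib.Helper5Clifford.cj_isIrr hN hθ x)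
    intro hx
    apply hθ1
    have h2 : Lib.Helper5Clifford.cj hN θ (x * x) = θ := by
      rw [← Lib.Helper5Clifford.cj_cj, ← hx, Lib.Helper5Clifford.cj_conj, ← hx]
      funext n
      simp
    have h3 : ∀ k : ℕ, Lib.Helper5Clifford.cj hN θ ((x * x) ^ k) = θ := by
      intro k
      induction k with
      | zero => rw [pow_zero, Lib.Helper5Clifford.cj_one]
      | succ k ih => rw [pow_succ, ← Lib.Helper5Clifford.cj_cj, ih, h2]
    have hxodd : Odd (orderOf x) := hodd.of_dvd_nat (orderOf_dvd_natCard x)
    obtain ⟨m, hm⟩ := hxodd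
    have h4 : (x * x) ^ (m + 1) = x := by
      rw [← pow_two, ← pow_mul]
      have : 2 * (m + 1) = orderOf x + 1 := by omega
      rw [this, pow_succ, pow_orderOf_eq_one, one_mul]
    have h5 : Lib.Helper5Clifford.cj hN θ x = θ := by
      have := h3 (m + 1)
      rwa [h4] at this
    rw [h5] at hx
    have hHodd : Odd (Nat.card H) := hodd.of_dvd_nat (Subgroup.card_subgroup_dvd_card H)
    refine S0161.result hHodd ⟨θ, hθ⟩ ?_
    intro g
    have := congrFun hx g
    exact Complex.conj_eq_iff_im.mp this
  rw [hzero] at key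
  exact (mul_eq_zero.mp key).resolve_left hcard

end Cfsg.Agent.S0194
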