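import Cfsg.Statements.S0195
import Mathlib

set_option autoImplicit false
open Cfsg

namespace Cfsg.Agent.S0195

/-- Let A be a subgroup of G that equals the centralizer of each of its non-identity elements. If g lies outside the normalizer of A, then the only element of A conjugated by g into A is the identity (A is a trivial-intersection set). -/
theorem result {G : Type*} [Group G] [Finite G] (A : Subgroup G) (hA : ∀ x ∈ A, x ≠ 1 → Subgroup.centralizer ({x} : Set G) = A) (g : G) (hg : g ∉ Subgroup.normalizer (A : Set G)) (x : G) (hx : x ∈ A) (hgx : g * x * g⁻¹ ∈ A) : x = 1 := by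
  by_contra hx1
  apply hg
  have h1 := hA x hx hx1
  have hne : g * x * g⁻¹ ≠ 1 := by
    intro h
    apply hx1
    have : x = g⁻¹ * (g * x * g⁻¹) * g := by group
    rw [this, h]; group
  have h2 := hA _ hgx hne
  rw [Subgroup.mem_normalizer_iff]
  intro a
  have e1 : a ∈ A ↔ a ∈ Subgroup.centralizer ({x} : Set G) := by rw [h1]
  have e2 : g * a * g⁻¹ ∈ A ↔ g * a * g⁻¹ ∈ Subgroup.centralizer ({g * x * g⁻¹} : Set G) := by rw [h2]
  rw [e1, e2]
  simp only [Subgroup.mem_centralizer_iff, Set.mem_singleton_iff, forall_eq]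
  constructor
  · intro h
    calc g * x * g⁻¹ * (g * a * g⁻¹) = g * (x * a) * g⁻¹ := by group
      _ = g * (a * x) * g⁻¹ := by rw [h]
      _ = _ := by group
  · intro h
    have : g⁻¹ * (g * x * g⁻¹ * (g * a * g⁻¹)) * g = g⁻¹ * (g * a * g⁻¹ * (g * x * g⁻¹)) * g := by rw [h]
    calc x * a = g⁻¹ * (g * x * g⁻¹ * (g * a * g⁻¹)) * g := by group
      _ = g⁻¹ * (g * a * g⁻¹ * (g * x * g⁻¹)) * g := this
      _ = _ := by group

end Cfsg.Agent.S0195
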