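import Cfsg.Statements.S0196
import Mathlib

set_option autoImplicit false
open Cfsg

namespace Cfsg.Agent.S0196

theorem dvd_card_of_index_stabilizer {M β : Type*} [Group M] [MulAction M β] [Finite β] (k : ℕ)
    (h : ∀ b : β, (MulAction.stabilizer M b).index = k) : k ∣ Nat.card β := by
  classical
  have e := MulAction.selfEquivSigmaOrbits M β
  rw [Nat.card_congr e]
  haveI : Fintype (MulAction.orbitRel.Quotient M β) := Fintype.ofFinite _
  rw [Nat.card_sigma]
  apply Finset.dvd_sum
  intro ω _
  rw [← h ω.out, MulAction.index_stabilizer]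
  simp [Set.ncard_eq_toFinset_card', Nat.card_eq_fintype_card]

/-- Let A be a subgroup of a finite group G that equals the centralizer of each of its non-identity elements, and let N be its normalizer. Then the index of A in N divides |A| − 1 (N/A permutes the non-identity elements of A in orbits of full length). -/
theorem result {G : Type*} [Group G] [Finite G] (A : Subgroup G) (hA : ∀ x ∈ A, x ≠ 1 → Subgroup.centralizer ({x} : Set G) = A) : (A.subgroupOf (Subgroup.normalizer (A : Set G))).index ∣ Nat.card A - 1 := by
  classical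
  letI act : MulAction (Subgroup.normalizer (A : Set G)) {x : G // x ∈ A ∧ x ≠ 1} :=
    { smul := fun n x => ⟨n * x * (n : G)⁻¹, (Subgroup.mem_normalizer_iff.mp n.2 x).mp x.2.1, by
        intro h
        apply x.2.2
        have : (x : G) = (n : G)⁻¹ * (n * x * (n : G)⁻¹) * n := by group
        rw [this, h]; group⟩
      one_smul := fun x => by
        apply Subtype.ext
        change ((1 : Subgroup.normalizer (A : Set G)) : G) * x * ((1 : Subgroup.normalizer (A : Set G)) : G)⁻¹ = x
        simp
      mul_smul := fun a b x => by
        apply Subtype.ext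
        change ((a * b : Subgroup.normalizer (A : Set G)) : G) * x * ((a * b : Subgroup.normalizer (A : Set G)) : G)⁻¹ = a * (b * x * (b : G)⁻¹) * (a : G)⁻¹
        simp only [Subgroup.coe_mul]
        group }
  have hcard : Nat.card {x : G // x ∈ A ∧ x ≠ 1} = Nat.card A - 1 := by
    have e : {x : G // x ∈ A ∧ x ≠ 1} ≃ {a : A // a ≠ 1} :=
      { toFun := fun x => ⟨⟨x.1, x.2.1⟩, fun h => x.2.2 (by simpa using congrArg Subtype.val h)⟩
        invFun := fun a => ⟨a.1.1, a.1.2, fun h => a.2 (Subtype.ext h)⟩
        left_inv := fun x => rfl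
        right_inv := fun a => rfl }
    rw [Nat.card_congr e]
    haveI : Fintype A := Fintype.ofFinite _
    rw [Nat.card_eq_fintype_card, Nat.card_eq_fintype_card, Fintype.card_subtype_compl]
    simp
  rw [← hcard]
  apply dvd_card_of_index_stabilizer (M := Subgroup.normalizer (A : Set G))
  intro b
  congr 1
  ext n
  rw [MulAction.mem_stabilizer_iff, Subgroup.mem_subgroupOf]
  have hb := hA b.1 b.2.1 b.2.2
  have : (n : G) ∈ A ↔ (n : G) ∈ Subgroup.centralizer ({b.1} : Set G) := by rw [hb]
  rw [this, Subgroup.mem_centralizer_iff]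
  simp only [Set.mem_singleton_iff, forall_eq]
  constructor
  · intro h
    have h' : (n : G) * b.1 * (n : G)⁻¹ = b.1 := congrArg Subtype.val h
    calc b.1 * n = ((n : G) * b.1 * (n : G)⁻¹) * n := by rw [h']
      _ = _ := by group
  · intro h
    apply Subtype.ext
    change (n : G) * b.1 * (n : G)⁻¹ = b.1
    rw [← h]; group

end Cfsg.Agent.S0196
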