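import Cfsg.Statements.S0203
import Mathlib
import Cfsg.Agent.Lib.Helper5Klein

set_option autoImplicit false
open Cfsg

namespace Cfsg.Agent.S0203

open scoped Pointwise

/-- If a Sylow 2-subgroup P of a finite group G is a Klein four-group, then G has three classes of involutions if and only if P has a normal complement in G. -/
theorem result {G : Type*} [Group G] [Finite G] (P : Sylow 2 G) (hP : IsKleinFour (P : Subgroup G)) : Nat.card {C : ConjClasses G // ∃ t : G, orderOf t = 2 ∧ ConjClasses.mk t = C} = 3 ↔ ∃ N : Subgroup G, N.Normal ∧ Subgroup.IsComplement' N (P : Subgroup G) := by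
  constructor
  · intro h3
    rcases Lib.Helper5Klein.cases_klein P hP with h | h
    · exact ⟨_, inferInstance, MonoidHom.ker_transferSylow_isComplement' P h.1⟩
    · have := h.2
      change Nat.card {C : ConjClasses G // ∃ t : G, orderOf t = 2 ∧ ConjClasses.mk t = C} = 1 at this
      omega
  · rintro ⟨N, hN, hc⟩
    apply Lib.Helper5Klein.card_eq_three_of_inj P hP
    intro z hz z' hz' hconj
    obtain ⟨g, hg⟩ := isConj_iff.mp hconj
    have hg' : g ∈ (N : Set G) * ((P : Subgroup G) : Set G) := by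
      rw [hc.mul_eq]; trivial
    obtain ⟨n, hn, q, hq, rfl⟩ := hg'
    have hcomm := Lib.Helper5Klein.comm_of_klein P hP
    have h1 : z' = n * z * n⁻¹ := by
      rw [← hg]
      have : q * z = z * q := hcomm q hq z hz
      calc n * q * z * (n * q)⁻¹ = n * (q * z) * q⁻¹ * n⁻¹ := by group
        _ = n * (z * q) * q⁻¹ * n⁻¹ := by rw [this]
        _ = n * z * n⁻¹ := by group
    have h2 : z' * z⁻¹ ∈ N := by
      rw [h1]
      have : n * z * n⁻¹ * z⁻¹ = n * (z * n⁻¹ * z⁻¹) := by group
      rw [this]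
      exact N.mul_mem hn (hN.conj_mem _ (N.inv_mem hn) z)
    have h3 : z' * z⁻¹ ∈ (P : Subgroup G) := Subgroup.mul_mem _ hz' (Subgroup.inv_mem _ hz)
    have h4 : z' * z⁻¹ ∈ N ⊓ (P : Subgroup G) := ⟨h2, h3⟩
    rw [hc.disjoint.eq_bot, Subgroup.mem_bot] at h4
    exact (mul_inv_eq_one.mp h4).symm

end Cfsg.Agent.S0203
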