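import Cfsg.Statements.S0207
import Mathlib
import Cfsg.Agent.Lib.Helper5Dihedral

set_option autoImplicit false
open Cfsg

namespace Cfsg.Agent.S0207

/-- If x, y are distinct involutions, every element of the subgroup they generate that lies outside the cyclic subgroup generated by xy is an involution. -/
theorem result {G : Type*} [Group G] [Finite G] (x y : G) (hx : orderOf x = 2) (hy : orderOf y = 2) (hxy : x ≠ y) (d : G) (hd : d ∈ Subgroup.closure ({x, y} : Set G)) (hd' : d ∉ Subgroup.zpowers (x * y)) : orderOf d = 2 := by
  have hx' := Lib.Helper5Dihedral.mul_self_of_orderOf hx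
  have hy' := Lib.Helper5Dihedral.mul_self_of_orderOf hy
  obtain ⟨k, hk⟩ := Lib.Helper5Dihedral.mem_closure_pair hx' hy' hd
  rcases hk with rfl | rfl
  · exact absurd (Subgroup.zpow_mem_zpowers _ _) hd'
  · apply Lib.Helper5Dihedral.orderOf_eq_two
    · rw [mul_assoc, ← mul_assoc x, Lib.Helper5Dihedral.x_mul_zpow hx' hy', mul_assoc, hx', mul_one,
        ← zpow_add]
      simp
    · intro h
      apply hd'
      rw [h]
      exact Subgroup.one_mem _

end Cfsg.Agent.S0207
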