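import Cfsg.Statements.S0211
import Mathlib
import Cfsg.Agent.Lib.Helper5Dihedral

set_option autoImplicit false
open Cfsg

namespace Cfsg.Agent.S0211

/-- Let x, y be involutions with xy of even order n and z = (xy)^(n/2). Then xz is conjugate to x by an element of the subgroup generated by x, y if and only if 4 divides n. -/
theorem result {G : Type*} [Group G] [Finite G] (x y : G) (hx : orderOf x = 2) (hy : orderOf y = 2) (heven : Even (orderOf (x * y))) : (∃ d ∈ Subgroup.closure ({x, y} : Set G), d * x * d⁻¹ = x * (x * y) ^ (orderOf (x * y) / 2)) ↔ 4 ∣ orderOf (x * y) := by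
  have hx' := Lib.Helper5Dihedral.mul_self_of_orderOf hx
  have hy' := Lib.Helper5Dihedral.mul_self_of_orderOf hy
  have h2 : orderOf ((x * y) ^ (orderOf (x * y) / 2)) = 2 :=
    orderOf_pow_orderOf_div (orderOf_pos _).ne' heven.two_dvd
  have hz := Lib.Helper5Dihedral.mul_self_of_orderOf h2
  have hzi := Lib.Helper5Dihedral.inv_eq_of_mul_self hz
  have hcomm : x * (x * y) ^ (orderOf (x * y) / 2) = (x * y) ^ (orderOf (x * y) / 2) * x := by
    have := Lib.Helper5Dihedral.x_mul_zpow hx' hy' ((orderOf (x * y) / 2 : ℕ) : ℤ)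
    rw [zpow_neg, zpow_natCast, hzi] at this
    exact this
  rw [hcomm]
  obtain ⟨m, hm⟩ := heven
  have hm2 : orderOf (x * y) / 2 = m := by omega
  rw [hm2]
  constructor
  · rintro ⟨d, hd, hd2⟩
    obtain ⟨k, hk⟩ := Lib.Helper5Dihedral.conj_x hx' hy' hd
    rw [hk] at hd2
    have h3 : (x * y) ^ (2 * k) = (x * y) ^ m := mul_right_cancel hd2
    have h4 : (x * y) ^ (2 * k - m) = 1 := by
      rw [zpow_sub, h3, zpow_natCast, mul_inv_cancel]
    have h5 := orderOf_dvd_iff_zpow_eq_one.mpr h4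
    rw [hm] at h5
    push_cast at h5
    obtain ⟨c, hc⟩ := h5
    rw [hm]
    have h6 : (m : ℤ) = 2 * (k - m * c) := by linarith
    have h7 : (2 : ℤ) ∣ (m : ℤ) := ⟨_, h6⟩
    have h8 : 2 ∣ m := by exact_mod_cast h7
    omega
  · intro h4
    obtain ⟨c, hc⟩ := h4
    refine ⟨(x * y) ^ (c : ℤ), Lib.Helper5Dihedral.zpow_mem _, ?_⟩
    rw [Lib.Helper5Dihedral.zpow_conj_x hx' hy']
    congr 1
    have : m = 2 * c := by omega
    rw [this]
    norm_cast

end Cfsg.Agent.S0211
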