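import Cfsg.Statements.S0216
import Mathlib
import Cfsg.Agent.Lib.Helper5Dihedral
import Cfsg.Agent.Lib.Helper5Sylow
import Cfsg.Agent.S0206

set_option autoImplicit false
open Cfsg

namespace Cfsg.Agent.S0216

/-- For an involution u in a Sylow 2-subgroup P of a finite group G, the following are equivalent: no G-conjugate of u other than u lies in P; every commutator of u with an element of G has odd order. -/
theorem result {G : Type*} [Group G] [Finite G] (P : Sylow 2 G) (u : G) (hu : orderOf u = 2) (huP : u ∈ P) : (∀ g : G, g * u * g⁻¹ ∈ P → g * u * g⁻¹ = u) ↔ (∀ g : G, Odd (orderOf (u * g * u⁻¹ * g⁻¹))) := by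
  have hu' := Lib.Helper5Dihedral.mul_self_of_orderOf hu
  have hui := Lib.Helper5Dihedral.inv_eq_of_mul_self hu'
  have hconj2 : ∀ g : G, (g * u * g⁻¹) * (g * u * g⁻¹) = 1 := by
    intro g
    calc (g * u * g⁻¹) * (g * u * g⁻¹) = g * (u * u) * g⁻¹ := by group
      _ = 1 := by rw [hu']; group
  have hcomm : ∀ g : G, u * g * u⁻¹ * g⁻¹ = u * (g * u * g⁻¹) := by
    intro g
    rw [hui]; group
  constructor
  · intro hiso g
    rw [hcomm]
    set v := g * u * g⁻¹ with hv
    have hv' : v * v = 1 := hconj2 g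
    obtain ⟨a, m, hm, hn⟩ := Nat.exists_eq_two_pow_mul_odd (orderOf_pos (u * v)).ne'
    obtain ⟨j, hj⟩ := hm
    set w := (u * v) ^ (j : ℤ) * u * ((u * v) ^ (j : ℤ))⁻¹ with hw
    have hw' : w * w = 1 := hconj2 _
    have hwv : w * v = (u * v) ^ m := by
      rw [hw, Lib.Helper5Dihedral.zpow_conj_x hu' hv', mul_assoc, hj, pow_succ]
      congr 1
      norm_cast
    have hord : orderOf (w * v) = 2 ^ a := by
      rw [hwv, orderOf_pow, hn]
      have : Nat.gcd (2 ^ a * m) m = m := Nat.gcd_eq_right (Dvd.intro_left _ rfl)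
      rw [this]
      exact Nat.mul_div_cancel _ (by omega)
    have hweq : w = v := by
      by_contra hne
      have hw1 : w ≠ 1 := by
        intro h
        have h1 : u = ((u * v) ^ (j : ℤ))⁻¹ * w * (u * v) ^ (j : ℤ) := by rw [hw]; group
        rw [h] at h1
        apply Lib.Helper5Dihedral.ne_one_of_orderOf hu
        rw [h1]; group
      have hv1 : v ≠ 1 := by
        intro h
        have h1 : u = g⁻¹ * v * g := by rw [hv]; group
        rw [h] at h1
        apply Lib.Helper5Dihedral.ne_one_of_orderOf hu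
        rw [h1]; group
      obtain ⟨e⟩ := S0206.result w v (Lib.Helper5Dihedral.orderOf_eq_two hw' hw1)
        (Lib.Helper5Dihedral.orderOf_eq_two hv' hv1) hne
      have hcard : Nat.card (Subgroup.closure ({w, v} : Set G)) = 2 ^ (a + 1) := by
        rw [Nat.card_congr e.toEquiv, DihedralGroup.nat_card, hord, pow_succ, mul_comm]
      have hpg : IsPGroup 2 (Subgroup.closure ({w, v} : Set G)) := IsPGroup.of_card hcard
      obtain ⟨h, hh⟩ := Lib.Helper5Sylow.exists_conj_mem_sylow P _ hpg
      have h1 := hh w Lib.Helper5Dihedral.x_mem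
      have h2 := hh v Lib.Helper5Dihedral.y_mem
      have e1 : h * w * h⁻¹ = (h * (u * v) ^ (j : ℤ)) * u * (h * (u * v) ^ (j : ℤ))⁻¹ := by
        rw [hw]; group
      have e2 : h * v * h⁻¹ = (h * g) * u * (h * g)⁻¹ := by
        rw [hv]; group
      have h3 := hiso (h * (u * v) ^ (j : ℤ)) (e1 ▸ h1)
      have h4 := hiso (h * g) (e2 ▸ h2)
      rw [← e1] at h3
      rw [← e2] at h4
      apply hne
      have : h * w * h⁻¹ = h * v * h⁻¹ := by rw [h3, h4]
      simpa using this
    rw [hweq, hv'] at hwv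
    have hdvd : orderOf (u * v) ∣ m := orderOf_dvd_of_pow_eq_one hwv.symm
    have hmodd : Odd m := ⟨j, hj⟩
    exact hmodd.of_dvd_nat hdvd
  · intro hodd g hg
    have h1 := hodd g
    rw [hcomm] at h1
    have hmem : u * (g * u * g⁻¹) ∈ P := Subgroup.mul_mem _ huP hg
    obtain ⟨k, hk⟩ := (IsPGroup.iff_orderOf.mp P.2) ⟨_, hmem⟩
    rw [Subgroup.orderOf_mk] at hk
    have hk0 : k = 0 := by
      by_contra hk0
      rw [hk] at h1
      have : Even (2 ^ k) := (Nat.even_pow.mpr ⟨even_two, hk0⟩)
      exact (Nat.not_even_iff_odd.mpr h1) this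
    rw [hk0, pow_zero, orderOf_eq_one_iff] at hk
    have := eq_inv_of_mul_eq_one_right hk
    rw [this, hui]

end Cfsg.Agent.S0216
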