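import Cfsg.Statements.S0218
import Mathlib

set_option autoImplicit false
open Cfsg

namespace Cfsg.Agent.S0218

theorem orderOf_eq_two_iff (m : ℕ) [NeZero m] (x : QuaternionGroup m) :
    orderOf x = 2 ↔ x = QuaternionGroup.a (m : ZMod (2 * m)) := by
  have hm : 0 < m := Nat.pos_of_ne_zero (NeZero.ne m)
  haveI : NeZero (2 * m) := ⟨by omega⟩
  have hne : ((m : ℕ) : ZMod (2 * m)) ≠ 0 := by
    intro h
    rw [ZMod.natCast_eq_zero_iff] at h
    have := Nat.le_of_dvd hm h
    omega
  constructor
  · intro h
    cases x with
    | a i =>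
      have h1 : QuaternionGroup.a i * QuaternionGroup.a i = 1 := by
        have := pow_orderOf_eq_one (QuaternionGroup.a i)
        rwa [h, pow_two] at this
      rw [QuaternionGroup.a_mul_a, QuaternionGroup.one_def] at h1
      have h2 : i + i = 0 := by
        injection h1
      have h3 : i ≠ 0 := by
        rintro rfl
        rw [QuaternionGroup.a_zero] at h
        simp at h
      congr 1
      have h4 : ((i.val + i.val : ℕ) : ZMod (2 * m)) = 0 := by
        push_cast
        rw [ZMod.natCast_zmod_val, h2]
      rw [ZMod.natCast_eq_zero_iff] at h4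
      have h5 : i.val < 2 * m := ZMod.val_lt i
      have h6 : i.val ≠ 0 := by
        intro h
        exact h3 ((ZMod.val_eq_zero i).mp h)
      obtain ⟨c, hc⟩ := h4
      have hc1 : c = 1 := by
        have h7 : c < 2 := by
          by_contra hcon
          push Not at hcon
          have : 2 * m * 2 ≤ 2 * m * c := Nat.mul_le_mul_left _ hcon
          omega
        have h8 : c ≠ 0 := by
          rintro rfl
          omega
        omega
      subst hc1
      have : i.val = m := by omega
      calc i = ((i.val : ℕ) : ZMod (2 * m)) := (ZMod.natCast_zmod_val i).symm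
        _ = ((m : ℕ) : ZMod (2 * m)) := congrArg _ this
    | xa i =>
      rw [QuaternionGroup.orderOf_xa] at h
      omega
  · rintro rfl
    apply orderOf_eq_prime
    · rw [pow_two, QuaternionGroup.a_mul_a, QuaternionGroup.one_def]
      congr 1
      have : ((m + m : ℕ) : ZMod (2 * m)) = 0 := by
        rw [ZMod.natCast_eq_zero_iff]
        exact ⟨1, by ring⟩
      push_cast at this
      exact this
    · rw [QuaternionGroup.one_def]
      intro h
      injection h with h
      exact hne h

/-- The generalized quaternion group of order 2^(n+3) contains exactly one element of order 2. -/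
theorem result (n : ℕ) : Nat.card {x : QuaternionGroup (2 ^ (n + 1)) // orderOf x = 2} = 1 := by
  haveI : NeZero (2 ^ (n + 1)) := ⟨by positivity⟩
  rw [Nat.card_eq_one_iff_unique]
  refine ⟨⟨?_⟩, ⟨⟨_, (orderOf_eq_two_iff (2 ^ (n + 1)) _).mpr rfl⟩⟩⟩
  rintro ⟨a, ha⟩ ⟨b, hb⟩
  apply Subtype.ext
  change a = b
  rw [(orderOf_eq_two_iff _ a).mp ha, (orderOf_eq_two_iff _ b).mp hb]

end Cfsg.Agent.S0218
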