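import Cfsg.Statements.S0219
import Mathlib

set_option autoImplicit false
open Cfsg

namespace Cfsg.Agent.S0219

/-- If a finite group has even order and a cyclic Sylow 2-subgroup, then it has a subgroup of index 2 (consider the parity of permutations in the regular representation). -/
theorem result {G : Type*} [Group G] [Finite G] (heven : Even (Nat.card G)) (T : Sylow 2 G) (hT : IsCyclic (T : Subgroup G)) : ∃ H : Subgroup G, H.index = 2 := by
  have hp : (Nat.card G).minFac = 2 := (Nat.minFac_eq_two_iff _).mpr heven.two_dvd
  have hc := IsCyclic.isComplement' hp hT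
  set f := MonoidHom.transferSylow T (hT.normalizer_le_centralizer hp) with hf
  have hsurj : Function.Surjective f := by
    rw [← MonoidHom.range_eq_top]
    apply Subgroup.eq_top_of_card_eq
    rw [← Subgroup.index_ker]
    exact hc.symm.index_eq_card
  obtain ⟨k, hk⟩ := T.2.exists_card_eq
  have h2 : 2 ∣ Nat.card T := T.dvd_card_of_dvd_card heven.two_dvd
  have hk0 : k ≠ 0 := by
    rintro rfl
    rw [hk] at h2
    norm_num at h2
  obtain ⟨j, rfl⟩ := Nat.exists_eq_succ_of_ne_zero hk0
  obtain ⟨Q, hQ⟩ := Sylow.exists_subgroup_card_pow_prime (G := T) 2 (n := j)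
    (by rw [hk]; exact pow_dvd_pow 2 (Nat.le_succ j))
  refine ⟨Q.comap f, ?_⟩
  rw [Subgroup.index_comap_of_surjective Q hsurj]
  have := Q.card_mul_index
  rw [hQ, hk, pow_succ] at this
  exact Nat.eq_of_mul_eq_mul_left (by positivity) this

end Cfsg.Agent.S0219
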