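import Cfsg.Statements.S0220
import Mathlib
import Cfsg.Agent.S0219

set_option autoImplicit false
open Cfsg

namespace Cfsg.Agent.S0220

theorem unique_involution_of_cyclic {α : Type*} [Group α] [Finite α] [IsCyclic α] {a b : α}
    (ha : orderOf a = 2) (hb : orderOf b = 2) : a = b := by
  classical
  haveI : Fintype α := Fintype.ofFinite α
  have h2 : 2 ∣ Fintype.card α := by
    rw [← ha]; exact orderOf_dvd_card
  have h := IsCyclic.card_orderOf_eq_totient (α := α) h2
  rw [Nat.totient_two] at h
  have h' := Finset.card_le_one.mp h.le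
  exact h' a (by simp [ha]) b (by simp [hb])

/-- If x is an involution of a finite group G and a Sylow 2-subgroup of the centralizer of x is cyclic, then G has a subgroup of index 2; in particular G is not simple unless it has order 2. -/
theorem result {G : Type*} [Group G] [Finite G] (x : G) (hx : orderOf x = 2) (S : Sylow 2 ↥(Subgroup.centralizer ({x} : Set G))) (hS : IsCyclic (S : Subgroup ↥(Subgroup.centralizer ({x} : Set G)))) : ∃ H : Subgroup G, H.index = 2 := by
  classical
  have hCmem : ∀ g : G, g ∈ Subgroup.centralizer ({x} : Set G) ↔ g * x = x * g := by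
    intro g
    rw [Subgroup.mem_centralizer_iff]
    simp only [Set.mem_singleton_iff, forall_eq]
    exact eq_comm
  obtain ⟨T, hT⟩ := S.exists_comap_subtype_eq
  have hxC : x ∈ Subgroup.centralizer ({x} : Set G) := (hCmem x).mpr rfl
  have hmemS : ∀ c : Subgroup.centralizer ({x} : Set G), c ∈ S ↔ (c : G) ∈ T := by
    intro c
    change c ∈ (S : Subgroup _) ↔ _
    rw [← hT]
    rfl
  have hord : orderOf (⟨x, hxC⟩ : Subgroup.centralizer ({x} : Set G)) = 2 := by
    rw [← hx, ← Subgroup.orderOf_coe]
  -- x lies in S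
  have hxS : (⟨x, hxC⟩ : Subgroup.centralizer ({x} : Set G)) ∈ S := by
    have hnorm : (Subgroup.zpowers (⟨x, hxC⟩ : Subgroup.centralizer ({x} : Set G))).Normal := by
      constructor
      intro n hn g
      have : g * n * g⁻¹ = n := by
        obtain ⟨k, rfl⟩ := Subgroup.mem_zpowers_iff.mp hn
        have hcomm : Commute g (⟨x, hxC⟩ : Subgroup.centralizer ({x} : Set G)) := by
          apply Subtype.ext
          exact (hCmem g).mp g.2
        have := hcomm.zpow_right k
        rw [this.eq, mul_inv_cancel_right]
      rw [this]; exact hn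
    have hp : IsPGroup 2 (Subgroup.zpowers (⟨x, hxC⟩ : Subgroup.centralizer ({x} : Set G))) := by
      apply IsPGroup.of_card (n := 1)
      rw [Nat.card_zpowers, hord, pow_one]
    exact hp.le_sylow_of_normal S (Subgroup.mem_zpowers _)
  have hxT : x ∈ T := (hmemS ⟨x, hxC⟩).mp hxS
  haveI : Nontrivial T := ⟨⟨⟨x, hxT⟩, 1, by
    intro h
    have : x = 1 := congrArg Subtype.val h
    rw [this] at hx
    simp at hx⟩⟩
  haveI := T.2.center_nontrivial
  have h2 : 2 ∣ Nat.card (Subgroup.center T) := by
    have := (T.2.to_subgroup (Subgroup.center T)).card_eq_or_dvd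
    rcases this with h | h
    · exfalso
      have := Finite.one_lt_card (α := Subgroup.center T)
      omega
    · exact h
  obtain ⟨z, hz⟩ := exists_prime_orderOf_dvd_card' 2 h2
  have hzx : (z : T) * ⟨x, hxT⟩ = ⟨x, hxT⟩ * (z : T) := by
    have := z.2
    rw [Subgroup.mem_center_iff] at this
    exact (this ⟨x, hxT⟩).symm
  have hzx' : ((z : T) : G) * x = x * ((z : T) : G) := congrArg Subtype.val hzx
  have hzC : ((z : T) : G) ∈ Subgroup.centralizer ({x} : Set G) := (hCmem _).mpr hzx'
  have hzS : (⟨((z : T) : G), hzC⟩ : Subgroup.centralizer ({x} : Set G)) ∈ S := (hmemS _).mpr (z : T).2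
  have hzord : orderOf ((z : T) : G) = 2 := by
    rw [Subgroup.orderOf_coe, Subgroup.orderOf_coe, hz]
  have heq : (⟨⟨x, hxC⟩, hxS⟩ : (S : Subgroup (Subgroup.centralizer ({x} : Set G)))) = ⟨⟨((z : T) : G), hzC⟩, hzS⟩ := by
    haveI := hS
    apply unique_involution_of_cyclic
    · rw [← Subgroup.orderOf_coe, ← Subgroup.orderOf_coe]; exact hx
    · rw [← Subgroup.orderOf_coe, ← Subgroup.orderOf_coe]; exact hzord
  have hxz : x = ((z : T) : G) := congrArg (fun s : (S : Subgroup (Subgroup.centralizer ({x} : Set G))) => ((s : Subgroup.centralizer ({x} : Set G)) : G)) heq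
  have hTC : (T : Subgroup G) ≤ Subgroup.centralizer ({x} : Set G) := by
    intro t ht
    rw [hCmem]
    have := z.2
    rw [Subgroup.mem_center_iff] at this
    have h3 := (congrArg Subtype.val (this ⟨t, ht⟩))
    rw [hxz]
    exact h3
  have e := Subgroup.subgroupOfEquivOfLe hTC
  have hcyc : IsCyclic ((T : Subgroup G).subgroupOf (Subgroup.centralizer ({x} : Set G))) := by
    have : (T : Subgroup G).subgroupOf (Subgroup.centralizer ({x} : Set G)) = (S : Subgroup (Subgroup.centralizer ({x} : Set G))) := hT
    rw [this]; exact hS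
  have hTcyc : IsCyclic (T : Subgroup G) := e.isCyclic.mp hcyc
  have heven : Even (Nat.card G) := by
    rw [even_iff_two_dvd, ← hx]
    exact orderOf_dvd_natCard x
  exact S0219.result heven T hTcyc

end Cfsg.Agent.S0220
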