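import Cfsg.Statements.S0221
import Cfsg.Agent.Lib.Helper76FourGroup
import Cfsg.Agent.S0111

set_option autoImplicit false
open Cfsg

namespace Cfsg.Agent.S0221

/-- Let G be a finite group with no subgroup of index 2 whose 2-rank is at least 3 (it contains an elementary abelian subgroup of order 8). Then the centralizer of every involution of G also contains an elementary abelian subgroup of order 8. -/
theorem result {G : Type*} [Group G] [Finite G] (hno : ∀ H : Subgroup G, H.index ≠ 2) (hrank : ∃ E : Subgroup G, Nat.card E = 8 ∧ ∀ e ∈ E, e ^ 2 = 1) (x : G) (hx : orderOf x = 2) : ∃ E : Subgroup G, E ≤ Subgroup.centralizer ({x} : Set G) ∧ Nat.card E = 8 ∧ ∀ e ∈ E, e ^ 2 = 1 := by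
  have hp : Fact (Nat.Prime 2) := ⟨Nat.prime_two⟩
  obtain ⟨E₀, hE8, hEe⟩ := hrank
  have hxp : IsPGroup 2 (Subgroup.zpowers x) :=
    IsPGroup.of_card (n := 1) (by rw [Nat.card_zpowers, hx]; norm_num)
  obtain ⟨T, hT⟩ := hxp.exists_le_sylow
  have hxT : x ∈ (T : Subgroup G) := hT (Subgroup.mem_zpowers x)
  have hE0p : IsPGroup 2 E₀ := IsPGroup.of_card (n := 3) (by rw [hE8]; norm_num)
  obtain ⟨T', hT'⟩ := hE0p.exists_le_sylow
  obtain ⟨g, hg⟩ := MulAction.exists_smul_eq G T' T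
  have hE1T : E₀.map (MulAut.conj g).toMonoidHom ≤ (T : Subgroup G) := by
    rintro _ ⟨e, he, rfl⟩
    rw [← hg]
    change g * e * g⁻¹ ∈ g • T'
    rw [Cfsg.Agent.Lib.Helper76SylowCount.mem_smul_sylow]
    have : g⁻¹ * (g * e * g⁻¹) * g = e := by group
    rw [this]
    exact hT' he
  have hc1 : Nat.card ↥((E₀.map (MulAut.conj g).toMonoidHom).subgroupOf (T : Subgroup G)) = 8 := by
    rw [Nat.card_congr (Subgroup.subgroupOfEquivOfLe hE1T).toEquiv,
      Subgroup.card_map_of_injective (MulAut.conj g).injective, hE8]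
  have he1 : ∀ e ∈ (E₀.map (MulAut.conj g).toMonoidHom).subgroupOf (T : Subgroup G), e ^ 2 = 1 := by
    intro e he
    obtain ⟨e₀, he₀, h⟩ := Subgroup.mem_subgroupOf.mp he
    apply Subtype.ext
    rw [Subgroup.coe_pow, ← h, ← map_pow, hEe e₀ he₀, map_one]
    rfl
  obtain ⟨Q, hQi, hQ⟩ := Cfsg.Agent.Lib.Helper76FourGroup.exists_index_le_two_rank_three
    T.isPGroup' _ hc1 he1
  obtain ⟨g₂, hx', hx'Q⟩ : ∃ g₂ : G, ∃ hx' : g₂ * x * g₂⁻¹ ∈ (T : Subgroup G),
      (⟨_, hx'⟩ : ↥(T : Subgroup G)) ∈ Q := by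
    by_cases hxQ : (⟨x, hxT⟩ : ↥(T : Subgroup G)) ∈ Q
    · refine ⟨1, by simpa using hxT, ?_⟩
      convert hxQ using 2
      simp
    · have hQ1 : Q.index ≠ 1 := by
        intro h
        rw [Subgroup.index_eq_one] at h
        exact hxQ (h ▸ Subgroup.mem_top _)
      have hQ0 : Q.index ≠ 0 := Subgroup.index_ne_zero_of_finite
      have hQ2 : Q.index = 2 := by omega
      have hrel : (Q.map (T : Subgroup G).subtype).relIndex (T : Subgroup G) = 2 := by
        rw [Subgroup.relIndex, Subgroup.subgroupOf,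
          Subgroup.comap_map_eq_self_of_injective (Subgroup.subtype_injective _), hQ2]
      have hxn : x ∉ Q.map (T : Subgroup G).subtype := by
        rintro ⟨y, hy, hyx⟩
        apply hxQ
        have : y = ⟨x, hxT⟩ := Subtype.ext hyx
        rwa [← this]
      rcases Cfsg.Agent.S0111.result T (Q.map (T : Subgroup G).subtype) (Subgroup.map_subtype_le Q)
        hrel x hx hxT hxn with ⟨M, _, hM, _⟩ | ⟨g₂, y, hy, hyx⟩
      · exact absurd hM (hno M)
      · refine ⟨g₂, hyx ▸ y.2, ?_⟩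
        have : y = ⟨g₂ * x * g₂⁻¹, hyx ▸ y.2⟩ := Subtype.ext hyx
        rwa [← this]
  have hx2 : x ^ 2 = 1 := by rw [← hx]; exact pow_orderOf_eq_one x
  obtain ⟨E, hE8', hEe', hEx⟩ := hQ _ hx'Q (by
    apply Subtype.ext
    change (g₂ * x * g₂⁻¹) ^ 2 = 1
    rw [conj_pow, hx2]; group)
  refine ⟨(E.map (T : Subgroup G).subtype).map (MulAut.conj g₂⁻¹).toMonoidHom, ?_, ?_, ?_⟩
  · rintro _ ⟨_, ⟨e, he, rfl⟩, rfl⟩
    rw [Subgroup.mem_centralizer_singleton_iff]
    have h1 : (e : G) * (g₂ * x * g₂⁻¹) = (g₂ * x * g₂⁻¹) * e := congrArg Subtype.val (hEx e he)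
    change g₂⁻¹ * (e : G) * g₂⁻¹⁻¹ * x = x * (g₂⁻¹ * (e : G) * g₂⁻¹⁻¹)
    calc g₂⁻¹ * (e : G) * g₂⁻¹⁻¹ * x = g₂⁻¹ * ((e : G) * (g₂ * x * g₂⁻¹)) * g₂ := by group
      _ = g₂⁻¹ * ((g₂ * x * g₂⁻¹) * e) * g₂ := by rw [h1]
      _ = x * (g₂⁻¹ * (e : G) * g₂⁻¹⁻¹) := by group
  · rw [Subgroup.card_map_of_injective (MulAut.conj g₂⁻¹).injective,
      Subgroup.card_map_of_injective (Subgroup.subtype_injective _), hE8']
  · rintro _ ⟨_, ⟨e, he, rfl⟩, rfl⟩
    rw [← map_pow, ← map_pow, hEe' e he, map_one, map_one]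

end Cfsg.Agent.S0221
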