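import Cfsg.Statements.S0226
import Mathlib

set_option autoImplicit false
open Cfsg

namespace Cfsg.Agent.S0226

theorem card_fixed_involutive_mod_two {α : Type*} [Finite α] (f : α → α)
    (hf : Function.Involutive f) :
    Nat.card {a : α // f a = a} % 2 = Nat.card α % 2 := by
  classical
  have := Fintype.ofFinite α
  have h := Equiv.Perm.card_compl_support_modEq (p := 2) (n := 1) (σ := hf.toPerm) (by
    ext x
    simp [pow_two, hf x])
  rw [Nat.card_eq_fintype_card, Nat.card_eq_fintype_card, Fintype.card_subtype]
  have h2 : (hf.toPerm.support)ᶜ = Finset.univ.filter (fun a => f a = a) := by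
    ext a
    simp
  rw [h2] at h
  exact h

/-- A finite group of even order has an odd number of involutions. -/
theorem result {G : Type*} [Group G] [Finite G] (heven : Even (Nat.card G)) : Odd (Nat.card {t : G // orderOf t = 2}) := by
  classical
  have := Fintype.ofFinite G
  have h1 := card_fixed_involutive_mod_two (fun x : G => x⁻¹) inv_involutive
  have h2 : Nat.card {a : G // a⁻¹ = a} = Nat.card {t : G // orderOf t = 2} + 1 := by
    rw [Nat.card_eq_fintype_card, Nat.card_eq_fintype_card, Fintype.card_subtype,
      Fintype.card_subtype]
    have : Finset.univ.filter (fun a : G => a⁻¹ = a)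
        = insert 1 (Finset.univ.filter (fun t : G => orderOf t = 2)) := by
      ext x
      simp only [Finset.mem_insert, Finset.mem_filter, Finset.mem_univ, true_and]
      rw [orderOf_eq_prime_iff, inv_eq_iff_mul_eq_one, pow_two]
      by_cases hx : x = 1
      · simp [hx]
      · simp [hx]
    rw [this, Finset.card_insert_of_notMem (by simp)]
  have h3 := Nat.even_iff.mp heven
  rw [Nat.odd_iff]
  omega

end Cfsg.Agent.S0226
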