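import Cfsg.Statements.S0229
import Cfsg.Agent.Lib.Helper6Syl

set_option autoImplicit false
open Cfsg

namespace Cfsg.Agent.S0229

open Cfsg.Agent.Lib.Helper6Inv Cfsg.Agent.Lib.Helper6Syl

/-- Let t be an involution of a Sylow 2-subgroup S of a finite group G, conjugate in G to no other element of S, and let s be an involution of G not conjugate to t. Then the order of st is twice an odd number. -/
theorem result {G : Type*} [Group G] [Finite G] (S : Sylow 2 G) (t : G) (ht : orderOf t = 2) (htS : t ∈ S) (hiso : ∀ g : G, g * t * g⁻¹ ∈ S → g * t * g⁻¹ = t) (s : G) (hs : orderOf s = 2) (hns : ¬ IsConj s t) : orderOf (s * t) % 4 = 2 := by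
  have hfin : 0 < orderOf (s * t) := orderOf_pos _
  rcases dihedral hs ht hfin with ⟨_, hc⟩ | ⟨he, -⟩
  · exact absurd hc hns
  · by_contra hne
    have h4 : 4 ∣ orderOf (s * t) := by
      obtain ⟨k, hk⟩ := he
      omega
    obtain ⟨k, hk⟩ := h4
    have hT0 := inv_right_inverts hs ht
    set x := s * t with hx
    have hkpos : 0 < k := by omega
    have hy : orderOf (x ^ k) = 4 := by
      rw [orderOf_pow_of_dvd (by omega) ⟨4, by omega⟩, hk, Nat.mul_div_cancel _ hkpos]
    have hT : SemiconjBy t (x ^ k) (x ^ k)⁻¹ := by
      have := hT0.pow_right k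
      rwa [inv_pow] at this
    set y := x ^ k with hydef
    have hz4 : y * y * (y * y) = 1 := by
      have := pow_orderOf_eq_one y
      rw [hy] at this
      rw [← this]
      simp only [pow_succ, pow_zero, one_mul, mul_assoc]
    have hzinv : (y * y)⁻¹ = y * y := inv_eq_of_mul_eq_one_left hz4
    have hzne : y * y ≠ 1 := by
      intro h
      have : orderOf y ∣ 2 := orderOf_dvd_of_pow_eq_one (by rw [pow_two, h])
      rw [hy] at this
      omega
    have htz : Commute t (y * y) := by
      have := hT.mul_right hT
      rw [← mul_inv_rev, hzinv] at this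
      exact this
    have ht' : y * t * y⁻¹ = y * y * t := by
      have h1 : t * y⁻¹ = y * t := by
        have := hT.inv_right
        rw [inv_inv] at this
        exact this
      rw [mul_assoc, h1, mul_assoc]
    have ho' : orderOf (y * t * y⁻¹) = 2 := by
      have := (MulAut.conj y).orderOf_eq t
      rw [← ht]
      simpa using this
    have hcomm : Commute t (y * t * y⁻¹) := by
      rw [ht']
      exact htz.mul_right (Commute.refl t)
    obtain ⟨P, h1, h2⟩ := exists_sylow_of_commute ht ho' hcomm
    obtain ⟨g, hg⟩ := MulAction.exists_smul_eq G P S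
    have h3 := conj_mem_smul_sylow g _ P h1
    have h4 := conj_mem_smul_sylow g _ P h2
    rw [hg] at h3 h4
    have h5 := hiso g h3
    have h6 : g * (y * t * y⁻¹) * g⁻¹ = (g * y) * t * (g * y)⁻¹ := by group
    rw [h6] at h4
    have h7 := hiso _ h4
    have h8 : y * t * y⁻¹ = t :=
      mul_left_cancel (mul_right_cancel ((h6.trans h7).trans h5.symm))
    rw [ht'] at h8
    exact hzne (by simpa using h8)

end Cfsg.Agent.S0229
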