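import Cfsg.Statements.S0230
import Cfsg.Agent.Lib.Helper6Syl

set_option autoImplicit false
open Cfsg

namespace Cfsg.Agent.S0230

open Cfsg.Agent.Lib.Helper6Inv Cfsg.Agent.Lib.Helper6Syl

theorem card_centralizer_eq {G : Type*} [Group G] [Fintype G] [DecidableEq G] (z : G) :
    Nat.card (Subgroup.centralizer ({z} : Set G))
      = (Finset.univ.filter (fun a : G => a * z = z * a)).card := by
  classical
  rw [Nat.card_eq_fintype_card, Fintype.card_subtype]
  congr 1
  ext a
  simp [Subgroup.mem_centralizer_singleton_iff]

/-- Let G be a finite group with two non-conjugate involutions, and let t be an involution whose centralizer has maximal order among centralizers of involutions. Then |G| < |C_G(t)|^3. -/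
theorem result {G : Type*} [Group G] [Finite G] (s t : G) (hs : orderOf s = 2) (ht : orderOf t = 2) (hnc : ¬ IsConj s t) (hmax : ∀ u : G, orderOf u = 2 → Nat.card (Subgroup.centralizer ({u} : Set G)) ≤ Nat.card (Subgroup.centralizer ({t} : Set G))) : Nat.card G < Nat.card (Subgroup.centralizer ({t} : Set G)) ^ 3 := by
  classical
  have := Fintype.ofFinite G
  set m := Nat.card (Subgroup.centralizer ({t} : Set G)) with hm
  let A : Finset G := Finset.univ.filter (fun a => IsConj s a)
  let I : Finset G := Finset.univ.filter (fun z => orderOf z = 2 ∧ z * t = t * z)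
  let C : G → Finset G := fun z => Finset.univ.filter (fun a => a * z = z * a)
  have hsub : A ⊆ I.biUnion C := by
    intro a ha
    simp only [A, Finset.mem_filter, Finset.mem_univ, true_and] at ha
    have hoa : orderOf a = 2 := by
      obtain ⟨c, rfl⟩ := isConj_iff.1 ha
      have := (MulAut.conj c).orderOf_eq s
      rw [← hs]
      simpa using this
    have hna : ¬ IsConj a t := fun h => hnc (ha.trans h)
    rcases dihedral hoa ht (orderOf_pos _) with ⟨_, hc⟩ | ⟨_, z, hz, hza, hzt, -⟩
    · exact absurd hc hna
    · simp only [Finset.mem_biUnion, I, C, Finset.mem_filter, Finset.mem_univ, true_and]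
      exact ⟨z, ⟨hz, hzt.eq⟩, hza.symm.eq⟩
  have h1 : A.card ≤ I.card * m := by
    calc A.card ≤ (I.biUnion C).card := Finset.card_le_card hsub
      _ ≤ ∑ z ∈ I, (C z).card := Finset.card_biUnion_le
      _ ≤ ∑ z ∈ I, m := by
          apply Finset.sum_le_sum
          intro z hz
          simp only [I, Finset.mem_filter, Finset.mem_univ, true_and] at hz
          have := hmax z hz.1
          rw [card_centralizer_eq] at this
          exact this
      _ = I.card * m := by rw [Finset.sum_const, smul_eq_mul]
  have h2 : I.card < m := by
    rw [hm, card_centralizer_eq]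
    apply Finset.card_lt_card
    rw [Finset.ssubset_iff_of_subset]
    · refine ⟨1, by simp, ?_⟩
      simp [I]
    · intro z hz
      simp only [I, Finset.mem_filter, Finset.mem_univ, true_and] at hz ⊢
      exact hz.2
  have h3 : A.card * Nat.card (Subgroup.centralizer ({s} : Set G)) = Nat.card G := by
    have h5 : Nat.card {a : G // IsConj s a} = A.card := by
      rw [Nat.card_eq_fintype_card, Fintype.card_subtype]
    rw [← card_conj_mul_card_centralizer s, h5]
  have h4 := hmax s hs
  have hmpos : 0 < m := by omega
  calc Nat.card G = A.card * Nat.card (Subgroup.centralizer ({s} : Set G)) := h3.symm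
    _ ≤ (I.card * m) * m := Nat.mul_le_mul h1 h4
    _ < (m * m) * m := by
        apply Nat.mul_lt_mul_of_pos_right _ hmpos
        exact Nat.mul_lt_mul_of_pos_right h2 hmpos
    _ = m ^ 3 := by ring

end Cfsg.Agent.S0230
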