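import Cfsg.Statements.S0231
import Cfsg.Agent.Lib.Helper6Syl

set_option autoImplicit false
open scoped Pointwise
open Cfsg

namespace Cfsg.Agent.S0231

open Cfsg.Agent.Lib.Helper6Inv Cfsg.Agent.Lib.Helper6Syl

/-- Let T be a Sylow 2-subgroup of the finite group G which is not normal and which intersects every other Sylow 2-subgroup trivially. Then G has a single conjugacy class of involutions. -/
theorem result {G : Type*} [Group G] [Finite G] (T : Sylow 2 G) (hnn : ¬ (T : Subgroup G).Normal) (hTI : ∀ g : G, MulAut.conj g • (T : Subgroup G) ≠ T → MulAut.conj g • (T : Subgroup G) ⊓ T = ⊥) (s t : G) (hs : orderOf s = 2) (ht : orderOf t = 2) : IsConj s t := by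
  -- TI property for T against any Sylow
  have hTI0 : ∀ Q : Sylow 2 G, ∀ z : G, z ≠ 1 → z ∈ Q → z ∈ T → Q = T := by
    intro Q z hz hzQ hzT
    obtain ⟨g, hg⟩ := MulAction.exists_smul_eq G T Q
    by_contra hne
    have h1 : MulAut.conj g • (T : Subgroup G) ≠ T := by
      intro h
      apply hne
      rw [← hg]
      apply Sylow.ext
      rw [Sylow.coe_subgroup_smul, h]
    have h2 := hTI g h1
    have h3 : z ∈ MulAut.conj g • (T : Subgroup G) ⊓ T := by
      rw [Subgroup.mem_inf]
      refine ⟨?_, hzT⟩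
      rw [← Sylow.coe_subgroup_smul, hg]
      exact hzQ
    rw [h2, Subgroup.mem_bot] at h3
    exact hz h3
  have hTI' : ∀ P Q : Sylow 2 G, ∀ z : G, z ≠ 1 → z ∈ P → z ∈ Q → P = Q := by
    intro P Q z hz hzP hzQ
    obtain ⟨g, hg⟩ := MulAction.exists_smul_eq G Q T
    have h1 : g * z * g⁻¹ ∈ g • P := conj_mem_smul_sylow g z P hzP
    have h2 : g * z * g⁻¹ ∈ g • Q := conj_mem_smul_sylow g z Q hzQ
    rw [hg] at h2
    have hne : g * z * g⁻¹ ≠ 1 := by
      intro h
      apply hz
      have : z = g⁻¹ * (g * z * g⁻¹) * g := by group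
      rw [this, h]; group
    have h3 := hTI0 (g • P) _ hne h1 h2
    rw [← hg] at h3
    exact smul_left_cancel g h3
  have hnc : ∀ a b : G, orderOf a = 2 → orderOf b = 2 → ¬ IsConj a b →
      ∃ P : Sylow 2 G, a ∈ P ∧ b ∈ P := by
    intro a b ha hb hab
    rcases dihedral ha hb (orderOf_pos _) with ⟨_, hc⟩ | ⟨_, z, hz, hza, hzb, -⟩
    · exact absurd hc hab
    · obtain ⟨P, h1, h2⟩ := exists_sylow_of_commute hz ha hza
      obtain ⟨Q, h3, h4⟩ := exists_sylow_of_commute hz hb hzb
      have := hTI' P Q z (ne_one_of_orderOf_two hz) h1 h3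
      subst this
      exact ⟨P, h2, h4⟩
  by_contra hst
  obtain ⟨P, hsP, htP⟩ := hnc s t hs ht hst
  -- there is another Sylow subgroup
  have hex : ∃ Q : Sylow 2 G, Q ≠ P := by
    by_contra hall
    push Not at hall
    apply hnn
    have : Subsingleton (Sylow 2 G) := ⟨fun A B => (hall A).trans (hall B).symm⟩
    exact Sylow.normal_of_subsingleton T
  obtain ⟨Q, hQ⟩ := hex
  obtain ⟨k, hk⟩ := MulAction.exists_smul_eq G P Q
  have hs' : k * s * k⁻¹ ∈ Q := by
    rw [← hk]; exact conj_mem_smul_sylow k s P hsP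
  have ho' : orderOf (k * s * k⁻¹) = 2 := by
    have := (MulAut.conj k).orderOf_eq s
    rw [← hs]
    simpa using this
  have hnc' : ¬ IsConj (k * s * k⁻¹) t := by
    intro h
    apply hst
    exact (isConj_iff.2 ⟨k, rfl⟩ : IsConj s (k * s * k⁻¹)).trans h
  obtain ⟨R, h1, h2⟩ := hnc _ t ho' ht hnc'
  have h3 := hTI' R P t (ne_one_of_orderOf_two ht) h2 htP
  have h4 := hTI' R Q _ (ne_one_of_orderOf_two ho') h1 hs'
  exact hQ (h4.symm.trans h3)

end Cfsg.Agent.S0231
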