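import Cfsg.Statements.S0237
import Cfsg.Agent.Lib.Helper6Inv

set_option autoImplicit false
open Cfsg

namespace Cfsg.Agent.S0237

open Cfsg.Agent.Lib.Helper6Inv

/-- If x is real (conjugate to x⁻¹) in a finite group G, the number of g with g x g⁻¹ = x⁻¹ equals |C_G(x)|. -/
theorem result {G : Type*} [Group G] [Finite G] (x : G) (hreal : IsConj x x⁻¹) : Nat.card {g : G // g * x * g⁻¹ = x⁻¹} = Nat.card (Subgroup.centralizer ({x} : Set G)) := by
  obtain ⟨c, hc⟩ := isConj_iff.1 hreal
  rw [← semiconj_iff] at hc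
  refine Nat.card_congr
    { toFun := fun g => ⟨c⁻¹ * g.1, ?_⟩
      invFun := fun z => ⟨c * z.1, ?_⟩
      left_inv := ?_
      right_inv := ?_ }
  · obtain ⟨g, hg⟩ := g
    rw [← semiconj_iff] at hg
    rw [Subgroup.mem_centralizer_singleton_iff]
    exact (hc.inv_symm_left.mul_left hg)
  · obtain ⟨z, hz⟩ := z
    rw [Subgroup.mem_centralizer_singleton_iff] at hz
    rw [← semiconj_iff]
    exact hc.mul_left hz
  · rintro ⟨g, hg⟩
    simp
  · rintro ⟨z, hz⟩
    simp

end Cfsg.Agent.S0237
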