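import Cfsg.Statements.S0238
import Cfsg.Agent.Lib.Helper6Inv

set_option autoImplicit false
open Cfsg

namespace Cfsg.Agent.S0238

open Cfsg.Agent.Lib.Helper6Inv

/-- For every x in a finite group G, the number c of ordered pairs (u, v) of involutions with uv = x is at most |C_G(x)|; c = 0 when x is not conjugate to x⁻¹; and c + 2 ≤ |C_G(x)| when x is an involution. -/
theorem result {G : Type*} [Group G] [Finite G] (x : G) : Nat.card {p : G × G // orderOf p.1 = 2 ∧ orderOf p.2 = 2 ∧ p.1 * p.2 = x} ≤ Nat.card (Subgroup.centralizer ({x} : Set G)) ∧ (¬ IsConj x x⁻¹ → Nat.card {p : G × G // orderOf p.1 = 2 ∧ orderOf p.2 = 2 ∧ p.1 * p.2 = x} = 0) ∧ (orderOf x = 2 → Nat.card {p : G × G // orderOf p.1 = 2 ∧ orderOf p.2 = 2 ∧ p.1 * p.2 = x} + 2 ≤ Nat.card (Subgroup.centralizer ({x} : Set G))) := by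
  classical
  have key : ∀ p : {p : G × G // orderOf p.1 = 2 ∧ orderOf p.2 = 2 ∧ p.1 * p.2 = x},
      SemiconjBy p.1.1 x x⁻¹ := by
    rintro ⟨⟨u, v⟩, hu, hv, rfl⟩
    exact inv_left_inverts hu hv
  have hinj : ∀ p q : {p : G × G // orderOf p.1 = 2 ∧ orderOf p.2 = 2 ∧ p.1 * p.2 = x},
      p.1.1 = q.1.1 → p = q := by
    rintro ⟨⟨u, v⟩, hu, hv, h1⟩ ⟨⟨u', v'⟩, hu', hv', h2⟩ h
    simp only at h h1 h2
    subst h
    have : v = v' := by
      apply mul_left_cancel (a := u)
      rw [h1, h2]
    subst this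
    rfl
  refine ⟨?_, ?_, ?_⟩
  · rcases isEmpty_or_nonempty {p : G × G // orderOf p.1 = 2 ∧ orderOf p.2 = 2 ∧ p.1 * p.2 = x}
      with he | ⟨⟨p0⟩⟩
    · rw [Nat.card_of_isEmpty]; exact Nat.zero_le _
    · refine Nat.card_le_card_of_injective
        (fun p => (⟨p0.1.1⁻¹ * p.1.1, ?_⟩ : Subgroup.centralizer ({x} : Set G))) ?_
      · rw [Subgroup.mem_centralizer_singleton_iff]
        exact ((key p0).inv_symm_left.mul_left (key p))
      · intro p q h
        apply hinj
        simpa using h
  · intro hn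
    have : IsEmpty {p : G × G // orderOf p.1 = 2 ∧ orderOf p.2 = 2 ∧ p.1 * p.2 = x} := by
      constructor
      intro p
      exact hn (isConj_iff.2 ⟨p.1.1, semiconj_iff.1 (key p)⟩)
    exact Nat.card_of_isEmpty
  · intro hx
    have hxi := inv_eq_self_of_orderOf_two hx
    have h2 : Nat.card {p : G × G // orderOf p.1 = 2 ∧ orderOf p.2 = 2 ∧ p.1 * p.2 = x} + 2
        = Nat.card (Option (Option
          {p : G × G // orderOf p.1 = 2 ∧ orderOf p.2 = 2 ∧ p.1 * p.2 = x})) := by
      rw [Finite.card_option, Finite.card_option]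
    rw [h2]
    refine Nat.card_le_card_of_injective
      (fun o => match o with
        | none => (1 : Subgroup.centralizer ({x} : Set G))
        | some none => ⟨x, by rw [Subgroup.mem_centralizer_singleton_iff]⟩
        | some (some p) => ⟨p.1.1, by
            rw [Subgroup.mem_centralizer_singleton_iff]
            have := key p
            rw [hxi] at this
            exact this⟩) ?_
    have hne1 : ∀ p : {p : G × G // orderOf p.1 = 2 ∧ orderOf p.2 = 2 ∧ p.1 * p.2 = x},
        p.1.1 ≠ 1 := fun p => ne_one_of_orderOf_two p.2.1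
    have hnex : ∀ p : {p : G × G // orderOf p.1 = 2 ∧ orderOf p.2 = 2 ∧ p.1 * p.2 = x},
        p.1.1 ≠ x := by
      rintro ⟨⟨u, v⟩, hu, hv, h1⟩ h
      simp only at h h1
      rw [h] at h1
      exact ne_one_of_orderOf_two hv (by simpa using h1)
    rintro (_ | _ | p) (_ | _ | q) h
    · rfl
    · exact absurd (congrArg Subtype.val h).symm (ne_one_of_orderOf_two hx)
    · exact absurd (congrArg Subtype.val h).symm (hne1 q)
    · exact absurd (congrArg Subtype.val h) (ne_one_of_orderOf_two hx)
    · rfl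
    · exact absurd (congrArg Subtype.val h).symm (hnex q)
    · exact absurd (congrArg Subtype.val h) (hne1 p)
    · exact absurd (congrArg Subtype.val h) (hnex p)
    · rw [hinj p q (congrArg Subtype.val h)]

end Cfsg.Agent.S0238
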