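import Cfsg.Statements.S0233
import Cfsg.Agent.Lib.Helper6Inv
import Cfsg.Agent.S0226
import Cfsg.Agent.S0237
import Cfsg.Agent.S0238

set_option autoImplicit false
open Cfsg

namespace Cfsg.Agent.S0233

open Cfsg.Agent.Lib.Helper6Inv

/-- the extended centralizer of `x` -/
def Cstar {G : Type*} [Group G] (x : G) : Subgroup G where
  carrier := {g | SemiconjBy g x x ∨ SemiconjBy g x x⁻¹}
  one_mem' := Or.inl (SemiconjBy.one_left x)
  mul_mem' := by
    rintro a b (ha | ha) (hb | hb)
    · exact Or.inl (ha.mul_left hb)
    · exact Or.inr (ha.inv_right.mul_left hb)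
    · exact Or.inr (ha.mul_left hb)
    · refine Or.inl ?_
      have h2 : SemiconjBy a x⁻¹ x := by simpa using ha.inv_right
      exact h2.mul_left hb
  inv_mem' := by
    rintro a (ha | ha)
    · exact Or.inl ha.inv_symm_left
    · refine Or.inr ?_
      have h2 : SemiconjBy a⁻¹ x⁻¹ x := ha.inv_symm_left
      simpa using h2.inv_right

theorem card_Cstar {G : Type*} [Group G] [Finite G] (x : G) (hx : x * x ≠ 1)
    (hreal : IsConj x x⁻¹) :
    Nat.card (Cstar x) = 2 * Nat.card (Subgroup.centralizer ({x} : Set G)) := by
  classical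
  have := Fintype.ofFinite G
  have h1 : Nat.card (Cstar x) = Nat.card {g : G // SemiconjBy g x x ∨ SemiconjBy g x x⁻¹} := rfl
  have h2 : Nat.card {g : G // SemiconjBy g x x ∨ SemiconjBy g x x⁻¹}
      = Nat.card {g : G // SemiconjBy g x x} + Nat.card {g : G // SemiconjBy g x x⁻¹} := by
    simp only [Nat.card_eq_fintype_card]
    apply Fintype.card_subtype_or_disjoint
    rw [Pi.disjoint_iff]
    intro g
    rw [Prop.disjoint_iff, not_and]
    intro ha hb
    apply hx
    have h3 : x * g = x⁻¹ * g := ha.eq.symm.trans hb.eq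
    have h4 : x = x⁻¹ := mul_right_cancel h3
    nth_rewrite 1 [h4]
    exact inv_mul_cancel x
  have h3 : Nat.card {g : G // SemiconjBy g x x}
      = Nat.card (Subgroup.centralizer ({x} : Set G)) := by
    apply Nat.card_congr
    apply Equiv.subtypeEquivRight
    intro g
    rw [Subgroup.mem_centralizer_singleton_iff]
    rfl
  have h4 : Nat.card {g : G // SemiconjBy g x x⁻¹}
      = Nat.card (Subgroup.centralizer ({x} : Set G)) := by
    rw [← Cfsg.Agent.S0237.result x hreal]
    apply Nat.card_congr
    apply Equiv.subtypeEquivRight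
    intro g
    exact semiconj_iff
  rw [h1, h2, h3, h4, two_mul]

/-- the number of ordered pairs of involutions with product `x` -/
noncomputable def cnt {G : Type*} [Group G] (x : G) : ℕ :=
  Nat.card {p : G × G // orderOf p.1 = 2 ∧ orderOf p.2 = 2 ∧ p.1 * p.2 = x}

theorem sum_cnt {G : Type*} [Group G] [Fintype G] :
    ∑ x : G, cnt x = (Nat.card {t : G // orderOf t = 2}) ^ 2 := by
  classical
  let I : Finset G := Finset.univ.filter (fun t => orderOf t = 2)
  have hI : Nat.card {t : G // orderOf t = 2} = I.card := by
    rw [Nat.card_eq_fintype_card, Fintype.card_subtype]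
  have h1 : ∀ x : G, cnt x = ((I ×ˢ I).filter (fun p => p.1 * p.2 = x)).card := by
    intro x
    unfold cnt
    rw [Nat.card_eq_fintype_card, Fintype.card_subtype]
    congr 1
    ext p
    simp [I, and_assoc]
  rw [hI, pow_two, ← Finset.card_product,
    Finset.card_eq_sum_card_fiberwise (f := fun p : G × G => p.1 * p.2) (t := Finset.univ)
      (fun _ _ => Finset.mem_coe.2 (Finset.mem_univ _))]
  exact Finset.sum_congr rfl (fun x _ => h1 x)

theorem cnt_one_le {G : Type*} [Group G] [Finite G] :
    cnt (1 : G) ≤ Nat.card {t : G // orderOf t = 2} := by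
  unfold cnt
  refine Nat.card_le_card_of_injective (fun p => ⟨p.1.1, p.2.1⟩) ?_
  rintro ⟨⟨u, v⟩, hu, hv, h1⟩ ⟨⟨u', v'⟩, hu', hv', h2⟩ h
  simp only [Subtype.mk.injEq] at h
  subst h
  have : v = v' := by
    apply mul_left_cancel (a := u)
    rw [h1, h2]
  subst this
  rfl

/-- Let G be a finite group of even order with exactly n involutions whose centre has odd order, and put a = |G|/n. Then G has a proper subgroup H with |G : H| = 2 or |G : H| < a(a+1)/2; over ℕ the latter reads 2·|G:H|·n² < |G|·(|G| + n). -/
theorem result {G : Type*} [Group G] [Finite G] (heven : Even (Nat.card G)) (hZ : Odd (Nat.card (Subgroup.center G))) : ∃ H : Subgroup G, H ≠ ⊤ ∧ (H.index = 2 ∨ 2 * H.index * (Nat.card {t : G // orderOf t = 2}) ^ 2 < Nat.card G * (Nat.card G + Nat.card {t : G // orderOf t = 2})) := by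
  classical
  have := Fintype.ofFinite G
  by_contra hcon
  push Not at hcon
  have hnodd := Cfsg.Agent.S0226.result heven
  set n := Nat.card {t : G // orderOf t = 2} with hn
  set g := Nat.card G with hg
  have hgpos : 0 < g := Nat.card_pos
  have hnpos : 0 < n := hnodd.pos
  have key : ∀ H : Subgroup G, H ≠ ⊤ → (g + n) * Nat.card H ≤ 2 * n ^ 2 := by
    intro H hH
    have h1 := (hcon H hH).2
    have h2 : Nat.card H * H.index = g := H.card_mul_index
    refine Nat.le_of_mul_le_mul_left (c := g) ?_ hgpos
    calc g * ((g + n) * Nat.card H) = (g * (g + n)) * Nat.card H := by ring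
      _ ≤ (2 * H.index * n ^ 2) * Nat.card H := Nat.mul_le_mul_right _ h1
      _ = (Nat.card H * H.index) * (2 * n ^ 2) := by ring
      _ = g * (2 * n ^ 2) := by rw [h2]
  -- involutions
  have hinv : ∀ x : G, orderOf x = 2 → (g + n) * cnt x + 2 * (g + n) ≤ 2 * n ^ 2 := by
    intro x hx
    have hne : Subgroup.centralizer ({x} : Set G) ≠ ⊤ := by
      intro h
      rw [Subgroup.centralizer_eq_top_iff_subset, Set.singleton_subset_iff] at h
      have h4 : orderOf (⟨x, h⟩ : Subgroup.center G) = 2 := by
        rw [← hx]; exact Subgroup.orderOf_mk x h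
      have h5 : 2 ∣ Nat.card (Subgroup.center G) := h4 ▸ orderOf_dvd_natCard _
      exact (Nat.not_even_iff_odd.2 hZ) (even_iff_two_dvd.2 h5)
    have h1 := key _ hne
    have h2 := (Cfsg.Agent.S0238.result x).2.2 hx
    calc (g + n) * cnt x + 2 * (g + n) = (g + n) * (cnt x + 2) := by ring
      _ ≤ (g + n) * Nat.card (Subgroup.centralizer ({x} : Set G)) := Nat.mul_le_mul_left _ h2
      _ ≤ 2 * n ^ 2 := h1
  -- other elements
  have hoth : ∀ x : G, x ≠ 1 → orderOf x ≠ 2 → (g + n) * cnt x ≤ n ^ 2 := by
    intro x hx1 hx2
    have hxx : x * x ≠ 1 := fun h => hx2 ((orderOf_two_iff x).2 ⟨h, hx1⟩)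
    by_cases hreal : IsConj x x⁻¹
    · have hcard := card_Cstar x hxx hreal
      have hne : Cstar x ≠ ⊤ := by
        intro h
        rw [h, Subgroup.card_top] at hcard
        have h2 : Nat.card (Subgroup.centralizer ({x} : Set G))
            * (Subgroup.centralizer ({x} : Set G)).index = g := Subgroup.card_mul_index _
        have hpos : 0 < Nat.card (Subgroup.centralizer ({x} : Set G)) := Nat.card_pos
        have h3 : (Subgroup.centralizer ({x} : Set G)).index = 2 := by
          have h4 : Nat.card (Subgroup.centralizer ({x} : Set G))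
              * (Subgroup.centralizer ({x} : Set G)).index
              = Nat.card (Subgroup.centralizer ({x} : Set G)) * 2 := by
            rw [h2, hg, hcard, mul_comm]
          exact Nat.eq_of_mul_eq_mul_left hpos h4
        have hne' : Subgroup.centralizer ({x} : Set G) ≠ ⊤ := by
          intro h5
          rw [h5, Subgroup.index_top] at h3
          omega
        exact (hcon _ hne').1 h3
      have h1 := key _ hne
      rw [hcard] at h1
      have h2 := (Cfsg.Agent.S0238.result x).1
      have h3 : (g + n) * cnt x ≤ (g + n) * Nat.card (Subgroup.centralizer ({x} : Set G)) :=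
        Nat.mul_le_mul_left _ h2
      have h4 : 2 * ((g + n) * Nat.card (Subgroup.centralizer ({x} : Set G))) ≤ 2 * n ^ 2 := by
        calc 2 * ((g + n) * Nat.card (Subgroup.centralizer ({x} : Set G)))
            = (g + n) * (2 * Nat.card (Subgroup.centralizer ({x} : Set G))) := by ring
          _ ≤ 2 * n ^ 2 := h1
      omega
    · have h2 := (Cfsg.Agent.S0238.result x).2.1 hreal
      have : cnt x = 0 := h2
      rw [this]
      simp
  -- summation
  have hpt : ∀ x : G, (g + n) * cnt x + (if orderOf x = 2 then 2 * (g + n) else 0)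
      ≤ (if x = 1 then (g + n) * n else 0) + (if orderOf x = 2 then 2 * n ^ 2 else 0)
        + (if x ≠ 1 ∧ orderOf x ≠ 2 then n ^ 2 else 0) := by
    intro x
    by_cases h1 : x = 1
    · subst h1
      simp only [orderOf_one]
      simp only [show ¬ (1 = 2) by norm_num, if_false, if_true, ne_eq, not_true_eq_false,
        false_and, add_zero]
      exact Nat.mul_le_mul_left _ cnt_one_le
    · by_cases h2 : orderOf x = 2
      · simp only [h1, h2, if_true, if_false, ne_eq, not_true_eq_false, and_false, add_zero,
          zero_add]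
        exact hinv x h2
      · simp only [h1, h2, if_true, if_false, ne_eq, not_false_eq_true, and_self, add_zero,
          zero_add]
        exact hoth x h1 h2
  have hsum := Finset.sum_le_sum (fun x (_ : x ∈ (Finset.univ : Finset G)) => hpt x)
  simp only [Finset.sum_add_distrib, ← Finset.mul_sum, sum_cnt, Finset.sum_ite, Finset.sum_const,
    smul_eq_mul] at hsum
  have hI : (Finset.univ.filter (fun t : G => orderOf t = 2)).card = n := by
    rw [hn, Nat.card_eq_fintype_card, Fintype.card_subtype]
  have h1c : (Finset.univ.filter (fun t : G => t = 1)).card = 1 := by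
    rw [Finset.filter_eq' Finset.univ (1 : G)]
    simp
  have hK : (Finset.univ.filter (fun t : G => t ≠ 1 ∧ orderOf t ≠ 2)).card + n + 1 = g := by
    rw [← hI, ← h1c, hg, Nat.card_eq_fintype_card, ← Finset.card_univ,
      ← Finset.card_union_of_disjoint, ← Finset.card_union_of_disjoint]
    · congr 1
      ext x
      simp only [Finset.mem_union, Finset.mem_filter, Finset.mem_univ, true_and, iff_true]
      tauto
    · rw [Finset.disjoint_left]
      intro x hx hx1
      simp only [Finset.mem_union, Finset.mem_filter, Finset.mem_univ, true_and] at hx hx1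
      subst hx1
      simp at hx
    · rw [Finset.disjoint_left]
      intro x hx hx1
      simp only [Finset.mem_filter, Finset.mem_univ, true_and] at hx hx1
      exact hx.2 hx1
  rw [hI, h1c] at hsum
  set k := (Finset.univ.filter (fun t : G => t ≠ 1 ∧ orderOf t ≠ 2)).card with hk
  rw [← hn] at hsum
  have hg' : g = k + n + 1 := hK.symm
  rw [hg'] at hsum
  nlinarith [hsum, hnpos, Nat.zero_le k]

end Cfsg.Agent.S0233
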