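import Cfsg.Statements.S0232
import Cfsg.Agent.Lib.Helper6Syl
import Cfsg.Agent.S0233

set_option autoImplicit false
open Cfsg

namespace Cfsg.Agent.S0232

open Cfsg.Agent.Lib.Helper6Inv Cfsg.Agent.Lib.Helper6Syl

theorem arith {g n c h : ℕ} (hg : 0 < g) (h1 : n ^ 2 < h * g) (h2 : g ≤ c * n) (h3 : c ^ 3 ≤ g) :
    g < h ^ 3 := by
  have hc : 0 < c := by
    rcases Nat.eq_zero_or_pos c with h | h
    · subst h; omega
    · exact h
  have h4 : g < c ^ 2 * h := by
    have h5 : g * g < g * (c ^ 2 * h) := by
      calc g * g ≤ (c * n) * (c * n) := Nat.mul_le_mul h2 h2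
        _ = c ^ 2 * n ^ 2 := by ring
        _ < c ^ 2 * (h * g) := Nat.mul_lt_mul_of_pos_left h1 (by positivity)
        _ = g * (c ^ 2 * h) := by ring
    exact Nat.lt_of_mul_lt_mul_left h5
  by_contra hcon
  push Not at hcon
  have h6 : (c ^ 2 * h) ^ 3 ≤ g ^ 3 := by
    calc (c ^ 2 * h) ^ 3 = (c ^ 3) ^ 2 * h ^ 3 := by ring
      _ ≤ g ^ 2 * g := Nat.mul_le_mul (Nat.pow_le_pow_left h3 2) hcon
      _ = g ^ 3 := by ring
  have h7 : c ^ 2 * h ≤ g := (Nat.pow_le_pow_iff_left (by norm_num)).1 h6
  omega

theorem of_index_two {G : Type*} [Group G] [Finite G] (hgt : 2 < Nat.card G)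
    (H : Subgroup G) (hH : H.index = 2) : H ≠ ⊤ ∧ Nat.card G < (Nat.card H) ^ 3 := by
  constructor
  · intro h
    rw [h, Subgroup.index_top] at hH
    omega
  · have h1 := H.card_mul_index
    rw [hH] at h1
    rw [← h1] at hgt ⊢
    have h2 : 2 ≤ Nat.card H := by omega
    calc Nat.card H * 2 < Nat.card H * (2 * 2) := by omega
      _ ≤ Nat.card H * (Nat.card H * Nat.card H) :=
          Nat.mul_le_mul_left _ (Nat.mul_le_mul h2 h2)
      _ = Nat.card H ^ 3 := by ring

theorem aux (N : ℕ) : ∀ (G : Type*) [Group G] [Finite G], Nat.card G = N → Even N → 2 < N →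
    ∃ H : Subgroup G, H ≠ ⊤ ∧ Nat.card G < (Nat.card H) ^ 3 := by
  induction N using Nat.strong_induction_on with
  | _ N ih =>
  intro G _ _ hN heven hgt
  by_cases hidx : ∃ H : Subgroup G, H.index = 2
  · obtain ⟨H, hH⟩ := hidx
    exact ⟨H, of_index_two (hN ▸ hgt) H hH⟩
  push Not at hidx
  by_cases hZ : Odd (Nat.card (Subgroup.center G))
  · -- Brauer-Fowler bound
    obtain ⟨H, hH, hb⟩ := Cfsg.Agent.S0233.result (hN ▸ heven) hZ
    rcases hb with hb | hb
    · exact absurd hb (hidx H)
    obtain ⟨t, ht⟩ := exists_prime_orderOf_dvd_card' (G := G) 2 (hN ▸ even_iff_two_dvd.1 heven)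
    have hne : Subgroup.centralizer ({t} : Set G) ≠ ⊤ := by
      intro h
      rw [Subgroup.centralizer_eq_top_iff_subset, Set.singleton_subset_iff] at h
      have h4 : orderOf (⟨t, h⟩ : Subgroup.center G) = 2 := by
        rw [← ht]; exact Subgroup.orderOf_mk t h
      have h5 : 2 ∣ Nat.card (Subgroup.center G) := h4 ▸ orderOf_dvd_natCard _
      exact (Nat.not_even_iff_odd.2 hZ) (even_iff_two_dvd.2 h5)
    by_cases hc : Nat.card G < Nat.card (Subgroup.centralizer ({t} : Set G)) ^ 3
    · exact ⟨_, hne, hc⟩
    push Not at hc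
    refine ⟨H, hH, ?_⟩
    set n := Nat.card {t : G // orderOf t = 2} with hn
    have hgpos : 0 < Nat.card G := Nat.card_pos
    have hcl : Nat.card {a : G // IsConj t a} ≤ n := by
      refine Nat.card_le_card_of_injective (fun a => ⟨a.1, ?_⟩) ?_
      · obtain ⟨c, hc⟩ := isConj_iff.1 a.2
        rw [← hc, ← ht]
        have := (MulAut.conj c).orderOf_eq t
        simpa using this
      · intro a b h
        have h' := congrArg Subtype.val h
        exact Subtype.ext h'
    have h2 : Nat.card G ≤ Nat.card (Subgroup.centralizer ({t} : Set G)) * n := by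
      rw [← card_conj_mul_card_centralizer t, mul_comm]
      exact Nat.mul_le_mul_left _ hcl
    have hnle : n ≤ Nat.card G := by
      have := Finite.card_subtype_le (fun t : G => orderOf t = 2)
      exact this
    have h1 : n ^ 2 < Nat.card H * Nat.card G := by
      have h3 := H.card_mul_index
      have h4 : Nat.card G * (2 * n ^ 2) < Nat.card G * (Nat.card H * (Nat.card G + n)) := by
        calc Nat.card G * (2 * n ^ 2) = Nat.card H * (2 * H.index * n ^ 2) := by
              rw [← h3]; ring
          _ < Nat.card H * (Nat.card G * (Nat.card G + n)) :=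
              Nat.mul_lt_mul_of_pos_left hb Nat.card_pos
          _ = Nat.card G * (Nat.card H * (Nat.card G + n)) := by ring
      have h5 := Nat.lt_of_mul_lt_mul_left h4
      have h6 : Nat.card H * (Nat.card G + n) ≤ Nat.card H * (2 * Nat.card G) :=
        Nat.mul_le_mul_left _ (by omega)
      have h7 : 2 * n ^ 2 < 2 * (Nat.card H * Nat.card G) := by
        calc 2 * n ^ 2 < Nat.card H * (Nat.card G + n) := h5
          _ ≤ Nat.card H * (2 * Nat.card G) := h6
          _ = 2 * (Nat.card H * Nat.card G) := by ring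
      omega
    exact arith hgpos h1 h2 hc
  · -- central involution
    rw [Nat.not_odd_iff_even, even_iff_two_dvd] at hZ
    obtain ⟨z, hz⟩ := exists_prime_orderOf_dvd_card' (G := Subgroup.center G) 2 hZ
    have hz2 : orderOf (z : G) = 2 := by rw [Subgroup.orderOf_coe, hz]
    let Z : Subgroup G := Subgroup.zpowers (z : G)
    have hZn : Z.Normal := by
      constructor
      intro x hx g
      have hxc : x ∈ Subgroup.center G := (Subgroup.zpowers_le.2 z.2) hx
      rw [Subgroup.mem_center_iff] at hxc
      rw [hxc g, mul_inv_cancel_right]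
      exact hx
    have hZc : Nat.card Z = 2 := by rw [Nat.card_zpowers, hz2]
    have hidxZ : 2 * Z.index = N := by rw [← hZc, Subgroup.card_mul_index, hN]
    have hQ : Nat.card (G ⧸ Z) = Z.index := (Subgroup.index_eq_card Z).symm
    rcases Nat.even_or_odd Z.index with he | ho
    · have hne2 : Z.index ≠ 2 := hidx Z
      have hgt2 : 2 < Z.index := by
        obtain ⟨k, hk⟩ := he
        omega
      obtain ⟨K, hK, hKc⟩ := ih Z.index (by omega) (G ⧸ Z) hQ he hgt2
      refine ⟨K.comap (QuotientGroup.mk' Z), ?_, ?_⟩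
      · intro h
        apply hK
        rw [← Subgroup.index_eq_one] at h ⊢
        rwa [Subgroup.index_comap_of_surjective _ (QuotientGroup.mk'_surjective Z)] at h
      · have h1 := (K.comap (QuotientGroup.mk' Z)).card_mul_index
        rw [Subgroup.index_comap_of_surjective _ (QuotientGroup.mk'_surjective Z)] at h1
        have h2 := K.card_mul_index
        have h3 : Nat.card (K.comap (QuotientGroup.mk' Z)) = 2 * Nat.card K := by
          have hpos : 0 < K.index := Nat.pos_of_ne_zero Subgroup.index_ne_zero_of_finite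
          apply Nat.eq_of_mul_eq_mul_right hpos
          rw [h1, hN, ← hidxZ, ← hQ, ← h2]
          ring
        rw [h3, hN, ← hidxZ, ← hQ]
        have hKpos : 0 < Nat.card K := Nat.card_pos
        nlinarith [hKc, hKpos]
    · exfalso
      have hcop : Nat.Coprime (Nat.card Z) Z.index := by
        rw [hZc]
        exact (Nat.coprime_two_left).2 ho
      obtain ⟨K, hK⟩ := Subgroup.exists_right_complement'_of_coprime hcop
      exact hidx K (hK.index_eq_card.trans hZc)

/-- A finite group G of even order greater than 2 has a proper subgroup H with |G| < |H|^3. -/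
theorem result {G : Type*} [Group G] [Finite G] (heven : Even (Nat.card G)) (hgt : 2 < Nat.card G) : ∃ H : Subgroup G, H ≠ ⊤ ∧ Nat.card G < (Nat.card H) ^ 3 := by
  exact aux _ G rfl heven hgt

end Cfsg.Agent.S0232
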