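import Cfsg.Statements.S0234
import Cfsg.Agent.Lib.Helper6Inv
import Cfsg.Agent.Lib.Helper6Perm
import Cfsg.Agent.Lib.Helper6Simple
import Cfsg.Agent.S0233

set_option autoImplicit false
open Cfsg

namespace Cfsg.Agent.S0234

open Cfsg.Agent.Lib.Helper6Inv Cfsg.Agent.Lib.Helper6Simple

theorem card_inv_A5 : (Finset.univ.filter (fun σ : Equiv.Perm (Fin 5) =>
    Equiv.Perm.sign σ = 1 ∧ σ * σ = 1 ∧ σ ≠ 1)).card = 15 := by decide +kernel

theorem excl {G : Type*} [Group G] [Finite G] [IsSimpleGroup G] (hgt : 2 < Nat.card G)
    (a b : ℕ) (hg : Nat.card G = a * b) (K : Subgroup G) (hK : Nat.card K = a) (hb : 1 < b)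
    (hnd : ¬ (2 * (a * b) ∣ b.factorial)) : False := by
  have ha : 0 < a := by
    rw [← hK]; exact Nat.card_pos
  have h1 := K.card_mul_index
  rw [hK, hg] at h1
  have h2 : K.index = b := Nat.eq_of_mul_eq_mul_left ha h1
  have h3 : K ≠ ⊤ := by
    intro h
    rw [h, Subgroup.index_top] at h2
    omega
  have h4 := two_mul_card_dvd_factorial hgt K h3
  rw [h2, hg] at h4
  exact hnd h4

theorem inv_le_of_equiv {G : Type*} [Group G] [Finite G]
    (e : G ≃* alternatingGroup (Fin 5)) : Nat.card {t : G // orderOf t = 2} ≤ 15 := by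
  classical
  rw [← card_inv_A5, ← Fintype.card_subtype, ← Nat.card_eq_fintype_card]
  refine Nat.card_le_card_of_injective (fun t => ⟨(e t.1).1, ?_, ?_, ?_⟩) ?_
  · exact Equiv.Perm.mem_alternatingGroup.1 (e t.1).2
  · have h1 := mul_self_of_orderOf_two t.2
    have h2 : e t.1 * e t.1 = 1 := by rw [← map_mul, h1, map_one]
    exact congrArg Subtype.val h2
  · intro h
    have h1 : e t.1 = 1 := Subtype.ext h
    have h2 : t.1 = 1 := by
      have := e.injective (h1.trans (map_one e).symm)
      exact this
    exact ne_one_of_orderOf_two t.2 h2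
  · intro a b h
    have h1 := congrArg Subtype.val h
    exact Subtype.ext (e.injective (Subtype.ext h1))

/-- In a finite simple group G of even order greater than 2, the number n of involutions satisfies 3n < |G|. -/
theorem result {G : Type*} [Group G] [Finite G] [IsSimpleGroup G] (heven : Even (Nat.card G)) (hgt : 2 < Nat.card G) : 3 * Nat.card {t : G // orderOf t = 2} < Nat.card G := by
  classical
  by_contra hcon
  push Not at hcon
  have hZ : Odd (Nat.card (Subgroup.center G)) := by
    rcases (inferInstance : (Subgroup.center G).Normal).eq_bot_or_eq_top with h | h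
    · rw [h]; simp
    · exfalso
      obtain ⟨t, ht⟩ := exists_prime_orderOf_dvd_card' (G := G) 2 (even_iff_two_dvd.1 heven)
      have hn : (Subgroup.zpowers t).Normal := by
        constructor
        intro x hx g
        have hxc : x ∈ Subgroup.center G := h ▸ Subgroup.mem_top x
        rw [Subgroup.mem_center_iff] at hxc
        rw [hxc g, mul_inv_cancel_right]
        exact hx
      have hc : Nat.card (Subgroup.zpowers t) = 2 := by rw [Nat.card_zpowers, ht]
      rcases hn.eq_bot_or_eq_top with h1 | h1
      · rw [h1] at hc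
        simp at hc
      · rw [h1, Subgroup.card_top] at hc
        omega
  obtain ⟨H, hH, hb⟩ := Cfsg.Agent.S0233.result heven hZ
  rcases hb with hb | hb
  · exact no_index_two hgt H hb
  set n := Nat.card {t : G // orderOf t = 2} with hn
  set g := Nat.card G with hg
  have hidx : H.index ≤ 5 := by
    by_contra h
    push Not at h
    have h1 : g * (g + n) ≤ (3 * n) * (3 * n + n) := Nat.mul_le_mul hcon (by omega)
    have h2 : 2 * 6 * n ^ 2 ≤ 2 * H.index * n ^ 2 :=
      Nat.mul_le_mul_right _ (Nat.mul_le_mul_left _ h)
    have h3 : (3 * n) * (3 * n + n) = 2 * 6 * n ^ 2 := by ring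
    omega
  have hdvd := two_mul_card_dvd_factorial hgt H hH
  have h120 : 2 * g ∣ 2 * 60 := hdvd.trans (Nat.factorial_dvd_factorial hidx)
  have h60 : g ∣ 60 := Nat.dvd_of_mul_dvd_mul_left (by norm_num) h120
  have hmem : g ∈ Nat.divisors 60 := Nat.mem_divisors.2 ⟨h60, by norm_num⟩
  have hdiv : Nat.divisors 60 = {1, 2, 3, 4, 5, 6, 10, 12, 15, 20, 30, 60} := by decide +kernel
  rw [hdiv] at hmem
  simp only [Finset.mem_insert, Finset.mem_singleton] at hmem
  have hk5 : g = 30 ∨ g = 60 → H.index = 5 := by
    intro h
    have h0 : H.index ≠ 0 := Subgroup.index_ne_zero_of_finite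
    have h60' : 60 ∣ (H.index).factorial := by
      rcases h with h | h
      · rw [← hg, h] at hdvd; exact hdvd
      · rw [← hg, h] at hdvd; exact (by norm_num : 60 ∣ 2 * 60).trans hdvd
    generalize H.index = k at *
    interval_cases k
    · exact absurd rfl h0
    · norm_num [Nat.factorial] at h60'
    · norm_num [Nat.factorial] at h60'
    · norm_num [Nat.factorial] at h60'
    · norm_num [Nat.factorial] at h60'
    · rfl
  rcases hmem with h | h | h | h | h | h | h | h | h | h | h | h
  · omega
  · omega
  · rw [h] at heven; exact absurd heven (by decide)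
  · obtain ⟨K, hK⟩ := Sylow.exists_subgroup_card_pow_prime (G := G) 2 (n := 1)
      (by rw [← hg, h]; norm_num)
    exact excl hgt 2 2 (by rw [← hg, h]) K (by simpa using hK) (by norm_num)
      (by norm_num [Nat.factorial])
  · rw [h] at heven; exact absurd heven (by decide)
  · have : Fact (Nat.Prime 3) := ⟨by norm_num⟩
    obtain ⟨K, hK⟩ := Sylow.exists_subgroup_card_pow_prime (G := G) 3 (n := 1)
      (by rw [← hg, h]; norm_num)
    exact excl hgt 3 2 (by rw [← hg, h]) K (by simpa using hK) (by norm_num)
      (by norm_num [Nat.factorial])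
  · have : Fact (Nat.Prime 5) := ⟨by norm_num⟩
    obtain ⟨K, hK⟩ := Sylow.exists_subgroup_card_pow_prime (G := G) 5 (n := 1)
      (by rw [← hg, h]; norm_num)
    exact excl hgt 5 2 (by rw [← hg, h]) K (by simpa using hK) (by norm_num)
      (by norm_num [Nat.factorial])
  · obtain ⟨K, hK⟩ := Sylow.exists_subgroup_card_pow_prime (G := G) 2 (n := 2)
      (by rw [← hg, h]; norm_num)
    exact excl hgt 4 3 (by rw [← hg, h]) K (by simpa using hK) (by norm_num)
      (by norm_num [Nat.factorial])
  · rw [h] at heven; exact absurd heven (by decide)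
  · have : Fact (Nat.Prime 5) := ⟨by norm_num⟩
    obtain ⟨K, hK⟩ := Sylow.exists_subgroup_card_pow_prime (G := G) 5 (n := 1)
      (by rw [← hg, h]; norm_num)
    exact excl hgt 5 4 (by rw [← hg, h]) K (by simpa using hK) (by norm_num)
      (by norm_num [Nat.factorial])
  · -- order 30
    have hk := hk5 (Or.inl h)
    have hemb := exists_embedding H hH
    rw [hk] at hemb
    obtain ⟨f, hf⟩ := hemb
    let f' : G →* alternatingGroup (Fin 5) := f.codRestrict (alternatingGroup (Fin 5))
      (mem_alternating_of_no_index_two (no_index_two hgt) f)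
    have hf' : Function.Injective f' := by
      intro a b hab
      apply hf
      exact congrArg Subtype.val hab
    have h1 : Nat.card f'.range = 30 := by
      rw [← Nat.card_congr (MonoidHom.ofInjective hf').toEquiv, ← hg, h]
    have h2 : Nat.card (alternatingGroup (Fin 5)) = 60 := by
      rw [nat_card_alternatingGroup]
      simp [Nat.factorial]
    have h3 := f'.range.card_mul_index
    rw [h1, h2] at h3
    have h4 : f'.range.index = 2 := by omega
    have hnorm := Subgroup.normal_of_index_eq_two h4
    have := alternatingGroup.isSimpleGroup (α := Fin 5) (by simp)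
    rcases hnorm.eq_bot_or_eq_top with h5 | h5
    · rw [h5] at h1
      simp at h1
    · rw [h5, Subgroup.index_top] at h4
      omega
  · -- order 60
    have hk := hk5 (Or.inr h)
    have hemb := exists_embedding H hH
    rw [hk] at hemb
    obtain ⟨f, hf⟩ := hemb
    obtain ⟨e⟩ := Cfsg.Agent.Lib.Helper6Perm.mulEquiv_alternating_of_injective (X := Fin 5)
      (n := 5) (by simp) f hf (by rw [← hg, h]; rfl)
    have := inv_le_of_equiv e
    omega

end Cfsg.Agent.S0234
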