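import Cfsg.Statements.S0236
import Cfsg.Agent.Lib.Helper6Inv

set_option autoImplicit false
open Cfsg

namespace Cfsg.Agent.S0236

open Cfsg.Agent.Lib.Helper6Inv

/-- If x is an involution, the number of ordered pairs (u, v) of involutions with uv = x, plus one, equals the number of involutions in the centralizer of x. -/
theorem result {G : Type*} [Group G] [Finite G] (x : G) (hx : orderOf x = 2) : Nat.card {p : G × G // orderOf p.1 = 2 ∧ orderOf p.2 = 2 ∧ p.1 * p.2 = x} + 1 = Nat.card {t : G // orderOf t = 2 ∧ Commute t x} := by
  classical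
  have hxx := mul_self_of_orderOf_two hx
  have hxi := inv_eq_self_of_orderOf_two hx
  rw [← Finite.card_option]
  refine Nat.card_congr
    { toFun := fun p => match p with
        | none => ⟨x, hx, Commute.refl x⟩
        | some p => ⟨p.1.1, p.2.1, ?_⟩
      invFun := fun t => if h : t.1 = x then none else some ⟨(t.1, t.1 * x), t.2.1, ?_, ?_⟩
      left_inv := ?_
      right_inv := ?_ }
  · obtain ⟨⟨u, v⟩, hu, hv, rfl⟩ := p
    have := inv_left_inverts hu hv
    rw [hxi] at this
    exact this
  · obtain ⟨t, ht, hc⟩ := t
    rw [orderOf_two_iff]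
    constructor
    · simp only
      rw [hc.symm.mul_mul_mul_comm, mul_self_of_orderOf_two ht, hxx, one_mul]
    · intro h2
      apply h
      simp only at h2 ⊢
      rw [← hxi]
      exact eq_inv_of_mul_eq_one_left h2
  · obtain ⟨t, ht, hc⟩ := t
    simp only
    rw [← mul_assoc, mul_self_of_orderOf_two ht, one_mul]
  · rintro (_ | ⟨⟨u, v⟩, hu, hv, rfl⟩)
    · simp
    · have hne : u ≠ u * v := by
        intro h
        have : v = 1 := by simpa using h.symm
        exact ne_one_of_orderOf_two hv this
      simp only [hne, dite_false, Option.some.injEq, Subtype.mk.injEq, Prod.mk.injEq, true_and]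
      rw [← mul_assoc, mul_self_of_orderOf_two hu, one_mul]
  · rintro ⟨t, ht, hc⟩
    by_cases h : t = x
    · subst h
      simp
    · simp [h]

end Cfsg.Agent.S0236
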