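import Cfsg.Statements.S0239
import Cfsg.Agent.Lib.Helper6Inv

set_option autoImplicit false
open Cfsg

namespace Cfsg.Agent.S0239

open Cfsg.Agent.Lib.Helper6Inv

/-- If some nontrivial element x of a finite group G is conjugate to x⁻¹, then |G| is even. -/
theorem result {G : Type*} [Group G] [Finite G] (x : G) (hx : x ≠ 1) (hreal : IsConj x x⁻¹) : Even (Nat.card G) := by
  obtain ⟨c, hc⟩ := isConj_iff.1 hreal
  rw [← semiconj_iff] at hc
  by_contra hodd
  rw [Nat.not_even_iff_odd] at hodd
  have h1 := semiconj_odd_pow hc hodd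
  rw [pow_card_eq_one', SemiconjBy, one_mul, mul_one] at h1
  have h2 : orderOf x = 2 := by
    rw [orderOf_two_iff]
    refine ⟨?_, hx⟩
    nth_rewrite 1 [h1]
    exact inv_mul_cancel x
  have h3 : 2 ∣ Nat.card G := h2 ▸ orderOf_dvd_natCard x
  exact (Nat.not_even_iff_odd.2 hodd) (even_iff_two_dvd.2 h3)

end Cfsg.Agent.S0239
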