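import Cfsg.Statements.S0240
import Cfsg.Agent.Lib.Helper6Inv

set_option autoImplicit false
open Cfsg

namespace Cfsg.Agent.S0240

open Cfsg.Agent.Lib.Helper6Inv

/-- Let G be a finite group with n involutions and H a subgroup with |H|·(n+1) > |G|. Then some nontrivial h ∈ H is strongly real in G: an involution t of G satisfies t h t⁻¹ = h⁻¹. -/
theorem result {G : Type*} [Group G] [Finite G] (H : Subgroup G) (hH : Nat.card G < Nat.card H * (Nat.card {t : G // orderOf t = 2} + 1)) : ∃ h : G, h ∈ H ∧ h ≠ 1 ∧ ∃ t : G, orderOf t = 2 ∧ t * h * t⁻¹ = h⁻¹ := by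
  classical
  rw [← Finite.card_option, Subgroup.card_eq_card_quotient_mul_card_subgroup H, mul_comm] at hH
  have hlt := lt_of_mul_lt_mul_left hH (Nat.zero_le _)
  let e : Option {t : G // orderOf t = 2} → G := fun o => match o with
    | none => 1
    | some t => t.1
  have he : Function.Injective e := by
    rintro (_ | a) (_ | b) h
    · rfl
    · exact absurd h.symm (ne_one_of_orderOf_two b.2)
    · exact absurd h (ne_one_of_orderOf_two a.2)
    · simp only [e] at h
      rw [Subtype.ext h]
  have hsq : ∀ o, e o * e o = 1 := by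
    rintro (_ | a)
    · simp [e]
    · exact mul_self_of_orderOf_two a.2
  have hord : ∀ o, e o ≠ 1 → orderOf (e o) = 2 := fun o h => (orderOf_two_iff _).2 ⟨hsq o, h⟩
  have := Fintype.ofFinite (Option {t : G // orderOf t = 2})
  have := Fintype.ofFinite (G ⧸ H)
  rw [Nat.card_eq_fintype_card, Nat.card_eq_fintype_card] at hlt
  obtain ⟨a, b, hab, hq⟩ := Fintype.exists_ne_map_eq_of_card_lt
    (fun o : Option {t : G // orderOf t = 2} => (QuotientGroup.mk (e o) : G ⧸ H)) hlt
  rw [QuotientGroup.eq] at hq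
  have hia : (e a)⁻¹ = e a := inv_eq_of_mul_eq_one_left (hsq a)
  have hib : (e b)⁻¹ = e b := inv_eq_of_mul_eq_one_left (hsq b)
  refine ⟨(e a)⁻¹ * e b, hq, ?_, ?_⟩
  · intro h
    apply hab
    apply he
    rw [inv_mul_eq_one] at h
    exact h
  · by_cases ha : e a = 1
    · have hb : e b ≠ 1 := by
        intro hb
        exact hab (he (ha.trans hb.symm))
      refine ⟨e b, hord b hb, ?_⟩
      rw [ha]
      simp [hib, hsq b]
    · refine ⟨e a, hord a ha, ?_⟩
      rw [mul_inv_rev, inv_inv, hia, hib, ← mul_assoc, hsq a, one_mul]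

end Cfsg.Agent.S0240
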