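import Cfsg.Statements.S0241
import Cfsg.Agent.Lib.Helper6Inv

set_option autoImplicit false
open Cfsg

namespace Cfsg.Agent.S0241

open Cfsg.Agent.Lib.Helper6Inv

/-- If x ≠ 1 is conjugate to x⁻¹ in a finite group G and |C_G(x)| is odd, then some involution t satisfies t x t⁻¹ = x⁻¹. -/
theorem result {G : Type*} [Group G] [Finite G] (x : G) (hx : x ≠ 1) (hreal : IsConj x x⁻¹) (hodd : Odd (Nat.card (Subgroup.centralizer ({x} : Set G)))) : ∃ t : G, orderOf t = 2 ∧ t * x * t⁻¹ = x⁻¹ := by
  obtain ⟨c, hc⟩ := isConj_iff.1 hreal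
  rw [← semiconj_iff] at hc
  set k := Nat.card (Subgroup.centralizer ({x} : Set G)) with hk
  have h1 := semiconj_odd_pow hc hodd
  refine ⟨c ^ k, ?_, semiconj_iff.1 h1⟩
  rw [orderOf_two_iff]
  constructor
  · have h2 : c ^ 2 ∈ Subgroup.centralizer ({x} : Set G) := by
      rw [Subgroup.mem_centralizer_singleton_iff]
      exact semiconj_sq hc
    have h3 : (⟨c ^ 2, h2⟩ : Subgroup.centralizer ({x} : Set G)) ^ k = 1 := pow_card_eq_one'
    have h4 := congrArg Subtype.val h3
    simp only [Subgroup.coe_pow, Subgroup.coe_one] at h4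
    rw [← pow_add, ← two_mul, pow_mul]
    exact h4
  · intro h2
    rw [h2, SemiconjBy, one_mul, mul_one] at h1
    have h3 : orderOf x = 2 := by
      rw [orderOf_two_iff]
      refine ⟨?_, hx⟩
      nth_rewrite 1 [h1]
      exact inv_mul_cancel x
    have hxC : x ∈ Subgroup.centralizer ({x} : Set G) := by
      rw [Subgroup.mem_centralizer_singleton_iff]
    have h4 : orderOf (⟨x, hxC⟩ : Subgroup.centralizer ({x} : Set G)) = 2 := by
      rw [← h3]; exact Subgroup.orderOf_mk x hxC
    have h5 : 2 ∣ k := h4 ▸ orderOf_dvd_natCard _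
    exact (Nat.not_even_iff_odd.2 hodd) (even_iff_two_dvd.2 h5)

end Cfsg.Agent.S0241
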