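import Cfsg.Statements.S0244
import Mathlib

set_option autoImplicit false
open Cfsg

namespace Cfsg.Agent.S0244

theorem det_eq {R : Type*} [CommRing R] (A : Matrix (Fin 1 ⊕ Fin 1) (Fin 1 ⊕ Fin 1) R) :
    A.det = A (Sum.inl 0) (Sum.inl 0) * A (Sum.inr 0) (Sum.inr 0)
      - A (Sum.inl 0) (Sum.inr 0) * A (Sum.inr 0) (Sum.inl 0) := by
  let e : Fin 2 ≃ Fin 1 ⊕ Fin 1 :=
    ⟨![Sum.inl 0, Sum.inr 0], Sum.elim (fun _ => 0) (fun _ => 1), by decide, by decide⟩
  rw [← Matrix.det_submatrix_equiv_self e A, Matrix.det_fin_two]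
  rfl

/-- Sp_2 = SL_2: a matrix on Fin 1 ⊕ Fin 1 lies in Mathlib's symplectic group iff its determinant is 1. -/
theorem result {R : Type*} [CommRing R] (A : Matrix (Fin 1 ⊕ Fin 1) (Fin 1 ⊕ Fin 1) R) : A ∈ Matrix.symplecticGroup (Fin 1) R ↔ A.det = 1 := by
  rw [SymplecticGroup.mem_iff, det_eq]
  constructor
  · intro h
    have h1 := congrFun (congrFun h (Sum.inr 0)) (Sum.inl 0)
    simp [Matrix.mul_apply, Matrix.J, Fintype.sum_sum_type, Matrix.fromBlocks] at h1
    linear_combination h1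
  · intro h
    ext i j
    rcases i with i | i <;> rcases j with j | j <;>
      (have hi := Subsingleton.elim i 0; have hj := Subsingleton.elim j 0; subst hi; subst hj) <;>
      simp [Matrix.mul_apply, Matrix.J, Fintype.sum_sum_type, Matrix.fromBlocks]
    · ring
    · linear_combination (-1 : R) * h
    · linear_combination h
    · ring

end Cfsg.Agent.S0244
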