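import Cfsg.Statements.S0247
import Cfsg.Agent.S0245
import Cfsg.Agent.Lib.Helper6Transport

set_option autoImplicit false
open Cfsg

namespace Cfsg.Agent.S0247
open Matrix

/-- a ring isomorphism induces an isomorphism of symplectic groups -/
def spEquiv {l R S : Type*} [DecidableEq l] [Fintype l] [CommRing R] [CommRing S] (e : R ≃+* S) :
    Matrix.symplecticGroup l R ≃* Matrix.symplecticGroup l S where
  toFun A := ⟨A.1.map e, SymplecticGroup.map_mem A.2 e⟩
  invFun A := ⟨A.1.map e.symm, SymplecticGroup.map_mem A.2 e.symm⟩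
  left_inv A := by
    apply Subtype.ext
    ext i j
    simp
  right_inv A := by
    apply Subtype.ext
    ext i j
    simp
  map_mul' A B := by
    apply Subtype.ext
    simp [Matrix.map_mul]

/-- a hyperbolic basis of the even weight vectors modulo the all-ones vector -/
def bv : Fin 2 ⊕ Fin 2 → Fin 6 → ZMod 2
  | .inl 0 => ![1, 1, 0, 0, 0, 0]
  | .inr 0 => ![0, 1, 1, 0, 0, 0]
  | .inl 1 => ![0, 0, 0, 1, 1, 0]
  | .inr 1 => ![0, 0, 0, 0, 1, 1]

/-- the dual basis -/
def dv : Fin 2 ⊕ Fin 2 → Fin 6 → ZMod 2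
  | .inl i => bv (.inr i)
  | .inr i => bv (.inl i)

/-- the matrix of a permutation -/
def M (σ : Equiv.Perm (Fin 6)) : Matrix (Fin 2 ⊕ Fin 2) (Fin 2 ⊕ Fin 2) (ZMod 2) :=
  Matrix.of fun i j => ∑ k : Fin 6, dv i (σ k) * bv j k

theorem M_mem : ∀ σ : Equiv.Perm (Fin 6), M σ * J (Fin 2) (ZMod 2) * (M σ)ᵀ = J (Fin 2) (ZMod 2) := by
  decide +kernel

theorem M_mul_rot : ∀ σ : Equiv.Perm (Fin 6), M (σ * finRotate 6) = M σ * M (finRotate 6) := by
  decide +kernel

theorem M_mul_swap : ∀ σ : Equiv.Perm (Fin 6),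
    M (σ * Equiv.swap 0 1) = M σ * M (Equiv.swap 0 1) := by
  decide +kernel

theorem M_inj : ∀ σ : Equiv.Perm (Fin 6), M σ = 1 → σ = 1 := by
  decide +kernel

theorem M_one : M 1 = 1 := by
  decide +kernel

theorem closure_gens :
    Subgroup.closure ({finRotate 6, Equiv.swap 0 1} : Set (Equiv.Perm (Fin 6))) = ⊤ := by
  have h := Equiv.Perm.closure_cycle_adjacent_swap (σ := finRotate 6) (isCycle_finRotate)
    (support_finRotate) 0
  have h1 : (finRotate 6) 0 = 1 := by decide
  rwa [h1] at h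

/-- the map to the symplectic group -/
def f (σ : Equiv.Perm (Fin 6)) : Matrix.symplecticGroup (Fin 2) (ZMod 2) :=
  ⟨M σ, SymplecticGroup.mem_iff.2 (M_mem σ)⟩

theorem f_mul : ∀ a b, f (a * b) = f a * f b := by
  apply Cfsg.Agent.Lib.Helper6Transport.map_mul_of_generators f _ closure_gens
  · exact Subtype.ext M_one
  · intro g s hs
    rcases hs with rfl | hs
    · exact Subtype.ext (M_mul_rot g)
    · rw [Set.mem_singleton_iff] at hs
      subst hs
      exact Subtype.ext (M_mul_swap g)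

/-- the homomorphism to the symplectic group -/
def φ : Equiv.Perm (Fin 6) →* Matrix.symplecticGroup (Fin 2) (ZMod 2) := MonoidHom.mk' f f_mul

theorem φ_injective : Function.Injective φ := by
  rw [injective_iff_map_eq_one]
  intro σ hσ
  exact M_inj σ (congrArg Subtype.val hσ)

theorem card_sp : Nat.card (Matrix.symplecticGroup (Fin 2) (ZMod 2)) = 720 := by
  rw [Cfsg.Agent.S0245.result (F := ZMod 2) (q := 2) (by simp) 2]
  decide

theorem φ_bijective : Function.Bijective φ := by
  have : Finite (Matrix.symplecticGroup (Fin 2) (ZMod 2)) :=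
    Nat.finite_of_card_ne_zero (by rw [card_sp]; norm_num)
  rw [Nat.bijective_iff_injective_and_card]
  refine ⟨φ_injective, ?_⟩
  rw [card_sp, Nat.card_eq_fintype_card, Fintype.card_perm, Fintype.card_fin]
  rfl

/-- Sp_4(2) is isomorphic to the symmetric group S_6. -/
theorem result {F : Type*} [Field F] [Fintype F] (hF : Fintype.card F = 2) : Nonempty (Matrix.symplecticGroup (Fin 2) F ≃* Equiv.Perm (Fin 6)) := by
  have e : F ≃+* ZMod 2 := FiniteField.ringEquivOfCardEq (by rw [hF]; simp)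
  exact ⟨(spEquiv e).trans (MulEquiv.ofBijective φ φ_bijective).symm⟩

end Cfsg.Agent.S0247
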