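import Cfsg.Statements.S0257
import Cfsg.Agent.S0243
import Cfsg.Agent.Lib.Helper6Transport

set_option autoImplicit false
open Cfsg

namespace Cfsg.Agent.S0257

abbrev SL23 := Matrix.SpecialLinearGroup (Fin 2) (ZMod 3)

def mA : SL23 := ⟨!![0, -1; 1, 0], by decide +kernel⟩
def mX : SL23 := ⟨!![1, 1; 1, -1], by decide +kernel⟩

def qf : QuaternionGroup 2 → SL23
  | .a i => mA ^ i.val
  | .xa i => mX * mA ^ i.val

theorem qf_mul : ∀ x y : QuaternionGroup 2, qf (x * y) = qf x * qf y := by
  decide +kernel

theorem qf_inj : ∀ x y : QuaternionGroup 2, qf x = qf y → x = y := by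
  decide +kernel

theorem qf_range : ∀ B : SL23, B ^ 4 = 1 ↔ ∃ x, qf x = B := by
  decide +kernel

def qhom : QuaternionGroup 2 →* SL23 := MonoidHom.mk' qf qf_mul

theorem mem_range_iff (B : SL23) : B ∈ qhom.range ↔ B ^ 4 = 1 := by
  rw [qf_range]; rfl

theorem range_normal : qhom.range.Normal := by
  constructor
  intro n hn g
  rw [mem_range_iff] at hn ⊢
  rw [conj_pow, hn, mul_one, mul_inv_cancel]

theorem card_range : Nat.card qhom.range = 8 := by
  have e := MonoidHom.ofInjective (f := qhom) (fun x y h => qf_inj x y h)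
  rw [← Nat.card_congr e.toEquiv, Nat.card_eq_fintype_card, QuaternionGroup.card]

theorem card_SL23 : Nat.card SL23 = 24 := by
  have h := Cfsg.Agent.S0242.result (F := ZMod 3) (q := 3) (by simp) 2 (by norm_num)
  simp only [Fin.prod_univ_two] at h
  set N := Nat.card SL23 with hN
  norm_num at h
  omega

theorem index_range : qhom.range.index = 3 := by
  have h := Subgroup.card_mul_index qhom.range
  rw [card_range, card_SL23] at h
  omega

/-- SL_2(3) has a normal subgroup of index 3 isomorphic to the quaternion group of order 8, and its centre has order 2. -/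
theorem result {F : Type*} [Field F] [Fintype F] (hF : Fintype.card F = 3) : (∃ Q : Subgroup (Matrix.SpecialLinearGroup (Fin 2) F), Q.Normal ∧ Q.index = 3 ∧ Nonempty (Q ≃* QuaternionGroup 2)) ∧ Nat.card (Subgroup.center (Matrix.SpecialLinearGroup (Fin 2) F)) = 2 := by
  constructor
  · obtain ⟨e⟩ := Cfsg.Agent.Lib.Helper6Transport.nonempty_slEquiv (n := Fin 2) (F := ZMod 3) (K := F)
      (by rw [hF]; simp)
    refine ⟨qhom.range.map e.toMonoidHom, ?_, ?_, ?_⟩
    · exact Subgroup.Normal.map range_normal _ e.surjective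
    · have := Subgroup.index_map_equiv qhom.range e
      rw [index_range] at this
      exact this
    · have e1 := MonoidHom.ofInjective (f := qhom) (fun x y h => qf_inj x y h)
      have e2 := e.subgroupMap qhom.range
      exact ⟨(e1.trans e2).symm⟩
  · rw [Cfsg.Agent.S0243.card_center_SL 2 (by norm_num), hF]
    rfl

end Cfsg.Agent.S0257
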