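import Cfsg.Statements.S0258
import Cfsg.Agent.Lib.Helper6GL2

set_option autoImplicit false
open Cfsg

namespace Cfsg.Agent.S0258
open Cfsg.Agent.Lib.Helper6GL2

/-- GL_2(q), q a power of the prime p, has exactly q + 1 Sylow p-subgroups. -/
theorem result {F : Type*} [Field F] [Fintype F] {q : ℕ} (hF : Fintype.card F = q) (p : ℕ) [Fact p.Prime] [CharP F p] : Nat.card (Sylow p (Matrix.GeneralLinearGroup (Fin 2) F)) = q + 1 := by
  rw [Sylow.card_eq_index_normalizer (sylU p)]
  have h := Subgroup.card_mul_index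
    (Subgroup.normalizer ((U : Subgroup (GL (Fin 2) F)) : Set (GL (Fin 2) F)))
  rw [card_normalizer, card_GL2, hF] at h
  have hq : 1 < q := hF ▸ Fintype.one_lt_card
  obtain ⟨r, rfl⟩ : ∃ r, q = r + 2 := ⟨q - 2, by omega⟩
  have h1 : (r + 2) ^ 2 - 1 = (r + 1) * (r + 3) := by
    apply Nat.sub_eq_of_eq_add; ring
  have h2 : (r + 2) ^ 2 - (r + 2) = (r + 1) * (r + 2) := by
    apply Nat.sub_eq_of_eq_add; ring
  have h3 : r + 2 - 1 = r + 1 := by omega
  rw [h1, h2, h3] at h
  have h4 : 0 < (r + 1) * ((r + 1) * (r + 2)) := by positivity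
  apply Nat.eq_of_mul_eq_mul_left h4
  refine Eq.trans h ?_
  ring

end Cfsg.Agent.S0258
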