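import Cfsg.Statements.S0259
import Cfsg.Agent.Lib.Helper6GL2

set_option autoImplicit false
open Cfsg

namespace Cfsg.Agent.S0259
open Cfsg.Agent.Lib.Helper6GL2 Cfsg.Agent.Lib.Helper6Syl

/-- Distinct Sylow p-subgroups of GL_2(q), p the characteristic, intersect trivially. -/
theorem result {F : Type*} [Field F] [Fintype F] (p : ℕ) [Fact p.Prime] [CharP F p] (P Q : Sylow p (Matrix.GeneralLinearGroup (Fin 2) F)) (h : P ≠ Q) : (P : Subgroup (Matrix.GeneralLinearGroup (Fin 2) F)) ⊓ (Q : Subgroup (Matrix.GeneralLinearGroup (Fin 2) F)) = ⊥ := by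
  obtain ⟨g, rfl⟩ := MulAction.exists_smul_eq (GL (Fin 2) F) (sylU p) P
  obtain ⟨k, rfl⟩ := MulAction.exists_smul_eq (GL (Fin 2) F) (sylU p) Q
  rw [eq_bot_iff]
  intro x hx
  rw [Subgroup.mem_bot]
  by_contra hx1
  apply h
  obtain ⟨hx2, hx3⟩ := Subgroup.mem_inf.1 hx
  have hx2' : g⁻¹ * x * g ∈ (U : Subgroup (GL (Fin 2) F)) := (mem_smul_sylow_iff g x (sylU p)).1 hx2
  have hx3' : k⁻¹ * x * k ∈ (U : Subgroup (GL (Fin 2) F)) := (mem_smul_sylow_iff k x (sylU p)).1 hx3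
  obtain ⟨b, hb⟩ := (mem_U _).1 hx2'
  obtain ⟨c, hc⟩ := (mem_U _).1 hx3'
  have hc0 : c ≠ 0 := by
    rintro rfl
    apply hx1
    have h2 : k⁻¹ * x * k = 1 := by rw [← hc]; exact AddChar.map_zero_eq_one _
    have : x = k * (k⁻¹ * x * k) * k⁻¹ := by group
    rw [this, h2]; group
  have h1 : (k⁻¹ * g) * u b = u c * (k⁻¹ * g) := by
    rw [hb, hc]; group
  have h2 := entry_zero_of_comm _ b c hc0 h1
  have h3 : k⁻¹ * g ∈ Subgroup.normalizer
    (((sylU p : Sylow p (GL (Fin 2) F)) : Subgroup (GL (Fin 2) F)) : Set (GL (Fin 2) F)) :=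
    (mem_normalizer_iff _).2 h2
  have h4 : (k⁻¹ * g) • (sylU p : Sylow p (GL (Fin 2) F)) = sylU p :=
    Sylow.smul_eq_iff_mem_normalizer.2 h3
  rw [mul_smul, inv_smul_eq_iff] at h4
  exact h4

end Cfsg.Agent.S0259
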