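import Cfsg.Statements.S0260
import Cfsg.Agent.Lib.Helper6SL2Syl

set_option autoImplicit false
open Cfsg

namespace Cfsg.Agent.S0260
open Cfsg.Agent.Lib.Helper6SL2Syl Cfsg.Agent.Lib.Helper6Syl

/-- Any two distinct Sylow p-subgroups of SL_2(q), p the characteristic, generate SL_2(q). -/
theorem result {F : Type*} [Field F] [Fintype F] (p : ℕ) [Fact p.Prime] [CharP F p] (P Q : Sylow p (Matrix.SpecialLinearGroup (Fin 2) F)) (h : P ≠ Q) : (P : Subgroup (Matrix.SpecialLinearGroup (Fin 2) F)) ⊔ (Q : Subgroup (Matrix.SpecialLinearGroup (Fin 2) F)) = ⊤ := by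
  obtain ⟨g, rfl⟩ := MulAction.exists_smul_eq (Matrix.SpecialLinearGroup (Fin 2) F) (sylU p) P
  obtain ⟨k, rfl⟩ := MulAction.exists_smul_eq (Matrix.SpecialLinearGroup (Fin 2) F) (sylU p) Q
  set H : Subgroup (Matrix.SpecialLinearGroup (Fin 2) F) :=
    ((g • sylU p : Sylow p (Matrix.SpecialLinearGroup (Fin 2) F)) :
      Subgroup (Matrix.SpecialLinearGroup (Fin 2) F)) ⊔
    ((k • sylU p : Sylow p (Matrix.SpecialLinearGroup (Fin 2) F)) :
      Subgroup (Matrix.SpecialLinearGroup (Fin 2) F)) with hH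
  have hg : ∀ b, g * t b * g⁻¹ ∈ H := fun b =>
    Subgroup.mem_sup_left (conj_mem_smul_sylow g (t b) (sylU p) ((mem_U _).2 ⟨b, rfl⟩))
  have hk : ∀ b, k * t b * k⁻¹ ∈ H := fun b =>
    Subgroup.mem_sup_right (conj_mem_smul_sylow k (t b) (sylU p) ((mem_U _).2 ⟨b, rfl⟩))
  have hne : (k⁻¹ * g).1 1 0 ≠ 0 := by
    intro h0
    apply h
    have h3 : k⁻¹ * g ∈ Subgroup.normalizer
      (((sylU p : Sylow p (Matrix.SpecialLinearGroup (Fin 2) F)) :
        Subgroup (Matrix.SpecialLinearGroup (Fin 2) F)) :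
          Set (Matrix.SpecialLinearGroup (Fin 2) F)) :=
      mem_normalizer_of_entry_zero _ h0
    have h4 : (k⁻¹ * g) • (sylU p : Sylow p (Matrix.SpecialLinearGroup (Fin 2) F)) = sylU p :=
      Sylow.smul_eq_iff_mem_normalizer.2 h3
    rw [mul_smul, inv_smul_eq_iff] at h4
    exact h4
  have htop := eq_top_of_U_of_conj (H.comap (MulAut.conj k).toMonoidHom)
    (fun b => by
      rw [Subgroup.mem_comap]
      exact hk b) (k⁻¹ * g) hne
    (fun b => by
      rw [Subgroup.mem_comap]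
      have : (MulAut.conj k).toMonoidHom (k⁻¹ * g * t b * (k⁻¹ * g)⁻¹) = g * t b * g⁻¹ := by
        simp only [MulEquiv.coe_toMonoidHom, MulAut.conj_apply]
        group
      rw [this]
      exact hg b)
  rw [eq_top_iff]
  intro x _
  have h1 : k⁻¹ * x * k ∈ H.comap (MulAut.conj k).toMonoidHom := by rw [htop]; trivial
  rw [Subgroup.mem_comap] at h1
  have : (MulAut.conj k).toMonoidHom (k⁻¹ * x * k) = x := by
    simp only [MulEquiv.coe_toMonoidHom, MulAut.conj_apply]
    group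
  rwa [this] at h1

end Cfsg.Agent.S0260
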