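import Cfsg.Statements.S0264
import Mathlib
import Cfsg.Agent.Lib.Helper7SL

set_option autoImplicit false
open Cfsg

namespace Cfsg.Agent.S0264

open Matrix
open scoped commutatorElement

variable {F : Type*} [Field F] {n : Type*} [Fintype n] [DecidableEq n]

noncomputable def dg (i : n) (c : Fˣ) : GL n F :=
  ⟨diagonal (fun k => if k = i then (c : F) else 1),
   diagonal (fun k => if k = i then ((c⁻¹ : Fˣ) : F) else 1),
   by
    simp only [diagonal_mul_diagonal, mul_ite, ite_mul, Units.mul_inv, one_mul, mul_one,
      diagonal_eq_one]
    funext j; split_ifs <;> simp,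
   by
    simp only [diagonal_mul_diagonal, mul_ite, ite_mul, Units.inv_mul, one_mul, mul_one,
      diagonal_eq_one]
    funext j; split_ifs <;> simp⟩

theorem mem_comm_of_eq {G : Type*} [Group G] (x g h : G) (e : x * h * g = g * h) :
    x ∈ commutator G := by
  have : x = ⁅g, h⁆ := by
    rw [commutatorElement_def]
    exact eq_mul_inv_of_mul_eq (eq_mul_inv_of_mul_eq e)
  rw [this, commutator_def]
  exact Subgroup.commutator_mem_commutator (Subgroup.mem_top g) (Subgroup.mem_top h)

theorem transv_mem_of_ne {i j : n} (hij : i ≠ j) (a c : F) (hc0 : c ≠ 0) (hc1 : c ≠ 1) :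
    SpecialLinearGroup.toGL (SpecialLinearGroup.transvection hij a) ∈ commutator (GL n F) := by
  have hc1' : c - 1 ≠ 0 := sub_ne_zero.mpr hc1
  apply mem_comm_of_eq _ (dg i (Units.mk0 c hc0))
    (SpecialLinearGroup.toGL (SpecialLinearGroup.transvection hij (a / (c - 1))))
  apply Units.ext
  show Matrix.transvection i j a * Matrix.transvection i j (a / (c - 1))
      * diagonal (fun k => if k = i then c else 1)
    = diagonal (fun k => if k = i then c else 1) * Matrix.transvection i j (a / (c - 1))
  rw [transvection_mul_transvection_same _ _ hij]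
  ext x y
  rw [Matrix.mul_diagonal, Matrix.diagonal_mul]
  simp only [Matrix.transvection, Matrix.add_apply, Matrix.one_apply, Matrix.single_apply]
  by_cases hx : x = i
  · subst hx
    by_cases hy : y = j
    · subst hy
      simp [hij, hij.symm]
      field_simp
      ring
    · have hy' : j ≠ y := fun h => hy h.symm
      by_cases hxy : x = y
      · subst hxy; simp [hy']; 
      · have : y ≠ x := fun h => hxy h.symm
        simp [hy', hxy, this]
  · have hx' : i ≠ x := fun h => hx h.symm
    by_cases hxy : x = y
    · subst hxy; simp [hx, hx']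
    · simp [hx, hx', hxy]

theorem transv_mem_of_three {i j k : n} (hij : i ≠ j) (hik : i ≠ k) (hkj : k ≠ j) (a : F) :
    SpecialLinearGroup.toGL (SpecialLinearGroup.transvection hij a) ∈ commutator (GL n F) := by
  apply mem_comm_of_eq _ (SpecialLinearGroup.toGL (SpecialLinearGroup.transvection hik a))
    (SpecialLinearGroup.toGL (SpecialLinearGroup.transvection hkj 1))
  apply Units.ext
  show Matrix.transvection i j a * Matrix.transvection k j 1 * Matrix.transvection i k a
    = Matrix.transvection i k a * Matrix.transvection k j 1
  simp only [Matrix.transvection, mul_add, add_mul, mul_one, one_mul,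
    single_mul_single_of_ne _ _ _ _ hkj.symm, single_mul_single_of_ne _ _ _ _ hij.symm,
    single_mul_single_same, add_zero]
  abel

theorem diag_mem {i j : n} (hij : i ≠ j) (c : F) (hc : c ≠ 0) :
    SpecialLinearGroup.toGL (SpecialLinearGroup.diag2n hij c hc) ∈ commutator (GL n F) := by
  apply mem_comm_of_eq _ (dg i (Units.mk0 c hc)) (GeneralLinearGroup.swap F i j)
  apply Units.ext
  show diagonal (fun k ↦ if k = i then c else if k = j then c⁻¹ else 1) * Matrix.swap F i j
      * diagonal (fun k => if k = i then c else 1)
    = diagonal (fun k => if k = i then c else 1) * Matrix.swap F i j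
  ext x y
  rw [Matrix.mul_diagonal, Matrix.diagonal_mul, Matrix.diagonal_mul]
  simp only [Matrix.swap, PEquiv.toMatrix_apply, Equiv.toPEquiv_apply, Option.mem_def,
    Option.some.injEq]
  by_cases hx : x = i
  · subst hx
    by_cases hy : y = j
    · subst hy; simp [hij.symm]
    · have : ¬ (j = y) := fun h => hy h.symm
      simp [this]
  · by_cases hxj : x = j
    · subst hxj
      by_cases hy : y = i
      · subst hy; simp [hx, hc]
      · have : ¬ (i = y) := fun h => hy h.symm
        simp [this]
    · rw [Equiv.swap_apply_of_ne_of_ne hx hxj]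
      by_cases hxy : x = y
      · subst hxy; simp [hx, hxj]
      · simp [hxy]

/-- GL_n(F)' = SL_n(F) (as the kernel of det), for every field F and every n, except n = 2 over the field of two elements. -/
theorem result {F : Type*} [Field F] (n : ℕ) (h : n = 2 → ∃ a : F, a ≠ 0 ∧ a ≠ 1) : commutator (Matrix.GeneralLinearGroup (Fin n) F) = (Matrix.GeneralLinearGroup.det : Matrix.GeneralLinearGroup (Fin n) F →* Fˣ).ker := by
  apply le_antisymm
  · exact Abelianization.commutator_subset_ker _
  · rw [← Cfsg.Agent.Lib.Helper7SL.range_toGL_eq_ker_det]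
    rintro _ ⟨M, rfl⟩
    rcases Nat.lt_or_ge n 2 with hn | hn
    · have : Subsingleton (Fin n) := by
        rw [Fin.subsingleton_iff_le_one]; omega
      have hM : M = 1 := Subsingleton.elim _ _
      rw [hM, map_one]
      exact one_mem _
    · have : Nontrivial (Fin n) := Fin.nontrivial_iff_two_le.mpr hn
      refine Matrix.SpecialLinearGroup.diagonal_transvection_induction'
        (fun M => Matrix.SpecialLinearGroup.toGL M ∈ commutator (Matrix.GeneralLinearGroup (Fin n) F)) M
        (fun i j hij c hc => diag_mem hij c hc) ?_ ?_
      · intro i j hij a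
        by_cases hF : ∃ c : F, c ≠ 0 ∧ c ≠ 1
        · obtain ⟨c, hc0, hc1⟩ := hF
          exact transv_mem_of_ne hij a c hc0 hc1
        · have hn3 : 3 ≤ n := by
            rcases Nat.lt_or_ge n 3 with h3 | h3
            · exact absurd (h (by omega)) hF
            · exact h3
          obtain ⟨k, hk⟩ : ∃ k : Fin n, k ∉ ({i, j} : Finset (Fin n)) := by
            by_contra hcon
            push Not at hcon
            have h1 : (Finset.univ : Finset (Fin n)) ⊆ {i, j} := fun k _ => hcon k
            have h2 := Finset.card_le_card h1
            have h3 : ({i, j} : Finset (Fin n)).card ≤ 2 := Finset.card_le_two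
            simp at h2
            omega
          simp only [Finset.mem_insert, Finset.mem_singleton, not_or] at hk
          exact transv_mem_of_three hij (fun h => hk.1 h.symm) hk.2 a
      · intro A B hA hB
        show Matrix.SpecialLinearGroup.toGL (A * B) ∈ _
        rw [map_mul]
        exact mul_mem hA hB

end Cfsg.Agent.S0264
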