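import Mathlib
import Cfsg.Statements.S0266
import Cfsg.Agent.Lib.Helper60PL

set_option autoImplicit false
open Cfsg

namespace Cfsg.Agent.S0266

open Cfsg.Agent.Lib.Helper60PL
open scoped LinearAlgebra.Projectivization MatrixGroups

theorem mk_eq_one_of_fix {F : Type*} [Field F] (g : GL (Fin 2) F)
    (h0 : g • (P0 : ℙ F (Fin 2 → F)) = P0) (h1 : g • (P1 : ℙ F (Fin 2 → F)) = P1)
    (h2 : g • (Pd 1 : ℙ F (Fin 2 → F)) = Pd 1) : Matrix.ProjGenLinGroup.mk g = 1 := by
  unfold P0 at h0
  unfold P1 at h1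
  unfold Pd at h2
  rw [Projectivization.smul_mk, mk_eq_mk_iff_D] at h0 h1 h2
  obtain ⟨e10, e01, e00⟩ := entries_of_fix (g : Matrix (Fin 2) (Fin 2) F) 1 h0 h1 h2
  rw [mul_one] at e00
  rw [Matrix.ProjGenLinGroup.mk_eq_one, Matrix.GeneralLinearGroup.center_eq_range_scalar]
  have hdet : (g : Matrix (Fin 2) (Fin 2) F).det ≠ 0 := by
    have := g.det.ne_zero
    simpa using this
  rw [Matrix.det_fin_two, e10, e01, ← e00] at hdet
  have h00 : (g : Matrix (Fin 2) (Fin 2) F) 0 0 ≠ 0 := by
    intro h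
    apply hdet
    rw [h]; ring
  refine ⟨Units.mk0 _ h00, ?_⟩
  apply Units.ext
  ext i j
  fin_cases i <;> fin_cases j <;> simp [e10, e01, ← e00, Matrix.GeneralLinearGroup.coe_scalar]

/-- PGL_2(F) is sharply 3-transitive on the projective line: it is 3-transitive and the stabiliser of three distinct points is trivial. -/
theorem result {F : Type*} [Field F] : MulAction.IsMultiplyPretransitive (Matrix.ProjGenLinGroup (Fin 2) F) (Projectivization F (Fin 2 → F)) 3 ∧ ∀ (g : Matrix.ProjGenLinGroup (Fin 2) F) (a b c : Projectivization F (Fin 2 → F)), a ≠ b → a ≠ c → b ≠ c → g • a = a → g • b = b → g • c = c → g = 1 := by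
  constructor
  · rw [MulAction.isMultiplyPretransitive_iff]
    intro x y
    obtain ⟨g, hg⟩ := exists_GL x y
    refine ⟨Matrix.ProjGenLinGroup.mk g, ?_⟩
    ext i
    rw [Function.Embedding.smul_apply]
    exact hg i
  · intro g a b c hab hac hbc ha hb hc
    induction g using Matrix.ProjGenLinGroup.induction_on with | mk g =>
    obtain ⟨h, h0, h1, h2⟩ := exists_frame a b c hab hac hbc
    have ha' : g • a = a := ha
    have hb' : g • b = b := hb
    have hc' : g • c = c := hc
    have key := mk_eq_one_of_fix (h⁻¹ * g * h)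
      (by rw [mul_smul, mul_smul, h0, ha', ← h0, inv_smul_smul])
      (by rw [mul_smul, mul_smul, h1, hb', ← h1, inv_smul_smul])
      (by rw [mul_smul, mul_smul, h2, hc', ← h2, inv_smul_smul])
    rw [map_mul, map_mul, map_inv] at key
    have : Matrix.ProjGenLinGroup.mk g = Matrix.ProjGenLinGroup.mk h * 1 * (Matrix.ProjGenLinGroup.mk h)⁻¹ := by
      rw [← key]; group
    rw [this]; group

end Cfsg.Agent.S0266
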