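import Mathlib
import Cfsg.Statements.S0267
import Cfsg.Agent.Lib.Helper60PL

set_option autoImplicit false
open Cfsg

namespace Cfsg.Agent.S0267

open Cfsg.Agent.Lib.Helper60PL
open scoped LinearAlgebra.Projectivization MatrixGroups

/-- SL_2(q) is 3-transitive on the q+1 points of the projective line if and only if q is even. -/
theorem result {F : Type*} [Field F] [Fintype F] : MulAction.IsMultiplyPretransitive (Matrix.SpecialLinearGroup (Fin 2) F) (Projectivization F (Fin 2 → F)) 3 ↔ ringChar F = 2 := by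
  constructor
  · intro h
    by_contra hchar
    obtain ⟨d, hd⟩ := FiniteField.exists_nonsquare hchar
    have hd0 : d ≠ 0 := by
      rintro rfl
      exact hd ⟨0, by simp⟩
    rw [MulAction.isMultiplyPretransitive_iff] at h
    obtain ⟨g, hg⟩ := h (emb3 (P0 : ℙ F (Fin 2 → F)) P1 (Pd 1) P0_ne_P1 (P0_ne_Pd one_ne_zero) (P1_ne_Pd 1))
      (emb3 (P0 : ℙ F (Fin 2 → F)) P1 (Pd d) P0_ne_P1 (P0_ne_Pd hd0) (P1_ne_Pd d))
    have h0 : g • (P0 : ℙ F (Fin 2 → F)) = P0 := by
      have := congrArg (fun f : Fin 3 ↪ ℙ F (Fin 2 → F) => f 0) hg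
      exact this
    have h1 : g • (P1 : ℙ F (Fin 2 → F)) = P1 := by
      have := congrArg (fun f : Fin 3 ↪ ℙ F (Fin 2 → F) => f 1) hg
      exact this
    have h2 : g • (Pd 1 : ℙ F (Fin 2 → F)) = Pd d := by
      have := congrArg (fun f : Fin 3 ↪ ℙ F (Fin 2 → F) => f 2) hg
      exact this
    unfold P0 at h0
    unfold P1 at h1
    unfold Pd at h2
    rw [Projectivization.smul_mk, mk_eq_mk_iff_D] at h0 h1 h2
    obtain ⟨e10, e01, e00⟩ := entries_of_fix (g : Matrix (Fin 2) (Fin 2) F) d h0 h1 h2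
    have hdet := g.2
    rw [Matrix.det_fin_two, e10, e01] at hdet
    apply hd
    refine ⟨(g : Matrix (Fin 2) (Fin 2) F) 1 1, ?_⟩
    linear_combination (-d) * hdet + (g : Matrix (Fin 2) (Fin 2) F) 1 1 * e00
  · intro hchar
    rw [MulAction.isMultiplyPretransitive_iff]
    intro x y
    obtain ⟨g, hg⟩ := exists_GL x y
    have hdet : (g : Matrix (Fin 2) (Fin 2) F).det ≠ 0 := by
      have := g.det.ne_zero
      simpa using this
    obtain ⟨k, hk⟩ := FiniteField.isSquare_of_char_two hchar (g : Matrix (Fin 2) (Fin 2) F).det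
    have hk0 : k ≠ 0 := by
      rintro rfl
      apply hdet
      rw [hk]; ring
    have hdet1 : (k⁻¹ • (g : Matrix (Fin 2) (Fin 2) F)).det = 1 := by
      rw [Matrix.det_smul, Fintype.card_fin, hk]
      field_simp
    obtain ⟨s, hs⟩ : ∃ s : Matrix.SpecialLinearGroup (Fin 2) F,
        (s : Matrix (Fin 2) (Fin 2) F) = k⁻¹ • (g : Matrix (Fin 2) (Fin 2) F) := ⟨⟨_, hdet1⟩, rfl⟩
    refine ⟨s, ?_⟩
    ext i
    rw [Function.Embedding.smul_apply, ← hg i]
    generalize x i = a
    induction a using Projectivization.ind with | _ u hu =>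
    rw [Projectivization.smul_mk, Projectivization.smul_mk, Projectivization.mk_eq_mk_iff']
    refine ⟨k⁻¹, ?_⟩
    change k⁻¹ • ((g : Matrix (Fin 2) (Fin 2) F).mulVec u) =
      (s : Matrix (Fin 2) (Fin 2) F).mulVec u
    rw [hs, Matrix.smul_mulVec]

end Cfsg.Agent.S0267
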