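import Cfsg.Statements.S0272
import Cfsg.Agent.S0258

set_option autoImplicit false
open Cfsg

namespace Cfsg.Agent.S0272
open Cfsg.Agent.Lib.Helper6GL2

/-- The normaliser in GL_2(q) of a Sylow p-subgroup, p the characteristic, has order q (q-1)^2. -/
theorem result {F : Type*} [Field F] [Fintype F] {q : ℕ} (hF : Fintype.card F = q) (p : ℕ) [Fact p.Prime] [CharP F p] (P : Sylow p (Matrix.GeneralLinearGroup (Fin 2) F)) : Nat.card (Subgroup.normalizer ((P : Subgroup (Matrix.GeneralLinearGroup (Fin 2) F)) : Set (Matrix.GeneralLinearGroup (Fin 2) F))) = q * (q - 1) ^ 2 := by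
  have h1 := Cfsg.Agent.S0258.result hF p
  rw [Sylow.card_eq_index_normalizer P] at h1
  have h := Subgroup.card_mul_index
    (Subgroup.normalizer ((P : Subgroup (GL (Fin 2) F)) : Set (GL (Fin 2) F)))
  have h1' : (Subgroup.normalizer ((P : Subgroup (GL (Fin 2) F)) : Set (GL (Fin 2) F))).index
      = q + 1 := h1
  rw [h1', card_GL2, hF] at h
  have hq : 1 < q := hF ▸ Fintype.one_lt_card
  obtain ⟨r, rfl⟩ : ∃ r, q = r + 2 := ⟨q - 2, by omega⟩
  have h1 : (r + 2) ^ 2 - 1 = (r + 1) * (r + 3) := by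
    apply Nat.sub_eq_of_eq_add; ring
  have h2 : (r + 2) ^ 2 - (r + 2) = (r + 1) * (r + 2) := by
    apply Nat.sub_eq_of_eq_add; ring
  have h3 : r + 2 - 1 = r + 1 := by omega
  rw [h1, h2] at h
  rw [h3]
  apply Nat.eq_of_mul_eq_mul_right (show 0 < r + 2 + 1 by omega)
  rw [h]
  ring

end Cfsg.Agent.S0272
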