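import Cfsg.Statements.S0273
import Cfsg.Agent.Lib.Helper6GL2

set_option autoImplicit false
open Cfsg

namespace Cfsg.Agent.S0273
open Cfsg.Agent.Lib.Helper6GL2 Cfsg.Agent.Lib.Helper6Syl

variable {F : Type*} [Field F]

theorem mem_centralizer_u (b : F) (hb : b ≠ 0) (k : GL (Fin 2) F) :
    k ∈ Subgroup.centralizer ({u b} : Set (GL (Fin 2) F)) ↔ k.1 1 0 = 0 ∧ k.1 0 0 = k.1 1 1 := by
  rw [Subgroup.mem_centralizer_singleton_iff]
  constructor
  · intro h
    have h0 := entry_zero_of_comm k b b hb h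
    refine ⟨h0, ?_⟩
    have := congrArg (fun g : GL (Fin 2) F => g.1 0 1) h
    simp [Matrix.mul_apply, Fin.sum_univ_two] at this
    have h2 : (k.1 0 0 - k.1 1 1) * b = 0 := by linear_combination this
    rcases mul_eq_zero.1 h2 with h3 | h3
    · exact sub_eq_zero.1 h3
    · exact absurd h3 hb
  · rintro ⟨h0, h1⟩
    exact comm_of_entry_zero k h0 b b (by rw [h1]; ring)

noncomputable def centEquiv : {k : GL (Fin 2) F // k.1 1 0 = 0 ∧ k.1 0 0 = k.1 1 1} ≃ Fˣ × F where
  toFun k := (Units.mk0 (k.1.1 0 0) (diag_ne_zero k.1 k.2.1).1, k.1.1 0 1)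
  invFun x := ⟨Matrix.GeneralLinearGroup.mkOfDetNeZero !![(x.1 : F), x.2; 0, (x.1 : F)]
    (by simp [Matrix.det_fin_two]), by simp [Matrix.GeneralLinearGroup.mkOfDetNeZero]⟩
  left_inv k := by
    apply Subtype.ext
    ext i j
    fin_cases i <;> fin_cases j <;> simp [Matrix.GeneralLinearGroup.mkOfDetNeZero, k.2.1, k.2.2]
  right_inv x := by
    obtain ⟨a, b⟩ := x
    simp [Matrix.GeneralLinearGroup.mkOfDetNeZero]

theorem card_centralizer_u [Fintype F] (b : F) (hb : b ≠ 0) :
    Nat.card (Subgroup.centralizer ({u b} : Set (GL (Fin 2) F)))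
      = (Fintype.card F - 1) * Fintype.card F := by
  have e : (Subgroup.centralizer ({u b} : Set (GL (Fin 2) F)))
      ≃ {k : GL (Fin 2) F // k.1 1 0 = 0 ∧ k.1 0 0 = k.1 1 1} :=
    Equiv.subtypeEquivRight (fun k => mem_centralizer_u b hb k)
  rw [Nat.card_congr (e.trans centEquiv), Nat.card_prod, Nat.card_units, Nat.card_eq_fintype_card]

theorem card_centralizer_conj {G : Type*} [Group G] (g x : G) :
    Nat.card (Subgroup.centralizer ({g * x * g⁻¹} : Set G))
      = Nat.card (Subgroup.centralizer ({x} : Set G)) := by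
  apply Nat.card_congr
  refine ⟨fun k => ⟨g⁻¹ * k.1 * g, ?_⟩, fun k => ⟨g * k.1 * g⁻¹, ?_⟩, ?_, ?_⟩
  · have := Subgroup.mem_centralizer_singleton_iff.1 k.2
    rw [Subgroup.mem_centralizer_singleton_iff]
    have h2 : g⁻¹ * k.1 * g * x = g⁻¹ * (k.1 * (g * x * g⁻¹)) * g := by group
    rw [h2, this]; group
  · have := Subgroup.mem_centralizer_singleton_iff.1 k.2
    rw [Subgroup.mem_centralizer_singleton_iff]
    have h2 : g * k.1 * g⁻¹ * (g * x * g⁻¹) = g * (k.1 * x) * g⁻¹ := by group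
    rw [h2, this]; group
  · intro k; apply Subtype.ext; simp only; group
  · intro k; apply Subtype.ext; simp only; group

/-- In GL_2(q) the centraliser of a non-trivial element of a Sylow p-subgroup (p the characteristic) has order q (q-1): the Sylow subgroup times the scalars. -/
theorem result {F : Type*} [Field F] [Fintype F] {q : ℕ} (hF : Fintype.card F = q) (p : ℕ) [Fact p.Prime] [CharP F p] (P : Sylow p (Matrix.GeneralLinearGroup (Fin 2) F)) (a : Matrix.GeneralLinearGroup (Fin 2) F) (ha : a ∈ P) (ha1 : a ≠ 1) : Nat.card (Subgroup.centralizer ({a} : Set (Matrix.GeneralLinearGroup (Fin 2) F))) = q * (q - 1) := by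
  obtain ⟨g, rfl⟩ := MulAction.exists_smul_eq (GL (Fin 2) F) (sylU p) P
  have h1 : g⁻¹ * a * g ∈ (U : Subgroup (GL (Fin 2) F)) := (mem_smul_sylow_iff g a (sylU p)).1 ha
  obtain ⟨b, hb⟩ := (mem_U _).1 h1
  have hb0 : b ≠ 0 := by
    rintro rfl
    apply ha1
    have h2 : g⁻¹ * a * g = 1 := by rw [← hb]; exact AddChar.map_zero_eq_one _
    have : a = g * (g⁻¹ * a * g) * g⁻¹ := by group
    rw [this, h2]; group
  have h3 : a = g * u b * g⁻¹ := by rw [hb]; group
  rw [h3, card_centralizer_conj, card_centralizer_u b hb0, hF, mul_comm]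

end Cfsg.Agent.S0273
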