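import Cfsg.Statements.S0275
import Mathlib
import Cfsg.Agent.S0016
import Cfsg.Agent.Lib.Helper13SL2b

set_option autoImplicit false
open Cfsg

namespace Cfsg.Agent.S0275


open Cfsg.Agent.Lib.Helper46SL2 Cfsg.Agent.Lib.Helper41SL2
open Cfsg.Agent.Lib.Helper13SL2 Cfsg.Agent.Lib.Helper13SL2b
open scoped Pointwise

local notation "SL2" => Matrix.SpecialLinearGroup (Fin 2)

/-- the Sylow `2`-subgroups are not commutative. -/
theorem not_comm {F : Type*} [Field F] [Fintype F] (p : ℕ) [Fact p.Prime] [CharP F p] (hp : p ≠ 2)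
    (H : Subgroup (SL2 F)) (hH : 1 < Nat.card (Sylow p H)) (S : Sylow 2 H) :
    ¬ ∀ x y : H, x ∈ S → y ∈ S → x * y = y * x := by
  intro hS
  set X : Subgroup (SL2 F) := Subgroup.closure {s : SL2 F | s ∈ H ∧ s ^ p = 1} with hX
  have hXH : X ≤ H := by
    rw [hX, Subgroup.closure_le]
    intro s hs
    exact hs.1
  have hgen : ∀ N : Subgroup X, (∀ s : X, s ^ p = 1 → s ∈ N) → N = ⊤ := by
    intro N hN
    have h1 : X ≤ N.map X.subtype := by
      conv_lhs => rw [hX]
      rw [Subgroup.closure_le]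
      intro s hs
      have hsX : s ∈ X := Subgroup.subset_closure hs
      exact ⟨⟨s, hsX⟩, hN ⟨s, hsX⟩ (Subtype.ext hs.2), rfl⟩
    rw [eq_top_iff]
    intro y _
    obtain ⟨z, hz, hzy⟩ := h1 y.2
    have : z = y := Subtype.ext hzy
    rwa [← this]
  obtain ⟨T⟩ : Nonempty (Sylow 2 X) := inferInstance
  have hT : ∀ x y : X, x ∈ T → y ∈ T → x * y = y * x := by
    obtain ⟨S', hS'⟩ := (T.2.map (Subgroup.inclusion hXH)).exists_le_sylow
    obtain ⟨g, hg⟩ := MulAction.exists_smul_eq H S S'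
    intro x y hx hy
    have hx' : Subgroup.inclusion hXH x ∈ S' := hS' ⟨x, hx, rfl⟩
    have hy' : Subgroup.inclusion hXH y ∈ S' := hS' ⟨y, hy, rfl⟩
    rw [← hg] at hx' hy'
    replace hx' : Subgroup.inclusion hXH x ∈ MulAut.conj g • (S : Subgroup H) := hx'
    replace hy' : Subgroup.inclusion hXH y ∈ MulAut.conj g • (S : Subgroup H) := hy'
    obtain ⟨x₁, hx₁, hxx⟩ := Subgroup.mem_pointwise_smul_iff_inv_smul_mem.mp hx' |> fun h =>
      (⟨_, h, rfl⟩ : ∃ z, z ∈ (S : Subgroup H) ∧ z = (MulAut.conj g)⁻¹ • Subgroup.inclusion hXH x)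
    obtain ⟨y₁, hy₁, hyy⟩ := Subgroup.mem_pointwise_smul_iff_inv_smul_mem.mp hy' |> fun h =>
      (⟨_, h, rfl⟩ : ∃ z, z ∈ (S : Subgroup H) ∧ z = (MulAut.conj g)⁻¹ • Subgroup.inclusion hXH y)
    have h3 := hS x₁ y₁ hx₁ hy₁
    rw [hxx, hyy, ← smul_mul', ← smul_mul'] at h3
    have h4 := smul_left_cancel _ h3
    apply Subtype.ext
    exact congrArg (fun z : H => (z : SL2 F)) h4
  have hP : IsPGroup p X := isPGroup_of_abelian_sylow_two (p := p) X hp hgen T hT
  have hP' : IsPGroup p (X.subgroupOf H) :=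
    hP.of_equiv (Subgroup.subgroupOfEquivOfLe hXH).symm
  have hall : ∀ P : Sylow p H, (P : Subgroup H) = X.subgroupOf H := by
    intro P
    have hle : (P : Subgroup H) ≤ X.subgroupOf H := by
      intro x hx
      obtain ⟨k, hk⟩ := P.2 ⟨x, hx⟩
      have hk' : (x : SL2 F) ^ p ^ k = 1 := by
        have := congrArg (fun z : (P : Subgroup H) => ((z : H) : SL2 F)) hk
        simpa using this
      have h1 : (x : SL2 F) ^ p = 1 := pow_p_of_tr_two _ (tr_eq_two_of_pow _ k hk')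
      exact Subgroup.subset_closure ⟨x.2, h1⟩
    exact (P.3 hP' hle).symm
  haveI : Subsingleton (Sylow p H) := ⟨fun P Q => Sylow.ext ((hall P).trans (hall Q).symm)⟩
  have : Nat.card (Sylow p H) ≤ 1 := Finite.card_le_one_iff_subsingleton.mpr inferInstance
  omega

/-- If p is odd and H is a subgroup of SL_2(q), q a power of p, with more than one Sylow p-subgroup, then the Sylow 2-subgroups of H are generalised quaternion. -/
theorem result {F : Type*} [Field F] [Fintype F] (p : ℕ) [Fact p.Prime] [CharP F p] (hp : p ≠ 2) (H : Subgroup (Matrix.SpecialLinearGroup (Fin 2) F)) (hH : 1 < Nat.card (Sylow p H)) (S : Sylow 2 H) : ∃ k : ℕ, 1 ≤ k ∧ Nonempty ((S : Subgroup H) ≃* QuaternionGroup (2 ^ k)) := by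
  have h2 : (2 : F) ≠ 0 := two_ne_zero' (F := F) hp
  have hna := not_comm p hp H hH S
  have hchar : ∀ A : Subgroup (S : Subgroup H), Nat.card A = 2 →
      ∀ x : (S : Subgroup H), x ∈ A ↔ ((x : H) : SL2 F) = 1 ∨ ((x : H) : SL2 F) = -1 := by
    intro A hA
    have hfw : ∀ x : (S : Subgroup H), x ∈ A → ((x : H) : SL2 F) = 1 ∨ ((x : H) : SL2 F) = -1 := by
      intro x hx
      have h1 : (⟨x, hx⟩ : A) ^ 2 = 1 := by
        have := pow_card_eq_one' (x := (⟨x, hx⟩ : A))
        rwa [hA] at this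
      have h3 : ((x : H) : SL2 F) * ((x : H) : SL2 F) = 1 := by
        have := congrArg (fun z : A => (((z : (S : Subgroup H)) : H) : SL2 F)) h1
        simpa [pow_two] using this
      exact (sq_eq_one_iff' h2).mp h3
    intro x
    refine ⟨hfw x, ?_⟩
    rintro (h | h)
    · have : x = 1 := Subtype.ext (Subtype.ext h)
      rw [this]; exact A.one_mem
    · haveI : Nontrivial A := by
        rw [← Finite.one_lt_card_iff_nontrivial, hA]; norm_num
      obtain ⟨y, hy⟩ := exists_ne (1 : A)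
      rcases hfw y y.2 with h' | h'
      · exact absurd (Subtype.ext (Subtype.ext (Subtype.ext h'))) hy
      · have : x = y := Subtype.ext (Subtype.ext (h.trans h'.symm))
        rw [this]; exact y.2
  have huniq : ∀ A B : Subgroup (S : Subgroup H), Nat.card A = 2 → Nat.card B = 2 → A = B := by
    intro A B hA hB
    ext x
    rw [hchar A hA, hchar B hB]
  rcases Cfsg.Agent.S0016.result 2 S.2 huniq with hc | ⟨-, n, ⟨e⟩⟩
  · exfalso
    apply hna
    intro x y hx hy
    obtain ⟨g, hg⟩ := hc.exists_generator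
    obtain ⟨i, hi⟩ := Subgroup.mem_zpowers_iff.mp (hg ⟨x, hx⟩)
    obtain ⟨j, hj⟩ := Subgroup.mem_zpowers_iff.mp (hg ⟨y, hy⟩)
    have : (⟨x, hx⟩ : (S : Subgroup H)) * ⟨y, hy⟩ = ⟨y, hy⟩ * ⟨x, hx⟩ := by
      rw [← hi, ← hj, ← zpow_add, ← zpow_add, add_comm]
    exact congrArg Subtype.val this
  · rcases Nat.eq_zero_or_pos n with rfl | hn
    · exfalso
      apply hna
      intro x y hx hy
      have hc : IsCyclic (QuaternionGroup (2 ^ 0)) := by
        rw [pow_zero]; exact QuaternionGroup.quaternionGroup_one_isCyclic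
      obtain ⟨g, hg⟩ := hc.exists_generator
      obtain ⟨i, hi⟩ := Subgroup.mem_zpowers_iff.mp (hg (e ⟨x, hx⟩))
      obtain ⟨j, hj⟩ := Subgroup.mem_zpowers_iff.mp (hg (e ⟨y, hy⟩))
      have : e ((⟨x, hx⟩ : (S : Subgroup H)) * ⟨y, hy⟩) = e (⟨y, hy⟩ * ⟨x, hx⟩) := by
        rw [map_mul, map_mul, ← hi, ← hj, ← zpow_add, ← zpow_add, add_comm]
      exact congrArg Subtype.val (e.injective this)
    · exact ⟨n, hn, ⟨e⟩⟩

end Cfsg.Agent.S0275
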