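import Cfsg.Statements.S0281
import Mathlib
import Cfsg.Agent.Lib.Helper18Herm
import Cfsg.Agent.Lib.Helper18Field
import Cfsg.Agent.Lib.Helper7SU
import Cfsg.Agent.Lib.Helper7SL

set_option autoImplicit false
open Cfsg

namespace Cfsg.Agent.S0281

open Matrix Cfsg.Agent.Lib.Helper18Herm

theorem exists_P {F : Type*} [Field F] [Fintype F] {q : ℕ} (hF : Fintype.card F = q ^ 2) :
    ∃ P : Matrix (Fin 2) (Fin 2) F, P.det ≠ 0 ∧
      ∃ β : F, Pᵀ * P.map (fun x => x ^ q) = !![0, β; -β, 0] := by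
  classical
  have hq := one_lt_q hF
  have h1 := card_norm_fibre hF (-1) (by rw [neg_pow_q hF, one_pow]) (by simp)
  obtain ⟨l, hl, m, hm, hlm⟩ := Finset.one_lt_card.1 (by rw [h1]; omega :
    1 < (Finset.univ.filter (fun a : F => a ^ (q + 1) = -1)).card)
  simp only [Finset.mem_filter, Finset.mem_univ, true_and] at hl hm
  have h2 := card_trace_fibre hF 0 (zero_pow (by omega))
  obtain ⟨b0, hb0, hb0'⟩ : ∃ b : F, b ≠ 0 ∧ b + b ^ q = 0 := by
    obtain ⟨x, hx, y, hy, hxy⟩ := Finset.one_lt_card.1 (by rw [h2]; omega :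
      1 < (Finset.univ.filter (fun a : F => a + a ^ q = 0)).card)
    simp only [Finset.mem_filter, Finset.mem_univ, true_and] at hx hy
    by_cases hx0 : x = 0
    · exact ⟨y, fun h => hxy (by rw [hx0, h]), hy⟩
    · exact ⟨x, hx0, hx⟩
  have hm0 : m ≠ 0 := by
    rintro rfl
    rw [zero_pow (by omega)] at hm
    exact absurd hm (by simp)
  set t : F := 1 + l * m ^ q with ht
  have ht0 : t ≠ 0 := by
    intro h0
    apply hlm
    have e1 : l * m ^ q = m * m ^ q := by
      rw [← pow_succ', hm]; linear_combination h0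
    exact mul_right_cancel₀ (pow_ne_zero q hm0) e1
  have htq : t ^ q = 1 + m * l ^ q := by
    rw [ht, add_pow_q hF, one_pow, mul_pow, pow_q_q hF, mul_comm]
  set c : F := (b0 / t) ^ q with hc
  have hcq : c ^ q = b0 / t := pow_q_q hF _
  have hc0 : c ≠ 0 := pow_ne_zero q (div_ne_zero hb0 ht0)
  refine ⟨!![1, c; l, c * m], ?_, b0, ?_⟩
  · rw [Matrix.det_fin_two_of]
    have : (1 : F) * (c * m) - c * l = c * (m - l) := by ring
    rw [this]
    exact mul_ne_zero hc0 (sub_ne_zero.2 (Ne.symm hlm))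
  · ext i j
    fin_cases i <;> fin_cases j
    · simp [Matrix.mul_apply, Fin.sum_univ_two]
      rw [← pow_succ', hl]; ring
    · simp [Matrix.mul_apply, Fin.sum_univ_two]
      rw [mul_pow, hcq]
      field_simp
      rw [ht]
    · simp [Matrix.mul_apply, Fin.sum_univ_two]
      have : c + c * m * l ^ q = c * t ^ q := by rw [htq]; ring
      rw [this, hc, ← mul_pow, div_mul_cancel₀ _ ht0]
      linear_combination hb0'
    · simp [Matrix.mul_apply, Fin.sum_univ_two]
      rw [mul_pow]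
      have : c * c ^ q + c * m * (c ^ q * m ^ q) = c * c ^ q * (1 + m ^ (q + 1)) := by ring
      rw [this, hm]; ring

theorem alt_conj {F : Type*} [Field F] (M : Matrix (Fin 2) (Fin 2) F) (β : F) :
    Mᵀ * !![0, β; -β, 0] * M = M.det • !![0, β; -β, 0] := by
  ext i j
  fin_cases i <;> fin_cases j <;>
    simp [Matrix.mul_apply, Fin.sum_univ_two, Matrix.det_fin_two] <;> ring

/-- conjugation by `P` after extension of scalars -/
noncomputable def Phi {F K : Type*} [Field F] [Field K] (P : Matrix (Fin 2) (Fin 2) F)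
    (hP : IsUnit P.det) (ι : K →+* F) :
    Matrix.SpecialLinearGroup (Fin 2) K →* Matrix.SpecialLinearGroup (Fin 2) F where
  toFun A := ⟨P * (Matrix.SpecialLinearGroup.map ι A).1 * P⁻¹, by
    rw [Matrix.det_conj ((Matrix.isUnit_iff_isUnit_det P).2 hP),
      (Matrix.SpecialLinearGroup.map ι A).2]⟩
  map_one' := Subtype.ext (by
    simp [Matrix.mul_nonsing_inv P hP])
  map_mul' A B := Subtype.ext (by
    simp only [map_mul, Matrix.SpecialLinearGroup.coe_mul]
    calc P * ((Matrix.SpecialLinearGroup.map ι A).1 * (Matrix.SpecialLinearGroup.map ι B).1) * P⁻¹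
        = P * (Matrix.SpecialLinearGroup.map ι A).1 * 1 * (Matrix.SpecialLinearGroup.map ι B).1 * P⁻¹ := by
          simp only [Matrix.mul_one, Matrix.mul_assoc]
      _ = (P * (Matrix.SpecialLinearGroup.map ι A).1 * P⁻¹)
            * (P * (Matrix.SpecialLinearGroup.map ι B).1 * P⁻¹) := by
          rw [← Matrix.nonsing_inv_mul P hP]
          simp only [Matrix.mul_assoc])

theorem Phi_coe {F K : Type*} [Field F] [Field K] (P : Matrix (Fin 2) (Fin 2) F)
    (hP : IsUnit P.det) (ι : K →+* F) (A : Matrix.SpecialLinearGroup (Fin 2) K) :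
    (Phi P hP ι A).1 = P * (A.1.map ι) * P⁻¹ := rfl

theorem Phi_injective {F K : Type*} [Field F] [Field K] (P : Matrix (Fin 2) (Fin 2) F)
    (hP : IsUnit P.det) (ι : K →+* F) : Function.Injective (Phi P hP ι) := by
  intro A B h
  have h1 := congrArg Subtype.val h
  rw [Phi_coe, Phi_coe] at h1
  have h2 : A.1.map ι = B.1.map ι := by
    have := congrArg (fun X => P⁻¹ * X * P) h1
    simp only [Matrix.mul_assoc, Matrix.nonsing_inv_mul P hP, Matrix.mul_one] at this
    simp only [← Matrix.mul_assoc, Matrix.nonsing_inv_mul P hP, Matrix.one_mul] at this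
    exact this
  exact Subtype.ext (Matrix.map_injective ι.injective h2)

/-- SU_2(q) is isomorphic to SL_2(q). -/
theorem result {F K : Type*} [Field F] [Fintype F] [Field K] [Fintype K] {q : ℕ} (hF : Fintype.card F = q ^ 2) (hK : Fintype.card K = q) : Nonempty (Cfsg.SU 2 F q ≃* Matrix.SpecialLinearGroup (Fin 2) K) := by
  classical
  obtain ⟨ι⟩ := Cfsg.Agent.Lib.Helper18Field.exists_ringHom (K := K) (F := F) 2 (by rw [hK, hF])
  obtain ⟨P, hPdet, β, hβ⟩ := exists_P hF
  have hP : IsUnit P.det := isUnit_iff_ne_zero.2 hPdet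
  have hq := one_lt_q hF
  have hι : ∀ x : K, (ι x) ^ q = ι x := by
    intro x
    rw [← map_pow, ← hK, FiniteField.pow_card]
  have hmap : ∀ X : Matrix (Fin 2) (Fin 2) F, X.map (fun x => x ^ q) = (sig hF).mapMatrix X := by
    intro X; rfl
  have hmem : ∀ A, Phi P hP ι A ∈ Cfsg.SU 2 F q := by
    intro A
    rw [Cfsg.Agent.Lib.Helper7SU.mem_SU_iff hF]
    unfold Cfsg.Agent.Lib.Helper7GU.IsU
    rw [Phi_coe, hmap, map_mul, map_mul, ← hmap, ← hmap, ← hmap]
    have hA : (A.1.map ι).map (fun x => x ^ q) = A.1.map ι := by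
      ext i j; simp [hι]
    rw [hA, Matrix.transpose_mul, Matrix.transpose_mul]
    have hdet : (A.1.map ι).det = 1 := (Matrix.SpecialLinearGroup.map ι A).2
    have key : (A.1.map ι)ᵀ * (Pᵀ * P.map (fun x => x ^ q)) * (A.1.map ι)
        = Pᵀ * P.map (fun x => x ^ q) := by
      rw [hβ, alt_conj, hdet, one_smul]
    calc P⁻¹ᵀ * ((A.1.map ι)ᵀ * Pᵀ) * (P.map (fun x => x ^ q) * A.1.map ι * P⁻¹.map (fun x => x ^ q))
        = P⁻¹ᵀ * ((A.1.map ι)ᵀ * (Pᵀ * P.map (fun x => x ^ q)) * (A.1.map ι))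
            * P⁻¹.map (fun x => x ^ q) := by simp only [Matrix.mul_assoc]
      _ = (P⁻¹ᵀ * Pᵀ) * (P.map (fun x => x ^ q) * P⁻¹.map (fun x => x ^ q)) := by
          rw [key]; simp only [Matrix.mul_assoc]
      _ = 1 := by
          rw [← Matrix.transpose_mul, Matrix.mul_nonsing_inv P hP, hmap, hmap, ← map_mul,
            Matrix.mul_nonsing_inv P hP]
          simp
  let Ψ : Matrix.SpecialLinearGroup (Fin 2) K →* ↥(Cfsg.SU 2 F q) :=
    (Phi P hP ι).codRestrict _ hmem
  have hinj : Function.Injective Ψ := by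
    intro A B h
    exact Phi_injective P hP ι (congrArg Subtype.val h)
  have hcard : Nat.card (Matrix.SpecialLinearGroup (Fin 2) K) = Nat.card ↥(Cfsg.SU 2 F q) := by
    have h1 := Cfsg.Agent.Lib.Helper7SU.card_SU_mul (n := 2) hF (by norm_num)
    rw [Cfsg.Agent.Lib.Helper7GU.card_GU hF 2] at h1
    rw [Cfsg.Agent.Lib.Helper7SL.card_SL_two, hK]
    generalize Nat.card ↥(Cfsg.SU 2 F q) = N at h1 ⊢
    simp only [Finset.prod_range_succ, Finset.prod_range_zero] at h1
    norm_num at h1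
    have h2 : (q + 1) * N = (q + 1) * (q * (q ^ 2 - 1)) := by
      rw [h1]; ring
    exact (Nat.eq_of_mul_eq_mul_left (by omega) h2).symm
  have hbij : Function.Bijective Ψ := by
    have : Finite ↥(Cfsg.SU 2 F q) := inferInstance
    rw [Nat.bijective_iff_injective_and_card]
    exact ⟨hinj, hcard⟩
  exact ⟨(MulEquiv.ofBijective Ψ hbij).symm⟩

end Cfsg.Agent.S0281
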