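import Cfsg.Statements.S0291
import Mathlib
import Cfsg.Agent.Lib.Helper7QForms

set_option autoImplicit false
open Cfsg

namespace Cfsg.Agent.S0291

/-- For q odd, the form x_0^2 + sum_{i<m} x_i y_i on F^(2m+1) has exactly q^(2m) zeros. -/
theorem result {F : Type*} [Field F] [Fintype F] {q : ℕ} (hF : Fintype.card F = q) (hodd : Odd q) (m : ℕ) : Nat.card {v : Unit ⊕ (Fin m ⊕ Fin m) → F // Cfsg.quadFormOdd m F v = 0} = q ^ (2 * m) := by
  rw [Cfsg.Agent.Lib.Helper7QForms.card_odd, Cfsg.Agent.Lib.Helper7QForms.cntQ_odd_zero, hF]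

end Cfsg.Agent.S0291
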