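import Cfsg.Statements.S0292
import Mathlib
import Cfsg.Agent.Lib.Helper7OCenter
import Cfsg.Agent.Lib.Helper7OOdd
import Cfsg.Agent.Lib.Helper7Witt
import Cfsg.Agent.Lib.Helper49Forms

set_option autoImplicit false
open Cfsg

namespace Cfsg.Agent.S0292

/-- 2 |PΩ_{2m+1}(q)| = q^(m^2) prod_{i=1}^{m} (q^(2i) - 1), for q odd and m at least 3 (type B_m). -/
theorem result {F : Type*} [Field F] [Fintype F] {q : ℕ} (hF : Fintype.card F = q) (hodd : Odd q) (m : ℕ) (hm : 3 ≤ m) : 2 * Nat.card (Cfsg.POmega F (Cfsg.quadFormOdd m F)) = q ^ (m ^ 2) * ∏ i ∈ Finset.range m, (q ^ (2 * (i + 1)) - 1) := by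
  classical
  subst hF
  have h2 : (2 : F) ≠ 0 := Lib.Helper49Forms.two_ne_zero_of_odd rfl hodd
  have hfun : ⇑(Lib.Helper7OOdd.QO F m) = Cfsg.quadFormOdd m F :=
    funext (Lib.Helper7OOdd.QO_apply m)
  have hQ := Lib.Helper7Witt.nondegenerate_of (Lib.Helper7OOdd.nondeg (F := F) m h2)
  have hcard : Fintype.card (Unit ⊕ (Fin m ⊕ Fin m)) = 2 * m + 1 := by
    simp; ring
  have hq : Fintype.card F ≠ 2 ∨ Fintype.card (Unit ⊕ (Fin m ⊕ Fin m)) ≠ 4 := by
    right; rw [hcard]; omega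
  have hfr := Lib.Helper7OCenter.isFrame_castLE (Lib.Helper7OOdd.isFrame_std (F := F) m) hm
  have hidx := Lib.Helper49Idx.index_Omega (Lib.Helper7OOdd.QO F m) h2 hQ (by rw [hcard]; omega)
  have hcen := Lib.Helper7OCenter.card_center_eq_one hQ hq _ hfr (by
    intro g hg hg1
    have hker : g ∈ (Lib.Helper49Orth.detO (Lib.Helper7OOdd.QO F m)).ker :=
      Abelianization.commutator_subset_ker _ hg
    rw [MonoidHom.mem_ker] at hker
    have hdet := congrArg Units.val hker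
    rw [Lib.Helper49Orth.detO_apply, hg1, Matrix.det_neg, Matrix.det_one, hcard] at hdet
    simp only [Units.val_one, mul_one] at hdet
    rw [Odd.neg_one_pow ⟨m, rfl⟩] at hdet
    linear_combination -hdet)
  have hmain := Lib.Helper7OCenter.card_mul_mul (F := F) (⇑(Lib.Helper7OOdd.QO F m))
  rw [hcen, hidx, hfun, Lib.Helper7OOdd.card_isometryGroup_odd m hodd] at hmain
  generalize Nat.card (POmega F (quadFormOdd m F)) = P at hmain ⊢
  rw [mul_assoc 2] at hmain
  generalize Fintype.card F ^ m ^ 2 * ∏ i ∈ Finset.range m, (Fintype.card F ^ (2 * (i + 1)) - 1) = X at hmain ⊢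
  omega

end Cfsg.Agent.S0292
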