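import Cfsg.Statements.S0294
import Mathlib
import Cfsg.Agent.Lib.Helper7OCenter
import Cfsg.Agent.Lib.Helper7OMinus
import Cfsg.Agent.Lib.Helper7Witt
import Cfsg.Agent.Lib.Helper49Forms
import Cfsg.Agent.S0791

set_option autoImplicit false
open Cfsg

namespace Cfsg.Agent.S0294

/-- gcd(4, q^m + 1) |PΩ^-_{2m}(q)| = q^(m(m-1)) (q^m + 1) prod_{i=1}^{m-1} (q^(2i) - 1), m at least 4 (type ²D_m). -/
theorem result {F : Type*} [Field F] [Fintype F] {q : ℕ} (hF : Fintype.card F = q) (m : ℕ) (hm : 4 ≤ m) (a b : F) (hab : ∀ z₁ z₂ : F, z₁ ^ 2 + a * z₁ * z₂ + b * z₂ ^ 2 = 0 → z₁ = 0 ∧ z₂ = 0) : Nat.gcd 4 (q ^ m + 1) * Nat.card (Cfsg.POmega F (Cfsg.quadFormMinus (m - 1) F a b)) = q ^ (m * (m - 1)) * (q ^ m + 1) * ∏ i ∈ Finset.range (m - 1), (q ^ (2 * (i + 1)) - 1) := by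
  classical
  subst hF
  obtain ⟨k, rfl⟩ : ∃ k, m = k + 1 := ⟨m - 1, by omega⟩
  have hiff0 : Odd (Fintype.card F) →
      ((∃ g : ↥(Cfsg.isometryGroup F (Cfsg.quadFormMinus k F a b)),
        g ∈ Cfsg.Omega F (Cfsg.quadFormMinus k F a b) ∧
        ((g : Matrix.GeneralLinearGroup ((Fin k ⊕ Fin k) ⊕ Fin 2) F) :
          Matrix ((Fin k ⊕ Fin k) ⊕ Fin 2) ((Fin k ⊕ Fin k) ⊕ Fin 2) F) = -1)
        ↔ Fintype.card F ^ (k + 1) % 4 = 3) :=
    fun hodd => Cfsg.Agent.S0791.result (F := F) rfl hodd (k + 1) (by omega) a b hab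
  show Nat.gcd 4 (Fintype.card F ^ (k + 1) + 1) * Nat.card (POmega F (quadFormMinus k F a b))
    = Fintype.card F ^ ((k + 1) * k) * (Fintype.card F ^ (k + 1) + 1)
      * ∏ i ∈ Finset.range k, (Fintype.card F ^ (2 * (i + 1)) - 1)
  have hD := Lib.Helper7Norm2.disc_ne_zero (a := a) (b := b) hab
  have hfun : ⇑(Lib.Helper7OMinus.QM F k a b) = Cfsg.quadFormMinus k F a b :=
    funext (Lib.Helper7OMinus.QM_apply k a b)
  have hQ := Lib.Helper7Witt.nondegenerate_of (Lib.Helper7OMinus.nondeg (F := F) k a b hD)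
  have hcard : Fintype.card ((Fin k ⊕ Fin k) ⊕ Fin 2) = 2 * k + 2 := by
    simp; ring
  have hq : Fintype.card F ≠ 2 ∨ Fintype.card ((Fin k ⊕ Fin k) ⊕ Fin 2) ≠ 4 := by
    right; rw [hcard]; omega
  have hfr := Lib.Helper7OCenter.isFrame_castLE (Lib.Helper7OMinus.isFrame_std (F := F) k a b)
    (by omega : 3 ≤ k)
  have hmain := Lib.Helper7OCenter.card_mul_mul (F := F) (⇑(Lib.Helper7OMinus.QM F k a b))
  have hq1 : 1 ≤ Fintype.card F ^ (k + 1) := Nat.one_le_pow _ _ Fintype.card_pos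
  by_cases h2 : (2 : F) = 0
  · have hch : CharP F 2 := CharTwo.of_one_ne_zero_of_two_eq_zero one_ne_zero h2
    have heven : Fintype.card F % 2 = 0 :=
      FiniteField.even_card_iff_char_two.1 (ringChar.eq F 2)
    have hidx := Lib.Helper49All.index_Omega_two (Lib.Helper7OMinus.QM F k a b) hQ hq
      (by rw [hcard]; omega)
    have hcen := Lib.Helper7OCenter.card_center_eq_one hQ hq _ hfr (fun _ _ _ => h2)
    rw [hcen, hidx, hfun, Lib.Helper7OMinus.card_isometryGroup_minus k a b hab] at hmain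
    have hpe : Fintype.card F ^ (k + 1) % 2 = 0 := by
      rw [Nat.pow_mod, heven, Nat.zero_pow (by omega)]
    have hg : Nat.gcd 4 (Fintype.card F ^ (k + 1) + 1) = 1 := by
      have hodd : Odd (Fintype.card F ^ (k + 1) + 1) := by
        rw [Nat.odd_iff]; omega
      exact Nat.Coprime.pow_left 2 (Nat.coprime_two_left.2 hodd)
    rw [hg, one_mul]
    generalize Nat.card (POmega F (quadFormMinus k F a b)) = P at hmain ⊢
    rw [mul_assoc 2, mul_assoc 2] at hmain
    generalize Fintype.card F ^ ((k + 1) * k) * (Fintype.card F ^ (k + 1) + 1) * ∏ i ∈ Finset.range k, (Fintype.card F ^ (2 * (i + 1)) - 1) = X at hmain ⊢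
    omega
  · have hodd : Odd (Fintype.card F) := by
      rw [Nat.odd_iff]
      have hne : ringChar F ≠ 2 := Lib.Helper49Idx.ringChar_ne_two h2
      exact FiniteField.odd_card_of_char_ne_two hne
    have hidx := Lib.Helper49Idx.index_Omega (Lib.Helper7OMinus.QM F k a b) h2 hQ
      (by rw [hcard]; omega)
    have hiff := hiff0 hodd
    rw [← hfun] at hiff
    have hpo : Fintype.card F ^ (k + 1) % 2 = 1 := Nat.odd_iff.1 (hodd.pow)
    by_cases h4 : Fintype.card F ^ (k + 1) % 4 = 3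
    · obtain ⟨g0, hg0, hg1⟩ := hiff.2 h4
      have hcen := Lib.Helper7OCenter.card_center_eq_two hQ hq _ hfr h2 g0 hg0 hg1
      rw [hcen, hidx, hfun, Lib.Helper7OMinus.card_isometryGroup_minus k a b hab] at hmain
      have hg : Nat.gcd 4 (Fintype.card F ^ (k + 1) + 1) = 4 := by
        rw [Nat.gcd_rec, show (Fintype.card F ^ (k + 1) + 1) % 4 = 0 by omega]
        rfl
      rw [hg]
      generalize Nat.card (POmega F (quadFormMinus k F a b)) = P at hmain ⊢
      rw [mul_assoc 2, mul_assoc 2] at hmain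
      generalize Fintype.card F ^ ((k + 1) * k) * (Fintype.card F ^ (k + 1) + 1) * ∏ i ∈ Finset.range k, (Fintype.card F ^ (2 * (i + 1)) - 1) = X at hmain ⊢
      omega
    · have hcen := Lib.Helper7OCenter.card_center_eq_one hQ hq _ hfr (by
        intro g hg hg1
        exfalso
        apply h4
        apply hiff.1
        exact ⟨g, hg, hg1⟩)
      rw [hcen, hidx, hfun, Lib.Helper7OMinus.card_isometryGroup_minus k a b hab] at hmain
      have hg : Nat.gcd 4 (Fintype.card F ^ (k + 1) + 1) = 2 := by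
        rw [Nat.gcd_rec, show (Fintype.card F ^ (k + 1) + 1) % 4 = 2 by omega]
        rfl
      rw [hg]
      generalize Nat.card (POmega F (quadFormMinus k F a b)) = P at hmain ⊢
      rw [mul_assoc 2, mul_assoc 2] at hmain
      generalize Fintype.card F ^ ((k + 1) * k) * (Fintype.card F ^ (k + 1) + 1) * ∏ i ∈ Finset.range k, (Fintype.card F ^ (2 * (i + 1)) - 1) = X at hmain ⊢
      omega

end Cfsg.Agent.S0294
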