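import Cfsg.Statements.S0295
import Cfsg.Agent.Lib.Helper49Simple
import Cfsg.Agent.Lib.Helper49OddForm
import Cfsg.Agent.Lib.Helper49Rank

set_option autoImplicit false
open Cfsg

namespace Cfsg.Agent.S0295

/-- PΩ_{2m+1}(q) is simple for q odd and m at least 3. -/
theorem result {F : Type*} [Field F] [Fintype F] (hodd : Odd (Fintype.card F)) (m : ℕ) (hm : 3 ≤ m) : IsSimpleGroup (Cfsg.POmega F (Cfsg.quadFormOdd m F)) := by
  rw [← Cfsg.Agent.Lib.Helper49Forms.coe_QOdd m]
  apply Cfsg.Agent.Lib.Helper49Simple.POmega_simple _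
    (Cfsg.Agent.Lib.Helper49OddForm.QOdd_nondegenerate
      (Cfsg.Agent.Lib.Helper49Forms.two_ne_zero_of_odd rfl hodd) m)
  simp only [Fintype.card_sum, Fintype.card_fin, Fintype.card_unit]
  omega

end Cfsg.Agent.S0295
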