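import Cfsg.Statements.S0298
import Mathlib
import Cfsg.Agent.Lib.Helper7M3
import Cfsg.Agent.Lib.Helper7SL
import Cfsg.Agent.Lib.Helper7OOdd
import Cfsg.Agent.Lib.Helper7Witt
import Cfsg.Agent.Lib.Helper49Idx
import Cfsg.Agent.S0264

set_option autoImplicit false
open Cfsg

namespace Cfsg.Agent.S0298

open Matrix

section
variable {F : Type*} [Field F]

theorem conj_J (g : Matrix (Fin 2) (Fin 2) F) :
    g * Lib.Helper7M2.Emat (Lib.Helper7M3.v0 : Fin 2 ⊕ Fin 2 → F) * gᵀ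
      = g.det • Lib.Helper7M2.Emat Lib.Helper7M3.v0 := by
  ext i j
  fin_cases i <;> fin_cases j <;>
    simp [Lib.Helper7M2.Emat, Lib.Helper7M3.v0, Matrix.mul_apply, Fin.sum_univ_succ,
      Matrix.det_fin_two] <;> ring

/-- the diagonal inclusion -/
noncomputable def jd (F : Type*) [Field F] :
    Matrix.SpecialLinearGroup (Fin 2) F →*
      Matrix (Fin 2) (Fin 2) F × Matrix (Fin 2) (Fin 2) F :=
  MonoidHom.prod (Cfsg.slToMat 2 F) (Cfsg.slToMat 2 F)

theorem jd_J (x : Matrix.SpecialLinearGroup (Fin 2) F) :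
    (jd F x).1 * Lib.Helper7M2.Emat (Lib.Helper7M3.v0 : Fin 2 ⊕ Fin 2 → F) * ((jd F x).2)ᵀ
      = Lib.Helper7M2.Emat Lib.Helper7M3.v0 := by
  show (x : Matrix (Fin 2) (Fin 2) F) * _ * (x : Matrix (Fin 2) (Fin 2) F)ᵀ = _
  rw [conj_J, x.2, one_smul]

theorem jd_inj : Function.Injective (jd F) := by
  intro x y h
  have h1 : (x : Matrix (Fin 2) (Fin 2) F) = y := congrArg Prod.fst h
  exact Subtype.ext h1

/-- scaled inclusion of `GL₂` -/
noncomputable def sc (F : Type*) [Field F] :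
    Matrix.GeneralLinearGroup (Fin 2) F →* Matrix (Fin 2) (Fin 2) F where
  toFun g := ((g : Matrix (Fin 2) (Fin 2) F).det)⁻¹ • (g : Matrix (Fin 2) (Fin 2) F)
  map_one' := by simp
  map_mul' g h := by
    rw [Units.val_mul, Matrix.det_mul, _root_.mul_inv_rev, smul_mul_smul_comm, mul_comm]

/-- embedding of `GL₂` -/
noncomputable def jg (F : Type*) [Field F] : Matrix.GeneralLinearGroup (Fin 2) F →*
    Matrix (Fin 2) (Fin 2) F × Matrix (Fin 2) (Fin 2) F :=
  MonoidHom.prod (Units.coeHom _) (sc F)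

theorem jg_J (g : Matrix.GeneralLinearGroup (Fin 2) F) :
    (jg F g).1 * Lib.Helper7M2.Emat (Lib.Helper7M3.v0 : Fin 2 ⊕ Fin 2 → F) * ((jg F g).2)ᵀ
      = Lib.Helper7M2.Emat Lib.Helper7M3.v0 := by
  show (g : Matrix (Fin 2) (Fin 2) F) * _
    * (((g : Matrix (Fin 2) (Fin 2) F).det)⁻¹ • (g : Matrix (Fin 2) (Fin 2) F))ᵀ = _
  rw [Matrix.transpose_smul, Matrix.mul_smul, conj_J, smul_smul, inv_mul_cancel₀, one_smul]
  have := Matrix.GeneralLinearGroup.val_det_apply g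
  rw [← this]
  exact Units.ne_zero _

theorem toGL_mem (h3 : ∃ a : F, a ≠ 0 ∧ a ≠ 1) (g : Matrix.SpecialLinearGroup (Fin 2) F) :
    Matrix.SpecialLinearGroup.toGL g ∈ commutator (Matrix.GeneralLinearGroup (Fin 2) F) := by
  rw [Cfsg.Agent.S0264.result 2 (fun _ => h3), MonoidHom.mem_ker]
  apply Units.ext
  rw [Matrix.GeneralLinearGroup.val_det_apply]
  exact g.2

theorem range_le (h3 : ∃ a : F, a ≠ 0 ∧ a ≠ 1) :
    (Lib.Helper7M3.rho3 (jd F) jd_J).range ≤ Cfsg.Omega F (Cfsg.quadFormOdd 1 F) := by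
  rintro _ ⟨g, rfl⟩
  rw [Lib.Helper7M3.rho3_congr (jd F) jd_J (jg F) jg_J g
      (Matrix.SpecialLinearGroup.toGL g) (by
        apply Prod.ext
        · rfl
        · show (g : Matrix (Fin 2) (Fin 2) F)
            = ((g : Matrix (Fin 2) (Fin 2) F).det)⁻¹ • (g : Matrix (Fin 2) (Fin 2) F)
          rw [g.2, inv_one, one_smul])]
  exact Lib.Helper7M2.mem_commutator_map _ (toGL_mem h3 g)

theorem card_ker :
    Nat.card (Lib.Helper7M2.rho (jd F) (Lib.Helper7M3.det_mul_det (jd F) jd_J)).ker ≤ 2 := by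
  refine (Lib.Helper7Exc.card_ker_le _ (fun x => (jd F x).1 0 0) ?_ ?_).1
  · intro x hx y hy hxy
    obtain ⟨d, e, hde, h1, h2⟩ := Lib.Helper7M2.ker_scalar (jd F) _ x hx
    obtain ⟨d', e', hde', h1', h2'⟩ := Lib.Helper7M2.ker_scalar (jd F) _ y hy
    simp only [h1, h1', Matrix.scalar_apply, Matrix.diagonal_apply_eq] at hxy
    subst hxy
    apply Subtype.ext
    exact h1.trans h1'.symm
  · intro x hx
    obtain ⟨d, e, hde, h1, h2⟩ := Lib.Helper7M2.ker_scalar (jd F) _ x hx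
    have hdet : (jd F x).1.det = 1 := x.2
    simp only [h1, Matrix.scalar_apply, Matrix.diagonal_apply_eq]
    rw [h1] at hdet
    simpa [Matrix.det_fin_two] using hdet

theorem sq_of_smul (A B : Matrix.SpecialLinearGroup (Fin 2) F) (d : F)
    (h : (A : Matrix (Fin 2) (Fin 2) F) = d • (B : Matrix (Fin 2) (Fin 2) F)) : d * d = 1 := by
  have h1 := congrArg Matrix.det h
  rw [Matrix.det_smul, A.2, B.2] at h1
  simp only [Fintype.card_fin, mul_one] at h1
  rw [← sq]; exact h1.symm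

end

/-- PΩ_3(q) is isomorphic to PSL_2(q) for q odd. -/
theorem result {F : Type*} [Field F] [Fintype F] (hodd : Odd (Fintype.card F)) : Nonempty (Cfsg.POmega F (Cfsg.quadFormOdd 1 F) ≃* Matrix.ProjectiveSpecialLinearGroup (Fin 2) F) := by
  classical
  have h2 : (2 : F) ≠ 0 := by
    have hc : ringChar F ≠ 2 := by
      intro h
      have := FiniteField.even_card_of_char_two h
      exact (Nat.not_even_iff_odd.mpr hodd) (Nat.even_iff.mpr this)
    exact Ring.two_ne_zero hc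
  have h3 : ∃ a : F, a ≠ 0 ∧ a ≠ 1 := ⟨2, h2, by
    intro h
    have : (1 : F) = 0 := by linear_combination h
    exact one_ne_zero this⟩
  have hfun : ⇑(Lib.Helper7OOdd.QO F 1) = Cfsg.quadFormOdd 1 F :=
    funext (Lib.Helper7OOdd.QO_apply 1)
  have hQ := Lib.Helper7Witt.nondegenerate_of (Lib.Helper7OOdd.nondeg (F := F) 1 h2)
  have hcard : Fintype.card (Unit ⊕ (Fin 1 ⊕ Fin 1)) = 3 := by simp
  have hO : Nat.card ↥(Cfsg.isometryGroup F (Cfsg.quadFormOdd 1 F))
      = 2 * Nat.card (Matrix.SpecialLinearGroup (Fin 2) F) := by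
    rw [Lib.Helper7OOdd.card_isometryGroup_odd 1 hodd, Lib.Helper7SL.card_SL_two]
    simp
    ring
  have hkle := Lib.Helper7M3.ker_le (jd F) jd_J h2
  have hidx := Lib.Helper49Idx.index_Omega (Lib.Helper7OOdd.QO F 1) h2 hQ
    (by rw [hcard]; omega)
  rw [hfun] at hidx
  have hcardle : Nat.card ↥(Cfsg.Omega F (Cfsg.quadFormOdd 1 F))
      ≤ Nat.card (Lib.Helper7M3.rho3 (jd F) jd_J).range :=
    Lib.Helper7Exc.card_le_card_range _ _ hO 2 ((Subgroup.card_le_of_le hkle).trans card_ker) hidx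
  refine Lib.Helper7Exc.quotient_center_equiv (Lib.Helper7M3.rho3 (jd F) jd_J) _
    (range_le h3) hcardle ?_
  intro x h
  apply Lib.Helper7M2.mem_center_of_comm_sign
  intro y
  obtain ⟨d, e, hde, h1, _⟩ := Lib.Helper7M3.comm_sign3 (jd F) jd_J h2 x y (h y)
  have h1' : ((x * y : Matrix.SpecialLinearGroup (Fin 2) F) : Matrix (Fin 2) (Fin 2) F)
      = d • ((y * x : Matrix.SpecialLinearGroup (Fin 2) F) : Matrix (Fin 2) (Fin 2) F) := h1
  exact ⟨d, sq_of_smul _ _ d h1', h1'⟩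

end Cfsg.Agent.S0298
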