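import Cfsg.Statements.S0299
import Mathlib
import Cfsg.Agent.Lib.Helper7M2
import Cfsg.Agent.Lib.Helper7SL
import Cfsg.Agent.Lib.Helper7OPlus
import Cfsg.Agent.Lib.Helper7Witt
import Cfsg.Agent.Lib.Helper49All
import Cfsg.Agent.Lib.Helper49Idx
import Cfsg.Agent.S0264

set_option autoImplicit false
open Cfsg

namespace Cfsg.Agent.S0299

open Matrix

section
variable {F : Type*} [Field F]

/-- the pair of inclusions -/
noncomputable def jj (F : Type*) [Field F] :
    Matrix.SpecialLinearGroup (Fin 2) F × Matrix.SpecialLinearGroup (Fin 2) F →*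
      Matrix (Fin 2) (Fin 2) F × Matrix (Fin 2) (Fin 2) F :=
  (Cfsg.slToMat 2 F).prodMap (Cfsg.slToMat 2 F)

theorem jj_det (x : Matrix.SpecialLinearGroup (Fin 2) F × Matrix.SpecialLinearGroup (Fin 2) F) :
    (jj F x).1.det * (jj F x).2.det = 1 := by
  show (x.1 : Matrix (Fin 2) (Fin 2) F).det * (x.2 : Matrix (Fin 2) (Fin 2) F).det = 1
  rw [x.1.2, x.2.2, one_mul]

theorem jj_inj : Function.Injective (jj F) := by
  intro x y h
  have h1 : (x.1 : Matrix (Fin 2) (Fin 2) F) = y.1 := congrArg Prod.fst h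
  have h2 : (x.2 : Matrix (Fin 2) (Fin 2) F) = y.2 := congrArg Prod.snd h
  exact Prod.ext (Subtype.ext h1) (Subtype.ext h2)

/-- compensating diagonal matrix -/
def dg (F : Type*) [Field F] : Fˣ →* Matrix (Fin 2) (Fin 2) F where
  toFun u := Matrix.diagonal ![((u⁻¹ : Fˣ) : F), 1]
  map_one' := by
    ext i j
    fin_cases i <;> fin_cases j <;> simp
  map_mul' u v := by
    rw [Matrix.diagonal_mul_diagonal]
    congr 1
    funext i
    fin_cases i <;> simp [mul_comm]

theorem det_dg (u : Fˣ) : (dg F u).det = ((u⁻¹ : Fˣ) : F) := by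
  show (Matrix.diagonal ![((u⁻¹ : Fˣ) : F), 1]).det = _
  rw [Matrix.det_diagonal]
  simp

/-- left embedding of `GL₂` -/
noncomputable def j1 (F : Type*) [Field F] : Matrix.GeneralLinearGroup (Fin 2) F →*
    Matrix (Fin 2) (Fin 2) F × Matrix (Fin 2) (Fin 2) F :=
  MonoidHom.prod (Units.coeHom _) ((dg F).comp Matrix.GeneralLinearGroup.det)

/-- right embedding of `GL₂` -/
noncomputable def j2 (F : Type*) [Field F] : Matrix.GeneralLinearGroup (Fin 2) F →*
    Matrix (Fin 2) (Fin 2) F × Matrix (Fin 2) (Fin 2) F :=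
  MonoidHom.prod ((dg F).comp Matrix.GeneralLinearGroup.det) (Units.coeHom _)

theorem j1_det (g : Matrix.GeneralLinearGroup (Fin 2) F) :
    (j1 F g).1.det * (j1 F g).2.det = 1 := by
  show (g : Matrix (Fin 2) (Fin 2) F).det * (dg F (Matrix.GeneralLinearGroup.det g)).det = 1
  rw [det_dg, ← Matrix.GeneralLinearGroup.val_det_apply, ← Units.val_mul, mul_inv_cancel]
  rfl

theorem j2_det (g : Matrix.GeneralLinearGroup (Fin 2) F) :
    (j2 F g).1.det * (j2 F g).2.det = 1 := by
  show (dg F (Matrix.GeneralLinearGroup.det g)).det * (g : Matrix (Fin 2) (Fin 2) F).det = 1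
  rw [det_dg, ← Matrix.GeneralLinearGroup.val_det_apply, ← Units.val_mul, inv_mul_cancel]
  rfl

theorem toGL_mem (h3 : ∃ a : F, a ≠ 0 ∧ a ≠ 1) (g : Matrix.SpecialLinearGroup (Fin 2) F) :
    Matrix.SpecialLinearGroup.toGL g ∈ commutator (Matrix.GeneralLinearGroup (Fin 2) F) := by
  rw [Cfsg.Agent.S0264.result 2 (fun _ => h3), MonoidHom.mem_ker]
  apply Units.ext
  rw [Matrix.GeneralLinearGroup.val_det_apply]
  exact g.2

theorem det_toGL (g : Matrix.SpecialLinearGroup (Fin 2) F) :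
    Matrix.GeneralLinearGroup.det (Matrix.SpecialLinearGroup.toGL g) = 1 := by
  apply Units.ext
  rw [Matrix.GeneralLinearGroup.val_det_apply]
  exact g.2

theorem range_le (h3 : ∃ a : F, a ≠ 0 ∧ a ≠ 1) :
    (Lib.Helper7M2.rho (jj F) jj_det).range ≤ Cfsg.Omega F (Cfsg.quadFormPlus 2 F) := by
  rintro _ ⟨⟨g, h⟩, rfl⟩
  have e : ((g, h) : Matrix.SpecialLinearGroup (Fin 2) F × Matrix.SpecialLinearGroup (Fin 2) F)
      = (g, 1) * (1, h) := by simp
  rw [e, map_mul]
  apply mul_mem
  · rw [Lib.Helper7M2.rho_congr (jj F) jj_det (j1 F) j1_det (g, 1)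
      (Matrix.SpecialLinearGroup.toGL g) (by
        apply Prod.ext
        · rfl
        · show ((1 : Matrix.SpecialLinearGroup (Fin 2) F) : Matrix (Fin 2) (Fin 2) F)
            = dg F (Matrix.GeneralLinearGroup.det (Matrix.SpecialLinearGroup.toGL g))
          rw [det_toGL, map_one]
          rfl)]
    exact Lib.Helper7M2.mem_commutator_map _ (toGL_mem h3 g)
  · rw [Lib.Helper7M2.rho_congr (jj F) jj_det (j2 F) j2_det (1, h)
      (Matrix.SpecialLinearGroup.toGL h) (by
        apply Prod.ext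
        · show ((1 : Matrix.SpecialLinearGroup (Fin 2) F) : Matrix (Fin 2) (Fin 2) F)
            = dg F (Matrix.GeneralLinearGroup.det (Matrix.SpecialLinearGroup.toGL h))
          rw [det_toGL, map_one]
          rfl
        · rfl)]
    exact Lib.Helper7M2.mem_commutator_map _ (toGL_mem h3 h)

theorem card_ker :
    Nat.card (Lib.Helper7M2.rho (jj F) jj_det).ker ≤ 2 ∧
      ((2 : F) = 0 → Nat.card (Lib.Helper7M2.rho (jj F) jj_det).ker ≤ 1) := by
  apply Lib.Helper7Exc.card_ker_le _ (fun x => (jj F x).1 0 0)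
  · intro x hx y hy hxy
    obtain ⟨d, e, hde, h1, h2⟩ := Lib.Helper7M2.ker_scalar (jj F) jj_det x hx
    obtain ⟨d', e', hde', h1', h2'⟩ := Lib.Helper7M2.ker_scalar (jj F) jj_det y hy
    simp only [h1, h1', Matrix.scalar_apply, Matrix.diagonal_apply_eq] at hxy
    subst hxy
    have hd0 : d ≠ 0 := by
      rintro rfl
      simp at hde
    have hee : e = e' := mul_left_cancel₀ hd0 (hde.trans hde'.symm)
    apply jj_inj
    apply Prod.ext
    · rw [h1, h1']
    · rw [h2, h2', hee]
  · intro x hx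
    obtain ⟨d, e, hde, h1, h2⟩ := Lib.Helper7M2.ker_scalar (jj F) jj_det x hx
    have hdet : (jj F x).1.det = 1 := x.1.2
    simp only [h1, Matrix.scalar_apply, Matrix.diagonal_apply_eq]
    rw [h1] at hdet
    simpa [Matrix.det_fin_two] using hdet

theorem sq_of_smul (A B : Matrix.SpecialLinearGroup (Fin 2) F) (d : F)
    (h : (A : Matrix (Fin 2) (Fin 2) F) = d • (B : Matrix (Fin 2) (Fin 2) F)) : d * d = 1 := by
  have h1 := congrArg Matrix.det h
  rw [Matrix.det_smul, A.2, B.2] at h1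
  simp only [Fintype.card_fin, mul_one] at h1
  rw [← sq]; exact h1.symm

end

/-- PΩ^+_4(q) is isomorphic to PSL_2(q) x PSL_2(q) for q at least 3. -/
theorem result {F : Type*} [Field F] [Fintype F] (hF : 3 ≤ Fintype.card F) : Nonempty (Cfsg.POmega F (Cfsg.quadFormPlus 2 F) ≃* Matrix.ProjectiveSpecialLinearGroup (Fin 2) F × Matrix.ProjectiveSpecialLinearGroup (Fin 2) F) := by
  classical
  have h3 : ∃ a : F, a ≠ 0 ∧ a ≠ 1 := by
    by_contra hcon
    push Not at hcon
    have hsub : (Finset.univ : Finset F) ⊆ {0, 1} := by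
      intro a _
      by_cases ha : a = 0
      · simp [ha]
      · simp [hcon a ha]
    have h1 := Finset.card_le_card hsub
    have h2 : ({0, 1} : Finset F).card ≤ 2 := Finset.card_le_two
    rw [Finset.card_univ] at h1
    omega
  have hfun : ⇑(Lib.Helper7OPlus.QP F 2) = Cfsg.quadFormPlus 2 F :=
    funext (Lib.Helper7OPlus.QP_apply 2)
  have hQ := Lib.Helper7Witt.nondegenerate_of (Lib.Helper7OPlus.nondeg (F := F) 2)
  have hcard : Fintype.card (Fin 2 ⊕ Fin 2) = 4 := by simp
  have hq : Fintype.card F ≠ 2 ∨ Fintype.card (Fin 2 ⊕ Fin 2) ≠ 4 := by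
    left; omega
  have hO : Nat.card ↥(Cfsg.isometryGroup F (Cfsg.quadFormPlus 2 F))
      = 2 * Nat.card (Matrix.SpecialLinearGroup (Fin 2) F × Matrix.SpecialLinearGroup (Fin 2) F) := by
    rw [Lib.Helper7OPlus.card_isometryGroup_plus 2 (by omega), Nat.card_prod,
      Lib.Helper7SL.card_SL_two]
    simp [Finset.prod_range_succ]
    ring
  have hk := card_ker (F := F)
  have hcardle : Nat.card ↥(Cfsg.Omega F (Cfsg.quadFormPlus 2 F))
      ≤ Nat.card (Lib.Helper7M2.rho (jj F) jj_det).range := by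
    by_cases h2 : (2 : F) = 0
    · have hch : CharP F 2 := CharTwo.of_one_ne_zero_of_two_eq_zero one_ne_zero h2
      have hidx := Lib.Helper49All.index_Omega_two (Lib.Helper7OPlus.QP F 2) hQ hq
        (by rw [hcard]; omega)
      rw [hfun] at hidx
      exact Lib.Helper7Exc.card_le_card_range _ _ hO 1 (hk.2 h2) hidx
    · have hidx := Lib.Helper49Idx.index_Omega (Lib.Helper7OPlus.QP F 2) h2 hQ
        (by rw [hcard]; omega)
      rw [hfun] at hidx
      exact Lib.Helper7Exc.card_le_card_range _ _ hO 2 hk.1 hidx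
  refine Lib.Helper7Exc.quotient_center_equiv' (Lib.Helper7M2.rho (jj F) jj_det) _
    (range_le h3) hcardle
    ((QuotientGroup.mk' (Subgroup.center (Matrix.SpecialLinearGroup (Fin 2) F))).prodMap
      (QuotientGroup.mk' (Subgroup.center (Matrix.SpecialLinearGroup (Fin 2) F))))
    (Function.Surjective.prodMap (QuotientGroup.mk'_surjective _)
      (QuotientGroup.mk'_surjective _)) ?_
  intro x
  have hx1 : ((QuotientGroup.mk' (Subgroup.center (Matrix.SpecialLinearGroup (Fin 2) F))).prodMap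
      (QuotientGroup.mk' (Subgroup.center (Matrix.SpecialLinearGroup (Fin 2) F)))) x = 1
      ↔ x.1 ∈ Subgroup.center (Matrix.SpecialLinearGroup (Fin 2) F)
        ∧ x.2 ∈ Subgroup.center (Matrix.SpecialLinearGroup (Fin 2) F) := by
    rw [Prod.ext_iff]
    show (QuotientGroup.mk' _ x.1 = 1 ∧ QuotientGroup.mk' _ x.2 = 1) ↔ _
    rw [← MonoidHom.mem_ker, ← MonoidHom.mem_ker, QuotientGroup.ker_mk']
  rw [hx1]
  constructor
  · rintro ⟨h1, h2⟩ y
    rw [← map_mul, ← map_mul]
    congr 1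
    rw [Subgroup.mem_center_iff] at h1 h2
    exact Prod.ext (h1 y.1).symm (h2 y.2).symm
  · intro h
    constructor
    · apply Lib.Helper7M2.mem_center_of_comm_sign
      intro y
      obtain ⟨d, e, hde, h1, h2⟩ := Lib.Helper7M2.comm_sign (jj F) jj_det x (y, 1) (h (y, 1))
      have h1' : ((x.1 * y : Matrix.SpecialLinearGroup (Fin 2) F) : Matrix (Fin 2) (Fin 2) F)
          = d • ((y * x.1 : Matrix.SpecialLinearGroup (Fin 2) F) : Matrix (Fin 2) (Fin 2) F) := h1
      exact ⟨d, sq_of_smul _ _ d h1', h1'⟩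
    · apply Lib.Helper7M2.mem_center_of_comm_sign
      intro y
      obtain ⟨d, e, hde, h1, h2⟩ := Lib.Helper7M2.comm_sign (jj F) jj_det x (1, y) (h (1, y))
      have h2' : ((x.2 * y : Matrix.SpecialLinearGroup (Fin 2) F) : Matrix (Fin 2) (Fin 2) F)
          = e • ((y * x.2 : Matrix.SpecialLinearGroup (Fin 2) F) : Matrix (Fin 2) (Fin 2) F) := h2
      exact ⟨e, sq_of_smul _ _ e h2', h2'⟩

end Cfsg.Agent.S0299
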