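import Cfsg.Statements.S0300
import Mathlib
import Cfsg.Agent.Lib.Helper7H2
import Cfsg.Agent.Lib.Helper7SL
import Cfsg.Agent.Lib.Helper7OMinus
import Cfsg.Agent.Lib.Helper7Witt
import Cfsg.Agent.Lib.Helper49Idx
import Cfsg.Agent.Lib.Helper6Transport

set_option autoImplicit false
open Cfsg

namespace Cfsg.Agent.S0300

/-- PΩ^-_4(q) is isomorphic to PSL_2(q^2). -/
theorem result {F K : Type*} [Field F] [Fintype F] [Field K] [Fintype K] {q : ℕ} (hF : Fintype.card F = q) (hK : Fintype.card K = q ^ 2) (a b : F) (hab : ∀ z₁ z₂ : F, z₁ ^ 2 + a * z₁ * z₂ + b * z₂ ^ 2 = 0 → z₁ = 0 ∧ z₂ = 0) : Nonempty (Cfsg.POmega F (Cfsg.quadFormMinus 1 F a b) ≃* Matrix.ProjectiveSpecialLinearGroup (Fin 2) K) := by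
  classical
  subst hF
  have hD := Lib.Helper7Norm2.disc_ne_zero (a := a) (b := b) hab
  have hfact := Lib.Helper7Norm2.fact_of_aniso (a := a) (b := b) hab
  have : Fintype (QuadraticAlgebra F (-b) a) := Fintype.ofFinite _
  have hcL : Nat.card (QuadraticAlgebra F (-b) a) = Fintype.card F ^ 2 := Lib.Helper7Norm2.card_K
  have hq2 : 2 ≤ Fintype.card F := Fintype.one_lt_card
  have hfun : ⇑(Lib.Helper7OMinus.QM F 1 a b) = Cfsg.quadFormMinus 1 F a b :=
    funext (Lib.Helper7OMinus.QM_apply 1 a b)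
  have hQ := Lib.Helper7Witt.nondegenerate_of (Lib.Helper7OMinus.nondeg (F := F) 1 a b hD)
  have hcard : Fintype.card ((Fin 1 ⊕ Fin 1) ⊕ Fin 2) = 4 := by simp
  obtain ⟨c, hc0, hc1⟩ := Lib.Helper7H2.exists_sq_ne_one (L := QuadraticAlgebra F (-b) a) (by
    rw [hcL]; nlinarith)
  have hperf : commutator (Matrix.SpecialLinearGroup (Fin 2) (QuadraticAlgebra F (-b) a)) = ⊤ :=
    Matrix.SL2.commutator_eq_top hc0 hc1
  have hj : ∀ x : Matrix.SpecialLinearGroup (Fin 2) (QuadraticAlgebra F (-b) a),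
      (Cfsg.slToMat 2 (QuadraticAlgebra F (-b) a) x).det = 1 := fun x => x.2
  have hinj : Function.Injective (Cfsg.slToMat 2 (QuadraticAlgebra F (-b) a)) :=
    fun x y h => Subtype.ext h
  have hO : Nat.card ↥(Cfsg.isometryGroup F (Cfsg.quadFormMinus 1 F a b))
      = 2 * Nat.card (Matrix.SpecialLinearGroup (Fin 2) (QuadraticAlgebra F (-b) a)) := by
    rw [Lib.Helper7OMinus.card_isometryGroup_minus 1 a b hab, Lib.Helper7SL.card_SL_two,
      ← Nat.card_eq_fintype_card (α := QuadraticAlgebra F (-b) a), hcL]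
    simp
    have e1 : (Fintype.card F ^ 2) ^ 2 - 1 = (Fintype.card F ^ 2 + 1) * (Fintype.card F ^ 2 - 1) := by
      have := Nat.sq_sub_sq (Fintype.card F ^ 2) 1
      simpa using this
    rw [e1]
    ring
  have hk := Lib.Helper7H2.card_ker_le hD (Cfsg.slToMat 2 (QuadraticAlgebra F (-b) a)) hj hinj
  have hcardle : Nat.card ↥(Cfsg.Omega F (Cfsg.quadFormMinus 1 F a b))
      ≤ Nat.card (Lib.Helper7H2.rho hD (Cfsg.slToMat 2 (QuadraticAlgebra F (-b) a)) hj).range := by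
    by_cases h2 : (2 : F) = 0
    · exact Lib.Helper7H2.card_commutator_le_card_range _ hO (hk.2 h2)
    · have hidx := Lib.Helper49Idx.index_Omega (Lib.Helper7OMinus.QM F 1 a b) h2 hQ
        (by rw [hcard]; omega)
      rw [hfun] at hidx
      exact Lib.Helper7Exc.card_le_card_range _ _ hO 2 hk.1 hidx
  obtain ⟨e1⟩ := Lib.Helper7Exc.quotient_center_equiv
    (Lib.Helper7H2.rho hD (Cfsg.slToMat 2 (QuadraticAlgebra F (-b) a)) hj) _
    (Lib.Helper7Exc.range_le_commutator hperf _) hcardle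
    (Lib.Helper7Exc.mem_center_of_perfect hperf _
      (Lib.Helper7H2.ker_le_center hD (Cfsg.slToMat 2 (QuadraticAlgebra F (-b) a)) hj hinj))
  obtain ⟨e2⟩ := Lib.Helper6Transport.nonempty_pslEquiv (n := Fin 2)
    (F := QuadraticAlgebra F (-b) a) (K := K) (by
      rw [hK, ← hcL, Nat.card_eq_fintype_card])
  exact ⟨e1.trans e2⟩

end Cfsg.Agent.S0300
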