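import Cfsg.Statements.S0301
import Mathlib
import Cfsg.Agent.Lib.Helper7Pf5
import Cfsg.Agent.Lib.Helper7OOdd
import Cfsg.Agent.Lib.Helper7Witt
import Cfsg.Agent.Lib.Helper49Idx
import Cfsg.Agent.S0245
import Cfsg.Agent.S0269

set_option autoImplicit false
open Cfsg

namespace Cfsg.Agent.S0301

open Matrix in
/-- the symplectic group as 4 x 4 matrices -/
noncomputable def jSp (F : Type*) [Field F] :
    ↥(Matrix.symplecticGroup (Fin 2) F) →* Matrix (Fin 4) (Fin 4) F :=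
  ((Matrix.reindexAlgEquiv F F (finSumFinEquiv (m := 2) (n := 2))).toRingEquiv.toMonoidHom).comp
    (Matrix.symplecticGroup (Fin 2) F).subtype

theorem jSp_apply {F : Type*} [Field F] (x : ↥(Matrix.symplecticGroup (Fin 2) F)) :
    jSp F x = Matrix.reindex (finSumFinEquiv (m := 2) (n := 2)) finSumFinEquiv
      (x : Matrix (Fin 2 ⊕ Fin 2) (Fin 2 ⊕ Fin 2) F) := rfl

theorem reindex_J {F : Type*} [Field F] :
    Matrix.reindex (finSumFinEquiv (m := 2) (n := 2)) finSumFinEquiv (Matrix.J (Fin 2) F)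
      = Lib.Helper7Pf.Emat (Lib.Helper7Pf5.vJ : Fin 3 ⊕ Fin 3 → F) := by
  have e0 : (finSumFinEquiv (m := 2) (n := 2)).symm 0 = Sum.inl 0 := rfl
  have e1 : (finSumFinEquiv (m := 2) (n := 2)).symm 1 = Sum.inl 1 := rfl
  have e2 : (finSumFinEquiv (m := 2) (n := 2)).symm 2 = Sum.inr 0 := rfl
  have e3 : (finSumFinEquiv (m := 2) (n := 2)).symm 3 = Sum.inr 1 := rfl
  ext i j
  fin_cases i <;> fin_cases j <;>
    simp [Matrix.J, Lib.Helper7Pf.Emat, Lib.Helper7Pf5.vJ, e0, e1, e2, e3]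

theorem jSp_J {F : Type*} [Field F] (x : ↥(Matrix.symplecticGroup (Fin 2) F)) :
    jSp F x * Lib.Helper7Pf.Emat (Lib.Helper7Pf5.vJ : Fin 3 ⊕ Fin 3 → F) * (jSp F x).transpose
      = Lib.Helper7Pf.Emat Lib.Helper7Pf5.vJ := by
  have h := SymplecticGroup.mem_iff.1 x.2
  rw [← reindex_J, jSp_apply]
  conv_rhs => rw [← h]
  simp only [Matrix.reindex_apply, Matrix.transpose_submatrix, Matrix.submatrix_mul_equiv]

/-- PΩ_5(q) is isomorphic to PSp_4(q) for q odd. -/
theorem result {F : Type*} [Field F] [Fintype F] (hodd : Odd (Fintype.card F)) : Nonempty (Cfsg.POmega F (Cfsg.quadFormOdd 2 F) ≃* Cfsg.PSp 2 F) := by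
  classical
  have h2 : (2 : F) ≠ 0 := by
    have hc : ringChar F ≠ 2 := by
      intro h
      have := FiniteField.even_card_of_char_two h
      exact (Nat.not_even_iff_odd.mpr hodd) (Nat.even_iff.mpr this)
    exact Ring.two_ne_zero hc
  have hq3 : 3 ≤ Fintype.card F := by
    have h1 : 1 < Fintype.card F := Fintype.one_lt_card
    rcases hodd with ⟨k, hk⟩
    omega
  have hfun : ⇑(Lib.Helper7OOdd.QO F 2) = Cfsg.quadFormOdd 2 F :=
    funext (Lib.Helper7OOdd.QO_apply 2)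
  have hQ := Lib.Helper7Witt.nondegenerate_of (Lib.Helper7OOdd.nondeg (F := F) 2 h2)
  have hcard : Fintype.card (Unit ⊕ (Fin 2 ⊕ Fin 2)) = 5 := by simp
  have hperf := Cfsg.Agent.S0269.result (F := F) 2 (Or.inr (Or.inl ⟨rfl, hq3⟩))
  have hinj : Function.Injective (jSp F) := by
    intro x y h
    apply Subtype.ext
    exact (Matrix.reindex (finSumFinEquiv (m := 2) (n := 2)) finSumFinEquiv).injective h
  have hO : Nat.card ↥(Cfsg.isometryGroup F (Cfsg.quadFormOdd 2 F))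
      = 2 * Nat.card ↥(Matrix.symplecticGroup (Fin 2) F) := by
    rw [Lib.Helper7OOdd.card_isometryGroup_odd 2 hodd, Cfsg.Agent.S0245.result (F := F) rfl 2,
      mul_assoc]
  have hk := Lib.Helper7Pf.card_ker_le (jSp F) (Lib.Helper7Pf5.det_eq_one (jSp F) jSp_J) hinj
  have hkle := Lib.Helper7Pf5.ker_le (jSp F) jSp_J h2
  have hidx := Lib.Helper49Idx.index_Omega (Lib.Helper7OOdd.QO F 2) h2 hQ
    (by rw [hcard]; omega)
  rw [hfun] at hidx
  have hcardle : Nat.card ↥(Cfsg.Omega F (Cfsg.quadFormOdd 2 F))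
      ≤ Nat.card (Lib.Helper7Pf5.rho5 (jSp F) jSp_J).range :=
    Lib.Helper7Exc.card_le_card_range _ _ hO 2 ((Subgroup.card_le_of_le hkle).trans hk.1) hidx
  exact Lib.Helper7Exc.quotient_center_equiv (Lib.Helper7Pf5.rho5 (jSp F) jSp_J) _
    (Lib.Helper7Exc.range_le_commutator hperf _) hcardle
    (Lib.Helper7Exc.mem_center_of_perfect hperf _
      (hkle.trans (Lib.Helper7Pf.ker_le_center (jSp F) _ hinj)))

end Cfsg.Agent.S0301
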