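import Cfsg.Statements.S0302
import Mathlib
import Cfsg.Agent.Lib.Helper7Pf
import Cfsg.Agent.Lib.Helper7OPlus
import Cfsg.Agent.Lib.Helper7Witt
import Cfsg.Agent.Lib.Helper49All
import Cfsg.Agent.Lib.Helper49Idx
import Cfsg.Agent.S0242
import Cfsg.Agent.S0248

set_option autoImplicit false
open Cfsg

namespace Cfsg.Agent.S0302

theorem card_aux (q S : ℕ) (hq : 1 ≤ q) (h : (q - 1) * S = ∏ i : Fin 4, (q ^ 4 - q ^ (i : ℕ))) (hq2 : 2 ≤ q) :
    2 * q ^ (3 * (3 - 1)) * (q ^ 3 - 1) * ∏ i ∈ Finset.range (3 - 1), (q ^ (2 * (i + 1)) - 1)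
      = 2 * S := by
  have h1 : 0 < q - 1 := by omega
  apply Nat.eq_of_mul_eq_mul_left h1
  rw [show (q - 1) * (2 * S) = 2 * ((q - 1) * S) by ring, h]
  simp only [Fin.prod_univ_succ, Finset.prod_range_succ]
  simp
  have e1 : q ^ 4 - q = q * (q ^ 3 - 1) := by rw [Nat.mul_sub]; ring_nf
  have e2 : q ^ 4 - q ^ 2 = q ^ 2 * (q ^ 2 - 1) := by rw [Nat.mul_sub]; ring_nf
  have e3 : q ^ 4 - q ^ 3 = q ^ 3 * (q - 1) := by rw [Nat.mul_sub]; ring_nf
  rw [e1, e2, e3]
  ring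

/-- PΩ^+_6(q) is isomorphic to PSL_4(q). -/
theorem result {F : Type*} [Field F] [Fintype F] : Nonempty (Cfsg.POmega F (Cfsg.quadFormPlus 3 F) ≃* Matrix.ProjectiveSpecialLinearGroup (Fin 4) F) := by
  classical
  have hfun : ⇑(Lib.Helper7OPlus.QP F 3) = Cfsg.quadFormPlus 3 F :=
    funext (Lib.Helper7OPlus.QP_apply 3)
  have hQ := Lib.Helper7Witt.nondegenerate_of (Lib.Helper7OPlus.nondeg (F := F) 3)
  have hcard : Fintype.card (Fin 3 ⊕ Fin 3) = 6 := by simp
  have hq : Fintype.card F ≠ 2 ∨ Fintype.card (Fin 3 ⊕ Fin 3) ≠ 4 := by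
    right; rw [hcard]; omega
  have hperf := Cfsg.Agent.S0248.result (F := F) 4 (by norm_num)
  have hj : ∀ x : Matrix.SpecialLinearGroup (Fin 4) F, (Cfsg.slToMat 4 F x).det = 1 := fun x => x.2
  have hinj : Function.Injective (Cfsg.slToMat 4 F) := fun x y h => Subtype.ext h
  have hO : Nat.card ↥(Cfsg.isometryGroup F (Cfsg.quadFormPlus 3 F))
      = 2 * Nat.card (Matrix.SpecialLinearGroup (Fin 4) F) := by
    rw [Lib.Helper7OPlus.card_isometryGroup_plus 3 (by omega)]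
    exact card_aux _ _ Fintype.card_pos (Cfsg.Agent.S0242.result (F := F) rfl 4 (by omega))
      Fintype.one_lt_card
  have hk := Lib.Helper7Pf.card_ker_le (Cfsg.slToMat 4 F) hj hinj
  have hcardle : Nat.card ↥(Cfsg.Omega F (Cfsg.quadFormPlus 3 F))
      ≤ Nat.card (Lib.Helper7Pf.rho (Cfsg.slToMat 4 F) hj).range := by
    by_cases h2 : (2 : F) = 0
    · have hch : CharP F 2 := CharTwo.of_one_ne_zero_of_two_eq_zero one_ne_zero h2
      have hidx := Lib.Helper49All.index_Omega_two (Lib.Helper7OPlus.QP F 3) hQ hq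
        (by rw [hcard]; omega)
      rw [hfun] at hidx
      exact Lib.Helper7Exc.card_le_card_range _ _ hO 1 (hk.2 h2) hidx
    · have hidx := Lib.Helper49Idx.index_Omega (Lib.Helper7OPlus.QP F 3) h2 hQ
        (by rw [hcard]; omega)
      rw [hfun] at hidx
      exact Lib.Helper7Exc.card_le_card_range _ _ hO 2 hk.1 hidx
  exact Lib.Helper7Exc.quotient_center_equiv (Lib.Helper7Pf.rho (Cfsg.slToMat 4 F) hj) _
    (Lib.Helper7Exc.range_le_commutator hperf _) hcardle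
    (Lib.Helper7Exc.mem_center_of_perfect hperf _
      (Lib.Helper7Pf.ker_le_center (Cfsg.slToMat 4 F) hj hinj))

end Cfsg.Agent.S0302
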