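import Cfsg.Statements.S0303
import Mathlib
import Cfsg.Agent.Lib.Helper7U4b
import Cfsg.Agent.Lib.Helper7H2
import Cfsg.Agent.Lib.Helper7SU
import Cfsg.Agent.Lib.Helper7OMinus
import Cfsg.Agent.Lib.Helper7Witt
import Cfsg.Agent.Lib.Helper49Idx
import Cfsg.Agent.Lib.Helper6Transport
import Cfsg.Agent.S0780
import Cfsg.Agent.S0781

set_option autoImplicit false
open Cfsg

namespace Cfsg.Agent.S0303

open Matrix Lib.Helper7GU Lib.Helper7SU Lib.Helper6Transport

section transfer

variable {A B : Type*} [Field A] [Fintype A] [Field B] [Fintype B] {n q : ℕ}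

theorem isU_map (e : A ≃+* B) (M : Matrix (Fin n) (Fin n) A) :
    IsU n B q (M.map e) ↔ IsU n A q M := by
  unfold IsU
  have h1 : (M.map e).map (fun x => x ^ q) = (M.map (fun x => x ^ q)).map e := by
    ext i j; simp
  rw [h1, ← Matrix.transpose_map, ← Matrix.map_mul]
  constructor
  · intro h
    apply Matrix.map_injective e.injective
    show (Mᵀ * M.map fun x => x ^ q).map e = (1 : Matrix (Fin n) (Fin n) A).map e
    rw [h]; simp
  · intro h
    rw [h]; simp

theorem mem_SU_map (hA : Fintype.card A = q ^ 2) (hB : Fintype.card B = q ^ 2) (e : A ≃+* B)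
    (g : Matrix.SpecialLinearGroup (Fin n) A) :
    slEquiv e g ∈ Cfsg.SU n B q ↔ g ∈ Cfsg.SU n A q := by
  rw [mem_SU_iff hA, mem_SU_iff hB]
  exact isU_map e g.1

/-- transport of `SU` along a field isomorphism -/
def suEquiv (hA : Fintype.card A = q ^ 2) (hB : Fintype.card B = q ^ 2) (e : A ≃+* B) :
    Cfsg.SU n A q ≃* Cfsg.SU n B q where
  toFun g := ⟨slEquiv e g.1, (mem_SU_map hA hB e g.1).2 g.2⟩
  invFun g := ⟨(slEquiv e).symm g.1, by rw [← mem_SU_map hA hB e]; simp⟩
  left_inv g := by ext1; simp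
  right_inv g := by ext1; simp
  map_mul' a b := by ext1; simp

/-- transport of `PSU` along a field isomorphism -/
noncomputable def psuEquiv (hA : Fintype.card A = q ^ 2) (hB : Fintype.card B = q ^ 2)
    (e : A ≃+* B) : Cfsg.PSU n A q ≃* Cfsg.PSU n B q :=
  QuotientGroup.congr _ _ (suEquiv hA hB e) (map_center_of_mulEquiv (suEquiv hA hB e))

theorem su_perfect (hA : Fintype.card A = q ^ 2) : commutator ↥(Cfsg.SU 4 A q) = ⊤ := by
  rw [eq_top_iff, ← Cfsg.Agent.S0780.result hA 4 (by norm_num) (by omega), Subgroup.closure_le]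
  rintro g ⟨v, c, hv, hg⟩
  have := Cfsg.Agent.S0781.result hA 4 (Or.inl le_rfl) g v c hv hg
  rw [commutator_eq_closure]
  exact Subgroup.subset_closure this

theorem card_su4 (hA : Fintype.card A = q ^ 2) :
    Nat.card ↥(Cfsg.SU 4 A q) = q ^ 6 * (q ^ 2 - 1) * (q ^ 3 + 1) * (q ^ 4 - 1) := by
  have h1 := card_SU_mul (n := 4) hA (by norm_num)
  rw [card_GU hA 4] at h1
  simp [Finset.prod_range_succ, Nat.even_add_one] at h1
  have hq : 0 < q + 1 := by omega
  apply Nat.eq_of_mul_eq_mul_left hq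
  rw [h1]
  ring

end transfer

/-- PΩ^-_6(q) is isomorphic to PSU_4(q). -/
theorem result {F K : Type*} [Field F] [Fintype F] [Field K] [Fintype K] {q : ℕ} (hF : Fintype.card F = q) (hK : Fintype.card K = q ^ 2) (a b : F) (hab : ∀ z₁ z₂ : F, z₁ ^ 2 + a * z₁ * z₂ + b * z₂ ^ 2 = 0 → z₁ = 0 ∧ z₂ = 0) : Nonempty (Cfsg.POmega F (Cfsg.quadFormMinus 2 F a b) ≃* Cfsg.PSU 4 K q) := by
  classical
  subst hF
  have hD := Lib.Helper7Norm2.disc_ne_zero (a := a) (b := b) hab
  have hfact := Lib.Helper7Norm2.fact_of_aniso (a := a) (b := b) hab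
  have : Fintype (QuadraticAlgebra F (-b) a) := Fintype.ofFinite _
  have hL : Fintype.card (QuadraticAlgebra F (-b) a) = Fintype.card F ^ 2 := by
    rw [← Nat.card_eq_fintype_card, Lib.Helper7Norm2.card_K]
  have hq2 : 2 ≤ Fintype.card F := Fintype.one_lt_card
  have hfun : ⇑(Lib.Helper7OMinus.QM F 2 a b) = Cfsg.quadFormMinus 2 F a b :=
    funext (Lib.Helper7OMinus.QM_apply 2 a b)
  have hQ := Lib.Helper7Witt.nondegenerate_of (Lib.Helper7OMinus.nondeg (F := F) 2 a b hD)
  have hcard : Fintype.card ((Fin 2 ⊕ Fin 2) ⊕ Fin 2) = 6 := by simp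
  have hperf := su_perfect hL
  -- the inclusion
  obtain ⟨j, hjdef⟩ : ∃ j : ↥(Cfsg.SU 4 (QuadraticAlgebra F (-b) a) (Fintype.card F)) →*
      Matrix (Fin 4) (Fin 4) (QuadraticAlgebra F (-b) a),
      j = (Cfsg.slToMat 4 (QuadraticAlgebra F (-b) a)).comp (Cfsg.SU 4 _ _).subtype := ⟨_, rfl⟩
  have hdet : ∀ x, (j x).det = 1 := by
    intro x; rw [hjdef]; exact x.1.2
  have hinj : Function.Injective j := by
    intro x y h
    rw [hjdef] at h
    exact Subtype.ext (Subtype.ext h)
  have hU : ∀ x, (j x)ᵀ * (j x).map (starRingEnd (QuadraticAlgebra F (-b) a)) = 1 := by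
    intro x
    have h1 := (mem_SU_iff hL x.1).1 x.2
    unfold IsU at h1
    have h2 : (fun z : QuadraticAlgebra F (-b) a => z ^ Fintype.card F)
        = starRingEnd (QuadraticAlgebra F (-b) a) := by
      funext z
      exact Lib.Helper7U4.pow_card_eq_star z
    rw [h2] at h1
    rw [hjdef]
    exact h1
  -- constants
  have hD' : 4 * b - a ^ 2 ≠ 0 := by
    intro h; apply hD; linear_combination -h
  have he : (4 * b - a ^ 2) * (4 * b - a ^ 2)⁻¹ = 1 := mul_inv_cancel₀ hD'
  obtain ⟨c, hc⟩ : ∃ c : QuadraticAlgebra F (-b) a, QuadraticAlgebra.norm c = -1 := by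
    obtain ⟨u, hu⟩ := Lib.Helper7Herm.exists_norm_eq hL (-1) (by
      rcases Nat.even_or_odd (Fintype.card F - 1) with h | h
      · exact h.neg_one_pow
      · have h2 : (2 : F) = 0 := by
          have heven : Even (Fintype.card F) := by
            obtain ⟨k, hk⟩ := h
            exact ⟨k + 1, by omega⟩
          have hch : ringChar F = 2 := by
            by_contra hne
            have := FiniteField.odd_card_of_char_ne_two hne
            rw [Nat.even_iff] at heven
            omega
          have : CharP F 2 := by rw [← hch]; exact ringChar.charP F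
          exact CharTwo.two_eq_zero
        have h2' : (2 : QuadraticAlgebra F (-b) a) = 0 := by
          have := congrArg (algebraMap F (QuadraticAlgebra F (-b) a)) h2
          rwa [map_ofNat, map_zero] at this
        have h3 : (-1 : (QuadraticAlgebra F (-b) a)ˣ) = 1 := by
          ext1
          show (-1 : QuadraticAlgebra F (-b) a) = 1
          linear_combination -h2'
        rw [h3, one_pow])
    refine ⟨(u : QuadraticAlgebra F (-b) a), ?_⟩
    apply (algebraMap F (QuadraticAlgebra F (-b) a)).injective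
    rw [QuadraticAlgebra.algebraMap_norm_eq_mul_star, ← Lib.Helper7U4.pow_card_eq_star, ← pow_succ',
      ← Units.val_pow_eq_pow_val, hu]
    simp
  have hc0 : c ≠ 0 := by
    rintro rfl
    simp at hc
  have hcc : c * c⁻¹ = 1 := mul_inv_cancel₀ hc0
  have hO : Nat.card ↥(Cfsg.isometryGroup F (Cfsg.quadFormMinus 2 F a b))
      = 2 * Nat.card ↥(Cfsg.SU 4 (QuadraticAlgebra F (-b) a) (Fintype.card F)) := by
    rw [Lib.Helper7OMinus.card_isometryGroup_minus 2 a b hab, card_su4 hL]
    simp [Finset.prod_range_succ]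
    ring
  have hkle := Lib.Helper7U4b.ker_le j hdet hU he c c⁻¹ hcc hc hD
  have hk := Lib.Helper7Pf.card_ker_le j hdet hinj
  have hcardle : Nat.card ↥(Cfsg.Omega F (Cfsg.quadFormMinus 2 F a b))
      ≤ Nat.card (Lib.Helper7U4b.rho6 j hdet hU he c c⁻¹ hcc hc).range := by
    by_cases h2 : (2 : F) = 0
    · have h2' : (2 : QuadraticAlgebra F (-b) a) = 0 := by
        have := congrArg (algebraMap F (QuadraticAlgebra F (-b) a)) h2
        rwa [map_ofNat, map_zero] at this
      exact Lib.Helper7H2.card_commutator_le_card_range _ hO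
        ((Subgroup.card_le_of_le hkle).trans (hk.2 h2'))
    · have hidx := Lib.Helper49Idx.index_Omega (Lib.Helper7OMinus.QM F 2 a b) h2 hQ
        (by rw [hcard]; omega)
      rw [hfun] at hidx
      exact Lib.Helper7Exc.card_le_card_range _ _ hO 2
        ((Subgroup.card_le_of_le hkle).trans hk.1) hidx
  obtain ⟨e1⟩ := Lib.Helper7Exc.quotient_center_equiv
    (Lib.Helper7U4b.rho6 j hdet hU he c c⁻¹ hcc hc) _
    (Lib.Helper7Exc.range_le_commutator hperf _) hcardle
    (Lib.Helper7Exc.mem_center_of_perfect hperf _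
      (hkle.trans (Lib.Helper7Pf.ker_le_center j hdet hinj)))
  exact ⟨e1.trans (psuEquiv hL hK (FiniteField.ringEquivOfCardEq (hL.trans hK.symm)))⟩

end Cfsg.Agent.S0303
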