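import Cfsg.Statements.S0305
import Mathlib
import Cfsg.Agent.Lib.Helper7Dih
import Cfsg.Agent.Lib.Helper7OPlus
import Cfsg.Agent.Lib.Helper7Witt

set_option autoImplicit false
open Cfsg

namespace Cfsg.Agent.S0305

open Matrix QuadraticMap Cfsg.Agent.Lib.Helper49Orth Cfsg.Agent.Lib.Helper7OPlus
  Cfsg.Agent.Lib.Helper7Dih

variable {F : Type*} [Field F]

/-- the vector `e + c f`. -/
def vv (c : F) : Fin 1 ⊕ Fin 1 → F := Sum.elim (fun _ => 1) (fun _ => c)

theorem Q_vv (c : F) : QP F 1 (vv c) = c := by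
  rw [QP_apply]; simp [Cfsg.quadFormPlus, vv]

theorem pair_eq (c : F) (hc : c ≠ 0) :
    Cfsg.reflectionMatrix ⇑(QP F 1) (vv 1) * Cfsg.reflectionMatrix ⇑(QP F 1) (vv c)
      = Matrix.diagonal (Sum.elim (fun _ => c) (fun _ => c⁻¹)) := by
  apply Matrix.mulVec_injective
  funext x
  rw [← Matrix.mulVec_mulVec, refl_mulVec, refl_mulVec, Q_vv, Q_vv]
  simp only [polar_sub_right, polar_smul_right, polar_QP]
  funext i
  rcases i with i | i
  · have hi : i = 0 := Subsingleton.elim _ _
    subst hi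
    simp [vv, Matrix.mulVec_diagonal]
    field_simp
    ring
  · have hi : i = 0 := Subsingleton.elim _ _
    subst hi
    simp [vv, Matrix.mulVec_diagonal]
    field_simp
    ring

/-- GO^+_2(q) is dihedral of order 2(q-1). -/
theorem result {F : Type*} [Field F] [Fintype F] {q : ℕ} (hF : Fintype.card F = q) : Nonempty (Cfsg.isometryGroup F (Cfsg.quadFormPlus 1 F) ≃* DihedralGroup (q - 1)) := by
  classical
  subst hF
  have hfun : ⇑(QP F 1) = Cfsg.quadFormPlus 1 F := funext (QP_apply 1)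
  have hQ := Cfsg.Agent.Lib.Helper7Witt.nondegenerate_of (nondeg (F := F) 1)
  have hcard : Nat.card (Cfsg.isometryGroup F (Cfsg.quadFormPlus 1 F))
      = 2 * (Fintype.card F - 1) := by
    rw [card_isometryGroup_plus 1 le_rfl]; simp
  rw [← hfun] at hcard ⊢
  obtain ⟨u, hu⟩ := IsCyclic.exists_generator (α := Fˣ)
  have hou : orderOf u = Fintype.card F - 1 := by
    rw [orderOf_eq_card_of_forall_mem_zpowers hu, Nat.card_eq_fintype_card, Fintype.card_units]
  have h1 : QP F 1 (vv 1) ≠ 0 := by rw [Q_vv]; exact one_ne_zero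
  have hc : QP F 1 (vv (u : F)) ≠ 0 := by rw [Q_vv]; exact u.ne_zero
  have hord : orderOf (reflO (QP F 1) h1 * reflO (QP F 1) hc) = Fintype.card F - 1 := by
    rw [← hou, orderOf_eq_orderOf_iff]
    intro k
    have hk : ((((reflO (QP F 1) h1 * reflO (QP F 1) hc) ^ k :
        ↥(Cfsg.isometryGroup F ⇑(QP F 1))) : Matrix.GeneralLinearGroup (Fin 1 ⊕ Fin 1) F) :
        Matrix (Fin 1 ⊕ Fin 1) (Fin 1 ⊕ Fin 1) F)
        = Matrix.diagonal (Sum.elim (fun _ => (u : F) ^ k) (fun _ => ((u : F)⁻¹) ^ k)) := by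
      rw [Subgroup.coe_pow, Units.val_pow_eq_pow_val]
      show (Cfsg.reflectionMatrix ⇑(QP F 1) (vv 1) * Cfsg.reflectionMatrix ⇑(QP F 1) (vv (u : F))) ^ k
        = _
      rw [pair_eq _ u.ne_zero, Matrix.diagonal_pow]
      congr 1
      funext i
      rcases i with i | i <;> simp
    constructor
    · intro h
      rw [h] at hk
      have := congrFun (congrFun hk (Sum.inl 0)) (Sum.inl 0)
      simp at this
      ext1
      rw [Units.val_pow_eq_pow_val, ← this, Units.val_one]
    · intro h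
      have h' : (u : F) ^ k = 1 := by
        rw [← Units.val_pow_eq_pow_val, h, Units.val_one]
      apply iso_ext
      rw [hk, inv_pow, h', inv_one]
      show _ = (1 : Matrix (Fin 1 ⊕ Fin 1) (Fin 1 ⊕ Fin 1) F)
      rw [← Matrix.diagonal_one]
      congr 1
      funext i
      rcases i with i | i <;> rfl
  by_cases hne : reflO (QP F 1) h1 = reflO (QP F 1) hc
  · rw [hne, reflO_mul_self, orderOf_one] at hord
    rw [← hord] at hcard ⊢
    have : Fact (Nat.Prime 2) := ⟨Nat.prime_two⟩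
    exact ⟨mulEquivOfPrimeCardEq (p := 2) hcard (by rw [DihedralGroup.nat_card])⟩
  · exact dihedral_of_involutions _ _ (orderOf_reflO _ hQ _) (orderOf_reflO _ hQ _) hne _ hord hcard

end Cfsg.Agent.S0305
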