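import Cfsg.Statements.S0307
-- import your own Cfsg.Agent.* helpers here

set_option autoImplicit false
open Cfsg

namespace Cfsg.Agent.S0307

/-- PSL_n(q) is normal in PGL_n(q) with cyclic quotient of order gcd(n, q-1): the image of the natural map PSL_n → PGL_n is the kernel of a surjective homomorphism onto the cyclic group of that order. -/
theorem result {F : Type*} [Field F] [Fintype F] {q : ℕ} (hF : Fintype.card F = q) (n : ℕ) (hn : 1 ≤ n) : ∃ g : Matrix.ProjGenLinGroup (Fin n) F →* Multiplicative (ZMod (Nat.gcd n (q - 1))), Function.Surjective g ∧ g.ker = (Matrix.ProjectiveSpecialLinearGroup.toPGL : Matrix.ProjectiveSpecialLinearGroup (Fin n) F →* Matrix.ProjGenLinGroup (Fin n) F).range := by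
  classical
  have hne : Nonempty (Fin n) := ⟨⟨0, hn⟩⟩
  let N : Subgroup Fˣ := (powMonoidHom n : Fˣ →* Fˣ).range
  have hcardU : Nat.card Fˣ = q - 1 := by rw [Nat.card_eq_fintype_card, Fintype.card_units, hF]
  have hidx : Nat.card (Fˣ ⧸ N) = Nat.gcd n (q - 1) := by
    have := IsCyclic.index_powMonoidHom_range (G := Fˣ) n
    rw [hcardU, Nat.gcd_comm] at this
    exact this
  have hcyc : IsCyclic (Fˣ ⧸ N) :=
    isCyclic_of_surjective (QuotientGroup.mk' N) (QuotientGroup.mk'_surjective N)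
  have e : Multiplicative (ZMod (Nat.card (Fˣ ⧸ N))) ≃* (Fˣ ⧸ N) := zmodCyclicMulEquiv hcyc
  rw [hidx] at e
  let χ : Fˣ →* Multiplicative (ZMod (Nat.gcd n (q - 1))) := e.symm.toMonoidHom.comp (QuotientGroup.mk' N)
  have hχ1 : ∀ x, χ x = 1 ↔ x ∈ N := by
    intro x
    show e.symm (QuotientGroup.mk' N x) = 1 ↔ _
    rw [map_eq_one_iff e.symm e.symm.injective]
    exact QuotientGroup.eq_one_iff x
  have hχs : Function.Surjective χ := e.symm.surjective.comp (QuotientGroup.mk'_surjective N)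
  let g₀ : GL (Fin n) F →* Multiplicative (ZMod (Nat.gcd n (q - 1))) :=
    χ.comp Matrix.GeneralLinearGroup.det
  have hc : Subgroup.center (GL (Fin n) F) ≤ g₀.ker := by
    rw [Matrix.GeneralLinearGroup.center_eq_range_scalar]
    rintro _ ⟨u, rfl⟩
    rw [MonoidHom.mem_ker]
    show χ (Matrix.GeneralLinearGroup.det (Matrix.GeneralLinearGroup.scalar (Fin n) u)) = 1
    rw [Matrix.GeneralLinearGroup.det_scalar, Fintype.card_fin, hχ1]
    exact ⟨u, rfl⟩
  let g : Matrix.ProjGenLinGroup (Fin n) F →* Multiplicative (ZMod (Nat.gcd n (q - 1))) :=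
    QuotientGroup.lift (Subgroup.center (GL (Fin n) F)) g₀ hc
  have hg : ∀ A : GL (Fin n) F, g (Matrix.ProjGenLinGroup.mk A) = χ (Matrix.GeneralLinearGroup.det A) :=
    fun A => rfl
  refine ⟨g, ?_, ?_⟩
  · intro w
    obtain ⟨u, rfl⟩ := hχs w
    obtain ⟨A, rfl⟩ := Matrix.GeneralLinearGroup.det_surjective (n := Fin n) u
    exact ⟨Matrix.ProjGenLinGroup.mk A, hg A⟩
  · ext x
    induction x using Matrix.ProjGenLinGroup.induction_on with | mk A =>
    rw [MonoidHom.mem_ker, hg, hχ1]
    constructor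
    · rintro ⟨y, hy⟩
      have hy' : y ^ n = Matrix.GeneralLinearGroup.det A := hy
      have hr : (y⁻¹) ^ Fintype.card (Fin n) * Matrix.GeneralLinearGroup.det A = 1 := by
        rw [Fintype.card_fin, ← hy', inv_pow, inv_mul_cancel]
      simp only [Units.ext_iff, Units.val_mul, Units.val_pow_eq_pow_val,
        Matrix.GeneralLinearGroup.val_det_apply, ← Matrix.det_smul A.1 (y⁻¹).1, Units.val_one] at hr
      let S : Matrix.SpecialLinearGroup (Fin n) F := ⟨(y⁻¹).1 • A.1, hr⟩
      refine ⟨(QuotientGroup.mk S : Matrix.ProjectiveSpecialLinearGroup (Fin n) F), ?_⟩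
      rw [Matrix.ProjectiveSpecialLinearGroup.toPGL_mk, Matrix.ProjGenLinGroup.mk_eq_mk_iff]
      refine ⟨y, Units.ext ?_⟩
      show ((y⁻¹).1 • A.1) * Matrix.scalar (Fin n) (y : F) = A.1
      rw [Matrix.scalar_apply, ← Matrix.smul_one_eq_diagonal, Matrix.mul_smul, mul_one, smul_smul,
        Units.mul_inv, one_smul]
    · rintro ⟨X, hX⟩
      induction X using QuotientGroup.induction_on with | H X =>
      obtain ⟨u, hu⟩ : ∃ u, Matrix.SpecialLinearGroup.toGL X * (Matrix.GeneralLinearGroup.scalar (Fin n)) u = A := by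
        simpa [Matrix.ProjGenLinGroup.mk_eq_mk_iff] using hX
      refine ⟨u, ?_⟩
      have := congrArg Matrix.GeneralLinearGroup.det hu
      simpa using this

end Cfsg.Agent.S0307
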