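import Cfsg.Statements.S0316
import Cfsg.Agent.Lib.Helper8BN

set_option autoImplicit false
open Cfsg

namespace Cfsg.Agent.S0316

open Cfsg.Agent.Lib.Helper8BN

/-- The map `J ↦ P_J` is a lattice isomorphism from the power set of the set of distinguished generators onto the
subgroups containing `B`. -/
theorem result {G : Type*} [Group G] (P : Cfsg.BNPair G) :
    ∃ e : Set P.S ≃o {M : Subgroup G // P.B ≤ M},
      ∀ J : Set P.S, ((e J : {M : Subgroup G // P.B ≤ M}) : Subgroup G) = P.parabolic (Subtype.val '' J) := by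
  have hsub : ∀ J : Set P.S, Subtype.val '' J ⊆ P.S := by
    rintro J _ ⟨x, _, rfl⟩
    exact x.2
  refine ⟨⟨⟨fun J => ⟨P.parabolic (Subtype.val '' J), B_le_parabolic _⟩,
    fun M => Subtype.val ⁻¹' (M.1 : Set G), ?_, ?_⟩, ?_⟩, fun J => rfl⟩
  · intro J
    ext s
    simp only [Set.mem_preimage, SetLike.mem_coe]
    rw [S_mem_parabolic_iff (hsub J) s.2]
    constructor
    · rintro ⟨x, hx, e⟩
      exact (Subtype.ext e) ▸ hx
    · intro h
      exact ⟨s, h, rfl⟩
  · intro M
    apply Subtype.ext
    simp only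
    rw [Subtype.image_preimage_coe]
    exact (eq_parabolic M.2).symm
  · intro J K
    show P.parabolic (Subtype.val '' J) ≤ P.parabolic (Subtype.val '' K) ↔ J ≤ K
    rw [parabolic_le_iff (hsub J) (hsub K)]
    exact Set.image_subset_image_iff Subtype.val_injective

end Cfsg.Agent.S0316
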