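import Cfsg.Statements.S0320
import Cfsg.Agent.Lib.Helper46BN
import Cfsg.Agent.Lib.H98CoxMain

set_option autoImplicit false
open Cfsg

namespace Cfsg.Agent.S0320

open Cfsg.Agent.Lib.Helper46BN Cfsg.Agent.Lib.H98CoxMain

/-- The Weyl group `W = N / (B ⊓ N)` of a (B,N)-pair, with its distinguished involutions, is a Coxeter system. -/
theorem result {G : Type*} [Group G] (P : Cfsg.BNPair G)
    [hN : ((P.B ⊓ P.N).subgroupOf P.N).Normal] :
    ∃ (M : CoxeterMatrix P.S) (cs : CoxeterSystem M (P.N ⧸ (P.B ⊓ P.N).subgroupOf P.N)),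
      ∀ s : P.S, cs.simple s = QuotientGroup.mk (⟨(s : G), P.subset s.2⟩ : P.N) := by
  have h := coxeter_of_lenSys (lenSys P) (fun s : P.S => mkW P s.1 (P.subset s.2))
    (by
      intro s t hst
      have h1 : mkW P s.1 (P.subset s.2) = mkW P t.1 (P.subset t.2) := hst
      rw [mkW_eq_iff] at h1
      exact Subtype.ext (P.inj s.1 s.2 t.1 t.2 h1))
    (by
      ext w
      constructor
      · rintro ⟨s, rfl⟩
        exact ⟨s.1, s.2, rfl⟩
      · rintro ⟨s, hs, rfl⟩
        exact ⟨⟨s, hs⟩, rfl⟩)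
  exact h

end Cfsg.Agent.S0320
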