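import Cfsg.Statements.S0321
import Cfsg.Agent.Lib.Helper8BN

set_option autoImplicit false
open Cfsg

namespace Cfsg.Agent.S0321

open Cfsg.Agent.Lib.Helper8BN

/-- For `n ∈ N` not in `B`, the union `B ∪ B n B` is (the underlying set of) a subgroup exactly when `n` agrees
modulo `B ⊓ N` with one of the distinguished representatives; thus the distinguished involutions are
determined by `B` and `N`. -/
theorem result {G : Type*} [Group G] (P : Cfsg.BNPair G) {n : G}
    (hn : n ∈ P.N) (hnB : n ∉ P.B) :
    (∃ H : Subgroup G, (H : Set G) = (P.B : Set G) ∪ DoubleCoset.doubleCoset n (P.B : Set G) P.B) ↔ ∃ s ∈ P.S, s⁻¹ * n ∈ P.B := by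
  constructor
  · rintro ⟨H, hH⟩
    have hBH : P.B ≤ H := by
      intro b hb
      have : b ∈ (H : Set G) := by rw [hH]; exact Or.inl hb
      exact this
    have hnH : n ∈ H := by
      have : n ∈ (H : Set G) := by
        rw [hH]; exact Or.inr (DoubleCoset.mem_doubleCoset_self _ _ _)
      exact this
    have hne : (P.S ∩ (H : Set G)).Nonempty := by
      by_contra hemp
      rw [Set.not_nonempty_iff_eq_empty] at hemp
      have h1 := eq_parabolic hBH
      rw [hemp] at h1
      have h2 : P.parabolic ∅ = P.B := by
        unfold Cfsg.BNPair.parabolic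
        simp
      rw [h2] at h1
      exact hnB (h1 ▸ hnH)
    obtain ⟨s, hs, hsH⟩ := hne
    refine ⟨s, hs, ?_⟩
    have h3 : s ∈ (P.B : Set G) ∪ DoubleCoset.doubleCoset n (P.B : Set G) P.B := by
      rw [← hH]; exact hsH
    rcases h3 with h3 | h3
    · exact absurd h3 (S_not_mem_B hs)
    · exact bruhat_unique (S_mem_N hs) hn ((mem_dc_iff P).1 h3).symm
  · rintro ⟨s, hs, hsn⟩
    refine ⟨P.parabolic {s}, ?_⟩
    have hJ : ({s} : Set G) ⊆ P.S := Set.singleton_subset_iff.2 hs
    have hRsn : R P s n := R_of_inv_mul_mem hsn
    ext g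
    simp only [SetLike.mem_coe, Set.mem_union, mem_dc_iff]
    constructor
    · intro hg
      obtain ⟨m, hm, hR⟩ := (mem_parabolic_iff hJ).1 hg
      obtain ⟨k, hk⟩ := exists_Lv_of_mem_closure hJ hm
      have h1 := Lv_len hJ k hk
      have hcl : ∀ (j : ℕ) (m : G), m ∈ Lv P {s} j → m ∈ P.B ∨ R P s m := by
        intro j
        induction j with
        | zero => intro m hm; exact Or.inl hm.1
        | succ j ih =>
          rintro m ⟨x, hx, u, hu, rfl⟩
          have hx' : x = s := hx
          subst hx'
          rcases ih u hu with h | h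
          · exact Or.inr (R.mul_right h (R.refl x))
          · left
            have huN := Lv_mem_N hJ j hu
            have h2 := bruhat_unique (S_mem_N hs) huN h
            have e : x * u = (x * x) * (x⁻¹ * u) := by group
            rw [e]
            exact P.B.mul_mem (P.sq_mem x hs) h2
      rcases hcl k m hk with h | h
      · exact Or.inl (R_of_mem h hR)
      · exact Or.inr (hRsn.symm.trans (h.trans hR))
    · rintro (hg | hg)
      · exact B_le_parabolic _ hg
      · exact mem_parabolic_of_R (closure_le_parabolic _ (Subgroup.subset_closure rfl))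
          (hRsn.trans hg)

end Cfsg.Agent.S0321
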