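import Cfsg.Statements.S0322
import Cfsg.Agent.Lib.Helper8BN
import Cfsg.Agent.S0321

set_option autoImplicit false
open Cfsg

namespace Cfsg.Agent.S0322

open Cfsg.Agent.Lib.Helper8BN

/-- A group with a (B,N)-pair of rank one acts doubly transitively on the left cosets of `B`. -/
theorem result {G : Type*} [Group G] (P : Cfsg.BNPair G) (h : P.rank = 1) : MulAction.IsMultiplyPretransitive G (G ⧸ P.B) 2 := by
  have hcard : P.S.ncard = 1 := by
    rw [← Nat.card_coe_set_eq]; exact h
  obtain ⟨s, hS⟩ := Set.ncard_eq_one.1 hcard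
  have hs : s ∈ P.S := by rw [hS]; rfl
  obtain ⟨H, hH⟩ := (Cfsg.Agent.S0321.result P (S_mem_N hs) (S_not_mem_B hs)).2
    ⟨s, hs, by simp [P.B.one_mem]⟩
  have hBH : P.B ≤ H := by
    intro b hb
    have : b ∈ (H : Set G) := by rw [hH]; exact Or.inl hb
    exact this
  have hsH : s ∈ H := by
    have : s ∈ (H : Set G) := by
      rw [hH]; exact Or.inr (DoubleCoset.mem_doubleCoset_self _ _ _)
    exact this
  have htop : H = ⊤ := by
    rw [eq_top_iff, ← parabolic_S (P := P), hS]
    exact sup_le hBH ((Subgroup.closure_le _).2 (Set.singleton_subset_iff.2 hsH))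
  have hall : ∀ g : G, g ∈ P.B ∨ R P s g := by
    intro g
    have : g ∈ (H : Set G) := by rw [htop]; trivial
    rw [hH] at this
    rcases this with h | h
    · exact Or.inl h
    · exact Or.inr ((mem_dc_iff P).1 h)
  have key : ∀ a b : G ⧸ P.B, a ≠ b → ∃ g : G, g • ((1 : G) : G ⧸ P.B) = a ∧
      g • ((s : G) : G ⧸ P.B) = b := by
    intro a b hab
    induction a using QuotientGroup.induction_on with
    | H x =>
    induction b using QuotientGroup.induction_on with
    | H y =>
    have hxy : x⁻¹ * y ∉ P.B := by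
      intro hmem
      exact hab (QuotientGroup.eq.2 hmem)
    obtain ⟨b₁, hb₁, b₂, hb₂, e⟩ := (hall (x⁻¹ * y)).resolve_left hxy
    refine ⟨x * b₁, ?_, ?_⟩
    · rw [MulAction.Quotient.smul_coe, smul_eq_mul, mul_one, QuotientGroup.eq]
      have : (x * b₁)⁻¹ * x = b₁⁻¹ := by group
      rw [this]
      exact P.B.inv_mem hb₁
    · rw [MulAction.Quotient.smul_coe, smul_eq_mul, QuotientGroup.eq]
      have : (x * b₁ * s)⁻¹ * y = (b₁ * s)⁻¹ * (x⁻¹ * y) := by group
      rw [this, e]
      have : (b₁ * s)⁻¹ * (b₁ * s * b₂) = b₂ := by group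
      rw [this]
      exact hb₂
  rw [MulAction.is_two_pretransitive_iff]
  intro a b c d hab hcd
  obtain ⟨g₁, h1, h2⟩ := key a b hab
  obtain ⟨g₂, h3, h4⟩ := key c d hcd
  refine ⟨g₂ * g₁⁻¹, ?_, ?_⟩
  · rw [← h1, mul_smul, inv_smul_smul, h3]
  · rw [← h2, mul_smul, inv_smul_smul, h4]

end Cfsg.Agent.S0322
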