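import Cfsg.Statements.S0335
import Cfsg.Agent.Lib.Helper8Sz

set_option autoImplicit false
open Cfsg

namespace Cfsg.Agent.S0335

open Cfsg.Agent.Lib.Helper8Sz

/-- The Suzuki–Tits point set is an ovoid: any three distinct points of it are projectively independent
(no line of projective 3-space meets it in more than two points). -/
theorem result {F : Type*} [Field F] [Fintype F] {m : ℕ} (hm : 1 ≤ m)
    (hF : Fintype.card F = 2 ^ (2 * m + 1)) (p : Fin 3 ↪ Cfsg.suzukiOvoid F m) :
    Projectivization.Independent (fun i => (p i : Projectivization F (Fin 4 → F))) := by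
  -- move the first point to infinity
  have hg : ∃ g ∈ Cfsg.Sz F m, g • (p 0 : Projectivization F (Fin 4 → F)) = suzukiPointInfinity F := by
    rcases mem_ovoid_iff.1 (p 0).2 with h | ⟨a, b, h⟩
    · exact ⟨1, Subgroup.one_mem _, by rw [one_smul, h]⟩
    · refine ⟨wS * (tS m a b)⁻¹, Subgroup.mul_mem _ (wS_mem hF) (Subgroup.inv_mem _ (tS_mem hF a b)), ?_⟩
      have h1 : tS m a b • pt m 0 0 = pt m a b := by
        rw [tS_pt hF]; simp
      rw [h, mul_smul, ← h1, inv_smul_smul, wS_pt_zero]
  obtain ⟨g, hgS, hg0⟩ := hg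
  apply indep_of_smul g
  have hne : ∀ i j : Fin 3, i ≠ j →
      g • (p i : Projectivization F (Fin 4 → F)) ≠ g • (p j : Projectivization F (Fin 4 → F)) := by
    intro i j hij h
    exact hij (p.injective (Subtype.ext (MulAction.injective g h)))
  have h1 : ∃ x y, g • (p 1 : Projectivization F (Fin 4 → F)) = pt m x y := by
    rcases mem_ovoid_iff.1 (smul_mem_ovoid hgS (p 1).2) with h | h
    · exact absurd (h.trans hg0.symm) (hne 1 0 (by decide))
    · exact h
  have h2 : ∃ x y, g • (p 2 : Projectivization F (Fin 4 → F)) = pt m x y := by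
    rcases mem_ovoid_iff.1 (smul_mem_ovoid hgS (p 2).2) with h | h
    · exact absurd (h.trans hg0.symm) (hne 2 0 (by decide))
    · exact h
  obtain ⟨x, y, h1⟩ := h1
  obtain ⟨x', y', h2⟩ := h2
  have hxy : ¬ (x = x' ∧ y = y') := by
    rintro ⟨rfl, rfl⟩
    exact hne 1 2 (by decide) (h1.trans h2.symm)
  have hnz : ∀ i : Fin 3, (![e0, vec m x y, vec m x' y'] : Fin 3 → Fin 4 → F) i ≠ 0 := by
    intro i
    fin_cases i
    · exact e0_ne_zero
    · exact vec_ne_zero m x y
    · exact vec_ne_zero m x' y'
  have := Projectivization.Independent.mk _ hnz (linIndep_infty hxy)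
  convert this using 1
  ext i
  fin_cases i
  · exact hg0
  · exact h1
  · exact h2

end Cfsg.Agent.S0335
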