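import Cfsg.Statements.S0350

set_option autoImplicit false
open Cfsg

namespace Cfsg.Agent.S0350

/-- Counting pairs (t-subset, block containing it) in two ways: the number of blocks of a Steiner system with parameters (t, k, v), multiplied by C(k, t), equals C(v, t). -/
theorem result {α : Type*} [Fintype α] [DecidableEq α] {t k : ℕ} {B : Set (Finset α)} (hB : Cfsg.IsSteinerSystem t k B) : B.ncard * Nat.choose k t = Nat.choose (Fintype.card α) t := by
  classical
  have h := Finset.sum_card_bipartiteAbove_eq_sum_card_bipartiteBelow
    (s := Finset.powersetCard t (Finset.univ : Finset α))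
    (t := Finset.univ.filter (fun c : Finset α => c ∈ B)) (fun s c => s ⊆ c)
  have h1 : ∀ s ∈ Finset.powersetCard t (Finset.univ : Finset α),
      ((Finset.univ.filter (fun c : Finset α => c ∈ B)).bipartiteAbove
        (fun s c => s ⊆ c) s).card = 1 := by
    intro s hs
    rw [Finset.mem_powersetCard] at hs
    obtain ⟨d, hd, hu⟩ := hB.2 s hs.2
    rw [Finset.card_eq_one]
    refine ⟨d, ?_⟩
    ext c
    simp only [Finset.bipartiteAbove, Finset.mem_filter, Finset.mem_univ, true_and,
      Finset.mem_singleton]
    constructor
    · intro hc
      exact hu c hc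
    · rintro rfl
      exact hd
  have h2 : ∀ c ∈ Finset.univ.filter (fun c : Finset α => c ∈ B),
      ((Finset.powersetCard t (Finset.univ : Finset α)).bipartiteBelow
        (fun s c => s ⊆ c) c).card = Nat.choose k t := by
    intro c hc
    simp only [Finset.mem_filter, Finset.mem_univ, true_and] at hc
    have e : (Finset.powersetCard t (Finset.univ : Finset α)).bipartiteBelow
        (fun s c => s ⊆ c) c = Finset.powersetCard t c := by
      ext s
      simp only [Finset.bipartiteBelow, Finset.mem_filter, Finset.mem_powersetCard,
        Finset.subset_univ, true_and]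
      tauto
    rw [e, Finset.card_powersetCard, hB.1 c hc]
  rw [Finset.sum_congr rfl h1, Finset.sum_congr rfl h2, Finset.sum_const, Finset.sum_const,
    smul_eq_mul, smul_eq_mul, mul_one, Finset.card_powersetCard, Finset.card_univ] at h
  have h3 : B = ((Finset.univ.filter (fun c : Finset α => c ∈ B) : Finset (Finset α)) :
      Set (Finset α)) := by
    ext c
    simp
  rw [h3, Set.ncard_coe_finset]
  convert h.symm using 3

end Cfsg.Agent.S0350
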