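import Cfsg.Statements.S0353
import Cfsg.Agent.Lib.Helper8Steiner
import Cfsg.Agent.S0352

set_option autoImplicit false
open Cfsg

namespace Cfsg.Agent.S0353

open Cfsg.Agent.Lib.Helper8Steiner

theorem card_symmDiff_add {α : Type*} [DecidableEq α] (x y : Finset α) :
    (symmDiff x y).card + 2 * (x ∩ y).card = x.card + y.card := by
  have h1 : symmDiff x y = (x \ y) ∪ (y \ x) := rfl
  have h2 : Disjoint (x \ y) (y \ x) := by
    rw [Finset.disjoint_left]
    intro a ha hb
    exact (Finset.mem_sdiff.1 ha).2 (Finset.mem_sdiff.1 hb).1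
  rw [h1, Finset.card_union_of_disjoint h2]
  have h3 := Finset.card_sdiff_add_card_inter x y
  have h4 := Finset.card_sdiff_add_card_inter y x
  rw [Finset.inter_comm y x] at h4
  omega

theorem even_symmDiff_inter {α : Type*} [DecidableEq α] {x y o : Finset α}
    (hx : Even (x ∩ o).card) (hy : Even (y ∩ o).card) : Even (symmDiff x y ∩ o).card := by
  have e : symmDiff x y ∩ o = symmDiff (x ∩ o) (y ∩ o) := inf_symmDiff_distrib_right x y o
  rw [e]
  have := card_symmDiff_add (x ∩ o) (y ∩ o)
  rw [Nat.even_iff] at *
  omega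

/-- In an S(5, 8, 24), the symmetric difference of two blocks meeting in four points is a block. -/
theorem result {α : Type*} [Fintype α] [DecidableEq α] (hα : Fintype.card α = 24) {B : Set (Finset α)} (hB : Cfsg.IsSteinerSystem 5 8 B) {b c : Finset α} (hb : b ∈ B) (hc : c ∈ B) (h4 : (b ∩ c).card = 4) : symmDiff b c ∈ B := by
  classical
  have hev : ∀ x ∈ B, ∀ o ∈ B, Even (x ∩ o).card := by
    intro x hx o ho
    by_cases hxo : x = o
    · subst hxo
      rw [Finset.inter_self, hB.1 x hx]; decide
    · rcases Cfsg.Agent.S0352.result hα hB hx ho hxo with h | h | h <;> rw [h] <;> decide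
  have hw8 : (symmDiff b c).card = 8 := by
    have := card_symmDiff_add b c
    rw [h4, hB.1 b hb, hB.1 c hc] at this
    omega
  have hwev : ∀ o ∈ B, Even (symmDiff b c ∩ o).card := fun o ho =>
    even_symmDiff_inter (hev b hb o ho) (hev c hc o ho)
  obtain ⟨s, hsw, hs5⟩ := Finset.exists_subset_card_eq (s := symmDiff b c) (n := 5) (by omega)
  obtain ⟨o, ⟨ho, hso⟩, _⟩ := hB.2 s hs5
  have h5 : 5 ≤ (symmDiff b c ∩ o).card := by
    rw [← hs5]
    exact Finset.card_le_card (Finset.subset_inter hsw hso)
  have hle : (symmDiff b c ∩ o).card ≤ 8 := by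
    rw [← hw8]
    exact Finset.card_le_card Finset.inter_subset_left
  have hE := hwev o ho
  have hcases : (symmDiff b c ∩ o).card = 6 ∨ (symmDiff b c ∩ o).card = 8 := by
    rw [Nat.even_iff] at hE
    omega
  rcases hcases with h6 | h8
  · exfalso
    have hu4 : (symmDiff (symmDiff b c) o).card = 4 := by
      have := card_symmDiff_add (symmDiff b c) o
      rw [h6, hw8, hB.1 o ho] at this
      omega
    have huev : ∀ o' ∈ B, Even (symmDiff (symmDiff b c) o ∩ o').card := fun o' ho' =>
      even_symmDiff_inter (hwev o' ho') (hev o ho o' ho')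
    obtain ⟨v, hvu, hv3⟩ := Finset.exists_subset_card_eq (s := symmDiff (symmDiff b c) o) (n := 3)
      (by omega)
    have n3 := nb24_3 hα hB v hv3
    have n4 := nb24_4 hα hB _ hu4
    have hex : ∃ o' ∈ B, v ⊆ o' ∧ ¬ (symmDiff (symmDiff b c) o ⊆ o') := by
      by_contra hcon
      push Not at hcon
      have hsub : (Finset.univ.filter (fun c' : Finset α => c' ∈ B ∧ v ⊆ c')) ⊆
          (Finset.univ.filter (fun c' : Finset α => c' ∈ B ∧ symmDiff (symmDiff b c) o ⊆ c')) := by
        intro c' hc'
        simp only [Finset.mem_filter, Finset.mem_univ, true_and] at hc' ⊢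
        exact ⟨hc'.1, hcon c' hc'.1 hc'.2⟩
      have := Finset.card_le_card hsub
      unfold nb at n3 n4
      have e3 : (Finset.univ.filter (fun c' : Finset α => c' ∈ B ∧ v ⊆ c')).card = 21 := by
        rw [← n3]
      have e4 : (Finset.univ.filter
          (fun c' : Finset α => c' ∈ B ∧ symmDiff (symmDiff b c) o ⊆ c')).card = 5 := by
        rw [← n4]
      omega
    obtain ⟨o', ho', hvo', hno'⟩ := hex
    have hge : 3 ≤ (symmDiff (symmDiff b c) o ∩ o').card := by
      rw [← hv3]
      exact Finset.card_le_card (Finset.subset_inter hvu hvo')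
    have hlt : (symmDiff (symmDiff b c) o ∩ o').card < 4 := by
      by_contra hge4
      push Not at hge4
      apply hno'
      have : symmDiff (symmDiff b c) o ∩ o' = symmDiff (symmDiff b c) o :=
        Finset.eq_of_subset_of_card_le Finset.inter_subset_left (by omega)
      rw [← this]
      exact Finset.inter_subset_right
    have := huev o' ho'
    rw [Nat.even_iff] at this
    omega
  · have h1 : symmDiff b c ∩ o = symmDiff b c :=
      Finset.eq_of_subset_of_card_le Finset.inter_subset_left (by omega)
    have h2 : symmDiff b c ∩ o = o :=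
      Finset.eq_of_subset_of_card_le Finset.inter_subset_right (by rw [hB.1 o ho]; omega)
    rw [← h1, h2]
    exact ho

end Cfsg.Agent.S0353
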