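import Cfsg.Statements.S0354
import Cfsg.Agent.Lib.Helper8Steiner

set_option autoImplicit false
open Cfsg

namespace Cfsg.Agent.S0354

open Cfsg.Agent.Lib.Helper8Steiner

/-- In an S(5, 8, 24), each block is disjoint from exactly 30 blocks. -/
theorem result {α : Type*} [Fintype α] [DecidableEq α] (hα : Fintype.card α = 24) {B : Set (Finset α)} (hB : Cfsg.IsSteinerSystem 5 8 B) {b : Finset α} (hb : b ∈ B) : {c : Finset α | c ∈ B ∧ Disjoint b c}.ncard = 30 := by
  classical
  have hl := hlam24 hα hB hb
  have h1 := mu_eq_tri lam24 hl 8 ∅ b (Finset.empty_subset _) (Finset.Subset.refl _)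
    (Finset.disjoint_empty_left _) (hB.1 b hb)
  have h2 : tri lam24 (∅ : Finset α).card 8 = 30 := by
    rw [Finset.card_empty]; decide
  rw [h2] at h1
  have h3 : {c : Finset α | c ∈ B ∧ Disjoint b c} =
      ((Finset.univ.filter (fun c : Finset α => c ∈ B ∧ ∅ ⊆ c ∧ Disjoint c b) : Finset (Finset α)) :
        Set (Finset α)) := by
    ext c
    simp only [Set.mem_ofPred_eq, Finset.coe_filter, Finset.mem_univ, true_and,
      Finset.empty_subset, disjoint_comm]
  rw [h3, Set.ncard_coe_finset]
  have h4 : mu B ∅ b = 30 := by exact_mod_cast h1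
  rw [← h4]
  unfold mu
  congr

end Cfsg.Agent.S0354
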