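import Cfsg.Statements.S0371
import Cfsg.Agent.Lib.Helper9M24

set_option autoImplicit false
open Cfsg

namespace Cfsg.Agent.S0371

open Cfsg.Agent.Lib.Helper9Golay Cfsg.Agent.Lib.Helper9Golay2 Cfsg.Agent.Lib.Helper9M24


/-- Multiplication by a nonzero square residue modulo 23, fixing the extra point, lies in the group of the length-24 code. -/
theorem result (u : (ZMod 23)ˣ) (hu : IsSquare u) : Equiv.optionCongr (Units.mulLeft u) ∈ Cfsg.M24 := by
  rw [mem_M24_iff_preserves]
  have key : ∀ r : ZMod 23, r ≠ 0 →
      preserves (tblF (Option.map (fun x => (r * r) * x))) = true := by decide +kernel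
  obtain ⟨r, rfl⟩ := hu
  have : Fact (Nat.Prime 23) := ⟨by norm_num⟩
  have h := key (r : ZMod 23) (Units.ne_zero r)
  have h2 : (⇑(Equiv.optionCongr (Units.mulLeft (r * r))) : GolayPt → GolayPt)
      = Option.map (fun x => ((r : ZMod 23) * r) * x) := by
    funext p
    cases p <;> simp
  rw [tbl, h2]
  exact h

end Cfsg.Agent.S0371
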