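import Cfsg.Statements.S0375
import Cfsg.Agent.S0407
import Cfsg.Agent.S5622
import Cfsg.Agent.S5624
import Cfsg.Agent.S0358

set_option autoImplicit false
open Cfsg

namespace Cfsg.Agent.S0375

/-- A doubly even self-dual binary code of length 24 with no words of weight 4 is equivalent to the length-24 code built from the squares modulo 23. -/
theorem result (C : Submodule (ZMod 2) (Fin 24 → ZMod 2)) (hdim : Module.finrank (ZMod 2) C = 12) (horth : ∀ v ∈ C, ∀ w ∈ C, ∑ i, v i * w i = 0) (h4 : ∀ w ∈ C, 4 ∣ hammingNorm w) (hno4 : ∀ w ∈ C, hammingNorm w ≠ 4) : ∃ e : Fin 24 ≃ Cfsg.GolayPt, ∀ w : Cfsg.GolayPt → ZMod 2, w ∈ Cfsg.golayCode ↔ (fun i => w (e i)) ∈ C := by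
  have hmin : ∀ w ∈ C, w ≠ 0 → 8 ≤ hammingNorm w := by
    intro w hw hw0
    obtain ⟨k, hk⟩ := h4 w hw
    have h1 := hno4 w hw
    have h2 : hammingNorm w ≠ 0 := by rwa [Ne, hammingNorm_eq_zero]
    omega
  have hS := (S5622.result C hdim horth hmin).2
  have hspan := S5624.result C hdim horth hmin
  obtain ⟨e, he⟩ := S0407.result (by simp) Lib.Helper10Ext.card_golayPt hS
    Lib.Helper10Ext.octads_steiner
  refine ⟨e, ?_⟩
  obtain ⟨T, hT⟩ : ∃ T : (Cfsg.GolayPt → ZMod 2) ≃ₗ[ZMod 2] (Fin 24 → ZMod 2),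
      ∀ w, T w = fun i => w (e i) :=
    ⟨LinearEquiv.funCongrLeft (ZMod 2) (ZMod 2) e, fun w => rfl⟩
  have hle : C ≤ Cfsg.golayCode.map T.toLinearMap := by
    rw [← hspan, Submodule.span_le]
    rintro w ⟨hw, hw8⟩
    have h1 : (Cfsg.support₂ w).image e ∈ Cfsg.octads :=
      he ▸ ⟨Cfsg.support₂ w, ⟨⟨w, hw, rfl⟩, hw8⟩, rfl⟩
    obtain ⟨⟨u, hu, hus⟩, -⟩ := h1
    refine ⟨u, hu, ?_⟩
    show T u = w
    rw [hT]
    funext i
    have h3 : e i ∈ Cfsg.support₂ u ↔ i ∈ Cfsg.support₂ w := by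
      rw [hus, Finset.mem_image]
      constructor
      · rintro ⟨i', hi', h⟩
        exact e.injective h ▸ hi'
      · intro h
        exact ⟨i, h, rfl⟩
    simp only [Cfsg.support₂, Finset.mem_filter, Finset.mem_univ, true_and] at h3
    have h2 : ∀ a b : ZMod 2, (a ≠ 0 ↔ b ≠ 0) → a = b := by decide
    exact h2 _ _ h3
  have heq : C = Cfsg.golayCode.map T.toLinearMap := by
    apply Submodule.eq_of_le_of_finrank_eq hle
    rw [hdim, LinearEquiv.finrank_map_eq, S0358.result]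
  intro w
  rw [heq, ← hT]
  constructor
  · intro hw
    exact ⟨w, hw, rfl⟩
  · rintro ⟨u, hu, hue⟩
    have h5 : u = w := T.injective hue
    exact h5 ▸ hu

end Cfsg.Agent.S0375
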