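import Cfsg.Statements.S0380
import Cfsg.Agent.Lib.Helper34M24b
import Cfsg.Agent.Lib.Helper34Stab
import Cfsg.Agent.Lib.Helper6SL
import Cfsg.Agent.Lib.Helper6Transport
import Cfsg.Agent.Lib.Helper18F4
import Cfsg.Agent.S0243
import Cfsg.Agent.S0249
import Cfsg.Agent.S0378

set_option autoImplicit false
open Cfsg

namespace Cfsg.Agent.S0380

open MulAction Matrix Cfsg.Agent.Lib.Helper33Golay Cfsg.Agent.Lib.Helper34M24
  Cfsg.Agent.Lib.Helper34M12 Cfsg.Agent.Lib.Helper34M24b Cfsg.Agent.Lib.Helper34Stab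
  Cfsg.Agent.Lib.Helper18F4

abbrev K := F4c
abbrev W := Fin 3 → K
abbrev Mat := Matrix (Fin 3) (Fin 3) K
abbrev SL := Matrix.SpecialLinearGroup (Fin 3) K

def el (k : ℕ) : K := ⟨Nat.testBit k 0, Nat.testBit k 1⟩

def cd (x : K) : ℕ := x.a.toNat + 2 * x.b.toNat

def vecOf (c : ℕ) : W := ![el c, el (c / 4), el (c / 16)]

def code (w : W) : ℕ := cd (w 0) + 4 * cd (w 1) + 16 * cd (w 2)

def tabP : List ℕ := [0, 5, 5, 5, 4, 18, 19, 9, 4, 9, 18, 19, 4, 19, 9, 18, 3, 14, 23, 17, 7, 20, 16, 11, 12, 6, 13, 15, 10, 8, 22, 21, 3, 17, 14, 23, 10, 21, 8, 22, 7, 11, 20, 16, 12, 15, 6, 13, 3, 23, 17, 14, 12, 13, 15, 6, 10, 22, 21, 8, 7, 16, 11, 20]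

def tabV : List ℕ := [0, 0, 0, 16, 4, 1, 25, 20, 29, 9, 36, 41, 52, 53, 17, 45, 61, 33, 5, 13, 21, 37, 57, 49]

def tabT : List ℕ := [984818244535754528103549039458486304, 984818244535754528103549039458486304, 984818244535754528103549039458486304, 984818244535754528103549039458486304, 984818244535754528103549039458486304, 966182099583441531322624363496310816, 983548720921252936276249910206105632, 968708902336673183175954409307867168, 984818244535754528103549039458486304, 734314006698834082329304983377741856, 137935104962206912083219455161370656, 592348547565827762175298702812940320, 984818244535754528103549039458486304, 561475773312554808336860583768983584, 944319304547998642267612847938832416, 681942991418186671700734416290678816, 984818244535754528103549039458486304, 984818244535754528103549039458486304, 984818244535754528103549039458486304, 984818244535754528103549039458486304, 984818244535754528103549039458486304, 682115957483838439786319496335296544, 561225190495839078725639875070396448,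 944397937647834838634175266627586080, 984818244535754528103549039458486304, 720981692062171673584743151055243296, 590072960059042287979885064796342304, 220213109803259289183002082616117280, 984818244535754528103549039458486304, 963721886883755259286232606933354528, 967812279691448225500382947153381408, 970499966350631336865513127433832480, 984818244535754528103549039458486304, 984818244535754528103549039458486304, 984818244535754528103549039458486304, 984818244535754528103549039458486304]

def ptOf (w : W) : GolayPt := pt (tabP.getD (code w) 0)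

def vecAt (x : GolayPt) : W := vecOf (tabV.getD (idx x) 0)

def act (A : Mat) (x : GolayPt) : GolayPt := if idx x < 3 then x else ptOf (A *ᵥ vecAt x)

def tT (i j : Fin 3) (c : K) : ℕ := tabT.getD ((i.val * 3 + j.val) * 4 + cd c) 0

theorem ptOf_smul : ∀ (w : W) (c : K), c ≠ 0 → ptOf (c • w) = ptOf w := by decide +kernel

theorem vecAt_ptOf : ∀ w : W, w ≠ 0 → ¬ idx (ptOf w) < 3 ∧ ∃ c : K, c ≠ 0 ∧ vecAt (ptOf w) = c • w := by
  decide +kernel

theorem ptOf_vecAt : ∀ x : GolayPt, ¬ idx x < 3 → ptOf (vecAt x) = x ∧ vecAt x ≠ 0 := by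
  decide +kernel

set_option maxRecDepth 100000 in
theorem tab_ok : ∀ i j : Fin 3, i ≠ j → ∀ c : K, inHF [0, 1, 2] (tT i j c) = true ∧
    ∀ x : GolayPt, act (1 + Matrix.single i j c) x = pt (img (tT i j c) (idx x)) := by
  decide +kernel

theorem act_one (x : GolayPt) : act 1 x = x := by
  unfold act
  split_ifs with h
  · rfl
  · rw [Matrix.one_mulVec]; exact (ptOf_vecAt x h).1

theorem mulVec_ne_zero (B : SL) {v : W} (hv : v ≠ 0) : B.1 *ᵥ v ≠ 0 := by
  intro h
  apply hv
  have h1 : (B⁻¹ * B : SL).1 *ᵥ v = v := by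
    rw [inv_mul_cancel]; exact Matrix.one_mulVec v
  rw [Matrix.SpecialLinearGroup.coe_mul, ← Matrix.mulVec_mulVec, h, Matrix.mulVec_zero] at h1
  exact h1.symm

theorem act_mul (A B : SL) (x : GolayPt) : act (A * B).1 x = act A.1 (act B.1 x) := by
  by_cases h : idx x < 3
  · have hx : ∀ M : Mat, act M x = x := fun M => by unfold act; rw [if_pos h]
    rw [hx, hx, hx]
  · have hB : act B.1 x = ptOf (B.1 *ᵥ vecAt x) := by unfold act; rw [if_neg h]
    have hw := mulVec_ne_zero B (ptOf_vecAt x h).2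
    obtain ⟨h3, c, hc, hcw⟩ := vecAt_ptOf _ hw
    rw [hB]
    unfold act
    rw [if_neg h, if_neg h3, hcw, Matrix.mulVec_smul, ptOf_smul _ _ hc,
      Matrix.SpecialLinearGroup.coe_mul, Matrix.mulVec_mulVec]

/-- the action on the 21 points of the plane, fixing the three other points -/
def actEnd : SL →* Function.End GolayPt where
  toFun A := act A.1
  map_one' := funext act_one
  map_mul' A B := funext (act_mul A B)

def psi : SL →* Equiv.Perm GolayPt := MonoidHom.toHomPerm actEnd

theorem psi_apply (A : SL) (x : GolayPt) : psi A x = act A.1 x := rfl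

theorem psi_transvection {i j : Fin 3} (hij : i ≠ j) (c : K) :
    psi (Matrix.SpecialLinearGroup.transvection hij c) = toPerm (tT i j c) := by
  obtain ⟨h1, h2⟩ := tab_ok i j hij c
  ext1 x
  rw [psi_apply, Matrix.SpecialLinearGroup.transvection_coe, h2 x, toPerm_apply (inHF_spec h1).1]

theorem psi_mem (A : SL) : psi A ∈ HF [0, 1, 2] := by
  refine Cfsg.Agent.Lib.Helper6SL.transvection_induction (fun A => psi A ∈ HF [0, 1, 2]) ?_ ?_ A
  · intro i j hij c
    rw [psi_transvection hij c]
    exact (inHF_spec (tab_ok i j hij c).1).2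
  · intro A B hA hB
    rw [map_mul]
    exact (HF [0, 1, 2]).mul_mem hA hB

def psi' : SL →* ↥(HF [0, 1, 2]) := psi.codRestrict _ psi_mem

theorem center_le : Subgroup.center SL ≤ psi'.ker := by
  intro A hA
  obtain ⟨r, hr, hA'⟩ := Matrix.SpecialLinearGroup.mem_center_iff.1 hA
  have hr0 : r ≠ 0 := by
    rintro rfl
    simp at hr
  rw [MonoidHom.mem_ker]
  apply Subtype.ext
  ext1 x
  change act A.1 x = x
  unfold act
  split_ifs with h
  · rfl
  · rw [← hA', Matrix.scalar_apply, ← Matrix.smul_one_eq_diagonal, Matrix.smul_mulVec,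
      Matrix.one_mulVec, ptOf_smul _ _ hr0]
    exact (ptOf_vecAt x h).1

def psiBar : Matrix.ProjectiveSpecialLinearGroup (Fin 3) K →* ↥(HF [0, 1, 2]) :=
  QuotientGroup.lift _ psi' center_le

theorem psi_ne_one : psi (Matrix.SpecialLinearGroup.transvection (show (0 : Fin 3) ≠ 1 by decide) 1) ≠ 1 := by
  intro h
  have h1 := congrArg (fun f : Equiv.Perm GolayPt => f (pt 4)) h
  simp only [psi_apply, Matrix.SpecialLinearGroup.transvection_coe, Equiv.Perm.one_apply] at h1
  revert h1
  decide +kernel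

theorem psiBar_inj : Function.Injective psiBar := by
  have hs : IsSimpleGroup (Matrix.ProjectiveSpecialLinearGroup (Fin 3) K) :=
    Cfsg.Agent.S0249.result 3 le_rfl
  rw [← MonoidHom.ker_eq_bot_iff]
  rcases hs.eq_bot_or_eq_top_of_normal psiBar.ker inferInstance with h | h
  · exact h
  · exfalso
    apply psi_ne_one
    have h1 : (QuotientGroup.mk (Matrix.SpecialLinearGroup.transvection
        (show (0 : Fin 3) ≠ 1 by decide) (1 : K)) : Matrix.ProjectiveSpecialLinearGroup (Fin 3) K) ∈
        psiBar.ker := by rw [h]; trivial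
    rw [MonoidHom.mem_ker] at h1
    exact congrArg Subtype.val h1

theorem card_PSL : Nat.card (Matrix.ProjectiveSpecialLinearGroup (Fin 3) K) = 20160 := by
  have h := Cfsg.Agent.S0243.result (F := K) (q := 4) F4c.card 3 (by norm_num)
  rw [Fin.prod_univ_three] at h
  have h1 : Nat.gcd 3 (4 - 1) = 3 := by decide
  have h2 : (4 ^ 3 - 4 ^ ((0 : Fin 3) : ℕ)) * (4 ^ 3 - 4 ^ ((1 : Fin 3) : ℕ)) *
      (4 ^ 3 - 4 ^ ((2 : Fin 3) : ℕ)) = 181440 := by decide
  rw [h1, h2] at h
  omega

theorem orbit3 {p q r : GolayPt} (hpq : p ≠ q) (hpr : p ≠ r) (hqr : q ≠ r) :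
    orbit ↥(stabilizer ↥M24 p ⊓ stabilizer ↥M24 q) r = (({p, q}ᶜ : Finset GolayPt) : Set GolayPt) := by
  ext x
  rw [Finset.mem_coe, Finset.mem_compl, Finset.mem_insert, Finset.mem_singleton, not_or]
  constructor
  · rintro ⟨⟨⟨g, hg⟩, hgp, hgq⟩, rfl⟩
    have hgp' : g p = p := hgp
    have hgq' : g q = q := hgq
    change g r ≠ p ∧ g r ≠ q
    constructor
    · intro h; rw [← hgp'] at h; exact hpr (g.injective h).symm
    · intro h; rw [← hgq'] at h; exact hqr (g.injective h).symm
  · rintro ⟨hxp, hxq⟩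
    obtain ⟨k, hk, h1, h2, h3⟩ := three_trans hpq hpr hqr
    obtain ⟨k', hk', h1', h2', h3'⟩ := three_trans hpq (Ne.symm hxp) (Ne.symm hxq)
    refine ⟨⟨⟨k'⁻¹ * k, M24.mul_mem (M24.inv_mem hk') hk⟩, ?_, ?_⟩, ?_⟩
    · change (k'⁻¹ * k) p = p
      rw [Equiv.Perm.mul_apply, h1, ← h1']; simp
    · change (k'⁻¹ * k) q = q
      rw [Equiv.Perm.mul_apply, h2, ← h2']; simp
    · change (k'⁻¹ * k) r = x
      rw [Equiv.Perm.mul_apply, h3, ← h3']; simp

theorem card_stab3 {p q r : GolayPt} (hpq : p ≠ q) (hpr : p ≠ r) (hqr : q ≠ r) :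
    Nat.card ↥(stabilizer ↥M24 p ⊓ stabilizer ↥M24 q ⊓ stabilizer ↥M24 r) = 20160 := by
  have h := card_step (stabilizer ↥M24 p ⊓ stabilizer ↥M24 q) r _ (orbit3 hpq hpr hqr)
  rw [Set.ncard_coe_finset, Finset.card_compl, Finset.card_pair hpq, Cfsg.Agent.S0378.result p q hpq] at h
  have h24 : Fintype.card GolayPt = 24 := by decide
  rw [h24] at h
  omega

/-- conjugation onto the standard stabiliser -/
def conjEquiv {p q r : GolayPt} {k : Equiv.Perm GolayPt} (hk : k ∈ M24)
    (h0 : k p = pt 0) (h1 : k q = pt 1) (h2 : k r = pt 2) :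
    ↥(stabilizer ↥M24 p ⊓ stabilizer ↥M24 q ⊓ stabilizer ↥M24 r) ≃* ↥(HF [0, 1, 2]) where
  toFun g := ⟨k * g.1.1 * k⁻¹, M24.mul_mem (M24.mul_mem hk g.1.2) (M24.inv_mem hk), by
      have e0 : g.1.1 p = p := g.2.1.1
      have e1 : g.1.1 q = q := g.2.1.2
      have e2 : g.1.1 r = r := g.2.2
      intro i hi
      simp only [List.mem_cons, List.not_mem_nil, or_false] at hi
      rcases hi with rfl | rfl | rfl
      · rw [← h0]; simp [e0]
      · rw [← h1]; simp [e1]
      · rw [← h2]; simp [e2]⟩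
  invFun h := ⟨⟨k⁻¹ * h.1 * k, M24.mul_mem (M24.mul_mem (M24.inv_mem hk) h.2.1) hk⟩, ⟨by
      change (k⁻¹ * h.1 * k) p = p
      simp only [Equiv.Perm.mul_apply]
      rw [h0, h.2.2 0 (by simp), ← h0]; simp, by
      change (k⁻¹ * h.1 * k) q = q
      simp only [Equiv.Perm.mul_apply]
      rw [h1, h.2.2 1 (by simp), ← h1]; simp⟩, by
      change (k⁻¹ * h.1 * k) r = r
      simp only [Equiv.Perm.mul_apply]
      rw [h2, h.2.2 2 (by simp), ← h2]; simp⟩
  left_inv g := by
    apply Subtype.ext
    apply Subtype.ext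
    change k⁻¹ * (k * g.1.1 * k⁻¹) * k = g.1.1
    group
  right_inv h := by
    apply Subtype.ext
    change k * (k⁻¹ * h.1 * k) * k⁻¹ = h.1
    group
  map_mul' a b := by
    apply Subtype.ext
    change k * (a.1.1 * b.1.1) * k⁻¹ = (k * a.1.1 * k⁻¹) * (k * b.1.1 * k⁻¹)
    group

/-- A three-point stabiliser in the group of the length-24 code is isomorphic to PSL(3, F) for the field F with 4 elements. -/
theorem result (p q r : Cfsg.GolayPt) (hpq : p ≠ q) (hpr : p ≠ r) (hqr : q ≠ r) (F : Type) [Field F] [Fintype F] (hF : Fintype.card F = 4) : Nonempty (↥(MulAction.stabilizer Cfsg.M24 p ⊓ MulAction.stabilizer Cfsg.M24 q ⊓ MulAction.stabilizer Cfsg.M24 r) ≃* Matrix.ProjectiveSpecialLinearGroup (Fin 3) F) := by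
  obtain ⟨k, hk, h0, h1, h2⟩ := three_trans hpq hpr hqr
  let e := conjEquiv hk h0 h1 h2
  have hc : Nat.card ↥(HF [0, 1, 2]) = 20160 := by
    rw [← Nat.card_congr e.toEquiv]; exact card_stab3 hpq hpr hqr
  have hb : Function.Bijective psiBar := by
    rw [Nat.bijective_iff_injective_and_card]
    exact ⟨psiBar_inj, by rw [card_PSL, hc]⟩
  obtain ⟨f⟩ := Cfsg.Agent.Lib.Helper6Transport.nonempty_pslEquiv (n := Fin 3) (F := F) (K := K)
    (by rw [hF, F4c.card])
  exact ⟨e.trans ((MulEquiv.ofBijective psiBar hb).symm.trans f.symm)⟩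

end Cfsg.Agent.S0380
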