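import Cfsg.Statements.S0385
import Cfsg.Agent.Lib.Helper9Golay2
import Cfsg.Agent.S0363

set_option autoImplicit false
open Cfsg

namespace Cfsg.Agent.S0385

open Cfsg.Agent.Lib.Helper9Golay Cfsg.Agent.Lib.Helper9Golay2


/-- The 6-point intersections of octads with a fixed dodecad form a Steiner system S(5, 6, 12) on the dodecad. -/
theorem result (d : Finset Cfsg.GolayPt) (hd : d ∈ Cfsg.dodecads) : Cfsg.IsSteinerSystem 5 6 {h : Finset {p : Cfsg.GolayPt // p ∈ d} | ∃ o ∈ Cfsg.octads, (o ∩ d).card = 6 ∧ h = Finset.subtype (fun p => p ∈ d) o} := by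
  classical
  constructor
  · rintro h ⟨o, _, h6, rfl⟩
    rw [Finset.card_subtype, ← h6]
    congr 1
  · intro s hs
    set s' : Finset GolayPt := s.map (Function.Embedding.subtype _) with hs'
    have hs'c : s'.card = 5 := by rw [hs', Finset.card_map, hs]
    have hs'd : s' ⊆ d := by
      intro p hp
      rw [hs', Finset.mem_map] at hp
      obtain ⟨q, _, rfl⟩ := hp
      exact q.2
    obtain ⟨o, ⟨ho, hso⟩, huniq⟩ := Cfsg.Agent.S0363.result.2 s' hs'c
    have h5 : 5 ≤ (o ∩ d).card := by
      rw [← hs'c]
      exact Finset.card_le_card (Finset.subset_inter hso hs'd)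
    have h6 : (o ∩ d).card = 6 := by
      have h1 := card_inter_symmDiff o d
      have h2 := even_card_inter ho.1 hd.1
      have h3 := card_of_mem_supports (symmDiff_mem_supports ho.1 hd.1)
      have h4 := ho.2
      have h5' := hd.2
      have h8 : (o ∩ d).card ≤ 8 := h4 ▸ Finset.card_le_card Finset.inter_subset_left
      generalize (o ∩ d).card = a at *
      generalize (symmDiff o d).card = b at *
      omega
    refine ⟨Finset.subtype (fun p => p ∈ d) o, ⟨⟨o, ho, h6, rfl⟩, ?_⟩, ?_⟩
    · intro p hp
      rw [Finset.mem_subtype]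
      apply hso
      rw [hs', Finset.mem_map]
      exact ⟨p, hp, rfl⟩
    · rintro h' ⟨⟨o', ho', _, rfl⟩, hsub⟩
      have : o' = o := by
        apply huniq
        refine ⟨ho', ?_⟩
        intro p hp
        rw [hs', Finset.mem_map] at hp
        obtain ⟨q, hq, rfl⟩ := hp
        exact Finset.mem_subtype.1 (hsub hq)
      rw [this]

end Cfsg.Agent.S0385
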