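import Cfsg.Statements.S0386
import Cfsg.Agent.Lib.Helper9M12b

set_option autoImplicit false
open Cfsg

namespace Cfsg.Agent.S0386

open Cfsg.Agent.Lib.Helper9Golay Cfsg.Agent.Lib.Helper9Golay2 Cfsg.Agent.Lib.Helper9M24
open Cfsg.Agent.Lib.Helper9Chain Cfsg.Agent.Lib.Helper9M12Data Cfsg.Agent.Lib.Helper9M12
open Cfsg.Agent.Lib.Helper9M12b
open scoped Pointwise

theorem count_d1 (j n : ℕ)
    (h : ((Finset.range 4096).filter
      (fun k => popc 24 (code k) = 8 ∧ popc 24 (code k &&& d1) = j)).card = n) :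
    {o : Finset GolayPt | o ∈ octads ∧ (o ∩ fs d1).card = j}.ncard = n := by
  have h1 := ncard_supports_filter (fun s => s.card = 8 ∧ (s ∩ fs d1).card = j)
    (fun k => popc 24 (code k) = 8 ∧ popc 24 (code k &&& d1) = j)
    (fun k _ => by rw [card_fs, ← fs_and, card_fs])
  refine Eq.trans ?_ (h1.trans h)
  apply congrArg Set.ncard
  ext o
  simp only [Set.mem_ofPred_eq, mem_octads_iff, and_assoc]

theorem transport {g0 : Equiv.Perm GolayPt} (hg0 : g0 ∈ M24) (D : Finset GolayPt) (j : ℕ) :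
    {o : Finset GolayPt | o ∈ octads ∧ (o ∩ g0 • D).card = j}.ncard
      = {o : Finset GolayPt | o ∈ octads ∧ (o ∩ D).card = j}.ncard := by
  have : {o : Finset GolayPt | o ∈ octads ∧ (o ∩ g0 • D).card = j}
      = (fun o => g0 • o) '' {o : Finset GolayPt | o ∈ octads ∧ (o ∩ D).card = j} := by
    ext o
    simp only [Set.mem_ofPred_eq, Set.mem_image]
    constructor
    · rintro ⟨ho, hc⟩
      refine ⟨g0⁻¹ • o, ⟨smul_mem_octads (M24.inv_mem hg0) ho, ?_⟩, by simp⟩
      rw [← hc, ← Finset.card_smul_finset g0, Finset.smul_finset_inter, smul_inv_smul]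
    · rintro ⟨o', ⟨ho', hc⟩, rfl⟩
      refine ⟨smul_mem_octads hg0 ho', ?_⟩
      rw [← Finset.smul_finset_inter, Finset.card_smul_finset, hc]
  rw [this]
  exact Set.ncard_image_of_injective _ (MulAction.injective g0)


/-- For a fixed dodecad, 132 octads meet it in 6 points, 132 in 2 points and 495 in 4 points. -/
theorem result (d : Finset Cfsg.GolayPt) (hd : d ∈ Cfsg.dodecads) : {o : Finset Cfsg.GolayPt | o ∈ Cfsg.octads ∧ (o ∩ d).card = 6}.ncard = 132 ∧ {o : Finset Cfsg.GolayPt | o ∈ Cfsg.octads ∧ (o ∩ d).card = 2}.ncard = 132 ∧ {o : Finset Cfsg.GolayPt | o ∈ Cfsg.octads ∧ (o ∩ d).card = 4}.ncard = 495 := by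
  obtain ⟨g0, hg0, rfl⟩ := exists_smul_d1 hd
  rw [transport hg0, transport hg0, transport hg0]
  exact ⟨count_d1 6 132 (by decide +kernel), count_d1 2 132 (by decide +kernel),
    count_d1 4 495 (by decide +kernel)⟩

end Cfsg.Agent.S0386
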