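import Cfsg.Statements.S0388
import Cfsg.Agent.Lib.Helper9M12Simple

set_option autoImplicit false
open scoped Pointwise
open Cfsg

namespace Cfsg.Agent.S0388

/-- The stabiliser of a dodecad and a point on it is simple. -/
theorem result (d : Finset Cfsg.GolayPt) (hd : d ∈ Cfsg.dodecads) (p : Cfsg.GolayPt) (hp : p ∈ d) : IsSimpleGroup ↥(MulAction.stabilizer Cfsg.M24 d ⊓ MulAction.stabilizer Cfsg.M24 p) := by
  exact Cfsg.Agent.Lib.Helper9M12Simple.simple_M11 hd hp

end Cfsg.Agent.S0388
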