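import Cfsg.Statements.S0393
import Cfsg.Agent.S5553
import Cfsg.Prelude.Def_Spor_Conway

set_option autoImplicit false
open Cfsg

namespace Cfsg.Agent.S0393

open Finset
open Cfsg.Agent.Lib.Helper9Golay Cfsg.Agent.Lib.Helper9Golay2 Cfsg.Agent.Lib.Helper94Leech
open Cfsg.Agent.S5553

/-- the subgroup of index `2^12` -/
noncomputable def A : AddSubgroup (GolayPt → ℤ) := Psi.ker.map leechLattice.subtype

theorem A_le : A ≤ leechLattice := by
  rintro _ ⟨v, -, rfl⟩
  exact v.2

theorem mem_A (v : GolayPt → ℤ) : v ∈ A ↔ v ∈ leechLattice ∧ ∀ i, (v i + v none) % 4 = 0 := by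
  constructor
  · rintro ⟨w, hw, rfl⟩
    exact ⟨w.2, (mem_ker_iff w).1 hw⟩
  · rintro ⟨h1, h2⟩
    exact ⟨⟨v, h1⟩, (mem_ker_iff ⟨v, h1⟩).2 h2, rfl⟩

theorem relIndex_A : A.relIndex leechLattice = 2 ^ 12 := by
  have : A.addSubgroupOf leechLattice = Psi.ker := by
    rw [AddSubgroup.addSubgroupOf, A]
    exact AddSubgroup.comap_map_eq_self_of_injective (AddSubgroup.subtype_injective _) _
  rw [AddSubgroup.relIndex, this, index_ker]

/-- the big homomorphism -/
def theta : (GolayPt → ℤ) →+ (ZMod 23 → ZMod 4) × ZMod 8 where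
  toFun x := (fun i => ((x (some i) : ℤ) : ZMod 4), ((∑ p, x p : ℤ) : ZMod 8))
  map_zero' := by
    ext <;> simp
  map_add' x y := by
    ext <;> simp [Finset.sum_add_distrib]

theorem theta_surj : Function.Surjective theta := by
  rintro ⟨a, s⟩
  refine ⟨fun p => match p with
    | none => (s.val : ℤ) - ∑ i, ((a i).val : ℤ)
    | some i => ((a i).val : ℤ), ?_⟩
  ext
  · simp [theta]
  · simp [theta, Fintype.sum_option]

theorem index_ker_theta : theta.ker.index = 2 ^ 49 := by
  rw [AddSubgroup.index_ker, AddMonoidHom.range_eq_top.2 theta_surj, AddSubgroup.card_top]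
  simp

theorem mem_ker_theta (x : GolayPt → ℤ) :
    x ∈ theta.ker ↔ (∀ i : ZMod 23, x (some i) % 4 = 0) ∧ (∑ p, x p) % 8 = 0 := by
  rw [AddMonoidHom.mem_ker]
  have e4 : ∀ a : ℤ, ((a : ℤ) : ZMod 4) = 0 ↔ a % 4 = 0 := by
    intro a
    rw [ZMod.intCast_zmod_eq_zero_iff_dvd]
    simp only [Nat.cast_ofNat]
    omega
  have e8 : ∀ a : ℤ, ((a : ℤ) : ZMod 8) = 0 ↔ a % 8 = 0 := by
    intro a
    rw [ZMod.intCast_zmod_eq_zero_iff_dvd]
    simp only [Nat.cast_ofNat]
    omega
  constructor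
  · intro h
    have h1 := congrArg Prod.fst h
    have h2 := congrArg Prod.snd h
    exact ⟨fun i => (e4 _).1 (congrFun h1 i), (e8 _).1 h2⟩
  · rintro ⟨h1, h2⟩
    exact Prod.ext (funext fun i => (e4 _).2 (h1 i)) ((e8 _).2 h2)

theorem all_mod_four {x : GolayPt → ℤ} (hx : x ∈ theta.ker) : ∀ p, x p % 4 = 0 := by
  obtain ⟨h1, h2⟩ := (mem_ker_theta x).1 hx
  have h3 : (4 : ℤ) ∣ ∑ i : ZMod 23, x (some i) :=
    Finset.dvd_sum (fun i _ => Int.dvd_of_emod_eq_zero (h1 i))
  rw [Fintype.sum_option] at h2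
  intro p
  cases p with
  | none => omega
  | some i => exact h1 i

theorem ker_le_A : theta.ker ≤ A := by
  intro x hx
  have h4 := all_mod_four hx
  obtain ⟨-, h2⟩ := (mem_ker_theta x).1 hx
  rw [mem_A]
  refine ⟨AddSubgroup.subset_closure (Spor.mem_leechSet_of_const_mod_four x 0 0 rfl
    (fun i => h4 i) (by show (∑ i, x i) % 8 = (4 * 0) % 8; rw [h2]; rfl)), fun i => ?_⟩
  have := h4 i
  have := h4 none
  omega

theorem even_none {v : GolayPt → ℤ} (hv : v ∈ A) : v none % 2 = 0 := by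
  have := ((mem_A v).1 hv).2 none
  omega

/-- the last step -/
noncomputable def chi : ↥A →+ ZMod 2 where
  toFun v := ((v.1 none / 2 : ℤ) : ZMod 2)
  map_zero' := by simp
  map_add' v w := by
    have h1 := even_none v.2
    have h2 := even_none w.2
    have : (v + w : ↥A).1 none / 2 = v.1 none / 2 + w.1 none / 2 := by
      simp only [AddSubgroup.coe_add, Pi.add_apply]
      omega
    rw [this]; push_cast; rfl

theorem two_mem_A : (fun _ => 2 : GolayPt → ℤ) ∈ A := by
  rw [mem_A]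
  refine ⟨AddSubgroup.subset_closure (Spor.mem_leechSet_of_const_mod_four _ 0 2 (by decide)
    (fun i => rfl) (by decide)), fun i => by norm_num⟩

theorem chi_surj : Function.Surjective chi := by
  intro a
  have key : ∀ a : ZMod 2, a = 0 ∨ a = 1 := by decide
  rcases key a with rfl | rfl
  · exact ⟨0, map_zero _⟩
  · refine ⟨⟨_, two_mem_A⟩, ?_⟩
    show (((2 : ℤ) / 2 : ℤ) : ZMod 2) = 1
    norm_num

theorem ker_chi : chi.ker = theta.ker.addSubgroupOf A := by
  ext v
  rw [AddMonoidHom.mem_ker, AddSubgroup.mem_addSubgroupOf, mem_ker_theta]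
  have hv := (mem_A v.1).1 v.2
  have he := even_none v.2
  show (((v.1 none / 2 : ℤ) : ZMod 2) = 0) ↔ _
  rw [Cfsg.Agent.S5553.cast_eq_zero_iff]
  constructor
  · intro h
    refine ⟨fun i => ?_, ?_⟩
    · have := hv.2 (some i)
      omega
    · have hL := hv.1
      rw [mem_leechLattice_iff, mem_leechSet_iff] at hL
      obtain ⟨m, h1, h2, -⟩ := hL
      have := h1 none
      omega
  · rintro ⟨h1, h2⟩
    have := all_mod_four ((mem_ker_theta v.1).2 ⟨h1, h2⟩) none
    omega

theorem relIndex_ker : theta.ker.relIndex A = 2 := by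
  rw [AddSubgroup.relIndex, ← ker_chi, AddSubgroup.index_ker,
    AddMonoidHom.range_eq_top.2 chi_surj, AddSubgroup.card_top]
  simp

/-- The lattice has index 2^36 in ℤ^24 (unimodular at scale 1/8). -/
theorem result : Cfsg.leechLattice.index = 2 ^ 36 := by
  have h1 := AddSubgroup.relIndex_mul_relIndex theta.ker A leechLattice ker_le_A A_le
  have h2 := AddSubgroup.relIndex_mul_index (ker_le_A.trans A_le)
  rw [← h1, relIndex_ker, relIndex_A, index_ker_theta] at h2
  have : (2 : ℕ) ^ 49 = 2 * 2 ^ 12 * 2 ^ 36 := by norm_num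
  rw [this] at h2
  exact Nat.eq_of_mul_eq_mul_left (by norm_num) h2

end Cfsg.Agent.S0393
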