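import Cfsg.Statements.S0400
import Cfsg.Agent.Lib.Helper33LMinTrans

set_option autoImplicit false
open Cfsg

namespace Cfsg.Agent.S0400

/-- Automorphisms of the lattice act transitively on vectors of sum of squares 32. -/
theorem result (v w : Cfsg.leechLattice) (hv : Cfsg.sqNorm (v : Cfsg.GolayPt → ℤ) = 32) (hw : Cfsg.sqNorm (w : Cfsg.GolayPt → ℤ) = 32) : ∃ g : Cfsg.Co0, g • v = w :=
  Cfsg.Agent.Lib.Helper33LMinTrans.min_trans v w hv hw

end Cfsg.Agent.S0400
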