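import Cfsg.Statements.S0403
import Cfsg.Agent.Lib.Helper33LOrders

set_option autoImplicit false
open Cfsg
open Cfsg.Agent.Lib.Helper33LFrame Cfsg.Agent.Lib.Helper33LMcL Cfsg.Agent.Lib.Helper33LCo0 Cfsg.Agent.Lib.Helper33LHS Cfsg.Agent.Lib.Helper33LHS2 Cfsg.Agent.Lib.Helper33LPair Cfsg.Agent.Lib.Helper33LBase Cfsg.Agent.Lib.Helper33LGood Cfsg.Agent.Lib.Helper33LOrders

namespace Cfsg.Agent.S0403


/-- Stabiliser of a vector of sum of squares 48 is simple of order 495766656000. -/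
theorem result (v : Cfsg.leechLattice) (hv : Cfsg.sqNorm (v : Cfsg.GolayPt → ℤ) = 48) : Cfsg.IsCo3 (MulAction.stabilizer Cfsg.Co0 v) := by
  obtain ⟨g, hg⟩ := mvU v hv
  have hG : Good [v] 495766656000 := good_mv g _ _ (hg ▸ goodCo3)
  have heq : MulAction.stabilizer Cfsg.Co0 v = fixG [v] := by
    ext k
    rw [MulAction.mem_stabilizer_iff, mem_fixG]
    simp only [Fixes, List.mem_cons, List.not_mem_nil, or_false, forall_eq]
  rw [heq]
  exact hG

end Cfsg.Agent.S0403
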