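import Cfsg.Statements.S0405
import Cfsg.Agent.Lib.Helper33LOrders

set_option autoImplicit false
open Cfsg
open Cfsg.Agent.Lib.Helper33LFrame Cfsg.Agent.Lib.Helper33LMcL Cfsg.Agent.Lib.Helper33LCo0 Cfsg.Agent.Lib.Helper33LHS Cfsg.Agent.Lib.Helper33LHS2 Cfsg.Agent.Lib.Helper33LPair Cfsg.Agent.Lib.Helper33LBase Cfsg.Agent.Lib.Helper33LGood Cfsg.Agent.Lib.Helper33LOrders

namespace Cfsg.Agent.S0405


/-- Joint stabiliser of two vectors of sum of squares 48 with coordinate dot product −32 is simple of order 44352000. -/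
theorem result (v w : Cfsg.leechLattice) (hv : Cfsg.sqNorm (v : Cfsg.GolayPt → ℤ) = 48) (hw : Cfsg.sqNorm (w : Cfsg.GolayPt → ℤ) = 48) (hvw : Cfsg.dotInt (v : Cfsg.GolayPt → ℤ) (w : Cfsg.GolayPt → ℤ) = -32) : Cfsg.IsHS ↥(MulAction.stabilizer Cfsg.Co0 v ⊓ MulAction.stabilizer Cfsg.Co0 w) := by
  obtain ⟨g, hg⟩ := mvVW v w hv hw hvw
  have hG : Good [v, mOf v w] 44352000 := good_mv g _ _ (hg ▸ goodHS)
  have heq : MulAction.stabilizer Cfsg.Co0 v ⊓ MulAction.stabilizer Cfsg.Co0 w = fixG [v, mOf v w] := by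
    ext k
    rw [Subgroup.mem_inf, MulAction.mem_stabilizer_iff, MulAction.mem_stabilizer_iff, mem_fixG]
    constructor
    · rintro ⟨h1, h2⟩ b hb
      simp only [List.mem_cons, List.not_mem_nil, or_false] at hb
      rcases hb with rfl | rfl
      · exact h1
      · unfold mOf
        rw [smul_neg', smul_add', h1, h2]
    · intro h
      exact fix_w k v w [] h
  rw [heq]
  exact hG

end Cfsg.Agent.S0405
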