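import Cfsg.Statements.S0412
import Cfsg.Agent.Lib.Helper10Aut
import Cfsg.Agent.S0407
import Cfsg.Agent.S0364
import Cfsg.Agent.S0365
import Cfsg.Agent.S0366
import Cfsg.Agent.S0369

set_option autoImplicit false
open Cfsg

namespace Cfsg.Agent.S0412

/-- Aut of an S(5, 8, 24) is simple of order 244823040 and 5-transitive on points. -/
theorem result {α : Type*} [Fintype α] [DecidableEq α] (hα : Fintype.card α = 24) {B : Set (Finset α)} (hB : Cfsg.IsSteinerSystem 5 8 B) : Cfsg.IsM24 (Cfsg.setSystemAut B) ∧ MulAction.IsMultiplyPretransitive (Cfsg.setSystemAut B) α 5 := by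
  obtain ⟨e, he⟩ := S0407.result hα Lib.Helper10Ext.card_golayPt hB Lib.Helper10Ext.octads_steiner
  obtain ⟨Φ, hΦ⟩ := Lib.Helper10Aut.aut_equiv e he
  have hM : Cfsg.M24 = Cfsg.setSystemAut Cfsg.octads := S0369.result
  obtain ⟨Ψ, hΨ⟩ : ∃ Ψ : Cfsg.setSystemAut B ≃* Cfsg.M24, ∀ (g : Cfsg.setSystemAut B) (a : α),
      (Ψ g : Equiv.Perm Cfsg.GolayPt) (e a) = e ((g : Equiv.Perm α) a) :=
    ⟨Φ.trans (MulEquiv.subgroupCongr hM.symm), hΦ⟩
  refine ⟨⟨?_, ?_⟩, ?_⟩
  · haveI := S0365.result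
    exact Ψ.isSimpleGroup
  · rw [Nat.card_congr Ψ.toEquiv, S0364.result]
  · apply Lib.Helper10Aut.mpt_transport 5 e.symm e.symm.surjective (fun g => Ψ.symm g) ?_
      S0366.result
    intro g a
    have h := hΨ (Ψ.symm g) (e.symm a)
    rw [MulEquiv.apply_symm_apply, Equiv.apply_symm_apply] at h
    show ((Ψ.symm g : Cfsg.setSystemAut B) : Equiv.Perm α) (e.symm a) =
      e.symm ((g : Equiv.Perm Cfsg.GolayPt) a)
    rw [h, Equiv.symm_apply_apply]

end Cfsg.Agent.S0412
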