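import Cfsg.Statements.S0413
import Cfsg.Agent.Lib.Helper10AutW
import Cfsg.Agent.S0376
import Cfsg.Agent.S0377

set_option autoImplicit false
open Cfsg

namespace Cfsg.Agent.S0413

/-- Aut of an S(4, 7, 23) is simple of order 10200960 and 4-transitive. -/
theorem result {α : Type*} [Fintype α] [DecidableEq α] (hα : Fintype.card α = 23) {B : Set (Finset α)} (hB : Cfsg.IsSteinerSystem 4 7 B) : Cfsg.IsM23 (Cfsg.setSystemAut B) ∧ MulAction.IsMultiplyPretransitive (Cfsg.setSystemAut B) α 4 := by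
  obtain ⟨e, he⟩ := Lib.Helper10Chain.U1 hα hB
  obtain ⟨Φ, hΦ⟩ := Lib.Helper10Aut.aut_equiv e he
  obtain ⟨Θ, hΘ⟩ := Lib.Helper10AutW.exists_equiv_A1
  refine ⟨⟨?_, ?_⟩, ?_⟩
  · have := S0377.result none
    exact (Φ.trans Θ.symm).isSimpleGroup
  · rw [Nat.card_congr (Φ.trans Θ.symm).toEquiv, S0376.result]
  · have h5 := S0366.result
    have htr : MulAction.IsPretransitive Cfsg.M24 Cfsg.GolayPt :=
      MulAction.is_one_pretransitive_iff.1 (MulAction.isMultiplyPretransitive_of_le (n := 5)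
        (by norm_num) (by rw [S0377.card_GolayPt]; norm_num))
    have h4 : MulAction.IsMultiplyPretransitive (MulAction.stabilizer Cfsg.M24 (none : Cfsg.GolayPt))
        (SubMulAction.ofStabilizer Cfsg.M24 (none : Cfsg.GolayPt)) 4 :=
      SubMulAction.ofStabilizer.isMultiplyPretransitive.mp h5
    have hmem : ∀ x : SubMulAction.ofStabilizer Cfsg.M24 (none : Cfsg.GolayPt),
        (x : Cfsg.GolayPt) ∉ Lib.Helper10Chain.A1 := by
      intro x hx
      have h1 : (x : Cfsg.GolayPt) = none := by simpa [Lib.Helper10Chain.A1] using hx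
      exact (SubMulAction.mem_ofStabilizer_iff Cfsg.M24 none).1 x.2 h1
    apply Lib.Helper10Aut.mpt_transport 4 (fun x => e.symm ⟨x.1, hmem x⟩) ?_
      (fun g => Φ.symm (Θ g)) ?_ h4
    · intro a
      refine ⟨⟨(e a).1, ?_⟩, ?_⟩
      · rw [SubMulAction.mem_ofStabilizer_iff]
        intro h
        exact (e a).2 (by simpa [Lib.Helper10Chain.A1] using h)
      · simp
    · intro g x
      have h := hΦ (Φ.symm (Θ g)) (e.symm ⟨x.1, hmem x⟩)
      rw [MulEquiv.apply_symm_apply, Equiv.apply_symm_apply] at h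
      show ((Φ.symm (Θ g) : Cfsg.setSystemAut B) : Equiv.Perm α) (e.symm ⟨x.1, hmem x⟩) =
        e.symm ⟨(g • x).1, hmem (g • x)⟩
      rw [Equiv.eq_symm_apply, ← h]
      exact Subtype.ext (hΘ g ⟨x.1, hmem x⟩)

end Cfsg.Agent.S0413
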