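import Cfsg.Statements.S0423
-- import your own Cfsg.Agent.* helpers here
import Cfsg.Agent.Lib.Helper63J2a
import Cfsg.Agent.Lib.Helper33Max

set_option autoImplicit false
open Cfsg

namespace Cfsg.Agent.S0423

open Cfsg.Agent.Lib.Helper63J2a MulAction

abbrev J : Subgroup (Equiv.Perm (Fin 100)) := C 4

theorem smul_def' (g : J) (x : Fin 100) : g • x = (g : Equiv.Perm (Fin 100)) x := rfl

instance trans_J : IsPretransitive J (Fin 100) := by
  have h0 : ∀ y : Fin 100, ∃ g : J, g • (0 : Fin 100) = y := by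
    intro y
    obtain ⟨g, hg, h⟩ := exists_mem_C4 y
    exact ⟨⟨g, hg⟩, h⟩
  refine ⟨fun x y => ?_⟩
  obtain ⟨g, hg⟩ := h0 x
  obtain ⟨g', hg'⟩ := h0 y
  refine ⟨g' * g⁻¹, ?_⟩
  rw [mul_smul, ← hg, inv_smul_smul, hg']

theorem orbit_eq (x : Fin 100) : orbit J x = Set.univ := orbit_eq_univ J x

theorem coatom : IsCoatom (stabilizer J (0 : Fin 100)) := by
  apply Cfsg.Agent.Lib.Helper33Max.isCoatom_stabilizer (0 : Fin 100) 3 col ![1, 36, 63]
  · intro i
    rw [← col_count i, ← Set.ncard_coe_finset]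
    congr 1
    ext y
    simp [orbit_eq]
  · intro y _ y' _ h
    obtain ⟨g, hg, hgy⟩ := exists_mem_C3 y y' h
    exact ⟨⟨g, C_mono (by norm_num) hg⟩, C3_fix g hg, hgy⟩
  · exact ⟨1, by rw [col_zero]; decide, by decide⟩
  · rw [col_zero]
    decide

instance prim_J : IsPreprimitive J (Fin 100) :=
  (isCoatom_stabilizer_iff_preprimitive (G := J) (0 : Fin 100)).1 coatom

theorem simple_J : IsSimpleGroup J := by
  have hcard : Nat.card J = 604800 := card_C4
  haveI : Nontrivial J := by
    apply Finite.one_lt_card_iff_nontrivial.1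
    rw [hcard]; norm_num
  refine ⟨fun N hN => ?_⟩
  by_cases hbot : N = ⊥
  · exact Or.inl hbot
  right
  -- `N` is transitive
  have hfp : fixedPoints N (Fin 100) ≠ Set.univ := by
    intro h
    apply hbot
    rw [eq_bot_iff]
    intro n hn
    rw [Subgroup.mem_bot]
    apply Subtype.ext
    ext x
    have hx : x ∈ fixedPoints N (Fin 100) := by rw [h]; trivial
    have := hx ⟨n, hn⟩
    exact congrArg Fin.val this
  haveI : IsPretransitive N (Fin 100) := IsQuasiPreprimitive.isPretransitive_of_normal hfp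
  have h100 : 100 ∣ Nat.card N := by
    have h1 : (stabilizer N (0 : Fin 100)).index = 100 := by
      rw [index_stabilizer, orbit_eq_univ, Set.ncard_univ]
      simp
    have h2 := Subgroup.index_dvd_card (stabilizer N (0 : Fin 100))
    rwa [h1] at h2
  have hidx : N.index ∣ 6048 := by
    obtain ⟨c, hc⟩ := h100
    have h2 := N.card_mul_index
    rw [hcard, hc] at h2
    have h3 : c * N.index = 6048 := by
      have : 100 * (c * N.index) = 100 * 6048 := by rw [← mul_assoc, h2]
      omega
    exact Dvd.intro_left _ h3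
  have hcop : Nat.Coprime N.index 5 := by
    apply Nat.Coprime.coprime_dvd_left hidx
    norm_num
  have hfive : ∀ g : J, g ^ 5 = 1 → g ∈ N := by
    intro g hg
    obtain ⟨m, -, hm⟩ := Nat.exists_mul_mod_eq_one_of_coprime hcop (by norm_num)
    have h1 : g ^ (N.index * m) ∈ N := by
      rw [pow_mul]
      exact N.pow_mem (Subgroup.pow_index_mem N g) m
    have h2 : g ^ (N.index * m) = g := by
      rw [← Nat.div_add_mod (N.index * m) 5, hm, pow_add, pow_mul, hg, one_pow, one_mul, pow_one]
    rwa [h2] at h1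
  have hle : J ≤ N.map J.subtype := by
    apply gens_mem_of_five
    intro g hg h5
    exact ⟨⟨g, hg⟩, hfive ⟨g, hg⟩ (Subtype.ext h5), rfl⟩
  rw [eq_top_iff]
  intro g _
  obtain ⟨n, hn, hng⟩ := hle g.2
  have : n = g := Subtype.ext hng
  rwa [← this]

/-- Existence of a simple group of order 604800. -/
theorem result : ∃ G : Subgroup (Equiv.Perm (Fin 100)), Cfsg.IsJ2 G := by
  exact ⟨J, simple_J, card_C4⟩

end Cfsg.Agent.S0423
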