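import Cfsg.Statements.S0430
import Cfsg.Agent.Lib.Helper10SRGUniq2

set_option autoImplicit false
open Cfsg

namespace Cfsg.Agent.S0430

/-- Uniqueness of the strongly regular graph with parameters (100, 22, 0, 6). -/
theorem result {V W : Type*} [Fintype V] [Fintype W] {G : SimpleGraph V} {H : SimpleGraph W} [DecidableRel G.Adj] [DecidableRel H.Adj] (hG : G.IsSRGWith 100 22 0 6) (hH : H.IsSRGWith 100 22 0 6) : Nonempty (G ≃g H) := by
  classical
  have hV : Nonempty V := by
    rw [← Fintype.card_pos_iff, hG.card]; norm_num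
  have hW : Nonempty W := by
    rw [← Fintype.card_pos_iff, hH.card]; norm_num
  obtain ⟨x⟩ := hV
  obtain ⟨y⟩ := hW
  obtain ⟨φ, _⟩ := Cfsg.Agent.Lib.Helper10SRGUniq.exists_iso_base
    (Cfsg.Agent.Lib.Helper10SRGUniq.of_isSRGWith hG)
    (Cfsg.Agent.Lib.Helper10SRGUniq.of_isSRGWith hH) x y
  exact ⟨φ⟩

end Cfsg.Agent.S0430
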