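import Cfsg.Statements.S0440
import Cfsg.Agent.S0765

set_option autoImplicit false
open Cfsg

namespace Cfsg.Agent.S0440

open Matrix Cfsg.Agent.Lib.Helper17Symp Cfsg.Agent.Lib.Helper17Symp2

variable {n : ℕ}

local notation "V" => (Fin n ⊕ Fin n → ZMod 2)
local notation "Sp" => Matrix.symplecticGroup (Fin n) (ZMod 2)
local notation "Mat" => Matrix (Fin n ⊕ Fin n) (Fin n ⊕ Fin n) (ZMod 2)

/-- the transvection attached to `w` -/
def t (w : V) : Sp := tv n w 1

theorem t_mulVec (w x : V) : ((t w : Sp) : Mat) *ᵥ x = x + sympForm n (ZMod 2) x w • w := by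
  unfold t
  rw [tv_mulVec, one_mul]

theorem sp_ext {A A' : Sp} (h : ∀ x : V, (A : Mat) *ᵥ x = (A' : Mat) *ᵥ x) : A = A' :=
  Subtype.ext (Matrix.ext_iff_mulVec.mpr h)

theorem add_self_vec (x : V) : x + x = 0 := by
  funext i
  exact CharTwo.add_self_eq_zero _

theorem form_symm (u v : V) : sympForm n (ZMod 2) u v = sympForm n (ZMod 2) v u := by
  rw [sympForm_swap, CharTwo.neg_eq]

theorem t_mul_self (w : V) : t w * t w = 1 := by
  apply sp_ext
  intro x
  rw [coe_mul_mulVec, t_mulVec, t_mulVec, sympForm_add_left, sympForm_smul_left, sympForm_self,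
    mul_zero, add_zero, add_assoc, add_self_vec, add_zero]
  simp

theorem t_inv (w : V) : (t w)⁻¹ = t w := inv_eq_of_mul_eq_one_left (t_mul_self w)

theorem exists_partner (u : V) (hu : u ≠ 0) : ∃ v : V, sympForm n (ZMod 2) u v = 1 := by
  by_contra hcon
  push Not at hcon
  apply hu
  apply sympForm_nondeg n u
  intro v
  have key : ∀ a : ZMod 2, a ≠ 1 → a = 0 := by decide
  exact key _ (hcon v)

theorem t_ne_one (w : V) (hw : w ≠ 0) : t w ≠ 1 := by
  intro h
  obtain ⟨v, hv⟩ := exists_partner w hw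
  have h1 := t_mulVec w v
  rw [h, form_symm, hv] at h1
  simp at h1
  exact hw h1

theorem conj_t (g : Sp) (w : V) : g * t w * g⁻¹ = t ((g : Mat) *ᵥ w) := by
  apply sp_ext
  intro x
  rw [coe_mul_mulVec, coe_mul_mulVec, t_mulVec, t_mulVec, mulVec_add, mulVec_smul, coe_inv_mulVec]
  congr 2
  rw [← preserves g, coe_inv_mulVec]

theorem t_mul_pow (u v : V) : (t u * t v) ^ 2 = 1 ∨ (t u * t v) ^ 3 = 1 := by
  have key : ∀ a : ZMod 2, a = 0 ∨ a = 1 := by decide
  rcases key (sympForm n (ZMod 2) u v) with h | h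
  · left
    have h1 := conj_t (t u) v
    rw [t_mulVec, form_symm, h, zero_smul, add_zero, t_inv] at h1
    have hc : Commute (t u) (t v) := by
      show t u * t v = t v * t u
      calc t u * t v = t u * t v * (t u * t u) := by rw [t_mul_self, mul_one]
        _ = (t u * t v * t u) * t u := by rw [mul_assoc (t u * t v)]
        _ = t v * t u := by rw [h1]
    rw [hc.mul_pow, pow_two, pow_two, t_mul_self, t_mul_self, one_mul]
  · right
    have h1 := conj_t (t u) v
    rw [t_mulVec, form_symm, h, one_smul, t_inv] at h1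
    have h2 := conj_t (t v) u
    rw [t_mulVec, h, one_smul, t_inv, add_comm] at h2
    calc (t u * t v) ^ 3 = (t u * t v * t u) * (t v * t u * t v) := by
          rw [pow_succ, pow_two]; simp only [mul_assoc]
      _ = 1 := by rw [h1, h2, t_mul_self]

theorem rank_t (w : V) (hw : w ≠ 0) : (((t w : Sp) : Mat) - 1).rank = 1 := by
  unfold Matrix.rank
  have hr : LinearMap.range (((t w : Sp) : Mat) - 1).mulVecLin = Submodule.span (ZMod 2) {w} := by
    apply le_antisymm
    · rintro _ ⟨x, rfl⟩
      rw [mulVecLin_apply, sub_mulVec, t_mulVec, one_mulVec, add_sub_cancel_left]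
      exact Submodule.smul_mem _ _ (Submodule.mem_span_singleton_self w)
    · rw [Submodule.span_singleton_le_iff_mem]
      obtain ⟨v, hv⟩ := exists_partner w hw
      refine ⟨v, ?_⟩
      rw [mulVecLin_apply, sub_mulVec, t_mulVec, one_mulVec, add_sub_cancel_left, form_symm, hv,
        one_smul]
  rw [hr]
  exact finrank_span_singleton hw

theorem eq_t_of_rank (g : Sp) (hg : ((g : Mat) - 1).rank = 1) : ∃ w : V, w ≠ 0 ∧ g = t w := by
  unfold Matrix.rank at hg
  obtain ⟨⟨u, hu⟩, hu0, huspan⟩ := finrank_eq_one_iff'.mp hg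
  have hu0' : u ≠ 0 := fun h => hu0 (Subtype.ext h)
  have hc : ∀ x : V, ∃ c : ZMod 2, (g : Mat) *ᵥ x = x + c • u := by
    intro x
    obtain ⟨c, hc⟩ := huspan ⟨((g : Mat) - 1).mulVecLin x, LinearMap.mem_range_self _ x⟩
    refine ⟨c, ?_⟩
    have h1 : c • u = ((g : Mat) - 1).mulVecLin x := congrArg Subtype.val hc
    rw [mulVecLin_apply, sub_mulVec, one_mulVec] at h1
    rw [h1]; abel
  choose c hc using hc
  obtain ⟨y0, hy0⟩ := hu
  rw [mulVecLin_apply, sub_mulVec, one_mulVec, hc, add_sub_cancel_left] at hy0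
  have key01 : ∀ a : ZMod 2, a = 0 ∨ a = 1 := by decide
  have hcy0 : c y0 = 1 := by
    rcases key01 (c y0) with h | h
    · rw [h, zero_smul] at hy0; exact absurd hy0.symm hu0'
    · exact h
  have hpres : ∀ x y : V, c y * sympForm n (ZMod 2) x u = c x * sympForm n (ZMod 2) y u := by
    intro x y
    have h1 := preserves g x y
    rw [hc x, hc y] at h1
    simp only [sympForm_add_left, sympForm_add_right, sympForm_smul_left, sympForm_smul_right,
      sympForm_self, mul_zero, add_zero] at h1
    rw [form_symm u y] at h1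
    have h2 : c y * sympForm n (ZMod 2) x u + c x * sympForm n (ZMod 2) y u = 0 := by
      have := h1
      rw [add_assoc] at this
      rw [add_comm]
      exact left_eq_add.mp this.symm
    exact CharTwo.add_eq_zero.mp h2
  obtain ⟨v, hv⟩ := exists_partner u hu0'
  have hy0u : sympForm n (ZMod 2) y0 u = 1 := by
    rcases key01 (sympForm n (ZMod 2) y0 u) with h | h
    · have := hpres v y0
      rw [hcy0, one_mul, form_symm, hv, h, mul_zero] at this
      exact absurd this one_ne_zero
    · exact h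
  refine ⟨u, hu0', sp_ext fun x => ?_⟩
  have := hpres x y0
  rw [hcy0, one_mul, hy0u, mul_one] at this
  rw [hc, t_mulVec, this]

theorem mem_iff (g : Sp) : ((g : Mat) - 1).rank = 1 ↔ ∃ w : V, w ≠ 0 ∧ g = t w :=
  ⟨eq_t_of_rank g, by rintro ⟨w, hw, rfl⟩; exact rank_t w hw⟩

/-- In the symplectic group in dimension 2n ≥ 2 over the field with two elements, the elements g for which g - 1 has rank one (the symplectic transvections) form a conjugacy class of 3-transpositions generating the group. -/
theorem result (n : ℕ) (hn : 1 ≤ n) : Cfsg.IsThreeTranspositionClass {g : Matrix.symplecticGroup (Fin n) (ZMod 2) | ((g : Matrix (Fin n ⊕ Fin n) (Fin n ⊕ Fin n) (ZMod 2)) - 1).rank = 1} := by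
  refine ⟨⟨?_, ?_⟩, ?_, ?_⟩
  · intro d hd
    obtain ⟨w, hw, rfl⟩ := (mem_iff d).mp hd
    exact orderOf_eq_prime (by rw [pow_two, t_mul_self]) (t_ne_one w hw)
  · intro d hd e he
    obtain ⟨u, -, rfl⟩ := (mem_iff d).mp hd
    obtain ⟨v, -, rfl⟩ := (mem_iff e).mp he
    exact t_mul_pow u v
  · let e0 : Fin n ⊕ Fin n → ZMod 2 := Pi.single (Sum.inl ⟨0, hn⟩) 1
    have he0 : e0 ≠ 0 := by
      intro h
      have := congrFun h (Sum.inl ⟨0, hn⟩)
      simp [e0] at this
    refine ⟨t e0, (mem_iff _).mpr ⟨e0, he0, rfl⟩, ?_⟩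
    ext g
    show _ ↔ IsConj (t e0) g
    constructor
    · intro hg
      obtain ⟨w, hw, rfl⟩ := (mem_iff g).mp hg
      obtain ⟨v, hv⟩ := exists_partner e0 he0
      obtain ⟨v', hv'⟩ := exists_partner w hw
      obtain ⟨A, -, hA⟩ := trans_vec ⊤ e0 v w v' trivial trivial trivial trivial hv hv'
      rw [isConj_iff]
      exact ⟨A, by rw [conj_t, hA]⟩
    · intro hg
      obtain ⟨A, hA⟩ := isConj_iff.mp hg
      rw [conj_t] at hA
      refine (mem_iff g).mpr ⟨_, ?_, hA.symm⟩
      intro h0
      apply he0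
      have := coe_inv_mulVec' A e0
      rw [h0, mulVec_zero] at this
      exact this.symm
  · rw [eq_top_iff, ← S0765.result n, Subgroup.closure_le]
    rintro A ⟨w, c, hA⟩
    have key01 : ∀ a : ZMod 2, a = 0 ∨ a = 1 := by decide
    by_cases hw : w = 0
    · have : A = 1 := by
        apply Subtype.ext
        rw [hA, hw]
        simp [sympTransvection]
      rw [this]; exact one_mem _
    rcases key01 c with rfl | rfl
    · have : A = 1 := by
        apply Subtype.ext
        rw [hA]
        simp [sympTransvection]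
      rw [this]; exact one_mem _
    · apply Subgroup.subset_closure
      exact (mem_iff A).mpr ⟨w, hw, Subtype.ext hA⟩

end Cfsg.Agent.S0440
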