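import Mathlib
import Cfsg.Statements.S0442

set_option autoImplicit false
open Cfsg

namespace Cfsg.Agent.S0442

theorem conj_pow_inv {G : Type*} [Group G] (a c : G) (ha : a * a = 1) (hc : c * c = 1) (m : ℕ) :
    a * (a * c) ^ m * a = ((a * c) ^ m)⁻¹ := by
  have hainv : a⁻¹ = a := inv_eq_of_mul_eq_one_left ha
  have hcinv : c⁻¹ = c := inv_eq_of_mul_eq_one_left hc
  have h1 : a * (a * c) ^ m * a = (a * (a * c) * a⁻¹) ^ m := by
    rw [_root_.conj_pow, hainv]
  rw [h1, ← inv_pow]
  congr 1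
  rw [mul_inv_rev, hainv, hcinv, ← mul_assoc, ha, one_mul]

theorem comm_of_even {G : Type*} [Group G] (a c : G) (ha : a * a = 1) (hc : c * c = 1) (m : ℕ)
    (h : (a * c) ^ (2 * m) = 1) : Commute ((a * c) ^ m) a := by
  have h1 := conj_pow_inv a c ha hc m
  have h2 : ((a * c) ^ m)⁻¹ = (a * c) ^ m := by
    rw [inv_eq_iff_mul_eq_one, ← pow_add, ← two_mul, h]
  rw [h2] at h1
  show (a * c) ^ m * a = a * (a * c) ^ m
  calc (a * c) ^ m * a = (a * (a * c) ^ m * a) * a := by rw [h1]
    _ = a * (a * c) ^ m := by rw [mul_assoc, ha, mul_one]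

/-- A standard trick for producing elements of an involution centraliser: for an involution a and an element g, let b be the conjugate g⁻¹ * a * g. If a * b has odd order 2m + 1 then g * (a * b) ^ m commutes with a; if a * b has even order 2m then (a * b) ^ m and (a * (g * a * g⁻¹)) ^ m commute with a. -/
theorem result {G : Type*} [Group G] (a g : G) (ha : orderOf a = 2) : (∀ m : ℕ, orderOf (a * (g⁻¹ * a * g)) = 2 * m + 1 → Commute (g * (a * (g⁻¹ * a * g)) ^ m) a) ∧ (∀ m : ℕ, orderOf (a * (g⁻¹ * a * g)) = 2 * m → Commute ((a * (g⁻¹ * a * g)) ^ m) a ∧ Commute ((a * (g * a * g⁻¹)) ^ m) a) := by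
  have haa : a * a = 1 := by
    have := pow_orderOf_eq_one a
    rw [ha, pow_two] at this
    exact this
  have hainv : a⁻¹ = a := inv_eq_of_mul_eq_one_left haa
  have hb : (g⁻¹ * a * g) * (g⁻¹ * a * g) = 1 := by
    calc (g⁻¹ * a * g) * (g⁻¹ * a * g) = g⁻¹ * (a * a) * g := by group
      _ = 1 := by rw [haa]; group
  have hb' : (g * a * g⁻¹) * (g * a * g⁻¹) = 1 := by
    calc (g * a * g⁻¹) * (g * a * g⁻¹) = g * (a * a) * g⁻¹ := by group
      _ = 1 := by rw [haa]; group
  constructor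
  · intro m hm
    set b := g⁻¹ * a * g with hbdef
    have h1 := conj_pow_inv a b haa hb m
    have hpow : (a * b) ^ (2 * m + 1) = 1 := by rw [← hm]; exact pow_orderOf_eq_one _
    have h2 : ((a * b) ^ m)⁻¹ = (a * b) ^ (m + 1) := by
      rw [inv_eq_iff_mul_eq_one, ← pow_add]
      have : m + (m + 1) = 2 * m + 1 := by ring
      rw [this, hpow]
    rw [h2] at h1
    have hgb : a * g = g * b := by rw [hbdef]; group
    show g * (a * b) ^ m * a = a * (g * (a * b) ^ m)
    rw [← mul_assoc a g, hgb]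
    have h3 : (a * b) ^ m * a = a * (a * b) ^ (m + 1) := by
      rw [← h1]
      generalize (a * b) ^ m = y
      rw [← mul_assoc a, ← mul_assoc a, haa, one_mul]
    rw [mul_assoc g, h3, pow_succ', mul_assoc g]
    congr 1
    generalize (a * b) ^ m = y
    rw [← mul_assoc a, ← mul_assoc a, haa, one_mul]
  · intro m hm
    have hpow : (a * (g⁻¹ * a * g)) ^ (2 * m) = 1 := by rw [← hm]; exact pow_orderOf_eq_one _
    refine ⟨comm_of_even a _ haa hb m hpow, comm_of_even a _ haa hb' m ?_⟩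
    have e : a * (g * a * g⁻¹) = g * (a * (g⁻¹ * a * g))⁻¹ * g⁻¹ := by
      rw [mul_inv_rev, mul_inv_rev, mul_inv_rev, inv_inv, hainv]; group
    rw [e, _root_.conj_pow, inv_pow, hpow]; group

end Cfsg.Agent.S0442
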