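import Cfsg.Statements.S0443

set_option autoImplicit false
open Cfsg

namespace Cfsg.Agent.S0443

/-- Two definitions of a 2-central involution agree: an element t of order 2 of a finite group lies in the centre of some Sylow 2-subgroup if and only if its centraliser contains some Sylow 2-subgroup. -/
theorem result {G : Type*} [Group G] [Finite G] (t : G) (ht : orderOf t = 2) : Cfsg.IsTwoCentralInvolution t ↔ ∃ P : Sylow 2 G, (P : Subgroup G) ≤ Subgroup.centralizer ({t} : Set G) := by
  have : Fact (Nat.Prime 2) := ⟨Nat.prime_two⟩
  constructor
  · rintro ⟨-, P, -, hP⟩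
    refine ⟨P, fun x hx => ?_⟩
    rw [Subgroup.mem_centralizer_singleton_iff]
    exact hP x hx
  · rintro ⟨P, hP⟩
    have hcomm : ∀ x ∈ P, x * t = t * x := by
      intro x hx
      have := hP hx
      rw [Subgroup.mem_centralizer_singleton_iff] at this
      exact this
    refine ⟨ht, P, ?_, hcomm⟩
    have hz : IsPGroup 2 (Subgroup.zpowers t) := by
      rw [IsPGroup.iff_card]
      refine ⟨1, ?_⟩
      rw [Nat.card_zpowers, ht, pow_one]
    have h1 := hz.inf_normalizer_sylow P
    have h2 : Subgroup.zpowers t ≤ Subgroup.normalizer ((P : Subgroup G) : Set G) := by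
      rw [Subgroup.zpowers_le]
      rw [Subgroup.mem_normalizer_iff]
      intro h
      constructor
      · intro hh
        have := hcomm h hh
        have e : t * h * t⁻¹ = h := by rw [← this]; group
        rw [e]; exact hh
      · intro hh
        have := hcomm _ hh
        have e : h = t * h * t⁻¹ := by
          have h3 : t * h * t⁻¹ * t = t * h := by group
          rw [h3] at this
          have h4 := mul_left_cancel this
          exact h4
        rw [e]; exact hh
    have h3 : Subgroup.zpowers t ≤ Subgroup.zpowers t ⊓ (P : Subgroup G) := by
      rw [← h1]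
      exact le_inf le_rfl h2
    exact (h3 (Subgroup.mem_zpowers t)).2

end Cfsg.Agent.S0443
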