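import Cfsg.Statements.S0458
-- import your own Cfsg.Agent.* helpers here
import Cfsg.Agent.Lib.Helper64J3Perm

set_option autoImplicit false
open Cfsg

namespace Cfsg.Agent.S0458


/-- Janko's third group exists as a transitive permutation group of degree 6156 with point stabiliser of order 8160: a simple group of order 50232960. -/
theorem result : ∃ H : Subgroup (Equiv.Perm (Fin 6156)), Cfsg.IsJ3 H ∧ MulAction.IsPretransitive H (Fin 6156) ∧ Nat.card (MulAction.stabilizer H (0 : Fin 6156)) = 8160 := by
  classical
  have : Fact (Nat.Prime 2) := ⟨Nat.prime_two⟩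
  let _ : Fintype (GaloisField 2 2) := Fintype.ofFinite _
  have hF : Fintype.card (GaloisField 2 2) = 4 := by
    rw [← Nat.card_eq_fintype_card, GaloisField.card 2 2 (by norm_num)]
    norm_num
  have hU : Fintype.card (GaloisField 2 2)ˣ = 3 := by rw [Fintype.card_units, hF]
  obtain ⟨g, hg⟩ : ∃ g : (GaloisField 2 2)ˣ, g ≠ 1 := by
    have : Nontrivial (GaloisField 2 2)ˣ := by
      rw [← Fintype.one_lt_card_iff_nontrivial, hU]; norm_num
    exact exists_ne 1
  have hg3 : g ^ 3 = 1 := by
    have h4 := pow_card_eq_one (x := g)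
    rwa [hU] at h4
  have hω : (g : GaloisField 2 2) ^ 2 + (g : GaloisField 2 2) + 1 = 0 := by
    have h1 : ((g : GaloisField 2 2) - 1) * ((g : GaloisField 2 2) ^ 2 + g + 1) = 0 := by
      have h2 : (g : GaloisField 2 2) ^ 3 = 1 := by
        rw [← Units.val_pow_eq_pow_val, hg3, Units.val_one]
      linear_combination h2
    rcases mul_eq_zero.mp h1 with h | h
    · exact absurd (Units.ext (by rw [Units.val_one]; exact sub_eq_zero.mp h)) hg
    · exact h
  have := Cfsg.Agent.Helper64J3.om_of_card hF (g : GaloisField 2 2) hω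
  exact Cfsg.Agent.Helper64J3.exists_perm_J3 (g : GaloisField 2 2)

end Cfsg.Agent.S0458
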