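import Cfsg.Statements.S0459
-- import your own Cfsg.Agent.* helpers here
import Cfsg.Agent.Lib.Helper63RuS

set_option autoImplicit false
open Cfsg

namespace Cfsg.Agent.S0459

open Cfsg.Agent.Lib.Helper63TCS Cfsg.Agent.Lib.Helper63RuA Cfsg.Agent.Lib.Helper63RuL
  Cfsg.Agent.Lib.Helper63RuS MulAction

/-- The Rudvalis group exists as a transitive permutation group of degree 4060: simple of order 145926144000, with point stabiliser of order 35942400 containing a simple subgroup of order 17971200 (the order of the Tits group). -/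
theorem result : ∃ H : Subgroup (Equiv.Perm (Fin 4060)), Cfsg.IsRu H ∧ MulAction.IsPretransitive H (Fin 4060) ∧ Nat.card (MulAction.stabilizer H (0 : Fin 4060)) = 35942400 ∧ ∃ T : Subgroup (MulAction.stabilizer H (0 : Fin 4060)), Cfsg.IsTits T := by
  obtain ⟨hb, hs, -, ho, -⟩ := lvlH
  have h0 : (⟨0, hb⟩ : Fin 4060) = 0 := rfl
  rw [h0] at hs ho
  refine ⟨Cl sys 63, ⟨simpleH, card63⟩, ?_, ?_, ?_⟩
  · have hz : ∀ y : Fin 4060, ∃ g : Cl sys 63, g • (0 : Fin 4060) = y := by
      intro y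
      obtain ⟨a, ha, h⟩ := ho y (allH y)
      exact ⟨⟨a, ha⟩, h⟩
    refine ⟨fun x y => ?_⟩
    obtain ⟨g, hg⟩ := hz x
    obtain ⟨g', hg'⟩ := hz y
    refine ⟨g' * g⁻¹, ?_⟩
    rw [mul_smul, ← hg, inv_smul_smul, hg']
  · rw [card_stabilizer_subgroup, hs, card31]
  · have hle31 : Cl sys 15 ≤ Cl sys 31 := Cl_mono sys (by decide)
    have hle : Cl sys 15 ≤ Cl sys 63 := by
      intro g hg
      have : g ∈ Cl sys 63 ⊓ stabilizer (Equiv.Perm (Fin 4060)) (0 : Fin 4060) := by
        rw [hs]; exact hle31 hg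
      exact this.1
    have hle2 : (Cl sys 15).subgroupOf (Cl sys 63) ≤ stabilizer (Cl sys 63) (0 : Fin 4060) := by
      intro g hg
      have h1 : g.1 ∈ Cl sys 15 := hg
      have : g.1 ∈ Cl sys 63 ⊓ stabilizer (Equiv.Perm (Fin 4060)) (0 : Fin 4060) := by
        rw [hs]; exact hle31 h1
      exact this.2
    let e : (((Cl sys 15).subgroupOf (Cl sys 63)).subgroupOf (stabilizer (Cl sys 63) (0 : Fin 4060))) ≃*
        Cl sys 15 :=
      (Subgroup.subgroupOfEquivOfLe hle2).trans (Subgroup.subgroupOfEquivOfLe hle)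
    haveI := simpleT
    exact ⟨_, e.isSimpleGroup, by rw [Nat.card_congr e.toEquiv, card15]⟩

end Cfsg.Agent.S0459
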