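import Cfsg.Statements.S0460
import Cfsg.Agent.Lib.Helper9ONJ1
import Cfsg.Agent.Lib.Helper9ONM11

set_option autoImplicit false
open Cfsg

namespace Cfsg.Agent.S0460

open Cfsg.Agent.Lib.Helper35TC Cfsg.Agent.Lib.Helper35ONa Cfsg.Agent.Lib.Helper9ONW

noncomputable def φ : Gr →* Equiv.Perm (Fin 122760) := ok.phi

theorem φ_inj : Function.Injective φ :=
  (injective_iff_map_eq_one φ).mpr (fun g hg =>
    hfix g (by
      have : ok.phi g = 1 := hg
      rw [this]; rfl) (fun b _ => by
      have : ok.phi g = 1 := hg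
      rw [this]; rfl))

noncomputable def e : Gr ≃* φ.range := MonoidHom.ofInjective φ_inj

theorem transport (M : Subgroup Gr) (n : ℕ) (h1 : IsSimpleGroup M) (h2 : Nat.card M = n) :
    ∃ K : Subgroup φ.range, IsSimpleGroup K ∧ Nat.card K = n := by
  let f := M.equivMapOfInjective e.toMonoidHom e.injective
  exact ⟨M.map e.toMonoidHom, f.isSimpleGroup_congr.mp h1, by rw [← Nat.card_congr f.toEquiv, h2]⟩

/-- The O'Nan group exists as a transitive permutation group of degree 122760: simple of order 460815505920, point stabiliser of order 3753792, and containing simple subgroups of orders 175560 and 7920. -/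
theorem result : ∃ H : Subgroup (Equiv.Perm (Fin 122760)), Cfsg.IsON H ∧ MulAction.IsPretransitive H (Fin 122760) ∧ Nat.card (MulAction.stabilizer H (0 : Fin 122760)) = 3753792 ∧ (∃ K : Subgroup H, Cfsg.IsJ1 K) ∧ (∃ K : Subgroup H, Cfsg.IsM11 K) := by
  have hcard : Nat.card φ.range = 460815505920 := by
    rw [← Nat.card_congr e.toEquiv]
    exact Cfsg.Agent.Lib.Helper35ONFin.card_eq
  have htr : MulAction.IsPretransitive φ.range (Fin 122760) := by
    have htrans : ∀ j : Fin 122760, ∃ g : Gr, φ g 0 = j := ok.transitive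
    refine ⟨fun a b => ?_⟩
    obtain ⟨g1, h1⟩ := htrans a
    obtain ⟨g2, h2⟩ := htrans b
    refine ⟨⟨φ (g2 * g1⁻¹), ⟨_, rfl⟩⟩, ?_⟩
    show φ (g2 * g1⁻¹) a = b
    have h3 : (φ g1)⁻¹ a = 0 := by
      rw [Equiv.Perm.inv_eq_iff_eq]; exact h1.symm
    rw [map_mul, map_inv, Equiv.Perm.mul_apply, h3, h2]
  refine ⟨φ.range, ⟨e.isSimpleGroup_congr.mp Cfsg.Agent.Lib.Helper35ONFin.simple, hcard⟩, htr, ?_,
    transport _ _ Cfsg.Agent.Lib.Helper9ONJ1.simple Cfsg.Agent.Lib.Helper9ONJ1.card_eq,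
    transport _ _ Cfsg.Agent.Lib.Helper9ONM11.simple Cfsg.Agent.Lib.Helper9ONM11.card_eq⟩
  have h1 := MulAction.index_stabilizer_of_transitive φ.range (0 : Fin 122760)
  have h2 := Subgroup.card_mul_index (MulAction.stabilizer φ.range (0 : Fin 122760))
  rw [h1, hcard, Nat.card_fin] at h2
  exact Nat.eq_of_mul_eq_mul_right (by norm_num : 0 < 122760) (h2.trans (by norm_num))

end Cfsg.Agent.S0460
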