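import Cfsg.Statements.S0462
import Cfsg.Agent.Lib.Helper47HeBlk

set_option autoImplicit false
open Cfsg

namespace Cfsg.Agent.S0462



open Cfsg.Agent.Lib.Helper35TC Cfsg.Agent.Lib.Helper35HeA Cfsg.Agent.Lib.Helper47HeBlk

section aux

theorem trans0 (j : Fin 2058) : ∃ g : K.Grp, phi g 0 = j := ok.transitive j

theorem phi_inj : Function.Injective phi := by
  have := Cfsg.Agent.Lib.Helper35HeFin.simple
  rw [← MonoidHom.ker_eq_bot_iff]
  rcases (inferInstance : phi.ker.Normal).eq_bot_or_eq_top with h | h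
  · exact h
  · exfalso
    obtain ⟨g, hg⟩ := trans0 1
    have h1 : g ∈ phi.ker := by rw [h]; trivial
    rw [MonoidHom.mem_ker] at h1
    rw [h1] at hg
    exact absurd hg (by decide)

theorem mem_H_of_fix (g : K.Grp) (hg : phi g 0 = 0) : g ∈ K.H := by
  have h1 : ok.thetaFun (g : K.Grp ⧸ K.H) = ok.thetaFun ((1 : K.Grp) : K.Grp ⧸ K.H) := by
    rw [ok.thetaFun_mk, ok.thetaFun_mk, map_one]
    exact hg
  have h2 := ok.thetaFun_bij.1 h1
  rw [QuotientGroup.eq] at h2
  simpa using h2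

theorem fix_of_mem_H (g : K.Grp) (hg : g ∈ K.H) : phi g 0 = 0 := ok.H_fix g hg

end aux

/-- The Held group exists as a transitive permutation group of degree 2058: simple of order 4030387200, with point stabiliser containing, with index 2, a copy of the 4-dimensional symplectic group over the field with four elements. -/
theorem result : ∃ H : Subgroup (Equiv.Perm (Fin 2058)), Cfsg.IsHe H ∧ MulAction.IsPretransitive H (Fin 2058) ∧ ∃ (F : Type) (_ : Field F) (_ : Fintype F), Fintype.card F = 4 ∧ ∃ N : Subgroup (MulAction.stabilizer H (0 : Fin 2058)), N.index = 2 ∧ Nonempty (N ≃* Matrix.symplecticGroup (Fin 2) F) := by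
  have := Cfsg.Agent.Lib.Helper35HeFin.simple
  let e0 : K.Grp ≃* phi.range := MonoidHom.ofInjective phi_inj
  refine ⟨phi.range, ⟨e0.symm.isSimpleGroup, ?_⟩, ?_, Cfsg.Agent.Lib.Helper18F4.F4c, inferInstance,
    inferInstance, Cfsg.Agent.Lib.Helper18F4.F4c.card, ?_⟩
  · rw [← Nat.card_congr e0.toEquiv]
    exact Cfsg.Agent.Lib.Helper35HeFin.card_eq
  · constructor
    intro x y
    obtain ⟨g, hg⟩ := trans0 x
    obtain ⟨g', hg'⟩ := trans0 y
    refine ⟨⟨phi (g' * g⁻¹), ⟨_, rfl⟩⟩, ?_⟩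
    show phi (g' * g⁻¹) x = y
    rw [map_mul, Equiv.Perm.mul_apply, map_inv, ← hg, show (phi g)⁻¹ (phi g 0) = 0 from Equiv.symm_apply_apply (phi g) 0, hg']
  · obtain ⟨N, _, h2, ⟨h3⟩⟩ := Cfsg.Agent.Lib.Helper47HeBlk.main
    let ψ : K.H →* MulAction.stabilizer phi.range (0 : Fin 2058) :=
      { toFun := fun h => ⟨⟨phi h.1, ⟨h.1, rfl⟩⟩, fix_of_mem_H h.1 h.2⟩
        map_one' := Subtype.ext (Subtype.ext (map_one phi))
        map_mul' := fun a b => Subtype.ext (Subtype.ext (map_mul phi a.1 b.1)) }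
    have hψ : Function.Bijective ψ := by
      constructor
      · intro a b hab
        apply Subtype.ext
        apply phi_inj
        exact congrArg (fun z => z.1.1) hab
      · rintro ⟨⟨_, ⟨g, rfl⟩⟩, hg⟩
        exact ⟨⟨g, mem_H_of_fix g hg⟩, rfl⟩
    let E : K.H ≃* MulAction.stabilizer phi.range (0 : Fin 2058) := MulEquiv.ofBijective ψ hψ
    refine ⟨N.map E.toMonoidHom, ?_, ⟨(E.subgroupMap N).symm.trans h3⟩⟩
    rw [← h2]
    exact Subgroup.index_map_equiv N E

end Cfsg.Agent.S0462
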