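import Cfsg.Statements.S0471
import Cfsg.Agent.Lib.Helper47FiMain
import Cfsg.Agent.Lib.Helper33TT

set_option autoImplicit false
open Cfsg

namespace Cfsg.Agent.S0471



section aux

open Cfsg.Agent.Lib.Helper35TC Cfsg.Agent.Lib.Helper35Fi22a Cfsg.Agent.Lib.Helper33TT
  Cfsg.Agent.Lib.Helper47FiMain

def zE : WExp Cfsg.Spor.Fi22.Gen := .of .a

noncomputable def z : K.Grp := PresentedGroup.mk K.rels zE.eval

def w1E : WExp Cfsg.Spor.Fi22.Gen := .of .b

def w2E : WExp Cfsg.Spor.Fi22.Gen := .mul (.mul (.mul (.of .b) (.of .c)) (.of .a)) (.of .b)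

def tE (w : WExp Cfsg.Spor.Fi22.Gen) : WExp Cfsg.Spor.Fi22.Gen :=
  .mul zE (.mul (.mul w zE) (.inv w))

theorem chk1 : BD.fixChk K.P ((WExp.pow (tE w1E) 3).app K.code K.P.iv) = true := by
  decide +kernel

theorem chk2 : BD.fixChk K.P ((WExp.pow (tE w2E) 2).app K.code K.P.iv) = true := by
  decide +kernel

noncomputable def w1 : K.Grp := PresentedGroup.mk K.rels w1E.eval
noncomputable def w2 : K.Grp := PresentedGroup.mk K.rels w2E.eval

theorem pow1 : (z * (w1 * z * w1⁻¹)) ^ 3 = 1 := by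
  have := Cfsg.Agent.Lib.Helper35Fi22Fin.word_eq_one _ chk1
  simp only [WExp.eval, tE, map_mul, map_inv, map_pow] at this
  exact this

theorem pow2 : (z * (w2 * z * w2⁻¹)) ^ 2 = 1 := by
  have := Cfsg.Agent.Lib.Helper35Fi22Fin.word_eq_one _ chk2
  simp only [WExp.eval, tE, map_mul, map_inv, map_pow] at this
  exact this

theorem pt1 : ((ok.phi w1) ok.zero).val = 1 := by
  rw [w1, ok.phi_mk_apply]
  show K.P.walkA (w1E.app K.code K.P.iv) 0 = 1
  decide +kernel

theorem pt2 : ((ok.phi w2) ok.zero).val = 4 := by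
  rw [w2, ok.phi_mk_apply]
  show K.P.walkA (w2E.app K.code K.P.iv) 0 = 4
  decide +kernel


theorem z_mem : z ∈ K.H := ha.2

theorem z_ne : z ≠ 1 := fun h => ha_ne (Subtype.ext h)

theorem z_sq : z * z = 1 := by
  have := Cfsg.Agent.Lib.Helper35Fi22Fin.word_eq_one (.mul zE zE) (by decide +kernel)
  simp only [WExp.eval, map_mul] at this
  exact this

theorem comm_of (e : WExp Cfsg.Spor.Fi22.Gen)
    (h : BD.fixChk K.P ((WExp.mul (.mul e zE) (.inv (.mul zE e))).app K.code K.P.iv) = true) :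
    PresentedGroup.mk K.rels e.eval * z = z * PresentedGroup.mk K.rels e.eval := by
  have := Cfsg.Agent.Lib.Helper35Fi22Fin.word_eq_one _ h
  simp only [WExp.eval, map_mul, map_inv] at this
  exact mul_inv_eq_one.mp this

theorem z_comm : ∀ g ∈ K.H, g * z = z * g := by
  have hle : K.H ≤ Subgroup.centralizer ({z} : Set K.Grp) := by
    apply ok.H_le
    intro e he
    have he' : e ∈ subExps := he
    rw [Subgroup.mem_centralizer_singleton_iff]
    simp only [subExps, List.mem_cons, List.not_mem_nil, or_false] at he'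
    rcases he' with rfl | rfl | rfl | rfl | rfl | rfl | rfl | rfl | rfl <;>
      exact comm_of _ (by decide +kernel)
  intro g hg
  exact Subgroup.mem_centralizer_singleton_iff.mp (hle hg)

theorem reduce (w : K.Grp) (k : ℕ) (hw : (z * (w * z * w⁻¹)) ^ k = 1) (g h : K.Grp)
    (hh : h ∈ K.H) (hg : ok.phi h (ok.phi w ok.zero) = ok.phi g ok.zero) :
    (z * (g * z * g⁻¹)) ^ k = 1 := by
  have hh' : (h * w)⁻¹ * g ∈ K.H := by
    rw [ok.mem_H_iff, map_mul, Equiv.Perm.mul_apply, ← hg, map_inv, map_mul,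
      ← Equiv.Perm.mul_apply (ok.phi h)]
    simp
  have := pow_of_dc K.H z z_comm w k hw h ((h * w)⁻¹ * g) hh hh'
  rwa [mul_inv_cancel_left] at this

theorem hT (g : K.Grp) : (z * (g * z * g⁻¹)) ^ 2 = 1 ∨ (z * (g * z * g⁻¹)) ^ 3 = 1 := by
  obtain ⟨h, hh, r, hr, hgr⟩ := ok.connect horb (ok.phi g ok.zero)
  have hlab := ok.lab_lt horb (ok.phi g ok.zero)
  generalize K.P.lab (ok.phi g ok.zero) = c at hr hlab
  have hlab' : c < 3 := hlab
  interval_cases c
  · left
    have hr0 : r.val = 0 := hr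
    apply reduce 1 2 ?_ g h hh ?_
    · rw [one_mul, inv_one, mul_one, z_sq, one_pow]
    · rw [map_one, Equiv.Perm.one_apply, ← hgr]
      congr 1
      exact Fin.ext hr0.symm
  · right
    have hr0 : r.val = 1 := hr
    apply reduce w1 3 pow1 g h hh ?_
    rw [← hgr]
    congr 1
    exact Fin.ext (pt1.trans hr0.symm)
  · left
    have hr0 : r.val = 4 := hr
    apply reduce w2 2 pow2 g h hh ?_
    rw [← hgr]
    congr 1
    exact Fin.ext (pt2.trans hr0.symm)

theorem H_ne_top : K.H ≠ ⊤ := by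
  intro h
  have h1 := ok.index_eq
  rw [h, Subgroup.index_top] at h1
  revert h1
  show (1 : ℕ) = 3510 → False
  decide

theorem cent_eq : Subgroup.centralizer ({z} : Set K.Grp) = K.H := by
  haveI : IsSimpleGroup K.Grp := Cfsg.Agent.Lib.Helper35Fi22Fin.simple
  exact centralizer_eq K.H z
    (ok.maximal horb Cfsg.Agent.Lib.Helper35Fi22Fin.sz Cfsg.Agent.Lib.Helper35Fi22Fin.hsz
      Cfsg.Agent.Lib.Helper35Fi22Fin.har) H_ne_top z_mem z_ne z_comm

theorem card_D : Nat.card (conjugatesOf z) = 3510 := by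
  rw [card_conj K.H z cent_eq, ok.index_eq]
  rfl

theorem tt : Cfsg.IsThreeTranspositionClass (conjugatesOf z) := by
  haveI : IsSimpleGroup K.Grp := Cfsg.Agent.Lib.Helper35Fi22Fin.simple
  exact tt_class z z_ne z_sq hT

theorem cover_z : Cfsg.IsNonsplitDoubleCover (Subgroup.centralizer ({z} : Set K.Grp))
    (Cfsg.PSU 6 Cfsg.Agent.Lib.Helper18F4.F4c 2) :=
  nonsplit_congr (MulEquiv.subgroupCongr cent_eq.symm) main

theorem cover (d : K.Grp) (hd : d ∈ conjugatesOf z) :
    Cfsg.IsNonsplitDoubleCover (Subgroup.centralizer ({d} : Set K.Grp))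
      (Cfsg.PSU 6 Cfsg.Agent.Lib.Helper18F4.F4c 2) := by
  rw [mem_conj_iff] at hd
  obtain ⟨c, rfl⟩ := hd
  exact nonsplit_congr (centConj z c) cover_z

end aux

/-- The Fischer group of order 64561751654400 exists as a 3-transposition group: a simple group of that order generated by a conjugacy class of 3510 3-transpositions, the centraliser of each being a non-split double cover of PSU(6, 2). -/
theorem result : ∃ (G : Type) (_ : Group G) (_ : Finite G), Cfsg.IsFi22 G ∧ ∃ D : Set G, Cfsg.IsThreeTranspositionClass D ∧ Nat.card D = 3510 ∧ ∀ d ∈ D, ∃ (F : Type) (_ : Field F) (_ : Fintype F), Fintype.card F = 4 ∧ Cfsg.IsNonsplitDoubleCover (Subgroup.centralizer ({d} : Set G)) (Cfsg.PSU 6 F 2) := by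
  refine ⟨Cfsg.Agent.Lib.Helper35Fi22a.K.Grp, inferInstance,
    Cfsg.Agent.Lib.Helper35Fi22Fin.hub.1,
    ⟨Cfsg.Agent.Lib.Helper35Fi22Fin.simple, Cfsg.Agent.Lib.Helper35Fi22Fin.card_eq⟩,
    conjugatesOf z, tt, card_D, fun d hd => ?_⟩
  exact ⟨Cfsg.Agent.Lib.Helper18F4.F4c, inferInstance, inferInstance, by decide, cover d hd⟩

end Cfsg.Agent.S0471
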