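import Cfsg.Statements.S0478
-- import your own Cfsg.Agent.* helpers here
import Cfsg.Agent.Lib.Helper64J3Unitary

set_option autoImplicit false
open Cfsg

namespace Cfsg.Agent.S0478


/-- A triple cover of Janko's third group inside a unitary group: for a field F with four elements, the special unitary group of dimension 9 (with respect to the form with q = 2) has a subgroup whose centre has order 3 and whose quotient by its centre is simple of order 50232960. -/
theorem result : ∃ (F : Type) (_ : Field F) (_ : Fintype F), Fintype.card F = 4 ∧ ∃ H : Subgroup (Cfsg.SU 9 F 2), Nat.card (Subgroup.center H) = 3 ∧ Cfsg.IsJ3 (H ⧸ Subgroup.center H) := by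
  classical
  haveI : Fact (Nat.Prime 2) := ⟨Nat.prime_two⟩
  letI : Fintype (GaloisField 2 2) := Fintype.ofFinite _
  have hF : Fintype.card (GaloisField 2 2) = 4 := by
    rw [← Nat.card_eq_fintype_card, GaloisField.card 2 2 (by norm_num)]
    norm_num
  have hU : Fintype.card (GaloisField 2 2)ˣ = 3 := by rw [Fintype.card_units, hF]
  obtain ⟨g, hg⟩ : ∃ g : (GaloisField 2 2)ˣ, g ≠ 1 := by
    have : Nontrivial (GaloisField 2 2)ˣ := by
      rw [← Fintype.one_lt_card_iff_nontrivial, hU]; norm_num
    exact exists_ne 1
  have hg3 : g ^ 3 = 1 := by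
    have h4 := pow_card_eq_one (x := g)
    rwa [hU] at h4
  have hω : (g : GaloisField 2 2) ^ 2 + (g : GaloisField 2 2) + 1 = 0 := by
    have h1 : ((g : GaloisField 2 2) - 1) * ((g : GaloisField 2 2) ^ 2 + g + 1) = 0 := by
      have h2 : (g : GaloisField 2 2) ^ 3 = 1 := by
        rw [← Units.val_pow_eq_pow_val, hg3, Units.val_one]
      linear_combination h2
    rcases mul_eq_zero.mp h1 with h | h
    · exact absurd (Units.ext (by rw [Units.val_one]; exact sub_eq_zero.mp h)) hg
    · exact h
  exact ⟨GaloisField 2 2, inferInstance, inferInstance, hF,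
    Cfsg.Agent.Helper64J3.exists_unitary hF (g : GaloisField 2 2) hω⟩

end Cfsg.Agent.S0478
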