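import Cfsg.Statements.S0481
import Mathlib

set_option autoImplicit false
open Cfsg

namespace Cfsg.Agent.S0481

/-- Large extraspecial subgroups: let z be an involution of a finite group G whose centraliser C contains a normal 2-subgroup Q with centre of order 2 and all squares central, such that every element of G centralising Q lies in Q. Then C contains a Sylow 2-subgroup of G, and any involution of G whose centraliser contains a Sylow 2-subgroup of G is conjugate to z. -/
theorem result {G : Type*} [Group G] [Finite G] (z : G) (hz : orderOf z = 2) (Q : Subgroup G) (hQC : Q ≤ Subgroup.centralizer ({z} : Set G)) (hQn : ∀ g ∈ Subgroup.centralizer ({z} : Set G), ∀ q ∈ Q, g * q * g⁻¹ ∈ Q) (hQ2 : IsPGroup 2 Q) (hZ : Nat.card (Subgroup.center Q) = 2) (hsq : ∀ x : Q, x ^ 2 ∈ Subgroup.center Q) (hlarge : Subgroup.centralizer (Q : Set G) ≤ Q) : (∃ P : Sylow 2 G, (P : Subgroup G) ≤ Subgroup.centralizer ({z} : Set G)) ∧ ∀ u : G, orderOf u = 2 → (∃ P : Sylow 2 G, (P : Subgroup G) ≤ Subgroup.centralizer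 ({u} : Set G)) → IsConj z u := by
  have hz1 : z ≠ 1 := by
    rintro rfl
    rw [orderOf_one] at hz
    norm_num at hz
  have hzQ : z ∈ Q := by
    apply hlarge
    intro q hq
    exact (Subgroup.mem_centralizer_singleton_iff.mp (hQC hq))
  have hzc : (⟨z, hzQ⟩ : Q) ∈ Subgroup.center Q := by
    rw [Subgroup.mem_center_iff]
    intro q
    apply Subtype.ext
    exact (Subgroup.mem_centralizer_singleton_iff.mp (hQC q.2))
  have key : ∀ P : Sylow 2 G, Q ≤ (P : Subgroup G) → ∀ w : G, w ∈ (P : Subgroup G) → w ≠ 1 →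
      (∀ x ∈ (P : Subgroup G), x * w = w * x) → w = z := by
    intro P hQP w _ hw1 hwc
    have hwQ : w ∈ Q := by
      apply hlarge
      intro q hq
      exact hwc q (hQP hq)
    have hwcen : (⟨w, hwQ⟩ : Q) ∈ Subgroup.center Q := by
      rw [Subgroup.mem_center_iff]
      intro q
      apply Subtype.ext
      exact hwc q (hQP q.2)
    have hcard : ∀ a b : Subgroup.center Q, a ≠ 1 → b ≠ 1 → a = b := by
      intro a b ha hb
      exact ((Nat.card_eq_two_iff' (1 : Subgroup.center Q)).mp hZ).unique ha hb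
    have := hcard ⟨⟨w, hwQ⟩, hwcen⟩ ⟨⟨z, hzQ⟩, hzc⟩
      (by intro h; exact hw1 (congrArg (fun x : Subgroup.center Q => ((x : Q) : G)) h))
      (by intro h; exact hz1 (congrArg (fun x : Subgroup.center Q => ((x : Q) : G)) h))
    exact congrArg (fun x : Subgroup.center Q => ((x : Q) : G)) this
  obtain ⟨P, hQP⟩ := hQ2.exists_le_sylow
  have hPnt : Nontrivial (P : Subgroup G) := ⟨⟨⟨z, hQP hzQ⟩, 1, fun h => hz1 (congrArg Subtype.val h)⟩⟩
  have hcnt : Nontrivial (Subgroup.center (P : Subgroup G)) := P.isPGroup'.center_nontrivial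
  obtain ⟨w, hw⟩ := exists_ne (1 : Subgroup.center (P : Subgroup G))
  have hwz : ((w : (P : Subgroup G)) : G) = z := by
    apply key P hQP _ (w : (P : Subgroup G)).2
    · intro h
      apply hw
      apply Subtype.ext
      apply Subtype.ext
      exact h
    · intro x hx
      have := Subgroup.mem_center_iff.mp w.2 ⟨x, hx⟩
      exact congrArg Subtype.val this
  have hPz : ∀ x ∈ (P : Subgroup G), x * z = z * x := by
    intro x hx
    rw [← hwz]
    have := Subgroup.mem_center_iff.mp w.2 ⟨x, hx⟩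
    exact congrArg Subtype.val this
  refine ⟨⟨P, fun x hx => Subgroup.mem_centralizer_singleton_iff.mpr (hPz x hx)⟩, ?_⟩
  rintro u hu ⟨P', hP'⟩
  have hu1 : u ≠ 1 := by
    rintro rfl
    rw [orderOf_one] at hu
    norm_num at hu
  have huP' : u ∈ (P' : Subgroup G) := by
    have h1 : IsPGroup 2 (Subgroup.zpowers u) := by
      apply IsPGroup.of_card (n := 1)
      rw [Nat.card_zpowers, hu]; norm_num
    have h2 := h1.inf_normalizer_sylow P'
    have h3 : u ∈ Subgroup.zpowers u ⊓ Subgroup.normalizer ((P' : Subgroup G) : Set G) := by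
      refine ⟨Subgroup.mem_zpowers u, ?_⟩
      apply Subgroup.centralizer_le_normalizer
      intro x hx
      exact (Subgroup.mem_centralizer_singleton_iff.mp (hP' hx))
    exact (h2.le h3).2
  obtain ⟨g, hg⟩ := MulAction.exists_smul_eq G P' P
  have hmem : ∀ x ∈ (P' : Subgroup G), g * x * g⁻¹ ∈ (P : Subgroup G) := by
    intro x hx
    have : g * x * g⁻¹ ∈ (g • P' : Sylow 2 G) := by
      rw [← SetLike.mem_coe, Sylow.coe_smul]
      exact ⟨_, hx, rfl⟩
    rw [hg] at this
    exact this
  have hmem' : ∀ y ∈ (P : Subgroup G), g⁻¹ * y * g ∈ (P' : Subgroup G) := by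
    intro y hy
    have hy' : y ∈ (g • P' : Sylow 2 G) := by rw [hg]; exact hy
    rw [← SetLike.mem_coe, Sylow.coe_smul] at hy'
    obtain ⟨x, hx, rfl⟩ := hy'
    have : g⁻¹ * ((MulAut.conj g) • x) * g = x := by
      simp [MulAut.smul_def, mul_assoc]
    rw [this]
    exact hx
  have hfin : g * u * g⁻¹ = z := by
    apply key P hQP _ (hmem u huP')
    · intro h
      apply hu1
      have : u = g⁻¹ * (g * u * g⁻¹) * g := by group
      rw [this, h]; simp
    · intro y hy
      have h1 := Subgroup.mem_centralizer_singleton_iff.mp (hP' (hmem' y hy))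
      calc y * (g * u * g⁻¹) = g * ((g⁻¹ * y * g) * u) * g⁻¹ := by group
        _ = g * (u * (g⁻¹ * y * g)) * g⁻¹ := by rw [h1]
        _ = g * u * g⁻¹ * y := by group
  rw [isConj_iff]
  refine ⟨g⁻¹, ?_⟩
  rw [← hfin]; group

end Cfsg.Agent.S0481
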