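import Cfsg.Statements.S0499
import Cfsg.Agent.Lib.Helper11Counting

set_option autoImplicit false
open Cfsg

namespace Cfsg.Agent.S0499

/-- A non-abelian finite simple group of even order has order divisible by 12, 16 or 56. -/
theorem result {G : Type*} [Group G] [Finite G] [IsSimpleGroup G]
    (hG : ¬ IsMulCommutative G) (h2 : Even (Nat.card G)) :
    12 ∣ Nat.card G ∨ 16 ∣ Nat.card G ∨ 56 ∣ Nat.card G := by
  by_contra hcon
  push Not at hcon
  obtain ⟨h12, h16, h56⟩ := hcon
  have hF : Lib.Helper11Frobenius.FrobCond 2 G := by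
    intro Q hQ g hg hgp
    by_contra hgC
    obtain ⟨b, hb⟩ := IsPGroup.iff_card.mp hQ
    have hbd : 2 ^ b ∣ Nat.card G := hb ▸ Subgroup.card_subgroup_dvd_card Q
    have hb3 : b ≤ 3 := by
      by_contra h
      push Not at h
      exact h16 ((pow_dvd_pow 2 h).trans hbd)
    obtain ⟨r, hrp, hrd, d, hd1, hdb, hr⟩ :=
      Lib.Helper11Counting.exists_prime_dvd_pow_sub_one Q b hb g hgp hg hgC
    have hrG : r ∣ Nat.card G := hrd.trans (orderOf_dvd_natCard g)
    have hd : d = 1 ∨ d = 2 ∨ d = 3 := by omega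
    rcases hd with rfl | rfl | rfl
    · norm_num at hr
      exact hrp.one_lt.ne' hr
    · have h3 : r = 3 := (Nat.prime_dvd_prime_iff_eq hrp (by norm_num)).mp (by simpa using hr)
      subst h3
      have h4 : 4 ∣ Nat.card G := (pow_dvd_pow 2 hdb).trans hbd
      exact h12 (Nat.Coprime.mul_dvd_of_dvd_of_dvd (by norm_num : Nat.Coprime 3 4) hrG h4)
    · have h7 : r = 7 := (Nat.prime_dvd_prime_iff_eq hrp (by norm_num)).mp (by simpa using hr)
      subst h7
      have h8 : 8 ∣ Nat.card G := (pow_dvd_pow 2 hdb).trans hbd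
      exact h56 (Nat.Coprime.mul_dvd_of_dvd_of_dvd (by norm_num : Nat.Coprime 7 8) hrG h8)
  obtain ⟨N, hN, h1, k, hk⟩ := Lib.Helper11Frobenius.frobenius hF
  rcases hN.eq_bot_or_eq_top with rfl | rfl
  · rw [Subgroup.index_bot] at hk
    have hp : IsPGroup 2 G := IsPGroup.of_card hk
    have hnt : Nontrivial (Subgroup.center G) := hp.center_nontrivial
    have hc : Subgroup.center G = ⊤ := by
      rcases (inferInstance : (Subgroup.center G).Normal).eq_bot_or_eq_top with h | h
      · exact absurd h ((Subgroup.nontrivial_iff_ne_bot _).mp hnt)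
      · exact h
    apply hG
    refine ⟨⟨fun a b => ?_⟩⟩
    have ha : a ∈ Subgroup.center G := by rw [hc]; trivial
    exact (Subgroup.mem_center_iff.mp ha b).symm
  · rw [Subgroup.card_top] at h1
    exact (Nat.not_even_iff_odd.mpr (Nat.coprime_two_left.mp h1.symm)) h2

end Cfsg.Agent.S0499
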