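import Cfsg.Statements.S1785
import Cfsg.Agent.Lib.Helper27Core
import Cfsg.Agent.Lib.Helper28More

set_option autoImplicit false
open Cfsg

namespace Cfsg.Agent.S1785

open Subgroup

variable {X : Type*} [Group X]

theorem ea_le {A B : Subgroup X} (h : IsElementaryAbelian 2 B) (hAB : A ≤ B) :
    IsElementaryAbelian 2 A := by
  refine ⟨⟨⟨fun a b => ?_⟩⟩, fun a ha => h.2 a (hAB ha)⟩
  have := h.1.is_comm.comm ⟨a.1, hAB a.2⟩ ⟨b.1, hAB b.2⟩
  exact Subtype.ext (by have h2 := congrArg Subtype.val this; exact h2)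

theorem ea_comm {A : Subgroup X} (h : IsElementaryAbelian 2 A) {a b : X} (ha : a ∈ A)
    (hb : b ∈ A) : a * b = b * a :=
  congrArg Subtype.val (h.1.is_comm.comm ⟨a, ha⟩ ⟨b, hb⟩)

theorem ea_inv {A : Subgroup X} (h : IsElementaryAbelian 2 A) {a : X} (ha : a ∈ A) : a⁻¹ = a := by
  have := h.2 a ha
  rw [pow_two] at this
  exact inv_eq_of_mul_eq_one_left this

theorem ea_isPGroup {A : Subgroup X} (h : IsElementaryAbelian 2 A) : IsPGroup 2 A := by
  intro a
  refine ⟨1, ?_⟩
  rw [pow_one]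
  exact Subtype.ext (h.2 a.1 a.2)

theorem ea_sup {A B : Subgroup X} (hA : IsElementaryAbelian 2 A) (hB : IsElementaryAbelian 2 B)
    (hAB : ∀ a ∈ A, ∀ b ∈ B, a * b = b * a) : IsElementaryAbelian 2 (A ⊔ B) := by
  have hc : ⁅A, B⁆ = ⊥ := by
    rw [commutator_eq_bot_iff_le_centralizer]
    intro a ha
    rw [mem_centralizer_iff]
    intro b hb
    exact (hAB a ha b hb).symm
  have hmem := @Cfsg.Agent.Lib.Helper28More.mem_sup_of_commutator_eq_bot X _ A B hc
  refine ⟨⟨⟨fun x y => ?_⟩⟩, fun x hx => ?_⟩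
  · obtain ⟨a, ha, b, hb, hx⟩ := hmem.mp x.2
    obtain ⟨a', ha', b', hb', hy⟩ := hmem.mp y.2
    apply Subtype.ext
    change x.1 * y.1 = y.1 * x.1
    rw [← hx, ← hy]
    calc a * b * (a' * b') = a * (b * a') * b' := by group
      _ = a * (a' * b) * b' := by rw [hAB a' ha' b hb]
      _ = (a * a') * (b * b') := by group
      _ = (a' * a) * (b' * b) := by rw [ea_comm hA ha ha', ea_comm hB hb hb']
      _ = a' * (a * b') * b := by group
      _ = a' * (b' * a) * b := by rw [hAB a ha b' hb']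
      _ = a' * b' * (a * b) := by group
  · obtain ⟨a, ha, b, hb, rfl⟩ := hmem.mp hx
    have h1 := hA.2 a ha
    have h2 := hB.2 b hb
    rw [pow_two] at *
    calc a * b * (a * b) = a * (b * a) * b := by group
      _ = a * (a * b) * b := by rw [hAB a ha b hb]
      _ = (a * a) * (b * b) := by group
      _ = 1 := by rw [h1, h2, one_mul]

theorem ea_zpowers {e : X} (he : e ^ 2 = 1) : IsElementaryAbelian 2 (zpowers e) := by
  refine ⟨inferInstance, ?_⟩
  rintro _ ⟨k, rfl⟩
  change (e ^ k) ^ 2 = 1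
  rw [← zpow_natCast, ← zpow_mul, mul_comm, zpow_mul, zpow_natCast, he, one_zpow]

/-- an involution acting on an elementary abelian 2-group -/
theorem card_le_sq [Finite X] {U : Subgroup X} (hU : IsElementaryAbelian 2 U) {w : X}
    (hw : w ^ 2 = 1) (hn : ∀ u ∈ U, w * u * w⁻¹ ∈ U) :
    Nat.card U ≤ Nat.card (U ⊓ centralizer {w} : Subgroup X) ^ 2 := by
  have hw' : w⁻¹ = w := by
    rw [pow_two] at hw
    exact inv_eq_of_mul_eq_one_left hw
  let φ : U →* U :=
    { toFun := fun u => ⟨u * (w * u * w⁻¹), U.mul_mem u.2 (hn u u.2)⟩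
      map_one' := by ext; simp
      map_mul' := fun a b => by
        apply Subtype.ext
        change (a.1 * b.1) * (w * (a.1 * b.1) * w⁻¹) = a.1 * (w * a.1 * w⁻¹) * (b.1 * (w * b.1 * w⁻¹))
        have := ea_comm hU b.2 (hn a a.2)
        calc (a.1 * b.1) * (w * (a.1 * b.1) * w⁻¹) = a.1 * (b.1 * (w * a.1 * w⁻¹)) * (w * b.1 * w⁻¹) := by
              group
          _ = a.1 * ((w * a.1 * w⁻¹) * b.1) * (w * b.1 * w⁻¹) := by rw [this]
          _ = _ := by group }
  have hφ : ∀ u : U, ((φ u : U) : X) = u * (w * u * w⁻¹) := fun _ => rfl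
  set C : Subgroup U := (centralizer {w}).subgroupOf U with hC
  have hker : φ.ker ≤ C := by
    intro u hu
    rw [MonoidHom.mem_ker] at hu
    have h1 : (u : X) * (w * u * w⁻¹) = 1 := by rw [← hφ, hu]; rfl
    rw [hC, mem_subgroupOf, mem_centralizer_singleton_iff]
    have h2 : w * u * w⁻¹ = (u : X) := by
      have := eq_inv_of_mul_eq_one_right h1
      rw [this, ea_inv hU u.2]
    calc (u : X) * w = (w * u * w⁻¹) * w := by rw [h2]
      _ = w * u := by group
  have hrange : φ.range ≤ C := by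
    rintro _ ⟨u, rfl⟩
    rw [hC, mem_subgroupOf, mem_centralizer_singleton_iff, hφ]
    have := ea_comm hU u.2 (hn u u.2)
    rw [hw'] at this ⊢
    have ww : w * w = 1 := by rw [← pow_two, hw]
    calc (u : X) * (w * u * w) * w = u * w * u * (w * w) := by group
      _ = (w * w) * u * w * u := by rw [ww, mul_one, one_mul]
      _ = w * ((w * u * w) * u) := by group
      _ = w * (u * (w * u * w)) := by rw [this]
  have hcard : Nat.card C = Nat.card (U ⊓ centralizer {w} : Subgroup X) := by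
    rw [inf_comm, ← subgroupOf_map_subtype, card_map_of_injective (subtype_injective U)]
  have h1 : Nat.card φ.ker * φ.ker.index = Nat.card U := card_mul_index _
  rw [index_ker] at h1
  rw [← hcard, ← h1, pow_two]
  exact Nat.mul_le_mul (card_le_of_le hker) (card_le_of_le hrange)

theorem key [Finite X] {U B D : Subgroup X} (hU : IsElementaryAbelian 2 U)
    (hB : IsElementaryAbelian 2 B) (hBU : ∀ b ∈ B, ∀ u ∈ U, b * u * b⁻¹ ∈ U) (hDB : D ≤ B)
    (hDU : D ≤ U) :
    Nat.card U ^ Nat.card D ≤ Nat.card (U ⊓ centralizer (B : Set X) : Subgroup X) ^ Nat.card B := by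
  let 𝒮 : Set (Subgroup X) := {B₀ | B₀ ≤ B ∧
    Nat.card U ^ Nat.card D ≤ Nat.card (U ⊓ centralizer (B₀ : Set X) : Subgroup X) ^ Nat.card B₀}
  have hne : 𝒮.Nonempty := by
    refine ⟨D, hDB, ?_⟩
    have : U ⊓ centralizer (D : Set X) = U := by
      rw [inf_eq_left]
      intro u hu
      rw [mem_centralizer_iff]
      intro d hd
      exact ea_comm hU (hDU hd) hu
    rw [this]
  obtain ⟨B₀, ⟨hB₀, hP⟩, hmax⟩ := WellFounded.has_min (wellFounded_gt (α := Subgroup X)) 𝒮 hne
  by_cases hEq : B₀ = B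
  · rw [← hEq]; exact hP
  exfalso
  have hlt : B₀ < B := lt_of_le_of_ne hB₀ hEq
  obtain ⟨w, hwB, hw₀⟩ := SetLike.exists_of_lt hlt
  set B₁ := B₀ ⊔ zpowers w with hB₁
  have hlt1 : B₀ < B₁ := by
    refine lt_of_le_of_ne le_sup_left ?_
    intro h
    apply hw₀
    rw [h]
    exact (le_sup_right : zpowers w ≤ B₁) (mem_zpowers w)
  have hB₁B : B₁ ≤ B := sup_le hB₀ (zpowers_le.mpr hwB)
  refine hmax B₁ ⟨hB₁B, ?_⟩ hlt1
  set U₀ := U ⊓ centralizer (B₀ : Set X) with hU₀
  have hU₀ea : IsElementaryAbelian 2 U₀ := ea_le hU inf_le_left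
  have hn : ∀ u ∈ U₀, w * u * w⁻¹ ∈ U₀ := by
    intro u hu
    rw [hU₀, mem_inf] at hu ⊢
    refine ⟨hBU w hwB u hu.1, ?_⟩
    rw [mem_centralizer_iff]
    intro b hb
    have h1 : b * w = w * b := ea_comm hB (hB₀ hb) hwB
    have h2 : b * u = u * b := (mem_centralizer_iff.mp hu.2) b hb
    have h3 : b * w⁻¹ = w⁻¹ * b := by
      rw [ea_inv hB hwB]; exact h1
    calc b * (w * u * w⁻¹) = (b * w) * u * w⁻¹ := by group
      _ = w * (b * u) * w⁻¹ := by rw [h1]; group
      _ = w * u * (b * w⁻¹) := by rw [h2]; group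
      _ = w * u * w⁻¹ * b := by rw [h3]; group
  have h1 := card_le_sq hU₀ea (hB.2 w hwB) hn
  have h2 : U₀ ⊓ centralizer {w} ≤ U ⊓ centralizer (B₁ : Set X) := by
    intro x hx
    rw [mem_inf, hU₀, mem_inf] at hx
    rw [mem_inf]
    refine ⟨hx.1.1, ?_⟩
    have h3 : B₁ ≤ centralizer {x} := by
      apply sup_le
      · intro b hb
        rw [mem_centralizer_singleton_iff]
        exact (mem_centralizer_iff.mp hx.1.2) b hb
      · rw [zpowers_le, mem_centralizer_singleton_iff]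
        exact (mem_centralizer_singleton_iff.mp hx.2).symm
    rw [mem_centralizer_iff]
    intro y hy
    exact mem_centralizer_singleton_iff.mp (h3 hy)
  have h4 : 2 * Nat.card B₀ ≤ Nat.card B₁ := by
    obtain ⟨k, hk⟩ := card_dvd_of_le hlt1.le
    have h5 : Nat.card B₀ < Nat.card B₁ := by
      apply lt_of_le_of_ne (card_le_of_le hlt1.le)
      intro h
      exact hlt1.ne (eq_of_le_of_card_ge hlt1.le h.ge)
    have h6 : 0 < Nat.card B₀ := Nat.card_pos
    rw [hk] at h5 ⊢
    have : 2 ≤ k := by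
      by_contra hk2
      have : k ≤ 1 := by omega
      nlinarith
    nlinarith
  have h7 : 0 < Nat.card (U ⊓ centralizer (B₁ : Set X) : Subgroup X) := Nat.card_pos
  calc Nat.card U ^ Nat.card D ≤ Nat.card U₀ ^ Nat.card B₀ := hP
    _ ≤ (Nat.card (U₀ ⊓ centralizer {w} : Subgroup X) ^ 2) ^ Nat.card B₀ :=
        Nat.pow_le_pow_left h1 _
    _ ≤ (Nat.card (U ⊓ centralizer (B₁ : Set X) : Subgroup X) ^ 2) ^ Nat.card B₀ :=
        Nat.pow_le_pow_left (Nat.pow_le_pow_left (card_le_of_le h2) _) _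
    _ = Nat.card (U ⊓ centralizer (B₁ : Set X) : Subgroup X) ^ (2 * Nat.card B₀) := by
        rw [pow_mul]
    _ ≤ _ := Nat.pow_le_pow_right h7 h4

theorem exists_e [Finite X] {E B : Subgroup X} [E.Normal] (hE : IsElementaryAbelian 2 E)
    (hE32 : 32 ≤ Nat.card E) (hB : IsElementaryAbelian 2 B) (hB8 : Nat.card B ≤ 8) :
    ∃ e ∈ E, (∀ b ∈ B, b * e = e * b) ∧ e ∉ B := by
  by_contra h
  push_neg at h
  have h1 : E ⊓ centralizer (B : Set X) ≤ B ⊓ E := by
    intro e he
    rw [mem_inf] at he ⊢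
    exact ⟨h e he.1 (fun b hb => (mem_centralizer_iff.mp he.2) b hb), he.1⟩
  have h2 := key hE hB (fun b _ u hu => ‹E.Normal›.conj_mem u hu b) (D := B ⊓ E) inf_le_left
    inf_le_right
  set d := Nat.card (B ⊓ E : Subgroup X) with hd
  have hd1 : 0 < d := Nat.card_pos
  have hd8 : d ≤ 8 := (card_le_of_le inf_le_left).trans hB8
  have h3 : 32 ^ d ≤ d ^ 8 :=
    calc 32 ^ d ≤ Nat.card E ^ d := Nat.pow_le_pow_left hE32 _
      _ ≤ _ := h2
      _ ≤ d ^ Nat.card B := Nat.pow_le_pow_left (card_le_of_le h1) _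
      _ ≤ d ^ 8 := Nat.pow_le_pow_right hd1 hB8
  clear_value d
  interval_cases d <;> norm_num at h3

theorem card_lt_of_lt [Finite X] {A B : Subgroup X} (h : A < B) : Nat.card A < Nat.card B := by
  apply lt_of_le_of_ne (card_le_of_le h.le)
  intro h'
  exact h.ne (eq_of_le_of_card_ge h.le h'.ge)

theorem sup_e [Finite X] {B : Subgroup X} (hB : IsElementaryAbelian 2 B) {e : X} (he : e ^ 2 = 1)
    (hc : ∀ b ∈ B, b * e = e * b) (heB : e ∉ B) :
    IsElementaryAbelian 2 (B ⊔ zpowers e) ∧ Nat.card (B ⊔ zpowers e : Subgroup X) = 2 * Nat.card B := by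
  have hcz : ∀ b ∈ B, ∀ y ∈ zpowers e, b * y = y * b := by
    intro b hb y hy
    have : zpowers e ≤ centralizer {b} := by
      rw [zpowers_le, mem_centralizer_singleton_iff]
      exact (hc b hb).symm
    exact (mem_centralizer_singleton_iff.mp (this hy)).symm
  refine ⟨ea_sup hB (ea_zpowers he) hcz, ?_⟩
  have hlt : B < B ⊔ zpowers e := by
    refine lt_of_le_of_ne le_sup_left ?_
    intro h
    apply heB
    rw [h]
    exact (le_sup_right : zpowers e ≤ B ⊔ zpowers e) (mem_zpowers e)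
  have h1 : Nat.card (B ⊔ zpowers e : Subgroup X) ∣ Nat.card B * Nat.card (zpowers e) := by
    apply Cfsg.Agent.Lib.Helper27Core.card_sup_dvd
    intro y hy
    rw [mem_normalizer_iff]
    intro b
    constructor
    · intro hb
      rw [← hcz b hb y hy]
      simpa using hb
    · intro hb
      have := hcz _ hb y hy
      have h2 : y * b * y⁻¹ = b := by
        have h3 : y * b * y⁻¹ * y = y * (y * b * y⁻¹) := this
        have h4 : y * b = y * (y * b * y⁻¹) := by simpa using h3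
        exact (mul_left_cancel h4).symm
      rwa [h2] at hb
  have h2 : Nat.card (zpowers e) = 2 := by
    rw [Nat.card_zpowers]
    apply orderOf_eq_prime he
    rintro rfl
    exact heB B.one_mem
  rw [h2] at h1
  obtain ⟨k, hk⟩ := card_dvd_of_le hlt.le
  have h3 := card_lt_of_lt hlt
  have h6 : 0 < Nat.card B := Nat.card_pos
  rw [hk] at h1 h3 ⊢
  have h4 : k ∣ 2 := Nat.dvd_of_mul_dvd_mul_left h6 h1
  have h5 : k ≤ 2 := Nat.le_of_dvd (by norm_num) h4
  interval_cases k
  · omega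
  · omega
  · ring

theorem step [Finite X] {E A : Subgroup X} [E.Normal] (hE : IsElementaryAbelian 2 E)
    (hE32 : 32 ≤ Nat.card E) (hA : IsElementaryAbelian 2 A) (hA8 : Nat.card A = 8)
    (hAE : ¬ A ≤ E) :
    ∃ A' : Subgroup X, IsElementaryAbelian 2 A' ∧ Nat.card A' = 8 ∧ ⁅A, A'⁆ = ⊥ ∧
      A ⊓ E < A' ⊓ E := by
  have : Fact (Nat.Prime 2) := ⟨Nat.prime_two⟩
  obtain ⟨e, heE, hc, heA⟩ := exists_e hE hE32 hA hA8.le
  obtain ⟨hW, hW16⟩ := sup_e hA (hE.2 e heE) hc heA
  set W := A ⊔ zpowers e with hWdef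
  rw [hA8] at hW16
  set D := (A ⊓ E) ⊔ zpowers e with hD
  have hDW : D ≤ W := sup_le_sup_right inf_le_left _
  have hDE : D ≤ E := sup_le inf_le_right (zpowers_le.mpr heE)
  have hDne : D ≠ W := by
    intro h
    apply hAE
    rw [h] at hDE
    exact (le_sup_left : A ≤ W).trans hDE
  obtain ⟨n, hn⟩ := IsPGroup.iff_card.mp (ea_isPGroup (ea_le hW hDW))
  have hn3 : n ≤ 3 := by
    have h1 := card_lt_of_lt (lt_of_le_of_ne hDW hDne)
    rw [hn, hW16] at h1
    by_contra h
    have : 2 ^ 4 ≤ 2 ^ n := Nat.pow_le_pow_right (by norm_num) (by omega)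
    omega
  have hH : Nat.card (D.subgroupOf W) = 2 ^ n := by
    rw [← hn]
    exact Nat.card_congr (subgroupOfEquivOfLe hDW).toEquiv
  obtain ⟨K, hK, hHK⟩ := Sylow.exists_subgroup_card_pow_prime_le 2 (m := 3)
    (by rw [hW16]; norm_num) (D.subgroupOf W) hH hn3
  refine ⟨K.map W.subtype, ea_le hW (map_subtype_le K), ?_, ?_, ?_⟩
  · rw [card_map_of_injective (subtype_injective W), hK]; norm_num
  · rw [commutator_eq_bot_iff_le_centralizer]
    intro a ha
    rw [mem_centralizer_iff]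
    intro b hb
    exact ea_comm hW (map_subtype_le K hb) ((le_sup_left : A ≤ W) ha)
  · have hDK : D ≤ K.map W.subtype := by
      rw [← map_subgroupOf_eq_of_le hDW]
      exact map_mono hHK
    refine lt_of_le_of_ne (le_inf ((le_sup_left : A ⊓ E ≤ D).trans hDK) inf_le_right) ?_
    intro h
    apply heA
    have : e ∈ K.map W.subtype ⊓ E :=
      mem_inf.mpr ⟨hDK ((le_sup_right : zpowers e ≤ D) (mem_zpowers e)), heE⟩
    rw [← h] at this
    exact (mem_inf.mp this).1

/-- the relation of the statement -/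
def R (C D : Subgroup X) : Prop :=
  Cfsg.IsElementaryAbelian 2 C ∧ Nat.card ↥C = 8 ∧ Cfsg.IsElementaryAbelian 2 D ∧ Nat.card ↥D = 8 ∧ ⁅C, D⁆ = ⊥

theorem R_symm {C D : Subgroup X} (h : R C D) : R D C := by
  obtain ⟨h1, h2, h3, h4, h5⟩ := h
  exact ⟨h3, h4, h1, h2, by rw [commutator_comm]; exact h5⟩

theorem R_symm' {C D : Subgroup X} (h : Relation.ReflTransGen R C D) :
    Relation.ReflTransGen R D C := by
  induction h with
  | refl => exact Relation.ReflTransGen.refl
  | tail _ b c => exact c.head (R_symm b)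

theorem chain [Finite X] {E : Subgroup X} [E.Normal] (hE : IsElementaryAbelian 2 E)
    (hE32 : 32 ≤ Nat.card E) (n : ℕ) : ∀ A : Subgroup X, IsElementaryAbelian 2 A → Nat.card A = 8 →
    Nat.card E - Nat.card (A ⊓ E : Subgroup X) = n →
    ∃ A₀ : Subgroup X, A₀ ≤ E ∧ IsElementaryAbelian 2 A₀ ∧ Nat.card A₀ = 8 ∧
      Relation.ReflTransGen R A A₀ := by
  induction n using Nat.strong_induction_on with
  | _ n ih =>
    intro A hA hA8 hn
    by_cases hAE : A ≤ E
    · exact ⟨A, hAE, hA, hA8, Relation.ReflTransGen.refl⟩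
    · obtain ⟨A', hA', hA'8, hc, hlt⟩ := step hE hE32 hA hA8 hAE
      have h1 := card_lt_of_lt hlt
      have h2 : Nat.card (A' ⊓ E : Subgroup X) ≤ Nat.card E := card_le_of_le inf_le_right
      obtain ⟨A₀, h3, h4, h5, h6⟩ := ih (Nat.card E - Nat.card (A' ⊓ E : Subgroup X)) (by omega) A' hA'
        hA'8 rfl
      exact ⟨A₀, h3, h4, h5, Relation.ReflTransGen.head ⟨hA, hA8, hA', hA'8, hc⟩ h6⟩

/-- Let X be a finite 2-group having a normal elementary abelian subgroup of order at least 32. Then (a) for any two elementary abelian subgroups A, B of X of order 8 there is a chain A = A₁, A₂, …, Aₙ = B of elementary abelian subgroups of order 8 in which consecutive members commute elementwise; and (b) every elementary abelian subgroup of X of order 4 is contained in an elementary abelian subgroup of order 8. -/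
theorem result {X : Type*} [Group X] [Finite X]
    (hX : IsPGroup 2 X) (E : Subgroup X) [E.Normal] (hE : Cfsg.IsElementaryAbelian 2 E) (hE32 : 32 ≤ Nat.card ↥E) :
    (∀ A B : Subgroup X, Cfsg.IsElementaryAbelian 2 A → Nat.card ↥A = 8 → Cfsg.IsElementaryAbelian 2 B → Nat.card ↥B = 8 →
        Relation.ReflTransGen
          (fun C D : Subgroup X => Cfsg.IsElementaryAbelian 2 C ∧ Nat.card ↥C = 8 ∧ Cfsg.IsElementaryAbelian 2 D ∧ Nat.card ↥D = 8 ∧ ⁅C, D⁆ = ⊥)
          A B) ∧
      (∀ V : Subgroup X, Cfsg.IsElementaryAbelian 2 V → Nat.card ↥V = 4 →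
        ∃ A : Subgroup X, V ≤ A ∧ Cfsg.IsElementaryAbelian 2 A ∧ Nat.card ↥A = 8) := by
  constructor
  · intro A B hA hA8 hB hB8
    obtain ⟨A₀, a1, a2, a3, a4⟩ := chain hE hE32 _ A hA hA8 rfl
    obtain ⟨B₀, b1, b2, b3, b4⟩ := chain hE hE32 _ B hB hB8 rfl
    have hAB : R A₀ B₀ := by
      refine ⟨a2, a3, b2, b3, ?_⟩
      rw [Subgroup.commutator_eq_bot_iff_le_centralizer]
      intro a ha
      rw [Subgroup.mem_centralizer_iff]
      intro b hb
      exact ea_comm hE (b1 hb) (a1 ha)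
    have h1 : Relation.ReflTransGen R B₀ B := R_symm' b4
    exact (a4.tail hAB).trans h1
  · intro V hV hV4
    obtain ⟨e, heE, hc, heV⟩ := exists_e hE hE32 hV (by omega)
    obtain ⟨hW, hW8⟩ := sup_e hV (hE.2 e heE) hc heV
    exact ⟨_, le_sup_left, hW, by rw [hW8, hV4]⟩

end Cfsg.Agent.S1785
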