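import Cfsg.Statements.S0502
import Cfsg.Agent.S1785

set_option autoImplicit false
open Cfsg

namespace Cfsg.Agent.S0502

open Subgroup Cfsg.Agent.S1785

variable {X : Type*} [Group X]

theorem exists_e4 [Finite X] {E B : Subgroup X} [E.Normal] (hE : IsElementaryAbelian 2 E)
    (hE8 : 8 ≤ Nat.card E) (hB : IsElementaryAbelian 2 B) (hB4 : Nat.card B ≤ 4) :
    ∃ e ∈ E, (∀ b ∈ B, b * e = e * b) ∧ e ∉ B := by
  by_contra h
  push_neg at h
  have h1 : E ⊓ centralizer (B : Set X) ≤ B ⊓ E := by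
    intro e he
    rw [mem_inf] at he ⊢
    exact ⟨h e he.1 (fun b hb => (mem_centralizer_iff.mp he.2) b hb), he.1⟩
  have h2 := key hE hB (fun b _ u hu => ‹E.Normal›.conj_mem u hu b) (D := B ⊓ E) inf_le_left
    inf_le_right
  set d := Nat.card (B ⊓ E : Subgroup X) with hd
  have hd1 : 0 < d := Nat.card_pos
  have hd8 : d ≤ 4 := (card_le_of_le inf_le_left).trans hB4
  have h3 : 8 ^ d ≤ d ^ 4 :=
    calc 8 ^ d ≤ Nat.card E ^ d := Nat.pow_le_pow_left hE8 _
      _ ≤ _ := h2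
      _ ≤ d ^ Nat.card B := Nat.pow_le_pow_left (card_le_of_le h1) _
      _ ≤ d ^ 4 := Nat.pow_le_pow_right hd1 hB4
  clear_value d
  interval_cases d <;> norm_num at h3

theorem step4 [Finite X] {E A : Subgroup X} [E.Normal] (hE : IsElementaryAbelian 2 E)
    (hE8 : 8 ≤ Nat.card E) (hA : IsElementaryAbelian 2 A) (hA4 : Nat.card A = 4)
    (hAE : ¬ A ≤ E) :
    ∃ A' : Subgroup X, IsElementaryAbelian 2 A' ∧ Nat.card A' = 4 ∧
      (∀ a ∈ A, ∀ b ∈ A', a * b = b * a) ∧ A ⊓ E < A' ⊓ E := by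
  have : Fact (Nat.Prime 2) := ⟨Nat.prime_two⟩
  obtain ⟨e, heE, hc, heA⟩ := exists_e4 hE hE8 hA hA4.le
  obtain ⟨hW, hW16⟩ := sup_e hA (hE.2 e heE) hc heA
  set W := A ⊔ zpowers e with hWdef
  rw [hA4] at hW16
  set D := (A ⊓ E) ⊔ zpowers e with hD
  have hDW : D ≤ W := sup_le_sup_right inf_le_left _
  have hDE : D ≤ E := sup_le inf_le_right (zpowers_le.mpr heE)
  have hDne : D ≠ W := by
    intro h
    apply hAE
    rw [h] at hDE
    exact (le_sup_left : A ≤ W).trans hDE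
  obtain ⟨n, hn⟩ := IsPGroup.iff_card.mp (ea_isPGroup (ea_le hW hDW))
  have hn3 : n ≤ 2 := by
    have h1 := card_lt_of_lt (lt_of_le_of_ne hDW hDne)
    rw [hn, hW16] at h1
    by_contra h
    have : 2 ^ 3 ≤ 2 ^ n := Nat.pow_le_pow_right (by norm_num) (by omega)
    omega
  have hH : Nat.card (D.subgroupOf W) = 2 ^ n := by
    rw [← hn]
    exact Nat.card_congr (subgroupOfEquivOfLe hDW).toEquiv
  obtain ⟨K, hK, hHK⟩ := Sylow.exists_subgroup_card_pow_prime_le 2 (m := 2)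
    (by rw [hW16]; norm_num) (D.subgroupOf W) hH hn3
  refine ⟨K.map W.subtype, ea_le hW (map_subtype_le K), ?_, ?_, ?_⟩
  · rw [card_map_of_injective (subtype_injective W), hK]; norm_num
  · intro a ha b hb
    exact ea_comm hW ((le_sup_left : A ≤ W) ha) (map_subtype_le K hb)
  · have hDK : D ≤ K.map W.subtype := by
      rw [← map_subgroupOf_eq_of_le hDW]
      exact map_mono hHK
    refine lt_of_le_of_ne (le_inf ((le_sup_left : A ⊓ E ≤ D).trans hDK) inf_le_right) ?_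
    intro h
    apply heA
    have : e ∈ K.map W.subtype ⊓ E :=
      mem_inf.mpr ⟨hDK ((le_sup_right : zpowers e ≤ D) (mem_zpowers e)), heE⟩
    rw [← h] at this
    exact (mem_inf.mp this).1

theorem ea_of_kleinFour {A : Subgroup X} (h : IsKleinFour A) :
    IsElementaryAbelian 2 A ∧ Nat.card A = 4 := by
  refine ⟨⟨IsKleinFour.isMulCommutative, fun a ha => ?_⟩, h.card_four⟩
  have := Monoid.pow_exponent_eq_one (⟨a, ha⟩ : A)
  rw [h.exponent_two] at this
  exact congrArg Subtype.val this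

theorem kleinFour_of_ea {A : Subgroup X} (h : IsElementaryAbelian 2 A) (h4 : Nat.card A = 4) :
    IsKleinFour A := by
  refine ⟨h4, ?_⟩
  have h1 : Monoid.exponent A ∣ 2 :=
    Monoid.exponent_dvd_of_forall_pow_eq_one (fun a => Subtype.ext (h.2 a.1 a.2))
  rcases (Nat.dvd_prime Nat.prime_two).mp h1 with h2 | h2
  · exfalso
    rw [Monoid.exp_eq_one_iff] at h2
    have := Nat.card_unique (α := A)
    omega
  · exact h2

/-- the relation of the statement -/
def R4 (A B : Subgroup X) : Prop :=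
  IsKleinFour A ∧ IsKleinFour B ∧ ∀ a ∈ A, ∀ b ∈ B, a * b = b * a

theorem R4_symm' {C D : Subgroup X} (h : Relation.ReflTransGen R4 C D) :
    Relation.ReflTransGen R4 D C := by
  induction h with
  | refl => exact Relation.ReflTransGen.refl
  | tail _ b c => exact c.head ⟨b.2.1, b.1, fun x hx y hy => (b.2.2 y hy x hx).symm⟩

theorem chain4 [Finite X] {E : Subgroup X} [E.Normal] (hE : IsElementaryAbelian 2 E)
    (hE8 : 8 ≤ Nat.card E) (n : ℕ) : ∀ A : Subgroup X, IsElementaryAbelian 2 A → Nat.card A = 4 →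
    Nat.card E - Nat.card (A ⊓ E : Subgroup X) = n →
    ∃ A₀ : Subgroup X, A₀ ≤ E ∧ IsElementaryAbelian 2 A₀ ∧ Nat.card A₀ = 4 ∧
      Relation.ReflTransGen R4 A A₀ := by
  induction n using Nat.strong_induction_on with
  | _ n ih =>
    intro A hA hA8 hn
    by_cases hAE : A ≤ E
    · exact ⟨A, hAE, hA, hA8, Relation.ReflTransGen.refl⟩
    · obtain ⟨A', hA', hA'8, hc, hlt⟩ := step4 hE hE8 hA hA8 hAE
      have h1 := card_lt_of_lt hlt
      have h2 : Nat.card (A' ⊓ E : Subgroup X) ≤ Nat.card E := card_le_of_le inf_le_right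
      obtain ⟨A₀, h3, h4, h5, h6⟩ := ih (Nat.card E - Nat.card (A' ⊓ E : Subgroup X)) (by omega) A' hA'
        hA'8 rfl
      exact ⟨A₀, h3, h4, h5, Relation.ReflTransGen.head
        ⟨kleinFour_of_ea hA hA8, kleinFour_of_ea hA' hA'8, hc⟩ h6⟩

/-- If a finite 2-group has a normal elementary abelian subgroup of order at least 8, then any two of its Klein
four-subgroups are joined by a chain of Klein four-subgroups with consecutive members commuting elementwise. -/
theorem result {P : Type*} [Group P] [Finite P] (hP : IsPGroup 2 P)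
    (E : Subgroup P) [E.Normal] (hE : IsMulCommutative E) (hE2 : ∀ e ∈ E, e ^ 2 = 1) (hE8 : 8 ≤ Nat.card E) :
    Cfsg.IsFourConnected P := by
  intro U V hU hV
  have hEE : IsElementaryAbelian 2 E := ⟨hE, hE2⟩
  obtain ⟨hU1, hU2⟩ := ea_of_kleinFour hU
  obtain ⟨hV1, hV2⟩ := ea_of_kleinFour hV
  obtain ⟨A₀, a1, a2, a3, a4⟩ := chain4 hEE hE8 _ U hU1 hU2 rfl
  obtain ⟨B₀, b1, b2, b3, b4⟩ := chain4 hEE hE8 _ V hV1 hV2 rfl
  have hAB : R4 A₀ B₀ :=
    ⟨kleinFour_of_ea a2 a3, kleinFour_of_ea b2 b3, fun a ha b hb => ea_comm hEE (a1 ha) (b1 hb)⟩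
  exact (a4.tail hAB).trans (R4_symm' b4)

end Cfsg.Agent.S0502
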