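import Cfsg.Statements.S0519
import Cfsg.Agent.Lib.Helper76FourGroup
import Cfsg.Agent.Lib.Helper25Quat
import Cfsg.Agent.S0126
import Cfsg.Agent.S0206
import Cfsg.Agent.S0646

set_option autoImplicit false
open Cfsg

namespace Cfsg.Agent.S0519

open Cfsg.Agent.Lib

theorem not_cyclic_of_exp {P : Type*} [Group P] [Finite P] (p : ℕ) (hp : p.Prime) (V : Subgroup P)
    (hcard : Nat.card V = p ^ 2) (hexp : ∀ v ∈ V, v ^ p = 1) : ¬ IsCyclic V := by
  intro hc
  obtain ⟨g, hg⟩ := hc.exists_generator
  have h1 := orderOf_eq_card_of_forall_mem_zpowers hg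
  have h2 : g ^ p = 1 := Subtype.ext (hexp g g.2)
  have h3 := orderOf_dvd_of_pow_eq_one h2
  rw [h1, hcard] at h3
  have h4 := Nat.le_of_dvd hp.pos h3
  have h5 : p * 2 ≤ p * p := Nat.mul_le_mul_left p hp.two_le
  have h6 := hp.pos
  nlinarith

/-- Let P be a finite p-group in which every abelian normal subgroup is cyclic, but which has a non-cyclic abelian
subgroup. Then p = 2 and P is generalized quaternion, dihedral of order at least 16, or quasi-dihedral. -/
theorem result {P : Type*} [Group P] [Finite P] (p : ℕ) [Fact p.Prime]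
    (hP : IsPGroup p P) (hn : ∀ A : Subgroup P, A.Normal → IsMulCommutative A → IsCyclic A)
    (hm : ∃ B : Subgroup P, IsMulCommutative B ∧ ¬ IsCyclic B) :
    p = 2 ∧ ((∃ n : ℕ, Nonempty (P ≃* QuaternionGroup n)) ∨ (∃ n : ℕ, 8 ≤ n ∧ Nonempty (P ≃* DihedralGroup n)) ∨
      Cfsg.IsQuasiDihedral P) := by
  have hpp : p.Prime := Fact.out
  have hnc : ¬ IsCyclic P := by
    intro hc
    obtain ⟨B, _, hB⟩ := hm
    exact hB inferInstance
  have hp2 : p = 2 := by
    by_contra hp2
    obtain ⟨A, hAn, hAe, hAc⟩ := Cfsg.Agent.S0126.result hp2 hP hnc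
    exact not_cyclic_of_exp p hpp A hAc hAe.2 (hn A hAn hAe.1)
  subst hp2
  refine ⟨rfl, ?_⟩
  have hfour : ∀ V : Subgroup P, V.Normal → Nat.card V = 4 → (∀ v ∈ V, v ^ 2 = 1) → False := by
    intro V hVn hVc hVe
    have hc : IsMulCommutative V := IsPGroup.isMulCommutative_of_card_eq_prime_sq (p := 2) hVc
    exact not_cyclic_of_exp 2 hpp V hVc hVe (hn V hVn hc)
  rcases Helper76FourGroup.normal_four_or_cyclic_index_le_two hP with ⟨V, h1, h2, h3⟩ | ⟨a₀, ha₀n, ha₀i, _⟩
  · exact (hfour V h1 h2 h3).elim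
  have hi1 : (Subgroup.zpowers a₀).index ≠ 1 := by
    intro h
    rw [Subgroup.index_eq_one] at h
    apply hnc
    refine ⟨a₀, fun x => ?_⟩
    have : x ∈ Subgroup.zpowers a₀ := h ▸ Subgroup.mem_top x
    exact this
  have hi0 : (Subgroup.zpowers a₀).index ≠ 0 := Subgroup.index_ne_zero_of_finite
  have hCi : (Subgroup.zpowers a₀).index = 2 := by omega
  have hna : ∃ x y : P, x * y ≠ y * x := by
    by_contra h
    push Not at h
    have hc : IsMulCommutative (⊤ : Subgroup P) := by
      rw [isMulCommutative_iff]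
      intro a b
      exact Subtype.ext (h a b)
    have := hn ⊤ inferInstance hc
    exact hnc (isCyclic_of_surjective (Subgroup.topEquiv (G := P)).toMonoidHom
      (Subgroup.topEquiv (G := P)).surjective)
  obtain ⟨m, hm'⟩ := IsPGroup.iff_card.mp hP
  have hm3 : 3 ≤ m := by
    by_contra hlt
    obtain ⟨x, y, hxy⟩ := hna
    apply hxy
    have hcases : m = 0 ∨ m = 1 ∨ m = 2 := by omega
    rcases hcases with rfl | rfl | rfl
    · have : Subsingleton P := (Nat.card_eq_one_iff_unique.mp (by simpa using hm')).1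
      exact Subsingleton.elim _ _
    · exfalso
      exact hnc (isCyclic_of_prime_card (p := 2) (by simpa using hm'))
    · exact (IsPGroup.isMulCommutative_of_card_eq_prime_sq (p := 2) hm').is_comm.comm x y
  obtain ⟨k, rfl⟩ : ∃ k, m = k + 3 := ⟨m - 3, by omega⟩
  obtain ⟨a, b, ha, hb, hcases⟩ := Cfsg.Agent.S0646.result (k + 3) (by omega) hm'
    (Subgroup.zpowers a₀) inferInstance hCi hna
  have e1 : k + 3 - 1 = k + 2 := by omega
  have e2 : k + 3 - 2 = k + 1 := by omega
  rw [e1] at ha
  rw [e2] at hcases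
  have hAi : (Subgroup.zpowers a).index = 2 := by
    have h1 := (Subgroup.zpowers a).card_mul_index
    rw [Nat.card_zpowers, ha, hm', pow_succ 2 (k + 2)] at h1
    exact Nat.eq_of_mul_eq_mul_left (by positivity) h1
  have htop : ∀ K : Subgroup P, a ∈ K → b ∈ K → K = ⊤ := by
    intro K haK hbK
    rw [Subgroup.eq_top_iff']
    intro x
    by_cases hx : x ∈ Subgroup.zpowers a
    · exact (Subgroup.zpowers_le.mpr haK) hx
    · have h1 : x * b ∈ Subgroup.zpowers a := by
        rw [Subgroup.mul_mem_iff_of_index_two hAi]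
        exact iff_of_false hx hb
      have := K.mul_mem ((Subgroup.zpowers_le.mpr haK) h1) (K.inv_mem hbK)
      simpa using this
  have hb1 : b ≠ 1 := by
    rintro rfl
    exact hb (one_mem _)
  rcases hcases with ⟨hb2, hc⟩ | ⟨hb2, hc⟩ | ⟨hn4, hb2, hc⟩ | ⟨hn4, hb2, hc⟩
  · rcases Nat.eq_zero_or_pos k with rfl | hk
    · -- D8 has a normal four-group
      exfalso
      have hz2 : (a ^ 2) ^ 2 = 1 := by
        rw [← pow_mul, ← orderOf_dvd_iff_pow_eq_one, ha]
        norm_num
      have hz1 : a ^ 2 ≠ 1 := by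
        intro h
        have h3 := orderOf_dvd_of_pow_eq_one h
        rw [ha] at h3
        norm_num at h3
      have hbz : b * a ^ 2 = a ^ 2 * b := by
        rw [← mul_inv_eq_iff_eq_mul, ← conj_pow, hc, inv_pow]
        rw [inv_eq_iff_mul_eq_one, ← pow_two]
        exact hz2
      have hcard : Nat.card ↥(Subgroup.zpowers b ⊔ Subgroup.zpowers (a ^ 2)) = 4 := by
        rw [Helper76FourGroup.card_sup_of_commute, Nat.card_zpowers, Nat.card_zpowers,
          orderOf_eq_prime hb2 hb1, orderOf_eq_prime hz2 hz1]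
        · rw [Subgroup.zpowers_le, Subgroup.mem_centralizer_iff]
          intro h hh
          obtain ⟨i, rfl⟩ := Subgroup.mem_zpowers_iff.mp hh
          exact ((Commute.zpow_right (show Commute b (a ^ 2) from hbz) i).symm :
            Commute ((a ^ 2) ^ i) b)
        · rw [eq_bot_iff]
          rintro y ⟨hy1, hy2⟩
          rcases Helper76FourGroup.mem_zpowers_of_sq_eq_one hb2 hy1 with rfl | rfl
          · exact one_mem _
          · exact absurd ((Subgroup.zpowers_le.mpr
              (Subgroup.pow_mem _ (Subgroup.mem_zpowers a) 2)) hy2) hb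
      have hidx : (Subgroup.zpowers b ⊔ Subgroup.zpowers (a ^ 2)).index = 2 := by
        have h1 := (Subgroup.zpowers b ⊔ Subgroup.zpowers (a ^ 2)).card_mul_index
        rw [hcard, hm'] at h1
        omega
      have hVn := Subgroup.normal_of_index_eq_two hidx
      have hVc : IsMulCommutative ↥(Subgroup.zpowers b ⊔ Subgroup.zpowers (a ^ 2)) :=
        IsPGroup.isMulCommutative_of_card_eq_prime_sq (p := 2) hcard
      have hcyc := hn _ hVn hVc
      have hbV : b ∈ Subgroup.zpowers b ⊔ Subgroup.zpowers (a ^ 2) :=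
        le_sup_left (b := Subgroup.zpowers (a ^ 2)) (Subgroup.mem_zpowers b)
      have hzV : a ^ 2 ∈ Subgroup.zpowers b ⊔ Subgroup.zpowers (a ^ 2) :=
        le_sup_right (a := Subgroup.zpowers b) (Subgroup.mem_zpowers _)
      have hK : Nat.card (Subgroup.zpowers (⟨a ^ 2, hzV⟩ :
          ↥(Subgroup.zpowers b ⊔ Subgroup.zpowers (a ^ 2)))) = 2 := by
        rw [Nat.card_zpowers, Subgroup.orderOf_mk, orderOf_eq_prime hz2 hz1]
      have := Helper1UniqInv.mem_of_pow_card_eq_one (Subgroup.zpowers (⟨a ^ 2, hzV⟩ :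
          ↥(Subgroup.zpowers b ⊔ Subgroup.zpowers (a ^ 2)))) (x := ⟨b, hbV⟩)
          (by rw [hK]; exact Subtype.ext hb2)
      obtain ⟨t, ht⟩ := Subgroup.mem_zpowers_iff.mp this
      apply hb
      have h5 : (a ^ 2) ^ t = b := by
        have := congrArg Subtype.val ht
        simpa using this
      rw [← h5]
      exact Subgroup.zpow_mem _ (Subgroup.pow_mem _ (Subgroup.mem_zpowers a) 2) t
    · right; left
      refine ⟨2 ^ (k + 2), ?_, ?_⟩
      · have : 2 ^ 3 ≤ 2 ^ (k + 2) := Nat.pow_le_pow_right (by norm_num) (by omega)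
        omega
      have ob : orderOf b = 2 := orderOf_eq_prime hb2 hb1
      have hy2 : (b * a) ^ 2 = 1 := by
        have : (b * a) ^ 2 = (b * a * b⁻¹) * b ^ 2 * a := by rw [pow_two, pow_two]; group
        rw [this, hc, hb2]; group
      have hy1 : b * a ≠ 1 := by
        intro h
        apply hb
        rw [mul_eq_one_iff_eq_inv] at h
        rw [h]
        exact (Subgroup.zpowers a).inv_mem (Subgroup.mem_zpowers a)
      have oy : orderOf (b * a) = 2 := orderOf_eq_prime hy2 hy1
      have hxy : b ≠ b * a := by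
        intro h
        have : a = 1 := by simpa using h.symm
        rw [this, orderOf_one] at ha
        have : 2 ^ 2 ≤ 2 ^ (k + 2) := Nat.pow_le_pow_right (by norm_num) (by omega)
        omega
      have hiso := Cfsg.Agent.S0206.result b (b * a) ob oy hxy
      have e3 : b * (b * a) = a := by rw [← mul_assoc, ← pow_two, hb2, one_mul]
      rw [e3, ha] at hiso
      obtain ⟨f⟩ := hiso
      have hcl : Subgroup.closure ({b, b * a} : Set P) = ⊤ := by
        apply htop
        · have h1 : b ∈ Subgroup.closure ({b, b * a} : Set P) := Subgroup.subset_closure (by simp)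
          have h2 : b * a ∈ Subgroup.closure ({b, b * a} : Set P) := Subgroup.subset_closure (by simp)
          have := mul_mem (inv_mem h1) h2
          simpa using this
        · exact Subgroup.subset_closure (by simp)
      exact ⟨(Subgroup.topEquiv.symm.trans (MulEquiv.subgroupCongr hcl.symm)).trans f⟩
  · left
    refine ⟨2 ^ (k + 1), ?_⟩
    have hq := Helper25Quat.nonempty_equiv (n := 2 ^ (k + 1)) (A := a) (B := b)
      (by rw [ha]; ring) (by rw [← pow_two]; exact hb2) hc hb ⊤
      (by rw [Nat.card_congr Subgroup.topEquiv.toEquiv, hm']; ring) (Subgroup.mem_top _)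
      (Subgroup.mem_top _)
    obtain ⟨f⟩ := hq
    exact ⟨Subgroup.topEquiv.symm.trans f⟩
  · exfalso
    obtain ⟨l, rfl⟩ : ∃ l, k = l + 1 := ⟨k - 1, by omega⟩
    have hAn := Subgroup.normal_of_index_eq_two hAi
    have hCA : ∀ y, y * a = a * y → y ∈ Subgroup.zpowers a := by
      intro y hy
      by_contra hyA
      have h1 : b⁻¹ * y ∈ Subgroup.zpowers a := by
        rw [Subgroup.mul_mem_iff_of_index_two hAi, inv_mem_iff]
        exact iff_of_false hb hyA
      obtain ⟨i, hi⟩ := Subgroup.mem_zpowers_iff.mp h1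
      have hbe : b = y * (a ^ i)⁻¹ := by rw [hi]; group
      have hcomm : b * a = a * b := by
        rw [hbe]
        have c1 : Commute y a := hy
        have c2 : Commute ((a ^ i)⁻¹) a := ((Commute.refl a).zpow_left i).inv_left
        exact (c1.mul_left c2 : Commute (y * (a ^ i)⁻¹) a)
      rw [← mul_inv_eq_iff_eq_mul, hc, pow_add, pow_one] at hcomm
      have h2 : a ^ 2 ^ (l + 1 + 1) = 1 := by simpa using hcomm
      have h3 := orderOf_dvd_of_pow_eq_one h2
      rw [ha] at h3
      have := (Nat.pow_dvd_pow_iff_le_right (by norm_num : 1 < 2)).mp h3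
      omega
    obtain ⟨V, h1, h2, h3⟩ := Helper76FourGroup.normal_four_of_modular l a b ha hAn hCA hb hb2
      (1 + 2 ^ (l + 2)) (by rw [hc, ← zpow_natCast]; push_cast; rfl) (by simp)
    exact hfour V h1 h2 h3
  · right; right
    exact ⟨k + 2, by omega, hm', a, b, ha, orderOf_eq_prime hb2 hb1, hc⟩

end Cfsg.Agent.S0519
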