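import Cfsg.Statements.S0520
-- import your own Cfsg.Agent.* helpers here
import Mathlib
import Cfsg.Agent.Lib.Helper2Sylow
import Cfsg.Agent.Lib.Helper55Sylow

set_option autoImplicit false
open Cfsg

namespace Cfsg.Agent.S0520

open Pointwise

section basics
variable {G : Type*} [Group G]

/-- conjugate subgroup -/
abbrev cj (g : G) (X : Subgroup G) : Subgroup G := X.map (MulAut.conj g).toMonoidHom

theorem mem_cj {g x : G} {X : Subgroup G} : x ∈ cj g X ↔ g⁻¹ * x * g ∈ X := by
  rw [cj, Subgroup.mem_map_equiv, MulAut.conj_symm_apply]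

theorem cj_mul (g h : G) (X : Subgroup G) : cj (g * h) X = cj g (cj h X) := by
  ext x
  rw [mem_cj, mem_cj, mem_cj]
  have : (g * h)⁻¹ * x * (g * h) = h⁻¹ * (g⁻¹ * x * g) * h := by group
  rw [this]

theorem cj_one (X : Subgroup G) : cj 1 X = X := by
  ext x
  rw [mem_cj]
  simp

theorem cj_mono {g : G} {X Y : Subgroup G} (h : X ≤ Y) : cj g X ≤ cj g Y := Subgroup.map_mono h

theorem cj_inv_cj (g : G) (X : Subgroup G) : cj g⁻¹ (cj g X) = X := by
  rw [← cj_mul]
  simp [cj_one]

theorem cj_cj_inv (g : G) (X : Subgroup G) : cj g (cj g⁻¹ X) = X := by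
  rw [← cj_mul]
  simp [cj_one]

theorem card_cj (g : G) (X : Subgroup G) : Nat.card (cj g X) = Nat.card X :=
  Subgroup.card_map_of_injective (MulAut.conj g).injective

theorem mem_norm {g : G} {X : Subgroup G} : g ∈ Subgroup.normalizer (X : Set G) ↔ cj g X = X :=
  Subgroup.mem_normalizer_iff_map_conj_eq

/-- four-group, elementwise -/
def F (U : Subgroup G) : Prop := Nat.card U = 4 ∧ ∀ u ∈ U, u ^ 2 = 1

theorem k4_iff (U : Subgroup G) : IsKleinFour ↥U ↔ F U := by
  constructor
  · intro h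
    refine ⟨h.card_four, fun u hu => ?_⟩
    have := Monoid.pow_exponent_eq_one (⟨u, hu⟩ : ↥U)
    rw [h.exponent_two] at this
    simpa using congrArg Subtype.val this
  · rintro ⟨h1, h2⟩
    refine ⟨h1, ?_⟩
    have hd : Monoid.exponent ↥U ∣ 2 := Monoid.exponent_dvd_of_forall_pow_eq_one (fun u => by
      apply Subtype.ext
      simpa using h2 u u.2)
    rcases (Nat.dvd_prime Nat.prime_two).mp hd with h | h
    · exfalso
      have := Monoid.exp_eq_one_iff.mp h
      have h3 : Nat.card ↥U ≤ 1 := Finite.card_le_one_iff_subsingleton.mpr this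
      omega
    · exact h

theorem F_cj {g : G} {U : Subgroup G} (h : F U) : F (cj g U) := by
  refine ⟨by rw [card_cj]; exact h.1, ?_⟩
  intro a ha
  have := h.2 _ (mem_cj.mp ha)
  have e : a = g * (g⁻¹ * a * g) * g⁻¹ := by group
  rw [e, conj_pow, this]
  group

theorem F.isPGroup {U : Subgroup G} (h : F U) : IsPGroup 2 U := by
  intro x
  refine ⟨1, ?_⟩
  apply Subtype.ext
  simpa using h.2 x x.2

/-- adjacency -/
def R (A B : Subgroup G) : Prop := IsKleinFour ↥A ∧ IsKleinFour ↥B ∧ ∀ a ∈ A, ∀ b ∈ B, a * b = b * a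

theorem R_symm {A B : Subgroup G} : R A B → R B A := by
  rintro ⟨h1, h2, h3⟩
  exact ⟨h2, h1, fun a ha b hb => (h3 b hb a ha).symm⟩

theorem R_cj (g : G) {A B : Subgroup G} (h : R A B) : R (cj g A) (cj g B) := by
  obtain ⟨h1, h2, h3⟩ := h
  refine ⟨(k4_iff _).mpr (F_cj ((k4_iff _).mp h1)), (k4_iff _).mpr (F_cj ((k4_iff _).mp h2)), ?_⟩
  intro a ha b hb
  have := h3 _ (mem_cj.mp ha) _ (mem_cj.mp hb)
  calc a * b = g * ((g⁻¹ * a * g) * (g⁻¹ * b * g)) * g⁻¹ := by group
    _ = g * ((g⁻¹ * b * g) * (g⁻¹ * a * g)) * g⁻¹ := by rw [this]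
    _ = b * a := by group

abbrev conn (A B : Subgroup G) : Prop := Relation.ReflTransGen R A B

theorem conn_cj (g : G) {A B : Subgroup G} (h : conn A B) : conn (cj g A) (cj g B) := by
  induction h with
  | refl => exact Relation.ReflTransGen.refl
  | tail _ hbc ih => exact ih.tail (R_cj g hbc)

theorem conn_symm {A B : Subgroup G} (h : conn A B) : conn B A := by
  induction h with
  | refl => exact Relation.ReflTransGen.refl
  | tail _ hbc ih => exact Relation.ReflTransGen.head (R_symm hbc) ih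

/-- the stabilizer of the component of `E` -/
def stab (E : Subgroup G) : Subgroup G where
  carrier := {g | conn E (cj g E)}
  one_mem' := by
    show conn E (cj 1 E)
    rw [cj_one]
  mul_mem' := by
    intro g h hg hh
    show conn E (cj (g * h) E)
    rw [cj_mul]
    exact Relation.ReflTransGen.trans hg (conn_cj g hh)
  inv_mem' := by
    intro g hg
    show conn E (cj g⁻¹ E)
    have := conn_cj g⁻¹ hg
    rw [cj_inv_cj] at this
    exact conn_symm this

theorem mem_stab {E : Subgroup G} {g : G} : g ∈ stab E ↔ conn E (cj g E) := Iff.rfl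

theorem exists_four [Finite G] (h : ¬ Cfsg.PRankLE 2 1 G) : ∃ U : Subgroup G, F U := by
  unfold Cfsg.PRankLE at h
  push Not at h
  obtain ⟨A, _, hA2, hA3⟩ := h
  have hp : IsPGroup 2 A := by
    intro x
    refine ⟨1, ?_⟩
    apply Subtype.ext
    simpa using hA2 x x.2
  obtain ⟨n, hn⟩ := IsPGroup.iff_card.mp hp
  have hn2 : 2 ≤ n := by
    by_contra hcon
    have : n ≤ 1 := by omega
    have h1 : 2 ^ n ≤ 2 ^ 1 := Nat.pow_le_pow_right (by norm_num) this
    omega
  haveI : Fact (Nat.Prime 2) := ⟨Nat.prime_two⟩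
  obtain ⟨K, hK⟩ := Sylow.exists_subgroup_card_pow_prime (G := ↥A) 2 (n := 2) (by
    rw [hn]; exact pow_dvd_pow 2 hn2)
  refine ⟨K.map A.subtype, ?_, ?_⟩
  · rw [Subgroup.card_map_of_injective A.subtype_injective, hK]; norm_num
  · intro u hu
    obtain ⟨u', _, rfl⟩ := Subgroup.mem_map.mp hu
    exact hA2 _ u'.2

theorem rank_iff [Finite G] (Q : Subgroup G) : ¬ Cfsg.PRankLE 2 1 ↥Q ↔ ∃ U : Subgroup G, U ≤ Q ∧ F U := by
  constructor
  · intro h
    obtain ⟨U, hU⟩ := exists_four h
    refine ⟨U.map Q.subtype, Subgroup.map_subtype_le U, ?_, ?_⟩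
    · rw [Subgroup.card_map_of_injective Q.subtype_injective, hU.1]
    · intro u hu
      obtain ⟨u', hu', rfl⟩ := Subgroup.mem_map.mp hu
      have := hU.2 u' hu'
      simpa using congrArg Subtype.val this
  · rintro ⟨U, hUQ, hU⟩ h
    have hsq : ∀ a ∈ U, a * a = 1 := fun a ha => by rw [← pow_two]; exact hU.2 a ha
    have hcm : ∀ a ∈ U, ∀ b ∈ U, a * b = b * a := by
      intro a ha b hb
      have h1 := hsq _ (U.mul_mem ha hb)
      calc a * b = a * ((a * b) * (a * b)) * b := by rw [h1, mul_one]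
        _ = (a * a) * b * a * (b * b) := by group
        _ = b * a := by rw [hsq a ha, hsq b hb, one_mul, mul_one]
    have := h (U.subgroupOf Q) ⟨⟨fun a b => by
      apply Subtype.ext
      apply Subtype.ext
      exact hcm _ (Subgroup.mem_subgroupOf.mp a.2) _ (Subgroup.mem_subgroupOf.mp b.2)⟩⟩ (by
      intro a ha
      apply Subtype.ext
      simpa using hU.2 _ (Subgroup.mem_subgroupOf.mp ha))
    rw [Nat.card_congr (Subgroup.subgroupOfEquivOfLe hUQ).toEquiv, hU.1] at this
    omega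

/-- two `2`-subgroups of `N` can be joined to a `2`-group after conjugating in `N` -/
theorem exists_join [Finite G] (N D1 D2 : Subgroup G) (h1 : D1 ≤ N) (h2 : D2 ≤ N) (hp1 : IsPGroup 2 D1)
    (hp2 : IsPGroup 2 D2) : ∃ n ∈ N, ∃ E : Subgroup G, IsPGroup 2 E ∧ D1 ≤ E ∧ cj n D2 ≤ E := by
  haveI : Fact (Nat.Prime 2) := ⟨Nat.prime_two⟩
  obtain ⟨T1, hT1⟩ := (hp1.comap_subtype (K := N)).exists_le_sylow
  obtain ⟨T2, hT2⟩ := (hp2.comap_subtype (K := N)).exists_le_sylow
  obtain ⟨n, hn⟩ := MulAction.exists_smul_eq N T2 T1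
  refine ⟨n, n.2, (T1 : Subgroup ↥N).map N.subtype, T1.2.map _, ?_, ?_⟩
  · intro x hx
    exact Subgroup.mem_map.mpr ⟨⟨x, h1 hx⟩, hT1 hx, rfl⟩
  · intro x hx
    have hx' := mem_cj.mp hx
    have hxN : x ∈ N := by
      have := N.mul_mem (N.mul_mem n.2 (h2 hx')) (N.inv_mem n.2)
      have e : (n : G) * ((n : G)⁻¹ * x * n) * (n : G)⁻¹ = x := by group
      rwa [e] at this
    refine Subgroup.mem_map.mpr ⟨⟨x, hxN⟩, ?_, rfl⟩
    have h3 : (⟨x, hxN⟩ : ↥N) ∈ n • T2 := by
      rw [Cfsg.Agent.Lib.Helper2Sylow.mem_sylow_smul_iff]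
      exact hT2 hx'
    rw [hn] at h3
    exact h3

/-- a `2`-subgroup lies in a conjugate of `S` -/
theorem exists_le_cj [Finite G] (S : Sylow 2 G) (E : Subgroup G) (hE : IsPGroup 2 E) :
    ∃ y : G, E ≤ cj y (S : Subgroup G) := by
  haveI : Fact (Nat.Prime 2) := ⟨Nat.prime_two⟩
  obtain ⟨T, hT⟩ := hE.exists_le_sylow
  obtain ⟨y, hy⟩ := MulAction.exists_smul_eq G S T
  refine ⟨y, fun x hx => ?_⟩
  have h1 : x ∈ y • S := by rw [hy]; exact hT hx
  exact mem_cj.mpr (Cfsg.Agent.Lib.Helper2Sylow.mem_sylow_smul_iff.mp h1)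

end basics


/-- Let G be a finite group of 2-rank at least 2 and S a Sylow 2-subgroup whose commuting graph of Klein four-subgroups is
connected. Then the commuting graph of Klein four-subgroups of G is disconnected if and only if the 2-generated core — the
subgroup generated by the normalizers N_G(Q) of the subgroups Q of S that contain a Klein four-group — is a proper
subgroup of G. -/
theorem result {G : Type*} [Group G] [Finite G] (h2 : ¬ Cfsg.PRankLE 2 1 G)
    (S : Sylow 2 G) (hS : Cfsg.IsFourConnected (S : Subgroup G)) :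
    ¬ Cfsg.IsFourConnected G ↔
      (⨆ Q : {Q : Subgroup G // Q ≤ (S : Subgroup G) ∧ ¬ Cfsg.PRankLE 2 1 Q},
          Subgroup.normalizer ((Q : Subgroup G) : Set G)) ≠ ⊤ := by
  classical
  haveI : Fact (Nat.Prime 2) := ⟨Nat.prime_two⟩
  set Γ : Subgroup G := ⨆ Q : {Q : Subgroup G // Q ≤ (S : Subgroup G) ∧ ¬ Cfsg.PRankLE 2 1 Q},
          Subgroup.normalizer ((Q : Subgroup G) : Set G) with hΓ
  have hNΓ : ∀ Q : Subgroup G, Q ≤ S → (∃ U, U ≤ Q ∧ F U) → Subgroup.normalizer (Q : Set G) ≤ Γ := by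
    intro Q hQ hU
    exact le_iSup (fun Q : {Q : Subgroup G // Q ≤ (S : Subgroup G) ∧ ¬ Cfsg.PRankLE 2 1 Q} =>
      Subgroup.normalizer ((Q : Subgroup G) : Set G)) ⟨Q, hQ, (rank_iff Q).mpr hU⟩
  have caseEq : ∀ y : G, (∃ W, W ≤ (S : Subgroup G) ⊓ cj y S ∧ F W) →
      (S : Subgroup G) ⊓ cj y S = S → y ∈ Γ := by
    rintro y ⟨W, hW, hWF⟩ hD
    have h1 : (S : Subgroup G) ≤ cj y S := inf_eq_left.mp hD
    have h2 : (S : Subgroup G) = cj y S := Subgroup.eq_of_le_of_card_ge h1 (by rw [card_cj])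
    exact hNΓ S le_rfl ⟨W, hW.trans inf_le_left, hWF⟩ (mem_norm.mpr h2.symm)
  have lemA : ∀ n : ℕ, ∀ y : G,
      Nat.card (S : Subgroup G) - Nat.card ((S : Subgroup G) ⊓ cj y S : Subgroup G) ≤ n →
      (∃ W, W ≤ (S : Subgroup G) ⊓ cj y S ∧ F W) → y ∈ Γ := by
    intro n
    induction n with
    | zero =>
      intro y hn hW
      apply caseEq y hW
      apply Subgroup.eq_of_le_of_card_ge inf_le_left
      omega
    | succ n ih =>
      intro y hn hW
      by_cases hD : (S : Subgroup G) ⊓ cj y S = S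
      · exact caseEq y hW hD
      obtain ⟨W, hW, hWF⟩ := hW
      set D := (S : Subgroup G) ⊓ cj y S with hDdef
      have hlt1 : D < S := lt_of_le_of_ne inf_le_left hD
      have hlt2 : D < cj y S := by
        apply lt_of_le_of_ne inf_le_right
        intro h
        apply hD
        apply Subgroup.eq_of_le_of_card_ge inf_le_left
        rw [h, card_cj]
      obtain ⟨s, hsS, hsD, hsN⟩ :=
        Cfsg.Agent.Lib.Helper55Sylow.exists_mem_normalizer_not_mem (S : Subgroup G) D S.2 hlt1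
      obtain ⟨t, htS, htD, htN⟩ :=
        Cfsg.Agent.Lib.Helper55Sylow.exists_mem_normalizer_not_mem (cj y S) D (S.2.map _) hlt2
      set N := Subgroup.normalizer (D : Set G) with hN
      set D1 := (S : Subgroup G) ⊓ N with hD1
      set D2 := cj y (S : Subgroup G) ⊓ N with hD2
      have hDD1 : D ≤ D1 := le_inf inf_le_left Subgroup.le_normalizer
      have hDD2 : D ≤ D2 := le_inf inf_le_right Subgroup.le_normalizer
      have hc1 : Nat.card D < Nat.card D1 := by
        by_contra hcon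
        have := Subgroup.eq_of_le_of_card_ge hDD1 (not_lt.mp hcon)
        exact hsD (this ▸ (Subgroup.mem_inf.mpr ⟨hsS, hsN⟩ : s ∈ D1))
      have hc2 : Nat.card D < Nat.card D2 := by
        by_contra hcon
        have := Subgroup.eq_of_le_of_card_ge hDD2 (not_lt.mp hcon)
        exact htD (this ▸ (Subgroup.mem_inf.mpr ⟨htS, htN⟩ : t ∈ D2))
      obtain ⟨n', hn', E, hE, hD1E, hD2E⟩ := exists_join N D1 D2 inf_le_right inf_le_right
        (S.2.to_le inf_le_left) ((S.2.map _).to_le inf_le_left)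
      obtain ⟨z, hz⟩ := exists_le_cj S E hE
      have hzΓ : z ∈ Γ := by
        have h1 : D1 ≤ (S : Subgroup G) ⊓ cj z S := le_inf inf_le_left (hD1E.trans hz)
        have h2 := Subgroup.card_le_of_le h1
        apply ih z (by omega) ⟨W, (hW.trans hDD1).trans h1, hWF⟩
      have hwΓ : z⁻¹ * n' * y ∈ Γ := by
        have h1 : cj (z⁻¹ * n') D2 ≤ (S : Subgroup G) ⊓ cj (z⁻¹ * n' * y) S := by
          apply le_inf
          · rw [cj_mul]
            have := cj_mono (g := z⁻¹) (hD2E.trans hz)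
            rwa [cj_inv_cj] at this
          · rw [cj_mul (z⁻¹ * n') y]
            exact cj_mono inf_le_left
        have h2 := Subgroup.card_le_of_le h1
        rw [card_cj] at h2
        apply ih _ (by omega) ⟨cj (z⁻¹ * n') W, (cj_mono (hW.trans hDD2)).trans h1, F_cj hWF⟩
      have hn'Γ : n' ∈ Γ := hNΓ D inf_le_left ⟨W, hW, hWF⟩ hn'
      have e : y = n'⁻¹ * z * (z⁻¹ * n' * y) := by group
      rw [e]
      exact mul_mem (mul_mem (inv_mem hn'Γ) hzΓ) hwΓ
  have lemA' : ∀ y : G, (∃ W, W ≤ (S : Subgroup G) ⊓ cj y S ∧ F W) → y ∈ Γ :=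
    fun y h => lemA _ y le_rfl h
  -- a four-group in S
  obtain ⟨U1, hU1⟩ := exists_four h2
  obtain ⟨g1, hg1⟩ := exists_le_cj S U1 hU1.isPGroup
  set U0 := cj g1⁻¹ U1 with hU0
  have hU0S : U0 ≤ S := by
    have := cj_mono (g := g1⁻¹) hg1
    rwa [cj_inv_cj] at this
  have hU0F : F U0 := F_cj hU1
  -- connectedness inside S
  have hinS : ∀ U V : Subgroup G, U ≤ S → V ≤ S → F U → F V → conn U V := by
    intro U V hU hV hUF hVF
    have hsub : ∀ X : Subgroup G, X ≤ S → F X → IsKleinFour ↥(X.subgroupOf (S : Subgroup G)) := by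
      intro X hX hXF
      rw [k4_iff]
      refine ⟨by rw [Nat.card_congr (Subgroup.subgroupOfEquivOfLe hX).toEquiv]; exact hXF.1, ?_⟩
      intro u hu
      apply Subtype.ext
      simpa using hXF.2 _ (Subgroup.mem_subgroupOf.mp hu)
    have h1 := hS _ _ (hsub U hU hUF) (hsub V hV hVF)
    have hmap : ∀ X : Subgroup ↥(S : Subgroup G), IsKleinFour ↥X → IsKleinFour ↥(X.map (S : Subgroup G).subtype) := by
      intro X hX
      rw [k4_iff] at hX ⊢
      refine ⟨by rw [Subgroup.card_map_of_injective (S : Subgroup G).subtype_injective]; exact hX.1, ?_⟩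
      intro u hu
      obtain ⟨u', hu', rfl⟩ := Subgroup.mem_map.mp hu
      simpa using congrArg Subtype.val (hX.2 u' hu')
    have h2 : ∀ X Y : Subgroup ↥(S : Subgroup G), Relation.ReflTransGen
        (fun A B : Subgroup ↥(S : Subgroup G) => IsKleinFour A ∧ IsKleinFour B ∧ ∀ a ∈ A, ∀ b ∈ B, a * b = b * a) X Y →
        conn (X.map (S : Subgroup G).subtype) (Y.map (S : Subgroup G).subtype) := by
      intro X Y h
      induction h with
      | refl => exact Relation.ReflTransGen.refl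
      | tail _ hbc ih =>
        apply ih.tail
        refine ⟨hmap _ hbc.1, hmap _ hbc.2.1, ?_⟩
        intro a ha b hb
        obtain ⟨a', ha', rfl⟩ := Subgroup.mem_map.mp ha
        obtain ⟨b', hb', rfl⟩ := Subgroup.mem_map.mp hb
        exact congrArg Subtype.val (hbc.2.2 a' ha' b' hb')
    have h3 := h2 _ _ h1
    rwa [Subgroup.subgroupOf_map_subtype, Subgroup.subgroupOf_map_subtype, inf_of_le_left hU,
      inf_of_le_left hV] at h3
  -- Γ stabilizes the component
  have hΓstab : Γ ≤ stab U0 := by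
    apply iSup_le
    rintro ⟨Q, hQS, hQr⟩ n hn
    obtain ⟨U, hUQ, hUF⟩ := (rank_iff Q).mp hQr
    rw [mem_stab]
    have h1 : conn U0 U := hinS _ _ hU0S (hUQ.trans hQS) hU0F hUF
    have h2 : cj n U ≤ S := by
      have := cj_mono (g := n) hUQ
      rw [mem_norm.mp hn] at this
      exact this.trans hQS
    have h3 : conn U0 (cj n U) := hinS _ _ hU0S h2 hU0F (F_cj hUF)
    exact Relation.ReflTransGen.trans h3 (conn_symm (conn_cj n h1))
  -- the component consists of Γ-conjugates of subgroups of S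
  have hcomp : ∀ V : Subgroup G, conn U0 V → ∃ x ∈ Γ, cj x V ≤ S := by
    intro V h
    induction h with
    | refl => exact ⟨1, Γ.one_mem, by rw [cj_one]; exact hU0S⟩
    | @tail V V' _ hbc ih =>
      obtain ⟨x, hx, hxV⟩ := ih
      have hR := R_cj x hbc
      have hWF : F (cj x V) := (k4_iff _).mp hR.1
      have hVF : F (cj x V') := (k4_iff _).mp hR.2.1
      have hnorm : cj x V' ≤ Subgroup.normalizer ((cj x V : Subgroup G) : Set G) := by
        apply le_trans _ (Subgroup.centralizer_le_normalizer _)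
        intro b hb
        rw [Subgroup.mem_centralizer_iff]
        intro a ha
        exact hR.2.2 a ha b hb
      have hE : IsPGroup 2 (cj x V' ⊔ cj x V : Subgroup G) :=
        hVF.isPGroup.to_sup_of_normal_right' hWF.isPGroup hnorm
      obtain ⟨y, hy⟩ := exists_le_cj S _ hE
      have hyΓ : y ∈ Γ := lemA' y ⟨cj x V, le_inf hxV (le_sup_right.trans hy), hWF⟩
      refine ⟨y⁻¹ * x, mul_mem (inv_mem hyΓ) hx, ?_⟩
      rw [cj_mul]
      have := cj_mono (g := y⁻¹) (le_sup_left.trans hy)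
      rwa [cj_inv_cj] at this
  have hstabΓ : stab U0 ≤ Γ := by
    intro g hg
    obtain ⟨x, hx, hxg⟩ := hcomp _ (mem_stab.mp hg)
    rw [← cj_mul] at hxg
    have h1 : U0 ≤ cj (x * g)⁻¹ S := by
      have := cj_mono (g := (x * g)⁻¹) hxg
      rwa [cj_inv_cj] at this
    have h2 : (x * g)⁻¹ ∈ Γ := lemA' _ ⟨U0, le_inf hU0S h1, hU0F⟩
    have e : g = x⁻¹ * ((x * g)⁻¹)⁻¹ := by group
    rw [e]
    exact mul_mem (inv_mem hx) (inv_mem h2)
  constructor
  · intro hnc htop
    apply hnc
    have key : ∀ V : Subgroup G, IsKleinFour ↥V → conn U0 V := by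
      intro V hV
      have hVF := (k4_iff V).mp hV
      obtain ⟨g, hg⟩ := exists_le_cj S V hVF.isPGroup
      have h1 : cj g⁻¹ V ≤ S := by
        have := cj_mono (g := g⁻¹) hg
        rwa [cj_inv_cj] at this
      have h2 := conn_cj g (hinS _ _ hU0S h1 hU0F (F_cj hVF))
      rw [cj_cj_inv] at h2
      have h3 : g ∈ stab U0 := hΓstab (by rw [htop]; trivial)
      exact Relation.ReflTransGen.trans (mem_stab.mp h3) h2
    intro U V hU hV
    exact Relation.ReflTransGen.trans (conn_symm (key U hU)) (key V hV)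
  · intro hne hc
    apply hne
    rw [eq_top_iff]
    intro g _
    apply hstabΓ
    rw [mem_stab]
    exact hc _ _ ((k4_iff _).mpr hU0F) ((k4_iff _).mpr (F_cj hU0F))

end Cfsg.Agent.S0520
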