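import Cfsg.Statements.S0521
import Cfsg.Agent.S0626
import Cfsg.Agent.S4207
import Cfsg.Agent.Lib.Helper14CoreB
import Cfsg.Agent.Lib.Helper3PGroup
import Cfsg.Agent.Lib.Helper52Basic

set_option autoImplicit false
open Cfsg

namespace Cfsg.Agent.S0521

open Subgroup
open scoped commutatorElement

section cyc
variable {Y : Type*} [Group Y]

theorem conj_pow_iter {b e : Y} {k : ℕ} (h : b * e * b⁻¹ = e ^ k) (j : ℕ) :
    b ^ j * e * (b ^ j)⁻¹ = e ^ (k ^ j) := by
  induction j with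
  | zero => simp
  | succ j ih =>
    have h1 : b ^ (j + 1) * e * (b ^ (j + 1))⁻¹ = b * (b ^ j * e * (b ^ j)⁻¹) * b⁻¹ := by
      rw [pow_succ']; group
    rw [h1, ih, ← conj_pow, h, ← pow_mul, pow_succ']

/-- a `p`-element normalizing the cyclic `p`-group `⟨e⟩` moves `e` by a `p`-th power -/
theorem exists_pow_of_conj [Finite Y] {p : ℕ} [hp : Fact p.Prime] {b e : Y} {m n : ℕ}
    (hb : b ^ p ^ m = 1) (he : e ^ p ^ n = 1) (hbe : b * e * b⁻¹ ∈ zpowers e) :
    ∃ j : ℕ, b * e * b⁻¹ * e⁻¹ = (e ^ j) ^ p := by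
  by_cases he1 : e = 1
  · exact ⟨0, by simp [he1]⟩
  obtain ⟨k, hk⟩ := (mem_powers_iff_mem_zpowers.2 hbe)
  have hk' : b * e * b⁻¹ = e ^ k := hk.symm
  have h1 := conj_pow_iter hk' (p ^ m)
  rw [hb] at h1
  simp only [one_mul, inv_one, mul_one] at h1
  have h2 : k ^ p ^ m ≡ 1 [MOD orderOf e] := by
    apply (pow_eq_pow_iff_modEq (x := e)).1
    rw [← h1, pow_one]
  have h3 : p ∣ orderOf e := by
    obtain ⟨i, -, hi⟩ := (Nat.dvd_prime_pow hp.out).1 (orderOf_dvd_of_pow_eq_one he)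
    rw [hi]
    rcases i with _ | i
    · exfalso; apply he1; rw [pow_zero] at hi; exact orderOf_eq_one_iff.1 hi
    · exact dvd_pow_self p (Nat.succ_ne_zero i)
  have h4 : k ^ p ^ m ≡ 1 [MOD p] := h2.of_dvd h3
  have h5 : (k : ZMod p) = 1 := by
    have h6 : ((k ^ p ^ m : ℕ) : ZMod p) = ((1 : ℕ) : ZMod p) := (ZMod.natCast_eq_natCast_iff _ _ _).2 h4
    rw [Nat.cast_pow, ZMod.pow_card_pow, Nat.cast_one] at h6
    exact h6
  have h7 : k ≡ 1 [MOD p] := by
    apply (ZMod.natCast_eq_natCast_iff _ _ _).1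
    rw [h5, Nat.cast_one]
  have hk0 : 1 ≤ k := by
    rcases Nat.eq_zero_or_pos k with h | h
    · exfalso
      rw [h] at h7
      have := (Nat.modEq_zero_iff_dvd.1 h7.symm)
      exact hp.out.one_lt.ne' (Nat.dvd_one.1 this)
    · exact h
  obtain ⟨j, hj⟩ := (Nat.modEq_iff_dvd' hk0).1 h7.symm
  refine ⟨j, ?_⟩
  rw [hk', ← pow_mul, mul_comm j p, ← hj]
  have : k = (k - 1) + 1 := by omega
  nth_rewrite 1 [this]
  rw [pow_succ, mul_inv_cancel_right]

end cyc

theorem sylow_le_pCore {Y : Type*} [Group Y] [Finite Y] [Group.IsSolvable Y] (hY : Odd (Nat.card Y))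
    {p : ℕ} [hpf : Fact p.Prime] (hp : p ≠ 2) (hO : pPrimeCore p Y = ⊥) (T : Sylow p Y) (d : Y)
    (hdn : ∀ t ∈ (T : Subgroup Y), t * d * t⁻¹ ∈ zpowers d)
    (hd : ∀ a ∈ (T : Subgroup Y), ∀ b ∈ (T : Subgroup Y), ⁅a, b⁆ ∈ zpowers d) :
    (T : Subgroup Y) ≤ pCore p Y := by
  have hPT : pCore p Y ≤ (T : Subgroup Y) := Cfsg.Agent.Lib.Helper52Basic.pCore_le_sylow T
  have hPn : (pCore p Y).Normal := pCore_normal p Y
  have hPp : IsPGroup p (pCore p Y) := Cfsg.Agent.Lib.Helper14CoreB.pCore_isPGroup p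
  have hcent := Cfsg.Agent.Lib.Helper14CoreB.centralizer_pCore_le (G := Y) (p := p) hO
  have hab : ∀ U : Sylow 2 Y, IsMulCommutative U := by
    intro U
    have h1 : Nat.card (U : Subgroup Y) = 1 := by
      obtain ⟨n, hn⟩ := IsPGroup.iff_card.1 U.2
      have h2 : Nat.card (U : Subgroup Y) ∣ Nat.card Y := Subgroup.card_subgroup_dvd_card _
      have h3 : Odd (Nat.card (U : Subgroup Y)) := Odd.of_dvd_nat hY h2
      rw [hn] at h3 ⊢
      rcases n with _ | n
      · simp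
      · exfalso
        rw [pow_succ] at h3
        exact (Nat.not_odd_iff_even.2 (even_two.mul_left _)) h3
    have h4 : Subsingleton (U : Subgroup Y) := (Nat.card_eq_one_iff_unique.1 h1).1
    exact ⟨⟨fun a b => Subsingleton.elim _ _⟩⟩
  have hst := (Cfsg.Agent.S0626.result hp hab).2.1
  intro a ha
  -- the cyclic group D₀
  have hcyc : IsCyclic ↥(pCore p Y ⊓ zpowers d) := isCyclic_of_le (inf_le_right)
  obtain ⟨e, he⟩ := (Subgroup.isCyclic_iff_exists_zpowers_eq_top _).1 hcyc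
  have heD : e ∈ pCore p Y ⊓ zpowers d := he ▸ mem_zpowers e
  have heP : e ∈ pCore p Y := heD.1
  obtain ⟨n, hn⟩ := hPp ⟨e, heP⟩
  have hen : e ^ p ^ n = 1 := congrArg Subtype.val hn
  have hnorm : ∀ b ∈ (T : Subgroup Y), b * e * b⁻¹ ∈ zpowers e := by
    intro b hb
    rw [he]
    refine mem_inf.2 ⟨hPn.conj_mem e heP b, ?_⟩
    obtain ⟨i, hi⟩ := mem_zpowers_iff.1 heD.2
    rw [← hi, ← conj_zpow]
    exact zpow_mem (hdn b hb) i
  have hquad : ⁅⁅pCore p Y, zpowers a⁆, zpowers a⁆ ≤ (frattini ↥(pCore p Y)).map (pCore p Y).subtype := by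
    have h1 : ⁅pCore p Y, zpowers a⁆ ≤ zpowers e := by
      rw [he, commutator_le]
      intro x hx b hb
      have hbT : b ∈ (T : Subgroup Y) := (zpowers_le.2 ha) hb
      refine mem_inf.2 ⟨?_, hd x (hPT hx) b hbT⟩
      rw [commutatorElement_def]
      have : x * b * x⁻¹ * b⁻¹ = x * (b * x⁻¹ * b⁻¹) := by group
      rw [this]
      exact mul_mem hx (hPn.conj_mem _ (inv_mem hx) b)
    refine le_trans (commutator_mono h1 le_rfl) ?_
    rw [commutator_le]
    intro w hw b hb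
    have hbT : b ∈ (T : Subgroup Y) := (zpowers_le.2 ha) hb
    obtain ⟨m, hm⟩ := T.2 ⟨b, hbT⟩
    have hbm : b ^ p ^ m = 1 := congrArg Subtype.val hm
    obtain ⟨j, hj⟩ := exists_pow_of_conj hbm hen (hnorm b hbT)
    obtain ⟨i, rfl⟩ := mem_zpowers_iff.1 hw
    have h2 : b * e * b⁻¹ = (e ^ j) ^ p * e := by rw [← hj, inv_mul_cancel_right]
    have hc : Commute ((e ^ j) ^ p) e := ((Commute.refl e).pow_left j).pow_left p
    have h3 : ⁅e ^ i, b⁆ = (((e ^ j) ^ i)⁻¹) ^ p := by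
      rw [commutatorElement_def]
      have h4 : e ^ i * b * (e ^ i)⁻¹ * b⁻¹ = e ^ i * (b * e ^ i * b⁻¹)⁻¹ := by group
      have h6 : ∀ f : Y, (f ^ p) ^ i = (f ^ i) ^ p := fun f => by
        rw [← zpow_natCast, ← zpow_natCast, ← zpow_mul, ← zpow_mul, mul_comm]
      rw [h4, ← conj_zpow, h2, hc.mul_zpow, mul_inv_rev, mul_inv_cancel_left, inv_pow, h6]
    rw [h3]
    have h5 : ((e ^ j) ^ i)⁻¹ ∈ pCore p Y := inv_mem (zpow_mem (pow_mem heP j) i)
    exact ⟨⟨_, h5⟩ ^ p, Cfsg.Agent.Lib.Helper3PGroup.pow_mem_frattini hPp _, rfl⟩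
  obtain ⟨D, hDn, hKD, ⟨k, hk⟩, haD⟩ := hst a hquad
  -- the kernel is a p-group
  have hKp : ∀ g ∈ sectionKernel (pCore p Y) ((frattini ↥(pCore p Y)).map (pCore p Y).subtype),
      ∃ N : ℕ, g ^ p ^ N = 1 := by
    intro g hg
    obtain ⟨n1, hn1⟩ := IsPGroup.iff_card.1 hPp
    obtain ⟨r1, hr1⟩ := (IsPGroup.iff_card.1 (hPp.to_quotient (frattini ↥(pCore p Y))))
    have hr1' : (frattini ↥(pCore p Y)).index = p ^ r1 := hr1
    have hA := Cfsg.Agent.S4207.result hn1 hr1' (zpowers (MulAut.conjNormal g)) (by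
      intro α hα x
      obtain ⟨i, rfl⟩ := mem_zpowers_iff.1 hα
      rw [← map_zpow]
      have hgi : g ^ i ∈ sectionKernel (pCore p Y) ((frattini ↥(pCore p Y)).map (pCore p Y).subtype) :=
        zpow_mem hg i
      have h1 := (mem_centralizer_iff.1 (mem_comap.1 hgi)) _ ⟨x, x.2, rfl⟩
      rw [← map_mul, ← map_mul] at h1
      have h2 : ((x : Y) * g ^ i)⁻¹ * (g ^ i * (x : Y)) ∈
          (frattini ↥(pCore p Y)).map (pCore p Y).subtype := QuotientGroup.eq.1 h1
      have hN : ((frattini ↥(pCore p Y)).map (pCore p Y).subtype).Normal := inferInstance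
      have h3 := hN.conj_mem _ h2 ((x : Y) * g ^ i)
      obtain ⟨y, hy, hyx⟩ := h3
      have h4 : (MulAut.conjNormal (g ^ i)) x * x⁻¹ = y := by
        apply Subtype.ext
        rw [Subgroup.coe_mul, MulAut.conjNormal_apply]
        have : (y : Y) = _ := hyx
        rw [this]
        simp only [InvMemClass.coe_inv]
        group
      rw [h4]; exact hy)
    rw [Nat.card_zpowers] at hA
    have h1 : (MulAut.conjNormal g : MulAut ↥(pCore p Y)) ^ p ^ (r1 * (n1 - r1)) = 1 :=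
      orderOf_dvd_iff_pow_eq_one.1 hA
    rw [← map_pow] at h1
    have h2 : g ^ p ^ (r1 * (n1 - r1)) ∈ centralizer (pCore p Y : Set Y) := by
      rw [mem_centralizer_iff]
      intro x hx
      have h3 := congrArg (fun f : MulAut ↥(pCore p Y) => ((f ⟨x, hx⟩ : ↥(pCore p Y)) : Y)) h1
      simp only [MulAut.conjNormal_apply, MulAut.one_apply] at h3
      calc x * g ^ p ^ (r1 * (n1 - r1))
          = (g ^ p ^ (r1 * (n1 - r1)) * x * (g ^ p ^ (r1 * (n1 - r1)))⁻¹) * g ^ p ^ (r1 * (n1 - r1)) := by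
            rw [h3]
        _ = g ^ p ^ (r1 * (n1 - r1)) * x := by group
    obtain ⟨N2, hN2⟩ := hPp ⟨_, hcent h2⟩
    have h4 : (g ^ p ^ (r1 * (n1 - r1))) ^ p ^ N2 = 1 := congrArg Subtype.val hN2
    exact ⟨r1 * (n1 - r1) + N2, by rw [pow_add, pow_mul, h4]⟩
  have hKp' : IsPGroup p ↥(sectionKernel (pCore p Y) ((frattini ↥(pCore p Y)).map (pCore p Y).subtype)) := by
    rintro ⟨g, hg⟩
    obtain ⟨N, hN⟩ := hKp g hg
    exact ⟨N, Subtype.ext hN⟩
  have hDp : IsPGroup p D := by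
    obtain ⟨n2, hn2⟩ := IsPGroup.iff_card.1 hKp'
    apply IsPGroup.of_card (n := n2 + k)
    rw [← Cfsg.Agent.Lib.Helper14CoreB.card_mul_relIndex hKD, hn2, hk, pow_add]
  exact Cfsg.Agent.Lib.Helper14CoreB.le_pCore hDn hDp haD

theorem result' {X : Type*} [Group X] [Finite X] [Group.IsSolvable X]
    (hX : Odd (Nat.card X)) (p : ℕ) [Fact p.Prime] (S : Sylow p X) (hS : IsCyclic (commutator (S : Subgroup X))) :
    (Cfsg.pPrimeCore p X ⊔ (S : Subgroup X)).Normal := by
  by_cases hp : p = 2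
  · have h1 : Nat.card (S : Subgroup X) = 1 := by
      obtain ⟨n, hn⟩ := IsPGroup.iff_card.1 S.2
      have h2 : Nat.card (S : Subgroup X) ∣ Nat.card X := Subgroup.card_subgroup_dvd_card _
      have h3 : Odd (Nat.card (S : Subgroup X)) := Odd.of_dvd_nat hX h2
      rw [hn] at h3 ⊢
      rcases n with _ | n
      · simp
      · exfalso
        rw [pow_succ, hp] at h3
        exact (Nat.not_odd_iff_even.2 (even_two.mul_left _)) h3
    rw [(Subgroup.card_eq_one).1 h1, sup_bot_eq]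
    infer_instance
  · have hsurj := QuotientGroup.mk'_surjective (pPrimeCore p X)
    obtain ⟨g, hg⟩ := (Subgroup.isCyclic_iff_exists_zpowers_eq_top _).1 hS
    have hodd : Odd (Nat.card (X ⧸ pPrimeCore p X)) :=
      Odd.of_dvd_nat hX (Subgroup.card_quotient_dvd_card _)
    have hmem : ∀ c : ↥(S : Subgroup X), c ∈ commutator ↥(S : Subgroup X) →
        QuotientGroup.mk' (pPrimeCore p X) (c : X) ∈ zpowers (QuotientGroup.mk' (pPrimeCore p X) (g : X)) := by
      intro c hc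
      rw [← hg] at hc
      obtain ⟨i, rfl⟩ := mem_zpowers_iff.1 hc
      rw [Subgroup.coe_zpow, map_zpow]
      exact zpow_mem (mem_zpowers _) i
    have hle := sylow_le_pCore hodd hp (Cfsg.Agent.Lib.Helper14CoreB.pPrimeCore_quotient_eq_bot p)
      (S.mapSurjective hsurj) (QuotientGroup.mk' (pPrimeCore p X) (g : X)) (by
        intro t ht
        rw [Sylow.coe_mapSurjective] at ht
        obtain ⟨t', ht', rfl⟩ := ht
        have h1 : (⟨t', ht'⟩ : ↥(S : Subgroup X)) * g * ⟨t', ht'⟩⁻¹ ∈ commutator ↥(S : Subgroup X) := by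
          have hn : (commutator ↥(S : Subgroup X)).Normal := inferInstance
          exact hn.conj_mem g (hg ▸ mem_zpowers g) _
        have h2 := hmem _ h1
        simpa using h2) (by
        intro a ha b hb
        rw [Sylow.coe_mapSurjective] at ha hb
        obtain ⟨a', ha', rfl⟩ := ha
        obtain ⟨b', hb', rfl⟩ := hb
        have h1 : ⁅(⟨a', ha'⟩ : ↥(S : Subgroup X)), ⟨b', hb'⟩⁆ ∈ commutator ↥(S : Subgroup X) :=
          Subgroup.commutator_mem_commutator (mem_top _) (mem_top _)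
        have h2 := hmem _ h1
        rw [← map_commutatorElement]
        exact h2)
    have heq : ((S.mapSurjective hsurj : Sylow p (X ⧸ pPrimeCore p X)) : Subgroup (X ⧸ pPrimeCore p X))
        = pCore p (X ⧸ pPrimeCore p X) :=
      le_antisymm hle (Cfsg.Agent.Lib.Helper52Basic.pCore_le_sylow _)
    rw [Sylow.coe_mapSurjective] at heq
    have h3 : pPrimeCore p X ⊔ (S : Subgroup X) =
        (pCore p (X ⧸ pPrimeCore p X)).comap (QuotientGroup.mk' (pPrimeCore p X)) := by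
      rw [← heq, comap_map_eq, QuotientGroup.ker_mk', sup_comm]
    rw [h3]
    infer_instance


/-- Let X be a finite solvable group of odd order, p a prime and S a Sylow p-subgroup of X whose commutator subgroup is
cyclic. Then the product of the largest normal subgroup of X of order prime to p with S is a normal subgroup of X. -/
theorem result {X : Type*} [Group X] [Finite X] [Group.IsSolvable X]
    (hX : Odd (Nat.card X)) (p : ℕ) [Fact p.Prime] (S : Sylow p X) (hS : IsCyclic (commutator (S : Subgroup X))) :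
    (Cfsg.pPrimeCore p X ⊔ (S : Subgroup X)).Normal := by
  exact result' hX p S hS

end Cfsg.Agent.S0521
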