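import Cfsg.Statements.S0522
import Cfsg.Agent.Lib.Helper30Constrained

set_option autoImplicit false
open Cfsg

namespace Cfsg.Agent.S0522

open Subgroup Cfsg.Agent.Lib.Helper30Thompson Cfsg.Agent.Lib.Helper30Trans
open Cfsg.Agent.Lib.Helper30Constrained

/-- Transitivity Theorem (odd-order setting). Let X be a finite group of odd order in which the normalizer of every
nontrivial p-subgroup is solvable, P a Sylow p-subgroup, and B an abelian subgroup of P, normalized by P, with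
C_P(B) = B and containing an elementary abelian subgroup of order p^3. Then for every prime q ≠ p, any two q-subgroups
that are maximal among the q-subgroups normalized by B are conjugate by an element of the centralizer of B. -/
theorem result {X : Type*} [Group X] [Finite X] (hX : Odd (Nat.card X)) (p : ℕ)
    [Fact p.Prime] (hloc : ∀ T : Subgroup X, IsPGroup p T → T ≠ ⊥ → Group.IsSolvable (Subgroup.normalizer (T : Set X)))
    (P : Sylow p X) (B : Subgroup X) (hBP : B ≤ (P : Subgroup X))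
    (hBn : ∀ x ∈ (P : Subgroup X), ∀ b ∈ B, x * b * x⁻¹ ∈ B) (hBa : IsMulCommutative B)
    (hBc : (P : Subgroup X) ⊓ Subgroup.centralizer (B : Set X) = B)
    (hB3 : ∃ E : Subgroup X, E ≤ B ∧ (∀ e ∈ E, e ^ p = 1) ∧ p ^ 3 ≤ Nat.card E)
    (q : ℕ) [Fact q.Prime] (hqp : q ≠ p) (Q₁ Q₂ : Subgroup X)
    (h₁ : IsPGroup q Q₁ ∧ B ≤ Subgroup.normalizer (Q₁ : Set X) ∧
      ∀ R : Subgroup X, IsPGroup q R → B ≤ Subgroup.normalizer (R : Set X) → Q₁ ≤ R → R = Q₁)
    (h₂ : IsPGroup q Q₂ ∧ B ≤ Subgroup.normalizer (Q₂ : Set X) ∧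
      ∀ R : Subgroup X, IsPGroup q R → B ≤ Subgroup.normalizer (R : Set X) → Q₂ ≤ R → R = Q₂) :
    ∃ c ∈ Subgroup.centralizer (B : Set X), Q₂ = Q₁.map (MulAut.conj c).toMonoidHom := by
  have hp : p.Prime := Fact.out
  obtain ⟨E, hEB, hEp, hE3⟩ := hB3
  have hBpg : IsPGroup p B := P.2.to_le hBP
  have hp2 : p ≠ 2 := by
    rintro rfl
    obtain ⟨k, hk⟩ := IsPGroup.iff_card.mp (hBpg.to_le hEB)
    have hk0 : k ≠ 0 := by
      rintro rfl
      rw [hk] at hE3
      norm_num at hE3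
    have h1 : 2 ∣ Nat.card E := by rw [hk]; exact dvd_pow_self 2 hk0
    have h2 : 2 ∣ Nat.card X := dvd_trans h1 (card_subgroup_dvd_card E)
    exact (Nat.not_even_iff_odd.mpr hX) (even_iff_two_dvd.mpr h2)
  have hmax : ∀ Q : Subgroup X, (IsPGroup q Q ∧ B ≤ Subgroup.normalizer (Q : Set X) ∧
      ∀ R : Subgroup X, IsPGroup q R → B ≤ Subgroup.normalizer (R : Set X) → Q ≤ R → R = Q) →
      Q ∈ maxInvSubgroups ⊤ B {q} := by
    rintro Q ⟨h1, h2, h3⟩
    exact ⟨mem_inv_of_isPGroup le_top h1 h2,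
      fun R hR hQR => h3 R (isPGroup_of_mem_inv hR) hR.2.2 hQR⟩
  obtain ⟨c, hc, h⟩ := thompson_transitivity p
    (fun T hT hT1 => by
      have := hloc T hT hT1
      exact isPConstrained_of_isSolvable p)
    (fun h => absurd h hp2) B hBpg hBa E hEB hEp hE3
    (scn_full P (le_normalizer_iff.mpr hBn) hBc) q hqp Q₁ (hmax Q₁ h₁) Q₂ (hmax Q₂ h₂)
  exact ⟨c, piCoreOf_le _ _ hc, h⟩

end Cfsg.Agent.S0522
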