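import Cfsg.Statements.S0531
import Cfsg.Agent.Lib.Helper11Supersolvable

set_option autoImplicit false
open Cfsg

namespace Cfsg.Agent.S0531

open Cfsg.Agent.Lib.Helper11Supersolvable

universe u

theorem exists_index_prime (k : ℕ) : ∀ (G : Type u) [Group G] [Finite G], Nat.card G = k →
    Cfsg.IsSupersolvable G → ∀ q : ℕ, q.Prime → q ∣ k → ∃ M : Subgroup G, M.index = q := by
  induction k using Nat.strong_induction_on with
  | _ k ih =>
  intro G _ _ hG hS q hq hqk
  have hnt : Nontrivial G := by
    rw [← Finite.one_lt_card_iff_nontrivial, hG]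
    exact lt_of_lt_of_le hq.one_lt (Nat.le_of_dvd (hG ▸ Nat.card_pos) hqk)
  obtain ⟨N, hN, hNp⟩ := exists_normal_prime_card hS
  have hcard : Nat.card (G ⧸ N) * Nat.card N = k := by
    rw [← hG]; exact (Subgroup.card_eq_card_quotient_mul_card_subgroup N).symm
  by_cases hqQ : q ∣ Nat.card (G ⧸ N)
  · have hlt : Nat.card (G ⧸ N) < k := by
      have h1 : 0 < Nat.card (G ⧸ N) := Nat.card_pos
      have h2 := hNp.two_le
      nlinarith
    obtain ⟨M, hM⟩ := ih _ hlt (G ⧸ N) rfl
      (of_surjective (QuotientGroup.mk' N) (QuotientGroup.mk'_surjective N) hS) q hq hqQ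
    exact ⟨M.comap (QuotientGroup.mk' N), by
      rw [Subgroup.index_comap_of_surjective _ (QuotientGroup.mk'_surjective N), hM]⟩
  · have h1 : q ∣ Nat.card N := by
      rw [← hcard] at hqk
      exact (hq.dvd_mul.mp hqk).resolve_left hqQ
    have h2 : q = Nat.card N := (Nat.prime_dvd_prime_iff_eq hq hNp).mp h1
    have hcop : (Nat.card N).Coprime N.index := by
      rw [← h2, Subgroup.index_eq_card]
      exact (Nat.Prime.coprime_iff_not_dvd hq).mpr hqQ
    obtain ⟨H, hH⟩ := Subgroup.exists_right_complement'_of_coprime hcop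
    exact ⟨H, by rw [hH.index_eq_card, h2]⟩

theorem clt (k : ℕ) : ∀ (G : Type u) [Group G] [Finite G], Nat.card G = k →
    Cfsg.IsSupersolvable G → ∀ d : ℕ, d ∣ k → ∃ H : Subgroup G, Nat.card H = d := by
  induction k using Nat.strong_induction_on with
  | _ k ih =>
  intro G _ _ hG hS d hd
  have hkpos : 0 < k := hG ▸ Nat.card_pos
  obtain ⟨c, hc⟩ := hd
  by_cases hc1 : c = 1
  · exact ⟨⊤, by rw [Subgroup.card_top, hG, hc, hc1, mul_one]⟩
  · obtain ⟨q, hq, hqc⟩ := Nat.exists_prime_and_dvd hc1
    obtain ⟨c', rfl⟩ := hqc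
    obtain ⟨M, hM⟩ := exists_index_prime k G hG hS q hq ⟨d * c', by rw [hc]; ring⟩
    have hMc : Nat.card M = d * c' := by
      have := M.card_mul_index
      rw [hM, hG, hc] at this
      apply Nat.eq_of_mul_eq_mul_right hq.pos
      rw [this]; ring
    have hlt : Nat.card M < k := by
      have h1 : 0 < d * c' := by rw [← hMc]; exact Nat.card_pos
      have h2 := hq.two_le
      rw [hMc, hc]
      nlinarith
    obtain ⟨H, hH⟩ := ih _ hlt M rfl (of_subgroup hS M) d ⟨c', hMc⟩
    exact ⟨H.map M.subtype, by rw [Subgroup.card_map_of_injective M.subtype_injective, hH]⟩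

/-- A finite supersolvable group has a subgroup of each order dividing its order. -/
theorem result {G : Type*} [Group G] [Finite G] (hG : Cfsg.IsSupersolvable G) : Cfsg.HasSubgroupOfEveryOrder G := by
  intro d hd
  exact clt _ G rfl hG d hd

end Cfsg.Agent.S0531
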