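import Cfsg.Statements.S0532
import Mathlib

set_option autoImplicit false
open Cfsg

namespace Cfsg.Agent.S0532

universe u

theorem clt_of_equiv {H H' : Type*} [Group H] [Group H'] (e : H ≃* H')
    (h : Cfsg.HasSubgroupOfEveryOrder H) : Cfsg.HasSubgroupOfEveryOrder H' := by
  intro d hd
  rw [← Nat.card_congr e.toEquiv] at hd
  obtain ⟨B, hB⟩ := h d hd
  exact ⟨B.map e.toMonoidHom, by
    rw [Subgroup.card_map_of_injective (f := e.toMonoidHom) e.injective, hB]⟩

theorem hereditary_subgroup {G : Type*} [Group G]
    (h : ∀ H : Subgroup G, Cfsg.HasSubgroupOfEveryOrder H) (M : Subgroup G) :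
    ∀ H : Subgroup M, Cfsg.HasSubgroupOfEveryOrder H := by
  intro H
  exact clt_of_equiv (Subgroup.equivMapOfInjective H M.subtype M.subtype_injective).symm
    (h (H.map M.subtype))

theorem clt_self {G : Type*} [Group G]
    (h : ∀ H : Subgroup G, Cfsg.HasSubgroupOfEveryOrder H) : Cfsg.HasSubgroupOfEveryOrder G :=
  clt_of_equiv Subgroup.topEquiv (h ⊤)

theorem aux (k : ℕ) : ∀ (G : Type u) [Group G] [Finite G], Nat.card G = k →
    (∀ H : Subgroup G, Cfsg.HasSubgroupOfEveryOrder H) → ∀ (p : ℕ) [Fact p.Prime],
    (∀ q : ℕ, q.Prime → q ∣ k → q ≤ p) → ∀ P : Sylow p G, (P : Subgroup G).Normal := by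
  induction k using Nat.strong_induction_on with
  | _ k ih =>
  intro G _ _ hG h p hp hmax P
  have hkpos : 0 < k := hG ▸ Nat.card_pos
  by_cases hk1 : k = 1
  · have : Subsingleton G := by
      rw [← Finite.card_le_one_iff_subsingleton, hG, hk1]
    rw [Subgroup.eq_bot_of_subsingleton (P : Subgroup G)]
    infer_instance
  · have hq : (k.minFac).Prime := Nat.minFac_prime hk1
    have hqk : k.minFac ∣ k := Nat.minFac_dvd k
    by_cases hqp : k.minFac = p
    · -- G is a p-group
      have hidx : (P : Subgroup G).index = 1 := by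
        by_contra hne
        obtain ⟨r, hr, hrd⟩ := Nat.exists_prime_and_dvd hne
        have hrk : r ∣ k := hG ▸ hrd.trans (Subgroup.index_dvd_card _)
        have h1 : r ≤ p := hmax r hr hrk
        have h2 : p ≤ r := hqp ▸ Nat.minFac_le_of_dvd hr.two_le hrk
        have h3 : r = p := le_antisymm h1 h2
        exact P.not_dvd_index (h3 ▸ hrd)
      rw [Subgroup.index_eq_one.mp hidx]
      infer_instance
    · obtain ⟨c, hc⟩ := hqk
      obtain ⟨M, hM⟩ := clt_self h c ⟨k.minFac, by rw [hG, mul_comm]; exact hc⟩
      have hMidx : M.index = k.minFac := by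
        have := M.card_mul_index
        rw [hM, hG] at this
        have hc0 : 0 < c := Nat.pos_of_ne_zero (by rintro rfl; simp at hc; omega)
        apply Nat.eq_of_mul_eq_mul_left hc0
        rw [this, mul_comm]; exact hc
      have hMn : M.Normal := Subgroup.normal_of_index_eq_minFac_card (by rw [hMidx, hG])
      have hPM : (P : Subgroup G) ≤ M := by
        rw [← Subgroup.relIndex_eq_one]
        have h1 : M.relIndex P ∣ k.minFac := hMidx ▸ Subgroup.relIndex_dvd_index_of_normal M P
        have h2 : M.relIndex P ∣ Nat.card P := Subgroup.relIndex_dvd_card M P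
        obtain ⟨a, ha⟩ := P.2.exists_card_eq
        rw [ha] at h2
        have hcop : (k.minFac).Coprime (p ^ a) :=
          Nat.Coprime.pow_right _ ((Nat.coprime_primes hq hp.out).mpr hqp)
        have := Nat.dvd_gcd h1 h2
        rw [hcop.gcd_eq_one] at this
        exact Nat.dvd_one.mp this
      have hlt : Nat.card M < k := by
        rw [hM]
        have := hq.two_le
        have hc0 : 0 < c := Nat.pos_of_ne_zero (by rintro rfl; simp at hc; omega)
        nlinarith
      have hn := ih _ hlt M rfl (hereditary_subgroup h M) p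
        (fun q hq' hqd => hmax q hq' (hqd.trans (hG ▸ Subgroup.card_subgroup_dvd_card M)))
        (P.subtype hPM)
      have hchar : ((P.subtype hPM : Sylow p M) : Subgroup M).Characteristic :=
        Sylow.characteristic_of_normal _ hn
      have := ConjAct.normal_of_characteristic_of_normal (H := M)
        (K := ((P.subtype hPM : Sylow p M) : Subgroup M))
      rwa [Sylow.coe_subtype, Subgroup.map_subgroupOf_eq_of_le hPM] at this

/-- If each subgroup of a finite group satisfies the converse of Lagrange's theorem, then a Sylow subgroup for the largest prime dividing the group order is normal. -/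
theorem result {G : Type*} [Group G] [Finite G] (h : ∀ H : Subgroup G, Cfsg.HasSubgroupOfEveryOrder H) (p : ℕ) [Fact p.Prime] (hdvd : p ∣ Nat.card G) (hmax : ∀ q : ℕ, q.Prime → q ∣ Nat.card G → q ≤ p) (P : Sylow p G) : (P : Subgroup G).Normal := by
  exact aux _ G rfl h p hmax P

end Cfsg.Agent.S0532
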