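import Cfsg.Statements.S0533
import Cfsg.Agent.S0532
import Cfsg.Agent.Lib.Helper12Super

set_option autoImplicit false
open Cfsg

namespace Cfsg.Agent.S0533

open Cfsg.Agent.Lib.Helper12Super Cfsg.Agent.Lib.Helper12Card

universe u

theorem exists_largest_prime (k : ℕ) (hk : 1 < k) :
    ∃ p, p.Prime ∧ p ∣ k ∧ ∀ q : ℕ, q.Prime → q ∣ k → q ≤ p := by
  have hne : k.primeFactors.Nonempty := Nat.nonempty_primeFactors.mpr hk
  have hmem := Finset.max'_mem _ hne
  refine ⟨k.primeFactors.max' hne, Nat.prime_of_mem_primeFactors hmem,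
    Nat.dvd_of_mem_primeFactors hmem, ?_⟩
  intro q hq hqk
  exact Finset.le_max' _ _ (Nat.mem_primeFactors.mpr ⟨hq, hqk, by omega⟩)

theorem aux (k : ℕ) : ∀ (G : Type u) [Group G] [Finite G], Nat.card G = k →
    (∀ H : Subgroup G, Cfsg.HasSubgroupOfEveryOrder H) → Cfsg.IsSupersolvable G := by
  induction k using Nat.strong_induction_on with
  | _ k ih =>
  intro G _ _ hG h
  have hkpos : 0 < k := hG ▸ Nat.card_pos
  by_cases hk1 : k = 1
  · have : Subsingleton G := by
      rw [← Finite.card_le_one_iff_subsingleton, hG, hk1]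
    exact isSupersolvable_of_subsingleton G
  · obtain ⟨p, hp, hpk, hmax⟩ := exists_largest_prime k (by omega)
    have : Fact p.Prime := ⟨hp⟩
    obtain ⟨P⟩ : Nonempty (Sylow p G) := inferInstance
    have hPn : (P : Subgroup G).Normal := Cfsg.Agent.S0532.aux k G hG h p hmax P
    obtain ⟨c, hc⟩ := hpk
    have hc0 : 0 < c := Nat.pos_of_ne_zero (by rintro rfl; simp at hc; omega)
    obtain ⟨K, hK⟩ := Cfsg.Agent.S0532.clt_self h c ⟨p, by rw [hG, hc, mul_comm]⟩
    have hKidx : K.index = p := by
      have := K.card_mul_index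
      rw [hK, hG, hc, mul_comm p c] at this
      exact Nat.eq_of_mul_eq_mul_left hc0 this
    have hlt : Nat.card K < k := by
      rw [hK, hc]
      have := hp.two_le
      nlinarith
    have hKS : Cfsg.IsSupersolvable K := ih _ hlt K rfl (Cfsg.Agent.S0532.hereditary_subgroup h K)
    have hPK : ¬ (P : Subgroup G) ≤ K := by
      intro hle
      have h1 : K.index ∣ (P : Subgroup G).index := Subgroup.index_dvd_of_le hle
      rw [hKidx] at h1
      exact P.not_dvd_index h1
    have hsup : (P : Subgroup G) ⊔ K = ⊤ := by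
      rw [← Subgroup.index_eq_one]
      have h1 : ((P : Subgroup G) ⊔ K).index ∣ p := by
        have h0 : ((P : Subgroup G) ⊔ K).index ∣ K.index := Subgroup.index_dvd_of_le le_sup_right
        rwa [hKidx] at h0
      rcases (Nat.dvd_prime hp).mp h1 with h2 | h2
      · exact h2
      · exfalso
        have h3 := Subgroup.relIndex_mul_index (le_sup_right : K ≤ (P : Subgroup G) ⊔ K)
        rw [h2, hKidx] at h3
        have h4 : K.relIndex ((P : Subgroup G) ⊔ K) = 1 := by
          apply Nat.eq_of_mul_eq_mul_right hp.pos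
          rw [h3, one_mul]
        exact hPK (le_sup_left.trans (Subgroup.relIndex_eq_one.mp h4))
    have hrel : K.relIndex (P : Subgroup G) = p := by
      rw [relIndex_eq_relIndex_sup K (P : Subgroup G), sup_comm, hsup, Subgroup.relIndex_top_right,
        hKidx]
    have hn1 : (K.subgroupOf (P : Subgroup G)).Normal := by
      apply Subgroup.normal_of_index_eq_minFac_card
      obtain ⟨a, ha⟩ := P.2.exists_card_eq
      have ha0 : a ≠ 0 := by
        rintro rfl
        have h1 : K.relIndex (P : Subgroup G) ∣ Nat.card (P : Subgroup G) :=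
          Subgroup.relIndex_dvd_card _ _
        rw [hrel, ha, pow_zero] at h1
        exact hp.one_lt.ne' (Nat.dvd_one.mp h1)
      rw [ha, hp.pow_minFac ha0]
      exact hrel
    have hP₁n : (K ⊓ (P : Subgroup G)).Normal := by
      rw [← Subgroup.normalizer_eq_top_iff, eq_top_iff, ← hsup]
      refine sup_le (Subgroup.normal_subgroupOf_iff_le_normalizer_inf.mp hn1) ?_
      refine le_trans ?_ Subgroup.inf_normalizer_le_normalizer_inf
      refine le_inf Subgroup.le_normalizer ?_
      rw [Subgroup.normalizer_eq_top]; exact le_top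
    obtain ⟨g, hgP, hgK⟩ := SetLike.not_le_iff_exists.mp hPK
    have hX : K ⊓ (P : Subgroup G) ⊔ Subgroup.zpowers g ≤ (P : Subgroup G) :=
      sup_le inf_le_right (Subgroup.zpowers_le.mpr hgP)
    have hmul := Subgroup.relIndex_mul_relIndex _ _ _
      (le_sup_left : K ⊓ (P : Subgroup G) ≤ K ⊓ (P : Subgroup G) ⊔ Subgroup.zpowers g) hX
    rw [Subgroup.inf_relIndex_right, hrel] at hmul
    have hPX : (P : Subgroup G) = K ⊓ (P : Subgroup G) ⊔ Subgroup.zpowers g := by
      apply le_antisymm _ hX
      rw [← Subgroup.relIndex_eq_one]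
      rcases (Nat.dvd_prime hp).mp ⟨_, hmul.symm⟩ with h2 | h2
      · exfalso
        have h3 := Subgroup.relIndex_eq_one.mp h2
        exact hgK ((h3 ((le_sup_right : Subgroup.zpowers g ≤ _) (Subgroup.mem_zpowers g))).1)
      · rw [h2] at hmul
        apply Nat.eq_of_mul_eq_mul_left hp.pos
        rw [hmul, mul_one]
    exact of_factorization k G hG p (P : Subgroup G) K (K ⊓ (P : Subgroup G)) P.2 hKS hsup
      inf_le_right inf_le_left ⟨g, hPX⟩

/-- If every subgroup of a finite group has subgroups of all orders dividing its order, then the group is supersolvable. -/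
theorem result {G : Type*} [Group G] [Finite G] (h : ∀ H : Subgroup G, Cfsg.HasSubgroupOfEveryOrder H) : Cfsg.IsSupersolvable G := by
  exact aux _ G rfl h

end Cfsg.Agent.S0533
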