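import Cfsg.Statements.S0529
import Cfsg.Agent.S0531
import Cfsg.Agent.S0533

set_option autoImplicit false
open Cfsg

namespace Cfsg.Agent.S0529

open Cfsg.Agent.Lib.Helper12Super Cfsg.Agent.Lib.Helper11Supersolvable

universe u

theorem hereditary_clt {G : Type*} [Group G] [Finite G] (hG : Cfsg.IsSupersolvable G) :
    ∀ H : Subgroup G, Cfsg.HasSubgroupOfEveryOrder H :=
  fun H => Cfsg.Agent.S0531.result (of_subgroup hG H)

/-- a supersolvable group has a normal subgroup of order the largest prime divisor -/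
theorem exists_normal_card_largest {G : Type*} [Group G] [Finite G] (hG : Cfsg.IsSupersolvable G)
    (p : ℕ) (hp : p.Prime) (hpG : p ∣ Nat.card G)
    (hmax : ∀ q : ℕ, q.Prime → q ∣ Nat.card G → q ≤ p) :
    ∃ N : Subgroup G, N.Normal ∧ Nat.card N = p := by
  have : Fact p.Prime := ⟨hp⟩
  obtain ⟨P⟩ : Nonempty (Sylow p G) := inferInstance
  have hPn : (P : Subgroup G).Normal := Cfsg.Agent.S0532.result (hereditary_clt hG) p hpG hmax P
  obtain ⟨N, hNn, hNP, hNp⟩ := exists_normal_prime_le hG (P : Subgroup G) (P.ne_bot_of_dvd_card hpG)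
  refine ⟨N, hNn, ?_⟩
  obtain ⟨a, ha⟩ := P.2.exists_card_eq
  have h1 : Nat.card N ∣ p ^ a := ha ▸ Subgroup.card_dvd_of_le hNP
  exact (Nat.prime_dvd_prime_iff_eq hNp hp).mp (hNp.dvd_of_dvd_pow h1)

theorem aux (k : ℕ) : ∀ (G : Type u) [Group G] [Finite G], Nat.card G = k →
    Cfsg.IsSupersolvable G → ∃ (n : ℕ) (H : Fin (n + 1) → Subgroup G), H 0 = ⊥ ∧ H (Fin.last n) = ⊤ ∧ (∀ i, (H i).Normal) ∧ (∀ i : Fin n, H i.castSucc ≤ H i.succ ∧ ((H i.castSucc).relIndex (H i.succ)).Prime) ∧ ∀ i j : Fin n, i ≤ j → (H j.castSucc).relIndex (H j.succ) ≤ (H i.castSucc).relIndex (H i.succ) := by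
  induction k using Nat.strong_induction_on with
  | _ k ih =>
  intro G _ _ hG hS
  have hkpos : 0 < k := hG ▸ Nat.card_pos
  by_cases hk1 : k = 1
  · have : Subsingleton G := by
      rw [← Finite.card_le_one_iff_subsingleton, hG, hk1]
    exact ⟨0, fun _ => ⊥, rfl, Subsingleton.elim _ _, fun _ => inferInstance, fun i => i.elim0,
      fun i => i.elim0⟩
  · obtain ⟨p, hp, hpk, hmax⟩ := Cfsg.Agent.S0533.exists_largest_prime k (by omega)
    obtain ⟨N, hNn, hNp⟩ := exists_normal_card_largest hS p hp (hG ▸ hpk) (hG ▸ hmax)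
    have hπ := QuotientGroup.mk'_surjective N
    have hlt : Nat.card (G ⧸ N) < k :=
      hG ▸ card_quotient_lt _ (ne_bot_of_prime_card _ (hNp ▸ hp))
    obtain ⟨n, H, h0, hl, hn, hstep, hmono⟩ := ih _ hlt (G ⧸ N) rfl
      (of_surjective (QuotientGroup.mk' N) hπ hS)
    have hrel : ∀ A B : Subgroup (G ⧸ N), (A.comap (QuotientGroup.mk' N)).relIndex
        (B.comap (QuotientGroup.mk' N)) = A.relIndex B := by
      intro A B
      rw [Subgroup.relIndex_comap, Subgroup.map_comap_eq_self_of_surjective hπ]
    refine ⟨n + 1, Fin.cons ⊥ (fun i => (H i).comap (QuotientGroup.mk' N)), ?_, ?_, ?_, ?_, ?_⟩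
    · rfl
    · rw [← Fin.succ_last, Fin.cons_succ, hl, Subgroup.comap_top]
    · intro i
      induction i using Fin.cases with
      | zero => rw [Fin.cons_zero]; infer_instance
      | succ i => rw [Fin.cons_succ]; exact (hn i).comap _
    · intro i
      induction i using Fin.cases with
      | zero =>
        rw [Fin.castSucc_zero, Fin.cons_zero, Fin.cons_succ, h0, MonoidHom.comap_bot,
          QuotientGroup.ker_mk', Subgroup.relIndex_bot_left, hNp]
        exact ⟨bot_le, hp⟩
      | succ i =>
        rw [← Fin.succ_castSucc, Fin.cons_succ, Fin.cons_succ, hrel]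
        exact ⟨Subgroup.comap_mono (hstep i).1, (hstep i).2⟩
    · intro i j hij
      induction j using Fin.cases with
      | zero =>
        have : i = 0 := le_antisymm hij (Fin.zero_le _)
        rw [this]
      | succ j =>
        induction i using Fin.cases with
        | zero =>
          rw [← Fin.succ_castSucc, Fin.cons_succ, Fin.cons_succ, hrel]
          rw [Fin.castSucc_zero, Fin.cons_zero, Fin.cons_succ, h0, MonoidHom.comap_bot,
            QuotientGroup.ker_mk', Subgroup.relIndex_bot_left, hNp]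
          apply hmax _ (hstep j).2
          have h1 : (H j.castSucc).relIndex (H j.succ) ∣ Nat.card (G ⧸ N) :=
            (Subgroup.relIndex_dvd_card _ _).trans (Subgroup.card_subgroup_dvd_card _)
          refine h1.trans ?_
          rw [← hG]
          exact Subgroup.card_quotient_dvd_card N
        | succ i =>
          rw [← Fin.succ_castSucc, ← Fin.succ_castSucc, Fin.cons_succ, Fin.cons_succ, Fin.cons_succ,
            Fin.cons_succ, hrel, hrel]
          exact hmono i j (Fin.succ_le_succ_iff.mp hij)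

/-- A finite supersolvable group has a chain of normal subgroups, from the trivial subgroup to the whole group, in which every step has prime index and the primes occurring are non-increasing as one goes up the chain. -/
theorem result {G : Type*} [Group G] [Finite G] (hG : Cfsg.IsSupersolvable G) : ∃ (n : ℕ) (H : Fin (n + 1) → Subgroup G), H 0 = ⊥ ∧ H (Fin.last n) = ⊤ ∧ (∀ i, (H i).Normal) ∧ (∀ i : Fin n, H i.castSucc ≤ H i.succ ∧ ((H i.castSucc).relIndex (H i.succ)).Prime) ∧ ∀ i j : Fin n, i ≤ j → (H j.castSucc).relIndex (H j.succ) ≤ (H i.castSucc).relIndex (H i.succ) := by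
  exact aux _ G rfl hG

end Cfsg.Agent.S0529
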