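import Cfsg.Statements.S0530
import Cfsg.Agent.Lib.Helper12Super
import Cfsg.Agent.Lib.Helper12Basic

set_option autoImplicit false
open Cfsg
open Pointwise

namespace Cfsg.Agent.S0530

open Cfsg.Agent.Lib.Helper12Super Cfsg.Agent.Lib.Helper11Supersolvable
open Cfsg.Agent.Lib.Helper12Basic

universe u

theorem mem_normalizer_zpowers {G : Type*} [Group G] [Finite G] (x s : G)
    (h : s * x * s⁻¹ ∈ Subgroup.zpowers x) :
    s ∈ Subgroup.normalizer ((Subgroup.zpowers x : Subgroup G) : Set G) := by
  rw [mem_normalizer_iff_smul]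
  apply smul_eq_of_ge
  intro y hy
  rw [mem_conj_smul] at hy
  obtain ⟨k, hk⟩ := hy
  have e : y = (s * x * s⁻¹) ^ k := by
    rw [conj_zpow]
    simp only at hk
    rw [hk]; group
  rw [e]
  exact Subgroup.zpow_mem _ h k

theorem pgroup (k : ℕ) : ∀ (G : Type u) [Group G] [Finite G], Nat.card G = k →
    ∀ (p : ℕ) [Fact p.Prime], IsPGroup p G → Cfsg.IsSupersolvable G := by
  induction k using Nat.strong_induction_on with
  | _ k ih =>
  intro G _ _ hG p hp hP
  by_cases hs : Subsingleton G
  · exact isSupersolvable_of_subsingleton G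
  · have : Nontrivial G := not_subsingleton_iff_nontrivial.mp hs
    have hc : Subgroup.center G ≠ ⊥ := (hP.bot_lt_center).ne'
    have hcp : IsPGroup p (Subgroup.center G) := hP.to_subgroup _
    have hdvd : p ∣ Nat.card (Subgroup.center G) := by
      obtain ⟨a, ha⟩ := hcp.exists_card_eq
      have ha0 : a ≠ 0 := by
        rintro rfl
        rw [pow_zero] at ha
        exact hc (Subgroup.card_eq_one.mp ha)
      rw [ha]; exact dvd_pow_self p ha0
    obtain ⟨z, hz⟩ := exists_prime_orderOf_dvd_card' p hdvd
    have hzo : orderOf (z : G) = p := by rw [Subgroup.orderOf_coe, hz]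
    have hN : (Nat.card (Subgroup.zpowers (z : G))).Prime := by
      rw [Nat.card_zpowers, hzo]; exact hp.out
    have hn : (Subgroup.zpowers (z : G)).Normal := by
      rw [← Subgroup.normalizer_eq_top_iff, eq_top_iff]
      intro s _
      apply mem_normalizer_zpowers
      have : s * (z : G) * s⁻¹ = z := by
        rw [Subgroup.mem_center_iff.mp z.2 s]; group
      rw [this]; exact Subgroup.mem_zpowers _
    apply of_normal_prime_card _ hN
    exact ih _ (hG ▸ card_quotient_lt _ (ne_bot_of_prime_card _ hN)) _ rfl p (hP.to_quotient _)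

theorem main (p : ℕ) (hp : p.Prime) (hp2 : p ≠ 2) (n : ℕ) :
    ∀ (G : Type u) [Group G] [Finite G], Nat.card G = 2 * p ^ n → Cfsg.IsSupersolvable G := by
  have : Fact p.Prime := ⟨hp⟩
  have : Fact (Nat.Prime 2) := ⟨Nat.prime_two⟩
  induction n with
  | zero =>
    intro G _ _ hG
    exact pgroup _ G rfl 2 (IsPGroup.of_card (n := 1) (by rw [hG]; norm_num))
  | succ n ih =>
    intro G _ _ hG
    have hcop : Nat.Coprime 2 p := (Nat.coprime_primes Nat.prime_two hp).mpr (Ne.symm hp2)
    obtain ⟨P⟩ : Nonempty (Sylow p G) := inferInstance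
    have hPc : Nat.card P = p ^ (n + 1) := by
      rw [P.card_eq_multiplicity, hG, Nat.factorization_mul (by norm_num) (pow_ne_zero _ hp.ne_zero)]
      congr 1
      simp [hp.factorization_pow,
        Nat.factorization_eq_zero_of_not_dvd (fun h => hp2 ((Nat.prime_dvd_prime_iff_eq hp Nat.prime_two).mp h))]
    have hPi : (P : Subgroup G).index = 2 := by
      have := (P : Subgroup G).card_mul_index
      rw [hG, mul_comm 2] at this
      have h2 : Nat.card (P : Subgroup G) = p ^ (n + 1) := hPc
      rw [h2] at this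
      exact Nat.eq_of_mul_eq_mul_left (pow_pos hp.pos _) this
    have hPn : (P : Subgroup G).Normal := Subgroup.normal_of_index_eq_two hPi
    -- central part
    have hnil : Group.IsNilpotent (P : Subgroup G) := P.2.isNilpotent
    have hCn : ((P : Subgroup G) ⊓ Subgroup.centralizer ((P : Subgroup G) : Set G)).Normal :=
      inferInstance
    have hPnt : Nontrivial (P : Subgroup G) := by
      rw [← Finite.one_lt_card_iff_nontrivial]
      have h2 : Nat.card (P : Subgroup G) = p ^ (n + 1) := hPc
      rw [h2]
      exact Nat.one_lt_pow (by omega) hp.one_lt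
    have hcen : Subgroup.center (P : Subgroup G) ≠ ⊥ := (P.2.bot_lt_center).ne'
    have hcp : IsPGroup p (Subgroup.center (P : Subgroup G)) := P.2.to_subgroup _
    have hdvd : p ∣ Nat.card (Subgroup.center (P : Subgroup G)) := by
      obtain ⟨a, ha⟩ := hcp.exists_card_eq
      have ha0 : a ≠ 0 := by
        rintro rfl
        rw [pow_zero] at ha
        exact hcen (Subgroup.card_eq_one.mp ha)
      rw [ha]; exact dvd_pow_self p ha0
    obtain ⟨z0, hz0⟩ := exists_prime_orderOf_dvd_card' p hdvd
    obtain ⟨z, hzP, hzC, hzo⟩ : ∃ z : G, z ∈ (P : Subgroup G) ∧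
        (∀ y ∈ (P : Subgroup G), y * z = z * y) ∧ orderOf z = p := by
      refine ⟨((z0 : (P : Subgroup G)) : G), (z0 : (P : Subgroup G)).2, ?_, ?_⟩
      · intro y hy
        have := Subgroup.mem_center_iff.mp z0.2 ⟨y, hy⟩
        exact congrArg Subtype.val this
      · rw [Subgroup.orderOf_coe, Subgroup.orderOf_coe, hz0]
    obtain ⟨t, ht⟩ := exists_prime_orderOf_dvd_card' (G := G) 2 (by rw [hG]; exact dvd_mul_right _ _)
    have htP : t ∉ (P : Subgroup G) := by
      intro h
      have h1 : orderOf t ∣ p ^ (n + 1) := by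
        have h2 : Nat.card (P : Subgroup G) = p ^ (n + 1) := hPc
        rw [← h2]
        have := orderOf_dvd_natCard (⟨t, h⟩ : (P : Subgroup G))
        rwa [← Subgroup.orderOf_coe] at this
      rw [ht] at h1
      have := Nat.Prime.dvd_of_dvd_pow Nat.prime_two h1
      exact hp2 ((Nat.prime_dvd_prime_iff_eq Nat.prime_two hp).mp this).symm
    have hsup : (P : Subgroup G) ⊔ Subgroup.zpowers t = ⊤ := by
      rw [← Subgroup.index_eq_one]
      have h1 : ((P : Subgroup G) ⊔ Subgroup.zpowers t).index ∣ 2 := by
        have h0 : ((P : Subgroup G) ⊔ Subgroup.zpowers t).index ∣ (P : Subgroup G).index :=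
          Subgroup.index_dvd_of_le le_sup_left
        rwa [hPi] at h0
      rcases (Nat.dvd_prime Nat.prime_two).mp h1 with h2 | h2
      · exact h2
      · exfalso
        have h3 := Subgroup.relIndex_mul_index
          (le_sup_left : (P : Subgroup G) ≤ (P : Subgroup G) ⊔ Subgroup.zpowers t)
        rw [h2, hPi] at h3
        have h4 : (P : Subgroup G).relIndex ((P : Subgroup G) ⊔ Subgroup.zpowers t) = 1 := by omega
        exact htP (Subgroup.relIndex_eq_one.mp h4
          ((le_sup_right : Subgroup.zpowers t ≤ _) (Subgroup.mem_zpowers t)))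
    have ht2 : t * t = 1 := by
      have := pow_orderOf_eq_one t
      rwa [ht, pow_two] at this
    have htinv : t⁻¹ = t := inv_eq_of_mul_eq_one_left ht2
    -- a normal subgroup of order p
    have key : ∀ x : G, (∀ y ∈ (P : Subgroup G), y * x = x * y) → orderOf x = p →
        t * x * t⁻¹ ∈ Subgroup.zpowers x → Cfsg.IsSupersolvable G := by
      intro x hxC hxo hxt
      have hN : (Nat.card (Subgroup.zpowers x)).Prime := by
        rw [Nat.card_zpowers, hxo]; exact hp
      have hn : (Subgroup.zpowers x).Normal := by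
        rw [← Subgroup.normalizer_eq_top_iff, eq_top_iff, ← hsup]
        refine sup_le ?_ ?_
        · intro y hy
          apply mem_normalizer_zpowers
          rw [hxC y hy]
          simp
        · rw [Subgroup.zpowers_le]
          exact mem_normalizer_zpowers x t hxt
      apply of_normal_prime_card _ hN
      apply ih
      have h1 := Subgroup.card_eq_card_quotient_mul_card_subgroup (Subgroup.zpowers x)
      rw [hG, Nat.card_zpowers, hxo, pow_succ, ← mul_assoc] at h1
      exact (Nat.eq_of_mul_eq_mul_right hp.pos h1).symm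
    have hz'P : t * z * t⁻¹ ∈ (P : Subgroup G) := hPn.conj_mem z hzP t
    have hz'C : ∀ y ∈ (P : Subgroup G), y * (t * z * t⁻¹) = (t * z * t⁻¹) * y := by
      intro y hy
      have h1 : t⁻¹ * y * t ∈ (P : Subgroup G) := by
        have := hPn.conj_mem y hy t⁻¹
        simpa using this
      have h2 := hzC _ h1
      calc y * (t * z * t⁻¹) = t * ((t⁻¹ * y * t) * z) * t⁻¹ := by group
        _ = t * (z * (t⁻¹ * y * t)) * t⁻¹ := by rw [h2]
        _ = (t * z * t⁻¹) * y := by group
    by_cases hw : z * (t * z * t⁻¹) = 1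
    · apply key z hzC hzo
      have : t * z * t⁻¹ = z⁻¹ := (inv_eq_of_mul_eq_one_right hw).symm
      rw [this]
      exact Subgroup.inv_mem _ (Subgroup.mem_zpowers z)
    · apply key (z * (t * z * t⁻¹))
      · intro y hy
        calc y * (z * (t * z * t⁻¹)) = (y * z) * (t * z * t⁻¹) := by group
          _ = z * (y * (t * z * t⁻¹)) := by rw [hzC y hy]; group
          _ = z * ((t * z * t⁻¹) * y) := by rw [hz'C y hy]
          _ = z * (t * z * t⁻¹) * y := by group
      · apply orderOf_eq_prime _ hw
        have hcomm : Commute z (t * z * t⁻¹) := (hzC _ hz'P).symm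
        rw [hcomm.mul_pow, conj_pow, ← hzo, pow_orderOf_eq_one]
        simp
      · have e : t * (z * (t * z * t⁻¹)) * t⁻¹ = z * (t * z * t⁻¹) := by
          have h1 : t * (z * (t * z * t⁻¹)) * t⁻¹ = (t * z * t⁻¹) * ((t * t) * z * (t * t)⁻¹) := by
            group
          rw [h1, ht2]
          simp only [one_mul, inv_one, mul_one]
          exact hzC _ hz'P
        rw [e]
        exact Subgroup.mem_zpowers _

/-- A finite group whose order is twice a prime power is supersolvable. -/
theorem result {G : Type*} [Group G] [Finite G] (p n : ℕ) (hp : p.Prime) (hG : Nat.card G = 2 * p ^ n) : Cfsg.IsSupersolvable G := by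
  by_cases hp2 : p = 2
  · subst hp2
    have : Fact (Nat.Prime 2) := ⟨Nat.prime_two⟩
    exact pgroup _ G rfl 2 (IsPGroup.of_card (n := n + 1) (by rw [hG, pow_succ, mul_comm]))
  · exact main p hp hp2 n G hG

end Cfsg.Agent.S0530
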