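import Cfsg.Statements.S0534
import Cfsg.Agent.Lib.Helper12Hall

set_option autoImplicit false
open Cfsg

namespace Cfsg.Agent.S0534

open Cfsg.Agent.Lib.Helper12Hall

universe u

theorem comm_clt (k : ℕ) : ∀ (A : Type u) [CommGroup A] [Finite A], Nat.card A = k →
    ∀ e : ℕ, e ∣ k → ∃ B : Subgroup A, Nat.card B = e := by
  induction k using Nat.strong_induction_on with
  | _ k ih =>
  intro A _ _ hA e he
  by_cases he1 : e = 1
  · exact ⟨⊥, by simp [he1]⟩
  · obtain ⟨p, hp, hpe⟩ := Nat.exists_prime_and_dvd he1
    have : Fact p.Prime := ⟨hp⟩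
    obtain ⟨x, hx⟩ := exists_prime_orderOf_dvd_card' p (hA ▸ hpe.trans he)
    have hN : Nat.card (Subgroup.zpowers x) = p := by rw [Nat.card_zpowers, hx]
    have hQ : p * Nat.card (A ⧸ Subgroup.zpowers x) = k := by
      rw [← hN, ← hA]; exact card_quotient _
    obtain ⟨e', rfl⟩ := hpe
    have hkpos : 0 < k := hA ▸ Nat.card_pos
    have hlt : Nat.card (A ⧸ Subgroup.zpowers x) < k := by
      have : 0 < Nat.card (A ⧸ Subgroup.zpowers x) := Nat.card_pos
      have := hp.two_le
      nlinarith
    have hdvd : e' ∣ Nat.card (A ⧸ Subgroup.zpowers x) := by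
      rw [← hQ] at he
      exact Nat.dvd_of_mul_dvd_mul_left hp.pos he
    obtain ⟨B, hB⟩ := ih _ hlt (A ⧸ Subgroup.zpowers x) rfl e' hdvd
    exact ⟨B.comap (QuotientGroup.mk' _), by rw [card_comap_mk', hB, hN]⟩

theorem arith (g a d : ℕ) (hg : g ≠ 0) (ha : a ≠ 0)
    (hA : ∀ p : ℕ, p.Prime → p ∣ a → p ∣ g)
    (hexp : ∀ p : ℕ, p.Prime → p ∣ g → a.factorization p + 1 = g.factorization p)
    (hd : d ∣ g * a) :
    ∃ m n e : ℕ, g = m * n ∧ m.Coprime n ∧ e ∣ a ∧ d = m * e := by
  classical
  have hd0 : d ≠ 0 := by
    rintro rfl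
    exact (mul_ne_zero hg ha) (Nat.eq_zero_of_zero_dvd hd)
  set f : ℕ →₀ ℕ := g.factorization.filter (fun p => g.factorization p ≤ d.factorization p) with hf
  have hfs : ∀ p ∈ f.support, p.Prime := by
    intro p hp
    have : p ∈ g.factorization.support := by
      rw [hf, Finsupp.support_filter, Finset.mem_filter] at hp
      exact hp.1
    exact Nat.prime_of_mem_primeFactors (by simpa using this)
  set m := f.prod (· ^ ·) with hm
  have hmf : m.factorization = f := Nat.prod_pow_factorization_eq_self hfs
  have hm0 : m ≠ 0 := by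
    rw [hm, Finsupp.prod]
    exact Finset.prod_ne_zero_iff.mpr (fun p hp => pow_ne_zero _ (hfs p hp).ne_zero)
  have hfp : ∀ p, f p = if g.factorization p ≤ d.factorization p then g.factorization p else 0 := by
    intro p; rw [hf, Finsupp.filter_apply]
  have hmg : m ∣ g := by
    rw [← Nat.factorization_le_iff_dvd hm0 hg, hmf]
    intro p; rw [hfp]; split_ifs <;> simp
  have hmd : m ∣ d := by
    rw [← Nat.factorization_le_iff_dvd hm0 hd0, hmf]
    intro p; rw [hfp]; split_ifs with h
    · exact h
    · simp
  obtain ⟨n, hn⟩ := hmg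
  obtain ⟨e, he⟩ := hmd
  have hn0 : n ≠ 0 := by rintro rfl; simp at hn; exact hg hn
  have he0 : e ≠ 0 := by rintro rfl; simp at he; exact hd0 he
  have hgf : ∀ p, g.factorization p = f p + n.factorization p := by
    intro p; rw [hn, Nat.factorization_mul hm0 hn0, hmf]; rfl
  have hdf : ∀ p, d.factorization p = f p + e.factorization p := by
    intro p; rw [he, Nat.factorization_mul hm0 he0, hmf]; rfl
  have hdga : ∀ p, d.factorization p ≤ g.factorization p + a.factorization p := by
    intro p
    have := (Nat.factorization_le_iff_dvd hd0 (mul_ne_zero hg ha)).mpr hd p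
    rwa [Nat.factorization_mul hg ha] at this
  refine ⟨m, n, e, hn, ?_, ?_, he⟩
  · apply Nat.Coprime.symm
    apply Nat.coprime_of_dvd
    intro p hp hpn hpm
    have h1 : 0 < n.factorization p := hp.factorization_pos_of_dvd hn0 hpn
    have h2 : 0 < f p := by rw [← hmf]; exact hp.factorization_pos_of_dvd hm0 hpm
    have h3 := hgf p
    have h4 := hfp p
    split_ifs at h4 with h
    · omega
    · omega
  · rw [← Nat.factorization_le_iff_dvd he0 ha]
    intro p
    by_cases hp : p.Prime
    · by_cases hpg : p ∣ g
      · have h1 := hexp p hp hpg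
        have h2 := hdf p
        have h3 := hdga p
        have h4 := hfp p
        split_ifs at h4 with h
        · omega
        · omega
      · have h1 : g.factorization p = 0 := Nat.factorization_eq_zero_of_not_dvd hpg
        have h2 : a.factorization p = 0 :=
          Nat.factorization_eq_zero_of_not_dvd (fun h => hpg (hA p hp h))
        have h3 := hdga p
        have h4 := hdf p
        omega
    · rw [Nat.factorization_eq_zero_of_not_prime _ hp]; exact Nat.zero_le _

/-- Let G be a finite solvable group and A a finite abelian group such that every prime dividing the order of A divides the order of G and, for each prime p dividing the order of G, the exponent of p in the order of A is one less than its exponent in the order of G. Then G × A has a subgroup of every order dividing its order. -/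
theorem result {G A : Type*} [Group G] [CommGroup A] [Finite G] [Finite A] [Group.IsSolvable G] (hA : ∀ p : ℕ, p.Prime → p ∣ Nat.card A → p ∣ Nat.card G) (hexp : ∀ p : ℕ, p.Prime → p ∣ Nat.card G → (Nat.card A).factorization p + 1 = (Nat.card G).factorization p) : Cfsg.HasSubgroupOfEveryOrder (G × A) := by
  intro d hd
  rw [Nat.card_prod] at hd
  obtain ⟨m, n, e, hmn, hcop, hea, rfl⟩ := arith (Nat.card G) (Nat.card A) d Nat.card_pos.ne'
    Nat.card_pos.ne' hA hexp hd
  obtain ⟨H, hH⟩ := hall_exists m n hmn hcop
  obtain ⟨B, hB⟩ := comm_clt _ A rfl e hea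
  refine ⟨H.prod B, ?_⟩
  rw [← hH, ← hB, ← Nat.card_prod]
  exact Nat.card_congr (Subgroup.prodEquiv H B).toEquiv

end Cfsg.Agent.S0534
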