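import Cfsg.Statements.S0535
import Cfsg.Agent.S0006
import Cfsg.Agent.Lib.Helper12Compl

set_option autoImplicit false
open Cfsg

namespace Cfsg.Agent.S0535

open Cfsg.Agent.Lib.Helper12Compl

theorem aux {G : Type*} [Group G] [Finite G] (h : ∀ H : Subgroup G, H ≠ ⊥ → ∀ p : ℕ, p.Prime → p ∣ Nat.card H → ∃ K : Subgroup H, K ≠ ⊤ ∧ ∃ k : ℕ, K.index = p ^ k)
    (p : ℕ) (hp : p.Prime) (n : ℕ) : ∀ H : Subgroup G, Nat.card H = n →
    ∃ L : Subgroup G, L ≤ H ∧ (∃ j, L.relIndex H = p ^ j) ∧ ¬ p ∣ Nat.card L := by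
  induction n using Nat.strong_induction_on with
  | _ n ih =>
  intro H hH
  by_cases hpH : p ∣ Nat.card H
  · have hne : H ≠ ⊥ := by
      rintro rfl
      simp at hpH
      exact hp.one_lt.ne' hpH
    obtain ⟨K, hK, k, hk⟩ := h H hne p hp hpH
    have hle : K.map H.subtype ≤ H := Subgroup.map_subtype_le K
    have hlt : Nat.card (K.map H.subtype) < n := by
      rw [Subgroup.card_map_of_injective H.subtype_injective, ← hH]
      have h1 := K.card_mul_index
      have h2 : 1 < K.index := Subgroup.one_lt_index_of_ne_top hK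
      have h3 : 0 < Nat.card K := Nat.card_pos
      nlinarith
    obtain ⟨L, hL, ⟨j, hj⟩, hpL⟩ := ih _ hlt (K.map H.subtype) rfl
    refine ⟨L, hL.trans hle, ⟨j + k, ?_⟩, hpL⟩
    rw [← Subgroup.relIndex_mul_relIndex _ _ _ hL hle, hj, pow_add]
    congr 1
    rw [Subgroup.relIndex, Subgroup.subgroupOf, Subgroup.comap_map_eq_self_of_injective
      H.subtype_injective, hk]
  · exact ⟨H, le_rfl, ⟨0, by simp⟩, hpH⟩

/-- Suppose that for every nontrivial subgroup H of a finite group and every prime p dividing the order of H there is a proper subgroup of H whose index in H is a power of p. Then the group is solvable. -/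
theorem result {G : Type*} [Group G] [Finite G] (h : ∀ H : Subgroup G, H ≠ ⊥ → ∀ p : ℕ, p.Prime → p ∣ Nat.card H → ∃ K : Subgroup H, K ≠ ⊤ ∧ ∃ k : ℕ, K.index = p ^ k) : Group.IsSolvable G := by
  apply Cfsg.Agent.S0006.result
  intro p hp
  obtain ⟨L, -, ⟨j, hj⟩, hpL⟩ := aux h p hp _ ⊤ rfl
  refine ⟨L, ?_⟩
  rw [index_eq_iff L p hp]
  rw [Subgroup.relIndex_top_right] at hj
  exact ⟨⟨j, hj⟩, ((Nat.Prime.coprime_iff_not_dvd hp).mpr hpL).symm⟩

end Cfsg.Agent.S0535
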