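import Cfsg.Statements.S3969
import Cfsg.Agent.Lib.Helper11Counting
import Cfsg.Agent.Lib.Helper11OddAut

set_option autoImplicit false
open Cfsg

namespace Cfsg.Agent.S3969

open Subgroup Cfsg.Agent.Lib.Helper11Counting Cfsg.Agent.Lib.Helper11OddAut Cfsg.Agent.Lib.Helper11Frobenius

section
variable {G : Type*} [Group G]

/-- `Ω₁` of an abelian subgroup. -/
def omega (p : ℕ) (P : Subgroup G) (hab : ∀ a ∈ P, ∀ b ∈ P, a * b = b * a) : Subgroup G where
  carrier := {x | x ∈ P ∧ x ^ p = 1}
  one_mem' := ⟨P.one_mem, one_pow _⟩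
  mul_mem' := by
    rintro a b ⟨ha, ha'⟩ ⟨hb, hb'⟩
    exact ⟨P.mul_mem ha hb, by
      rw [(show Commute a b from hab a ha b hb).mul_pow, ha', hb', one_mul]⟩
  inv_mem' := by
    rintro a ⟨ha, ha'⟩
    exact ⟨P.inv_mem ha, by rw [inv_pow, ha', inv_one]⟩

theorem card_omega (p : ℕ) [Fact p.Prime] (P : Subgroup G) [Finite P]
    (hab : ∀ a ∈ P, ∀ b ∈ P, a * b = b * a) :
    ∃ a, a ≤ Group.rank P ∧ Nat.card (omega p P hab) = p ^ a := by
  let _ : CommGroup P :=
    { (inferInstance : Group P) with mul_comm := fun a b => Subtype.ext (hab a a.2 b b.2) }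
  let f : P →* P := powMonoidHom p
  have h1 : Nat.card (omega p P hab) = Nat.card f.ker := by
    apply Nat.card_congr
    refine ⟨fun x => ⟨⟨x.1, x.2.1⟩, ?_⟩, fun x => ⟨x.1.1, x.1.2, ?_⟩, fun _ => rfl, fun _ => rfl⟩
    · rw [MonoidHom.mem_ker]
      apply Subtype.ext
      exact x.2.2
    · have := x.2
      rw [MonoidHom.mem_ker] at this
      exact congrArg Subtype.val this
  have h2 : Nat.card f.ker = f.range.index := by
    have e1 := f.ker.card_mul_index
    have e2 := f.range.card_mul_index
    rw [Subgroup.index_ker] at e1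
    have hpos : 0 < Nat.card f.range := Nat.card_pos
    have : Nat.card f.ker * Nat.card f.range = f.range.index * Nat.card f.range := by
      rw [e1, mul_comm, e2]
    exact Nat.eq_of_mul_eq_mul_right hpos this
  have h3 : Nat.card (P ⧸ f.range) ∣ p ^ Group.rank (P ⧸ f.range) := by
    apply card_dvd_exponent_pow_rank'
    intro g
    induction g using QuotientGroup.induction_on with
    | H z =>
      rw [← QuotientGroup.mk_pow, QuotientGroup.eq_one_iff]
      exact ⟨z, rfl⟩
  have h4 : Group.rank (P ⧸ f.range) ≤ Group.rank P :=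
    Group.rank_le_of_surjective (QuotientGroup.mk' _) (QuotientGroup.mk'_surjective _)
  obtain ⟨a, ha, hcard⟩ := (Nat.dvd_prime_pow Fact.out).mp h3
  exact ⟨a, ha.trans h4, by rw [h1, h2]; exact hcard⟩

theorem centralizes_of_omega (p : ℕ) (P : Subgroup G) (hP : IsPGroup p P)
    (hab : ∀ a ∈ P, ∀ b ∈ P, a * b = b * a) (x : G) (hx : (orderOf x).Coprime p)
    (hxN : x ∈ normalizer (P : Set G)) (hxC : x ∈ centralizer (omega p P hab : Set G)) :
    x ∈ centralizer (P : Set G) := by
  have key : ∀ k : ℕ, ∀ y ∈ P, y ^ p ^ k = 1 → x * y * x⁻¹ = y := by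
    intro k
    induction k with
    | zero => intro y _ hy; simp at hy; simp [hy]
    | succ k ih =>
      intro y hy hyk
      have h1 : x * y ^ p * x⁻¹ = y ^ p := by
        apply ih _ (P.pow_mem hy p)
        rw [← pow_mul, ← pow_succ']; exact hyk
      have hc : x * y * x⁻¹ ∈ P := (mem_normalizer_iff.mp hxN y).mp hy
      set a := x * y * x⁻¹ * y⁻¹ with ha
      have haP : a ∈ P := P.mul_mem hc (P.inv_mem hy)
      have hap : a ^ p = 1 := by
        rw [ha, (show Commute (x * y * x⁻¹) y⁻¹ from hab _ hc _ (P.inv_mem hy)).mul_pow,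
          conj_pow, h1, inv_pow, mul_inv_cancel]
      have hab' : x * y * x⁻¹ = a * y := by rw [ha]; group
      have h2 := eq_one_of_step (p := p) x y a hab' (hxC a ⟨haP, hap⟩).symm hx 1 (by simpa using hap)
      rw [hab', h2, one_mul]
  intro y hy
  obtain ⟨k, hk⟩ := hP ⟨y, hy⟩
  have hk' : y ^ p ^ k = 1 := by simpa using congrArg Subtype.val hk
  have := key k y hy hk'
  calc y * x = (x * y * x⁻¹) * x := by rw [this]
    _ = x * y := by group

theorem omega_normalizer (p : ℕ) (P : Subgroup G)
    (hab : ∀ a ∈ P, ∀ b ∈ P, a * b = b * a) (x : G)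
    (hxN : x ∈ normalizer (P : Set G)) : x ∈ normalizer (omega p P hab : Set G) := by
  rw [mem_normalizer_iff]
  intro y
  constructor
  · rintro ⟨h1, h2⟩
    exact ⟨(mem_normalizer_iff.mp hxN y).mp h1, by rw [conj_pow, h2]; group⟩
  · rintro ⟨h1, h2⟩
    refine ⟨(mem_normalizer_iff.mp hxN y).mpr h1, ?_⟩
    rw [conj_pow] at h2
    have : y ^ p = x⁻¹ * (x * y ^ p * x⁻¹) * x := by group
    rw [this, h2]; group

end


/-- Let `P` be an abelian Sylow `p`-subgroup of the finite group `G`, generated by `d` elements (`d` its minimal number of generators). If the order of `G` is coprime to `(p - 1)(p ^ 2 - 1) ⋯ (p ^ d - 1)`, then `G` has a normal `p`-complement. (The classical statement needs only the largest number of cyclic factors of `P` of equal order in place of `d`; the form here follows from it.) -/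
theorem result {G : Type*} [Group G] [Finite G] (p : ℕ) [Fact p.Prime] (P : Sylow p G) (hab : IsMulCommutative (P : Subgroup G)) (hcop : Nat.Coprime (Nat.card G) (∏ i ∈ Finset.Icc 1 (Group.rank (P : Subgroup G)), (p ^ i - 1))) : Cfsg.HasNormalPComplement p G := by
  have hp : p.Prime := Fact.out
  have hab' : ∀ a ∈ (P : Subgroup G), ∀ b ∈ (P : Subgroup G), a * b = b * a := by
    intro a ha b hb
    have := hab.is_comm.comm ⟨a, ha⟩ ⟨b, hb⟩
    exact congrArg Subtype.val this
  have hNC : normalizer ((P : Subgroup G) : Set G) ≤ centralizer ((P : Subgroup G) : Set G) := by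
    intro g hg
    by_contra hgC
    obtain ⟨r, hr, hrd, R, hRz, hRp, hRC⟩ :=
      exists_prime_subgroup_not_centralizing (P : Subgroup G) g (isOfFinOrder_of_finite g) hgC
    obtain ⟨x, hxR, hxC⟩ := SetLike.not_le_iff_exists.mp hRC
    have hxN : x ∈ normalizer ((P : Subgroup G) : Set G) := (zpowers_le.mpr hg) (hRz hxR)
    by_cases hrp : r = p
    · subst hrp
      have hxP : x ∈ (P : Subgroup G) := by
        have h1 : IsPGroup r (zpowers x) := hRp.to_le (zpowers_le.mpr hxR)
        have h2 := h1.inf_normalizer_sylow P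
        have h3 : x ∈ zpowers x ⊓ (P : Subgroup G) := h2.le ⟨mem_zpowers x, hxN⟩
        exact h3.2
      exact hxC (fun y hy => hab' y hy x hxP)
    · have hxo : (orderOf x).Coprime p := by
        obtain ⟨k, hk⟩ := hRp ⟨x, hxR⟩
        have hk' : x ^ r ^ k = 1 := by simpa using congrArg Subtype.val hk
        have h1 : orderOf x ∣ r ^ k := orderOf_dvd_of_pow_eq_one hk'
        exact Nat.Coprime.coprime_dvd_left h1
          (Nat.Coprime.pow_left k ((Nat.coprime_primes hr hp).mpr hrp))
      obtain ⟨a, ha, hcard⟩ := card_omega p (P : Subgroup G) hab'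
      have hxΩ : x ∉ centralizer (omega p (P : Subgroup G) hab' : Set G) := fun h =>
        hxC (centralizes_of_omega p (P : Subgroup G) P.isPGroup' hab' x hxo hxN h)
      obtain ⟨s, hs, hsd, d, hd1, hda, hsp⟩ :=
        exists_prime_dvd_pow_sub_one (omega p (P : Subgroup G) hab') a hcard x hxo
          (omega_normalizer p (P : Subgroup G) hab' x hxN) hxΩ
      have h1 : s ∣ Nat.card G := hsd.trans (orderOf_dvd_natCard x)
      have h2 : s ∣ ∏ i ∈ Finset.Icc 1 (Group.rank (P : Subgroup G)), (p ^ i - 1) :=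
        hsp.trans (Finset.dvd_prod_of_mem _ (Finset.mem_Icc.mpr ⟨hd1, hda.trans ha⟩))
      exact hs.one_lt.ne' (Nat.eq_one_of_dvd_coprimes hcop h1 h2)
  exact ⟨P, _, inferInstance, MonoidHom.ker_transferSylow_isComplement' P hNC⟩

end Cfsg.Agent.S3969
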