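import Cfsg.Statements.S0537
import Cfsg.Agent.S0536
import Cfsg.Agent.S3969

set_option autoImplicit false
open Cfsg

namespace Cfsg.Agent.S0537

open Subgroup Cfsg.Agent.Lib.Helper11Schmidt Cfsg.Agent.S3969

/-- A finite non-abelian group in which every proper subgroup is abelian is either of prime-power order, or is generated by a cyclic Sylow p-subgroup and a normal Sylow q-subgroup that is elementary abelian, for distinct primes p and q. -/
theorem result {G : Type*} [Group G] [Finite G] (hna : ¬ IsMulCommutative G) (h : ∀ H : Subgroup G, H ≠ ⊤ → IsMulCommutative H) : (∃ p : ℕ, p.Prime ∧ IsPGroup p G) ∨ ∃ p q : ℕ, p.Prime ∧ q.Prime ∧ p ≠ q ∧ ∃ (P : Sylow p G) (Q : Sylow q G), IsCyclic P ∧ (Q : Subgroup G).Normal ∧ Cfsg.IsElementaryAbelian q (Q : Subgroup G) ∧ (P : Subgroup G) ⊔ Q = ⊤ := by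
  classical
  have hcomm : ∀ H : Subgroup G, H ≠ ⊤ → ∀ a ∈ H, ∀ b ∈ H, a * b = b * a := by
    intro H hH a ha b hb
    exact congrArg Subtype.val ((h H hH).is_comm.comm ⟨a, ha⟩ ⟨b, hb⟩)
  by_cases hnil : Group.IsNilpotent G
  · left
    by_contra hno
    push Not at hno
    apply hna
    obtain ⟨e⟩ := (Group.isNilpotent_of_finite_tfae.out 0 4 rfl rfl).mp hnil
    refine ⟨⟨fun a b => ?_⟩⟩
    apply e.symm.injective
    rw [map_mul, map_mul]
    funext p P
    have hp : (p : ℕ).Prime := Nat.prime_of_mem_primeFactors p.2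
    have hP : (P : Subgroup G) ≠ ⊤ := by
      intro htop
      apply hno p hp
      intro g
      obtain ⟨k, hk⟩ := P.isPGroup' ⟨g, by rw [htop]; trivial⟩
      exact ⟨k, by simpa using congrArg Subtype.val hk⟩
    exact (h _ hP).is_comm.comm _ _
  · right
    have hmin : Cfsg.IsMinimalNonNilpotent G := by
      refine ⟨hnil, fun H hH => ?_⟩
      let _ : CommGroup H :=
        { (inferInstance : Group H) with mul_comm := (h H hH).is_comm.comm }
      infer_instance
    obtain ⟨p, q, hp, hq, hpq, P, Q, hPc, hQn, htop⟩ := Cfsg.Agent.S0536.result hmin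
    have : Fact p.Prime := ⟨hp⟩
    have : Fact q.Prime := ⟨hq⟩
    refine ⟨p, q, hp, hq, hpq, P, Q, hPc, hQn, ?_, htop⟩
    have hQtop : (Q : Subgroup G) ≠ ⊤ := by
      intro hQ
      apply hnil
      have : IsPGroup q G := by
        intro g
        obtain ⟨k, hk⟩ := Q.isPGroup' ⟨g, by rw [hQ]; trivial⟩
        exact ⟨k, by simpa using congrArg Subtype.val hk⟩
      exact this.isNilpotent
    refine ⟨h _ hQtop, ?_⟩
    by_contra hex
    push Not at hex
    obtain ⟨a, haQ, haq⟩ := hex
    have hab := hcomm _ hQtop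
    set Ω := omega q (Q : Subgroup G) hab with hΩ
    have hΩQ : Ω ≤ (Q : Subgroup G) := fun x hx => hx.1
    have hPN : (P : Subgroup G) ≤ normalizer (Ω : Set G) := by
      intro x _
      apply omega_normalizer
      rw [normalizer_eq_top_iff.mpr hQn]; trivial
    have hK : Ω ⊔ (P : Subgroup G) ≠ ⊤ := by
      intro hK
      obtain ⟨-, ⟨Q', hQ'⟩, -⟩ := sylow_of_pair p q hpq Ω P (Q.isPGroup'.to_le hΩQ) P.isPGroup' hPN hK
      have h1 : (Q : Subgroup G) = Q' := Q'.is_maximal' Q.isPGroup' (by rw [hQ']; exact hΩQ)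
      have h2 : a ∈ Ω := by rw [← hQ', ← h1]; exact haQ
      exact haq h2.2
    have hKc := hcomm _ hK
    have hPQ : (P : Subgroup G) ≤ centralizer ((Q : Subgroup G) : Set G) := by
      intro x hx
      apply centralizes_of_omega q (Q : Subgroup G) Q.isPGroup' hab x
      · obtain ⟨k, hk⟩ := orderOf_dvd_of_isPGroup (P : Subgroup G) P.isPGroup' x hx
        exact Nat.Coprime.coprime_dvd_left hk
          (Nat.Coprime.pow_left k ((Nat.coprime_primes hp hq).mpr hpq))
      · rw [normalizer_eq_top_iff.mpr hQn]; trivial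
      · intro y hy
        exact hKc y (le_sup_left (a := Ω) hy) x (le_sup_right (b := (P : Subgroup G)) hx)
    apply hna
    have hPP : (P : Subgroup G) ≤ centralizer ((P : Subgroup G) : Set G) := by
      intro x hx y hy
      have := hPc.isMulCommutative.is_comm.comm ⟨y, hy⟩ ⟨x, hx⟩
      exact congrArg Subtype.val this
    have hQQ : (Q : Subgroup G) ≤ centralizer ((Q : Subgroup G) : Set G) := by
      intro x hx y hy
      exact hab y hy x hx
    have hQP : (Q : Subgroup G) ≤ centralizer ((P : Subgroup G) : Set G) := by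
      intro x hx y hy
      exact (hPQ hy x hx).symm
    have h1 : (⊤ : Subgroup G) ≤ centralizer ((P : Subgroup G) : Set G) := by
      rw [← htop]; exact sup_le hPP hQP
    have h2 : (⊤ : Subgroup G) ≤ centralizer ((Q : Subgroup G) : Set G) := by
      rw [← htop]; exact sup_le hPQ hQQ
    have h3 : (⊤ : Subgroup G) ≤ center G := by
      rw [← htop]
      apply sup_le
      · intro x hx
        rw [mem_center_iff]
        intro g
        exact (h1 (mem_top g) x hx).symm
      · intro x hx
        rw [mem_center_iff]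
        intro g
        exact (h2 (mem_top g) x hx).symm
    refine ⟨⟨fun a b => ?_⟩⟩
    exact (mem_center_iff.mp (h3 (mem_top b)) a)

end Cfsg.Agent.S0537
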