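import Cfsg.Statements.S0541
import Cfsg.Agent.Lib.Helper37Sylow
import Mathlib.Data.Set.Finite.Lemmas

set_option autoImplicit false
open Pointwise
open Cfsg

namespace Cfsg.Agent.S0541

theorem conj_smul_le_iff {G : Type*} [Group G] {x : G} {H K : Subgroup G} :
    MulAut.conj x • H ≤ K ↔ ∀ h ∈ H, x * h * x⁻¹ ∈ K := by
  constructor
  · intro hle h hh
    have := hle (Subgroup.smul_mem_pointwise_smul h (MulAut.conj x) H hh)
    simpa [MulAut.smul_def] using this
  · intro hK y hy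
    obtain ⟨h, hh, rfl⟩ := Subgroup.mem_smul_pointwise_iff_exists _ _ _ |>.1 hy
    simpa [MulAut.smul_def] using hK h hh

theorem conj_mul_smul {G : Type*} [Group G] (x g : G) (Z : Subgroup G) :
    MulAut.conj (x * g) • Z = MulAut.conj x • (MulAut.conj g • Z) := by
  rw [map_mul, mul_smul]

theorem conj_mem_conj_mul {G : Type*} [Group G] {x g z : G} {Z : Subgroup G}
    (hz : z ∈ MulAut.conj g • Z) : x * z * x⁻¹ ∈ MulAut.conj (x * g) • Z := by
  rw [conj_mul_smul]
  exact conj_smul_le_iff.1 le_rfl z hz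

/-- the weak closure of `Z` in `T`. -/
def wcl {G : Type*} [Group G] (Z T : Subgroup G) : Subgroup G :=
  ⨆ g ∈ {g : G | MulAut.conj g • Z ≤ T}, MulAut.conj g • Z

theorem wcl_le {G : Type*} [Group G] (Z T : Subgroup G) : wcl Z T ≤ T :=
  iSup₂_le fun _ hg => hg

theorem le_wcl {G : Type*} [Group G] {Z T : Subgroup G} {g : G} (hg : MulAut.conj g • Z ≤ T) :
    MulAut.conj g • Z ≤ wcl Z T :=
  le_iSup₂ (f := fun (g : G) (_ : g ∈ {g : G | MulAut.conj g • Z ≤ T}) => MulAut.conj g • Z) g hg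

theorem mem_normalizer_of_conj_le {G : Type*} [Group G] [Finite G] {x : G} {T : Subgroup G}
    (h : ∀ t ∈ T, x * t * x⁻¹ ∈ T) : x ∈ Subgroup.normalizer (T : Set G) := by
  rw [Subgroup.mem_normalizer_iff_map_conj_eq]
  apply Subgroup.eq_of_le_of_card_ge
  · rintro _ ⟨s, hs, rfl⟩
    exact h s hs
  · rw [Subgroup.card_map_of_injective (MulAut.conj _).injective]

/-- if conjugation by `x` maps the conjugates of `Z` in `T` into `T`, then `x` normalizes `wcl Z T`. -/
theorem conj_mem_wcl {G : Type*} [Group G] {Z T : Subgroup G} {x : G}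
    (h : ∀ g, MulAut.conj g • Z ≤ T → MulAut.conj (x * g) • Z ≤ T) :
    ∀ t ∈ wcl Z T, x * t * x⁻¹ ∈ wcl Z T := by
  have h1 : wcl Z T ≤ (wcl Z T).comap (MulAut.conj x).toMonoidHom := by
    refine iSup₂_le fun g hg z hz => ?_
    show x * z * x⁻¹ ∈ wcl Z T
    exact le_wcl (h g hg) (conj_mem_conj_mul hz)
  exact fun t ht => h1 ht

/-- Let Z and Y be subgroups of a finite group G and p a prime. Suppose that for every g in G the subgroup generated by the conjugates of g Z g⁻¹ under Y is a p-group. Then there is a Sylow p-subgroup P of G such that Y normalizes the subgroup generated by all conjugates of Z contained in P. -/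
theorem result {G : Type*} [Group G] [Finite G] (p : ℕ) [Fact p.Prime] (Z Y : Subgroup G) (h : ∀ g : G, IsPGroup p ↥(⨆ y ∈ Y, MulAut.conj (y * g) • Z)) : ∃ P : Sylow p G, Y ≤ Subgroup.normalizer ((⨆ g ∈ {g : G | MulAut.conj g • Z ≤ (P : Subgroup G)}, MulAut.conj g • Z : Subgroup G) : Set G) := by
  have hU : ∀ g : G, ∀ y ∈ Y, ∀ u ∈ (⨆ y ∈ Y, MulAut.conj (y * g) • Z), y * u * y⁻¹ ∈
      (⨆ y ∈ Y, MulAut.conj (y * g) • Z) := by
    intro g y hy
    have h1 : (⨆ y ∈ Y, MulAut.conj (y * g) • Z) ≤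
        (⨆ y ∈ Y, MulAut.conj (y * g) • Z).comap (MulAut.conj y).toMonoidHom := by
      refine iSup₂_le fun y' hy' z hz => ?_
      show y * z * y⁻¹ ∈ (⨆ y ∈ Y, MulAut.conj (y * g) • Z)
      have h2 := conj_mem_conj_mul (x := y) hz
      rw [← mul_assoc] at h2
      exact le_iSup₂ (f := fun (y : G) (_ : y ∈ Y) => MulAut.conj (y * g) • Z) (y * y')
        (Y.mul_mem hy hy') h2
    exact fun u hu => h1 hu
  have hUle : ∀ g : G, ∀ y ∈ Y, MulAut.conj (y * g) • Z ≤ (⨆ y ∈ Y, MulAut.conj (y * g) • Z) :=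
    fun g y hy => le_iSup₂ (f := fun (y : G) (_ : y ∈ Y) => MulAut.conj (y * g) • Z) y hy
  let 𝒯 : Set (Subgroup G) := {T | IsPGroup p T ∧ (∀ y ∈ Y, ∀ t ∈ T, y * t * y⁻¹ ∈ T) ∧ wcl Z T = T}
  have hne : 𝒯.Nonempty := by
    refine ⟨⨆ y ∈ Y, MulAut.conj (y * 1) • Z, h 1, hU 1, le_antisymm (wcl_le _ _) ?_⟩
    exact iSup₂_le fun y hy => le_wcl (hUle 1 y hy)
  obtain ⟨T, ⟨hT1, hT2, hT3⟩, hmax⟩ := Set.exists_max_image 𝒯 (fun T => Nat.card T) (Set.toFinite _) hne
  obtain ⟨P, hTP⟩ := hT1.exists_le_sylow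
  refine ⟨P, ?_⟩
  suffices hW : wcl Z (P : Subgroup G) = T by
    show Y ≤ Subgroup.normalizer ((wcl Z (P : Subgroup G) : Subgroup G) : Set G)
    rw [hW]
    exact Subgroup.le_normalizer_iff.2 hT2
  by_cases hA : ∃ g : G, MulAut.conj g • Z ≤ (P : Subgroup G) ⊓ Subgroup.normalizer (T : Set G) ∧
      ¬ MulAut.conj g • Z ≤ T
  · exfalso
    obtain ⟨g, hg1, hg2⟩ := hA
    have hYN : Y ≤ Subgroup.normalizer (T : Set G) := Subgroup.le_normalizer_iff.2 hT2
    have hUN : (⨆ y ∈ Y, MulAut.conj (y * g) • Z) ≤ Subgroup.normalizer (T : Set G) := by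
      refine iSup₂_le fun y hy => ?_
      rw [conj_mul_smul, conj_smul_le_iff]
      intro z hz
      exact Subgroup.mul_mem _ (Subgroup.mul_mem _ (hYN hy) (hg1 hz).2) (Subgroup.inv_mem _ (hYN hy))
    have hmem : (⨆ y ∈ Y, MulAut.conj (y * g) • Z) ⊔ T ∈ 𝒯 := by
      refine ⟨(h g).to_sup_of_normal_right' hT1 hUN, ?_, le_antisymm (wcl_le _ _) ?_⟩
      · intro y hy
        have h1 : (⨆ y ∈ Y, MulAut.conj (y * g) • Z) ⊔ T ≤
            ((⨆ y ∈ Y, MulAut.conj (y * g) • Z) ⊔ T).comap (MulAut.conj y).toMonoidHom := by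
          refine sup_le (fun u hu => ?_) (fun t ht => ?_)
          · exact (le_sup_left : _ ≤ (⨆ y ∈ Y, MulAut.conj (y * g) • Z) ⊔ T) (hU g y hy u hu)
          · exact (le_sup_right : T ≤ (⨆ y ∈ Y, MulAut.conj (y * g) • Z) ⊔ T) (hT2 y hy t ht)
        exact fun t ht => h1 ht
      · refine sup_le (iSup₂_le fun y hy => le_wcl ((hUle g y hy).trans le_sup_left)) ?_
        conv_lhs => rw [← hT3]
        exact iSup₂_le fun g' hg' => le_wcl (le_trans hg' le_sup_right)
    have h2 := hmax _ hmem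
    have h3 : T = (⨆ y ∈ Y, MulAut.conj (y * g) • Z) ⊔ T := Subgroup.eq_of_le_of_card_ge le_sup_right h2
    apply hg2
    rw [h3]
    have h4 := hUle g 1 Y.one_mem
    rw [one_mul] at h4
    exact h4.trans le_sup_left
  · push Not at hA
    have hPN : (P : Subgroup G) ≤ (P : Subgroup G) ⊓ Subgroup.normalizer (T : Set G) := by
      by_contra hcon
      obtain ⟨x, hx1, hx2, hx3⟩ := Cfsg.Agent.Lib.Helper37Sylow.exists_normalizing_not_mem
        (P : Subgroup G) ((P : Subgroup G) ⊓ Subgroup.normalizer (T : Set G)) P.isPGroup' hcon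
      apply hx2
      refine ⟨hx1, mem_normalizer_of_conj_le ?_⟩
      rw [← hT3]
      apply conj_mem_wcl
      intro g hg
      apply hA
      rw [conj_mul_smul, conj_smul_le_iff]
      intro z hz
      have hz' : z ∈ (P : Subgroup G) ⊓ ((P : Subgroup G) ⊓ Subgroup.normalizer (T : Set G)) :=
        ⟨hTP (hg hz), hTP (hg hz), Subgroup.le_normalizer (hg hz)⟩
      exact (hx3 z hz').2
    apply le_antisymm
    · exact iSup₂_le fun g hg => hA g (le_trans hg hPN)
    · conv_lhs => rw [← hT3]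
      exact iSup₂_le fun g hg => le_wcl (le_trans hg hTP)

end Cfsg.Agent.S0541
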