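import Cfsg.Statements.S0551
import Cfsg.Agent.S0549
import Cfsg.Agent.S0065
import Cfsg.Agent.Lib.Helper12Hall

set_option autoImplicit false
open Pointwise
open Cfsg

namespace Cfsg.Agent.S0551

open Cfsg.Agent.Lib.Helper12Basic Cfsg.Agent.Lib.Helper12Card Cfsg.Agent.Lib.Helper12Hall

variable {G : Type*} [Group G] [Finite G]

/-- data about one core-free maximal subgroup relative to an abelian normal subgroup -/
theorem facts (U : Subgroup G) (hU : IsCoatom U) (hUc : U.normalCore = ⊥)
    (N : Subgroup G) [N.Normal] (hN : N ≠ ⊥) (hNc : IsMulCommutative N) :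
    Subgroup.centralizer (N : Set G) = N ∧ U ⊓ N = ⊥ ∧ U ⊔ N = ⊤ ∧
    (∀ K : Subgroup G, K.Normal → K ≤ N → K = ⊥ ∨ K = N) := by
  obtain ⟨h1, h2⟩ := Cfsg.Agent.S0549.result U hU hUc N hN
  have hle : N ≤ Subgroup.centralizer (N : Set G) := by
    intro a ha
    rw [Subgroup.mem_centralizer_iff]
    intro b hb
    exact congrArg Subtype.val (mul_comm' (⟨b, hb⟩ : N) ⟨a, ha⟩)
  have hC : Subgroup.centralizer (N : Set G) = N := by
    rcases h2 with h2 | ⟨-, h2⟩
    · exfalso; rw [h2] at hle; exact hN (le_bot_iff.mp hle)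
    · rcases h2 N inferInstance hle with h3 | h3
      · exact absurd h3 hN
      · exact h3.symm
  refine ⟨hC, ?_, Cfsg.Agent.S0549.sup_eq_top U hU hUc N hN, ?_⟩
  · rw [inf_comm, ← hC]; rw [hC] at h1 ⊢; exact h1
  · rcases h2 with h2 | ⟨-, h2⟩
    · exfalso; rw [h2] at hle; exact hN (le_bot_iff.mp hle)
    · rw [hC] at h2; exact h2

theorem dedekind (U N M : Subgroup G) [N.Normal] (hUN : U ⊔ N = ⊤) (hNM : N ≤ M) :
    (M ⊓ U) ⊔ N = M := by
  apply le_antisymm (sup_le inf_le_left hNM)
  intro x hx
  have hx' : x ∈ U ⊔ N := by rw [hUN]; trivial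
  rw [← SetLike.mem_coe, Subgroup.mul_normal] at hx'
  obtain ⟨u, hu, n, hn, rfl⟩ := hx'
  have hu' : u ∈ M := by
    have := M.mul_mem hx (M.inv_mem (hNM hn))
    simpa using this
  exact Subgroup.mul_mem _ ((le_sup_left : M ⊓ U ≤ M ⊓ U ⊔ N) ⟨hu', hu⟩)
    ((le_sup_right : N ≤ M ⊓ U ⊔ N) hn)

theorem normalizer_eq (U : Subgroup G) (hU : IsCoatom U) (hUc : U.normalCore = ⊥)
    (M : Subgroup G) [M.Normal] (hne : M ⊓ U ≠ ⊥) :
    Subgroup.normalizer ((M ⊓ U : Subgroup G) : Set G) = U := by
  have hle : U ≤ Subgroup.normalizer ((M ⊓ U : Subgroup G) : Set G) := by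
    refine le_trans ?_ Subgroup.inf_normalizer_le_normalizer_inf
    refine le_inf ?_ Subgroup.le_normalizer
    rw [Subgroup.normalizer_eq_top]; exact le_top
  by_contra hneq
  have htop := hU.2 _ (lt_of_le_of_ne hle (Ne.symm hneq))
  have hn : (M ⊓ U).Normal := Subgroup.normalizer_eq_top_iff.mp htop
  have : M ⊓ U ≤ U.normalCore := Subgroup.normal_le_normalCore.mpr inf_le_right
  rw [hUc] at this
  exact hne (le_bot_iff.mp this)

/-- In a finite solvable group all core-free maximal subgroups are conjugate. -/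
theorem result {G : Type*} [Group G] [Finite G] [Group.IsSolvable G] (U V : Subgroup G) (hU : IsCoatom U) (hV : IsCoatom V) (hUc : U.normalCore = ⊥) (hVc : V.normalCore = ⊥) : ∃ g : G, MulAut.conj g • U = V := by
  have hnt : Nontrivial G := by
    by_contra h
    rw [not_nontrivial_iff_subsingleton] at h
    exact hU.1 (Subsingleton.elim _ _)
  obtain ⟨p, N, hp, hNn, hNbot, hNp, hNc⟩ := Cfsg.Agent.S0001.exists_normal_pgroup G
  obtain ⟨hC, hUN, hUN', hmin⟩ := facts U hU hUc N hNbot hNc
  obtain ⟨-, hVN, hVN', -⟩ := facts V hV hVc N hNbot hNc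
  have hcardU : Nat.card G = Nat.card U * Nat.card N := by
    have := card_sup_mul_card_inf_of_normal U N
    rw [hUN, hUN'] at this
    simpa using this
  have hcardV : Nat.card G = Nat.card V * Nat.card N := by
    have := card_sup_mul_card_inf_of_normal V N
    rw [hVN, hVN'] at this
    simpa using this
  have hUV : Nat.card U = Nat.card V :=
    Nat.eq_of_mul_eq_mul_right Nat.card_pos (hcardU.symm.trans hcardV)
  by_cases hNtop : N = ⊤
  · refine ⟨1, ?_⟩
    rw [hNtop, inf_top_eq] at hUN hVN
    rw [hUN, hVN]; simp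
  · have hQnt : Nontrivial (G ⧸ N) := QuotientGroup.nontrivial_iff.mpr hNtop
    obtain ⟨q, Mq, hq, hMqn, hMqbot, hMqp, -⟩ := Cfsg.Agent.S0001.exists_normal_pgroup (G ⧸ N)
    have hMn : (Mq.comap (QuotientGroup.mk' N)).Normal := hMqn.comap _
    have hNM : N ≤ Mq.comap (QuotientGroup.mk' N) := by
      conv_lhs => rw [← QuotientGroup.ker_mk' N]
      exact Subgroup.ker_le_comap _ _
    have hMcard := card_comap_mk' N Mq
    have : Fact p.Prime := ⟨hp⟩
    have : Fact q.Prime := ⟨hq⟩
    obtain ⟨b, hb⟩ := hMqp.exists_card_eq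
    obtain ⟨a, ha⟩ := hNp.exists_card_eq
    have hMq1 : 1 < Nat.card Mq := (Subgroup.one_lt_card_iff_ne_bot Mq).mpr hMqbot
    set M := Mq.comap (QuotientGroup.mk' N) with hM
    by_cases hqp : q = p
    · exfalso
      -- M is a p-group
      have hMp : IsPGroup p M := IsPGroup.of_card (n := a + b) (by rw [hMcard, ha, hb, hqp, pow_add])
      have hnil : Group.IsNilpotent M := hMp.isNilpotent
      have hne : N.subgroupOf M ≠ ⊥ := by
        intro h
        apply hNbot
        rw [Subgroup.subgroupOf_eq_bot, disjoint_iff, inf_of_le_left hNM] at h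
        exact h
      have hcen := Cfsg.Agent.S0065.result (N.subgroupOf M) hne
      have hZne : N ⊓ Subgroup.centralizer (M : Set G) ≠ ⊥ := by
        intro h
        apply hcen
        rw [eq_bot_iff]
        intro x hx
        have h1 : (x : G) ∈ N ⊓ Subgroup.centralizer (M : Set G) := by
          refine ⟨hx.1, ?_⟩
          change (x : G) ∈ Subgroup.centralizer (M : Set G)
          rw [Subgroup.mem_centralizer_iff]
          intro y hy
          have := Subgroup.mem_center_iff.mp hx.2 ⟨y, hy⟩
          exact congrArg Subtype.val this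
        rw [h, Subgroup.mem_bot] at h1
        rw [Subgroup.mem_bot]
        exact Subtype.ext h1
      have h2 : N ⊓ Subgroup.centralizer (M : Set G) = N :=
        (hmin _ inferInstance inf_le_left).resolve_left hZne
      have h3 : N ≤ Subgroup.centralizer (M : Set G) := by rw [← h2]; exact inf_le_right
      have h4 : M ≤ Subgroup.centralizer (N : Set G) := Subgroup.le_centralizer_iff.mp h3
      rw [hC] at h4
      have h5 : M = N := le_antisymm h4 hNM
      rw [h5] at hMcard
      have : 0 < Nat.card N := Nat.card_pos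
      nlinarith
    · have hcardX : ∀ W : Subgroup G, W ⊓ N = ⊥ → W ⊔ N = ⊤ →
          Nat.card (M ⊓ W : Subgroup G) = q ^ b := by
        intro W h1 h2
        have h3 := card_sup_mul_card_inf_of_normal (M ⊓ W) N
        rw [dedekind W N M h2 hNM] at h3
        have h4 : M ⊓ W ⊓ N = ⊥ := by
          apply le_bot_iff.mp
          rw [← h1]
          exact le_inf (inf_le_left.trans inf_le_right) inf_le_right
        rw [h4, hMcard, hb] at h3
        simp only [Subgroup.card_bot, mul_one] at h3
        rw [mul_comm] at h3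
        exact (Nat.eq_of_mul_eq_mul_right Nat.card_pos h3).symm
      have hcop : (q ^ b).Coprime (Nat.card N) := by
        rw [ha]
        exact Nat.Coprime.pow _ _ ((Nat.coprime_primes hq hp).mpr hqp)
      obtain ⟨g, hg⟩ := sz_conj N (M ⊓ U) (M ⊓ V)
        (by rw [dedekind U N M hUN' hNM, dedekind V N M hVN' hNM])
        (by rw [hcardX U hUN hUN']; exact hcop) (by rw [hcardX V hVN hVN']; exact hcop)
      have hneV : M ⊓ V ≠ ⊥ := by
        intro h
        have := hcardX V hVN hVN'
        rw [h, Subgroup.card_bot, ← hb] at this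
        omega
      have hnV := normalizer_eq V hV hVc M hneV
      have hneU : M ⊓ U ≠ ⊥ := by
        intro h
        have := hcardX U hUN hUN'
        rw [h, Subgroup.card_bot, ← hb] at this
        omega
      have hnU := normalizer_eq U hU hUc M hneU
      refine ⟨g, ?_⟩
      apply Subgroup.eq_of_le_of_card_ge
      · intro y hy
        rw [← hnV, mem_normalizer_iff_smul, ← hg, conj_smul_conj_smul]
        rw [mem_conj_smul] at hy
        rw [← hnU, mem_normalizer_iff_smul] at hy
        have e : y * g = g * (g⁻¹ * y * g) := by group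
        rw [e, ← conj_smul_conj_smul, hy]
      · rw [card_conj_smul, hUV]

end Cfsg.Agent.S0551
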