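import Cfsg.Statements.S0553
import Cfsg.Agent.Lib.Helper12Hall

set_option autoImplicit false
open Cfsg

namespace Cfsg.Agent.S0553

open Cfsg.Agent.Lib.Helper12Card Cfsg.Agent.Lib.Helper12Hall

universe u

theorem isCoatom_comap {G : Type*} [Group G] (N : Subgroup G) [N.Normal] (M : Subgroup (G ⧸ N))
    (hM : IsCoatom M) : IsCoatom (M.comap (QuotientGroup.mk' N)) := by
  have hπ := QuotientGroup.mk'_surjective N
  constructor
  · intro h
    apply hM.1
    rw [← Subgroup.map_comap_eq_self_of_surjective hπ M, h, ← MonoidHom.range_eq_map,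
      MonoidHom.range_eq_top.mpr hπ]
  · intro K hK
    have hNK : N ≤ K := by
      refine le_trans ?_ hK.le
      conv_lhs => rw [← QuotientGroup.ker_mk' N]
      exact Subgroup.ker_le_comap _ _
    have h1 : M ≤ K.map (QuotientGroup.mk' N) := by
      rw [← Subgroup.map_comap_eq_self_of_surjective hπ M]
      exact Subgroup.map_mono hK.le
    have hcm : (K.map (QuotientGroup.mk' N)).comap (QuotientGroup.mk' N) = K := by
      rw [Subgroup.comap_map_eq, QuotientGroup.ker_mk', sup_of_le_left hNK]
    have h2 : M ≠ K.map (QuotientGroup.mk' N) := by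
      intro h
      rw [h, hcm] at hK
      exact lt_irrefl _ hK
    have h3 := hM.2 _ (lt_of_le_of_ne h1 h2)
    rw [← hcm, h3, Subgroup.comap_top]

theorem aux (k : ℕ) : ∀ (G : Type u) [Group G] [Finite G] [Group.IsSolvable G] [Nontrivial G],
    Nat.card G = k → (∀ M : Subgroup G, IsCoatom M → (Nat.card M).Coprime M.index) →
    ∃ p : ℕ, p.Prime ∧ p ∣ Nat.card G ∧ ∀ P : Sylow p G, (P : Subgroup G).Normal := by
  induction k using Nat.strong_induction_on with
  | _ k ih =>
  intro G _ _ _ _ hG h
  obtain ⟨p, N, hp, hNn, hNbot, hNp, -⟩ := Cfsg.Agent.S0001.exists_normal_pgroup G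
  have : Fact p.Prime := ⟨hp⟩
  obtain ⟨a, ha⟩ := hNp.exists_card_eq
  by_cases hcase : ∃ M : Subgroup G, IsCoatom M ∧ ¬ N ≤ M
  · obtain ⟨M, hM, hNM⟩ := hcase
    have hsup : M ⊔ N = ⊤ := by
      apply hM.2
      refine lt_of_le_of_ne le_sup_left ?_
      intro h'
      apply hNM
      rw [h']; exact le_sup_right
    have hidx : M.relIndex N = M.index := by
      rw [relIndex_eq_relIndex_sup M N, hsup, Subgroup.relIndex_top_right]
    have hdvd : M.index ∣ p ^ a := by
      rw [← hidx, ← ha]; exact Subgroup.relIndex_dvd_card M N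
    obtain ⟨j, -, hj⟩ := (Nat.dvd_prime_pow hp).mp hdvd
    have hj0 : j ≠ 0 := by
      rintro rfl
      rw [pow_zero] at hj
      exact hM.1 (Subgroup.index_eq_one.mp hj)
    have hcop := h M hM
    have hpM : ¬ p ∣ Nat.card M := by
      intro hd
      have h1 : p ∣ M.index := by rw [hj]; exact dvd_pow_self p hj0
      have := Nat.dvd_gcd hd h1
      rw [hcop.gcd_eq_one] at this
      exact hp.one_lt.ne' (Nat.dvd_one.mp this)
    refine ⟨p, hp, ?_, ?_⟩
    · have h1 : p ∣ M.index := by rw [hj]; exact dvd_pow_self p hj0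
      exact h1.trans (Subgroup.index_dvd_card M)
    · intro P
      have hle : N ≤ (P : Subgroup G) := hNp.le_sylow_of_normal P
      have hPc : Nat.card (P : Subgroup G) ∣ Nat.card N := by
        obtain ⟨c, hc⟩ := P.2.exists_card_eq
        have h1 : p ^ c ∣ Nat.card M * M.index := by
          rw [M.card_mul_index]
          have h2 : Nat.card (P : Subgroup G) = p ^ c := hc
          rw [← h2]
          exact Subgroup.card_subgroup_dvd_card _
        have h2 : p ^ c ∣ M.index := hp.prime.pow_dvd_of_dvd_mul_left c hpM h1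
        have h3 : Nat.card (P : Subgroup G) = p ^ c := hc
        rw [h3]
        rw [← hidx] at h2
        exact h2.trans (Subgroup.relIndex_dvd_card M N)
      have heq : N = (P : Subgroup G) :=
        Subgroup.eq_of_le_of_card_ge hle (Nat.le_of_dvd Nat.card_pos hPc)
      rw [← heq]; exact hNn
  · push Not at hcase
    have hNtop : N ≠ ⊤ := by
      intro hN
      obtain ⟨M, hM⟩ : ∃ M : Subgroup G, IsCoatom M := by
        rcases eq_top_or_exists_le_coatom (⊥ : Subgroup G) with h1 | ⟨M, hM, -⟩
        · exact absurd h1 bot_ne_top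
        · exact ⟨M, hM⟩
      have := hcase M hM
      rw [hN] at this
      exact hM.1 (top_le_iff.mp this)
    have hQnt : Nontrivial (G ⧸ N) := QuotientGroup.nontrivial_iff.mpr hNtop
    have hπ := QuotientGroup.mk'_surjective N
    have hlt : Nat.card (G ⧸ N) < k := by
      rw [← hG, ← card_quotient N]
      have h1 : 0 < Nat.card (G ⧸ N) := Nat.card_pos
      have h2 : 1 < Nat.card N := (Subgroup.one_lt_card_iff_ne_bot N).mpr hNbot
      nlinarith
    obtain ⟨q, hq, hqd, hqn⟩ := ih _ hlt (G ⧸ N) rfl (by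
      intro M hM
      have h1 := h _ (isCoatom_comap N M hM)
      rw [Subgroup.index_comap_of_surjective _ hπ, card_comap_mk'] at h1
      exact Nat.Coprime.coprime_dvd_left (dvd_mul_left _ _) h1)
    have : Fact q.Prime := ⟨hq⟩
    refine ⟨q, hq, hqd.trans (Subgroup.card_quotient_dvd_card N), ?_⟩
    intro Q
    have hLn : ((Q : Subgroup G) ⊔ N).Normal := by
      have h1 := hqn (Q.mapSurjective hπ)
      rw [Sylow.coe_mapSurjective] at h1
      have h2 := h1.comap (QuotientGroup.mk' N)
      rwa [Subgroup.comap_map_eq, QuotientGroup.ker_mk'] at h2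
    have h3 : Subgroup.normalizer ((Q : Subgroup G) : Set G) ⊔ ((Q : Subgroup G) ⊔ N) = ⊤ :=
      Sylow.normalizer_sup_eq_top' Q (le_sup_left : (Q : Subgroup G) ≤ (Q : Subgroup G) ⊔ N)
    rw [← sup_assoc, sup_of_le_left (Subgroup.le_normalizer : (Q : Subgroup G) ≤ _)] at h3
    rw [← Subgroup.normalizer_eq_top_iff]
    rcases eq_top_or_exists_le_coatom (Subgroup.normalizer ((Q : Subgroup G) : Set G)) with h4 | ⟨M, hM, h4⟩
    · exact h4
    · exfalso
      apply hM.1
      rw [eq_top_iff, ← h3]
      exact sup_le h4 (hcase M hM)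

/-- Let G be a nontrivial finite solvable group in which every maximal subgroup has order coprime to its index. Then for some prime p dividing the order of G the Sylow p-subgroups of G are normal. -/
theorem result {G : Type*} [Group G] [Finite G] [Group.IsSolvable G] [Nontrivial G] (h : ∀ M : Subgroup G, IsCoatom M → (Nat.card M).Coprime M.index) : ∃ p : ℕ, p.Prime ∧ p ∣ Nat.card G ∧ ∀ P : Sylow p G, (P : Subgroup G).Normal := by
  exact aux _ G rfl h

end Cfsg.Agent.S0553
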