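import Cfsg.Statements.S0554
-- import your own Cfsg.Agent.* helpers here
import Mathlib
import Cfsg.Agent.Lib.Helper65RelHall

set_option autoImplicit false
open Cfsg

namespace Cfsg.Agent.S0554

universe u

theorem mem_smul {G : Type*} [Group G] {p : ℕ} (g x : G) (P : Sylow p G) :
    x ∈ ((g • P : Sylow p G) : Subgroup G) ↔ g⁻¹ * x * g ∈ (P : Subgroup G) := by
  rw [Sylow.coe_subgroup_smul, Subgroup.mem_pointwise_smul_iff_inv_smul_mem, MulAut.smul_def,
    MulAut.conj_inv_apply]

theorem normal_le_sylow {G : Type*} [Group G] [Finite G] {p : ℕ} [Fact p.Prime] (N : Subgroup G)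
    [hN : N.Normal] (hp : IsPGroup p N) (S : Sylow p G) : N ≤ (S : Subgroup G) := by
  obtain ⟨Q, hQ⟩ := hp.exists_le_sylow
  obtain ⟨g, rfl⟩ := MulAction.exists_smul_eq G Q S
  intro x hx
  rw [mem_smul]
  apply hQ
  have := hN.conj_mem x hx g⁻¹
  simpa using this

theorem move {G : Type*} [Group G] (N : Subgroup G) [hN : N.Normal] :
    ∀ (t : ℕ) (s : Fin t → G) (j : Fin t) (n : G), n ∈ N →
    ∃ n' ∈ N, (List.ofFn s).prod * n = (List.ofFn (Function.update s j (s j * n'))).prod := by
  intro t
  induction t with
  | zero => intro s j; exact j.elim0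
  | succ t ih =>
    intro s j n hn
    refine Fin.cases ?_ ?_ j
    · refine ⟨(List.ofFn (fun i : Fin t => s i.succ)).prod * n * (List.ofFn (fun i : Fin t => s i.succ)).prod⁻¹,
        hN.conj_mem n hn _, ?_⟩
      rw [List.ofFn_succ, List.ofFn_succ, List.prod_cons, List.prod_cons, Function.update_self]
      have : (fun i : Fin t => Function.update s 0 (s 0 * ((List.ofFn (fun i : Fin t => s i.succ)).prod * n * (List.ofFn (fun i : Fin t => s i.succ)).prod⁻¹)) i.succ) = fun i : Fin t => s i.succ := by
        funext i
        rw [Function.update_of_ne (Fin.succ_ne_zero i)]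
      rw [this]
      group
    · intro j'
      obtain ⟨n', hn', h⟩ := ih (fun i => s i.succ) j' n hn
      refine ⟨n', hn', ?_⟩
      rw [List.ofFn_succ, List.ofFn_succ, List.prod_cons, List.prod_cons, mul_assoc, h,
        Function.update_of_ne (Fin.succ_ne_zero j').symm]
      congr 3
      funext i
      by_cases hi : i = j'
      · subst hi
        rw [Function.update_self, Function.update_self]
      · rw [Function.update_of_ne hi, Function.update_of_ne (fun h => hi (Fin.succ_injective _ h))]

theorem main : ∀ (n : ℕ) (G : Type u) [Group G] [Finite G] [Group.IsSolvable G], Nat.card G = n →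
    ∀ (t : ℕ) (p : Fin t → ℕ) (_ : ∀ i, (p i).Prime)
    (_ : ∀ q : ℕ, q.Prime → q ∣ Nat.card G → ∃ i, p i = q) (S : (i : Fin t) → Sylow (p i) G),
    ∀ g : G, ∃ s : (i : Fin t) → G, (∀ i, s i ∈ (S i : Subgroup G)) ∧ g = (List.ofFn s).prod := by
  intro n
  induction n using Nat.strong_induction_on with
  | _ n ih =>
    intro G _ _ _ hcard t p hp hall S g
    by_cases htriv : (⊤ : Subgroup G) = ⊥
    · refine ⟨fun _ => 1, fun i => Subgroup.one_mem _, ?_⟩
      have hg : g ∈ (⊥ : Subgroup G) := htriv ▸ Subgroup.mem_top g
      rw [Subgroup.mem_bot] at hg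
      rw [hg, List.ofFn_const, List.prod_replicate, one_pow]
    · obtain ⟨q, N, hq, hNn, -, hN0, hNp⟩ :=
        Cfsg.Agent.Lib.Helper65RelHall.exists_normal_pgroup_le (⊤ : Subgroup G) inferInstance htriv
      haveI := hNn
      haveI : Fact q.Prime := ⟨hq⟩
      obtain ⟨k, hk⟩ := IsPGroup.iff_card.1 hNp
      have hN1 : 1 < Nat.card N := by
        rw [Subgroup.one_lt_card_iff_ne_bot]; exact hN0
      have hk0 : k ≠ 0 := by
        rintro rfl
        rw [hk] at hN1
        simp at hN1
      have hqd : q ∣ Nat.card G := by
        refine dvd_trans ?_ (Subgroup.card_subgroup_dvd_card N)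
        rw [hk]
        exact dvd_pow_self q hk0
      obtain ⟨j, rfl⟩ := hall q hq hqd
      haveI : Fact (p j).Prime := ⟨hp j⟩
      have hNS : N ≤ (S j : Subgroup G) := normal_le_sylow N hNp (S j)
      have hsurj : Function.Surjective (QuotientGroup.mk' N) := QuotientGroup.mk'_surjective N
      have hlt : Nat.card (G ⧸ N) < n := by
        have h1 := N.card_mul_index
        rw [hcard] at h1
        have h2 : Nat.card (G ⧸ N) = N.index := rfl
        rw [h2]
        have h3 : 0 < N.index := Nat.pos_of_ne_zero Subgroup.index_ne_zero_of_finite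
        nlinarith
      obtain ⟨sb, hsb, hg⟩ := ih _ hlt (G ⧸ N) rfl t p hp
        (fun q' hq' hd => hall q' hq' (dvd_trans hd (by
          have h2 : Nat.card (G ⧸ N) = N.index := rfl
          rw [h2]; exact N.index_dvd_card)))
        (fun i => haveI : Fact (p i).Prime := ⟨hp i⟩; (S i).mapSurjective hsurj) (QuotientGroup.mk' N g)
      have hlift : ∀ i, ∃ x ∈ (S i : Subgroup G), QuotientGroup.mk' N x = sb i := by
        intro i
        haveI : Fact (p i).Prime := ⟨hp i⟩
        have := hsb i
        rw [Sylow.coe_mapSurjective] at this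
        exact this
      choose s hs hs' using hlift
      have hprod : QuotientGroup.mk' N (List.ofFn s).prod = QuotientGroup.mk' N g := by
        rw [hg, map_list_prod, List.map_ofFn]
        congr 2
        funext i
        exact hs' i
      have hn : ((List.ofFn s).prod)⁻¹ * g ∈ N := by
        rw [← QuotientGroup.eq]
        exact hprod
      obtain ⟨n', hn', h⟩ := move N t s j _ hn
      refine ⟨Function.update s j (s j * n'), ?_, ?_⟩
      · intro i
        by_cases hi : i = j
        · subst hi
          rw [Function.update_self]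
          exact Subgroup.mul_mem _ (hs i) (hNS hn')
        · rw [Function.update_of_ne hi]
          exact hs i
      · rw [← h]
        group


/-- Let G be a finite solvable group and let S assign to each of t distinct primes, including every prime divisor of the order of G, a Sylow subgroup of G. Then every element of G is a product s_0 s_1 ⋯ s_(t-1) with s_i in S i, the factors taken in the given order. -/
theorem result {G : Type*} [Group G] [Finite G] [Group.IsSolvable G] (t : ℕ) (p : Fin t → ℕ) (hp : ∀ i, (p i).Prime) (hinj : Function.Injective p) (hall : ∀ q : ℕ, q.Prime → q ∣ Nat.card G → ∃ i, p i = q) (S : (i : Fin t) → Sylow (p i) G) : ∀ g : G, ∃ s : (i : Fin t) → G, (∀ i, s i ∈ (S i : Subgroup G)) ∧ g = (List.ofFn s).prod := by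
  exact main _ G rfl t p hp hall S

end Cfsg.Agent.S0554
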