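import Cfsg.Statements.S0555
-- import your own Cfsg.Agent.* helpers here
import Mathlib

set_option autoImplicit false
open Cfsg

namespace Cfsg.Agent.S0555

open scoped commutatorElement


/-- Let i ≥ 1. If in the derived series of a group the quotient of the i-th term by the (i+1)-st and the quotient of the (i+1)-st by the (i+2)-nd are both cyclic, then the (i+1)-st and (i+2)-nd terms coincide. -/
theorem result {G : Type*} [Group G] (i : ℕ) (hi : 1 ≤ i) (h₁ : IsCyclic (↥(derivedSeries G i) ⧸ (derivedSeries G (i + 1)).subgroupOf (derivedSeries G i))) (h₂ : IsCyclic (↥(derivedSeries G (i + 1)) ⧸ (derivedSeries G (i + 2)).subgroupOf (derivedSeries G (i + 1)))) : derivedSeries G (i + 1) = derivedSeries G (i + 2) := by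
  set D := derivedSeries G i with hD
  set E := derivedSeries G (i+1) with hE
  set F := derivedSeries G (i+2) with hF
  have hED : E = ⁅D, D⁆ := rfl
  haveI hFn : F.Normal := derivedSeries_normal G (i+2)
  haveI hEn : E.Normal := derivedSeries_normal G (i+1)
  have hFE : F ≤ E := derivedSeries_antitone G (by omega)
  have hDle : D ≤ commutator G := by
    rw [← derivedSeries_one]
    exact derivedSeries_antitone G hi
  obtain ⟨q₁, hq₁⟩ := h₁.exists_generator
  obtain ⟨d, rfl⟩ := QuotientGroup.mk_surjective q₁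
  obtain ⟨q₂, hq₂⟩ := h₂.exists_generator
  obtain ⟨e, rfl⟩ := QuotientGroup.mk_surjective q₂
  have hd : ∀ x ∈ D, ∃ k : ℤ, ((d:G)^k)⁻¹ * x ∈ E := by
    intro x hx
    obtain ⟨k, hk⟩ := Subgroup.mem_zpowers_iff.1 (hq₁ (QuotientGroup.mk ⟨x,hx⟩))
    refine ⟨k, ?_⟩
    have h1 : (((d^k : D)) : D ⧸ E.subgroupOf D) = QuotientGroup.mk ⟨x,hx⟩ := by
      rw [← hk]; rfl
    rw [QuotientGroup.eq] at h1
    simpa [Subgroup.mem_subgroupOf] using h1
  have he : ∀ x ∈ E, ∃ k : ℤ, ((e:G)^k)⁻¹ * x ∈ F := by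
    intro x hx
    obtain ⟨k, hk⟩ := Subgroup.mem_zpowers_iff.1 (hq₂ (QuotientGroup.mk ⟨x,hx⟩))
    refine ⟨k, ?_⟩
    have h1 : (((e^k : E)) : E ⧸ F.subgroupOf E) = QuotientGroup.mk ⟨x,hx⟩ := by
      rw [← hk]; rfl
    rw [QuotientGroup.eq] at h1
    simpa [Subgroup.mem_subgroupOf] using h1
  set π := QuotientGroup.mk' F with hπ
  have hπs : Function.Surjective π := QuotientGroup.mk'_surjective F
  set eb := π (e : G) with heb
  set db := π (d : G) with hdb
  have hA : ∀ y ∈ E, ∃ m : ℤ, π y = eb ^ m := by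
    intro y hy
    obtain ⟨k, hk⟩ := he y hy
    refine ⟨k, ?_⟩
    have h1 : π (((e:G)^k)⁻¹ * y) = 1 := by
      rw [hπ, QuotientGroup.mk'_apply, QuotientGroup.eq_one_iff]; exact hk
    rw [map_mul, map_inv, map_zpow, inv_mul_eq_one] at h1
    exact h1.symm
  have hB : ∀ u : G ⧸ F, ∃ a : ℤ, u * eb * u⁻¹ = eb ^ a := by
    intro u
    obtain ⟨g, rfl⟩ := hπs u
    obtain ⟨a, ha⟩ := hA (g * e * g⁻¹) (hEn.conj_mem _ e.2 g)
    refine ⟨a, ?_⟩
    rw [← ha, map_mul, map_mul, map_inv]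
  have hC : ∀ u v : G ⧸ F, (u * v) * eb * (u * v)⁻¹ = (v * u) * eb * (v * u)⁻¹ := by
    intro u v
    obtain ⟨a, ha⟩ := hB u
    obtain ⟨b, hb⟩ := hB v
    have h1 : (u * v) * eb * (u * v)⁻¹ = eb ^ (a * b) := by
      calc (u * v) * eb * (u * v)⁻¹ = u * (v * eb * v⁻¹) * u⁻¹ := by group
        _ = u * eb ^ b * u⁻¹ := by rw [hb]
        _ = (u * eb * u⁻¹) ^ b := by rw [conj_zpow]
        _ = eb ^ (a * b) := by rw [ha, zpow_mul]
    have h2 : (v * u) * eb * (v * u)⁻¹ = eb ^ (a * b) := by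
      calc (v * u) * eb * (v * u)⁻¹ = v * (u * eb * u⁻¹) * v⁻¹ := by group
        _ = v * eb ^ a * v⁻¹ := by rw [ha]
        _ = (v * eb * v⁻¹) ^ a := by rw [conj_zpow]
        _ = eb ^ (a * b) := by rw [hb, mul_comm a b, zpow_mul]
    rw [h1, h2]
  have hcomm : commutator (G ⧸ F) ≤ Subgroup.centralizer {eb} := by
    rw [commutator_eq_closure, Subgroup.closure_le]
    rintro _ ⟨u, v, rfl⟩
    rw [SetLike.mem_coe, Subgroup.mem_centralizer_iff]
    intro w hw
    rw [Set.mem_singleton_iff] at hw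
    subst hw
    have h1 := hC u⁻¹ v⁻¹
    rw [commutatorElement_def]
    have h2 : eb = (v⁻¹ * u⁻¹)⁻¹ * ((u⁻¹ * v⁻¹) * eb * (u⁻¹ * v⁻¹)⁻¹) * (v⁻¹ * u⁻¹) := by
      rw [h1]; group
    calc eb * (u * v * u⁻¹ * v⁻¹)
        = ((v⁻¹ * u⁻¹)⁻¹ * ((u⁻¹ * v⁻¹) * eb * (u⁻¹ * v⁻¹)⁻¹) * (v⁻¹ * u⁻¹)) * (u * v * u⁻¹ * v⁻¹) := by
          rw [← h2]
      _ = u * v * u⁻¹ * v⁻¹ * eb := by group
  have hDc : ∀ x ∈ D, Commute (π x) eb := by
    intro x hx
    have h1 : π x ∈ commutator (G ⧸ F) := by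
      have h2 : π x ∈ (commutator G).map π := Subgroup.mem_map_of_mem _ (hDle hx)
      rw [commutator_def, Subgroup.map_commutator] at h2
      exact Subgroup.commutator_mono le_top le_top h2
    have h3 := hcomm h1
    rw [Subgroup.mem_centralizer_iff] at h3
    exact (h3 eb rfl).symm
  have hform : ∀ x ∈ D, ∃ k m : ℤ, π x = db ^ k * eb ^ m := by
    intro x hx
    obtain ⟨k, hk⟩ := hd x hx
    obtain ⟨m, hm⟩ := hA _ hk
    refine ⟨k, m, ?_⟩
    rw [← hm, map_mul, map_inv, map_zpow, ← hdb]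
    group
  have hde : Commute db eb := hDc d d.2
  apply le_antisymm _ hFE
  rw [hED, Subgroup.commutator_le]
  intro x hx y hy
  obtain ⟨k, m, h1⟩ := hform x hx
  obtain ⟨l, n, h2⟩ := hform y hy
  have h3 : Commute (π x) (π y) := by
    rw [h1, h2]
    apply Commute.mul_left
    · apply Commute.mul_right
      · exact (Commute.refl db).zpow_zpow k l
      · exact hde.zpow_zpow k n
    · apply Commute.mul_right
      · exact hde.symm.zpow_zpow m l
      · exact (Commute.refl eb).zpow_zpow m n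
  have h4 : π ⁅x, y⁆ = 1 := by
    rw [commutatorElement_def, map_mul, map_mul, map_mul, map_inv, map_inv, h3.eq]
    group
  rw [hπ, QuotientGroup.mk'_apply, QuotientGroup.eq_one_iff] at h4
  exact h4

end Cfsg.Agent.S0555
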