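import Cfsg.Statements.S0556
import Cfsg.Agent.S0034
import Cfsg.Agent.S0035
import Cfsg.Agent.S0023
import Cfsg.Agent.Lib.Helper12Hall

set_option autoImplicit false
set_option linter.style.haveILetI false
set_option linter.deprecated false
open Cfsg
open Pointwise

namespace Cfsg.Agent.S0556

theorem le_of_invariant {G : Type*} [Group G] (A N X : Subgroup G) (hA : IsCoatom A)
    (hAN : N ⊓ A = ⊥) (hXN : X ≤ N) (hX : X ≠ ⊥) (hAX : A ≤ Subgroup.normalizer (X : Set G)) :
    N ≤ X := by
  have h1 : A ⊔ X = ⊤ := by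
    apply hA.2
    apply lt_of_le_of_ne le_sup_left
    intro h
    have h2 : X ≤ A := by rw [h]; exact le_sup_right
    apply hX
    rw [eq_bot_iff, ← hAN]
    exact le_inf hXN h2
  haveI : X.Normal := by
    rw [← Subgroup.normalizer_eq_top_iff, eq_top_iff, ← h1]
    exact sup_le hAX Subgroup.le_normalizer
  intro n hn
  have h2 : n ∈ A ⊔ X := by rw [h1]; trivial
  rw [← SetLike.mem_coe, Subgroup.mul_normal] at h2
  obtain ⟨a, ha, x, hx, rfl⟩ := h2
  have h3 : a ∈ N ⊓ A := by
    refine ⟨?_, ha⟩
    have := N.mul_mem hn (N.inv_mem (hXN hx))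
    simpa using this
  rw [hAN, Subgroup.mem_bot] at h3
  subst h3
  simpa using hx

theorem frob_case {G : Type*} [Group G] [Finite G] (A : Subgroup G) (hA : IsCoatom A)
    [IsMulCommutative A] (hF : Cfsg.IsFrobeniusComplement A) : derivedSeries G 2 = ⊥ := by
  obtain ⟨N, hNk, hNn, hNc⟩ := Cfsg.Agent.S0035.result A hF
  have hAN : N ⊓ A = ⊥ := hNc.disjoint.eq_bot
  have hcard : Nat.card N * Nat.card A = Nat.card G := hNc.card_mul
  have hidx : Nat.card N = A.index := by
    have := A.card_mul_index
    have hpos : 0 < Nat.card A := Nat.card_pos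
    nlinarith
  have hcop : (Nat.card A).Coprime (Nat.card N) := by
    have h1 := (Cfsg.Agent.S0034.result A hF).2
    rw [← hidx] at h1
    have h2 : Nat.gcd (Nat.card N) (Nat.card A) = Nat.gcd 1 (Nat.card A) := Nat.ModEq.gcd_eq h1
    rw [Nat.gcd_one_left] at h2
    exact Nat.Coprime.symm h2
  have hNb : N ≠ ⊥ := by
    intro h
    rw [h, Subgroup.card_bot, one_mul] at hcard
    exact hF.2.1 (Subgroup.eq_top_of_card_eq A hcard)
  have hN1 : Nat.card N ≠ 1 := fun h => hNb (Subgroup.card_eq_one.mp h)
  haveI : Fact (Nat.card N).minFac.Prime := ⟨Nat.minFac_prime hN1⟩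
  have hAnN : A ≤ Subgroup.normalizer (N : Set G) := by
    rw [Subgroup.normalizer_eq_top]; exact le_top
  obtain ⟨Q, hQ⟩ := Cfsg.Agent.S0023.result A N hAnN hcop
    (Or.inl (Group.isSolvable_of_comm (fun a b => mul_comm' a b)))
    (Nat.card N).minFac
  have hQb : (Q : Subgroup N).map N.subtype ≠ ⊥ := by
    intro h
    have h1 : (Q : Subgroup N) = ⊥ := (Subgroup.map_eq_bot_iff_of_injective _ N.subtype_injective).mp h
    exact Sylow.ne_bot_of_dvd_card Q (Nat.minFac_dvd _) h1
  have hNQ := le_of_invariant A N _ hA hAN (Subgroup.map_subtype_le _) hQb hQ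
  have hNp : IsPGroup (Nat.card N).minFac N := by
    have h1 : (Q : Subgroup N) = ⊤ := by
      rw [eq_top_iff]
      intro x _
      obtain ⟨y, hy, hyx⟩ := hNQ x.2
      have : y = x := Subtype.ext hyx
      rwa [← this]
    have h2 := Q.2
    rw [h1] at h2
    exact h2.of_equiv Subgroup.topEquiv
  haveI : Nontrivial N := (Subgroup.nontrivial_iff_ne_bot N).mpr hNb
  have hZb : (Subgroup.center N).map N.subtype ≠ ⊥ := by
    intro h
    have h1 : Subgroup.center N = ⊥ :=
      (Subgroup.map_eq_bot_iff_of_injective _ N.subtype_injective).mp h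
    haveI := hNp.center_nontrivial
    exact (Subgroup.nontrivial_iff_ne_bot _).mp inferInstance h1
  haveI hZn : ((Subgroup.center N).map N.subtype).Normal :=
    ConjAct.normal_of_characteristic_of_normal
  have hNZ := le_of_invariant A N _ hA hAN (Subgroup.map_subtype_le _) hZb
    (by rw [Subgroup.normalizer_eq_top]; exact le_top)
  have hNcomm : ∀ x ∈ N, ∀ y ∈ N, x * y = y * x := by
    intro x hx y hy
    obtain ⟨z, hz, hzx⟩ := hNZ hx
    have := (Subgroup.mem_center_iff.mp hz) ⟨y, hy⟩
    have h2 := congrArg Subtype.val this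
    rw [← hzx]
    exact h2.symm
  have hD1 : derivedSeries G 1 ≤ N := by
    rw [derivedSeries_one, ← Subgroup.Normal.quotient_commutative_iff_commutator_le]
    have hrep : ∀ x : G ⧸ N, ∃ a ∈ A, QuotientGroup.mk' N a = x := by
      intro x
      obtain ⟨g, rfl⟩ := QuotientGroup.mk'_surjective N x
      have h2 : g ∈ N ⊔ A := by rw [hNc.sup_eq_top]; trivial
      rw [← SetLike.mem_coe, Subgroup.normal_mul] at h2
      obtain ⟨n, hn, a, ha, rfl⟩ := h2
      refine ⟨a, ha, ?_⟩
      have h0 : QuotientGroup.mk' N n = 1 := (QuotientGroup.eq_one_iff n).mpr hn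
      change _ = QuotientGroup.mk' N (n * a)
      rw [map_mul, h0, one_mul]
    refine ⟨⟨fun x y => ?_⟩⟩
    obtain ⟨a, ha, rfl⟩ := hrep x
    obtain ⟨b, hb, rfl⟩ := hrep y
    have hab : a * b = b * a := congrArg Subtype.val (mul_comm' (⟨a, ha⟩ : A) ⟨b, hb⟩)
    rw [← map_mul, ← map_mul, hab]
  rw [derivedSeries_succ, eq_bot_iff, Subgroup.commutator_le]
  intro x hx y hy
  rw [Subgroup.mem_bot, commutatorElement_eq_one_iff_mul_comm]
  exact hNcomm x (hD1 hx) y (hD1 hy)

/-- If a finite group has a maximal subgroup that is abelian, then the third term of its derived series is trivial (so the group is solvable of derived length at most three). -/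
theorem result {G : Type*} [Group G] [Finite G] (A : Subgroup G) (hA : IsCoatom A) [IsMulCommutative A] : derivedSeries G 3 = ⊥ := by
  have hAc : ∀ a ∈ A, ∀ b ∈ A, a * b = b * a := fun a ha b hb =>
    congrArg Subtype.val (mul_comm' (⟨a, ha⟩ : A) ⟨b, hb⟩)
  by_cases hn : A.Normal
  · obtain ⟨x, hx⟩ : ∃ x, x ∉ A := by
      by_contra h
      exact hA.1 (eq_top_iff.mpr fun g _ => by_contra fun hg => h ⟨g, hg⟩)
    have h1 : A ⊔ Subgroup.zpowers x = ⊤ := by
      apply hA.2
      apply lt_of_le_of_ne le_sup_left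
      intro h
      apply hx
      rw [h]
      exact Subgroup.mem_sup_right (Subgroup.mem_zpowers x)
    have hD1 : derivedSeries G 1 ≤ A := by
      rw [derivedSeries_one, ← Subgroup.Normal.quotient_commutative_iff_commutator_le]
      have hrep : ∀ y : G ⧸ A, ∃ k : ℤ, (QuotientGroup.mk' A x) ^ k = y := by
        intro y
        obtain ⟨g, rfl⟩ := QuotientGroup.mk'_surjective A y
        have h2 : g ∈ A ⊔ Subgroup.zpowers x := by rw [h1]; trivial
        rw [← SetLike.mem_coe, Subgroup.normal_mul] at h2
        obtain ⟨a, ha, z, ⟨k, rfl⟩, rfl⟩ := h2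
        refine ⟨k, ?_⟩
        have h0 : QuotientGroup.mk' A a = 1 := (QuotientGroup.eq_one_iff a).mpr ha
        change _ = QuotientGroup.mk' A (a * x ^ k)
        rw [map_mul, h0, one_mul, map_zpow]
      refine ⟨⟨fun y z => ?_⟩⟩
      obtain ⟨k, rfl⟩ := hrep y
      obtain ⟨l, rfl⟩ := hrep z
      rw [← zpow_add, ← zpow_add, add_comm]
    have hD2 : derivedSeries G 2 = ⊥ := by
      rw [derivedSeries_succ, eq_bot_iff, Subgroup.commutator_le]
      intro x hx y hy
      rw [Subgroup.mem_bot, commutatorElement_eq_one_iff_mul_comm]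
      exact hAc x (hD1 hx) y (hD1 hy)
    rw [derivedSeries_succ, hD2, Subgroup.commutator_bot_left]
  · have hnorm : Subgroup.normalizer (A : Set G) = A := by
      by_contra h
      have h1 : A < Subgroup.normalizer (A : Set G) :=
        lt_of_le_of_ne Subgroup.le_normalizer (fun e => h e.symm)
      exact hn (Subgroup.normalizer_eq_top_iff.mp (hA.2 _ h1))
    have hZA : Subgroup.center G ≤ A := by
      rw [← hnorm]
      intro z hz
      rw [Subgroup.mem_normalizer_iff]
      intro h
      rw [← (Subgroup.mem_center_iff.mp hz) h, mul_inv_cancel_right]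
    have hTI : ∀ g : G, g ∉ A → A ⊓ MulAut.conj g • A ≤ Subgroup.center G := by
      intro g hg y hy
      have h1 : A ⊔ MulAut.conj g • A = ⊤ := by
        apply hA.2
        apply lt_of_le_of_ne le_sup_left
        intro h
        have h2 : MulAut.conj g • A ≤ A := le_sup_right.trans h.ge
        apply hg
        have h3 : g ∈ Subgroup.normalizer (A : Set G) :=
          Cfsg.Agent.Lib.Helper12Basic.mem_normalizer_iff_smul.mpr
            (Cfsg.Agent.Lib.Helper12Basic.smul_eq_of_ge h2)
        rwa [hnorm] at h3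
      have h2 : A ⊔ MulAut.conj g • A ≤ Subgroup.centralizer {y} := by
        apply sup_le
        · intro a ha
          rw [Subgroup.mem_centralizer_singleton_iff]
          exact hAc a ha y hy.1
        · intro a ha
          rw [Subgroup.mem_centralizer_singleton_iff]
          have e1 := Cfsg.Agent.Lib.Helper12Basic.mem_conj_smul.mp ha
          have e2 := Cfsg.Agent.Lib.Helper12Basic.mem_conj_smul.mp hy.2
          have e3 := hAc _ e1 _ e2
          have e4 : g * ((g⁻¹ * a * g) * (g⁻¹ * y * g)) * g⁻¹ = a * y := by group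
          have e5 : g * ((g⁻¹ * y * g) * (g⁻¹ * a * g)) * g⁻¹ = y * a := by group
          rw [← e4, ← e5, e3]
      rw [h1] at h2
      rw [Subgroup.mem_center_iff]
      intro h
      exact Subgroup.mem_centralizer_singleton_iff.mp (h2 (Subgroup.mem_top h))
    set Z := Subgroup.center G with hZ
    have hcomap : (A.map (QuotientGroup.mk' Z)).comap (QuotientGroup.mk' Z) = A := by
      rw [Subgroup.comap_map_eq, QuotientGroup.ker_mk', sup_of_le_left hZA]
    have hAtop : A.map (QuotientGroup.mk' Z) ≠ ⊤ := by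
      intro h
      rw [h, Subgroup.comap_top] at hcomap
      exact hA.1 hcomap.symm
    have hco : IsCoatom (A.map (QuotientGroup.mk' Z)) := by
      refine ⟨hAtop, ?_⟩
      intro B hB
      have h1 : A ≤ B.comap (QuotientGroup.mk' Z) := by
        rw [← hcomap]; exact Subgroup.comap_mono hB.le
      rcases eq_or_lt_of_le h1 with h2 | h2
      · exfalso
        apply hB.ne
        rw [← Subgroup.map_comap_eq_self_of_surjective (QuotientGroup.mk'_surjective Z) B, ← h2]
      · have h3 := hA.2 _ h2
        rw [← Subgroup.map_comap_eq_self_of_surjective (QuotientGroup.mk'_surjective Z) B, h3]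
        exact Subgroup.map_top_of_surjective _ (QuotientGroup.mk'_surjective Z)
    have hF : Cfsg.IsFrobeniusComplement (A.map (QuotientGroup.mk' Z)) := by
      refine ⟨?_, hAtop, ?_⟩
      · intro h
        rw [h, MonoidHom.comap_bot, QuotientGroup.ker_mk'] at hcomap
        apply hn
        rw [← hcomap]
        infer_instance
      · intro gq hgq
        obtain ⟨g, rfl⟩ := QuotientGroup.mk'_surjective Z gq
        have hg : g ∉ A := fun h => hgq ⟨g, h, rfl⟩
        rw [← Cfsg.Agent.Lib.Helper12Hall.map_conj_smul, eq_bot_iff]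
        rintro _ ⟨⟨a, ha, rfl⟩, ⟨b, hb, hab⟩⟩
        have h1 : b⁻¹ * a ∈ Z := QuotientGroup.eq.mp hab
        have h2 : b ∈ A := by
          have e : b = a * (b⁻¹ * a)⁻¹ := by group
          rw [e]
          exact A.mul_mem ha (A.inv_mem (hZA h1))
        have h3 : b ∈ Z := hTI g hg ⟨h2, hb⟩
        have h4 : a ∈ Z := by
          have e : a = b * (b⁻¹ * a) := by group
          rw [e]
          exact Z.mul_mem h3 h1
        rw [Subgroup.mem_bot]
        exact (QuotientGroup.eq_one_iff a).mpr h4
    have hD2 := frob_case (A.map (QuotientGroup.mk' Z)) hco hF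
    rw [← map_derivedSeries_eq (QuotientGroup.mk'_surjective Z) 2, Subgroup.map_eq_bot_iff,
      QuotientGroup.ker_mk'] at hD2
    rw [derivedSeries_succ, eq_bot_iff, Subgroup.commutator_le]
    intro x hx y hy
    rw [Subgroup.mem_bot, commutatorElement_eq_one_iff_mul_comm]
    exact ((Subgroup.mem_center_iff.mp (hD2 hx)) y).symm

end Cfsg.Agent.S0556
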