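import Cfsg.Statements.S0557
import Cfsg.Agent.S0080
import Cfsg.Agent.Lib.Helper12Hall

set_option autoImplicit false
open Cfsg
open Pointwise

namespace Cfsg.Agent.S0557

open Cfsg.Agent.Lib.Helper12Basic Cfsg.Agent.Lib.Helper12Card Cfsg.Agent.Lib.Helper12Hall
open scoped commutatorElement

universe u

theorem focal_mono {G : Type*} [Group G] {K L : Subgroup G} (h : K ≤ L) :
    Subgroup.focalSubgroup K ≤ Subgroup.focalSubgroup L := by
  apply Subgroup.closure_mono
  rintro g ⟨hg, x, hx, u, rfl⟩
  exact ⟨h hg, x, h hx, u, rfl⟩

theorem focal_map_le {G : Type*} [Group G] (M : Subgroup G) (K : Subgroup M) :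
    (Subgroup.focalSubgroup K).map M.subtype ≤ Subgroup.focalSubgroup (K.map M.subtype) := by
  rw [Subgroup.focalSubgroup_def, MonoidHom.map_closure, Subgroup.closure_le]
  rintro _ ⟨g, ⟨hg, x, hx, u, rfl⟩, rfl⟩
  apply Subgroup.subset_closure
  exact ⟨⟨_, hg, rfl⟩, x, ⟨x, hx, rfl⟩, u, by simp [commutatorElement_def]⟩

theorem focal_iter_map_le {G : Type*} [Group G] (M : Subgroup G) (n : ℕ) (K : Subgroup M) :
    ((fun K : Subgroup M => Subgroup.focalSubgroup K)^[n] K).map M.subtype ≤
      (fun K : Subgroup G => Subgroup.focalSubgroup K)^[n] (K.map M.subtype) := by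
  induction n with
  | zero => exact le_rfl
  | succ n ih =>
    rw [Function.iterate_succ_apply', Function.iterate_succ_apply']
    exact (focal_map_le M _).trans (focal_mono ih)

/-- a subgroup of `M` of order coprime to the index of a normal subgroup `N` of `M` lies in `N` -/
theorem le_of_coprime {G : Type*} [Group G] [Finite G] (M N X : Subgroup G) (hNM : N ≤ M)
    (hn : (N.subgroupOf M).Normal) (hXM : X ≤ M) (hc : (Nat.card X).Coprime (N.relIndex M)) :
    X ≤ N := by
  rw [← Subgroup.relIndex_eq_one]
  have h1 : N.relIndex X ∣ Nat.card X := Subgroup.relIndex_dvd_card N X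
  have h2 : N.relIndex X ∣ N.relIndex M := by
    have := Subgroup.relIndex_dvd_index_of_normal (N.subgroupOf M) (X.subgroupOf M)
    rwa [Subgroup.relIndex_subgroupOf hXM] at this
  have := Nat.dvd_gcd h1 h2
  rw [hc.gcd_eq_one] at this
  exact Nat.dvd_one.mp this

theorem aux (n : ℕ) : ∀ (G : Type u) [Group G] [Finite G] (H : Subgroup G),
    (Nat.card H).Coprime H.index →
    (fun K : Subgroup G => Subgroup.focalSubgroup K)^[n] H = ⊥ →
    ∃ N : Subgroup G, N.Normal ∧ Subgroup.IsComplement' N H := by
  induction n with
  | zero =>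
    intro G _ _ H _ hfoc
    rw [Function.iterate_zero, id] at hfoc
    exact ⟨⊤, inferInstance, hfoc ▸ Subgroup.isComplement'_top_bot⟩
  | succ n ih =>
    intro G _ _ H hHall hfoc
    rw [Function.iterate_succ_apply] at hfoc
    obtain ⟨hf, M, hMn, hMH, hMsup⟩ := Cfsg.Agent.S0080.result H
      (Nat.Coprime.coprime_dvd_right (Subgroup.relIndex_dvd_card _ _) hHall.symm)
    rw [← hf] at hMH
    -- orders
    have hle : Subgroup.focalSubgroup H ≤ M := hMH ▸ inf_le_left
    have hcard : Nat.card M = Nat.card (Subgroup.focalSubgroup H) * H.index := by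
      have h1 := card_sup_mul_card_inf_of_normal H M
      rw [sup_comm, hMsup, inf_comm, hMH, Subgroup.card_top, ← H.card_mul_index] at h1
      have hpos : 0 < Nat.card H := Nat.card_pos
      apply Nat.eq_of_mul_eq_mul_left hpos
      rw [← h1]; ring
    have hfc : Nat.card ((Subgroup.focalSubgroup H).subgroupOf M) =
        Nat.card (Subgroup.focalSubgroup H) := card_subgroupOf hle
    have hidx : ((Subgroup.focalSubgroup H).subgroupOf M).index = H.index := by
      have h1 := ((Subgroup.focalSubgroup H).subgroupOf M).card_mul_index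
      rw [hfc, hcard] at h1
      exact Nat.eq_of_mul_eq_mul_left Nat.card_pos h1
    have hHall' : (Nat.card ((Subgroup.focalSubgroup H).subgroupOf M)).Coprime
        ((Subgroup.focalSubgroup H).subgroupOf M).index := by
      rw [hidx, hfc]
      exact Nat.Coprime.coprime_dvd_left (Subgroup.card_dvd_of_le H.focalSubgroup_le) hHall
    have hfoc' : (fun K : Subgroup M => Subgroup.focalSubgroup K)^[n]
        ((Subgroup.focalSubgroup H).subgroupOf M) = ⊥ := by
      have h1 := focal_iter_map_le M n ((Subgroup.focalSubgroup H).subgroupOf M)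
      rw [Subgroup.map_subgroupOf_eq_of_le hle, hfoc, le_bot_iff] at h1
      exact (Subgroup.map_eq_bot_iff_of_injective _ M.subtype_injective).mp h1
    obtain ⟨N', hN'n, hN'c⟩ := ih M _ hHall' hfoc'
    have hN'card : Nat.card N' = H.index := by
      rw [← hN'c.index_eq_card, hidx]
    have hNcard : Nat.card (N'.map M.subtype) = H.index := by
      rw [card_map_subtype, hN'card]
    have hNM : N'.map M.subtype ≤ M := Subgroup.map_subtype_le N'
    have hsub : (N'.map M.subtype).subgroupOf M = N' := by
      rw [Subgroup.subgroupOf, Subgroup.comap_map_eq_self_of_injective M.subtype_injective]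
    have hrel : (N'.map M.subtype).relIndex M = Nat.card (Subgroup.focalSubgroup H) := by
      rw [Subgroup.relIndex, hsub, hN'c.symm.index_eq_card, hfc]
    refine ⟨N'.map M.subtype, ?_, ?_⟩
    · apply Subgroup.Normal.of_conjugate_fixed
      intro g
      apply smul_eq_of_ge
      apply le_of_coprime M _ _ hNM (by rw [hsub]; exact hN'n)
      · calc MulAut.conj g • N'.map M.subtype ≤ MulAut.conj g • M :=
            Subgroup.pointwise_smul_le_pointwise_smul_iff.mpr hNM
          _ = M := Subgroup.Normal.conj_smul_eq_self g M
      · rw [card_conj_smul, hNcard, hrel]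
        exact (Nat.Coprime.coprime_dvd_left (Subgroup.card_dvd_of_le H.focalSubgroup_le) hHall).symm
    · apply Subgroup.isComplement'_of_coprime
      · rw [hNcard, mul_comm]; exact H.card_mul_index
      · rw [hNcard]; exact hHall.symm

/-- Let H be a subgroup of a finite group G with order coprime to its index. If iterating the focal-subgroup construction starting from H reaches the trivial subgroup after finitely many steps, then H has a normal complement in G. -/
theorem result {G : Type*} [Group G] [Finite G] (H : Subgroup G) (hHall : (Nat.card H).Coprime H.index) (n : ℕ) (hfoc : (fun K : Subgroup G => Subgroup.focalSubgroup K)^[n] H = ⊥) : ∃ N : Subgroup G, N.Normal ∧ Subgroup.IsComplement' N H := by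
  exact aux n G H hHall hfoc

end Cfsg.Agent.S0557
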