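import Cfsg.Statements.S0558
import Cfsg.Agent.S0557
import Cfsg.Agent.Lib.Helper12Coprime

set_option autoImplicit false
open Cfsg
open Pointwise

namespace Cfsg.Agent.S0558

open Cfsg.Agent.Lib.Helper12Basic Cfsg.Agent.Lib.Helper12Card Cfsg.Agent.Lib.Helper12Hall
open Cfsg.Agent.Lib.Helper12Coprime
open scoped commutatorElement

theorem index_biInf_of_coprime {G : Type*} [Group G] [Finite G] {ι : Type*} (T : Finset ι)
    (K : ι → Subgroup G)
    (h : ∀ i ∈ T, ∀ j ∈ T, i ≠ j → (K i).index.Coprime (K j).index) :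
    (⨅ i ∈ T, K i).index = ∏ i ∈ T, (K i).index := by
  classical
  induction T using Finset.induction_on with
  | empty => simp
  | insert q T hq ih =>
    have ih' := ih (fun i hi j hj hij => h i (Finset.mem_insert_of_mem hi) j
      (Finset.mem_insert_of_mem hj) hij)
    rw [Finset.iInf_insert, Finset.prod_insert hq, ← ih']
    apply index_inf_of_coprime
    rw [ih']
    apply Nat.Coprime.prod_right
    intro p hp
    exact h q (Finset.mem_insert_self q T) p (Finset.mem_insert_of_mem hp)
      (fun e => hq (e ▸ hp))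

section
variable {G : Type*} [Group G] [Finite G] (H : Subgroup G)
  (hnorm : ∀ p : ℕ, p.Prime → p ∣ Nat.card H → ∀ P : Sylow p H, Subgroup.normalizer (((P : Subgroup H).map H.subtype : Subgroup G) : Set G) = H)

include hnorm

theorem subgroupOf_hat {p : ℕ} (P : Sylow p H) :
    ((P : Subgroup H).map H.subtype).subgroupOf H = P := by
  rw [Subgroup.subgroupOf, Subgroup.comap_map_eq_self_of_injective H.subtype_injective]

theorem not_dvd_index_hat (p : ℕ) [hp : Fact p.Prime] (hpH : p ∣ Nat.card H) (P : Sylow p H) :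
    ¬ p ∣ ((P : Subgroup H).map H.subtype).index := by
  obtain ⟨n, hn⟩ := P.2.exists_card_eq
  have hc : Nat.card ((P : Subgroup H).map H.subtype) = p ^ n := by
    rw [card_map_subtype]; exact hn
  have h1 := Sylow.card_quotient_normalizer_modEq_card_quotient hc
  change ((P : Subgroup H).map H.subtype).relIndex (Subgroup.normalizer
    (((P : Subgroup H).map H.subtype : Subgroup G) : Set G)) ≡
    ((P : Subgroup H).map H.subtype).index [MOD p] at h1
  rw [hnorm p hp.out hpH P, Subgroup.relIndex, subgroupOf_hat H hnorm P] at h1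
  intro hd
  exact P.not_dvd_index ((h1.dvd_iff (dvd_refl p)).mpr hd)

theorem sylow_normal (p : ℕ) [hp : Fact p.Prime] (P : Sylow p H) : (P : Subgroup H).Normal := by
  by_cases hpH : p ∣ Nat.card H
  · have h1 := hnorm p hp.out hpH P
    have h2 : (((P : Subgroup H).map H.subtype).subgroupOf H).Normal := by
      rw [Subgroup.normal_subgroupOf_iff_le_normalizer (Subgroup.map_subtype_le _), h1]
    rwa [subgroupOf_hat H hnorm P] at h2
  · have h1 : Nat.card (P : Subgroup H) = 1 := by
      have := P.card_eq_multiplicity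
      rwa [Nat.factorization_eq_zero_of_not_dvd hpH, pow_zero] at this
    rw [Subgroup.card_eq_one.mp h1]
    infer_instance

theorem nilpotent : Group.IsNilpotent H :=
  ((Group.isNilpotent_of_finite_tfae (G := H)).out 0 3 rfl rfl).mpr
    (fun p _ P => sylow_normal H hnorm p P)

theorem hall : (Nat.card H).Coprime H.index := by
  apply Nat.coprime_of_dvd
  intro p hp hpH hpi
  have : Fact p.Prime := ⟨hp⟩
  obtain ⟨P⟩ : Nonempty (Sylow p H) := inferInstance
  apply not_dvd_index_hat H hnorm p hpH P
  rw [Subgroup.index_map_subtype]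
  exact hpi.mul_left _

theorem fusion (p q : ℕ) [hp : Fact p.Prime] [hq : Fact q.Prime] (hpq : p ≠ q)
    (hqH : q ∣ Nat.card H) (P : Sylow p H) (x u : G)
    (hx : x ∈ (P : Subgroup H).map H.subtype) (hy : u * x * u⁻¹ ∈ (P : Subgroup H).map H.subtype) :
    ∃ h ∈ H, h * x * h⁻¹ = u * x * u⁻¹ := by
  obtain ⟨Q⟩ : Nonempty (Sylow q H) := inferInstance
  have hcen : (P : Subgroup H).map H.subtype ≤
      Subgroup.centralizer (((Q : Subgroup H).map H.subtype : Subgroup G) : Set G) := by
    rintro _ ⟨a, ha, rfl⟩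
    rw [Subgroup.mem_centralizer_iff]
    rintro _ ⟨b, hb, rfl⟩
    have hdisj : Disjoint (P : Subgroup H) (Q : Subgroup H) := by
      apply Subgroup.disjoint_of_coprime_natCard
      obtain ⟨n, hn⟩ := P.2.exists_card_eq
      obtain ⟨m, hm⟩ := Q.2.exists_card_eq
      have hn' : Nat.card (P : Subgroup H) = p ^ n := hn
      have hm' : Nat.card (Q : Subgroup H) = q ^ m := hm
      rw [hn', hm']
      exact Nat.Coprime.pow _ _ ((Nat.coprime_primes hp.out hq.out).mpr hpq)
    have := Subgroup.commute_of_normal_of_disjoint _ _ (sylow_normal H hnorm p P)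
      (sylow_normal H hnorm q Q) hdisj a b ha hb
    exact congrArg Subtype.val this.symm
  obtain ⟨n, hn, e⟩ := Sylow.conj_eq_normalizer_conj_of_mem_centralizer
    ((Q.2.map H.subtype).toSylow (not_dvd_index_hat H hnorm q hqH Q)) x u⁻¹ (hcen hx)
    (by rw [inv_inv]; exact hcen hy)
  have hn' : n ∈ Subgroup.normalizer (((Q : Subgroup H).map H.subtype : Subgroup G) : Set G) := hn
  rw [hnorm q hq.out hqH Q] at hn'
  refine ⟨n⁻¹, H.inv_mem hn', ?_⟩
  rw [inv_inv] at e ⊢
  exact e.symm

theorem focal_le (p q : ℕ) [hp : Fact p.Prime] [hq : Fact q.Prime] (hpq : p ≠ q)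
    (hqH : q ∣ Nat.card H) (P : Sylow p H) (n : ℕ) :
    (fun K : Subgroup G => Subgroup.focalSubgroup K)^[n] ((P : Subgroup H).map H.subtype) ≤
      H.lowerCentralSeries n ⊓ (P : Subgroup H).map H.subtype := by
  induction n with
  | zero => exact le_inf (Subgroup.map_subtype_le _) le_rfl
  | succ n ih =>
    rw [Function.iterate_succ_apply']
    set K := (fun K : Subgroup G => Subgroup.focalSubgroup K)^[n] ((P : Subgroup H).map H.subtype)
    refine le_inf ?_ ((Subgroup.focalSubgroup_le K).trans (ih.trans inf_le_right))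
    rw [Subgroup.focalSubgroup_def, Subgroup.closure_le]
    rintro _ ⟨hg, x, hx, u, rfl⟩
    have hxi : x⁻¹ ∈ (P : Subgroup H).map H.subtype := (ih (K.inv_mem hx)).2
    have hyi : u * x⁻¹ * u⁻¹ ∈ (P : Subgroup H).map H.subtype := by
      have h1 : u * x⁻¹ * u⁻¹ = x⁻¹ * ⁅x, u⁆ := by
        simp only [commutatorElement_def]; group
      rw [h1]
      exact (ih (K.mul_mem (K.inv_mem hx) hg)).2
    obtain ⟨h, hh, e⟩ := fusion H hnorm p q hpq hqH P x⁻¹ u hxi hyi
    have e2 : ⁅x, u⁆ = ⁅x, h⁆ := by
      simp only [commutatorElement_def]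
      calc x * u * x⁻¹ * u⁻¹ = x * (u * x⁻¹ * u⁻¹) := by group
        _ = x * (h * x⁻¹ * h⁻¹) := by rw [e]
        _ = x * h * x⁻¹ * h⁻¹ := by group
    rw [SetLike.mem_coe, e2, Subgroup.lowerCentralSeries_succ]
    exact Subgroup.commutator_mem_commutator (ih hx).1 hh

end

/-- Let H be a subgroup of a finite group G that is not a Sylow subgroup of G for any prime, and suppose that for every prime p dividing the order of H and every Sylow p-subgroup P of H the normalizer of P in G is exactly H. Then some normal subgroup of G is a complement to H. -/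
theorem result {G : Type*} [Group G] [Finite G] (H : Subgroup G) (hnot : ∀ p : ℕ, p.Prime → ∀ P : Sylow p G, (P : Subgroup G) ≠ H) (hnorm : ∀ p : ℕ, p.Prime → p ∣ Nat.card H → ∀ P : Sylow p H, Subgroup.normalizer (((P : Subgroup H).map H.subtype : Subgroup G) : Set G) = H) : ∃ N : Subgroup G, N.Normal ∧ Subgroup.IsComplement' N H := by
  classical
  have hnil := nilpotent H hnorm
  obtain ⟨c, hc⟩ := (Subgroup.isNilpotent_iff_lowerCentralSeries H).mp hnil
  have hsecond : ∀ p : ℕ, p.Prime → p ∣ Nat.card H → ∃ q : ℕ, q.Prime ∧ p ≠ q ∧ q ∣ Nat.card H := by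
    intro p hp hpH
    by_contra hcon
    push Not at hcon
    have : Fact p.Prime := ⟨hp⟩
    have hcard := Nat.eq_prime_pow_of_unique_prime_dvd (p := p) (n := Nat.card H) Nat.card_pos.ne'
      (fun {d} hd hdv => by
        by_contra hne
        exact hcon d hd (fun e => hne e.symm) hdv)
    obtain ⟨P⟩ : Nonempty (Sylow p H) := inferInstance
    have hPtop : (P : Subgroup H) = ⊤ := by
      rw [← Subgroup.index_eq_one]
      have h1 : (P : Subgroup H).index ∣ p ^ (Nat.card H).primeFactorsList.length := by
        rw [← hcard]; exact Subgroup.index_dvd_card _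
      obtain ⟨j, -, hj⟩ := (Nat.dvd_prime_pow hp).mp h1
      rcases Nat.eq_zero_or_pos j with rfl | hj0
      · simpa using hj
      · exfalso
        apply P.not_dvd_index
        rw [hj]; exact dvd_pow_self p hj0.ne'
    apply hnot p hp ((P.2.map H.subtype).toSylow (not_dvd_index_hat H hnorm p hpH P))
    rw [IsPGroup.toSylow_coe, hPtop, ← MonoidHom.range_eq_map, Subgroup.range_subtype]
  have hex : ∀ p : ℕ, p ∈ (Nat.card H).primeFactors → ∃ N : Subgroup G, N.Normal ∧
      N.index = p ^ (Nat.card H).factorization p := by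
    intro p hpm
    have hp := Nat.prime_of_mem_primeFactors hpm
    have hpH := Nat.dvd_of_mem_primeFactors hpm
    have : Fact p.Prime := ⟨hp⟩
    obtain ⟨q, hq, hpq, hqH⟩ := hsecond p hp hpH
    have : Fact q.Prime := ⟨hq⟩
    obtain ⟨P⟩ : Nonempty (Sylow p H) := inferInstance
    have hPc : Nat.card ((P : Subgroup H).map H.subtype) = p ^ (Nat.card H).factorization p := by
      rw [card_map_subtype]; exact P.card_eq_multiplicity
    obtain ⟨N, hNn, hNc⟩ := Cfsg.Agent.S0557.result ((P : Subgroup H).map H.subtype)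
      (by
        rw [hPc]
        apply Nat.Coprime.pow_left
        exact (Nat.Prime.coprime_iff_not_dvd hp).mpr (not_dvd_index_hat H hnorm p hpH P))
      c (by
        have := focal_le H hnorm p q hpq hqH P c
        rw [hc, bot_inf_eq] at this
        exact le_bot_iff.mp this)
    exact ⟨N, hNn, by rw [hNc.symm.index_eq_card, hPc]⟩
  choose! f hfn hfi using hex
  have hidx : (⨅ p ∈ (Nat.card H).primeFactors, f p).index = Nat.card H := by
    rw [index_biInf_of_coprime]
    · rw [Finset.prod_congr rfl hfi]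
      exact Nat.factorization_prod_pow_eq_self Nat.card_pos.ne'
    · intro i hi j hj hij
      rw [hfi i hi, hfi j hj]
      exact Nat.Coprime.pow _ _ ((Nat.coprime_primes (Nat.prime_of_mem_primeFactors hi)
        (Nat.prime_of_mem_primeFactors hj)).mpr hij)
  have hcardN : Nat.card (⨅ p ∈ (Nat.card H).primeFactors, f p : Subgroup G) = H.index := by
    have h1 := (⨅ p ∈ (Nat.card H).primeFactors, f p).card_mul_index
    rw [hidx, ← H.card_mul_index, mul_comm] at h1
    exact Nat.eq_of_mul_eq_mul_left Nat.card_pos h1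
  refine ⟨⨅ p ∈ (Nat.card H).primeFactors, f p, ?_, ?_⟩
  · apply Subgroup.normal_iInf_normal
    intro p
    apply Subgroup.normal_iInf_normal
    intro hp
    exact hfn p hp
  · apply Subgroup.isComplement'_of_coprime
    · rw [hcardN, mul_comm]; exact H.card_mul_index
    · rw [hcardN]; exact (hall H hnorm).symm

end Cfsg.Agent.S0558
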