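import Cfsg.Statements.S0559
import Mathlib

set_option autoImplicit false
open Pointwise
open Cfsg

namespace Cfsg.Agent.S0559

theorem conj_mul_smul {G : Type*} [Group G] (H : Subgroup G) (x h : G) (hh : h ∈ H) :
    MulAut.conj (x * h) • H = MulAut.conj x • H := by
  rw [map_mul, mul_smul, Subgroup.conj_smul_eq_self_of_mem hh]

theorem factor_conj {G : Type*} [Group G] (H K : Subgroup G)
    (hHK : ∀ g : G, ∃ h ∈ H, ∃ k ∈ K, g = h * k) (g : G) :
    ∀ g' : G, ∃ a ∈ MulAut.conj g • H, ∃ b ∈ MulAut.conj g • K, g' = a * b := by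
  intro g'
  obtain ⟨h, hh, k, hk, e⟩ := hHK (g⁻¹ * g' * g)
  refine ⟨g * h * g⁻¹, ?_, g * k * g⁻¹, ?_, ?_⟩
  · have := Subgroup.smul_mem_pointwise_smul h (MulAut.conj g) H hh
    simpa [MulAut.smul_def] using this
  · have := Subgroup.smul_mem_pointwise_smul k (MulAut.conj g) K hk
    simpa [MulAut.smul_def] using this
  · have : g * h * g⁻¹ * (g * k * g⁻¹) = g * (h * k) * g⁻¹ := by group
    rw [this, ← e]; group

theorem simultaneous {G : Type*} [Group G] (H K : Subgroup G)
    (hHK : ∀ g : G, ∃ h ∈ H, ∃ k ∈ K, g = h * k) (x y : G) :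
    ∃ g : G, MulAut.conj x • H = MulAut.conj g • H ∧ MulAut.conj y • K = MulAut.conj g • K := by
  obtain ⟨h, hh, k, hk, e⟩ := hHK (x⁻¹ * y)
  refine ⟨x * h, (conj_mul_smul H x h hh).symm, ?_⟩
  have : x * h = y * k⁻¹ := by
    have : y = x * (h * k) := by rw [← e]; group
    rw [this]; group
  rw [this, conj_mul_smul K y k⁻¹ (K.inv_mem hk)]

/-- Let G = HK be a finite group (every element a product of an element of H and an element of K), and let A and B be conjugates of H and K. Then every element is a product of an element of A and one of B, and there is g with A = gHg⁻¹ and B = gKg⁻¹ simultaneously. -/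
theorem result {G : Type*} [Group G] [Finite G] (H K A B : Subgroup G) (hHK : ∀ g : G, ∃ h ∈ H, ∃ k ∈ K, g = h * k) (hA : ∃ x : G, A = MulAut.conj x • H) (hB : ∃ y : G, B = MulAut.conj y • K) : (∀ g : G, ∃ a ∈ A, ∃ b ∈ B, g = a * b) ∧ ∃ g : G, A = MulAut.conj g • H ∧ B = MulAut.conj g • K := by
  obtain ⟨x, rfl⟩ := hA
  obtain ⟨y, rfl⟩ := hB
  obtain ⟨g, h1, h2⟩ := simultaneous H K hHK x y
  refine ⟨?_, g, h1, h2⟩
  rw [h1, h2]
  exact factor_conj H K hHK g

end Cfsg.Agent.S0559
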