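import Cfsg.Statements.S0560
-- import your own Cfsg.Agent.* helpers here
import Mathlib
import Cfsg.Agent.Lib.Helper12Card

set_option autoImplicit false
open Pointwise
open Cfsg

namespace Cfsg.Agent.S0560

open Pointwise

theorem mem_smul {G : Type*} [Group G] {p : ℕ} (g x : G) (P : Sylow p G) :
    x ∈ ((g • P : Sylow p G) : Subgroup G) ↔ g⁻¹ * x * g ∈ (P : Subgroup G) := by
  rw [Sylow.coe_subgroup_smul, Subgroup.mem_pointwise_smul_iff_inv_smul_mem, MulAut.smul_def,
    MulAut.conj_inv_apply]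


/-- Let the finite group G be the product HK of two subgroups and p a prime. Then there are Sylow p-subgroups P of H and Q of K and a Sylow p-subgroup R of G whose underlying set is the product set of P and Q. -/
theorem result {G : Type*} [Group G] [Finite G] (H K : Subgroup G) (hHK : ∀ g : G, ∃ h ∈ H, ∃ k ∈ K, g = h * k) (p : ℕ) [Fact p.Prime] : ∃ (P : Sylow p H) (Q : Sylow p K) (R : Sylow p G), ((R : Subgroup G) : Set G) = (((P : Subgroup H).map H.subtype : Subgroup G) : Set G) * (((Q : Subgroup K).map K.subtype : Subgroup G) : Set G) := by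
  classical
  obtain ⟨P0⟩ : Nonempty (Sylow p H) := inferInstance
  obtain ⟨Q0⟩ : Nonempty (Sylow p K) := inferInstance
  obtain ⟨S1, hS1⟩ := (P0.2.map H.subtype).exists_le_sylow
  obtain ⟨S2, hS2⟩ := (Q0.2.map K.subtype).exists_le_sylow
  obtain ⟨g, hg⟩ := MulAction.exists_smul_eq G S1 S2
  obtain ⟨h, hh, k, hk, hgk⟩ := hHK g⁻¹
  -- R = k • S2 = h⁻¹ • S1
  have hR : k • S2 = h⁻¹ • S1 := by
    rw [← hg, smul_smul]
    congr 1
    have : g = k⁻¹ * h⁻¹ := by
      rw [← inv_inj, hgk]; group
    rw [this]; group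
  set R : Sylow p G := k • S2 with hRdef
  set P : Sylow p H := (⟨h⁻¹, H.inv_mem hh⟩ : H) • P0 with hP
  set Q : Sylow p K := (⟨k, hk⟩ : K) • Q0 with hQ
  set P' : Subgroup G := (P : Subgroup H).map H.subtype with hP'
  set Q' : Subgroup G := (Q : Subgroup K).map K.subtype with hQ'
  have hPR : P' ≤ (R : Subgroup G) := by
    rintro _ ⟨x, hx, rfl⟩
    rw [hR]
    rw [SetLike.mem_coe, hP, mem_smul] at hx
    rw [mem_smul]
    apply hS1
    refine ⟨_, hx, ?_⟩
    simp
  have hQR : Q' ≤ (R : Subgroup G) := by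
    rintro _ ⟨x, hx, rfl⟩
    rw [SetLike.mem_coe, hQ, mem_smul] at hx
    rw [hRdef, mem_smul]
    apply hS2
    refine ⟨_, hx, ?_⟩
    simp
  refine ⟨P, Q, R, ?_⟩
  have hsub : (P' : Set G) * (Q' : Set G) ⊆ ((R : Subgroup G) : Set G) := by
    rintro _ ⟨a, ha, b, hb, rfl⟩
    exact (R : Subgroup G).mul_mem (hPR ha) (hQR hb)
  symm
  apply Set.eq_of_subset_of_ncard_le hsub _ (Set.toFinite _)
  have hpp : p.Prime := Fact.out
  have c1 := Cfsg.Agent.Lib.Helper12Card.card_mul_set_mul_card_inf P' Q'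
  have c2 := Cfsg.Agent.Lib.Helper12Card.card_mul_set_mul_card_inf H K
  have huniv : (H : Set G) * (K : Set G) = Set.univ := by
    apply Set.eq_univ_of_forall
    intro x
    obtain ⟨a, ha, b, hb, rfl⟩ := hHK x
    exact ⟨a, ha, b, hb, rfl⟩
  rw [huniv, Nat.card_coe_set_eq, Set.ncard_univ] at c2
  have cP : Nat.card P' = p ^ (Nat.card H).factorization p := by
    rw [hP', Nat.card_congr (Subgroup.equivMapOfInjective _ _ H.subtype_injective).symm.toEquiv]
    exact P.card_eq_multiplicity
  have cQ : Nat.card Q' = p ^ (Nat.card K).factorization p := by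
    rw [hQ', Nat.card_congr (Subgroup.equivMapOfInjective _ _ K.subtype_injective).symm.toEquiv]
    exact Q.card_eq_multiplicity
  have cR : Nat.card (R : Subgroup G) = p ^ (Nat.card G).factorization p := R.card_eq_multiplicity
  have hle : P' ⊓ Q' ≤ H ⊓ K := by
    apply inf_le_inf
    · rintro _ ⟨x, _, rfl⟩; exact x.2
    · rintro _ ⟨x, _, rfl⟩; exact x.2
  have hpg : IsPGroup p (P' ⊓ Q' : Subgroup G) := (R.2.to_le hPR).to_le inf_le_left
  obtain ⟨c, hc⟩ := IsPGroup.iff_card.1 hpg
  have hdvd : p ^ c ∣ Nat.card (H ⊓ K : Subgroup G) := by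
    rw [← hc]; exact Subgroup.card_dvd_of_le hle
  have hcle : c ≤ (Nat.card (H ⊓ K : Subgroup G)).factorization p :=
    (hpp.pow_dvd_iff_le_factorization Nat.card_pos.ne').1 hdvd
  have hfac : (Nat.card G).factorization p + (Nat.card (H ⊓ K : Subgroup G)).factorization p
      = (Nat.card H).factorization p + (Nat.card K).factorization p := by
    have := congrArg (fun n => n.factorization p) c2
    rw [Nat.factorization_mul Nat.card_pos.ne' Nat.card_pos.ne',
      Nat.factorization_mul Nat.card_pos.ne' Nat.card_pos.ne'] at this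
    simpa using this
  rw [hc, cP, cQ, ← pow_add, ← hfac] at c1
  rw [← Nat.card_coe_set_eq, ← Nat.card_coe_set_eq]
  have c3 : Nat.card ((R : Subgroup G) : Set G) = p ^ (Nat.card G).factorization p := cR
  rw [c3]
  have hppos : 0 < p ^ c := pow_pos hpp.pos c
  apply Nat.le_of_mul_le_mul_right _ hppos
  rw [c1, ← pow_add]
  exact Nat.pow_le_pow_right hpp.pos (by omega)

end Cfsg.Agent.S0560
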