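import Cfsg.Statements.S0561
import Cfsg.Agent.Lib.Helper12Hall

set_option autoImplicit false
open Pointwise
open Cfsg

namespace Cfsg.Agent.S0561

open Cfsg.Agent.Lib.Helper12Basic Cfsg.Agent.Lib.Helper12Card Cfsg.Agent.Lib.Helper12Hall

theorem arith (N a a' b b' : ℕ) (hN : 0 < N) (h1 : a * a' = N) (h2 : b * b' = N)
    (c1 : a.Coprime a') (c2 : b.Coprime b') :
    ∃ n, N = (a * Nat.gcd b a') * n ∧ (a * Nat.gcd b a').Coprime n ∧ a.Coprime n ∧ b.Coprime n ∧
      b = Nat.gcd b a * Nat.gcd b a' := by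
  have hb : b = Nat.gcd b a * Nat.gcd b a' := by
    rw [← Nat.Coprime.gcd_mul b c1, h1]
    exact (Nat.gcd_eq_left ⟨b', h2.symm⟩).symm
  have ha0 : 0 < a := Nat.pos_of_ne_zero (by rintro rfl; simp at h1; omega)
  have ha'0 : 0 < a' := Nat.pos_of_ne_zero (by rintro rfl; simp at h1; omega)
  have hb0 : 0 < b := Nat.pos_of_ne_zero (by rintro rfl; simp at h2; omega)
  obtain ⟨n, hn⟩ := Nat.gcd_dvd_right b a'
  obtain ⟨a1, ha1⟩ := Nat.gcd_dvd_right b a
  have hg1 : 0 < Nat.gcd b a := Nat.gcd_pos_of_pos_left _ hb0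
  have hg2 : 0 < Nat.gcd b a' := Nat.gcd_pos_of_pos_left _ hb0
  have hnb' : b' = a1 * n := by
    have e1 : (Nat.gcd b a * Nat.gcd b a') * b' = (Nat.gcd b a * Nat.gcd b a') * (a1 * n) := by
      calc (Nat.gcd b a * Nat.gcd b a') * b' = b * b' := by rw [← hb]
        _ = a * a' := by rw [h1, h2]
        _ = (Nat.gcd b a * a1) * (Nat.gcd b a' * n) := by rw [← ha1, ← hn]
        _ = (Nat.gcd b a * Nat.gcd b a') * (a1 * n) := by ring
    exact Nat.eq_of_mul_eq_mul_left (Nat.mul_pos hg1 hg2) e1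
  have can : a.Coprime n := Nat.Coprime.coprime_dvd_right ⟨Nat.gcd b a', by rw [mul_comm]; exact hn⟩ c1
  have cbn : b.Coprime n := Nat.Coprime.coprime_dvd_right ⟨a1, by rw [mul_comm]; exact hnb'⟩ c2
  refine ⟨n, ?_, ?_, can, cbn, hb⟩
  · rw [← h1, mul_assoc, ← hn]
  · exact Nat.Coprime.mul_left can (Nat.Coprime.coprime_dvd_left (Nat.gcd_dvd_left b a') cbn)

theorem mul_eq {G : Type*} [Group G] [Finite G] (A B E : Subgroup G)
    (hb : Nat.card B = Nat.gcd (Nat.card B) (Nat.card A) * Nat.gcd (Nat.card B) A.index)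
    (hAE : A ≤ E) (hBE : B ≤ E)
    (hE : Nat.card E = Nat.card A * Nat.gcd (Nat.card B) A.index) :
    (E : Set G) = (A : Set G) * (B : Set G) := by
  symm
  apply Set.eq_of_subset_of_ncard_le (Subgroup.mul_subset hAE hBE)
  rw [← Nat.card_coe_set_eq, ← Nat.card_coe_set_eq]
  change Nat.card E ≤ _
  have h1 := card_mul_set_mul_card_inf A B
  have h2 : Nat.card (A ⊓ B : Subgroup G) ∣ Nat.gcd (Nat.card B) (Nat.card A) :=
    Nat.dvd_gcd (Subgroup.card_dvd_of_le inf_le_right) (Subgroup.card_dvd_of_le inf_le_left)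
  obtain ⟨d, hd⟩ := h2
  have hc : 0 < Nat.card (A ⊓ B : Subgroup G) := Nat.card_pos
  have hBpos : 0 < Nat.card B := Nat.card_pos
  have hg : 0 < Nat.gcd (Nat.card B) (Nat.card A) := Nat.gcd_pos_of_pos_left _ hBpos
  have hd0 : 0 < d := Nat.pos_of_ne_zero (by rintro rfl; simp at hd; omega)
  rw [hE]
  set P := Nat.card ((A : Set G) * (B : Set G) : Set G) with hP
  set c := Nat.card (A ⊓ B : Subgroup G) with hcdef
  have h3 : c * P = c * (Nat.card A * Nat.gcd (Nat.card B) A.index * d) := by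
    calc c * P = P * c := by ring
      _ = Nat.card A * Nat.card B := h1
      _ = Nat.card A * (Nat.gcd (Nat.card B) (Nat.card A) * Nat.gcd (Nat.card B) A.index) := by
          rw [← hb]
      _ = Nat.card A * ((c * d) * Nat.gcd (Nat.card B) A.index) := by rw [← hd]
      _ = c * (Nat.card A * Nat.gcd (Nat.card B) A.index * d) := by ring
  have h4 := Nat.eq_of_mul_eq_mul_left hc h3
  rw [h4]
  exact Nat.le_mul_of_pos_right _ hd0

/-- Let the finite solvable group G be the product HK of subgroups, and let A be normal in H and B normal in K, where A and B are Hall subgroups of G (order coprime to index). Then for all x, y the product set of xAx⁻¹ and yBy⁻¹ is a subgroup of G. -/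
theorem result {G : Type*} [Group G] [Finite G] [Group.IsSolvable G] (H K A B : Subgroup G) (hHK : ∀ g : G, ∃ h ∈ H, ∃ k ∈ K, g = h * k) (hA : A ≤ H) (hAn : (A.subgroupOf H).Normal) (hB : B ≤ K) (hBn : (B.subgroupOf K).Normal) (hAh : (Nat.card A).Coprime A.index) (hBh : (Nat.card B).Coprime B.index) (x y : G) : ∃ S : Subgroup G, (S : Set G) = ((MulAut.conj x • A : Subgroup G) : Set G) * ((MulAut.conj y • B : Subgroup G) : Set G) := by
  obtain ⟨n, hN, hmn, han, hbn, hb⟩ := arith (Nat.card G) (Nat.card A) A.index (Nat.card B) B.index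
    Nat.card_pos A.card_mul_index B.card_mul_index hAh hBh
  obtain ⟨E1, hE1, hAE1⟩ := hall_dominance _ n hN hmn A han
  obtain ⟨E2, hE2, hBE2⟩ := hall_dominance _ n hN hmn B hbn
  obtain ⟨g, hg⟩ := hall_conj _ n hN hmn E1 E2 hE1 hE2
  -- g = k * h
  obtain ⟨h, hh, k, hk, e⟩ := hHK g⁻¹
  have eg : g = k⁻¹ * h⁻¹ := by
    have : g = (g⁻¹)⁻¹ := by simp
    rw [this, e]; group
  -- E contains both A and B
  have hAE : A ≤ MulAut.conj h⁻¹ • E1 := by
    rw [← smul_eq_of_normal_subgroupOf hA hAn (H.inv_mem hh)]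
    exact Subgroup.pointwise_smul_le_pointwise_smul_iff.mpr hAE1
  have hBE : B ≤ MulAut.conj h⁻¹ • E1 := by
    have e2 : MulAut.conj h⁻¹ • E1 = MulAut.conj k • E2 := by
      rw [← hg, conj_smul_conj_smul, eg]; congr 2; group
    rw [e2, ← smul_eq_of_normal_subgroupOf hB hBn hk]
    exact Subgroup.pointwise_smul_le_pointwise_smul_iff.mpr hBE2
  -- simultaneous conjugation
  obtain ⟨h', hh', k', hk', e'⟩ := hHK (x⁻¹ * y)
  have ex : MulAut.conj x • A = MulAut.conj (x * h') • A := by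
    rw [← conj_smul_conj_smul, smul_eq_of_normal_subgroupOf hA hAn hh']
  have ey : MulAut.conj y • B = MulAut.conj (x * h') • B := by
    have : x * h' = y * k'⁻¹ := by
      have : y = x * (h' * k') := by rw [← e']; group
      rw [this]; group
    rw [this, ← conj_smul_conj_smul, smul_eq_of_normal_subgroupOf hB hBn (K.inv_mem hk')]
  refine ⟨MulAut.conj (x * h') • MulAut.conj h⁻¹ • E1, ?_⟩
  apply mul_eq
  · rw [card_conj_smul, card_conj_smul, index_conj_smul]; exact hb
  · rw [ex]; exact Subgroup.pointwise_smul_le_pointwise_smul_iff.mpr hAE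
  · rw [ey]; exact Subgroup.pointwise_smul_le_pointwise_smul_iff.mpr hBE
  · rw [card_conj_smul, card_conj_smul, card_conj_smul, card_conj_smul, index_conj_smul]; exact hE1

end Cfsg.Agent.S0561
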