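import Cfsg.Statements.S0566
import Cfsg.Agent.S0559
import Cfsg.Agent.Lib.Helper12Perm
import Cfsg.Agent.Lib.Helper12Basic

set_option autoImplicit false
open Pointwise
open Cfsg

namespace Cfsg.Agent.S0566

open Cfsg.Agent.Lib.Helper12Perm Cfsg.Agent.Lib.Helper12Basic

theorem aux {G : Type*} [Group G] [Finite G] (n : ℕ) : ∀ (A B : Subgroup G),
    Nat.card G - Nat.card B = n →
    (∀ x : G, ∃ S : Subgroup G, S ≠ ⊤ ∧ (S : Set G) = (A : Set G) * ((MulAut.conj x • B : Subgroup G) : Set G)) →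
    ∃ N : Subgroup G, N.Normal ∧ N ≠ ⊤ ∧ (A ≤ N ∨ B ≤ N) := by
  induction n using Nat.strong_induction_on with
  | _ n ih =>
  intro A B hn h
  by_cases hA : Subgroup.normalClosure (A : Set G) = ⊤
  swap
  · exact ⟨_, inferInstance, hA, Or.inl Subgroup.le_normalClosure⟩
  by_cases hBn : Subgroup.normalizer (B : Set G) = ⊤
  · refine ⟨B, Subgroup.normalizer_eq_top_iff.mp hBn, ?_, Or.inr le_rfl⟩
    obtain ⟨S, hS, hSe⟩ := h 1
    intro hB
    apply hS
    rw [eq_top_iff, ← hB]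
    have := (le_of_coe_eq hSe).2
    simpa using this
  -- some conjugate of A does not normalize B
  obtain ⟨g, hg⟩ : ∃ g : G, ¬ MulAut.conj g • A ≤ Subgroup.normalizer (B : Set G) := by
    by_contra hcon
    push Not at hcon
    apply hBn
    rw [eq_top_iff, ← hA]
    -- the normal core of the normalizer contains A
    have h1 : A ≤ (Subgroup.normalizer (B : Set G)).normalCore := by
      intro a ha b
      exact hcon b (conj_mem_conj_smul b ha)
    exact (Subgroup.normalClosure_le_normal h1).trans (Subgroup.normalCore_le _)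
  obtain ⟨a', ha', ha'n⟩ := SetLike.not_le_iff_exists.mp hg
  rw [mem_conj_smul] at ha'
  set a := g⁻¹ * a' * g with hadef
  set B₁ := MulAut.conj g⁻¹ • B with hB₁
  have hB₁c : Nat.card B₁ = Nat.card B := card_conj_smul B g⁻¹
  have haB₁ : MulAut.conj a • B₁ ≠ B₁ := by
    intro he
    apply ha'n
    rw [mem_normalizer_iff_smul]
    have e1 : MulAut.conj g • (MulAut.conj a • B₁) = MulAut.conj g • B₁ := by rw [he]
    rw [hB₁, conj_smul_conj_smul, conj_smul_conj_smul, conj_smul_conj_smul] at e1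
    have e2 : g * a * g⁻¹ = a' := by rw [hadef]; group
    rw [e2] at e1
    simpa using e1
  have h₁ : ∀ x : G, ∃ S : Subgroup G, S ≠ ⊤ ∧
      (S : Set G) = (A : Set G) * ((MulAut.conj x • B₁ : Subgroup G) : Set G) := by
    intro x
    obtain ⟨S, hS, hSe⟩ := h (x * g⁻¹)
    exact ⟨S, hS, by rw [hSe, hB₁, conj_smul_conj_smul]⟩
  have hlt : B₁ < B₁ ⊔ MulAut.conj a • B₁ := by
    refine lt_of_le_of_ne le_sup_left ?_
    intro he
    have h2 : MulAut.conj a • B₁ ≤ B₁ := by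
      conv_rhs => rw [he]
      exact le_sup_right
    exact haB₁ (smul_eq_of_ge h2)
  have hclt : Nat.card B₁ < Nat.card (B₁ ⊔ MulAut.conj a • B₁ : Subgroup G) := by
    by_contra hcon
    push Not at hcon
    exact hlt.ne (Subgroup.eq_of_le_of_card_ge hlt.le hcon)
  have hcle : Nat.card (B₁ ⊔ MulAut.conj a • B₁ : Subgroup G) ≤ Nat.card G :=
    Subgroup.card_le_card_group _
  have hstar : ∀ x : G, ∃ S : Subgroup G, S ≠ ⊤ ∧ (S : Set G) = (A : Set G) *
      ((MulAut.conj x • (B₁ ⊔ MulAut.conj a • B₁) : Subgroup G) : Set G) := by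
    intro x
    obtain ⟨S₁, -, hS₁⟩ := h₁ x
    obtain ⟨S₂, -, hS₂⟩ := h₁ (x * a)
    have hp : Perm A (MulAut.conj x • (B₁ ⊔ MulAut.conj a • B₁)) := by
      rw [Subgroup.smul_sup, conj_smul_conj_smul B₁ x a]
      exact perm_sup (perm_of_coe_eq hS₁) (perm_of_coe_eq hS₂)
    refine ⟨A ⊔ MulAut.conj x • (B₁ ⊔ MulAut.conj a • B₁), ?_, coe_sup_of_perm hp⟩
    intro htop
    have hfac : ∀ y : G, ∃ u ∈ A, ∃ v ∈ MulAut.conj x • (B₁ ⊔ MulAut.conj a • B₁), y = u * v := by
      intro y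
      have hy : y ∈ ((A ⊔ MulAut.conj x • (B₁ ⊔ MulAut.conj a • B₁) : Subgroup G) : Set G) := by
        rw [htop]; trivial
      rw [coe_sup_of_perm hp] at hy
      obtain ⟨u, hu, v, hv, rfl⟩ := hy
      exact ⟨u, hu, v, hv, rfl⟩
    have hfac' := (Cfsg.Agent.S0559.result A (MulAut.conj x • (B₁ ⊔ MulAut.conj a • B₁)) A
      (B₁ ⊔ MulAut.conj a • B₁) hfac ⟨1, by simp⟩ ⟨x⁻¹, by rw [conj_inv_smul_conj_smul]⟩).1
    obtain ⟨S₀, hS₀, hS₀e⟩ := h₁ 1
    rw [map_one, one_smul] at hS₀e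
    obtain ⟨hAS, hBS⟩ := le_of_coe_eq hS₀e
    apply hS₀
    rw [eq_top_iff]
    intro y _
    obtain ⟨u, hu, v, hv, rfl⟩ := hfac' y
    refine S₀.mul_mem (hAS hu) ?_
    have hle : B₁ ⊔ MulAut.conj a • B₁ ≤ S₀ := by
      refine sup_le hBS ?_
      intro z hz
      rw [mem_conj_smul] at hz
      have h3 := S₀.mul_mem (S₀.mul_mem (hAS ha') (hBS hz)) (S₀.inv_mem (hAS ha'))
      have e3 : a * (a⁻¹ * z * a) * a⁻¹ = z := by group
      rwa [e3] at h3
    exact hle hv
  obtain ⟨N, hNn, hNt, hN⟩ := ih (Nat.card G - Nat.card (B₁ ⊔ MulAut.conj a • B₁ : Subgroup G))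
    (by omega) A _ rfl hstar
  refine ⟨N, hNn, hNt, ?_⟩
  rcases hN with hN | hN
  · exact Or.inl hN
  · right
    have h4 : B₁ ≤ N := le_sup_left.trans hN
    have h5 : MulAut.conj g • B₁ ≤ MulAut.conj g • N :=
      Subgroup.pointwise_smul_le_pointwise_smul_iff.mpr h4
    rwa [hB₁, conj_smul_conj_inv_smul, Subgroup.Normal.conj_smul_eq_self g N] at h5

/-- Let A and B be nontrivial subgroups of a finite group G such that for every x the product set of A and xBx⁻¹ is a proper subgroup of G. Then there is a proper normal subgroup of G containing A or containing B. -/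
theorem result {G : Type*} [Group G] [Finite G] (A B : Subgroup G) (hA : A ≠ ⊥) (hB : B ≠ ⊥) (h : ∀ x : G, ∃ S : Subgroup G, S ≠ ⊤ ∧ (S : Set G) = (A : Set G) * ((MulAut.conj x • B : Subgroup G) : Set G)) : ∃ N : Subgroup G, N.Normal ∧ N ≠ ⊤ ∧ (A ≤ N ∨ B ≤ N) := by
  exact aux _ A B rfl h

end Cfsg.Agent.S0566
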