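import Cfsg.Statements.S0567
import Mathlib

set_option autoImplicit false
open Cfsg
open scoped commutatorElement

namespace Cfsg.Agent.S0567

theorem fwd {G : Type*} [Group G] (H L : Subgroup G) (hL : L.IsSubnormal) (hle : H ≤ L) :
    ∃ m : ℕ, (fun K : Subgroup G => ⁅K, H⁆)^[m] ⊤ ≤ L := by
  induction hL with
  | top => exact ⟨0, le_top⟩
  | step L K hLK hK hN ih =>
    obtain ⟨m, hm⟩ := ih (hle.trans hLK)
    refine ⟨m + 1, ?_⟩
    rw [Function.iterate_succ_apply']
    refine (Subgroup.commutator_mono hm hle).trans ?_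
    rw [Subgroup.commutator_le]
    intro k hk l hl
    have h1 : k * l * k⁻¹ ∈ L :=
      (Subgroup.le_normalizer_iff.mp ((Subgroup.normal_subgroupOf_iff_le_normalizer hLK).mp hN)) k hk l hl
    exact L.mul_mem h1 (L.inv_mem hl)

theorem le_normalizer_commutator {G : Type*} [Group G] (M H : Subgroup G) :
    M ≤ Subgroup.normalizer ((⁅M, H⁆ : Subgroup G) : Set G) := by
  rw [Subgroup.commutator_def, Subgroup.le_normalizer_closure_iff]
  rintro m hm _ ⟨m', hm', h, hh, rfl⟩
  have e : m * ⁅m', h⁆ * m⁻¹ = ⁅m * m', h⁆ * ⁅m, h⁆⁻¹ := by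
    simp only [commutatorElement_def]; group
  rw [e]
  exact Subgroup.mul_mem _ (Subgroup.subset_closure ⟨m * m', M.mul_mem hm hm', h, hh, rfl⟩)
    (Subgroup.inv_mem _ (Subgroup.subset_closure ⟨m, hm, h, hh, rfl⟩))

theorem le_normalizer_sup_commutator {G : Type*} [Group G] (M H : Subgroup G) :
    M ≤ Subgroup.normalizer ((H ⊔ ⁅M, H⁆ : Subgroup G) : Set G) := by
  rw [Subgroup.le_normalizer_iff]
  intro m hm k hk
  have key : (H ⊔ ⁅M, H⁆).map (MulAut.conj m).toMonoidHom ≤ H ⊔ ⁅M, H⁆ := by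
    rw [Subgroup.map_sup]
    refine sup_le ?_ ?_
    · rintro _ ⟨h, hh, rfl⟩
      have e : (MulAut.conj m).toMonoidHom h = ⁅m, h⁆ * h := by
        simp only [commutatorElement_def, MulEquiv.coe_toMonoidHom, MulAut.conj_apply]; group
      rw [e]
      exact Subgroup.mul_mem _ ((le_sup_right : ⁅M, H⁆ ≤ H ⊔ ⁅M, H⁆)
        (Subgroup.commutator_mem_commutator hm hh)) ((le_sup_left : H ≤ H ⊔ ⁅M, H⁆) hh)
    · rintro _ ⟨c, hc, rfl⟩
      exact (le_sup_right : ⁅M, H⁆ ≤ H ⊔ ⁅M, H⁆)
        (Subgroup.le_normalizer_iff.mp (le_normalizer_commutator M H) m hm c hc)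
  exact key ⟨k, hk, rfl⟩

theorem bwd {G : Type*} [Group G] (H : Subgroup G) (m : ℕ) :
    (H ⊔ (fun K : Subgroup G => ⁅K, H⁆)^[m] ⊤).IsSubnormal := by
  induction m with
  | zero => simp
  | succ m ih =>
    rw [Function.iterate_succ_apply']
    set M := (fun K : Subgroup G => ⁅K, H⁆)^[m] ⊤ with hM
    have hle : H ⊔ ⁅M, H⁆ ≤ H ⊔ M := by
      refine sup_le le_sup_left ?_
      rw [Subgroup.commutator_le]
      intro x hx y hy
      exact Subgroup.mul_mem _ (Subgroup.mul_mem _ (Subgroup.mul_mem _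
        ((le_sup_right : M ≤ H ⊔ M) hx) ((le_sup_left : H ≤ H ⊔ M) hy))
        (Subgroup.inv_mem _ ((le_sup_right : M ≤ H ⊔ M) hx)))
        (Subgroup.inv_mem _ ((le_sup_left : H ≤ H ⊔ M) hy))
    refine Subgroup.IsSubnormal.step _ _ hle ih ?_
    rw [Subgroup.normal_subgroupOf_iff_le_normalizer hle]
    exact sup_le (le_sup_left.trans Subgroup.le_normalizer) (le_normalizer_sup_commutator M H)

/-- A subgroup H of a group G is subnormal exactly when, for some m, the subgroup obtained from G by taking the commutator with H m times in succession is contained in H. -/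
theorem result {G : Type*} [Group G] (H : Subgroup G) : H.IsSubnormal ↔ ∃ m : ℕ, (fun K : Subgroup G => ⁅K, H⁆)^[m] ⊤ ≤ H := by
  constructor
  · intro h
    exact fwd H H h le_rfl
  · rintro ⟨m, hm⟩
    have := bwd H m
    rwa [sup_of_le_left hm] at this

end Cfsg.Agent.S0567
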