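import Cfsg.Statements.S0568
import Cfsg.Agent.Lib.Helper12Cover
open scoped commutatorElement

set_option autoImplicit false
open Cfsg

namespace Cfsg.Agent.S0568

/-- Let D be the system normalizer of a Hall complement system of a finite solvable group G, and let A < B be normal subgroups with no normal subgroup of G strictly between them (a chief factor). If G centralizes B modulo A then B ≤ A ⊔ D (D covers the factor); otherwise B ∩ D ≤ A (D avoids it). -/
theorem result {G : Type*} [Group G] [Finite G] [Group.IsSolvable G] (K : Nat.Primes → Subgroup G) (hK : Cfsg.IsComplementSystem K) (A B : Subgroup G) [A.Normal] [B.Normal] (hAB : A < B) (hchief : ∀ N : Subgroup G, N.Normal → A ≤ N → N ≤ B → N = A ∨ N = B) : (⁅B, (⊤ : Subgroup G)⁆ ≤ A → B ≤ A ⊔ Cfsg.systemNormalizer K) ∧ (¬ ⁅B, (⊤ : Subgroup G)⁆ ≤ A → B ⊓ Cfsg.systemNormalizer K ≤ A) := by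
  have hK' := Cfsg.Agent.Lib.Helper12SysQuot.map_system hK A
  have hD := Cfsg.Agent.Lib.Helper12SysQuot.systemNormalizer_map hK A
  constructor
  · intro hc b hb
    have h1 : QuotientGroup.mk' A b ∈
        Cfsg.systemNormalizer (fun p => (K p).map (QuotientGroup.mk' A)) := by
      simp only [Cfsg.systemNormalizer, Subgroup.mem_iInf]
      intro p
      rw [Subgroup.mem_normalizer_iff]
      intro h
      obtain ⟨g, rfl⟩ := QuotientGroup.mk'_surjective A h
      have h2 : ⁅b, g⁆ ∈ A := hc (Subgroup.commutator_mem_commutator hb (Subgroup.mem_top g))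
      have h3 : QuotientGroup.mk' A b * QuotientGroup.mk' A g * (QuotientGroup.mk' A b)⁻¹
          = QuotientGroup.mk' A g := by
        have h4 : QuotientGroup.mk' A ⁅b, g⁆ = 1 := (QuotientGroup.eq_one_iff _).mpr h2
        rw [commutatorElement_def, map_mul, map_mul, map_mul, map_inv, map_inv] at h4
        exact mul_inv_eq_one.mp h4
      rw [h3]
    rw [hD] at h1
    obtain ⟨d, hd, hdb⟩ := h1
    have h2 : d⁻¹ * b ∈ A := QuotientGroup.eq.mp hdb
    have h3 : b = d * (d⁻¹ * b) := by group
    rw [h3]
    exact Subgroup.mul_mem _ (Subgroup.mem_sup_right hd) (Subgroup.mem_sup_left h2)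
  · intro hc x hx
    have hBn : (B.map (QuotientGroup.mk' A)).Normal :=
      Subgroup.Normal.map inferInstance _ (QuotientGroup.mk'_surjective A)
    have hcomap : (B.map (QuotientGroup.mk' A)).comap (QuotientGroup.mk' A) = B := by
      rw [Subgroup.comap_map_eq, QuotientGroup.ker_mk', sup_of_le_left hAB.le]
    have hBne : B.map (QuotientGroup.mk' A) ≠ ⊥ := by
      intro h
      rw [h] at hcomap
      have : A = B := by
        rw [← hcomap, MonoidHom.comap_bot, QuotientGroup.ker_mk']
      exact hAB.ne this
    have hmin : ∀ M : Subgroup (G ⧸ A), M.Normal → M ≤ B.map (QuotientGroup.mk' A) →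
        M = ⊥ ∨ M = B.map (QuotientGroup.mk' A) := by
      intro M hM hle
      have h1 : A ≤ M.comap (QuotientGroup.mk' A) := by
        intro a ha
        have h0 : QuotientGroup.mk' A a = 1 := (QuotientGroup.eq_one_iff a).mpr ha
        rw [Subgroup.mem_comap, h0]
        exact M.one_mem
      have h2 : M.comap (QuotientGroup.mk' A) ≤ B := by
        rw [← hcomap]
        exact Subgroup.comap_mono hle
      rcases hchief _ inferInstance h1 h2 with h | h
      · left
        rw [← Subgroup.map_comap_eq_self_of_surjective (QuotientGroup.mk'_surjective A) M, h]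
        rw [eq_bot_iff]
        rintro _ ⟨a, ha, rfl⟩
        exact (QuotientGroup.eq_one_iff a).mpr ha
      · right
        rw [← Subgroup.map_comap_eq_self_of_surjective (QuotientGroup.mk'_surjective A) M, h]
    have hnc : Subgroup.centralizer ((B.map (QuotientGroup.mk' A) : Subgroup (G ⧸ A)) : Set (G ⧸ A))
        ≠ ⊤ := by
      intro htop
      apply hc
      rw [Subgroup.commutator_le]
      intro b hb g _
      have h1 : QuotientGroup.mk' A g ∈
          Subgroup.centralizer ((B.map (QuotientGroup.mk' A) : Subgroup (G ⧸ A)) : Set (G ⧸ A)) := by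
        rw [htop]; trivial
      have h2 := (Subgroup.mem_centralizer_iff.mp h1) (QuotientGroup.mk' A b) ⟨b, hb, rfl⟩
      apply (QuotientGroup.eq_one_iff _).mp
      change QuotientGroup.mk' A ⁅b, g⁆ = 1
      rw [commutatorElement_def, map_mul, map_mul, map_mul, map_inv, map_inv, h2]
      group
    have h := Cfsg.Agent.Lib.Helper12Cover.avoid_min hK' (B.map (QuotientGroup.mk' A)) hBne hmin hnc
    have h1 : QuotientGroup.mk' A x ∈ B.map (QuotientGroup.mk' A) ⊓
        Cfsg.systemNormalizer (fun p => (K p).map (QuotientGroup.mk' A)) := by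
      rw [hD]
      exact ⟨⟨x, hx.1, rfl⟩, ⟨x, hx.2, rfl⟩⟩
    rw [h, Subgroup.mem_bot] at h1
    exact (QuotientGroup.eq_one_iff x).mp h1

end Cfsg.Agent.S0568
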