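import Cfsg.Statements.S0569
import Cfsg.Agent.Lib.Helper12Carter
open Pointwise

set_option autoImplicit false
open Cfsg

namespace Cfsg.Agent.S0569

/-- In a finite solvable group: each nilpotent self-normalizing subgroup contains the system normalizer of some Hall complement system, and the system normalizer of any Hall complement system lies in some nilpotent self-normalizing subgroup. -/
theorem result {G : Type*} [Group G] [Finite G] [Group.IsSolvable G] : (∀ C : Subgroup G, Cfsg.IsCarterSubgroup C → ∃ K : Nat.Primes → Subgroup G, Cfsg.IsComplementSystem K ∧ Cfsg.systemNormalizer K ≤ C) ∧ ∀ K : Nat.Primes → Subgroup G, Cfsg.IsComplementSystem K → ∃ C : Subgroup G, Cfsg.IsCarterSubgroup C ∧ Cfsg.systemNormalizer K ≤ C := by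
  constructor
  · intro C hC
    obtain ⟨K, hK, hred⟩ := Cfsg.Agent.Lib.Helper12Carter.exists_reduces C
    exact ⟨K, hK, Cfsg.Agent.Lib.Helper12Carter.systemNormalizer_le_of_reduces hK hC hred⟩
  · intro K hK
    obtain ⟨C₀, K₀, g, hC₀, hK₀, hred, rfl⟩ := Cfsg.Agent.Lib.Helper12Carter.exists_carter_ge hK
    refine ⟨MulAut.conj g • C₀, Cfsg.Agent.Lib.Helper12CarterBase.carter_conj hC₀ g, ?_⟩
    rw [Cfsg.Agent.Lib.Helper12Carter.systemNormalizer_conj]
    exact Subgroup.pointwise_smul_le_pointwise_smul_iff.mpr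
      (Cfsg.Agent.Lib.Helper12Carter.systemNormalizer_le_of_reduces hK₀ hC₀ hred)

end Cfsg.Agent.S0569
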