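import Cfsg.Statements.S0573
import Cfsg.Agent.Lib.Helper13Ito

set_option autoImplicit false
open Cfsg

namespace Cfsg.Agent.S0573

open Subgroup Cfsg.Agent.Lib.Helper13Basic Cfsg.Agent.Lib.Helper13Ito
open scoped commutatorElement

section
variable {G : Type*} [Group G]

theorem comm_in (hM : IsMulCommutative (commutator G)) (x y : commutator G) : x * y = y * x :=
  mul_comm' x y

/-- conjugation on the derived subgroup -/
noncomputable def C (g : G) : Monoid.End (commutator G) := (MulAut.conjNormal g : MulAut (commutator G)).toMonoidHom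

theorem C_coe (g : G) (x : commutator G) : ((C g x : commutator G) : G) = g * x * g⁻¹ :=
  MulAut.conjNormal_apply g x

/-- the commutator as an element of the derived subgroup -/
def c (a b : G) : commutator G := ⟨⁅a, b⁆, commutator_mem_commutator (mem_top a) (mem_top b)⟩

theorem C_comm (hM : IsMulCommutative (commutator G)) (g h : G) (x : commutator G) :
    C g (C h x) = C h (C g x) := by
  have h1 : C g (C h x) = c g h * C h (C g x) * (c g h)⁻¹ := by
    apply Subtype.ext
    simp only [C_coe, c, Subgroup.coe_mul, Subgroup.coe_inv, commutatorElement_def]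
    group
  rw [h1, comm_in hM (c g h)]
  group

/-- `x ↦ ⁅g, x⁆` on the (abelian) derived subgroup -/
noncomputable def D (hM : IsMulCommutative (commutator G)) (g : G) : Monoid.End (commutator G) where
  toFun x := C g x * x⁻¹
  map_one' := by simp
  map_mul' x y := by
    rw [map_mul, mul_inv_rev, mul_assoc, mul_assoc]
    congr 1
    rw [← mul_assoc, comm_in hM (C g y * y⁻¹) x⁻¹]

theorem D_apply (hM : IsMulCommutative (commutator G)) (g : G) (x : commutator G) :
    D hM g x = C g x * x⁻¹ := rfl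

theorem D_comm (hM : IsMulCommutative (commutator G)) (g h : G) (x : commutator G) :
    D hM g (D hM h x) = D hM h (D hM g x) := by
  simp only [D_apply, map_mul, map_inv, mul_inv_rev, inv_inv]
  rw [C_comm hM g h x]
  have e1 : C h (C g x) * (C g x)⁻¹ * (x * (C h x)⁻¹) = C h (C g x) * ((C g x)⁻¹ * (x * (C h x)⁻¹)) := by
    group
  have e2 : C h (C g x) * (C h x)⁻¹ * (x * (C g x)⁻¹) = C h (C g x) * ((C h x)⁻¹ * (x * (C g x)⁻¹)) := by
    group
  rw [e1, e2]
  congr 1
  rw [comm_in hM x, ← mul_assoc, comm_in hM (C g x)⁻¹, comm_in hM x, mul_assoc, mul_assoc,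
    comm_in hM x (C g x)⁻¹]

theorem D_commute (hM : IsMulCommutative (commutator G)) (g h : G) :
    Commute (D hM g) (D hM h) := by
  apply Monoid.End.ext
  intro x
  exact D_comm hM g h x

theorem D_c_left (hM : IsMulCommutative (commutator G)) {a a' : G} (h : a * a' = a' * a) (b : G) :
    D hM a (c a' b) = D hM a' (c a b) := by
  have e1 : C a (c a' b) * c a b = c (a * a') b := by
    apply Subtype.ext
    simp only [C_coe, c, Subgroup.coe_mul, commutatorElement_def]
    group
  have e2 : C a' (c a b) * c a' b = c (a' * a) b := by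
    apply Subtype.ext
    simp only [C_coe, c, Subgroup.coe_mul, commutatorElement_def]
    group
  rw [D_apply, D_apply, mul_inv_eq_iff_eq_mul, mul_assoc, comm_in hM (c a b)⁻¹, ← mul_assoc,
    eq_mul_inv_iff_mul_eq, e1, e2, h]

theorem D_c_right (hM : IsMulCommutative (commutator G)) {b b' : G} (h : b * b' = b' * b) (a : G) :
    D hM b (c a b') = D hM b' (c a b) := by
  have e1 : c a b * C b (c a b') = c a (b * b') := by
    apply Subtype.ext
    simp only [C_coe, c, Subgroup.coe_mul, commutatorElement_def]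
    group
  have e2 : c a b' * C b' (c a b) = c a (b' * b) := by
    apply Subtype.ext
    simp only [C_coe, c, Subgroup.coe_mul, commutatorElement_def]
    group
  rw [D_apply, D_apply, mul_inv_eq_iff_eq_mul, mul_assoc, comm_in hM (c a b)⁻¹, ← mul_assoc,
    eq_mul_inv_iff_mul_eq, comm_in hM _ (c a b), e1, comm_in hM _ (c a b'), e2, h]

theorem D_D_c (hM : IsMulCommutative (commutator G)) {a a' b b' : G} (ha : a * a' = a' * a)
    (hb : b * b' = b' * b) :
    D hM a (D hM b (c a' b')) = D hM b' (D hM a' (c a b)) := by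
  rw [D_c_right hM hb, D_comm, D_c_left hM ha]

theorem conj_comm_eq (hM : IsMulCommutative (commutator G)) (u : commutator G) (a' b' : G) :
    ⁅(u : G)⁻¹ * a' * u, b'⁆ = ((c a' b' * (D hM b' (D hM a' u))⁻¹ : commutator G) : G) := by
  have e : c a' b' * (D hM b' (D hM a' u))⁻¹ = D hM a' u * c a' b' * (C b' (D hM a' u))⁻¹ := by
    rw [D_apply hM b', mul_inv_rev, inv_inv, ← mul_assoc, comm_in hM (c a' b')]
  rw [e]
  have e2 : D hM a' u = u⁻¹ * C a' u := by rw [D_apply, comm_in hM]
  rw [e2]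
  simp only [C_coe, c, Subgroup.coe_mul, Subgroup.coe_inv, commutatorElement_def]
  group

end

section
variable {G : Type*} [Group G] [Finite G] (A B : Subgroup G) [IsMulCommutative A] [IsMulCommutative B]

theorem conj_factor (hAB : ∀ g : G, ∃ a ∈ A, ∃ b ∈ B, g = a * b) (u : G) :
    ∀ g : G, ∃ a ∈ A.map (MulAut.conj u⁻¹).toMonoidHom, ∃ b ∈ B, g = a * b := by
  intro g
  obtain ⟨a0, ha0, b0, hb0, rfl⟩ := hAB u
  obtain ⟨a1, ha1, b2, hb2, h2⟩ := hAB (b0 * g)
  refine ⟨(a0 * b0)⁻¹ * a1 * (a0 * b0), ⟨a1, ha1, by simp [mul_assoc]⟩, b0⁻¹ * b2, B.mul_mem (B.inv_mem hb0) hb2, ?_⟩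
  have h3 : a0⁻¹ * a1 * a0 = a1 := by
    rw [mul_assoc, comm_of_mem A ha1 ha0]; group
  calc g = b0⁻¹ * (b0 * g) := by group
    _ = b0⁻¹ * (a1 * b2) := by rw [h2]
    _ = b0⁻¹ * (a0⁻¹ * a1 * a0) * b2 := by rw [h3]; group
    _ = (a0 * b0)⁻¹ * a1 * (a0 * b0) * (b0⁻¹ * b2) := by group

theorem nilp (hAB : ∀ g : G, ∃ a ∈ A, ∃ b ∈ B, g = a * b) (hM : IsMulCommutative (commutator G))
    {a b : G} (ha : a ∈ A) (hb : b ∈ B) :
    ∃ n : ℕ, ∀ x : commutator G, ((D hM a * D hM b) ^ n) x = 1 := by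
  set φ := D hM a * D hM b with hφ
  have hex : ∃ i j : ℕ, i < j ∧ (φ ^ i) (c a b) = (φ ^ j) (c a b) := by
    obtain ⟨i, j, hij, h⟩ := Finite.exists_ne_map_eq_of_infinite (fun n : ℕ => (φ ^ n) (c a b))
    rcases lt_or_gt_of_ne hij with h1 | h1
    · exact ⟨i, j, h1, h⟩
    · exact ⟨j, i, h1, h.symm⟩
  obtain ⟨i, j, hij, h⟩ := hex
  set u : commutator G := (φ ^ (j - i - 1)) (c a b) with hu
  have hu1 : (φ ^ i) (c a b) = (φ ^ (i + 1)) u := by
    rw [h, hu]
    have : j = (i + 1) + (j - i - 1) := by omega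
    conv_lhs => rw [this, pow_add]
    rfl
  refine ⟨i + 1, ?_⟩
  have hA' : IsMulCommutative (A.map (MulAut.conj (u : G)⁻¹).toMonoidHom) := by
    apply isMulCommutative_of_comm
    rintro _ ⟨x, hx, rfl⟩ _ ⟨y, hy, rfl⟩
    rw [← map_mul, ← map_mul, comm_of_mem A hx hy]
  have hle := commutator_le_commAB (A.map (MulAut.conj (u : G)⁻¹).toMonoidHom) B (conj_factor A B hAB u)
  have hK : ⁅A.map (MulAut.conj (u : G)⁻¹).toMonoidHom, B⁆ ≤
      (MonoidHom.ker (show commutator G →* commutator G from φ ^ (i + 1))).map (commutator G).subtype := by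
    rw [commutator_le]
    rintro _ ⟨a', ha', rfl⟩ b' hb'
    refine ⟨c a' b' * (D hM b' (D hM a' u))⁻¹, ?_, ?_⟩
    · have hcomm : Commute (φ ^ i) (D hM b' * D hM a') := by
        apply Commute.pow_left
        apply Commute.mul_left <;> apply Commute.mul_right <;> apply D_commute
      have hcomm2 : Commute (φ ^ (i + 1)) (D hM b' * D hM a') := by
        apply Commute.pow_left
        apply Commute.mul_left <;> apply Commute.mul_right <;> apply D_commute
      have e1 : (φ ^ (i + 1)) (c a' b') = (φ ^ (i + 1)) (D hM b' (D hM a' u)) := by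
        calc (φ ^ (i + 1)) (c a' b') = (φ ^ i) (φ (c a' b')) := by rw [pow_succ]; rfl
          _ = (φ ^ i) (D hM b' (D hM a' (c a b))) := by
              rw [← D_D_c hM (comm_of_mem A ha ha') (comm_of_mem B hb hb')]; rfl
          _ = (φ ^ i * (D hM b' * D hM a')) (c a b) := rfl
          _ = ((D hM b' * D hM a') * φ ^ i) (c a b) := by rw [hcomm.eq]
          _ = (D hM b' * D hM a') ((φ ^ i) (c a b)) := rfl
          _ = (D hM b' * D hM a') ((φ ^ (i + 1)) u) := by rw [hu1]
          _ = ((D hM b' * D hM a') * φ ^ (i + 1)) u := rfl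
          _ = (φ ^ (i + 1) * (D hM b' * D hM a')) u := by rw [hcomm2.eq]
          _ = (φ ^ (i + 1)) (D hM b' (D hM a' u)) := rfl
      show (φ ^ (i + 1)) (c a' b' * (D hM b' (D hM a' u))⁻¹) = 1
      rw [map_mul, map_inv, e1, mul_inv_cancel]
    · rw [Subgroup.coe_subtype, ← conj_comm_eq hM u a' b']
      simp
  intro x
  obtain ⟨y, hy, hyx⟩ := hK (hle x.2)
  have : y = x := Subtype.ext hyx
  rw [← this]
  exact hy

end

section
variable {G : Type*} [Group G]

theorem normal_zpowers_of_central {x : G} (hx : x ∈ center G) : (zpowers x).Normal := by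
  constructor
  intro n hn g
  have hn' : n ∈ center G := (zpowers_le.mpr hx) hn
  have : g * n * g⁻¹ = n := by
    rw [mem_center_iff.mp hn' g]; group
  rwa [this]

theorem mem_center_of_comm (A B : Subgroup G) (hAB : ∀ g : G, ∃ a ∈ A, ∃ b ∈ B, g = a * b) {x : G}
    (hA : ∀ a ∈ A, x * a = a * x) (hB : ∀ b ∈ B, x * b = b * x) : x ∈ center G := by
  rw [mem_center_iff]
  intro g
  obtain ⟨a, ha, b, hb, rfl⟩ := hAB g
  rw [mul_assoc, ← hB b hb, ← mul_assoc, ← hA a ha, mul_assoc]

theorem center_case (A B : Subgroup G) [IsMulCommutative A] [IsMulCommutative B]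
    (hAB : ∀ g : G, ∃ a ∈ A, ∃ b ∈ B, g = a * b) {z : G} (hz : z ∈ center G) (hz1 : z ≠ 1) :
    ∃ N : Subgroup G, N.Normal ∧ N ≠ ⊥ ∧ (N ≤ A ∨ N ≤ B) := by
  obtain ⟨a, ha, b, hb, rfl⟩ := hAB z
  have hac : a ∈ center G := by
    apply mem_center_of_comm A B hAB (fun a1 ha1 => comm_of_mem A ha ha1)
    intro b1 hb1
    have hz' : (a * b) * b1 = b1 * (a * b) := (mem_center_iff.mp hz b1).symm
    have : a * b1 * b = b1 * a * b := by
      rw [mul_assoc, ← comm_of_mem B hb hb1, ← mul_assoc, hz', mul_assoc]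
    exact mul_right_cancel this
  have hbc : b ∈ center G := by
    have : b = a⁻¹ * (a * b) := by group
    rw [this]
    exact mul_mem (inv_mem hac) hz
  by_cases ha1 : a = 1
  · have hb1 : b ≠ 1 := by
      rintro rfl
      exact hz1 (by simp [ha1])
    exact ⟨zpowers b, normal_zpowers_of_central hbc, by simpa using hb1, Or.inr (zpowers_le.mpr hb)⟩
  · exact ⟨zpowers a, normal_zpowers_of_central hac, by simpa using ha1, Or.inl (zpowers_le.mpr ha)⟩

theorem self_centralizing (A B : Subgroup G) [IsMulCommutative A] [IsMulCommutative B]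
    (hAB : ∀ g : G, ∃ a ∈ A, ∃ b ∈ B, g = a * b) (hZ : center G = ⊥) {x : G}
    (hx : ∀ a ∈ A, x * a = a * x) : x ∈ A := by
  obtain ⟨a0, ha0, b0, hb0, rfl⟩ := hAB x
  have hb : b0 ∈ center G := by
    apply mem_center_of_comm A B hAB _ (fun b1 hb1 => comm_of_mem B hb0 hb1)
    intro a ha
    have h1 := hx a ha
    have : a0 * (b0 * a) = a0 * (a * b0) := by
      rw [← mul_assoc, h1, ← mul_assoc, ← mul_assoc, comm_of_mem A ha ha0]
    exact mul_left_cancel this
  rw [hZ, mem_bot] at hb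
  rw [hb, mul_one]; exact ha0

theorem inf_centralizer_normal (hM : IsMulCommutative (commutator G)) (N : Subgroup G) [N.Normal]
    (hN : N ≤ commutator G) (g : G) : (N ⊓ centralizer {g}).Normal := by
  constructor
  intro x hx h
  refine ⟨‹N.Normal›.conj_mem x hx.1 h, ?_⟩
  show h * x * h⁻¹ ∈ centralizer {g}
  rw [mem_centralizer_singleton_iff]
  have hxg : x * g = g * x := mem_centralizer_singleton_iff.mp hx.2
  have h1 := C_comm hM g h ⟨x, hN hx.1⟩
  have h2 : C g ⟨x, hN hx.1⟩ = ⟨x, hN hx.1⟩ := by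
    apply Subtype.ext
    rw [C_coe]
    show g * x * g⁻¹ = x
    rw [← hxg]; group
  rw [h2] at h1
  have h3 := congrArg Subtype.val h1
  rw [C_coe, C_coe] at h3
  calc h * x * h⁻¹ * g = g * (g⁻¹ * (h * x * h⁻¹) * g) := by group
    _ = g * (g⁻¹ * (g * (h * x * h⁻¹) * g⁻¹) * g) := by rw [h3]
    _ = g * (h * x * h⁻¹) := by group

theorem D_inj (hM : IsMulCommutative (commutator G)) (N : Subgroup G) [N.Normal] (g : G)
    (hg : N ⊓ centralizer {g} = ⊥) (x : commutator G) (hx : (x : G) ∈ N) (hx1 : x ≠ 1) :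
    ((D hM g x : commutator G) : G) ∈ N ∧ D hM g x ≠ 1 := by
  constructor
  · rw [D_apply, Subgroup.coe_mul, C_coe, Subgroup.coe_inv]
    exact N.mul_mem (‹N.Normal›.conj_mem _ hx g) (N.inv_mem hx)
  · intro h
    rw [D_apply, mul_inv_eq_one] at h
    have h3 := congrArg Subtype.val h
    rw [C_coe] at h3
    have : (x : G) ∈ N ⊓ centralizer {g} := by
      refine ⟨hx, ?_⟩
      show (x : G) ∈ centralizer {g}
      rw [mem_centralizer_singleton_iff]
      calc (x : G) * g = g * x * g⁻¹ * g := by rw [h3]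
        _ = g * x := by group
    rw [hg, mem_bot] at this
    exact hx1 (Subtype.ext this)

end

/-- If a nontrivial finite group G is the product AB of abelian subgroups A and B, then some nontrivial normal subgroup of G is contained in A or in B. -/
theorem result {G : Type*} [Group G] [Finite G] [Nontrivial G] (A B : Subgroup G) [IsMulCommutative A] [IsMulCommutative B] (hAB : ∀ g : G, ∃ a ∈ A, ∃ b ∈ B, g = a * b) : ∃ N : Subgroup G, N.Normal ∧ N ≠ ⊥ ∧ (N ≤ A ∨ N ≤ B) := by
  by_cases hZ : center G = ⊥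
  swap
  · obtain ⟨z, hz⟩ := Subgroup.ne_bot_iff_exists_ne_one.mp hZ
    exact center_case A B hAB z.2 (fun h => hz (Subtype.ext h))
  have hM := ito A B hAB
  have hMne : commutator G ≠ ⊥ := by
    intro h
    rw [commutator_eq_bot_iff_center_eq_top, hZ] at h
    exact bot_ne_top h
  obtain ⟨N, hN⟩ := exists_minimal_of_wellFoundedLT
    (fun N : Subgroup G => N.Normal ∧ N ≠ ⊥ ∧ N ≤ commutator G) ⟨commutator G, inferInstance, hMne, le_rfl⟩
  obtain ⟨⟨hNn, hNne, hNM⟩, hNmin⟩ := hN
  have hdich : ∀ g : G, ¬ N ≤ centralizer {g} → N ⊓ centralizer {g} = ⊥ := by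
    intro g hg
    by_contra hne
    have := hNmin ⟨inf_centralizer_normal hM N hNM g, hne, inf_le_left.trans hNM⟩ inf_le_left
    exact hg (this.trans inf_le_right)
  by_cases hA : ∀ a ∈ A, N ≤ centralizer {a}
  · refine ⟨N, hNn, hNne, Or.inl ?_⟩
    intro x hx
    apply self_centralizing A B hAB hZ
    intro a ha
    exact mem_centralizer_singleton_iff.mp (hA a ha hx)
  by_cases hB : ∀ b ∈ B, N ≤ centralizer {b}
  · refine ⟨N, hNn, hNne, Or.inr ?_⟩
    intro x hx
    apply self_centralizing B A (exists_ba A B hAB) hZ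
    intro b hb
    exact mem_centralizer_singleton_iff.mp (hB b hb hx)
  exfalso
  push Not at hA hB
  obtain ⟨a, ha, haN⟩ := hA
  obtain ⟨b, hb, hbN⟩ := hB
  obtain ⟨n, hn⟩ := nilp A B hAB hM ha hb
  obtain ⟨⟨x, hx⟩, hx1'⟩ := Subgroup.ne_bot_iff_exists_ne_one.mp hNne
  have hx1 : x ≠ 1 := fun h => hx1' (Subtype.ext h)
  have key : ∀ k : ℕ, ((((D hM a * D hM b) ^ k) ⟨x, hNM hx⟩ : commutator G) : G) ∈ N ∧
      ((D hM a * D hM b) ^ k) ⟨x, hNM hx⟩ ≠ 1 := by
    intro k
    induction k with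
    | zero => exact ⟨hx, fun h => hx1 (congrArg Subtype.val h)⟩
    | succ k ih =>
      have e : ((D hM a * D hM b) ^ (k + 1)) ⟨x, hNM hx⟩
          = D hM a (D hM b (((D hM a * D hM b) ^ k) ⟨x, hNM hx⟩)) := by
        rw [pow_succ']; rfl
      rw [e]
      have h1 := D_inj hM N b (hdich b hbN) _ ih.1 ih.2
      exact D_inj hM N a (hdich a haN) _ h1.1 h1.2
  exact (key n).2 (hn _)

end Cfsg.Agent.S0573
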