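import Cfsg.Statements.S0571
import Cfsg.Agent.Lib.Helper13Supersolvable
import Cfsg.Agent.S0573

set_option autoImplicit false
open Cfsg

namespace Cfsg.Agent.S0571

theorem aux (n : ℕ) : ∀ (G : Type*) [Group G] [Finite G], Nat.card G = n →
    ∀ (A B : Subgroup G) [IsCyclic A] [IsCyclic B], (∀ g : G, ∃ a ∈ A, ∃ b ∈ B, g = a * b) →
    Cfsg.IsSupersolvable G := by
  induction n using Nat.strong_induction_on with
  | _ n ih =>
    intro G _ _ hn A B _ _ hAB
    rcases subsingleton_or_nontrivial G with hs | hnt
    · exact Cfsg.Agent.Lib.Helper13Supersolvable.of_subsingleton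
    · obtain ⟨N, hNn, hNne, hNAB⟩ := Cfsg.Agent.S0573.result A B hAB
      have hNc : IsCyclic N := by
        rcases hNAB with h | h
        · exact Subgroup.isCyclic_of_le h
        · exact Subgroup.isCyclic_of_le h
      obtain ⟨x, rfl⟩ := (Subgroup.isCyclic_iff_exists_zpowers_eq_top _).mp hNc
      apply Cfsg.Agent.Lib.Helper13Supersolvable.of_quotient_zpowers x
      have hlt : Nat.card (G ⧸ Subgroup.zpowers x) < n := by
        rw [← hn, Subgroup.card_eq_card_quotient_mul_card_subgroup (Subgroup.zpowers x)]
        have h1 : 1 < Nat.card (Subgroup.zpowers x) := by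
          rw [Subgroup.one_lt_card_iff_ne_bot]; exact hNne
        have h2 : 0 < Nat.card (G ⧸ Subgroup.zpowers x) := Nat.card_pos
        nlinarith
      have hA' : IsCyclic (A.map (QuotientGroup.mk' (Subgroup.zpowers x))) :=
        isCyclic_of_surjective ((QuotientGroup.mk' (Subgroup.zpowers x)).subgroupMap A)
          (MonoidHom.subgroupMap_surjective _ _)
      have hB' : IsCyclic (B.map (QuotientGroup.mk' (Subgroup.zpowers x))) :=
        isCyclic_of_surjective ((QuotientGroup.mk' (Subgroup.zpowers x)).subgroupMap B)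
          (MonoidHom.subgroupMap_surjective _ _)
      refine ih _ hlt (G ⧸ Subgroup.zpowers x) rfl (A.map (QuotientGroup.mk' _))
        (B.map (QuotientGroup.mk' _)) ?_
      intro g
      obtain ⟨y, rfl⟩ := QuotientGroup.mk'_surjective _ g
      obtain ⟨a, ha, b, hb, rfl⟩ := hAB y
      exact ⟨_, Subgroup.mem_map_of_mem _ ha, _, Subgroup.mem_map_of_mem _ hb, map_mul _ _ _⟩

/-- If a finite group G is the product AB of two cyclic subgroups (every element is a product ab), then G is supersolvable. -/
theorem result {G : Type*} [Group G] [Finite G] (A B : Subgroup G) [IsCyclic A] [IsCyclic B] (hAB : ∀ g : G, ∃ a ∈ A, ∃ b ∈ B, g = a * b) : Cfsg.IsSupersolvable G := by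
  exact aux _ G rfl A B hAB

end Cfsg.Agent.S0571
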