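import Cfsg.Statements.S0575
import Cfsg.Agent.Lib.Helper13Frattini

set_option autoImplicit false
open Cfsg

namespace Cfsg.Agent.S0575

/-- If H is a normal subgroup of a finite group G, then the Frattini subgroup of H, viewed in G, lies in the Frattini subgroup of G. -/
theorem result {G : Type*} [Group G] [Finite G] (H : Subgroup G) [H.Normal] : (frattini ↥H).map H.subtype ≤ frattini G := by
  haveI : ((frattini ↥H).map H.subtype).Normal := ConjAct.normal_of_characteristic_of_normal
  exact Cfsg.Agent.Lib.Helper13Frattini.normal_le_frattini_of_le_frattini_subgroup H _ le_rfl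

end Cfsg.Agent.S0575
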