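import Cfsg.Statements.S0576
import Cfsg.Agent.Lib.Helper13Frattini

set_option autoImplicit false
open Cfsg

namespace Cfsg.Agent.S0576

/-- Let H be a normal subgroup of a finite group G with H contained in the Frattini subgroup of G. Then the group of inner automorphisms of H is contained in the Frattini subgroup of the automorphism group of H. -/
theorem result {G : Type*} [Group G] [Finite G] (H : Subgroup G) [H.Normal] (hH : H ≤ frattini G) : (MulAut.conj : ↥H →* MulAut ↥H).range ≤ frattini (MulAut ↥H) := by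
  rw [Cfsg.Agent.Lib.Helper13Frattini.le_frattini_iff]
  intro U hU
  by_contra hIU
  have hInormal : ((MulAut.conj : ↥H →* MulAut ↥H).range).Normal := by
    constructor
    rintro _ ⟨h, rfl⟩ σ
    refine ⟨σ h, ?_⟩
    ext x
    simp
  have htop : U ⊔ (MulAut.conj : ↥H →* MulAut ↥H).range = ⊤ := by
    apply hU.2
    exact lt_of_le_of_ne le_sup_left (fun h => hIU (h ▸ le_sup_right))
  have h1 : U.comap (MulAut.conjNormal : G →* MulAut ↥H) ⊔ H = ⊤ := by
    rw [eq_top_iff]
    intro g _
    have hg : (MulAut.conjNormal g : MulAut ↥H) ∈ U ⊔ (MulAut.conj : ↥H →* MulAut ↥H).range :=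
      htop ▸ Subgroup.mem_top _
    rw [Subgroup.mem_sup_of_normal_right] at hg
    obtain ⟨u, hu, _, ⟨h, rfl⟩, hg⟩ := hg
    have h2 : g * (h : G)⁻¹ ∈ U.comap (MulAut.conjNormal : G →* MulAut ↥H) := by
      rw [Subgroup.mem_comap, map_mul, map_inv, MulAut.conjNormal_val, ← hg]
      simpa using hu
    have : g = g * (h : G)⁻¹ * h := by group
    rw [this]
    exact mul_mem (Subgroup.mem_sup_left h2) (Subgroup.mem_sup_right h.2)
  have h3 : U.comap (MulAut.conjNormal : G →* MulAut ↥H) ⊔ frattini G = ⊤ := by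
    rw [eq_top_iff, ← h1]
    exact sup_le_sup_left hH _
  have h4 := frattini_nongenerating h3
  apply hIU
  rintro _ ⟨h, rfl⟩
  have : (h : G) ∈ U.comap (MulAut.conjNormal : G →* MulAut ↥H) := h4 ▸ Subgroup.mem_top _
  rw [Subgroup.mem_comap, MulAut.conjNormal_val] at this
  exact this

end Cfsg.Agent.S0576
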