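import Cfsg.Statements.S0577
import Mathlib
import Cfsg.Agent.Lib.Helper13Basic
import Cfsg.Agent.Lib.Helper28Fitting
import Cfsg.Agent.Lib.Helper31Nilpotent

set_option autoImplicit false
open Cfsg
open scoped commutatorElement

namespace Cfsg.Agent.S0577

theorem commute_of_nilpotent {G : Type*} [Group G] (K : Subgroup G) (hK : Group.IsNilpotent K)
    {x y : G} (hx : x ∈ K) (hy : y ∈ K) (h : (orderOf x).Coprime (orderOf y)) : x * y = y * x := by
  have := Cfsg.Agent.Lib.Helper31Nilpotent.coprime_commute K ⟨x, hx⟩ ⟨y, hy⟩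
    (by rw [← Subgroup.orderOf_coe, ← Subgroup.orderOf_coe]; exact h)
  exact congrArg Subtype.val this

theorem nilpotent_of_sup {G : Type*} [Group G] [Finite G] (N1 N2 : Subgroup G) (h1 : N1.Normal)
    (h2 : N2.Normal) (hn1 : Group.IsNilpotent N1) (hn2 : Group.IsNilpotent N2) (h : N1 ⊔ N2 = ⊤) :
    Group.IsNilpotent G := by
  have hF : Cfsg.fittingSubgroup G = ⊤ := by
    rw [eq_top_iff, ← h]
    exact sup_le (Cfsg.Agent.Lib.Helper28Fitting.le_fitting h1 hn1)
      (Cfsg.Agent.Lib.Helper28Fitting.le_fitting h2 hn2)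
  have := Cfsg.Agent.Lib.Helper28Fitting.fitting_isNilpotent (G := G)
  rw [hF] at this
  exact Group.isNilpotent_top.mp this

theorem coprime_orderOf {G : Type*} [Group G] {a m : ℕ} (h : a.Coprime m) {x y : G} (hx : x ^ a = 1)
    (hy : y ^ m = 1) : (orderOf x).Coprime (orderOf y) :=
  Nat.Coprime.coprime_dvd_left (orderOf_dvd_of_pow_eq_one hx)
    (Nat.Coprime.coprime_dvd_right (orderOf_dvd_of_pow_eq_one hy) h)

theorem eq_one_of_pow {G : Type*} [Group G] {a m : ℕ} (h : a.Coprime m) {z : G} (h1 : z ^ a = 1)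
    (h2 : z ^ m = 1) : z = 1 := by
  have h3 : orderOf z ∣ Nat.gcd a m :=
    Nat.dvd_gcd (orderOf_dvd_of_pow_eq_one h1) (orderOf_dvd_of_pow_eq_one h2)
  rw [h.gcd_eq_one, Nat.dvd_one, orderOf_eq_one_iff] at h3
  exact h3

theorem split {G : Type*} [Group G] {a m : ℕ} (h : a.Coprime m) (x : G) (hx : x ^ (a * m) = 1) :
    ∃ x1 x2 : G, x = x1 * x2 ∧ x1 ∈ Subgroup.zpowers x ∧ x2 ∈ Subgroup.zpowers x ∧ x1 ^ a = 1 ∧
      x2 ^ m = 1 := by
  have hb := Nat.gcd_eq_gcd_ab a m
  rw [h.gcd_eq_one] at hb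
  refine ⟨x ^ ((m : ℤ) * Nat.gcdB a m), x ^ ((a : ℤ) * Nat.gcdA a m), ?_,
    Subgroup.zpow_mem_zpowers _ _, Subgroup.zpow_mem_zpowers _ _, ?_, ?_⟩
  · rw [← zpow_add]
    have : (m : ℤ) * Nat.gcdB a m + (a : ℤ) * Nat.gcdA a m = 1 := by
      rw [add_comm]; exact_mod_cast hb.symm
    rw [this, zpow_one]
  · rw [← zpow_natCast, ← zpow_mul]
    have : (m : ℤ) * Nat.gcdB a m * (a : ℤ) = ((a * m : ℕ) : ℤ) * Nat.gcdB a m := by
      push_cast; ring
    rw [this, zpow_mul, zpow_natCast, hx, one_zpow]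
  · rw [← zpow_natCast, ← zpow_mul]
    have : (a : ℤ) * Nat.gcdA a m * (m : ℤ) = ((a * m : ℕ) : ℤ) * Nat.gcdA a m := by
      push_cast; ring
    rw [this, zpow_mul, zpow_natCast, hx, one_zpow]

/-- Let G be a finite minimal non-nilpotent group and Q a normal Sylow q-subgroup of G, and let D be the commutator subgroup of Q regarded in G (a normal subgroup). Then G modulo D is non-abelian and all its proper subgroups are abelian. -/
theorem result {G : Type*} [Group G] [Finite G] (hG : Cfsg.IsMinimalNonNilpotent G) (q : ℕ) [Fact q.Prime] (hq : q ∣ Nat.card G) (Q : Sylow q G) (hQ : (Q : Subgroup G).Normal) (D : Subgroup G) [D.Normal] (hD : D = (commutator ↥(Q : Subgroup G)).map (Q : Subgroup G).subtype) : ¬ IsMulCommutative (G ⧸ D) ∧ ∀ K : Subgroup (G ⧸ D), K ≠ ⊤ → IsMulCommutative K := by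
  obtain ⟨hGn, hGp⟩ := hG
  set Qs : Subgroup G := (Q : Subgroup G) with hQs
  have hcop0 : (Nat.card Qs).Coprime Qs.index := Q.card_coprime_index
  obtain ⟨H, hH⟩ := Subgroup.exists_right_complement'_of_coprime hcop0
  have hsup : Qs ⊔ H = ⊤ := hH.sup_eq_top
  have hdisj : Qs ⊓ H = ⊥ := disjoint_iff.mp hH.disjoint
  have hQne : Qs ≠ ⊥ := Q.ne_bot_of_dvd_card hq
  have hHcard : Qs.index = Nat.card H := hH.symm.index_eq_card
  set a := Nat.card Qs with ha
  set m := Nat.card H with hm
  have hcop : a.Coprime m := by rw [← hHcard]; exact hcop0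
  have ham : a * m = Nat.card G := by rw [← hHcard]; exact Subgroup.card_mul_index Qs
  have hQpow : ∀ u ∈ Qs, u ^ a = 1 := fun u hu => by
    have := pow_card_eq_one' (G := Qs) (x := ⟨u, hu⟩)
    exact congrArg Subtype.val this
  have hHpow : ∀ h ∈ H, h ^ m = 1 := fun h hh => by
    have := pow_card_eq_one' (G := H) (x := ⟨h, hh⟩)
    exact congrArg Subtype.val this
  have hHtop : H ≠ ⊤ := by
    intro h
    rw [h, inf_top_eq] at hdisj
    exact hQne hdisj
  have hHnil : Group.IsNilpotent H := hGp H hHtop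
  have hQnil : Group.IsNilpotent Qs := Q.isPGroup'.isNilpotent
  -- step 3
  have hHnn : ¬ H.Normal := fun h => hGn (nilpotent_of_sup Qs H hQ h hQnil hHnil hsup)
  -- step 4
  have step4 : ∀ M : Subgroup G, M ≤ H → M ≠ H → M ≤ Subgroup.centralizer (Qs : Set G) := by
    intro M hMH hMne
    have hne : Qs ⊔ M ≠ ⊤ := by
      intro htop
      apply hMne
      apply le_antisymm hMH
      intro h hh
      have : h ∈ Qs ⊔ M := htop ▸ Subgroup.mem_top h
      rw [Subgroup.mem_sup_of_normal_left] at this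
      obtain ⟨u, hu, k, hk, rfl⟩ := this
      have hu' : u ∈ Qs ⊓ H := by
        refine ⟨hu, ?_⟩
        have := H.mul_mem hh (H.inv_mem (hMH hk))
        simpa using this
      rw [hdisj, Subgroup.mem_bot] at hu'
      rw [hu', one_mul]; exact hk
    have hnil := hGp _ hne
    intro k hk
    rw [Subgroup.mem_centralizer_iff]
    intro u hu
    exact commute_of_nilpotent _ hnil (Subgroup.mem_sup_left hu) (Subgroup.mem_sup_right hk)
      (coprime_orderOf hcop (hQpow u hu) (hHpow k (hMH hk)))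
  -- step 5
  have step5 : IsMulCommutative H := by
    have hex : ∃ t ∈ H, t ∉ Subgroup.centralizer (Qs : Set G) := by
      by_contra hcon
      push Not at hcon
      apply hHnn
      rw [← Subgroup.normalizer_eq_top_iff, eq_top_iff, ← hsup, sup_le_iff]
      refine ⟨?_, Subgroup.le_normalizer⟩
      rw [Subgroup.le_normalizer_iff]
      intro u hu h hh
      have := Subgroup.mem_centralizer_iff.mp (hcon h hh) u hu
      rw [this]; simpa using hh
    obtain ⟨t, htH, htC⟩ := hex
    have : Subgroup.zpowers t = H := by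
      by_contra hne
      exact htC (step4 _ (Subgroup.zpowers_le.mpr htH) hne (Subgroup.mem_zpowers t))
    rw [← this]
    infer_instance
  -- step 6
  have step6 : commutator G ≤ Qs :=
    Subgroup.Normal.commutator_le_of_self_sup_commutative_eq_top hsup step5
  have hDeq : D = ⁅Qs, Qs⁆ := by rw [hD, Subgroup.map_subtype_commutator]
  have hDQ : D ≤ Qs := by rw [hDeq]; exact Subgroup.commutator_le_self Qs
  have hmemQ : ∀ x : G, x ^ a = 1 → x ∈ Qs := by
    intro x hx
    rw [← QuotientGroup.eq_one_iff]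
    apply eq_one_of_pow hcop
    · rw [← QuotientGroup.mk_pow, hx]; rfl
    · have := pow_card_eq_one' (G := G ⧸ Qs) (x := (x : G ⧸ Qs))
      have h2 : Nat.card (G ⧸ Qs) = m := hHcard
      rw [h2] at this
      exact this
  constructor
  · -- (d)
    intro hab
    have hcD : commutator G ≤ D := Subgroup.Normal.quotient_commutative_iff_commutator_le.mp hab
    have hDne : D ≠ Qs := by
      intro h
      haveI : Nontrivial Qs := (Subgroup.nontrivial_iff_ne_bot _).mpr hQne
      have hlt := Group.IsSolvable.commutator_lt_top_of_nontrivial Qs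
      apply hlt.ne
      apply Subgroup.map_injective Qs.subtype_injective
      rw [← hD, h, ← MonoidHom.range_eq_map, Subgroup.range_subtype]
    have hLne : D ⊔ H ≠ ⊤ := by
      intro htop
      apply hDne
      apply le_antisymm hDQ
      intro u hu
      have : u ∈ D ⊔ H := htop ▸ Subgroup.mem_top u
      rw [Subgroup.mem_sup_of_normal_left] at this
      obtain ⟨d, hd, h, hh, rfl⟩ := this
      have hh' : h ∈ Qs ⊓ H := by
        refine ⟨?_, hh⟩
        have := Qs.mul_mem (Qs.inv_mem (hDQ hd)) hu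
        simpa using this
      rw [hdisj, Subgroup.mem_bot] at hh'
      rw [hh', mul_one]; exact hd
    have hLnil := hGp _ hLne
    have hLn : (D ⊔ H).Normal := Subgroup.Normal.of_commutator_le G (hcD.trans le_sup_left)
    apply hHnn
    constructor
    intro h hh g
    have h1 : g * h * g⁻¹ ∈ D ⊔ H := hLn.conj_mem h (Subgroup.mem_sup_right hh) g
    rw [Subgroup.mem_sup_of_normal_left] at h1
    obtain ⟨d, hd, h', hh', he⟩ := h1
    have c : Commute d h' := commute_of_nilpotent _ hLnil (Subgroup.mem_sup_left hd)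
      (Subgroup.mem_sup_right hh') (coprime_orderOf hcop (hQpow d (hDQ hd)) (hHpow h' hh'))
    have e1 : (d * h') ^ m = d ^ m := by rw [c.mul_pow, hHpow h' hh', mul_one]
    have e2 : (g * h * g⁻¹) ^ m = 1 := by rw [conj_pow, hHpow h hh]; group
    rw [← he, e1] at e2
    have hd1 : d = 1 := eq_one_of_pow hcop (hQpow d (hDQ hd)) e2
    rw [← he, hd1, one_mul]; exact hh'
  · -- (c)
    intro K hK
    set K' := K.comap (QuotientGroup.mk' D) with hK'
    have hK'ne : K' ≠ ⊤ := by
      intro h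
      apply hK
      have := congrArg (Subgroup.map (QuotientGroup.mk' D)) h
      rwa [Subgroup.map_comap_eq_self_of_surjective (QuotientGroup.mk'_surjective D),
        Subgroup.map_top_of_surjective _ (QuotientGroup.mk'_surjective D)] at this
    have hnil := hGp _ hK'ne
    have key : ∀ x ∈ K', ∀ y ∈ K', ⁅x, y⁆ ∈ D := by
      intro x hx y hy
      have hxG : x ^ (a * m) = 1 := by rw [ham]; exact pow_card_eq_one'
      have hyG : y ^ (a * m) = 1 := by rw [ham]; exact pow_card_eq_one'
      obtain ⟨x1, x2, rfl, hx1z, hx2z, hx1, hx2⟩ := split hcop x hxG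
      obtain ⟨y1, y2, rfl, hy1z, hy2z, hy1, hy2⟩ := split hcop y hyG
      have hx1K : x1 ∈ K' := (Subgroup.zpowers_le.mpr hx) hx1z
      have hx2K : x2 ∈ K' := (Subgroup.zpowers_le.mpr hx) hx2z
      have hy1K : y1 ∈ K' := (Subgroup.zpowers_le.mpr hy) hy1z
      have hy2K : y2 ∈ K' := (Subgroup.zpowers_le.mpr hy) hy2z
      have c1 : y1 * x2 = x2 * y1 := commute_of_nilpotent _ hnil hy1K hx2K (coprime_orderOf hcop hy1 hx2)
      have c2 : x1 * y2 = y2 * x1 := commute_of_nilpotent _ hnil hx1K hy2K (coprime_orderOf hcop hx1 hy2)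
      have hz : ⁅x2, y2⁆ ∈ Qs :=
        step6 (Subgroup.commutator_mem_commutator (Subgroup.mem_top _) (Subgroup.mem_top _))
      have hzK : ⁅x2, y2⁆ ∈ K' := by
        rw [commutatorElement_def]
        exact K'.mul_mem (K'.mul_mem (K'.mul_mem hx2K hy2K) (K'.inv_mem hx2K)) (K'.inv_mem hy2K)
      have c3 : Commute ⁅x2, y2⁆ y2 :=
        commute_of_nilpotent _ hnil hzK hy2K (coprime_orderOf hcop (hQpow _ hz) hy2)
      have e1 : (⁅x2, y2⁆ * y2) ^ m = ⁅x2, y2⁆ ^ m := by rw [c3.mul_pow, hy2, mul_one]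
      have e2 : ⁅x2, y2⁆ * y2 = x2 * y2 * x2⁻¹ := by rw [commutatorElement_def]; group
      have e3 : (x2 * y2 * x2⁻¹) ^ m = 1 := by rw [conj_pow, hy2]; group
      rw [e2, e3] at e1
      have hz1 : ⁅x2, y2⁆ = 1 := eq_one_of_pow hcop (hQpow _ hz) e1.symm
      have c4 : x2 * y2 = y2 * x2 := commutatorElement_eq_one_iff_mul_comm.mp hz1
      have f1 : (x1 * x2) * (y1 * y2) = x1 * y1 * (x2 * y2) := by
        calc (x1 * x2) * (y1 * y2) = x1 * (x2 * y1) * y2 := by group
          _ = x1 * (y1 * x2) * y2 := by rw [c1]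
          _ = x1 * y1 * (x2 * y2) := by group
      have f2 : (y1 * y2) * (x1 * x2) = y1 * x1 * (x2 * y2) := by
        calc (y1 * y2) * (x1 * x2) = y1 * (y2 * x1) * x2 := by group
          _ = y1 * (x1 * y2) * x2 := by rw [c2]
          _ = y1 * x1 * (y2 * x2) := by group
          _ = y1 * x1 * (x2 * y2) := by rw [c4]
      have f3 : ⁅x1 * x2, y1 * y2⁆ = ⁅x1, y1⁆ := by
        calc ⁅x1 * x2, y1 * y2⁆ = ((x1 * x2) * (y1 * y2)) * ((y1 * y2) * (x1 * x2))⁻¹ := by
              rw [commutatorElement_def]; group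
          _ = (x1 * y1 * (x2 * y2)) * (y1 * x1 * (x2 * y2))⁻¹ := by rw [f1, f2]
          _ = ⁅x1, y1⁆ := by rw [commutatorElement_def]; group
      rw [f3, hDeq]
      exact Subgroup.commutator_mem_commutator (hmemQ x1 hx1) (hmemQ y1 hy1)
    apply Cfsg.Agent.Lib.Helper13Basic.isMulCommutative_of_comm
    intro s hs t ht
    obtain ⟨x, rfl⟩ := QuotientGroup.mk'_surjective D s
    obtain ⟨y, rfl⟩ := QuotientGroup.mk'_surjective D t
    have := key x hs y ht
    rw [← QuotientGroup.eq_one_iff, ← QuotientGroup.mk'_apply, map_commutatorElement,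
      commutatorElement_eq_one_iff_mul_comm] at this
    exact this

end Cfsg.Agent.S0577
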