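import Cfsg.Statements.S0578
import Cfsg.Agent.Lib.Helper2Nilp
import Mathlib.GroupTheory.Transfer
import Mathlib.GroupTheory.Sylow

set_option autoImplicit false
open Cfsg

namespace Cfsg.Agent.S0578

open Subgroup Cfsg.Agent.Lib.Helper2Nilp

/-- If in a finite group the normalizer of each abelian subgroup coincides with its centralizer, then the group is abelian. -/
theorem result {G : Type*} [Group G] [Finite G] (h : ∀ A : Subgroup G, IsMulCommutative A → Subgroup.normalizer (A : Set G) = Subgroup.centralizer (A : Set G)) : IsMulCommutative G := by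
  rw [← commutator_eq_bot_iff, ← card_eq_one]
  by_contra hne
  obtain ⟨p, hp, hpd⟩ := Nat.exists_prime_and_dvd hne
  have : Fact p.Prime := ⟨hp⟩
  have P : Sylow p G := default
  have hPab : IsMulCommutative (P : Subgroup G) := by
    obtain ⟨A, hA⟩ := (Set.toFinite {A : Subgroup G | A ≤ P ∧ IsMulCommutative A}).exists_maximal
      ⟨⊥, bot_le, inferInstance⟩
    have hAP : A = P := by
      by_contra hne'
      obtain ⟨y, hyP, hyN, hyA⟩ := exists_mem_normalizer_not_mem (M := (P : Subgroup G))
        P.2.isNilpotent (lt_of_le_of_ne hA.1.1 hne')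
      rw [h A hA.1.2] at hyN
      have h1 := isMulCommutative_sup_zpowers hA.1.2 hyN
      have h2 : A ⊔ zpowers y ≤ A :=
        hA.2 ⟨sup_le hA.1.1 (by rw [zpowers_le]; exact hyP), h1⟩ le_sup_left
      exact hyA (h2 (mem_sup_right (mem_zpowers y)))
    rw [← hAP]; exact hA.1.2
  have hNC : normalizer (P : Set G) ≤ centralizer (P : Set G) := (h P hPab).le
  apply MonoidHom.not_dvd_card_ker_transferSylow P hNC
  apply hpd.trans
  apply card_dvd_of_le
  have : IsMulCommutative P := hPab
  rw [← Normal.quotient_commutative_iff_commutator_le]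
  refine ⟨⟨?_⟩⟩
  intro a b
  apply QuotientGroup.kerLift_injective (MonoidHom.transferSylow P hNC)
  rw [map_mul, map_mul]
  exact mul_comm' _ _

end Cfsg.Agent.S0578
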