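import Cfsg.Statements.S0580
import Cfsg.Agent.Lib.Helper13Sylow

set_option autoImplicit false
open Cfsg

namespace Cfsg.Agent.S0580

theorem quotient_hyp {G : Type*} [Group G] (N : Subgroup G) [N.Normal]
    (h : ∀ M : Subgroup G, IsCoatom M → M.index.Prime) :
    ∀ M : Subgroup (G ⧸ N), IsCoatom M → M.index.Prime := by
  intro M hM
  have h1 := Subgroup.isCoatom_comap_of_surjective (QuotientGroup.mk'_surjective N) hM
  have h2 := h _ h1
  rwa [Subgroup.index_comap_of_surjective _ (QuotientGroup.mk'_surjective N)] at h2

theorem sylow_normal_of_largest {G : Type*} [Group G] [Finite G]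
    (h : ∀ M : Subgroup G, IsCoatom M → M.index.Prime) (p : ℕ) [Fact p.Prime]
    (hp : ∀ q : ℕ, q.Prime → q ∣ Nat.card G → q ≤ p) (P : Sylow p G) :
    (P : Subgroup G).Normal := by
  rw [← Subgroup.normalizer_eq_top_iff]
  rcases eq_top_or_exists_le_coatom (Subgroup.normalizer ((P : Subgroup G) : Set G)) with h1 | ⟨M, hM, hle⟩
  · exact h1
  · exfalso
    have hq := h M hM
    have h2 := Cfsg.Agent.Lib.Helper13Sylow.index_modEq_one_of_normalizer_le P M hle
    have h3 : M.index ≤ p := hp _ hq (Subgroup.index_dvd_card M)
    have hp2 : 2 ≤ p := (Fact.out : p.Prime).two_le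
    have hq2 : 2 ≤ M.index := hq.two_le
    rcases h3.lt_or_eq with h4 | h4
    · have := Nat.ModEq.eq_of_lt_of_lt h2 h4 (by omega)
      omega
    · rw [h4] at h2
      have : p % p = 1 % p := h2
      rw [Nat.mod_self, Nat.mod_eq_of_lt (by omega)] at this
      omega

theorem aux (n : ℕ) : ∀ (G : Type*) [Group G] [Finite G], Nat.card G = n →
    (∀ M : Subgroup G, IsCoatom M → M.index.Prime) → Group.IsSolvable G := by
  induction n using Nat.strong_induction_on with
  | _ n ih =>
    intro G _ _ hn h
    rcases subsingleton_or_nontrivial G with hs | hnt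
    · infer_instance
    · have hcard : 1 < Nat.card G := Finite.one_lt_card
      have hne : (Nat.card G).primeFactors.Nonempty := by
        rw [Nat.nonempty_primeFactors]; exact hcard
      set p := (Nat.card G).primeFactors.max' hne with hpdef
      have hpmem : p ∈ (Nat.card G).primeFactors := Finset.max'_mem _ _
      have hpp : p.Prime := Nat.prime_of_mem_primeFactors hpmem
      haveI : Fact p.Prime := ⟨hpp⟩
      have hpd : p ∣ Nat.card G := Nat.dvd_of_mem_primeFactors hpmem
      have hmax : ∀ q : ℕ, q.Prime → q ∣ Nat.card G → q ≤ p := by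
        intro q hq hqd
        apply Finset.le_max'
        rw [Nat.mem_primeFactors]
        exact ⟨hq, hqd, by omega⟩
      let P : Sylow p G := default
      haveI hPn : (P : Subgroup G).Normal := sylow_normal_of_largest h p hmax P
      have hPne : (P : Subgroup G) ≠ ⊥ := P.ne_bot_of_dvd_card hpd
      have hlt : Nat.card (G ⧸ (P : Subgroup G)) < n := by
        rw [← hn, Subgroup.card_eq_card_quotient_mul_card_subgroup (P : Subgroup G)]
        have h1 : 1 < Nat.card (P : Subgroup G) := by
          rw [Subgroup.one_lt_card_iff_ne_bot]; exact hPne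
        have h2 : 0 < Nat.card (G ⧸ (P : Subgroup G)) := Nat.card_pos
        nlinarith
      haveI hq : Group.IsSolvable (G ⧸ (P : Subgroup G)) :=
        ih _ hlt (G ⧸ (P : Subgroup G)) rfl (quotient_hyp _ h)
      haveI : Group.IsNilpotent (P : Subgroup G) := P.isPGroup'.isNilpotent
      haveI : Group.IsSolvable (P : Subgroup G) := inferInstance
      exact (Group.isSolvable_iff_subgroup_quotient (P : Subgroup G)).mpr ⟨inferInstance, hq⟩

/-- If every maximal subgroup of a finite group has prime index, then the group is solvable. -/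
theorem result {G : Type*} [Group G] [Finite G] (h : ∀ M : Subgroup G, IsCoatom M → M.index.Prime) : Group.IsSolvable G := by
  exact aux _ G rfl h

end Cfsg.Agent.S0580
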