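import Cfsg.Statements.S0579
import Cfsg.Agent.S0580
import Cfsg.Agent.S0583
import Cfsg.Agent.S0026
import Cfsg.Agent.S0027
import Cfsg.Agent.Lib.Helper56Super
import Cfsg.Agent.Lib.Helper12Super
import Cfsg.Agent.Lib.Helper13Supersolvable
import Cfsg.Agent.Lib.Helper15PStable2
import Mathlib

set_option autoImplicit false
open Cfsg

namespace Cfsg.Agent.S0579

open Cfsg.Agent.Lib.Helper11Supersolvable
open scoped commutatorElement

universe u

/-- subgroup generated by commutators and `(p-1)`-th powers -/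
def sharp (p : ℕ) (K : Type*) [Group K] : Subgroup K :=
  Subgroup.closure ({x | ∃ g h : K, x = ⁅g, h⁆} ∪ {x | ∃ g : K, x = g ^ (p - 1)})

theorem sharp_map {K L : Type*} [Group K] [Group L] (p : ℕ) (f : K →* L) :
    (sharp p K).map f ≤ sharp p L := by
  rw [sharp, MonoidHom.map_closure, Subgroup.closure_le]
  rintro _ ⟨x, (⟨g, h, rfl⟩ | ⟨g, rfl⟩), rfl⟩
  · apply Subgroup.subset_closure; left; exact ⟨f g, f h, by rw [map_commutatorElement]⟩
  · apply Subgroup.subset_closure; right; exact ⟨f g, by rw [map_pow]⟩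

theorem sharp_le_centralizer {K : Type*} [Group K] [Finite K] (p : ℕ) [Fact p.Prime] (N : Subgroup K)
    [N.Normal] (hN : Nat.card N = p) : sharp p K ≤ Subgroup.centralizer (N : Set K) := by
  have hcyc : IsCyclic N := isCyclic_of_prime_card hN
  rw [sharp, Subgroup.closure_le]
  rintro x (⟨g, h, rfl⟩ | ⟨g, rfl⟩)
  · exact commutator_le_centralizer_of_isCyclic N hcyc
      (Subgroup.commutator_mem_commutator (Subgroup.mem_top g) (Subgroup.mem_top h))
  · have hc : Nat.card (MulAut N) = p - 1 := by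
      rw [IsCyclic.card_mulAut, hN, Nat.totient_prime Fact.out]
    have h1 : (MulAut.conjNormal g : MulAut N) ^ (p - 1) = 1 := by
      rw [← hc]; exact pow_card_eq_one'
    rw [← map_pow] at h1
    rw [SetLike.mem_coe, Subgroup.mem_centralizer_iff]
    intro n hn
    have h2 := congrArg (fun φ : MulAut N => ((φ ⟨n, hn⟩ : N) : K)) h1
    simp only [MulAut.conjNormal_apply, MulAut.one_apply] at h2
    rw [mul_inv_eq_iff_eq_mul] at h2
    exact h2.symm

theorem lemX (p : ℕ) [Fact p.Prime] (n : ℕ) : ∀ (K : Type u) [Group K] [Finite K], Nat.card K = n →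
    Cfsg.IsSupersolvable K → ∀ (Q D : Subgroup K) [Q.Normal], IsPGroup p Q → (Nat.card D).Coprime p →
    D ≤ sharp p K → D ≤ Subgroup.centralizer (Q : Set K) := by
  induction n using Nat.strong_induction_on with
  | _ n ih =>
  intro K _ _ hn hK Q D _ hQ hD hDs
  by_cases hQ1 : Q = ⊥
  · intro d _
    rw [Subgroup.mem_centralizer_iff]
    intro x hx
    rw [hQ1] at hx
    have : x = 1 := hx
    rw [this]; simp
  have hp : p.Prime := Fact.out
  obtain ⟨N, hNn, hNQ, hNp⟩ := Cfsg.Agent.Lib.Helper12Super.exists_normal_prime_le hK Q hQ1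
  have hNcard : Nat.card N = p := by
    obtain ⟨k, hk⟩ := IsPGroup.iff_card.1 (hQ.to_le hNQ)
    have h1 : Nat.card N ∣ p ^ k := by rw [hk]
    exact (Nat.prime_dvd_prime_iff_eq hNp hp).1 (hNp.dvd_of_dvd_pow h1)
  have hN1 : N ≠ ⊥ := Cfsg.Agent.Lib.Helper12Super.ne_bot_of_prime_card N hNp
  have hlt : Nat.card (K ⧸ N) < n := hn ▸ Cfsg.Agent.Lib.Helper12Super.card_quotient_lt N hN1
  let π := QuotientGroup.mk' N
  have hπ : Function.Surjective π := QuotientGroup.mk'_surjective N
  have hQ'n : (Q.map π).Normal := Subgroup.Normal.map inferInstance π hπ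
  have hcent := ih _ hlt (K ⧸ N) rfl (of_surjective π hπ hK) (Q.map π) (D.map π) (hQ.map π)
    (Nat.Coprime.coprime_dvd_left (Subgroup.card_map_dvd D π) hD)
    ((Subgroup.map_mono hDs).trans (sharp_map p π))
  have h1 : ⁅Q, D⁆ ≤ N := by
    rw [Subgroup.commutator_le]
    intro q hq d hd
    have h2 := (Subgroup.mem_centralizer_iff.1 (hcent (Subgroup.mem_map_of_mem π hd))) (π q)
      (Subgroup.mem_map_of_mem π hq)
    rw [← QuotientGroup.ker_mk' N, MonoidHom.mem_ker, map_commutatorElement,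
      commutatorElement_eq_one_iff_mul_comm]
    exact h2
  have h2 : ⁅N, D⁆ = ⊥ := by
    rw [Subgroup.commutator_comm, Subgroup.commutator_eq_bot_iff_le_centralizer]
    exact hDs.trans (sharp_le_centralizer p N hNcard)
  have h3 : ⁅⁅Q, D⁆, D⁆ = ⊥ := by
    rw [eq_bot_iff, ← h2]
    exact Subgroup.commutator_mono h1 le_rfl
  have hnil : Group.IsNilpotent Q := hQ.isNilpotent
  have h4 := Cfsg.Agent.S0027.result D Q (by rw [Subgroup.normalizer_eq_top]; exact le_top)
    (by
      obtain ⟨k, hk⟩ := IsPGroup.iff_card.1 hQ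
      rw [hk]; exact Nat.Coprime.pow_right k hD) (Or.inr inferInstance)
  rw [h3] at h4
  rw [← Subgroup.commutator_eq_bot_iff_le_centralizer, Subgroup.commutator_comm]
  exact h4.symm

theorem le_normalizer_of_conj {G : Type*} [Group G] (L H : Subgroup G)
    (h : ∀ x ∈ L, ∀ y ∈ H, x * y * x⁻¹ ∈ H) : L ≤ Subgroup.normalizer (H : Set G) := by
  intro x hx
  rw [Subgroup.mem_normalizer_iff]
  intro y
  constructor
  · exact h x hx y
  · intro hy
    have := h x⁻¹ (L.inv_mem hx) _ hy
    rw [inv_inv] at this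
    have e : x⁻¹ * (x * y * x⁻¹) * x = y := by group
    rwa [e] at this

theorem sharp_normal (p : ℕ) (K : Type*) [Group K] : (sharp p K).Normal := by
  constructor
  intro x hx g
  have := sharp_map p (MulAut.conj g).toMonoidHom (Subgroup.mem_map_of_mem _ hx)
  simpa using this

theorem aux (n : ℕ) : ∀ (G : Type u) [Group G] [Finite G], Nat.card G = n →
    (∀ M : Subgroup G, IsCoatom M → M.index.Prime) → Cfsg.IsSupersolvable G := by
  induction n using Nat.strong_induction_on with
  | _ n ih =>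
  intro G _ _ hn h
  rcases subsingleton_or_nontrivial G with hs | hnt
  · exact Cfsg.Agent.Lib.Helper13Supersolvable.of_subsingleton
  have hcard : 1 < Nat.card G := Finite.one_lt_card
  have hne : (Nat.card G).primeFactors.Nonempty := by
    rw [Nat.nonempty_primeFactors]; exact hcard
  set p := (Nat.card G).primeFactors.max' hne with hpdef
  have hpmem : p ∈ (Nat.card G).primeFactors := Finset.max'_mem _ _
  have hpp : p.Prime := Nat.prime_of_mem_primeFactors hpmem
  have : Fact p.Prime := ⟨hpp⟩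
  have hpd : p ∣ Nat.card G := Nat.dvd_of_mem_primeFactors hpmem
  have hmax : ∀ q : ℕ, q.Prime → q ∣ Nat.card G → q ≤ p := by
    intro q hq hqd
    apply Finset.le_max'
    rw [Nat.mem_primeFactors]
    exact ⟨hq, hqd, by omega⟩
  obtain ⟨P⟩ : Nonempty (Sylow p G) := inferInstance
  have hPn : (P : Subgroup G).Normal := Cfsg.Agent.S0580.sylow_normal_of_largest h p hmax P
  have hPne : (P : Subgroup G) ≠ ⊥ := P.ne_bot_of_dvd_card hpd
  have hquot : ∀ (N : Subgroup G) [N.Normal], N ≠ ⊥ → Cfsg.IsSupersolvable (G ⧸ N) := fun N _ hN =>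
    ih _ (hn ▸ Cfsg.Agent.Lib.Helper12Super.card_quotient_lt N hN) (G ⧸ N) rfl
      (Cfsg.Agent.S0580.quotient_hyp N h)
  obtain ⟨N, hNn, hN1, hNP, hNmin⟩ : ∃ N : Subgroup G, N.Normal ∧ N ≠ ⊥ ∧ N ≤ P ∧
      ∀ K : Subgroup G, K.Normal → K ≤ N → K = ⊥ ∨ K = N := by
    obtain ⟨N, hN⟩ := (Set.toFinite {N : Subgroup G | N.Normal ∧ N ≠ ⊥ ∧ N ≤ P}).exists_minimal
      ⟨P, hPn, hPne, le_rfl⟩
    refine ⟨N, hN.1.1, hN.1.2.1, hN.1.2.2, ?_⟩
    intro K hK hKN
    by_cases hK1 : K = ⊥
    · exact Or.inl hK1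
    · exact Or.inr (le_antisymm hKN (hN.2 ⟨hK, hK1, hKN.trans hN.1.2.2⟩ hKN))
  have hPcN : (P : Subgroup G) ≤ Subgroup.centralizer (N : Set G) := by
    refine le_trans ?_ (Cfsg.Agent.S0583.result N hN1 hNmin)
    exact le_sSup ⟨hPn, P.isPGroup'.isNilpotent⟩
  by_cases hfr : N ≤ frattini G
  swap
  · -- N has prime order
    obtain ⟨M, hM, hNM⟩ : ∃ M : Subgroup G, IsCoatom M ∧ ¬ N ≤ M := by
      by_contra hcon
      push Not at hcon
      apply hfr
      simp only [frattini, Order.radical, le_iInf_iff]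
      exact fun M hM => hcon M hM
    have hsup : N ⊔ M = ⊤ := by
      apply hM.2
      apply lt_of_le_of_ne le_sup_right
      intro e
      apply hNM
      rw [e]; exact le_sup_left
    have hinfn : (N ⊓ M).Normal := by
      rw [← Subgroup.normalizer_eq_top_iff, eq_top_iff, ← hsup, sup_le_iff]
      constructor
      · apply le_normalizer_of_conj
        intro x hx y hy
        have h1 := (Subgroup.mem_centralizer_iff.1 (hPcN (hNP hx))) y hy.1
        have : x * y * x⁻¹ = y := by rw [← h1]; group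
        rw [this]; exact hy
      · apply le_normalizer_of_conj
        intro x hx y hy
        exact ⟨hNn.conj_mem y hy.1 x, M.mul_mem (M.mul_mem hx hy.2) (M.inv_mem hx)⟩
    have hinf : N ⊓ M = ⊥ := by
      rcases hNmin _ hinfn inf_le_left with h1 | h1
      · exact h1
      · exact absurd (h1 ▸ inf_le_right) hNM
    have hcompl : N.IsComplement' M := by
      apply Subgroup.isComplement'_of_disjoint_and_mul_eq_univ (disjoint_iff.2 hinf)
      rw [← Subgroup.normal_mul, hsup]; rfl
    have hNprime : (Nat.card N).Prime := by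
      rw [← hcompl.index_eq_card]; exact h M hM
    exact Cfsg.Agent.Lib.Helper12Super.of_normal_prime_card N hNprime (hquot N hN1)
  -- N lies in the Frattini subgroup
  have hsN := hquot N hN1
  obtain ⟨H, hH⟩ := Subgroup.exists_right_complement'_of_coprime P.card_coprime_index
  have hHcop : (Nat.card H).Coprime p := by
    rw [← hH.symm.index_eq_card, Nat.coprime_comm, Nat.Prime.coprime_iff_not_dvd hpp]
    exact P.not_dvd_index
  set H₀ : Subgroup G := (sharp p H).map H.subtype with hH₀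
  have hH₀H : H₀ ≤ H := Subgroup.map_subtype_le _
  have hH₀cop : (Nat.card H₀).Coprime p :=
    Nat.Coprime.coprime_dvd_left (Subgroup.card_dvd_of_le hH₀H) hHcop
  have hPcard : ∃ k, Nat.card (P : Subgroup G) = p ^ k := IsPGroup.iff_card.1 P.isPGroup'
  have hcopP : (Nat.card H₀).Coprime (Nat.card (P : Subgroup G)) := by
    obtain ⟨k, hk⟩ := hPcard
    rw [hk]; exact Nat.Coprime.pow_right k hH₀cop
  let π := QuotientGroup.mk' N
  have hπ : Function.Surjective π := QuotientGroup.mk'_surjective N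
  have hQ'n : ((P : Subgroup G).map π).Normal := Subgroup.Normal.map inferInstance π hπ
  have hcent := lemX p _ (G ⧸ N) rfl hsN ((P : Subgroup G).map π) (H₀.map π) (P.isPGroup'.map π)
    (Nat.Coprime.coprime_dvd_left (Subgroup.card_map_dvd H₀ π) hH₀cop)
    (by
      rw [hH₀, Subgroup.map_map]
      exact sharp_map p _)
  have h1 : ⁅(P : Subgroup G), H₀⁆ ≤ N := by
    rw [Subgroup.commutator_le]
    intro q hq d hd
    have h2 := (Subgroup.mem_centralizer_iff.1 (hcent (Subgroup.mem_map_of_mem π hd))) (π q)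
      (Subgroup.mem_map_of_mem π hq)
    rw [← QuotientGroup.ker_mk' N, MonoidHom.mem_ker, map_commutatorElement,
      commutatorElement_eq_one_iff_mul_comm]
    exact h2
  have hnil : Group.IsNilpotent (P : Subgroup G) := P.isPGroup'.isNilpotent
  have h2 := Cfsg.Agent.S0026.result H₀ (P : Subgroup G) Subgroup.le_normalizer_of_normal hcopP
    (Or.inr inferInstance)
  set C : Subgroup G := (P : Subgroup G) ⊓ Subgroup.centralizer (H₀ : Set G) with hC
  have h3 : C ⊔ H = ⊤ := by
    apply frattini_nongenerating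
    rw [eq_top_iff, ← hH.sup_eq_top, ← h2]
    refine sup_le (sup_le ?_ ?_) ?_
    · exact (h1.trans hfr).trans le_sup_right
    · exact le_sup_left.trans le_sup_left
    · exact le_sup_right.trans le_sup_left
  have hH₀n : H₀.Normal := by
    rw [← Subgroup.normalizer_eq_top_iff, eq_top_iff, ← h3, sup_le_iff]
    constructor
    · apply le_normalizer_of_conj
      intro x hx y hy
      have h4 := (Subgroup.mem_centralizer_iff.1 hx.2) y hy
      have : x * y * x⁻¹ = y := by rw [← h4]; group
      rw [this]; exact hy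
    · apply le_normalizer_of_conj
      rintro x hx _ ⟨y, hy, rfl⟩
      exact ⟨⟨x, hx⟩ * y * ⟨x, hx⟩⁻¹, (sharp_normal p H).conj_mem y hy _, rfl⟩
  have hH₀c : H₀ ≤ Subgroup.centralizer ((P : Subgroup G) : Set G) := by
    rw [← Subgroup.commutator_eq_bot_iff_le_centralizer, Subgroup.commutator_comm, eq_bot_iff]
    refine (Subgroup.commutator_le_inf _ _).trans ?_
    rw [(Subgroup.inf_eq_bot_of_coprime hcopP.symm)]
  set N₁ : Subgroup G := (P : Subgroup G) ⊔ Subgroup.centralizer ((P : Subgroup G) : Set G) with hN₁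
  have hN₁n : N₁.Normal := inferInstance
  let ρ := QuotientGroup.mk' N₁
  have hρ1 : ∀ x ∈ N₁, ρ x = 1 := fun x hx => (QuotientGroup.eq_one_iff x).2 hx
  have hdec : ∀ g : G, ∃ k ∈ H, ρ g = ρ k := by
    intro g
    have hg : g ∈ (P : Subgroup G) ⊔ H := by rw [hH.sup_eq_top]; trivial
    obtain ⟨x, hx, k, hk, rfl⟩ := Subgroup.mem_sup_of_normal_left.1 hg
    exact ⟨k, hk, by rw [map_mul, hρ1 x (le_sup_left (a := (P : Subgroup G)) hx), one_mul]⟩
  have ha : ∀ g g' : G, ⁅g, g'⁆ ∈ N₁ := by
    intro g g'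
    obtain ⟨k, hk, e⟩ := hdec g
    obtain ⟨k', hk', e'⟩ := hdec g'
    rw [← QuotientGroup.eq_one_iff, ← QuotientGroup.mk'_apply, map_commutatorElement]
    change ⁅ρ g, ρ g'⁆ = 1
    rw [e, e', ← map_commutatorElement]
    apply hρ1
    apply le_sup_right (a := (P : Subgroup G))
    apply hH₀c
    refine ⟨⁅(⟨k, hk⟩ : H), ⟨k', hk'⟩⁆, Subgroup.subset_closure (Or.inl ⟨_, _, rfl⟩), rfl⟩
  have hb : ∀ g : G, g ^ (p - 1) ∈ N₁ := by
    intro g
    obtain ⟨k, hk, e⟩ := hdec g
    rw [← QuotientGroup.eq_one_iff, ← QuotientGroup.mk'_apply, map_pow]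
    change ρ g ^ (p - 1) = 1
    rw [e, ← map_pow]
    apply hρ1
    apply le_sup_right (a := (P : Subgroup G))
    apply hH₀c
    refine ⟨(⟨k, hk⟩ : H) ^ (p - 1), Subgroup.subset_closure (Or.inr ⟨_, rfl⟩), rfl⟩
  have hc : ∀ u ∈ N₁, (orderOf u).Coprime p →
      u ∈ Subgroup.centralizer ((P : Subgroup G) : Set G) := by
    intro u hu hcop
    obtain ⟨x, hx, c, hc, rfl⟩ := Subgroup.mem_sup_of_normal_left.1 hu
    have hxc : Commute x c := (Subgroup.mem_centralizer_iff.1 hc) x hx
    have hm : x ^ orderOf (x * c) ∈ Subgroup.centralizer ((P : Subgroup G) : Set G) := by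
      have h5 := pow_orderOf_eq_one (x * c)
      rw [hxc.mul_pow] at h5
      rw [eq_inv_of_mul_eq_one_left h5]
      exact Subgroup.inv_mem _ (Subgroup.pow_mem _ hc _)
    obtain ⟨k, hk⟩ := P.isPGroup' ⟨x, hx⟩
    have hk' : x ^ p ^ k = 1 := congrArg Subtype.val hk
    have hx' := Cfsg.Agent.Lib.Helper15PStable2.mem_of_pow_mem_of_coprime _ hm
      (by rw [hk']; exact Subgroup.one_mem _) (Nat.Coprime.pow_right k hcop)
    exact Subgroup.mul_mem _ hx' hc
  have hchain := Cfsg.Agent.Lib.Helper56Super.chain_of_centralizes p (P : Subgroup G) N₁ P.isPGroup'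
    ha hb hc
  have htop := isSupersolvable_iff.1 (hquot (P : Subgroup G) hPne)
  have := Cfsg.Agent.Lib.Helper13Supersolvable.chain_comap (P : Subgroup G) hchain htop
  rw [isSupersolvable_iff]
  simpa using this

/-- Huppert's supersolvability criterion: if every maximal subgroup of a finite group has prime index, then the group is supersolvable. -/
theorem result {G : Type*} [Group G] [Finite G] (h : ∀ M : Subgroup G, IsCoatom M → M.index.Prime) : Cfsg.IsSupersolvable G := by
  exact aux _ G rfl h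

end Cfsg.Agent.S0579
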