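import Cfsg.Statements.S0581
import Cfsg.Agent.Lib.Helper11Wielandt
import Cfsg.Agent.S0536

set_option autoImplicit false
open Pointwise
open Cfsg

namespace Cfsg.Agent.S0581

open Subgroup Pointwise Cfsg.Agent.Lib.Helper11Frobenius Cfsg.Agent.Lib.Helper11Schmidt
  Cfsg.Agent.Lib.Helper11Wielandt

section
variable {G : Type*} [Group G] [Finite G]

theorem mem_conj_smul (n g : G) (H : Subgroup G) (h : n * g * n⁻¹ ∈ H) :
    g ∈ MulAut.conj n⁻¹ • H := by
  rw [Subgroup.mem_pointwise_smul_iff_inv_smul_mem]
  simpa [MulAut.smul_def] using h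

theorem core (H K M : Subgroup G) (hH : Group.IsNilpotent H)
    (hHall : (Nat.card H).Coprime H.index) (p : ℕ) [Fact p.Prime] (hpH : p ∣ Nat.card H)
    (hMK : M ≤ K) (hMH : M ≤ H) (hKM : K ≤ normalizer (M : Set G))
    (hidx : Nat.card K = p * Nat.card M) : ∃ x : G, K ≤ MulAut.conj x • H := by
  have hp : p.Prime := Fact.out
  have hMnil : Group.IsNilpotent M :=
    Group.nilpotent_of_mulEquiv (Subgroup.subgroupOfEquivOfLe hMH)
  obtain ⟨YM, hYM, hYMc, k, hk⟩ := exists_pprime_part p M hMnil
  -- the Sylow p-subgroup of H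
  let P₀ : Sylow p H := default
  set Hp : Subgroup G := (P₀ : Subgroup H).map H.subtype with hHp
  have hHpH : Hp ≤ H := map_subtype_le _
  have hHpp : IsPGroup p Hp := P₀.isPGroup'.map _
  have hpi : ¬ p ∣ H.index := by
    intro hd
    exact hp.one_lt.ne' (Nat.eq_one_of_dvd_coprimes hHall hpH hd)
  have hHpcard : Nat.card Hp = p ^ (Nat.card G).factorization p := by
    rw [hHp, card_map_of_injective H.subtype_injective, P₀.card_eq_multiplicity,
      ← H.card_mul_index, Nat.factorization_mul Nat.card_pos.ne' (index_ne_zero_of_finite),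
      Finsupp.add_apply, Nat.factorization_eq_zero_of_not_dvd hpi, add_zero]
  let S : Sylow p G := Sylow.ofCard Hp hHpcard
  have hmax : ∀ T : Subgroup G, IsPGroup p T → Hp ≤ T → T = Hp := fun T hT hle =>
    S.is_maximal' hT hle
  set L := normalizer (YM : Set G) with hL
  have hKL : K ≤ L := by
    intro x hx
    rw [hL, mem_normalizer_iff]
    intro g
    rw [hYM, hYM, orderOf_conj', ← mem_normalizer_iff.mp (hKM hx) g]
  have hHpL : Hp ≤ L := by
    intro a ha
    rw [hL, mem_normalizer_iff]
    intro g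
    have key : ∀ g ∈ YM, a * g * a⁻¹ = g := by
      intro g hg
      obtain ⟨hgM, hgo⟩ := (hYM g).mp hg
      obtain ⟨j, hj⟩ := orderOf_dvd_of_isPGroup Hp hHpp a ha
      have h1 := Cfsg.Agent.Lib.Helper31Nilpotent.coprime_commute H ⟨a, hHpH ha⟩ ⟨g, hMH hgM⟩ (by
        rw [Subgroup.orderOf_mk, Subgroup.orderOf_mk]
        exact Nat.Coprime.coprime_dvd_left hj (Nat.Coprime.pow_left j hgo.symm))
      have h2 : a * g = g * a := congrArg Subtype.val h1
      rw [h2]; group
    constructor
    · intro hg; rw [key g hg]; exact hg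
    · intro hg
      -- a⁻¹ also works: use finiteness-free argument via order
      have hinv : a⁻¹ * (a * g * a⁻¹) * a = g := by group
      have h3 : a * (a * g * a⁻¹) * a⁻¹ = a * g * a⁻¹ := key _ hg
      have h4 : a * g * a⁻¹ = g := by
        have : a⁻¹ * (a * (a * g * a⁻¹) * a⁻¹) * a = a⁻¹ * (a * g * a⁻¹) * a := by rw [h3]
        calc a * g * a⁻¹ = a⁻¹ * (a * (a * g * a⁻¹) * a⁻¹) * a := by group
          _ = a⁻¹ * (a * g * a⁻¹) * a := this
          _ = g := hinv
      rw [← h4]; exact hg
  let P₁ : Sylow p K := default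
  set Kp : Subgroup G := (P₁ : Subgroup K).map K.subtype with hKp
  have hKpK : Kp ≤ K := map_subtype_le _
  have hKpp : IsPGroup p Kp := P₁.isPGroup'.map _
  obtain ⟨n, hnL, hn⟩ := (rel_sylow L Hp hHpL hHpp (fun T hT hle _ => hmax T hT hle)).1 Kp hKpp
    (hKpK.trans hKL)
  refine ⟨n⁻¹, ?_⟩
  have hJT : Kp ⊔ YM ≤ MulAut.conj n⁻¹ • H := by
    apply sup_le
    · intro r hr
      exact mem_conj_smul n r H (hHpH (hn r hr))
    · intro g hg
      apply mem_conj_smul
      have := (mem_normalizer_iff.mp hnL g).mp hg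
      exact hMH ((hYM _).mp this).1
  have hYMK : YM ≤ K := fun g hg => hMK ((hYM g).mp hg).1
  have hJK : Kp ⊔ YM ≤ K := sup_le hKpK hYMK
  have hcardK : Nat.card K = Nat.card YM * p ^ (k + 1) := by
    rw [hidx, hk]; ring
  have hKpcard : Nat.card Kp = p ^ (k + 1) := by
    rw [hKp, card_map_of_injective K.subtype_injective, P₁.card_eq_multiplicity, hcardK,
      Nat.factorization_mul Nat.card_pos.ne' (pow_ne_zero _ hp.ne_zero), Finsupp.add_apply,
      Nat.factorization_eq_zero_of_not_dvd ((Nat.Prime.coprime_iff_not_dvd hp).mp hYMc.symm),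
      zero_add, Nat.factorization_pow, hp.factorization]
    simp
  have hdvd : Nat.card K ∣ Nat.card (Kp ⊔ YM : Subgroup G) := by
    rw [hcardK]
    apply Nat.Coprime.mul_dvd_of_dvd_of_dvd (Nat.Coprime.pow_right _ hYMc)
    · exact card_dvd_of_le le_sup_right
    · rw [← hKpcard]; exact card_dvd_of_le le_sup_left
  have hJeq : Kp ⊔ YM = K :=
    eq_of_le_of_card_ge hJK (Nat.le_of_dvd Nat.card_pos hdvd)
  rw [← hJeq]; exact hJT

theorem main (H : Subgroup G) (hH : Group.IsNilpotent H)
    (hHall : (Nat.card H).Coprime H.index) :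
    ∀ n : ℕ, ∀ K : Subgroup G, Nat.card K = n →
      (∀ p : ℕ, p.Prime → p ∣ Nat.card K → p ∣ Nat.card H) →
      ∃ x : G, K ≤ MulAut.conj x • H := by
  intro n
  induction n using Nat.strong_induction_on with
  | _ n ih =>
  intro K hKn hK
  by_cases hbot : K = ⊥
  · exact ⟨1, by rw [hbot]; exact bot_le⟩
  have hnt : Nontrivial K := (Subgroup.nontrivial_iff_ne_bot K).mpr hbot
  have hprop : ∀ K' : Subgroup G, K' < K → ∃ x : G, K' ≤ MulAut.conj x • H := by
    intro K' hlt
    apply ih (Nat.card K') (by rw [← hKn]; exact card_lt_of_lt hlt) K' rfl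
    intro p hp hd
    exact hK p hp (hd.trans (card_dvd_of_le hlt.le))
  have hconjnil : ∀ x : G, Group.IsNilpotent (MulAut.conj x • H : Subgroup G) := fun x =>
    Group.nilpotent_of_mulEquiv (Subgroup.equivSMul (MulAut.conj x) H)
  have hpropnil : ∀ K' : Subgroup G, K' < K → Group.IsNilpotent K' := by
    intro K' hlt
    obtain ⟨x, hx⟩ := hprop K' hlt
    have := hconjnil x
    exact Group.nilpotent_of_mulEquiv (Subgroup.subgroupOfEquivOfLe hx)
  have hsol : Group.IsSolvable K := by
    by_cases hnil : Group.IsNilpotent K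
    · infer_instance
    · have hmin : Cfsg.IsMinimalNonNilpotent K := by
        refine ⟨hnil, fun K'' hne => ?_⟩
        have hlt : K''.map K.subtype < K := by
          refine lt_of_le_of_ne (map_subtype_le _) ?_
          intro heq
          apply hne
          rw [eq_top_iff]
          intro y _
          have : (y : G) ∈ K''.map K.subtype := by rw [heq]; exact y.2
          obtain ⟨z, hz, hzy⟩ := this
          have : z = y := Subtype.ext hzy
          rwa [← this]
        have := hpropnil _ hlt
        exact Group.nilpotent_of_mulEquiv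
          (K''.equivMapOfInjective K.subtype K.subtype_injective).symm
      obtain ⟨p, q, hp, hq, hpq, P, Q, hPc, hQn, htop⟩ := Cfsg.Agent.S0536.result hmin
      have : Fact q.Prime := ⟨hq⟩
      have : Fact p.Prime := ⟨hp⟩
      have h1 : Group.IsSolvable (Q : Subgroup K) := by
        have := Q.isPGroup'.isNilpotent
        infer_instance
      have h2 : Group.IsSolvable (K ⧸ (Q : Subgroup K)) := by
        let f : (P : Subgroup K) →* K ⧸ (Q : Subgroup K) :=
          (QuotientGroup.mk' _).comp (P : Subgroup K).subtype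
        have hf : Function.Surjective f := by
          intro w
          obtain ⟨y, rfl⟩ := QuotientGroup.mk_surjective w
          have hy : y ∈ (((P : Subgroup K) ⊔ Q : Subgroup K) : Set K) := by rw [htop]; trivial
          rw [Subgroup.mul_normal] at hy
          obtain ⟨a, ha, b, hb, rfl⟩ := Set.mem_mul.mp hy
          refine ⟨⟨a, ha⟩, ?_⟩
          show (a : K ⧸ (Q : Subgroup K)) = ((a * b : K) : K ⧸ (Q : Subgroup K))
          rw [QuotientGroup.eq]
          have : a⁻¹ * (a * b) = b := by group
          rw [this]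
          exact hb
        have : Group.IsSolvable (P : Subgroup K) := by
          have := P.isPGroup'.isNilpotent
          infer_instance
        exact Group.isSolvable_of_surjective hf
      exact (Group.isSolvable_iff_subgroup_quotient (Q : Subgroup K)).mpr ⟨h1, h2⟩
  obtain ⟨M', hM'n, hM'i⟩ := exists_normal_prime_index K
  obtain ⟨p, hp⟩ : ∃ p, p = M'.index := ⟨_, rfl⟩
  rw [← hp] at hM'i
  have : Fact p.Prime := ⟨hM'i⟩
  set M := M'.map K.subtype with hM
  have hMK : M ≤ K := map_subtype_le _
  have hcard : Nat.card K = p * Nat.card M := by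
    rw [hM, card_map_of_injective K.subtype_injective, hp, mul_comm, M'.card_mul_index]
  have hMlt : M < K := by
    refine lt_of_le_of_ne hMK ?_
    intro h
    rw [h] at hcard
    have h1 := hM'i.one_lt
    have h2 : 0 < Nat.card K := Nat.card_pos
    nlinarith
  obtain ⟨x, hx⟩ := hprop M hMlt
  have hKM : K ≤ normalizer (M : Set G) := by
    intro y hy
    rw [mem_normalizer_iff]
    intro g
    constructor
    · rintro ⟨z, hz, rfl⟩
      exact ⟨⟨y, hy⟩ * z * ⟨y, hy⟩⁻¹, hM'n.conj_mem z hz _, rfl⟩
    · rintro ⟨z, hz, hzg⟩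
      refine ⟨⟨y, hy⟩⁻¹ * z * ⟨y, hy⟩, ?_, ?_⟩
      · have := hM'n.conj_mem z hz ⟨y, hy⟩⁻¹
        simpa using this
      · have hzg' : (z : G) = y * g * y⁻¹ := hzg
        show y⁻¹ * (z : G) * y = g
        rw [hzg']; group
  have hH1card : Nat.card (MulAut.conj x • H : Subgroup G) = Nat.card H :=
    (Nat.card_congr (Subgroup.equivSMul (MulAut.conj x) H).toEquiv).symm
  have hH1idx : (MulAut.conj x • H : Subgroup G).index = H.index := by
    have e1 := (MulAut.conj x • H : Subgroup G).card_mul_index
    have e2 := H.card_mul_index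
    rw [hH1card, ← e2] at e1
    exact Nat.eq_of_mul_eq_mul_left Nat.card_pos e1
  obtain ⟨y, hy⟩ := core (MulAut.conj x • H) K M (hconjnil x)
    (by rw [hH1card, hH1idx]; exact hHall) p
    (by rw [hH1card]; exact hK p hM'i (Dvd.intro _ hcard.symm)) hMK hx hKM hcard
  refine ⟨y * x, ?_⟩
  rw [map_mul, mul_smul]
  exact hy

end


/-- Let H be a nilpotent subgroup of a finite group G whose order is coprime to its index, and K a subgroup every prime divisor of whose order divides the order of H. Then K lies in some conjugate of H. -/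
theorem result {G : Type*} [Group G] [Finite G] (H K : Subgroup G) (hH : Group.IsNilpotent H) (hHall : (Nat.card H).Coprime H.index) (hK : ∀ p : ℕ, p.Prime → p ∣ Nat.card K → p ∣ Nat.card H) : ∃ x : G, K ≤ MulAut.conj x • H := by
  exact main H hH hHall _ K rfl hK

end Cfsg.Agent.S0581
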