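import Cfsg.Statements.S0582
import Mathlib
import Cfsg.Agent.Lib.Helper13Offender
import Cfsg.Agent.Lib.Helper11Supersolvable
import Cfsg.Agent.Lib.Helper40Sylow
import Cfsg.Agent.S0580

set_option autoImplicit false
open Pointwise
open Cfsg
open Subgroup Cfsg.Agent.Lib.Helper11Supersolvable Cfsg.Agent.Lib.Helper40Sylow

namespace Cfsg.Agent.S0582

universe u

theorem ss_map {G K : Type*} [Group G] [Group K] (f : G →* K) (H : Subgroup G)
    (hH : Cfsg.IsSupersolvable H) : Cfsg.IsSupersolvable (H.map f) :=
  of_surjective (f.subgroupMap H) (f.subgroupMap_surjective H) hH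

theorem ss_subgroupOf {G : Type*} [Group G] {H N : Subgroup G} (hHN : H ≤ N)
    (hH : Cfsg.IsSupersolvable H) : Cfsg.IsSupersolvable (H.subgroupOf N) :=
  of_surjective (subgroupOfEquivOfLe hHN).symm.toMonoidHom (subgroupOfEquivOfLe hHN).symm.surjective hH

/-- normal Sylow subgroup for the largest prime, inside `G` -/
theorem exists_normal_sylow {G : Type u} [Group G] [Finite G] (H : Subgroup G)
    (hH : Cfsg.IsSupersolvable H) (p : ℕ) [Fact p.Prime]
    (hmax : ∀ q : ℕ, q.Prime → q ∣ Nat.card H → q ≤ p) :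
    ∃ P : Subgroup G, IsSylowIn p P H ∧ H ≤ normalizer (P : Set G) := by
  let P : Sylow p H := default
  have hPn : (P : Subgroup H).Normal :=
    Cfsg.Agent.S0580.sylow_normal_of_largest (fun M hM => index_prime hH M hM) p hmax P
  refine ⟨(P : Subgroup H).map H.subtype, isSylowIn_of_sylow P, ?_⟩
  rw [← normal_subgroupOf_iff_le_normalizer (map_subtype_le _)]
  have : ((P : Subgroup H).map H.subtype).subgroupOf H = P :=
    comap_map_eq_self_of_injective H.subtype_injective _
  rw [this]; exact hPn

theorem aux (n : ℕ) : ∀ (G : Type u) [Group G] [Finite G], Nat.card G = n →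
    ∀ (H K : Subgroup G), Cfsg.IsSupersolvable H → Cfsg.IsSupersolvable K →
    Nat.card H = Nat.card K → (Nat.card H).Coprime H.index → ∃ x : G, cj x H ≤ K := by
  induction n using Nat.strong_induction_on with
  | _ n ih =>
    intro G _ _ hn H K hH hK hcard hHall
    by_cases h1 : Nat.card H = 1
    · refine ⟨1, ?_⟩
      rw [card_eq_one] at h1
      rw [h1]
      simp [cj]
    have hne : (Nat.card H).primeFactors.Nonempty := by
      rw [Nat.nonempty_primeFactors]
      have : 0 < Nat.card H := Nat.card_pos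
      omega
    set p := (Nat.card H).primeFactors.max' hne with hpdef
    have hpmem : p ∈ (Nat.card H).primeFactors := Finset.max'_mem _ _
    have hpp : p.Prime := Nat.prime_of_mem_primeFactors hpmem
    haveI : Fact p.Prime := ⟨hpp⟩
    have hpd : p ∣ Nat.card H := Nat.dvd_of_mem_primeFactors hpmem
    have hmax : ∀ q : ℕ, q.Prime → q ∣ Nat.card H → q ≤ p := by
      intro q hq hqd
      apply Finset.le_max'
      rw [Nat.mem_primeFactors]
      exact ⟨hq, hqd, Nat.card_pos.ne'⟩
    obtain ⟨P1, hP1, hP1n⟩ := exists_normal_sylow H hH p hmax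
    obtain ⟨P2, hP2, hP2n⟩ := exists_normal_sylow K hK p (hcard ▸ hmax)
    have hKHall : (Nat.card K).Coprime K.index := by
      have e : K.index = H.index := by
        have h2 := H.card_mul_index
        have h3 := K.card_mul_index
        rw [← hcard, ← h2] at h3
        exact Nat.eq_of_mul_eq_mul_left Nat.card_pos h3
      rw [← hcard, e]; exact hHall
    have top_of : ∀ (P L : Subgroup G), IsSylowIn p P L → p ∣ Nat.card L →
        (Nat.card L).Coprime L.index → IsSylowIn p P ⊤ := by
      intro P L hP hpL hL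
      refine ⟨le_top, hP.2.1, ?_⟩
      rw [relIndex_top_right, ← relIndex_mul_index hP.1]
      intro hd
      rcases (Nat.Prime.dvd_mul hpp).mp hd with h | h
      · exact hP.2.2 h
      · exact Nat.not_coprime_of_dvd_of_dvd hpp.one_lt hpL h hL
    have hP1t := top_of P1 H hP1 hpd hHall
    have hP2t := top_of P2 K hP2 (hcard ▸ hpd) hKHall
    obtain ⟨g, -, hg⟩ := hP2t.exists_conj_eq hP1t
    set H1 := cj g H with hH1
    have hH1ss : Cfsg.IsSupersolvable H1 := ss_map _ H hH
    have hH1card : Nat.card H1 = Nat.card H := card_cj g H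
    have hH1n : H1 ≤ normalizer (P2 : Set G) := by
      rw [← hg, normalizer_cj]
      exact cj_mono hP1n
    have hP2H1 : P2 ≤ H1 := by rw [← hg]; exact cj_mono hP1.1
    set N := normalizer (P2 : Set G) with hN
    have hP2ne : P2 ≠ ⊥ := by
      intro hb
      apply hP2.2.2
      rw [hb, relIndex_bot_left, ← hcard]
      exact hpd
    let φ := QuotientGroup.mk' (P2.subgroupOf N)
    have hφs : Function.Surjective φ := QuotientGroup.mk'_surjective _
    have hker : φ.ker = P2.subgroupOf N := QuotientGroup.ker_mk' _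
    have hlt : Nat.card (N ⧸ P2.subgroupOf N) < n := by
      have h2 : Nat.card (N ⧸ P2.subgroupOf N) * Nat.card (P2.subgroupOf N) = Nat.card N :=
        (card_eq_card_quotient_mul_card_subgroup _).symm
      have h3 : 1 < Nat.card (P2.subgroupOf N) := by
        rw [Nat.card_congr (subgroupOfEquivOfLe le_normalizer).toEquiv, one_lt_card_iff_ne_bot]
        exact hP2ne
      have h4 : Nat.card N ≤ n := hn ▸ card_le_card_group N
      have h5 : 0 < Nat.card (N ⧸ P2.subgroupOf N) := Nat.card_pos
      nlinarith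
    have idx : ∀ L : Subgroup G, P2 ≤ L → ((L.subgroupOf N).map φ).index = L.relIndex N := by
      intro L hL
      rw [(L.subgroupOf N).index_map_eq hφs (by rw [hker]; exact comap_mono hL)]
      rfl
    have relidx : H1.relIndex N = K.relIndex N := by
      have h2 := Cfsg.Agent.Lib.Helper13Offender.card_mul_relIndex' H1 N hH1n
      have h3 := Cfsg.Agent.Lib.Helper13Offender.card_mul_relIndex' K N hP2n
      rw [← h2, hH1card, hcard] at h3
      exact (Nat.eq_of_mul_eq_mul_left Nat.card_pos h3).symm
    have hc1 : Nat.card ((H1.subgroupOf N).map φ) = Nat.card ((K.subgroupOf N).map φ) := by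
      have h2 := ((H1.subgroupOf N).map φ).card_mul_index
      have h3 := ((K.subgroupOf N).map φ).card_mul_index
      rw [idx H1 hP2H1] at h2
      rw [idx K hP2.1, ← relidx, ← h2] at h3
      have hpos : 0 < H1.relIndex N := by
        rcases Nat.eq_zero_or_pos (H1.relIndex N) with h0 | h0
        · rw [h0, mul_zero] at h2
          exact absurd h2.symm Nat.card_pos.ne'
        · exact h0
      exact (Nat.eq_of_mul_eq_mul_right hpos h3).symm
    have hc2 : (Nat.card ((H1.subgroupOf N).map φ)).Coprime ((H1.subgroupOf N).map φ).index := by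
      rw [idx H1 hP2H1]
      have d1 : Nat.card ((H1.subgroupOf N).map φ) ∣ Nat.card H := by
        rw [← hH1card, ← Nat.card_congr (subgroupOfEquivOfLe hH1n).toEquiv]
        exact card_map_dvd _ _
      have d2 : H1.relIndex N ∣ H.index := by
        have : H1.index = H.index := by
          have h2 := H.card_mul_index
          have h3 := H1.card_mul_index
          rw [hH1card, ← h2] at h3
          exact Nat.eq_of_mul_eq_mul_left Nat.card_pos h3
        rw [← this]
        exact relIndex_dvd_index_of_le hH1n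
      exact Nat.Coprime.coprime_dvd_left d1 (Nat.Coprime.coprime_dvd_right d2 hHall)
    obtain ⟨xb, hxb⟩ := ih _ hlt (N ⧸ P2.subgroupOf N) rfl ((H1.subgroupOf N).map φ)
      ((K.subgroupOf N).map φ) (ss_map _ _ (ss_subgroupOf hH1n hH1ss))
      (ss_map _ _ (ss_subgroupOf hP2n hK)) hc1 hc2
    obtain ⟨x, rfl⟩ := hφs xb
    refine ⟨x * g, ?_⟩
    rw [cj_mul]
    intro y hy
    rw [mem_cj] at hy
    have hyN : (x : G)⁻¹ * y * x ∈ N := hH1n hy
    have h2 : φ ⟨(x : G)⁻¹ * y * x, hyN⟩ ∈ (H1.subgroupOf N).map φ :=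
      mem_map_of_mem _ (mem_subgroupOf.mpr hy)
    have h3 := hxb (conj_mem_cj (g := φ x) h2)
    obtain ⟨k, hk, hke⟩ := h3
    have h4 : φ k = φ (x * ⟨(x : G)⁻¹ * y * x, hyN⟩ * x⁻¹) := by
      rw [hke, map_mul, map_mul, map_inv]
    have h5 : k⁻¹ * (x * ⟨(x : G)⁻¹ * y * x, hyN⟩ * x⁻¹) ∈ P2.subgroupOf N := by
      rw [← hker, MonoidHom.mem_ker, map_mul, map_inv, h4, inv_mul_cancel]
    rw [mem_subgroupOf] at h5
    have hk : (k : G) ∈ K := mem_subgroupOf.mp hk
    have h6 : ((k⁻¹ * (x * ⟨(x : G)⁻¹ * y * x, hyN⟩ * x⁻¹) : N) : G) = (k : G)⁻¹ * y := by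
      simp only [Subgroup.coe_mul, Subgroup.coe_inv]; group
    rw [h6] at h5
    have := K.mul_mem hk (hP2.1 h5)
    simpa using this

/-- Let H and K be supersolvable subgroups of a finite group G of the same order, that order being coprime to their index. Then H and K are conjugate in G. -/
theorem result {G : Type*} [Group G] [Finite G] (H K : Subgroup G) (hH : Cfsg.IsSupersolvable H) (hK : Cfsg.IsSupersolvable K) (hcard : Nat.card H = Nat.card K) (hHall : (Nat.card H).Coprime H.index) : ∃ x : G, MulAut.conj x • H = K := by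
  obtain ⟨x, hx⟩ := aux _ G rfl H K hH hK hcard hHall
  refine ⟨x, ?_⟩
  have h1 : cj x H = K := eq_of_le_of_card_ge hx (by rw [card_cj, hcard])
  rw [← h1]
  rfl

end Cfsg.Agent.S0582
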