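import Cfsg.Statements.S0584
import Cfsg.Agent.Lib.Helper2Frattini

set_option autoImplicit false
open Cfsg

namespace Cfsg.Agent.S0584

open Subgroup Cfsg.Agent.Lib.Helper2Frattini

/-- Let B ≤ A be normal subgroups of a finite group G with B contained in the Frattini subgroup of G. If A modulo B is nilpotent then A is nilpotent. -/
theorem result {G : Type*} [Group G] [Finite G] (A B : Subgroup G) [A.Normal] [B.Normal] (hBA : B ≤ A) (hB : B ≤ frattini G) (h : Group.IsNilpotent (↥A ⧸ B.subgroupOf A)) : Group.IsNilpotent A := by
  have hM : Group.IsNilpotent (A ⊔ frattini G : Subgroup G) := by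
    apply isNilpotent_of_map_mk_frattini le_sup_right
    have e : (A ⊔ frattini G).map (QuotientGroup.mk' (frattini G))
        = A.map (QuotientGroup.mk' (frattini G)) := by
      rw [Subgroup.map_sup]
      have : (frattini G).map (QuotientGroup.mk' (frattini G)) = ⊥ := by
        rw [← le_bot_iff, map_le_iff_le_comap]
        intro x hx
        exact (QuotientGroup.eq_one_iff x).2 hx
      rw [this, sup_bot_eq]
    rw [e]
    let f : ↥A ⧸ B.subgroupOf A →* A.map (QuotientGroup.mk' (frattini G)) :=
      QuotientGroup.lift _ ((QuotientGroup.mk' (frattini G)).subgroupMap A) (by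
        intro x hx
        apply Subtype.ext
        exact (QuotientGroup.eq_one_iff (x : G)).2 (hB hx))
    apply Group.nilpotent_of_surjective f
    intro y
    obtain ⟨x, rfl⟩ := MonoidHom.subgroupMap_surjective (QuotientGroup.mk' (frattini G)) A y
    exact ⟨QuotientGroup.mk x, rfl⟩
  exact Group.nilpotent_of_mulEquiv (subgroupOfEquivOfLe (le_sup_left : A ≤ A ⊔ frattini G))

end Cfsg.Agent.S0584
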