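import Cfsg.Statements.S0585
import Cfsg.Agent.Lib.Helper13Frattini
import Cfsg.Agent.Lib.Helper13Basic

set_option autoImplicit false
open Cfsg

namespace Cfsg.Agent.S0585

/-- If the Frattini subgroup of a finite group G is trivial, then every abelian normal subgroup of G has a complement in G. -/
theorem result {G : Type*} [Group G] [Finite G] (hΦ : frattini G = ⊥) (A : Subgroup G) [A.Normal] [IsMulCommutative A] : ∃ H : Subgroup G, Subgroup.IsComplement' A H := by
  obtain ⟨H, hH⟩ := exists_minimal_of_wellFoundedLT (fun H : Subgroup G => A ⊔ H = ⊤) ⟨⊤, by simp⟩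
  have hAH : A ⊔ H = ⊤ := hH.1
  refine ⟨H, ?_⟩
  have hnorm : (A ⊓ H).Normal := by
    rw [← Subgroup.normalizer_eq_top_iff, eq_top_iff, ← hAH, sup_le_iff]
    constructor
    · intro a ha
      rw [Subgroup.mem_normalizer_iff]
      intro n
      have key : ∀ n ∈ A, a * n * a⁻¹ = n := by
        intro n hn
        have h2 : a * n = n * a := Cfsg.Agent.Lib.Helper13Basic.comm_of_mem A ha hn
        rw [h2]; group
      constructor
      · intro hn
        rw [key n hn.1]; exact hn
      · intro hn
        have hnA : n ∈ A := by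
          have := A.mul_mem (A.mul_mem (A.inv_mem ha) hn.1) ha
          simpa [mul_assoc] using this
        rw [key n hnA] at hn; exact hn
    · intro h hh
      rw [Subgroup.mem_normalizer_iff]
      intro n
      constructor
      · intro hn
        exact ⟨‹A.Normal›.conj_mem n hn.1 h, H.mul_mem (H.mul_mem hh hn.2) (H.inv_mem hh)⟩
      · intro hn
        constructor
        · have := ‹A.Normal›.conj_mem _ hn.1 h⁻¹
          simpa [mul_assoc] using this
        · have := H.mul_mem (H.mul_mem (H.inv_mem hh) hn.2) hh
          simpa [mul_assoc] using this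
  have hle : A ⊓ H ≤ (frattini ↥H).map H.subtype := by
    have h1 : (A ⊓ H).subgroupOf H ≤ frattini ↥H := by
      rw [Cfsg.Agent.Lib.Helper13Frattini.le_frattini_iff]
      intro L hL
      by_contra hNL
      have htop : L ⊔ (A ⊓ H).subgroupOf H = ⊤ := by
        apply hL.2
        exact lt_of_le_of_ne le_sup_left (fun h => hNL (h ▸ le_sup_right))
      have h2 : L.map H.subtype ⊔ (A ⊓ H) = H := by
        have := congrArg (Subgroup.map H.subtype) htop
        rw [Subgroup.map_sup, Subgroup.subgroupOf_map_subtype, ← MonoidHom.range_eq_map,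
          Subgroup.range_subtype] at this
        rwa [inf_assoc, inf_idem] at this
      have h3 : A ⊔ L.map H.subtype = ⊤ := by
        rw [eq_top_iff, ← hAH, sup_le_iff]
        refine ⟨le_sup_left, ?_⟩
        calc H = L.map H.subtype ⊔ (A ⊓ H) := h2.symm
          _ ≤ A ⊔ L.map H.subtype := sup_le le_sup_right (inf_le_left.trans le_sup_left)
      have h4 : H ≤ L.map H.subtype := hH.2 h3 (Subgroup.map_subtype_le L)
      apply hL.1
      rw [eq_top_iff]
      rintro ⟨x, hx⟩ -
      obtain ⟨y, hy, hyx⟩ := h4 hx
      have : y = ⟨x, hx⟩ := Subtype.ext hyx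
      rwa [← this]
    intro x hx
    exact ⟨⟨x, hx.2⟩, h1 (by simpa [Subgroup.mem_subgroupOf] using hx.1), rfl⟩
  have hbot : A ⊓ H = ⊥ := by
    have := Cfsg.Agent.Lib.Helper13Frattini.normal_le_frattini_of_le_frattini_subgroup H (A ⊓ H) hle
    rw [hΦ] at this
    exact le_bot_iff.mp this
  apply Subgroup.isComplement'_of_disjoint_and_mul_eq_univ (disjoint_iff.mpr hbot)
  rw [← Subgroup.normal_mul, hAH]
  rfl

end Cfsg.Agent.S0585
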