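import Cfsg.Statements.S0586
import Cfsg.Agent.Lib.Helper13Frattini
import Cfsg.Agent.Lib.Helper13Basic
import Cfsg.Agent.Lib.Helper28Fitting
import Cfsg.Agent.S0575
import Cfsg.Agent.S0585

set_option autoImplicit false
open Cfsg

namespace Cfsg.Agent.S0586

/-- If the Frattini subgroup of a finite group G is trivial, then the Fitting subgroup of G equals the join of all abelian minimal normal subgroups of G. -/
theorem result {G : Type*} [Group G] [Finite G] (hΦ : frattini G = ⊥) : Cfsg.fittingSubgroup G = sSup {N : Subgroup G | N.Normal ∧ N ≠ ⊥ ∧ IsMulCommutative N ∧ ∀ K : Subgroup G, K.Normal → K ≤ N → K = ⊥ ∨ K = N} := by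
  have hFn : (Cfsg.fittingSubgroup G).Normal := Cfsg.Agent.Lib.Helper28Fitting.fitting_normal
  have hFnil : Group.IsNilpotent (Cfsg.fittingSubgroup G) :=
    Cfsg.Agent.Lib.Helper28Fitting.fitting_isNilpotent
  have hFab : IsMulCommutative (Cfsg.fittingSubgroup G) := by
    have h1 := Cfsg.Agent.S0575.result (Cfsg.fittingSubgroup G)
    rw [hΦ, le_bot_iff, (Subgroup.map_eq_bot_iff_of_injective _ (Subgroup.subtype_injective _))] at h1
    have h2 := Cfsg.Agent.Lib.Helper13Frattini.commutator_le_frattini_of_nilpotent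
      (G := Cfsg.fittingSubgroup G)
    rw [h1, le_bot_iff] at h2
    exact (commutator_eq_bot_iff _).mp h2
  set S := sSup {N : Subgroup G | N.Normal ∧ N ≠ ⊥ ∧ IsMulCommutative N ∧
    ∀ K : Subgroup G, K.Normal → K ≤ N → K = ⊥ ∨ K = N} with hS
  have hSF : S ≤ Cfsg.fittingSubgroup G := by
    apply sSup_le
    rintro N ⟨hNn, -, hNc, -⟩
    apply Cfsg.Agent.Lib.Helper28Fitting.le_fitting hNn
    let _ : CommGroup N := { (inferInstance : Group N) with mul_comm := fun a b => mul_comm' a b }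
    infer_instance
  have hSn : S.Normal := Subgroup.sSup_normal _ (fun N hN => hN.1)
  have hSab : IsMulCommutative S := Cfsg.Agent.Lib.Helper13Basic.isMulCommutative_mono hSF hFab
  obtain ⟨H, hH⟩ := Cfsg.Agent.S0585.result hΦ S
  apply le_antisymm _ hSF
  have hsup : S ⊔ H = ⊤ := hH.sup_eq_top
  have hdisj : S ⊓ H = ⊥ := disjoint_iff.mp hH.disjoint
  have hFHn : (Cfsg.fittingSubgroup G ⊓ H).Normal := by
    rw [← Subgroup.normalizer_eq_top_iff, eq_top_iff, ← hsup, sup_le_iff]
    constructor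
    · rw [Subgroup.le_normalizer_iff]
      intro s hs k hk
      have : s * k * s⁻¹ = k := by
        rw [Cfsg.Agent.Lib.Helper13Basic.comm_of_mem _ (hSF hs) hk.1]; group
      rw [this]; exact hk
    · rw [Subgroup.le_normalizer_iff]
      intro h hh k hk
      exact ⟨hFn.conj_mem k hk.1 h, H.mul_mem (H.mul_mem hh hk.2) (H.inv_mem hh)⟩
  have hFH : Cfsg.fittingSubgroup G ⊓ H = ⊥ := by
    by_contra hne
    obtain ⟨N, hN⟩ := exists_minimal_of_wellFoundedLT
      (fun N : Subgroup G => N.Normal ∧ N ≠ ⊥ ∧ N ≤ Cfsg.fittingSubgroup G ⊓ H) ⟨_, hFHn, hne, le_rfl⟩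
    obtain ⟨⟨hNn, hNne, hNle⟩, hNmin⟩ := hN
    have hNS : N ≤ S := by
      apply le_sSup
      refine ⟨hNn, hNne, Cfsg.Agent.Lib.Helper13Basic.isMulCommutative_mono (hNle.trans inf_le_left) hFab, ?_⟩
      intro K hKn hKN
      by_cases hK : K = ⊥
      · exact Or.inl hK
      · exact Or.inr (le_antisymm hKN (hNmin ⟨hKn, hK, hKN.trans hNle⟩ hKN))
    apply hNne
    rw [← le_bot_iff, ← hdisj]
    exact le_inf hNS (hNle.trans inf_le_right)
  intro f hf
  have hf' : f ∈ S ⊔ H := hsup ▸ Subgroup.mem_top f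
  rw [Subgroup.mem_sup_of_normal_left] at hf'
  obtain ⟨s, hs, h, hh, rfl⟩ := hf'
  have : h ∈ Cfsg.fittingSubgroup G ⊓ H := by
    refine ⟨?_, hh⟩
    have := (Cfsg.fittingSubgroup G).mul_mem ((Cfsg.fittingSubgroup G).inv_mem (hSF hs)) hf
    simpa using this
  rw [hFH, Subgroup.mem_bot] at this
  rw [this, mul_one]; exact hs

end Cfsg.Agent.S0586
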