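import Cfsg.Statements.S0587
-- import your own Cfsg.Agent.* helpers here
import Mathlib
import Cfsg.Agent.Lib.Helper1Fitting

set_option autoImplicit false
open Cfsg

namespace Cfsg.Agent.S0587

open Pointwise

theorem le_norm_of {G : Type*} [Group G] {K X : Subgroup G}
    (h : ∀ g ∈ K, ∀ x ∈ X, g * x * g⁻¹ ∈ X) : K ≤ Subgroup.normalizer (X : Set G) := by
  intro g hg
  rw [Subgroup.mem_normalizer_iff]
  intro x
  constructor
  · exact h g hg x
  · intro hx
    have := h g⁻¹ (K.inv_mem hg) _ hx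
    have e : g⁻¹ * (g * x * g⁻¹) * g⁻¹⁻¹ = x := by group
    rwa [e] at this


/-- Let G be a finite group whose largest normal p-subgroup L is nontrivial, and M a maximal subgroup of G with trivial normal core. Then L is elementary abelian, M is a complement to L, L is a minimal normal subgroup of G, the centralizer of L is L, and for every prime q such that the largest normal q-subgroup of M is nontrivial, the order of L is congruent to 1 modulo q and q ≠ p. -/
theorem result {G : Type*} [Group G] [Finite G] (p : ℕ) [Fact p.Prime] (hL : Cfsg.pCore p G ≠ ⊥) (M : Subgroup G) (hM : IsCoatom M) (hcore : M.normalCore = ⊥) : Cfsg.IsElementaryAbelian p (Cfsg.pCore p G) ∧ Subgroup.IsComplement' (Cfsg.pCore p G) M ∧ (∀ K : Subgroup G, K.Normal → K ≤ Cfsg.pCore p G → K = ⊥ ∨ K = Cfsg.pCore p G) ∧ Subgroup.centralizer ((Cfsg.pCore p G : Subgroup G) : Set G) = Cfsg.pCore p G ∧ ∀ (q : ℕ) [Fact q.Prime], Cfsg.pCore q ↥M ≠ ⊥ → Nat.card (Cfsg.pCore p G) % q = 1 % q ∧ q ≠ p := by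
  classical
  have hp : p.Prime := Fact.out
  set L := Cfsg.pCore p G with hLdef
  haveI hLn : L.Normal := Cfsg.Agent.Lib.Helper1Fitting.pCore_normal p
  have hLp : IsPGroup p L := Cfsg.Agent.Lib.Helper1Fitting.pCore_isPGroup p
  have K1 : ∀ N : Subgroup G, N.Normal → N ≤ M → N = ⊥ := by
    intro N hN hNM
    haveI := hN
    have := Subgroup.normal_le_normalCore.mpr hNM
    rw [hcore] at this
    exact le_bot_iff.mp this
  have K2 : ∀ N : Subgroup G, N.Normal → N ≠ ⊥ → N ⊔ M = ⊤ := by
    intro N hN hN1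
    apply hM.2
    apply lt_of_le_of_ne le_sup_right
    intro h
    apply hN1
    apply K1 N hN
    rw [h]; exact le_sup_left
  have K3 : ∀ N X : Subgroup G, N ⊔ M = ⊤ → (∀ g ∈ N, ∀ x ∈ X, g * x * g⁻¹ ∈ X) →
      (∀ g ∈ M, ∀ x ∈ X, g * x * g⁻¹ ∈ X) → X.Normal := by
    intro N X h1 h2 h3
    rw [← Subgroup.normalizer_eq_top_iff, eq_top_iff, ← h1]
    exact sup_le (le_norm_of h2) (le_norm_of h3)
  have K4 : ∀ N : Subgroup G, N.Normal → N ≠ ⊥ → ∀ g : G, ∃ a ∈ N, ∃ m ∈ M, a * m = g := by
    intro N hN hN1 g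
    haveI := hN
    have h1 : g ∈ ((N ⊔ M : Subgroup G) : Set G) := by rw [K2 N hN hN1]; trivial
    rw [Subgroup.normal_mul] at h1
    obtain ⟨a, ha, m, hm, h⟩ := Set.mem_mul.mp h1
    exact ⟨a, ha, m, hm, h⟩
  -- the centre of L
  set A : Subgroup G := L ⊓ Subgroup.centralizer (L : Set G) with hA
  haveI hAn : A.Normal := Subgroup.normal_inf_normal _ _ 
  have hA1 : A ≠ ⊥ := by
    haveI : Nontrivial ↥L := (Subgroup.nontrivial_iff_ne_bot L).mpr hL
    haveI := hLp.center_nontrivial
    obtain ⟨z, hz⟩ := exists_ne (1 : Subgroup.center ↥L)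
    intro h
    apply hz
    have hzA : ((z : ↥L) : G) ∈ A := by
      refine Subgroup.mem_inf.mpr ⟨(z : ↥L).2, ?_⟩
      rw [Subgroup.mem_centralizer_iff]
      intro x hx
      have := Subgroup.mem_center_iff.mp z.2 ⟨x, hx⟩
      exact congrArg Subtype.val this
    rw [h, Subgroup.mem_bot] at hzA
    apply Subtype.ext
    apply Subtype.ext
    exact hzA
  have hAc : ∀ a ∈ A, ∀ x ∈ L, a * x * a⁻¹ = x := by
    intro a ha x hx
    have := Subgroup.mem_centralizer_iff.mp ha.2 x hx
    rw [← this]; group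
  have hLM : L ⊓ M = ⊥ := by
    apply K1 _ _ inf_le_right
    apply K3 A _ (K2 A hAn hA1)
    · intro g hg x hx
      rw [hAc g hg x hx.1]; exact hx
    · intro g hg x hx
      exact ⟨hLn.conj_mem x hx.1 g, M.mul_mem (M.mul_mem hg hx.2) (M.inv_mem hg)⟩
  have hmin : ∀ K : Subgroup G, K.Normal → K ≤ L → K ≠ ⊥ → L ≤ K := by
    intro K hK hKL hK1 x hx
    obtain ⟨a, ha, m, hm, h⟩ := K4 K hK hK1 x
    have hm2 : m ∈ L ⊓ M := by
      refine ⟨?_, hm⟩
      have : m = a⁻¹ * x := by rw [← h]; group
      rw [this]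
      exact L.mul_mem (L.inv_mem (hKL ha)) hx
    rw [hLM, Subgroup.mem_bot] at hm2
    rw [← h, hm2, mul_one]; exact ha
  have hLA : L ≤ A := hmin A hAn inf_le_left hA1
  have hLc : ∀ x ∈ L, ∀ y ∈ L, x * y = y * x := by
    intro x hx y hy
    exact (Subgroup.mem_centralizer_iff.mp (hLA hx).2 y hy).symm
  have hcompl : Subgroup.IsComplement' L M := by
    apply Subgroup.isComplement'_of_disjoint_and_mul_eq_univ (disjoint_iff.mpr hLM)
    rw [← Subgroup.normal_mul, K2 L hLn hL]
    rfl
  -- Omega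
  let Ω : Subgroup G :=
    { carrier := {x | x ∈ L ∧ x ^ p = 1}
      one_mem' := ⟨L.one_mem, one_pow _⟩
      mul_mem' := by
        rintro x y ⟨hx, hx2⟩ ⟨hy, hy2⟩
        refine ⟨L.mul_mem hx hy, ?_⟩
        have : Commute x y := hLc x hx y hy
        rw [this.mul_pow, hx2, hy2, one_mul]
      inv_mem' := by
        rintro x ⟨hx, hx2⟩
        exact ⟨L.inv_mem hx, by rw [inv_pow, hx2, inv_one]⟩ }
  have hΩn : Ω.Normal := by
    constructor
    rintro x ⟨hx, hx2⟩ g
    exact ⟨hLn.conj_mem x hx g, by rw [conj_pow, hx2]; group⟩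
  have hΩ1 : Ω ≠ ⊥ := by
    have hd : p ∣ Nat.card L := by
      rcases hLp.card_eq_or_dvd with h | h
      · exact absurd (Subgroup.card_eq_one.mp h) hL
      · exact h
    obtain ⟨x, hx⟩ := exists_prime_orderOf_dvd_card' p hd
    intro h
    have hxΩ : (x : G) ∈ Ω := by
      refine ⟨x.2, ?_⟩
      have : x ^ p = 1 := by rw [← hx]; exact pow_orderOf_eq_one x
      have := congrArg Subtype.val this
      simpa using this
    rw [h, Subgroup.mem_bot] at hxΩ
    have : x = 1 := Subtype.ext hxΩ
    rw [this, orderOf_one] at hx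
    exact hp.one_lt.ne hx
  have hLΩ : L ≤ Ω := hmin Ω hΩn (fun x hx => hx.1) hΩ1
  have hcent : Subgroup.centralizer (L : Set G) = L := by
    apply le_antisymm
    · have hCM : Subgroup.centralizer (L : Set G) ⊓ M = ⊥ := by
        apply K1 _ _ inf_le_right
        apply K3 L _ (K2 L hLn hL)
        · intro g hg x hx
          have := Subgroup.mem_centralizer_iff.mp hx.1 g hg
          have e : g * x * g⁻¹ = x := by rw [this]; group
          rw [e]; exact hx
        · intro g hg x hx
          exact ⟨(Subgroup.normal_centralizer (H := L)).conj_mem x hx.1 g, M.mul_mem (M.mul_mem hg hx.2) (M.inv_mem hg)⟩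
      intro x hx
      obtain ⟨a, ha, m, hm, h⟩ := K4 L hLn hL x
      have hm2 : m ∈ Subgroup.centralizer (L : Set G) ⊓ M := by
        refine Subgroup.mem_inf.mpr ⟨?_, hm⟩
        have : m = a⁻¹ * x := by rw [← h]; group
        rw [this]
        exact mul_mem (inv_mem (Subgroup.mem_inf.mp (hLA ha)).2) hx
      rw [hCM, Subgroup.mem_bot] at hm2
      rw [← h, hm2, mul_one]; exact ha
    · exact fun x hx => (hLA hx).2
  refine ⟨⟨⟨⟨fun a b => Subtype.ext (hLc a a.2 b b.2)⟩⟩, fun a ha => (hLΩ ha).2⟩, hcompl, ?_, hcent, ?_⟩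
  · intro K hK hKL
    by_cases h : K = ⊥
    · exact Or.inl h
    · exact Or.inr (le_antisymm hKL (hmin K hK hKL h))
  · intro q hq hQ
    set Q := Cfsg.pCore q ↥M with hQdef
    haveI hQn : Q.Normal := Cfsg.Agent.Lib.Helper1Fitting.pCore_normal q
    have hQp : IsPGroup q Q := Cfsg.Agent.Lib.Helper1Fitting.pCore_isPGroup q
    set Q' : Subgroup G := Q.map M.subtype with hQ'
    have hQ'M : Q' ≤ M := Subgroup.map_subtype_le Q
    have hQ'p : IsPGroup q Q' := hQp.map _
    have hQ'1 : Q' ≠ ⊥ := by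
      intro h
      apply hQ
      rw [hQ'] at h
      exact (Subgroup.map_eq_bot_iff_of_injective _ M.subtype_injective).mp h
    have hMQ : ∀ g ∈ M, ∀ x ∈ Q', g * x * g⁻¹ ∈ Q' := by
      intro g hg x hx
      obtain ⟨x', hx', rfl⟩ := Subgroup.mem_map.mp hx
      exact Subgroup.mem_map.mpr ⟨⟨g, hg⟩ * x' * ⟨g, hg⟩⁻¹, hQn.conj_mem x' hx' _, rfl⟩
    have hNQ : Subgroup.normalizer (Q' : Set G) = M := by
      have h1 : M ≤ Subgroup.normalizer (Q' : Set G) := le_norm_of hMQ
      rcases lt_or_eq_of_le h1 with h | h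
      · exfalso
        have h2 := hM.2 _ h
        exact hQ'1 (K1 Q' (Subgroup.normalizer_eq_top_iff.mp h2) hQ'M)
      · exact h.symm
    constructor
    · letI : MulAction ↥Q' ↥L := MulAction.compHom ↥L ((MulAut.conjNormal (H := L)).comp Q'.subtype)
      have hsm : ∀ (x : ↥Q') (l : ↥L), ((x • l : ↥L) : G) = x * l * (x : G)⁻¹ := fun x l => rfl
      have h1 := hQ'p.card_modEq_card_fixedPoints ↥L
      have h2 : Nat.card (MulAction.fixedPoints ↥Q' ↥L) = 1 := by
        rw [Nat.card_eq_one_iff_unique]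
        refine ⟨⟨?_⟩, ⟨⟨1, ?_⟩⟩⟩
        · rintro ⟨a, ha⟩ ⟨b, hb⟩
          have key : ∀ l : ↥L, l ∈ MulAction.fixedPoints ↥Q' ↥L → l = 1 := by
            intro l hl
            have h3 : (l : G) ∈ Subgroup.normalizer (Q' : Set G) := by
              apply Subgroup.centralizer_le_normalizer
              rw [Subgroup.mem_centralizer_iff]
              intro x hx
              have := congrArg Subtype.val (hl ⟨x, hx⟩)
              rw [hsm] at this
              calc x * l = (x * l * x⁻¹) * x := by group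
                _ = l * x := by rw [show x * (l : G) * x⁻¹ = l from this]
            rw [hNQ] at h3
            have h4 : (l : G) ∈ L ⊓ M := ⟨l.2, h3⟩
            rw [hLM, Subgroup.mem_bot] at h4
            exact Subtype.ext h4
          apply Subtype.ext
          exact (key a ha).trans (key b hb).symm
        · intro x
          apply Subtype.ext
          rw [hsm]
          simp
      rw [h2] at h1
      exact h1
    · rintro rfl
      have h1 : IsPGroup q (L ⊔ Q' : Subgroup G) := hLp.to_sup_of_normal_left hQ'p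
      have h2 : (L ⊔ Q' : Subgroup G).Normal := by
        apply K3 L _ (K2 L hLn hL)
        · intro g hg x hx
          have hg' : g ∈ L ⊔ Q' := Subgroup.mem_sup_left hg
          exact mul_mem (mul_mem hg' hx) (inv_mem hg')
        · intro g hg x hx
          have h3 : L ⊔ Q' ≤ (L ⊔ Q').comap (MulAut.conj g).toMonoidHom := by
            apply sup_le
            · intro y hy
              exact Subgroup.mem_sup_left (by simpa using hLn.conj_mem y hy g)
            · intro y hy
              exact Subgroup.mem_sup_right (by simpa using hMQ g hg y hy)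
          simpa using h3 hx
      have h3 : L ⊔ Q' ≤ L := Cfsg.Agent.Lib.Helper1Fitting.le_pCore h2 h1
      apply hQ'1
      rw [eq_bot_iff, ← hLM]
      exact le_inf (le_sup_right.trans h3) hQ'M

end Cfsg.Agent.S0587
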