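import Cfsg.Statements.S0589
import Cfsg.Agent.Lib.Helper1FrobConj

set_option autoImplicit false
open Pointwise
open Cfsg

namespace Cfsg.Agent.S0589



/-- Let H be a Frobenius complement in a finite group G and L a subgroup of G whose order divides the order of H. Then L is contained in some conjugate of H. -/
theorem result {G : Type*} [Group G] [Finite G] (H : Subgroup G) (hH : Cfsg.IsFrobeniusComplement H) (L : Subgroup G) (hL : Nat.card L ∣ Nat.card H) : ∃ x : G, L ≤ MulAut.conj x • H := by
  obtain ⟨N, hN, hNn, hNc⟩ := Cfsg.Agent.Lib.Helper1FrobThm.frobenius_theorem H hH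
  have hcop : (Nat.card H).Coprime (Nat.card N) :=
    Cfsg.Agent.Lib.Helper1FpfSylow.coprime_card H N (by rw [Subgroup.normalizer_eq_top]; exact le_top)
      (Cfsg.Agent.Lib.Helper1FrobConj.fpf_of_complement hH hNc.disjoint)
  obtain ⟨g, hg⟩ := Cfsg.Agent.Lib.Helper1FrobConj.exists_conj_le_of_inter_kernel hH L (by
    intro x hxL hxK
    have hxN : x ∈ N := by
      have : x ∈ (N : Set G) := hN ▸ hxK
      exact this
    have h1 : orderOf x ∣ Nat.card H := by
      have := orderOf_dvd_natCard (⟨x, hxL⟩ : L)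
      rw [Subgroup.orderOf_mk] at this
      exact this.trans hL
    have h2 : orderOf x ∣ Nat.card N := by
      have := orderOf_dvd_natCard (⟨x, hxN⟩ : N)
      rwa [Subgroup.orderOf_mk] at this
    exact orderOf_eq_one_iff.mp (Nat.eq_one_of_dvd_coprimes hcop h1 h2))
  refine ⟨g⁻¹, ?_⟩
  intro x hx
  rw [Cfsg.Agent.Lib.Helper1Basic.mem_conj_smul]
  have := hg (Cfsg.Agent.Lib.Helper1Basic.conj_mem_conj_smul (g := g) hx)
  simpa using this

end Cfsg.Agent.S0589
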