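import Cfsg.Statements.S0590
import Mathlib

set_option autoImplicit false
open Cfsg
open scoped commutatorElement

namespace Cfsg.Agent.S0590

/-- Quadratic action on an elementary abelian p-group forces the acting group modulo the kernel of the action to be elementary abelian. -/
theorem result {G : Type*} [Group G] [Finite G] {p : ℕ} [Fact p.Prime] (V H : Subgroup G) (hV : Cfsg.IsElementaryAbelian p V) (hHV : H ≤ Subgroup.normalizer (V : Set G)) (hq : ⁅⁅V, H⁆, H⁆ = ⊥) : ⁅H, H⁆ ≤ Subgroup.centralizer (V : Set G) ∧ ∀ a ∈ H, a ^ p ∈ Subgroup.centralizer (V : Set G) := by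
  constructor
  · have h1 : ⁅⁅H, V⁆, H⁆ = ⊥ := by rw [Subgroup.commutator_comm H V]; exact hq
    have h2 := Subgroup.commutator_commutator_eq_bot_of_rotate h1 hq
    exact Subgroup.commutator_eq_bot_iff_le_centralizer.mp h2
  · intro a ha
    rw [Subgroup.mem_centralizer_iff]
    intro v hv
    have hv' : v ∈ V := hv
    set w := ⁅v, a⁆ with hw
    have hwc : w ∈ Subgroup.centralizer (H : Set G) :=
      Subgroup.commutator_eq_bot_iff_le_centralizer.mp hq (Subgroup.commutator_mem_commutator hv' ha)
    have hwa : a * w = w * a := Subgroup.mem_centralizer_iff.mp hwc a ha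
    have hwV : w ∈ V := by
      have h3 : a * v⁻¹ * a⁻¹ ∈ V :=
        (Subgroup.mem_normalizer_iff.mp (hHV ha) v⁻¹).mp (V.inv_mem hv')
      have : w = v * (a * v⁻¹ * a⁻¹) := by rw [hw, commutatorElement_def]; group
      rw [this]; exact V.mul_mem hv' h3
    have hwp : w ^ p = 1 := hV.2 w hwV
    have hav : a * v = w⁻¹ * v * a := by rw [hw, commutatorElement_def]; group
    have hcomm : ∀ k : ℕ, a * (w⁻¹) ^ k = (w⁻¹) ^ k * a := by
      intro k
      have : Commute a w := hwa
      exact (this.inv_right.pow_right k).eq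
    have key : ∀ k : ℕ, a ^ k * v = (w⁻¹) ^ k * v * a ^ k := by
      intro k
      induction k with
      | zero => simp
      | succ k ih =>
        calc a ^ (k + 1) * v = a * (a ^ k * v) := by rw [pow_succ']; group
          _ = a * ((w⁻¹) ^ k * v * a ^ k) := by rw [ih]
          _ = (a * (w⁻¹) ^ k) * v * a ^ k := by group
          _ = (w⁻¹) ^ k * (a * v) * a ^ k := by rw [hcomm]; group
          _ = (w⁻¹) ^ k * (w⁻¹ * v * a) * a ^ k := by rw [hav]
          _ = ((w⁻¹) ^ k * w⁻¹) * v * (a * a ^ k) := by group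
          _ = (w⁻¹) ^ (k + 1) * v * a ^ (k + 1) := by rw [← pow_succ, ← pow_succ']
    have := key p
    rw [inv_pow, hwp, inv_one, one_mul] at this
    exact this.symm

end Cfsg.Agent.S0590
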