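import Cfsg.Statements.S0591
import Cfsg.Agent.Lib.Helper13Offender

set_option autoImplicit false
open Cfsg
open Subgroup Cfsg.Agent.Lib.Helper13Offender Cfsg.Agent.Lib.Helper13Basic
open scoped commutatorElement

namespace Cfsg.Agent.S0591

/-- For a quadratically acting element a on an elementary abelian p-group V, the fixed points C_V(a) have order at least the square root of the order of V. -/
theorem result {G : Type*} [Group G] [Finite G] {p : ℕ} [Fact p.Prime] (V : Subgroup G) (hV : Cfsg.IsElementaryAbelian p V) (a : G) (ha : a ∈ Subgroup.normalizer (V : Set G)) (hq : ⁅⁅V, Subgroup.zpowers a⁆, Subgroup.zpowers a⁆ = ⊥) : Nat.card V ≤ Nat.card ↥(V ⊓ Subgroup.centralizer (Subgroup.zpowers a : Set G)) ^ 2 := by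
  haveI := hV.1
  have hAV : zpowers a ≤ normalizer (V : Set G) := zpowers_le.mpr ha
  have hmem : ∀ v ∈ V, ⁅v, a⁆ ∈ V := fun v hv => comm_mem_of_le_normalizer hAV (mem_zpowers a) hv
  let φ : V →* V :=
    { toFun := fun v => ⟨⁅(v : G), a⁆, hmem v v.2⟩
      map_one' := by apply Subtype.ext; simp
      map_mul' := by
        intro x y
        apply Subtype.ext
        show ⁅(x : G) * y, a⁆ = ⁅(x : G), a⁆ * ⁅(y : G), a⁆
        calc ⁅(x : G) * y, a⁆ = ((x : G) * ⁅(y : G), a⁆) * (x : G)⁻¹ * ⁅(x : G), a⁆ := by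
              simp only [commutatorElement_def]; group
          _ = (⁅(y : G), a⁆ * (x : G)) * (x : G)⁻¹ * ⁅(x : G), a⁆ := by
              rw [comm_of_mem V x.2 (hmem y y.2)]
          _ = ⁅(y : G), a⁆ * ⁅(x : G), a⁆ := by group
          _ = ⁅(x : G), a⁆ * ⁅(y : G), a⁆ := comm_of_mem V (hmem y y.2) (hmem x x.2) }
  set C : Subgroup G := V ⊓ centralizer (zpowers a : Set G) with hC
  have hcz : ∀ x : G, x ∈ centralizer (zpowers a : Set G) ↔ a * x = x * a := by
    intro x
    rw [zpowers_eq_closure, centralizer_closure, mem_centralizer_singleton_iff]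
    exact eq_comm
  have hker : φ.ker = C.subgroupOf V := by
    ext v
    rw [MonoidHom.mem_ker, mem_subgroupOf]
    constructor
    · intro h
      have h1 : ⁅(v : G), a⁆ = 1 := congrArg Subtype.val h
      rw [commutatorElement_eq_one_iff_mul_comm] at h1
      exact ⟨v.2, (hcz _).mpr h1.symm⟩
    · intro h
      apply Subtype.ext
      show ⁅(v : G), a⁆ = 1
      rw [commutatorElement_eq_one_iff_mul_comm]
      exact ((hcz _).mp h.2).symm
  have hrange : φ.range.map V.subtype ≤ C := by
    rintro _ ⟨_, ⟨v, rfl⟩, rfl⟩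
    refine ⟨hmem v v.2, ?_⟩
    exact commutator_eq_bot_iff_le_centralizer.mp hq
      (commutator_mem_commutator v.2 (mem_zpowers a))
  have h1 : Nat.card φ.ker * Nat.card φ.range = Nat.card V := by
    rw [← index_ker, card_mul_index]
  have h2 : Nat.card φ.ker = Nat.card C := by
    rw [hker]
    exact Nat.card_congr (subgroupOfEquivOfLe inf_le_left).toEquiv
  have h3 : Nat.card φ.range ≤ Nat.card C := by
    rw [← card_map_of_injective V.subtype_injective]
    exact card_le_of_le hrange
  rw [← h1, h2, sq]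
  exact Nat.mul_le_mul_left _ h3

end Cfsg.Agent.S0591
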