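import Cfsg.Statements.S0592
import Mathlib
import Cfsg.Agent.Lib.Helper13Quad
import Cfsg.Agent.Lib.Helper31Nilpotent

set_option autoImplicit false
open Cfsg

namespace Cfsg.Agent.S0592

open Cfsg.Agent.Lib.Helper13Quad Cfsg.Agent.Lib.Helper31Nilpotent

theorem gen_top {G : Type*} [Group G] (H : Subgroup G) (a b : G) (hH : H = Subgroup.closure {a, b})
    (ha : a ∈ H) (hb : b ∈ H) (S : Subgroup H) (h1 : (⟨a, ha⟩ : H) ∈ S) (h2 : (⟨b, hb⟩ : H) ∈ S) :
    S = ⊤ := by
  rw [eq_top_iff]
  intro g _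
  have hle : H ≤ S.map H.subtype := by
    conv_lhs => rw [hH]
    rw [Subgroup.closure_le]
    rintro y (rfl | rfl)
    · exact ⟨_, h1, rfl⟩
    · exact ⟨_, h2, rfl⟩
  obtain ⟨s, hs, hsg⟩ := hle g.2
  have : s = g := Subtype.ext hsg
  rwa [← this]


/-- Two quadratically acting generators of a linear group that is not a p-group, with the p'-part of the order of their product dividing q - 1, give a homomorphism onto a subgroup of SL(2, q) that is not a p-group. -/
theorem result {K : Type*} [Field K] [Fintype K] {p : ℕ} [Fact p.Prime] [CharP K p] {W : Type*} [AddCommGroup W] [Module K W] [FiniteDimensional K W] [Finite W] [Nontrivial W] (H : Subgroup (W ≃ₗ[K] W)) (a b : W ≃ₗ[K] W) (hH : H = Subgroup.closure {a, b}) (ha : ∀ w : W, a (a w - w) = a w - w) (hb : ∀ w : W, b (b w - w) = b w - w) (hnp : ¬ IsPGroup p H) (hk : ∃ e k : ℕ, orderOf (a * b) = p ^ e * k ∧ k ∣ Fintype.card K - 1) : ∃ φ : H →* Matrix.SpecialLinearGroup (Fin 2) K, ¬ IsPGroup p φ.range := by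
  haveI : Finite (W ≃ₗ[K] W) := Finite.of_injective (fun f => (f : W → W)) DFunLike.coe_injective
  have haH : a ∈ H := by rw [hH]; exact Subgroup.subset_closure (by simp)
  have hbH : b ∈ H := by rw [hH]; exact Subgroup.subset_closure (by simp)
  obtain ⟨e, k, hord, hk⟩ := hk
  let ρ : Representation K H W := (LinearEquiv.automorphismGroup.toLinearMapMonoidHom).comp H.subtype
  have hex : ∃ g : H, ∀ j : ℕ, g ^ p ^ j ≠ 1 := by
    by_contra hcon
    push Not at hcon
    exact hnp hcon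
  obtain ⟨g, hg⟩ := hex
  obtain ⟨j, m, -, -, h2, hmp⟩ := exists_order_split p g
  obtain ⟨φ, hφ⟩ := lemmaR (K := K) (p := p) (⟨a, haH⟩ : H) ⟨b, hbH⟩ (gen_top H a b hH haH hbH) e k
    (by
      apply Subtype.ext
      simp only [Subgroup.coe_pow, Subgroup.coe_mul, Subgroup.coe_one]
      rw [← hord, pow_orderOf_eq_one]) hk (g ^ p ^ j) m hmp (by rw [← h2, pow_orderOf_eq_one])
    _ W ρ rfl ha hb (by
      intro h
      apply hg j
      apply Subtype.ext
      ext w
      exact congrArg (fun f : Module.End K W => f w) h)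
  refine ⟨φ, fun hp => ?_⟩
  obtain ⟨i, hi⟩ := hp ⟨φ (g ^ p ^ j), _, rfl⟩
  apply hφ
  refine eq_one_of_pow_coprime (Nat.Coprime.pow_right i hmp) ?_ (congrArg Subtype.val hi)
  rw [← map_pow, ← h2, pow_orderOf_eq_one, map_one]

end Cfsg.Agent.S0592
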