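import Cfsg.Statements.S0593
import Mathlib
import Cfsg.Agent.Lib.Helper13QuadGrp
import Cfsg.Agent.Lib.Helper13SL2
import Cfsg.Agent.Lib.Helper31Nilpotent

set_option autoImplicit false
open Cfsg

namespace Cfsg.Agent.S0593

open Cfsg.Agent.Lib.Helper13Quad Cfsg.Agent.Lib.Helper13QuadGrp Cfsg.Agent.Lib.Helper13SL2
open Cfsg.Agent.Lib.Helper31Nilpotent


/-- For odd p, a faithful group on an elementary abelian p-group generated by two quadratically acting elements is a p-group or has non-abelian Sylow 2-subgroups. -/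
theorem result {G : Type*} [Group G] [Finite G] {p : ℕ} [Fact p.Prime] (hp : p ≠ 2) (V H : Subgroup G) (hV : Cfsg.IsElementaryAbelian p V) (hHV : H ≤ Subgroup.normalizer (V : Set G)) (hf : H ⊓ Subgroup.centralizer (V : Set G) = ⊥) (a b : G) (hab : H = Subgroup.closure {a, b}) (ha : ⁅⁅V, Subgroup.zpowers a⁆, Subgroup.zpowers a⁆ = ⊥) (hb : ⁅⁅V, Subgroup.zpowers b⁆, Subgroup.zpowers b⁆ = ⊥) (hnp : ¬ IsPGroup p H) (T : Sylow 2 H) : ¬ IsMulCommutative T := by
  intro hT
  have haH : a ∈ H := by rw [hab]; exact Subgroup.subset_closure (by simp)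
  have hbH : b ∈ H := by rw [hab]; exact Subgroup.subset_closure (by simp)
  have hex : ∃ g : H, ∀ j : ℕ, g ^ p ^ j ≠ 1 := by
    by_contra hcon
    push Not at hcon
    exact hnp hcon
  obtain ⟨g, hg⟩ := hex
  obtain ⟨j, m, -, -, h2, hmp⟩ := exists_order_split p g
  obtain ⟨K, _, _, _, φ, hφ⟩ := exists_hom_SL2 V H hV hHV hf a b hab ha hb (g ^ p ^ j) m hmp
    (by rw [← h2, pow_orderOf_eq_one]) (hg j)
  have hgen : ∀ N : Subgroup φ.range, (∀ s : φ.range, s ^ p = 1 → s ∈ N) → N = ⊤ := by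
    intro N hN
    have h1 : N.comap φ.rangeRestrict = ⊤ := by
      apply gen_top H a b hab haH hbH
      · rw [Subgroup.mem_comap]
        apply hN
        rw [← map_pow, pow_p_eq_one V H hV hHV hf ⟨a, haH⟩ ha, map_one]
      · rw [Subgroup.mem_comap]
        apply hN
        rw [← map_pow, pow_p_eq_one V H hV hHV hf ⟨b, hbH⟩ hb, map_one]
    rw [eq_top_iff]
    intro y _
    obtain ⟨z, rfl⟩ := φ.rangeRestrict_surjective y
    have : z ∈ N.comap φ.rangeRestrict := by rw [h1]; exact Subgroup.mem_top z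
    exact this
  have hP := isPGroup_of_abelian_sylow_two (p := p) φ.range hp hgen
    (T.mapSurjective φ.rangeRestrict_surjective) (by
      intro x y hx hy
      have hx' : x ∈ (T : Subgroup H).map φ.rangeRestrict := hx
      have hy' : y ∈ (T : Subgroup H).map φ.rangeRestrict := hy
      obtain ⟨s, hs, rfl⟩ := hx'
      obtain ⟨t, ht, rfl⟩ := hy'
      rw [← map_mul, ← map_mul]
      congr 1
      exact congrArg Subtype.val (mul_comm' (⟨s, hs⟩ : (T : Subgroup H)) ⟨t, ht⟩))
  obtain ⟨i, hi⟩ := hP ⟨φ (g ^ p ^ j), _, rfl⟩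
  apply hφ
  refine eq_one_of_pow_coprime (Nat.Coprime.pow_right i hmp) ?_ (congrArg Subtype.val hi)
  rw [← map_pow, ← h2, pow_orderOf_eq_one, map_one]

end Cfsg.Agent.S0593
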