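import Cfsg.Statements.S0594
import Mathlib
import Cfsg.Agent.Lib.Helper13SL2d
import Cfsg.Agent.Lib.Helper13QuadGrp
import Cfsg.Agent.Lib.Helper13Section

set_option autoImplicit false
open Cfsg

namespace Cfsg.Agent.S0594


open Cfsg.Agent.Lib.Helper13SL2d Cfsg.Agent.Lib.Helper13QuadGrp Cfsg.Agent.Lib.Helper13Section

theorem exists_not_commute {G : Type*} [Group G] (R : Subgroup G) (a : G)
    (hnt : ⁅R, Subgroup.zpowers a⁆ ≠ ⊥) : ∃ x ∈ R, a * x ≠ x * a := by
  by_contra hcon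
  push Not at hcon
  apply hnt
  rw [Subgroup.commutator_eq_bot_iff_le_centralizer]
  intro x hx
  rw [Subgroup.mem_centralizer_iff]
  intro h hh
  obtain ⟨n, rfl⟩ := Subgroup.mem_zpowers_iff.mp hh
  exact ((show Commute a x from hcon x hx).zpow_left n).eq

/-- For odd p, two quadratic generators of a faithful group that is not a p-group, one of which acts nontrivially on a normal subgroup of order prime to p, force p = 3 and a section isomorphic to SL(2,3). -/
theorem result {G : Type*} [Group G] [Finite G] {p : ℕ} [Fact p.Prime] (hp : p ≠ 2) (V H : Subgroup G) (hV : Cfsg.IsElementaryAbelian p V) (hHV : H ≤ Subgroup.normalizer (V : Set G)) (hf : H ⊓ Subgroup.centralizer (V : Set G) = ⊥) (a b : G) (hab : H = Subgroup.closure {a, b}) (ha : ⁅⁅V, Subgroup.zpowers a⁆, Subgroup.zpowers a⁆ = ⊥) (hb : ⁅⁅V, Subgroup.zpowers b⁆, Subgroup.zpowers b⁆ = ⊥) (hnp : ¬ IsPGroup p H) (Q : Subgroup G) (hQH : Q ≤ H) (hQn : H ≤ Subgroup.normalizer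 (Q : Set G)) (hQ : (Nat.card Q).Coprime p) (hQa : ⁅Q, Subgroup.zpowers a⁆ ≠ ⊥) : p = 3 ∧ ∃ (K L : Subgroup G) (hL : (L.subgroupOf K).Normal), K ≤ H ∧ Nonempty ((K ⧸ L.subgroupOf K) ≃* Matrix.SpecialLinearGroup (Fin 2) (ZMod 3)) := by
  have haH : a ∈ H := by rw [hab]; exact Subgroup.subset_closure (by simp)
  obtain ⟨y, hyQ, hay⟩ := exists_not_commute Q a hQa
  have hyH : y ∈ H := hQH hyQ
  -- conjugation by `a` preserves `Q`
  have hc1 : ∀ r ∈ Q, a * r * a⁻¹ ∈ Q := fun r hr =>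
    (Subgroup.mem_normalizer_iff.mp (hQn haH) r).mp hr
  have hc2 : ∀ r ∈ Q, a⁻¹ * r * a ∈ Q := fun r hr => by
    have := (Subgroup.mem_normalizer_iff.mp (hQn (H.inv_mem haH)) r).mp hr
    simpa using this
  -- the commutator
  set x : G := a * y * a⁻¹ * y⁻¹ with hx
  have hxQ : x ∈ Q := Q.mul_mem (hc1 y hyQ) (Q.inv_mem hyQ)
  have hx1 : x ≠ 1 := by
    intro h
    apply hay
    have : a * y * a⁻¹ * y⁻¹ * (y * a) = y * a := by rw [← hx, h, one_mul]
    rw [← this]; group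
  have hxpow : x ^ Nat.card Q = 1 := by
    have := congrArg Subtype.val (pow_card_eq_one' (G := Q) (x := ⟨x, hxQ⟩))
    rwa [Subgroup.coe_pow, Subgroup.coe_one] at this
  obtain ⟨K, _, _, _, φ, hφ⟩ := exists_hom_SL2 V H hV hHV hf a b hab ha hb ⟨x, hQH hxQ⟩
    (Nat.card Q) hQ (Subtype.ext (by simpa using hxpow)) (fun h => hx1 (congrArg Subtype.val h))
  set a' : H := ⟨a, haH⟩ with ha'
  set y' : H := ⟨y, hyH⟩ with hy'
  have hap : a' ^ p = 1 := pow_p_eq_one V H hV hHV hf a' ha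
  set R := (Q.subgroupOf H).map φ with hR
  have hRcard : (Nat.card R).Coprime p := by
    have h1 : Nat.card R ∣ Nat.card (Q.subgroupOf H) := Subgroup.card_map_dvd _ _
    have h2 : Nat.card (Q.subgroupOf H) = Nat.card Q :=
      Nat.card_congr (Subgroup.subgroupOfEquivOfLe hQH).toEquiv
    rw [h2] at h1
    exact Nat.Coprime.coprime_dvd_left h1 hQ
  have hnorm : φ a' ∈ Subgroup.normalizer (R : Set _) := by
    apply mem_normalizer_of_conj_mem
    · rintro _ ⟨r, hr, rfl⟩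
      refine ⟨a' * r * a'⁻¹, ?_, by simp⟩
      exact hc1 _ hr
    · rintro _ ⟨r, hr, rfl⟩
      refine ⟨a'⁻¹ * r * a', ?_, by simp⟩
      exact hc2 _ hr
  have hy'R : φ y' ∈ R := ⟨y', hyQ, rfl⟩
  have hne : φ a' * φ y' ≠ φ y' * φ a' := by
    intro h
    apply hφ
    have e : (⟨x, hQH hxQ⟩ : H) = a' * y' * a'⁻¹ * y'⁻¹ := Subtype.ext rfl
    rw [e, map_mul, map_mul, map_mul, map_inv, map_inv, h]
    group
  obtain ⟨h3, -, ⟨e⟩⟩ := structure_thm hp (φ a') 1 (by rw [pow_one, ← map_pow, hap, map_one]) R hRcard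
    hnorm (φ y') hy'R hne
  subst h3
  refine ⟨rfl, ?_⟩
  have hmap : (Q.subgroupOf H ⊔ Subgroup.zpowers a').map φ = R ⊔ Subgroup.zpowers (φ a') := by
    rw [Subgroup.map_sup, MonoidHom.map_zpowers]
  exact exists_section H φ (Q.subgroupOf H ⊔ Subgroup.zpowers a')
    ((MulEquiv.subgroupCongr hmap).trans e)

end Cfsg.Agent.S0594
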