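import Cfsg.Statements.S0595
import Mathlib
import Cfsg.Agent.S0593
import Cfsg.Agent.Lib.Helper13Baer
import Cfsg.Agent.Lib.Helper13Basic
import Cfsg.Agent.Lib.Helper40Sylow

set_option autoImplicit false
open Cfsg

namespace Cfsg.Agent.S0595

open Cfsg.Agent.Lib.Helper13Baer Cfsg.Agent.Lib.Helper13Basic Cfsg.Agent.Lib.Helper40Sylow


/-- For odd p, a faithful action on an elementary abelian p-group that is not p-stable forces non-abelian Sylow 2-subgroups. -/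
theorem result {G : Type*} [Group G] [Finite G] {p : ℕ} [Fact p.Prime] (hp : p ≠ 2) (V H : Subgroup G) (hV : Cfsg.IsElementaryAbelian p V) (hHV : H ≤ Subgroup.normalizer (V : Set G)) (hf : H ⊓ Subgroup.centralizer (V : Set G) = ⊥) (a : G) (haH : a ∈ H) (hq : ⁅⁅V, Subgroup.zpowers a⁆, Subgroup.zpowers a⁆ = ⊥) (hna : a ∉ (Cfsg.pCore p H).map H.subtype) (T : Sylow 2 H) : ¬ IsMulCommutative T := by
  intro hT
  obtain ⟨g, hg, hnp, hqb⟩ := exists_conj_not_pGroup V H hV hHV hf a haH hq hna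
  set H₀ : Subgroup G := Subgroup.closure {a, g * a * g⁻¹} with hH₀
  have hle : H₀ ≤ H := by
    rw [hH₀, Subgroup.closure_le]
    rintro y (rfl | rfl)
    · exact haH
    · exact H.mul_mem (H.mul_mem hg haH) (H.inv_mem hg)
  obtain ⟨T₀⟩ : Nonempty (Sylow 2 H₀) := inferInstance
  apply Cfsg.Agent.S0593.result hp V H₀ hV (hle.trans hHV)
    (by rw [eq_bot_iff, ← hf]; exact inf_le_inf_right _ hle) a (g * a * g⁻¹) hH₀ hq hqb hnp T₀
  obtain ⟨x, -, hx⟩ := (isSylowIn_of_sylow T).exists_conj_le (Q := (T₀ : Subgroup H₀).map H₀.subtype)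
    (T₀.2.map _) ((Subgroup.map_subtype_le _).trans hle)
  apply isMulCommutative_of_comm
  intro s hs t ht
  have h1 : x * (s : G) * x⁻¹ ∈ (T : Subgroup H).map H.subtype := hx (conj_mem_cj ⟨s, hs, rfl⟩)
  have h2 : x * (t : G) * x⁻¹ ∈ (T : Subgroup H).map H.subtype := hx (conj_mem_cj ⟨t, ht, rfl⟩)
  obtain ⟨s', hs', hs2⟩ := h1
  obtain ⟨t', ht', ht2⟩ := h2
  have h3 : s' * t' = t' * s' := comm_of_mem (T : Subgroup H) hs' ht'
  have h4 : (x * (s : G) * x⁻¹) * (x * (t : G) * x⁻¹) = (x * (t : G) * x⁻¹) * (x * (s : G) * x⁻¹) := by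
    rw [← hs2, ← ht2]
    exact congrArg Subtype.val h3
  apply Subtype.ext
  have h5 : x * ((s : G) * t) * x⁻¹ = x * ((t : G) * s) * x⁻¹ := by
    calc x * ((s : G) * t) * x⁻¹ = (x * (s : G) * x⁻¹) * (x * (t : G) * x⁻¹) := by group
      _ = (x * (t : G) * x⁻¹) * (x * (s : G) * x⁻¹) := h4
      _ = x * ((t : G) * s) * x⁻¹ := by group
  exact mul_left_cancel (mul_right_cancel h5)

end Cfsg.Agent.S0595
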