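import Cfsg.Statements.S0596
import Mathlib
import Cfsg.Agent.Lib.Helper13SL2e
import Cfsg.Agent.Lib.Helper13QuadGrp
import Cfsg.Agent.Lib.Helper13Baer
import Cfsg.Agent.Lib.Helper13Section
import Cfsg.Agent.Lib.Helper73PCompl
import Cfsg.Agent.Lib.Helper31Nilpotent

set_option autoImplicit false
open Cfsg

namespace Cfsg.Agent.S0596


open Cfsg.Agent.Lib.Helper13SL2e Cfsg.Agent.Lib.Helper13QuadGrp Cfsg.Agent.Lib.Helper13Section
open Cfsg.Agent.Lib.Helper13Baer Cfsg.Agent.Lib.Helper13Quad Cfsg.Agent.Lib.Helper31Nilpotent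
open Cfsg.Agent.Lib.Helper38PSolv Cfsg.Agent.Lib.Helper73PCompl

/-- For odd p, a p-separable group with a faithful action on an elementary abelian p-group that is not p-stable has p = 3 and involves SL(2,3). -/
theorem result {G : Type*} [Group G] [Finite G] {p : ℕ} [Fact p.Prime] (hp : p ≠ 2) (V H : Subgroup G) (hV : Cfsg.IsElementaryAbelian p V) (hHV : H ≤ Subgroup.normalizer (V : Set G)) (hf : H ⊓ Subgroup.centralizer (V : Set G) = ⊥) (hsep : Cfsg.IsPSolvable p H) (a : G) (haH : a ∈ H) (hq : ⁅⁅V, Subgroup.zpowers a⁆, Subgroup.zpowers a⁆ = ⊥) (hna : a ∉ (Cfsg.pCore p H).map H.subtype) : p = 3 ∧ ∃ (K L : Subgroup G) (hL : (L.subgroupOf K).Normal), K ≤ H ∧ Nonempty ((K ⧸ L.subgroupOf K) ≃* Matrix.SpecialLinearGroup (Fin 2) (ZMod 3)) := by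
  obtain ⟨g, hg, hnp, hqb⟩ := exists_conj_not_pGroup V H hV hHV hf a haH hq hna
  set b : G := g * a * g⁻¹ with hb
  set H₀ : Subgroup G := Subgroup.closure {a, b} with hH₀
  have hle : H₀ ≤ H := by
    rw [hH₀, Subgroup.closure_le]
    rintro y (rfl | rfl)
    · exact haH
    · exact H.mul_mem (H.mul_mem hg haH) (H.inv_mem hg)
  have hHV₀ : H₀ ≤ Subgroup.normalizer (V : Set G) := hle.trans hHV
  have hf₀ : H₀ ⊓ Subgroup.centralizer (V : Set G) = ⊥ := by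
    rw [eq_bot_iff, ← hf]; exact inf_le_inf_right _ hle
  have haH₀ : a ∈ H₀ := Subgroup.subset_closure (by simp)
  have hbH₀ : b ∈ H₀ := Subgroup.subset_closure (by simp)
  -- `H₀` is `p`-solvable
  have hs₀ : Cfsg.IsPSolvable p H₀ := by
    have h1 : Cfsg.IsPSolvable p (H₀.subgroupOf H) := isPSolvable_subgroup _ hsep
    exact isPSolvable_of_surjective (Subgroup.subgroupOfEquivOfLe hle).toMonoidHom
      (Subgroup.subgroupOfEquivOfLe hle).surjective h1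
  have hex : ∃ g : H₀, ∀ j : ℕ, g ^ p ^ j ≠ 1 := by
    by_contra hcon
    push Not at hcon
    exact hnp hcon
  obtain ⟨y, hy⟩ := hex
  obtain ⟨j, m, -, -, h2, hmp⟩ := exists_order_split p y
  obtain ⟨K, _, _, _, φ, hφ⟩ := exists_hom_SL2 V H₀ hV hHV₀ hf₀ a b hH₀ hq hqb (y ^ p ^ j) m hmp
    (by rw [← h2, pow_orderOf_eq_one]) (hy j)
  have hrange : φ.range = Subgroup.closure {φ ⟨a, haH₀⟩, φ ⟨b, hbH₀⟩} := by
    apply le_antisymm
    · rintro _ ⟨z, rfl⟩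
      have h1 : (Subgroup.closure {φ ⟨a, haH₀⟩, φ ⟨b, hbH₀⟩}).comap φ = ⊤ := by
        apply gen_top H₀ a b hH₀ haH₀ hbH₀
        · exact Subgroup.subset_closure (by simp)
        · exact Subgroup.subset_closure (by simp)
      have : z ∈ (Subgroup.closure {φ ⟨a, haH₀⟩, φ ⟨b, hbH₀⟩}).comap φ := by
        rw [h1]; exact Subgroup.mem_top z
      exact this
    · rw [Subgroup.closure_le]
      rintro _ (rfl | rfl)
      · exact ⟨_, rfl⟩
      · exact ⟨_, rfl⟩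
  have hsX : Cfsg.IsPSolvable p φ.range :=
    isPSolvable_of_surjective φ.rangeRestrict φ.rangeRestrict_surjective hs₀
  have hnpX : ¬ IsPGroup p φ.range := by
    intro hP
    obtain ⟨i, hi⟩ := hP ⟨φ (y ^ p ^ j), _, rfl⟩
    apply hφ
    refine eq_one_of_pow_coprime (Nat.Coprime.pow_right i hmp) ?_ (congrArg Subtype.val hi)
    rw [← map_pow, ← h2, pow_orderOf_eq_one, map_one]
  obtain ⟨h3, K₀, hK₀, ⟨e⟩⟩ := psolv_thm hp (φ ⟨a, haH₀⟩) (φ ⟨b, hbH₀⟩)
    (by rw [← map_pow, pow_p_eq_one V H₀ hV hHV₀ hf₀ ⟨a, haH₀⟩ hq, map_one])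
    (by rw [← map_pow, pow_p_eq_one V H₀ hV hHV₀ hf₀ ⟨b, hbH₀⟩ hqb, map_one])
    φ.range hrange hsX hnpX
  subst h3
  refine ⟨rfl, ?_⟩
  have hmap : (K₀.comap φ).map φ = K₀ := by
    rw [Subgroup.map_comap_eq, inf_eq_right.mpr hK₀]
  obtain ⟨K', L', hn, hK', e'⟩ := exists_section H₀ φ (K₀.comap φ)
    ((MulEquiv.subgroupCongr hmap).trans e)
  exact ⟨K', L', hn, hK'.trans hle, e'⟩

end Cfsg.Agent.S0596
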