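import Cfsg.Statements.S0605
import Cfsg.Agent.Lib.Helper13Thompson

set_option autoImplicit false
open Cfsg
open Subgroup Cfsg.Agent.Lib.Helper13Offender Cfsg.Agent.Lib.Helper13Basic Cfsg.Agent.Lib.Helper13Thompson

namespace Cfsg.Agent.S0605

/-- Elements of order p in the centralizer of the Thompson subgroup belong to the Thompson subgroup (so to its centre). -/
theorem result {G : Type*} [Group G] [Finite G] {p : ℕ} [Fact p.Prime] (x : G) (hx : x ∈ Subgroup.centralizer (Cfsg.thompsonSubgroup p G : Set G)) (ho : orderOf x = p) : x ∈ Cfsg.thompsonSubgroup p G := by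
  obtain ⟨A, hA⟩ := exists_max (G := G) p
  have hxp : x ^ p = 1 := ho ▸ pow_orderOf_eq_one x
  have hc : ∀ h ∈ A, ∀ k ∈ zpowers x, h * k = k * h := by
    intro h hh k hk
    obtain ⟨n, rfl⟩ := mem_zpowers_iff.mp hk
    have : Commute h x := mem_centralizer_iff.mp hx h (le_thompson hA hh)
    exact (this.zpow_right n).eq
  have hE := isElementaryAbelian_sup hA.1 (el_zpowers hxp) hc
  have h1 : A = A ⊔ zpowers x := eq_of_le_of_card_ge le_sup_left (hA.2 _ hE)
  apply le_thompson hA
  rw [h1]
  exact mem_sup_right (mem_zpowers x)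

end Cfsg.Agent.S0605
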