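import Cfsg.Statements.S0609
import Mathlib
import Cfsg.Agent.Lib.Helper24Functor
import Cfsg.Agent.Lib.Helper24Thompson
import Cfsg.Agent.Lib.Helper14CoreB

set_option autoImplicit false
open Cfsg

namespace Cfsg.Agent.S0609

theorem omegaOne_map_injOn {G H : Type*} [Group G] [Group H] (p : ℕ) (f : G →* H)
    (X : Subgroup G) (hf : Set.InjOn f X) :
    Cfsg.omegaOne p (X.map f) = (Cfsg.omegaOne p X).map f := by
  unfold Cfsg.omegaOne
  rw [MonoidHom.map_closure]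
  congr 1
  ext y
  constructor
  · rintro ⟨⟨x, hx, rfl⟩, hy⟩
    refine ⟨x, ⟨hx, hf (X.pow_mem hx p) X.one_mem ?_⟩, rfl⟩
    rw [map_pow, hy, map_one]
  · rintro ⟨x, ⟨hx, hxp⟩, rfl⟩
    exact ⟨⟨x, hx, rfl⟩, by rw [← map_pow, hxp, map_one]⟩

theorem omegaOne_le {G : Type*} [Group G] (p : ℕ) (X : Subgroup G) : Cfsg.omegaOne p X ≤ X := by
  unfold Cfsg.omegaOne
  rw [Subgroup.closure_le]
  intro x hx
  exact hx.1

/-- Thompson factorizability passes to and from the quotient by the largest normal subgroup of order prime to p. -/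
theorem result {G : Type*} [Group G] [Finite G] {p : ℕ} [Fact p.Prime] : Cfsg.IsThompsonFactorizable p G ↔ Cfsg.IsThompsonFactorizable p (G ⧸ Cfsg.pPrimeCore p G) := by
  set K := Cfsg.pPrimeCore p G with hKdef
  set f : G →* G ⧸ K := QuotientGroup.mk' K with hf
  have hfs : Function.Surjective f := QuotientGroup.mk'_surjective K
  have hK : (Nat.card K).Coprime p := Cfsg.Agent.Lib.Helper14CoreB.card_pPrimeCore_coprime p
  have hinj : ∀ S : Sylow p G, Set.InjOn f (S : Subgroup G) := by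
    intro S x hx y hy hxy
    have h3 : x⁻¹ * y ∈ K := QuotientGroup.eq.mp hxy
    have hx' : x ∈ (S : Subgroup G) := hx
    have hy' : y ∈ (S : Subgroup G) := hy
    have h4 : x⁻¹ * y ∈ (S : Subgroup G) ⊓ K :=
      ⟨(S : Subgroup G).mul_mem ((S : Subgroup G).inv_mem hx') hy', h3⟩
    rw [Cfsg.Agent.Lib.Helper24Functor.inf_eq_bot_of_pgroup_coprime S.2 hK, Subgroup.mem_bot] at h4
    exact (inv_mul_eq_one.mp h4)
  have hJ : ∀ S : Sylow p G, Cfsg.thompsonSubgroupOf p ((S : Subgroup G).map f) =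
      (Cfsg.thompsonSubgroupOf p (S : Subgroup G)).map f := fun S =>
    Cfsg.Agent.Lib.Helper24Functor.ind_map (Cfsg.Agent.Lib.Helper24Thompson.isChar_fJE p) f
      (S : Subgroup G) S.2 (hinj S)
  have hZ : ∀ S : Sylow p G, ((S : Subgroup G).map f) ⊓
      Subgroup.centralizer (((S : Subgroup G).map f : Subgroup (G ⧸ K)) : Set (G ⧸ K)) =
      ((S : Subgroup G) ⊓ Subgroup.centralizer ((S : Subgroup G) : Set G)).map f := by
    intro S
    rw [← Cfsg.Agent.Lib.Helper24Thompson.ind_fZ, ← Cfsg.Agent.Lib.Helper24Thompson.ind_fZ]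
    exact Cfsg.Agent.Lib.Helper24Functor.ind_map (Cfsg.Agent.Lib.Helper24Thompson.isChar_fZ p) f
      (S : Subgroup G) S.2 (hinj S)
  have hO : ∀ S : Sylow p G, Cfsg.omegaOne p (((S : Subgroup G).map f) ⊓
      Subgroup.centralizer (((S : Subgroup G).map f : Subgroup (G ⧸ K)) : Set (G ⧸ K))) =
      (Cfsg.omegaOne p ((S : Subgroup G) ⊓ Subgroup.centralizer ((S : Subgroup G) : Set G))).map f := by
    intro S
    rw [hZ S]
    exact omegaOne_map_injOn p f _ ((hinj S).mono (fun x hx => hx.1))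
  have hSyl : ∀ T : Sylow p (G ⧸ K), ∃ S : Sylow p G, (T : Subgroup (G ⧸ K)) = (S : Subgroup G).map f := by
    intro T
    obtain ⟨P⟩ : Nonempty (Sylow p G) := inferInstance
    obtain ⟨gb, hgb⟩ := MulAction.exists_smul_eq (G ⧸ K) (P.mapSurjective hfs) T
    obtain ⟨g, rfl⟩ := hfs gb
    refine ⟨g • P, ?_⟩
    rw [← hgb, Cfsg.Agent.Lib.Helper40Sylow.sylow_smul_eq_cj, Cfsg.Agent.Lib.Helper40Sylow.sylow_smul_eq_cj]
    have h1 : ((P.mapSurjective hfs : Sylow p (G ⧸ K)) : Subgroup (G ⧸ K)) = (P : Subgroup G).map f := rfl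
    rw [h1]
    ext y
    constructor
    · rintro ⟨_, ⟨x, hx, rfl⟩, rfl⟩
      exact ⟨g * x * g⁻¹, ⟨x, hx, rfl⟩, by simp [MulAut.conj_apply]⟩
    · rintro ⟨_, ⟨x, hx, rfl⟩, rfl⟩
      exact ⟨f x, ⟨x, hx, rfl⟩, by simp [MulAut.conj_apply]⟩
  constructor
  · intro h T gb
    obtain ⟨S, hS⟩ := hSyl T
    obtain ⟨g, rfl⟩ := hfs gb
    obtain ⟨x, hx, c, hc, n, hn, rfl⟩ := h S g
    refine ⟨1, Subgroup.one_mem _, f c, ?_, f n, ?_, ?_⟩
    · rw [hS, hO]
      exact Cfsg.Agent.Lib.Helper24Functor.map_loc_le false f _ ⟨c, hc, rfl⟩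
    · rw [hS, hJ]
      exact Subgroup.le_normalizer_map f ⟨n, hn, rfl⟩
    · have hx1 : f x = 1 := (QuotientGroup.eq_one_iff x).mpr hx
      rw [map_mul, map_mul, hx1]
  · intro h S g
    obtain ⟨xb, hxb, cb, hcb, nb, hnb, hg⟩ := h (S.mapSurjective hfs) (f g)
    have h1 : ((S.mapSurjective hfs : Sylow p (G ⧸ K)) : Subgroup (G ⧸ K)) = (S : Subgroup G).map f := rfl
    rw [h1] at hcb hnb
    rw [Cfsg.Agent.Lib.Helper14CoreB.pPrimeCore_quotient_eq_bot, Subgroup.mem_bot] at hxb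
    rw [hO] at hcb
    rw [hJ] at hnb
    obtain ⟨c, hc, rfl⟩ := Cfsg.Agent.Lib.Helper24Functor.centralizer_map_le K hK _
      (S.2.to_le ((omegaOne_le p _).trans inf_le_left)) hcb
    obtain ⟨n, hn, rfl⟩ := Cfsg.Agent.Lib.Helper24Functor.normalizer_map_le K hK _
      (S.2.to_le (Cfsg.Agent.Lib.Helper24Functor.ind_le (W := Cfsg.Agent.Lib.Helper24Thompson.fJE p) (S : Subgroup G))) hnb
    refine ⟨g * (c * n)⁻¹, ?_, c, hc, n, hn, by group⟩
    rw [← QuotientGroup.eq_one_iff]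
    have : f (g * (c * n)⁻¹) = 1 := by
      have hg' : f g = f c * f n := by rw [hg, hxb, one_mul]
      rw [map_mul, map_inv, map_mul, hg', mul_inv_cancel]
    exact this

end Cfsg.Agent.S0609
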