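import Cfsg.Statements.S0615
import Cfsg.Agent.Lib.Helper55Sub2

set_option autoImplicit false
open Cfsg

namespace Cfsg.Agent.S0615

/-- Two subnormal subgroups acting irreducibly on their incomparable commutator modules, in a faithful group with trivial largest normal p-subgroup, generate their direct product, and the commutator module splits accordingly. -/
theorem result {G : Type*} [Group G] [Finite G] {p : ℕ} [Fact p.Prime] (V E E₁ E₂ : Subgroup G) (hV : Cfsg.IsElementaryAbelian p V) (hEV : E ≤ Subgroup.normalizer (V : Set G)) (hf : E ⊓ Subgroup.centralizer (V : Set G) = ⊥) (hgen : E = E₁ ⊔ E₂) (hs₁ : (E₁.subgroupOf E).IsSubnormal) (hs₂ : (E₂.subgroupOf E).IsSubnormal) (hOp : Cfsg.pCore p ↥E = ⊥) (hirr₁ : (∀ U : Subgroup G, U ≤ ⁅V, E₁⁆ → E₁ ≤ Subgroup.normalizer (U : Set G) → U = ⊥ ∨ U = ⁅V, E₁⁆)) (hirr₂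 : (∀ U : Subgroup G, U ≤ ⁅V, E₂⁆ → E₂ ≤ Subgroup.normalizer (U : Set G) → U = ⊥ ∨ U = ⁅V, E₂⁆)) (h12 : ¬ ⁅V, E₁⁆ ≤ ⁅V, E₂⁆) (h21 : ¬ ⁅V, E₂⁆ ≤ ⁅V, E₁⁆) (hc₁ : 2 < Nat.card E₁) (hc₂ : 2 < Nat.card E₂) : ⁅E₁, E₂⁆ = ⊥ ∧ E₁ ⊓ E₂ = ⊥ ∧ ⁅V, E₁⁆ ⊓ ⁅V, E₂⁆ = ⊥ ∧ ⁅V, E⁆ = ⁅V, E₁⁆ ⊔ ⁅V, E₂⁆ := by
  have hE₁ : E₁ ≤ E := hgen ▸ le_sup_left
  have hE₂ : E₂ ≤ E := hgen ▸ le_sup_right
  have a : Cfsg.Agent.Lib.Helper55Sub.Amb p V E := by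
    refine ⟨hV, hEV, hf, fun P hP hPp => ?_⟩
    have h1 := Cfsg.Agent.Lib.Helper55Sub.le_pCore_map_of_sn hP hPp
    rw [hOp, Subgroup.map_bot] at h1
    exact eq_bot_iff.2 h1
  have g₁ : Cfsg.Agent.Lib.Helper55Sub.Good V E E₁ :=
    ⟨(Cfsg.Agent.Lib.Helper58Subnormal.sn_iff_subgroupOf hE₁).2 hs₁, hirr₁, hc₁⟩
  have g₂ : Cfsg.Agent.Lib.Helper55Sub.Good V E E₂ :=
    ⟨(Cfsg.Agent.Lib.Helper58Subnormal.sn_iff_subgroupOf hE₂).2 hs₂, hirr₂, hc₂⟩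
  obtain ⟨c1, c2, -, -⟩ := a.main _ E₁ E₂ rfl g₁ g₂ h12 h21
  refine ⟨c1, ?_, c2, ?_⟩
  · have h1 : ⁅V, E₁ ⊓ E₂⁆ = ⊥ := by
      rw [eq_bot_iff, ← c2]
      exact le_inf (Subgroup.commutator_mono le_rfl inf_le_left)
        (Subgroup.commutator_mono le_rfl inf_le_right)
    have h2 : E₁ ⊓ E₂ ≤ E ⊓ Subgroup.centralizer (V : Set G) :=
      le_inf (inf_le_left.trans hE₁) (Cfsg.Agent.Lib.Helper55Act.commutator_eq_bot_iff.1 h1)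
    rw [hf] at h2
    exact eq_bot_iff.2 h2
  · rw [hgen]
    exact Cfsg.Agent.Lib.Helper55Act.commutator_sup_eq (hE₁.trans hEV) (hE₂.trans hEV)

end Cfsg.Agent.S0615
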