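import Cfsg.Statements.S0622
import Cfsg.Agent.Lib.Helper14Stable

set_option autoImplicit false
universe u
open Cfsg

namespace Cfsg.Agent.S0622

open Cfsg.Agent.Lib.Helper14Stable

/-- Basic properties of the stable normal closure W(S) of Ω₁(Z(S)) in a finite p-group: characteristic, squeezed between Ω₁(Z(S)) and Ω₁(Z(J(S))), nontrivial for S ≠ 1, and transported by group isomorphisms. -/
theorem result {S : Type u} [Group S] [Finite S] {p : ℕ} [Fact p.Prime] (hS : IsPGroup p S) : (Cfsg.stableNormalClosure p S).Characteristic ∧ Cfsg.omegaOne p (Subgroup.center S) ≤ Cfsg.stableNormalClosure p S ∧ Cfsg.stableNormalClosure p S ≤ Cfsg.omegaCenterThompson p S ∧ (Nontrivial S → Cfsg.stableNormalClosure p S ≠ ⊥) ∧ ∀ (S' : Type u) [Group S'] (η : S ≃* S'), (Cfsg.stableNormalClosure p S).map η.toMonoidHom = Cfsg.stableNormalClosure p S' := by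
  refine ⟨?_, omegaOne_center_le_stableNormalClosure p, stableNormalClosure_le_omegaCenterThompson p,
    ?_, fun S' _ η => stableNormalClosure_map η⟩
  · rw [Subgroup.characteristic_iff_map_eq]
    intro ϕ
    exact stableNormalClosure_map ϕ
  · intro hnt hbot
    have hc : Nontrivial (Subgroup.center S) := hS.center_nontrivial
    have hcp : IsPGroup p (Subgroup.center S) := hS.to_subgroup _
    obtain ⟨n, hn⟩ := IsPGroup.iff_card.mp hcp
    have hn0 : n ≠ 0 := by
      rintro rfl
      rw [pow_zero] at hn
      have := Finite.one_lt_card (α := Subgroup.center S)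
      omega
    have hdvd : p ∣ Nat.card (Subgroup.center S) := by
      rw [hn]
      exact dvd_pow_self p hn0
    obtain ⟨x, hx⟩ := exists_prime_orderOf_dvd_card' p hdvd
    have hx1 : (x : S) ∈ Cfsg.omegaOne p (Subgroup.center S) := by
      apply Subgroup.subset_closure
      refine ⟨x.2, ?_⟩
      have h1 : x ^ p = 1 := by rw [← hx]; exact pow_orderOf_eq_one x
      have h2 := congrArg Subtype.val h1
      simpa using h2
    have hx2 := omegaOne_center_le_stableNormalClosure p hx1
    rw [hbot, Subgroup.mem_bot] at hx2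
    have hx3 : x = 1 := Subtype.ext hx2
    rw [hx3, orderOf_one] at hx
    exact (Fact.out : p.Prime).one_lt.ne hx

end Cfsg.Agent.S0622
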