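import Cfsg.Statements.S0629
import Cfsg.Agent.Lib.Helper14PConstr
import Cfsg.Agent.Lib.Helper14HH
import Cfsg.Agent.Lib.Helper14PSolvQ

set_option autoImplicit false
open Cfsg

namespace Cfsg.Agent.S0629

open Cfsg.Agent.Lib.Helper14CoreB Cfsg.Agent.Lib.Helper14PConstr

theorem isPSolvable_of_eq {A : Type*} [Group A] {p : ℕ} {H K : Subgroup A} (h : H = K)
    (hs : IsPSolvable p ↥H) : IsPSolvable p ↥K := by
  subst h; exact hs

/-- A group in which the centralizer of a Sylow p-subgroup of O_{p',p}(G) is p-solvable is p-constrained. -/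
theorem result {G : Type*} [Group G] [Finite G] {p : ℕ} [Fact p.Prime] (P : Sylow p ↥(Cfsg.pPrimePCore p G)) (hsol : Cfsg.IsPSolvable p ↥(Subgroup.centralizer (((P : Subgroup ↥(Cfsg.pPrimePCore p G)).map (Cfsg.pPrimePCore p G).subtype : Subgroup G) : Set G))) : Cfsg.IsPConstrained p G := by
  rw [isPConstrained_iff]
  set N := pPrimeCore p G with hN
  set π := QuotientGroup.mk' N with hπ
  set D := Subgroup.centralizer (pCore p (G ⧸ N) : Set (G ⧸ N)) with hD
  have hDn : D.Normal := inferInstance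
  have hs1 : IsPSolvable p ↥((Subgroup.centralizer (PG P : Set G)).map π) :=
    Cfsg.Agent.Lib.Helper14PSolvQ.isPSolvable_of_surjective
      (π.subgroupMap (Subgroup.centralizer (PG P : Set G)))
      (MonoidHom.subgroupMap_surjective _ _) hsol
  have hs2 : IsPSolvable p ↥D := isPSolvable_of_eq (map_centralizer_PG P) hs1
  have hbot : pPrimeCore p ↥D = ⊥ := by
    have h1 := pPrimeCore_subgroup_le p D
    rw [pPrimeCore_quotient_eq_bot p, le_bot_iff] at h1
    exact (Subgroup.map_eq_bot_iff_of_injective _ D.subtype_injective).mp h1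
  have hHH := Cfsg.Agent.Lib.Helper14HH.centralizer_pCore_le hs2 hbot
  intro d hd
  have h1 : (⟨d, hd⟩ : ↥D) ∈ Subgroup.centralizer (pCore p ↥D : Set ↥D) := by
    intro x hx
    have h2 : (x : G ⧸ N) ∈ pCore p (G ⧸ N) := pCore_subgroup_le p D ⟨x, hx, rfl⟩
    apply Subtype.ext
    exact hd _ h2
  exact pCore_subgroup_le p D ⟨_, hHH h1, rfl⟩

end Cfsg.Agent.S0629
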