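import Cfsg.Statements.S0630
import Cfsg.Agent.Lib.Helper14PConstr

set_option autoImplicit false
open Cfsg

namespace Cfsg.Agent.S0630

open Cfsg.Agent.Lib.Helper14CoreB Cfsg.Agent.Lib.Helper14PConstr

/-- p-constraint passes to and from the quotient by the largest normal subgroup of order prime to p. -/
theorem result {G : Type*} [Group G] [Finite G] {p : ℕ} [Fact p.Prime] : Cfsg.IsPConstrained p G ↔ Cfsg.IsPConstrained p (G ⧸ Cfsg.pPrimeCore p G) := by
  rw [isPConstrained_iff, isPConstrained_iff]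
  have h : pPrimeCore p (G ⧸ pPrimeCore p G) = ⊥ := pPrimeCore_quotient_eq_bot p
  let e : ((G ⧸ pPrimeCore p G) ⧸ pPrimeCore p (G ⧸ pPrimeCore p G)) ≃* (G ⧸ pPrimeCore p G) :=
    (QuotientGroup.quotientMulEquivOfEq h).trans QuotientGroup.quotientBot
  exact ⟨centralizer_pCore_le_of_equiv p e.symm, centralizer_pCore_le_of_equiv p e⟩

end Cfsg.Agent.S0630
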