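import Cfsg.Statements.S0633
import Cfsg.Agent.Lib.H92HHThmB

set_option autoImplicit false
open Cfsg

namespace Cfsg.Agent.S0633



/-- Theorem B of Hall and Higman on the minimal polynomial of a p-element of order p^n in a p-solvable linear group on a nonzero vector space in characteristic p with no nontrivial normal p-subgroup: its degree is p^n, except when some p^n₀ - 1 (n₀ ≤ n) is a power of a prime q for which the Sylow q-subgroups are non-abelian, in which case the degree is at least p^(n-n₀)(p^n₀ - 1). -/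
theorem result {F : Type*} [Field F] {p : ℕ} [Fact p.Prime] [CharP F p] {V : Type*} [AddCommGroup V] [Module F V] [FiniteDimensional F V] [Nontrivial V] (H : Subgroup (V ≃ₗ[F] V)) [Finite H] (hsol : Cfsg.IsPSolvable p H) (hOp : Cfsg.pCore p H = ⊥) (x : V ≃ₗ[F] V) (hx : x ∈ H) (n : ℕ) (hn : orderOf x = p ^ n) (r : ℕ) (hr : minpoly F (x : Module.End F V) = (Polynomial.X - 1) ^ r) : r = p ^ n ∨ ∃ n₀ q m : ℕ, 1 ≤ n₀ ∧ n₀ ≤ n ∧ q.Prime ∧ 1 ≤ m ∧ p ^ n₀ - 1 = q ^ m ∧ (∀ Q : Sylow q H, ¬ IsMulCommutative Q) ∧ p ^ (n - n₀) * (p ^ n₀ - 1) ≤ r := by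
  have hmon : (Polynomial.X - 1 : Polynomial F).Monic := by
    simpa using Polynomial.monic_X_sub_C (1 : F)
  have hdeg : ∀ k : ℕ, ((Polynomial.X - 1 : Polynomial F) ^ k).natDegree = k := by
    intro k
    rw [hmon.natDegree_pow]
    have : (Polynomial.X - 1 : Polynomial F).natDegree = 1 := by
      simpa using Polynomial.natDegree_X_sub_C (1 : F)
    rw [this, mul_one]
  have hae : ∀ k : ℕ, Polynomial.aeval (x : Module.End F V) ((Polynomial.X - 1 : Polynomial F) ^ k)
      = ((x : Module.End F V) - 1) ^ k := by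
    intro k
    simp
  have hr0 : ((x : Module.End F V) - 1) ^ r = 0 := by
    rw [← hae, ← hr]
    exact minpoly.aeval F _
  have hpow : ∀ k : ℕ, ((x ^ k : V ≃ₗ[F] V) : Module.End F V) = (x : Module.End F V) ^ k := by
    intro k
    exact map_pow (LinearEquiv.automorphismGroup.toLinearMapMonoidHom (R := F) (M := V)) x k
  have hle : r ≤ p ^ n := by
    have h1 : ((x : Module.End F V) - 1) ^ p ^ n = 0 := by
      have hc : Commute (x : Module.End F V) 1 := Commute.one_right _
      have : CharP (Module.End F V) p := by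
        exact charP_of_injective_algebraMap (algebraMap F (Module.End F V)).injective p
      rw [sub_pow_char_pow_of_commute _ _ hc, one_pow, ← hpow, ← hn, pow_orderOf_eq_one]
      exact sub_self _
    have h2 : minpoly F (x : Module.End F V) ∣ (Polynomial.X - 1 : Polynomial F) ^ p ^ n := by
      apply minpoly.dvd
      rw [hae, h1]
    have h3 := Polynomial.natDegree_le_of_dvd h2 (pow_ne_zero _ hmon.ne_zero)
    rwa [hr, hdeg, hdeg] at h3
  rcases Nat.eq_zero_or_pos n with h0 | h0
  · left
    subst h0
    have hr1 : r ≠ 0 := by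
      rintro rfl
      rw [pow_zero] at hr0
      exact one_ne_zero hr0
    simp only [pow_zero] at hle ⊢
    omega
  · rcases Cfsg.Agent.Lib.H92HHThmB.thmB H hsol hOp x hx n h0 hn r hr0 with h | h
    · left; omega
    · right; exact h

end Cfsg.Agent.S0633
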