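import Cfsg.Statements.S0634
import Cfsg.Agent.Lib.Helper14Upper
import Cfsg.Agent.Lib.Helper14HH
import Cfsg.Agent.Lib.Helper14PSolvQ

set_option autoImplicit false
open Cfsg

namespace Cfsg.Agent.S0634

open Cfsg.Agent.Lib.Helper14Upper Cfsg.Agent.Lib.Helper14HH Cfsg.Agent.Lib.Helper14PSolvQ

/-- In a p-soluble group each p-factor of the upper p-series contains its own centralizer in the corresponding quotient. -/
theorem result {G : Type*} [Group G] [Finite G] {p : ℕ} [Fact p.Prime] (hsol : Cfsg.IsPSolvable p G) (k : ℕ) : Subgroup.centralizer ((((Cfsg.upperPSeries p G (2 * k + 2)).1.map (QuotientGroup.mk' (Cfsg.upperPSeries p G (2 * k + 1)).1)) : Subgroup (G ⧸ (Cfsg.upperPSeries p G (2 * k + 1)).1)) : Set (G ⧸ (Cfsg.upperPSeries p G (2 * k + 1)).1)) ≤ (Cfsg.upperPSeries p G (2 * k + 2)).1.map (QuotientGroup.mk' (Cfsg.upperPSeries p G (2 * k + 1)).1) := by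
  have hodd : ¬ Even (2 * k + 1) := by
    rw [Nat.not_even_iff_odd]
    exact odd_two_mul_add_one k
  have h2 : (Cfsg.upperPSeries p G (2 * k + 2)).1.map
      (QuotientGroup.mk' (Cfsg.upperPSeries p G (2 * k + 1)).1) =
      Cfsg.pCore p (G ⧸ (Cfsg.upperPSeries p G (2 * k + 1)).1) := by
    rw [upper_succ_odd p hodd,
      Subgroup.map_comap_eq_self_of_surjective (QuotientGroup.mk'_surjective _)]
  rw [h2]
  apply centralizer_pCore_le (isPSolvable_quotient _ hsol)
  exact pPrimeCore_quotient_comap_eq_bot p (Cfsg.upperPSeries p G (2 * k)).1 _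
    (upper_succ_even p (even_two_mul k))

end Cfsg.Agent.S0634
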