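import Cfsg.Statements.S0635
import Cfsg.Agent.Lib.Helper14Upper2
import Cfsg.Agent.Lib.Helper14HH
import Cfsg.Agent.Lib.Helper14PSolvQ

set_option autoImplicit false
open Cfsg

namespace Cfsg.Agent.S0635

open Cfsg.Agent.Lib.Helper14Upper Cfsg.Agent.Lib.Helper14Upper2 Cfsg.Agent.Lib.Helper14HH
  Cfsg.Agent.Lib.Helper14PSolvQ Cfsg.Agent.Lib.Helper14CoreB

universe u

theorem base {G : Type u} [Group G] [Finite G] {p : ℕ} [Fact p.Prime] (S : Sylow p G)
    (hS : Subsingleton ↥(S : Subgroup G)) : Cfsg.PLengthLE p 0 G := by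
  unfold Cfsg.PLengthLE
  have hnd : ¬ p ∣ Nat.card G := by
    intro h
    exact S.ne_bot_of_dvd_card h (Subgroup.eq_bot_of_subsingleton _)
  have hcop : (Nat.card G).Coprime p :=
    ((Nat.Prime.coprime_iff_not_dvd (Fact.out : p.Prime)).mpr hnd).symm
  rw [show 2 * 0 + 1 = 0 + 1 from rfl, upper_succ_even p (by simp)]
  have h1 : Cfsg.pPrimeCore p (G ⧸ (Cfsg.upperPSeries p G 0).1) = ⊤ := by
    rw [eq_top_iff]
    apply le_pPrimeCore inferInstance
    rw [Subgroup.card_top]
    exact Nat.Coprime.coprime_dvd_left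
      (Subgroup.card_dvd_of_surjective _ (QuotientGroup.mk'_surjective _)) hcop
  rw [h1, Subgroup.comap_top]

theorem center_le_upper_two {G : Type u} [Group G] [Finite G] {p : ℕ} [Fact p.Prime]
    (hsol : Cfsg.IsPSolvable p G) (S : Sylow p G) (z : G) (hz : z ∈ S)
    (hzc : ∀ s ∈ S, s * z = z * s) : z ∈ (Cfsg.upperPSeries p G 2).1 := by
  rw [show 2 = 1 + 1 from rfl, upper_succ_odd p (by simp), Subgroup.mem_comap]
  have h0 : Cfsg.pPrimeCore p (G ⧸ (Cfsg.upperPSeries p G 1).1) = ⊥ :=
    pPrimeCore_quotient_comap_eq_bot p (Cfsg.upperPSeries p G 0).1 _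
      (upper_succ_even p (by simp))
  apply centralizer_pCore_le (isPSolvable_quotient _ hsol) h0
  have h2 : Cfsg.pCore p (G ⧸ (Cfsg.upperPSeries p G 1).1) ≤
      (S : Subgroup G).map (QuotientGroup.mk' (Cfsg.upperPSeries p G 1).1) :=
    (pCore_isPGroup p).le_sylow_of_normal (S.mapSurjective (QuotientGroup.mk'_surjective _))
  intro y hy
  obtain ⟨s, hs, rfl⟩ := h2 hy
  rw [← map_mul, ← map_mul, hzc s hs]

theorem main (p : ℕ) [Fact p.Prime] (c : ℕ) : ∀ (G : Type u) [Group G] [Finite G],
    Cfsg.IsPSolvable p G → ∀ S : Sylow p G, Group.nilpotencyClass ↥(S : Subgroup G) ≤ c →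
    Cfsg.PLengthLE p c G := by
  induction c with
  | zero =>
    intro G _ _ _ S hS
    have hnil : Group.IsNilpotent ↥(S : Subgroup G) := S.2.isNilpotent
    exact base S (Group.nilpotencyClass_zero_iff_subsingleton.mp (Nat.le_zero.mp hS))
  | succ c ih =>
    intro G _ _ hsol S hS
    have hnil : Group.IsNilpotent ↥(S : Subgroup G) := S.2.isNilpotent
    set U := (Cfsg.upperPSeries p G 2).1 with hU
    let S' : Sylow p (G ⧸ U) := S.mapSurjective (QuotientGroup.mk'_surjective U)
    let f : ↥(S : Subgroup G) →* ↥((S : Subgroup G).map (QuotientGroup.mk' U)) :=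
      (QuotientGroup.mk' U).subgroupMap (S : Subgroup G)
    have hf : Function.Surjective f := (QuotientGroup.mk' U).subgroupMap_surjective _
    have hker : Subgroup.center ↥(S : Subgroup G) ≤ f.ker := by
      intro z hz
      rw [MonoidHom.mem_ker]
      apply Subtype.ext
      have h1 : (z : G) ∈ U := by
        apply center_le_upper_two hsol S z z.2
        intro s hs
        have := (Subgroup.mem_center_iff.mp hz) ⟨s, hs⟩
        exact congrArg Subtype.val this
      exact (QuotientGroup.eq_one_iff (z : G)).mpr h1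
    have hsurj : Function.Surjective (QuotientGroup.lift (Subgroup.center ↥(S : Subgroup G)) f
        (fun z hz => hker hz)) := by
      intro y
      obtain ⟨x, rfl⟩ := hf y
      exact ⟨QuotientGroup.mk x, rfl⟩
    have hc1 : Group.nilpotencyClass ↥(S' : Subgroup (G ⧸ U)) ≤ c := by
      have h1 := Group.nilpotencyClass_le_of_surjective _ hsurj
      rw [Group.nilpotencyClass_quotient_center] at h1
      have h2 : Group.nilpotencyClass ↥((S : Subgroup G).map (QuotientGroup.mk' U)) ≤ c := by omega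
      exact h2
    have h3 := ih (G ⧸ U) (isPSolvable_quotient _ hsol) S' hc1
    unfold Cfsg.PLengthLE at h3 ⊢
    rw [show 2 * (c + 1) + 1 = (2 * c + 1) + 2 from by ring, upper_shift, h3, Subgroup.comap_top]

/-- The p-length of a p-soluble group is at most the nilpotency class of its Sylow p-subgroups. -/
theorem result {G : Type*} [Group G] [Finite G] {p : ℕ} [Fact p.Prime] (hsol : Cfsg.IsPSolvable p G) (S : Sylow p G) : Cfsg.PLengthLE p (Group.nilpotencyClass ↥(S : Subgroup G)) G := by
  exact main p _ G hsol S le_rfl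

end Cfsg.Agent.S0635
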