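import Cfsg.Statements.S0642
import Cfsg.Agent.Lib.Helper14Comm
import Cfsg.Agent.Lib.Helper14PGroup

set_option autoImplicit false
open Cfsg

namespace Cfsg.Agent.S0642

open scoped commutatorElement
open Cfsg.Agent.Lib.Helper14Comm Cfsg.Agent.Lib.Helper14PGroup

theorem le_normalizer_powerClosure {G : Type*} [Group G] (p n : ℕ) {H D : Subgroup G}
    (h : H ≤ Subgroup.normalizer (D : Set G)) :
    H ≤ Subgroup.normalizer (Cfsg.powerClosure p n D : Set G) := by
  unfold Cfsg.powerClosure
  rw [Subgroup.le_normalizer_closure_iff]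
  rintro x hx _ ⟨y, hy, rfl⟩
  apply Subgroup.subset_closure
  exact ⟨x * y * x⁻¹, conj_mem_of_le_normalizer h hx hy, by rw [conj_pow]⟩

/-- Among finite 2-groups the regular ones are exactly the abelian ones. -/
theorem result {G : Type*} [Group G] [Finite G] (hG : IsPGroup 2 G) : Cfsg.IsRegularPGroup 2 G ↔ ∀ a b : G, a * b = b * a := by
  constructor
  · intro hreg a b
    obtain ⟨c, hc, habc⟩ := hreg.2 a b 1
    set H := Subgroup.closure ({a, b} : Set G) with hH
    set D := ⁅H, H⁆ with hD
    set N := Cfsg.powerClosure 2 1 D with hN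
    have ha : a ∈ H := Subgroup.subset_closure (by simp)
    have hb : b ∈ H := Subgroup.subset_closure (by simp)
    have hHN : H ≤ Subgroup.normalizer (N : Set G) :=
      le_normalizer_powerClosure 2 1 (Subgroup.normalizer_commutator_ge_left H H)
    have hc' : c = (a * b * b)⁻¹ * (b * a * b) := by
      have h1 : c = (a ^ 2 ^ 1 * b ^ 2 ^ 1)⁻¹ * (a * b) ^ 2 ^ 1 := eq_inv_mul_of_mul_eq habc.symm
      rw [h1]
      simp only [pow_one, pow_two]
      group
    have hba : ⁅b, a⁆ ∈ N := by
      have h1 : ⁅b, a⁆ = (a * b * b) * c * (a * b * b)⁻¹ := by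
        rw [hc', commutatorElement_def]
        group
      rw [h1]
      exact conj_mem_of_le_normalizer hHN (mul_mem (mul_mem ha hb) hb) hc
    have hab : ⁅a, b⁆ ∈ N := by
      rw [← commutatorElement_inv]
      exact inv_mem hba
    have hDN : D ≤ N := by
      apply commutator_closure_le hHN hHN
      intro x hx y hy
      simp only [Set.mem_insert_iff, Set.mem_singleton_iff] at hx hy
      rcases hx with rfl | rfl <;> rcases hy with rfl | rfl
      · rw [commutatorElement_self]; exact one_mem N
      · exact hab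
      · exact hba
      · rw [commutatorElement_self]; exact one_mem N
    have : Fact (Nat.Prime 2) := ⟨Nat.prime_two⟩
    have hDbot : D = ⊥ := eq_bot_of_le_powerClosure D (hG.to_subgroup D) hDN
    have h2 : ⁅a, b⁆ ∈ D := Subgroup.commutator_mem_commutator ha hb
    rw [hDbot, Subgroup.mem_bot, commutatorElement_eq_one_iff_mul_comm] at h2
    exact h2
  · intro hcomm
    refine ⟨hG, fun a b n => ⟨1, one_mem _, ?_⟩⟩
    rw [mul_one, (show Commute a b from hcomm a b).mul_pow]

end Cfsg.Agent.S0642
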