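import Cfsg.Statements.S0645
import Cfsg.Agent.Lib.Helper79PGroup

set_option autoImplicit false
open Cfsg

namespace Cfsg.Agent.S0645

theorem nt1 (p : ℕ) [hp : Fact p.Prime] (hp2 : p ≠ 2) (k : ℕ) (r : ℤ)
    (h : (p:ℤ) ^ (k + 2) ∣ r ^ p - 1) : (p:ℤ) ^ (k + 1) ∣ r - 1 := by
  have hpp : Prime (p : ℤ) := Nat.prime_iff_prime_int.mp hp.out
  have hodd : Odd p := hp.out.odd_of_ne_two hp2
  have h1 : (p:ℤ) ∣ r - 1 := by
    have h2 : (p:ℤ) ∣ r ^ p - 1 := (dvd_pow_self _ (by omega)).trans h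
    rw [← ZMod.intCast_zmod_eq_zero_iff_dvd] at h2 ⊢
    push_cast at h2 ⊢
    rwa [ZMod.pow_card] at h2
  have h3 : ¬ (p:ℤ) ∣ r := by
    intro h4
    have : (p:ℤ) ∣ 1 := by
      have := dvd_sub h4 h1
      simpa using this
    exact hpp.not_isUnit (isUnit_of_dvd_one this)
  have h5 := emultiplicity_pow_prime_sub_pow_prime hpp hodd (x := r) (y := 1) h1 h3
  rw [one_pow] at h5
  rw [pow_dvd_iff_le_emultiplicity] at h ⊢
  rw [h5] at h
  push_cast at h ⊢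
  have e : ((k:ℕ∞) + 2) = (k + 1) + 1 := by ring
  rw [e] at h
  exact (ENat.add_le_add_iff_right (by simp)).mp h

theorem nt2 (N M u : ℤ) (hMM : N ∣ M * M) (j : ℕ) : N ∣ (1 + M * u) ^ j - (1 + j * M * u) := by
  induction j with
  | zero => simp
  | succ j ih =>
    have e : (1 + M * u) ^ (j + 1) - (1 + ((j + 1 : ℕ) : ℤ) * M * u)
        = (1 + M * u) * ((1 + M * u) ^ j - (1 + j * M * u)) + (M * M) * (j * u * u) := by
      push_cast; ring
    rw [e]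
    exact dvd_add (Dvd.dvd.mul_left ih _) (Dvd.dvd.mul_right hMM _)

def sig (r : ℤ) : ℕ → ℤ
  | 0 => 0
  | (k + 1) => 1 + r * sig r k

theorem nt3 (N M r : ℤ) (hMM : N ∣ M * M) (hr : N ∣ r - (1 + M)) (k : ℕ) :
    N ∣ 2 * sig r k - (2 * k + M * k * (k - 1)) := by
  induction k with
  | zero => simp [sig]
  | succ k ih =>
    have e : 2 * sig r (k + 1) - (2 * ((k + 1 : ℕ) : ℤ) + M * ((k + 1 : ℕ) : ℤ) * (((k + 1 : ℕ) : ℤ) - 1))
        = r * (2 * sig r k - (2 * k + M * k * (k - 1))) + (r - (1 + M)) * (2 * k + M * k * (k - 1))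
          + (M * M) * (k * (k - 1)) := by
      simp only [sig]; push_cast; ring
    rw [e]
    exact dvd_add (dvd_add (Dvd.dvd.mul_left ih _) (Dvd.dvd.mul_right hr _)) (Dvd.dvd.mul_right hMM _)

theorem mul_pow_sig {G : Type*} [Group G] (a b : G) (r : ℤ)
    (hconj : ∀ t : ℤ, b * a ^ t * b⁻¹ = a ^ (r * t)) (t : ℤ) (k : ℕ) :
    (a ^ t * b) ^ k = a ^ (t * sig r k) * b ^ k := by
  induction k with
  | zero => simp [sig]
  | succ k ih =>
    have e : a ^ t * b * (a ^ (t * sig r k) * b ^ k)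
        = a ^ t * (b * a ^ (t * sig r k) * b⁻¹) * b ^ (k + 1) := by
      rw [pow_succ']; group
    rw [pow_succ', ih, e, hconj, ← zpow_add]
    congr 2
    simp only [sig]; ring

theorem stage2 {G : Type*} [Group G] (p : ℕ) [hp : Fact p.Prime] (hp2 : p ≠ 2) (k : ℕ) (a b₁ : G)
    (ha : orderOf a = p ^ (k + 2)) (hb : b₁ ∉ Subgroup.zpowers a) (r s : ℤ)
    (hr : b₁ * a * b₁⁻¹ = a ^ r) (hs : b₁ ^ p = a ^ s)
    (hrM : (p:ℤ) ^ (k + 2) ∣ r - (1 + (p:ℤ) ^ (k + 1))) :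
    ∃ b : G, orderOf b = p ∧ b ∉ Subgroup.zpowers a ∧ b * a * b⁻¹ = a ^ (1 + p ^ (k + 1)) := by
  have hp0 : (p:ℤ) ≠ 0 := by exact_mod_cast hp.out.ne_zero
  have hz : ∀ u v : ℤ, a ^ u = a ^ v ↔ (p:ℤ) ^ (k + 2) ∣ u - v := by
    intro u v
    rw [zpow_eq_zpow_iff_modEq, ha, Int.modEq_iff_dvd, ← dvd_neg, neg_sub]
    push_cast
    rfl
  have hone : ∀ u : ℤ, a ^ u = 1 ↔ (p:ℤ) ^ (k + 2) ∣ u := by
    intro u
    have := hz u 0
    simpa using this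
  have hconj : ∀ t : ℤ, b₁ * a ^ t * b₁⁻¹ = a ^ (r * t) := by
    intro t
    rw [← conj_zpow, hr, ← zpow_mul]
  have h2 : (p:ℤ) ^ (k + 2) ∣ s * (r - 1) := by
    have e1 : b₁ * b₁ ^ p * b₁⁻¹ = b₁ ^ p := by group
    rw [hs, hconj, hz] at e1
    have : s * (r - 1) = r * s - s := by ring
    rwa [this]
  have h3 : (p:ℤ) ^ (k + 2) ∣ s * (p:ℤ) ^ (k + 1) := by
    have e : s * (p:ℤ) ^ (k + 1) = s * (r - 1) - s * (r - (1 + (p:ℤ) ^ (k + 1))) := by ring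
    rw [e]
    exact dvd_sub h2 (Dvd.dvd.mul_left hrM s)
  have h4 : (p:ℤ) ∣ s := by
    have e : (p:ℤ) ^ (k + 2) = p * (p:ℤ) ^ (k + 1) := by ring
    rw [e] at h3
    exact (mul_dvd_mul_iff_right (pow_ne_zero _ hp0)).mp h3
  obtain ⟨c, hc⟩ := h4
  have hMM : (p:ℤ) ^ (k + 2) ∣ (p:ℤ) ^ (k + 1) * (p:ℤ) ^ (k + 1) := by
    rw [← pow_add]
    exact pow_dvd_pow _ (by omega)
  have h5 := nt3 _ _ r hMM hrM p
  have h6 : (p:ℤ) ^ (k + 2) ∣ 2 * (sig r p - p) := by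
    have e : 2 * (sig r p - p) = (2 * sig r p - (2 * p + (p:ℤ) ^ (k + 1) * p * (p - 1)))
        + (p:ℤ) ^ (k + 2) * (p - 1) := by ring
    rw [e]
    exact dvd_add h5 (Dvd.intro _ rfl)
  have hcop : IsCoprime ((p:ℤ) ^ (k + 2)) 2 := by
    apply IsCoprime.pow_left
    obtain ⟨q, hq⟩ := hp.out.odd_of_ne_two hp2
    refine ⟨1, -q, ?_⟩
    rw [hq]; push_cast; ring
  have h7 : (p:ℤ) ^ (k + 2) ∣ sig r p - p := hcop.dvd_of_dvd_mul_left h6
  have hbp : (a ^ (-c) * b₁) ^ p = 1 := by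
    rw [mul_pow_sig a b₁ r hconj, hs, ← zpow_add, hone]
    have e : -c * sig r p + s = -c * (sig r p - p) := by rw [hc]; ring
    rw [e]
    exact Dvd.dvd.mul_left h7 _
  have hnm : a ^ (-c) * b₁ ∉ Subgroup.zpowers a := by
    intro h
    apply hb
    have := (Subgroup.zpowers a).mul_mem
      ((Subgroup.zpowers a).inv_mem (Subgroup.zpow_mem_zpowers a (-c))) h
    simpa using this
  refine ⟨a ^ (-c) * b₁, orderOf_eq_prime hbp ?_, hnm, ?_⟩
  · intro h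
    rw [h] at hnm
    exact hnm (one_mem _)
  · have e : a ^ (-c) * b₁ * a * (a ^ (-c) * b₁)⁻¹ = a ^ (-c) * (b₁ * a * b₁⁻¹) * (a ^ (-c))⁻¹ := by
      group
    rw [e, hr, ← zpow_neg, ← zpow_add, ← zpow_add, ← zpow_natCast a (1 + p ^ (k + 1)), hz]
    push_cast
    have e2 : -c + r + - -c - (1 + (p:ℤ) ^ (k + 1)) = r - (1 + (p:ℤ) ^ (k + 1)) := by ring
    rwa [e2]

theorem stage1 {G : Type*} [Group G] (p : ℕ) [hp : Fact p.Prime] (hp2 : p ≠ 2) (k : ℕ) (a b₀ : G)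
    (ha : orderOf a = p ^ (k + 2)) (hb : b₀ ∉ Subgroup.zpowers a)
    (hbp : b₀ ^ p ∈ Subgroup.zpowers a) (r : ℤ)
    (hr : b₀ * a * b₀⁻¹ = a ^ r) (hne : b₀ * a * b₀⁻¹ ≠ a) :
    ∃ (b₁ : G) (r₁ s : ℤ), b₁ ∉ Subgroup.zpowers a ∧ b₁ * a * b₁⁻¹ = a ^ r₁ ∧ b₁ ^ p = a ^ s ∧
      (p:ℤ) ^ (k + 2) ∣ r₁ - (1 + (p:ℤ) ^ (k + 1)) := by
  have hp0 : (p:ℤ) ≠ 0 := by exact_mod_cast hp.out.ne_zero
  have hz : ∀ u v : ℤ, a ^ u = a ^ v ↔ (p:ℤ) ^ (k + 2) ∣ u - v := by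
    intro u v
    rw [zpow_eq_zpow_iff_modEq, ha, Int.modEq_iff_dvd, ← dvd_neg, neg_sub]
    push_cast
    rfl
  have hconj : ∀ t : ℤ, b₀ * a ^ t * b₀⁻¹ = a ^ (r * t) := by
    intro t
    rw [← conj_zpow, hr, ← zpow_mul]
  have hcp : ∀ j : ℕ, b₀ ^ j * a * (b₀ ^ j)⁻¹ = a ^ (r ^ j) := by
    intro j
    induction j with
    | zero => simp
    | succ j ih =>
      have e : b₀ ^ (j + 1) * a * (b₀ ^ (j + 1))⁻¹ = b₀ * (b₀ ^ j * a * (b₀ ^ j)⁻¹) * b₀⁻¹ := by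
        rw [pow_succ']; group
      rw [e, ih, hconj, pow_succ']
  obtain ⟨s₀, hs₀⟩ := Subgroup.mem_zpowers_iff.mp hbp
  have h1 : (p:ℤ) ^ (k + 2) ∣ r ^ p - 1 := by
    have e1 := hcp p
    rw [← hs₀] at e1
    have e2 : a ^ s₀ * a * (a ^ s₀)⁻¹ = a ^ (1:ℤ) := by
      rw [zpow_one, ← zpow_add_one, ← zpow_neg, ← zpow_add]
      simp
    rw [e2, hz] at e1
    rw [← dvd_neg, neg_sub]
    exact e1
  have h3 : ¬ (p:ℤ) ^ (k + 2) ∣ r - 1 := by
    intro h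
    apply hne
    rw [hr]
    have := (hz r 1).mpr h
    rwa [zpow_one] at this
  obtain ⟨u, hu⟩ := nt1 p hp2 k r h1
  have hr' : r = 1 + (p:ℤ) ^ (k + 1) * u := by linarith
  have hpu : ¬ (p:ℤ) ∣ u := by
    rintro ⟨v, rfl⟩
    apply h3
    refine ⟨v, ?_⟩
    rw [hu]; ring
  have hu0 : (u : ZMod p) ≠ 0 := by
    rwa [Ne, ZMod.intCast_zmod_eq_zero_iff_dvd]
  obtain ⟨y, hy⟩ : (p:ℤ) ∣ ((((u : ZMod p)⁻¹).val : ℕ) : ℤ) * u - 1 := by
    rw [← ZMod.intCast_zmod_eq_zero_iff_dvd]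
    push_cast
    rw [ZMod.natCast_zmod_val, inv_mul_cancel₀ hu0, sub_self]
  generalize ((u : ZMod p)⁻¹).val = j at hy
  refine ⟨b₀ ^ j, r ^ j, s₀ * j, ?_, hcp j, ?_, ?_⟩
  · intro h
    apply hb
    have e : b₀ = (b₀ ^ j) ^ u * ((b₀ ^ p) ^ y)⁻¹ := by
      rw [← zpow_natCast b₀ j, ← zpow_natCast b₀ p, ← zpow_mul, ← zpow_mul, ← zpow_neg, ← zpow_add]
      have : (j:ℤ) * u + -((p:ℤ) * y) = 1 := by linarith
      rw [this, zpow_one]
    rw [e]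
    exact mul_mem (Subgroup.zpow_mem _ h u) (inv_mem (Subgroup.zpow_mem _ hbp y))
  · rw [← pow_mul, mul_comm, pow_mul, ← hs₀, zpow_mul, zpow_natCast]
  · have hMM : (p:ℤ) ^ (k + 2) ∣ (p:ℤ) ^ (k + 1) * (p:ℤ) ^ (k + 1) := by
      rw [← pow_add]
      exact pow_dvd_pow _ (by omega)
    have h5 := nt2 _ _ u hMM j
    rw [← hr'] at h5
    have e : r ^ j - (1 + (p:ℤ) ^ (k + 1)) = (r ^ j - (1 + j * (p:ℤ) ^ (k + 1) * u))
        + (p:ℤ) ^ (k + 2) * y := by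
      have : (p:ℤ) ^ (k + 2) * y = (p:ℤ) ^ (k + 1) * ((p:ℤ) * y) := by ring
      rw [this, ← hy]; ring
    rw [e]
    exact dvd_add h5 (Dvd.intro _ rfl)

/-- Classification of p-groups with a cyclic maximal subgroup, odd p: a non-abelian one of order p^n has generators a of order p^(n-1) and b of order p, b outside the cyclic subgroup generated by a, with b a b⁻¹ = a^(1 + p^(n-2)). -/
theorem result {G : Type*} [Group G] [Finite G] {p : ℕ} [Fact p.Prime] (hp : p ≠ 2) (n : ℕ) (hn : 3 ≤ n) (hG : Nat.card G = p ^ n) (C : Subgroup G) (hC : IsCyclic C) (hCi : C.index = p) (hna : ∃ x y : G, x * y ≠ y * x) : ∃ a b : G, orderOf a = p ^ (n - 1) ∧ orderOf b = p ∧ b ∉ Subgroup.zpowers a ∧ b * a * b⁻¹ = a ^ (1 + p ^ (n - 2)) := by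
  obtain ⟨k, rfl⟩ : ∃ k, n = k + 3 := ⟨n - 3, by omega⟩
  have hpp : p.Prime := Fact.out
  have hPG : IsPGroup p G := IsPGroup.of_card hG
  obtain ⟨⟨a, haC⟩, hgen⟩ := hC.exists_generator
  have hCa : C = Subgroup.zpowers a := by
    apply le_antisymm
    · intro x hx
      obtain ⟨j, hj⟩ := Subgroup.mem_zpowers_iff.mp (hgen ⟨x, hx⟩)
      refine Subgroup.mem_zpowers_iff.mpr ⟨j, ?_⟩
      have := congrArg Subtype.val hj
      simpa using this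
    · rw [Subgroup.zpowers_le]; exact haC
  have hcard : Nat.card C = p ^ (k + 2) := by
    have h1 := C.card_mul_index
    rw [hCi, hG, pow_succ] at h1
    exact Nat.eq_of_mul_eq_mul_right hpp.pos h1
  have ha : orderOf a = p ^ (k + 2) := by
    rw [← hcard, hCa, Nat.card_zpowers]
  obtain ⟨b₀, hb₀⟩ : ∃ x, x ∉ C := by
    by_contra h
    push Not at h
    have : C = ⊤ := (Subgroup.eq_top_iff' C).mpr h
    rw [this, Subgroup.index_top] at hCi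
    exact hpp.one_lt.ne hCi
  have hCn : C.Normal := Cfsg.Agent.Lib.Helper79PGroup.normal_of_index_eq_prime hPG C hCi
  have hsup := Cfsg.Agent.Lib.Helper79PGroup.sup_zpowers_eq_top_of_index_prime hpp hCi hb₀
  have htop : ∀ K : Subgroup G, C ≤ K → b₀ ∈ K → K = ⊤ := by
    intro K hCK hbK
    rw [eq_top_iff, ← hsup]
    exact sup_le hCK (Subgroup.zpowers_le.mpr hbK)
  have h1 : b₀ * a * b₀⁻¹ ∈ Subgroup.zpowers a := hCa ▸ hCn.conj_mem a haC b₀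
  have h2 : b₀ ^ p ∈ Subgroup.zpowers a := by
    have := C.pow_index_mem b₀
    rwa [hCi, hCa] at this
  obtain ⟨r, hr⟩ := Subgroup.mem_zpowers_iff.mp h1
  have hne : b₀ * a * b₀⁻¹ ≠ a := by
    intro h
    have hab : b₀ * a = a * b₀ := by rwa [mul_inv_eq_iff_eq_mul] at h
    have t1 : Subgroup.centralizer {a} = ⊤ := by
      apply htop
      · rw [hCa, Subgroup.zpowers_le]
        exact Subgroup.mem_centralizer_singleton_iff.mpr rfl
      · exact Subgroup.mem_centralizer_singleton_iff.mpr hab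
    have ac : a ∈ Subgroup.center G := by
      rw [Subgroup.mem_center_iff]
      intro g
      have : g ∈ Subgroup.centralizer {a} := t1 ▸ Subgroup.mem_top g
      exact Subgroup.mem_centralizer_singleton_iff.mp this
    have t2 : Subgroup.centralizer {b₀} = ⊤ := by
      apply htop
      · rw [hCa, Subgroup.zpowers_le]
        exact Subgroup.center_le_centralizer _ ac
      · exact Subgroup.mem_centralizer_singleton_iff.mpr rfl
    have bc : b₀ ∈ Subgroup.center G := by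
      rw [Subgroup.mem_center_iff]
      intro g
      have : g ∈ Subgroup.centralizer {b₀} := t2 ▸ Subgroup.mem_top g
      exact Subgroup.mem_centralizer_singleton_iff.mp this
    have t3 : Subgroup.center G = ⊤ := by
      apply htop _ _ bc
      rw [hCa, Subgroup.zpowers_le]
      exact ac
    obtain ⟨x, y, hxy⟩ := hna
    apply hxy
    have : y ∈ Subgroup.center G := t3 ▸ Subgroup.mem_top y
    exact Subgroup.mem_center_iff.mp this x
  obtain ⟨b₁, r₁, s, hb₁, hr₁, hs, hrM⟩ := stage1 p hp k a b₀ ha (hCa ▸ hb₀) h2 r hr.symm hne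
  obtain ⟨b, hb, hbn, hbc⟩ := stage2 p hp k a b₁ ha hb₁ r₁ s hr₁ hs hrM
  exact ⟨a, b, ha, hb, hbn, hbc⟩

end Cfsg.Agent.S0645
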