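import Cfsg.Statements.S0656
import Mathlib
import Cfsg.Agent.Lib.Helper57Dickson5
import Cfsg.Agent.Lib.Helper13QuadGrp
import Cfsg.Agent.Lib.Helper13Section
import Cfsg.Agent.Lib.Helper5BaerSuzuki
import Cfsg.Agent.Lib.Helper1Fitting

set_option autoImplicit false
open Cfsg

namespace Cfsg.Agent.S0656

open Subgroup

theorem pow_eq_one_of_mem_closure_pair {M : Type*} [Group M] {n : ℕ} {A B : M} (hAB : A * B = B * A)
    (hA : A ^ n = 1) (hB : B ^ n = 1) : ∀ t ∈ closure ({A, B} : Set M), t ^ n = 1 := by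
  have hcomm : ∀ x ∈ ({A, B} : Set M), ∀ y ∈ ({A, B} : Set M), x * y = y * x := by
    rintro x (rfl | rfl) y (rfl | rfl)
    · rfl
    · exact hAB
    · exact hAB.symm
    · rfl
  have hc : ∀ s t : closure ({A, B} : Set M), s * t = t * s :=
    (Subgroup.isMulCommutative_closure hcomm).is_comm.comm
  intro t ht
  induction ht using Subgroup.closure_induction with
  | mem x hx =>
    rcases hx with rfl | rfl
    · exact hA
    · exact hB
  | one => exact one_pow n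
  | mul x y hx hy ihx ihy =>
    have : Commute x y := congrArg Subtype.val (hc ⟨x, hx⟩ ⟨y, hy⟩)
    rw [this.mul_pow, ihx, ihy, one_mul]
  | inv x _ ihx => rw [inv_pow, ihx, inv_one]

theorem map_conj_eq {G : Type*} [Group G] {V : Subgroup G} {g : G} (hg : g ∈ normalizer (V : Set G)) :
    V.map (MulAut.conj g).toMonoidHom = V := by
  ext v
  constructor
  · rintro ⟨w, hw, rfl⟩
    exact (mem_normalizer_iff.mp hg w).mp hw
  · intro hv
    refine ⟨g⁻¹ * v * g, ?_, ?_⟩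
    · apply (mem_normalizer_iff.mp hg _).mpr
      have : g * (g⁻¹ * v * g) * g⁻¹ = v := by group
      rw [this]; exact hv
    · show g * (g⁻¹ * v * g) * g⁻¹ = v
      group

theorem quad_conj' {G : Type*} [Group G] {V : Subgroup G} {g x : G} (hg : g ∈ normalizer (V : Set G))
    (hq : ⁅⁅V, zpowers x⁆, zpowers x⁆ = ⊥) :
    ⁅⁅V, zpowers (g * x * g⁻¹)⁆, zpowers (g * x * g⁻¹)⁆ = ⊥ := by
  have h1 : zpowers (g * x * g⁻¹) = (zpowers x).map (MulAut.conj g).toMonoidHom := by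
    rw [MonoidHom.map_zpowers]; rfl
  have h2 := congrArg (Subgroup.map (MulAut.conj g).toMonoidHom) hq
  rw [Subgroup.map_commutator, Subgroup.map_commutator, map_conj_eq hg, ← h1, Subgroup.map_bot] at h2
  exact h2

/-- For odd p, a faithful group on an elementary abelian p-group with no nontrivial normal p-subgroup in which some nontrivial p-element acts quadratically has a section isomorphic to SL(2, p). -/
theorem result {G : Type*} [Group G] [Finite G] {p : ℕ} [Fact p.Prime] (hp : p ≠ 2) (V H : Subgroup G) (hV : Cfsg.IsElementaryAbelian p V) (hHV : H ≤ Subgroup.normalizer (V : Set G)) (hf : H ⊓ Subgroup.centralizer (V : Set G) = ⊥) (hO : Cfsg.pCore p ↥H = ⊥) (x : G) (hxH : x ∈ H) (hx1 : x ≠ 1) (hxp : ∃ k : ℕ, orderOf x = p ^ k) (hq : ⁅⁅V, Subgroup.zpowers x⁆, Subgroup.zpowers x⁆ = ⊥) : ∃ (K L : Subgroup G) (hL : (L.subgroupOf K).Normal), K ≤ H ∧ Nonempty ((K ⧸ L.subgroupOf K) ≃* Matrix.SpecialLinearGroup (Fin 2) (ZMod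 p)) := by
  classical
  -- Baer-Suzuki in `H`
  set x' : H := ⟨x, hxH⟩ with hx'
  set C : Set H := {k | ∃ g : H, k = g * x' * g⁻¹} with hC
  have hCconj : ∀ k ∈ C, ∀ g : H, g * k * g⁻¹ ∈ C := by
    rintro _ ⟨g', rfl⟩ g
    exact ⟨g * g', by group⟩
  have hex : ∃ a ∈ C, ∃ b ∈ C, ¬ IsPGroup p (closure ({a, b} : Set H)) := by
    by_contra hcon
    push Not at hcon
    have hpg := Cfsg.Agent.Lib.Helper5BaerSuzuki.isPGroup_closure C hCconj hcon
    have hn : (closure C).Normal :=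
      ⟨fun n hn g => Cfsg.Agent.Lib.Helper5BaerSuzuki.conj_mem_closure (fun k hk => hCconj k hk g) hn⟩
    have hle := Cfsg.Agent.Lib.Helper1Fitting.le_pCore hn hpg
    rw [hO] at hle
    have hxC : x' ∈ closure C := subset_closure ⟨1, by simp⟩
    have := hle hxC
    rw [mem_bot] at this
    exact hx1 (congrArg Subtype.val this)
  obtain ⟨_, ⟨g, rfl⟩, _, ⟨g', rfl⟩, hnp⟩ := hex
  set a : G := (g : G) * x * (g : G)⁻¹ with ha
  set b : G := (g' : G) * x * (g' : G)⁻¹ with hb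
  have haq : ⁅⁅V, zpowers a⁆, zpowers a⁆ = ⊥ := quad_conj' (hHV g.2) hq
  have hbq : ⁅⁅V, zpowers b⁆, zpowers b⁆ = ⊥ := quad_conj' (hHV g'.2) hq
  have haH : a ∈ H := (g * x' * g⁻¹).2
  have hbH : b ∈ H := (g' * x' * g'⁻¹).2
  set L : Subgroup G := closure {a, b} with hL
  have hLH : L ≤ H := by
    rw [hL, closure_le]
    rintro y (rfl | rfl)
    · exact haH
    · exact hbH
  have hLV : L ≤ normalizer (V : Set G) := hLH.trans hHV
  have hLf : L ⊓ centralizer (V : Set G) = ⊥ := by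
    rw [eq_bot_iff, ← hf]
    exact inf_le_inf_right _ hLH
  have haL : a ∈ L := subset_closure (by simp)
  have hbL : b ∈ L := subset_closure (by simp)
  -- a nontrivial `p'`-element
  have hmapL : (closure ({g * x' * g⁻¹, g' * x' * g'⁻¹} : Set H)).map H.subtype = L := by
    rw [MonoidHom.map_closure, Set.image_pair]
    rfl
  obtain ⟨t, ht⟩ : ∃ t : closure ({g * x' * g⁻¹, g' * x' * g'⁻¹} : Set H), ∀ k : ℕ, t ^ p ^ k ≠ 1 := by
    by_contra hcon
    push Not at hcon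
    exact hnp hcon
  have htL : ((t : H) : G) ∈ L := by rw [← hmapL]; exact ⟨t, t.2, rfl⟩
  have hpp : p.Prime := Fact.out
  obtain ⟨e, m, hm, hord⟩ := Nat.exists_eq_pow_mul_and_not_dvd
    (orderOf_pos ((t : H) : G)).ne' p hpp.ne_one
  set t' : L := ⟨((t : H) : G), htL⟩ ^ p ^ e with ht'
  have ht'm : t' ^ m = 1 := by
    apply Subtype.ext
    simp only [ht', Subgroup.coe_pow, Subgroup.coe_one]
    rw [← pow_mul, ← hord, pow_orderOf_eq_one]
  have ht'1 : t' ≠ 1 := by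
    intro h
    apply ht e
    apply Subtype.ext
    apply Subtype.ext
    have := congrArg Subtype.val h
    simpa [ht'] using this
  have hmp : m.Coprime p := ((Nat.Prime.coprime_iff_not_dvd hpp).mpr hm).symm
  obtain ⟨K, _, _, _, φ, hφ⟩ := Cfsg.Agent.Lib.Helper13QuadGrp.exists_hom_SL2 V L hV hLV hLf a b rfl
    haq hbq t' m hmp ht'm ht'1
  have hAp : (φ ⟨a, haL⟩) ^ p = 1 := by
    rw [← map_pow, Cfsg.Agent.Lib.Helper13QuadGrp.pow_p_eq_one V L hV hLV hLf ⟨a, haL⟩ haq, map_one]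
  have hBp : (φ ⟨b, hbL⟩) ^ p = 1 := by
    rw [← map_pow, Cfsg.Agent.Lib.Helper13QuadGrp.pow_p_eq_one V L hV hLV hLf ⟨b, hbL⟩ hbq, map_one]
  have hnc : φ ⟨a, haL⟩ * φ ⟨b, hbL⟩ ≠ φ ⟨b, hbL⟩ * φ ⟨a, haL⟩ := by
    intro hc
    apply hφ
    have htop := Cfsg.Agent.Lib.Helper13QuadGrp.gen_top L a b rfl haL hbL
      ((closure ({φ ⟨a, haL⟩, φ ⟨b, hbL⟩} : Set _)).comap φ)
      (subset_closure (by simp)) (subset_closure (by simp))
    have hmem : φ t' ∈ closure ({φ ⟨a, haL⟩, φ ⟨b, hbL⟩} : Set _) := by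
      have : t' ∈ (closure ({φ ⟨a, haL⟩, φ ⟨b, hbL⟩} : Set _)).comap φ := by rw [htop]; trivial
      exact this
    have h1 := pow_eq_one_of_mem_closure_pair hc hAp hBp _ hmem
    have h2 : (φ t') ^ m = 1 := by rw [← map_pow, ht'm, map_one]
    have d1 := orderOf_dvd_of_pow_eq_one h1
    have d2 := orderOf_dvd_of_pow_eq_one h2
    have := Nat.dvd_gcd d2 d1
    rw [Nat.Coprime.gcd_eq_one hmp] at this
    exact orderOf_eq_one_iff.mp (Nat.dvd_one.mp this)
  obtain ⟨K', hK', ⟨e'⟩⟩ := Cfsg.Agent.Lib.Helper57Dickson.good_of_noncomm (p := p) hp φ.range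
    ⟨_, rfl⟩ ⟨_, rfl⟩
    (Cfsg.Agent.Lib.Helper57SL2U.tr_eq_two_of_pow (p := p) (k := 1) (by rw [pow_one]; exact hAp))
    (Cfsg.Agent.Lib.Helper57SL2U.tr_eq_two_of_pow (p := p) (k := 1) (by rw [pow_one]; exact hBp)) hnc
  have hmc : (K'.comap φ).map φ = K' := Subgroup.map_comap_eq_self hK'
  obtain ⟨K₂, L₂, hn, hK₂, hiso⟩ := Cfsg.Agent.Lib.Helper13Section.exists_section L φ (K'.comap φ)
    ((MulEquiv.subgroupCongr hmc).trans e')
  exact ⟨K₂, L₂, hn, hK₂.trans hLH, hiso⟩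

end Cfsg.Agent.S0656
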