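import Cfsg.Statements.S0662
import Cfsg.Agent.Lib.H98KulTCount
import Cfsg.Agent.Lib.H98KulMaxMod
import Cfsg.Agent.Lib.H98KulTau8

set_option autoImplicit false
open Cfsg

namespace Cfsg.Agent.S0662

open Subgroup

theorem lcs_lt {Q : Type*} [Group Q] [Group.IsNilpotent Q] (i : ℕ)
    (h : (⊤ : Subgroup Q).lowerCentralSeries i ≠ ⊥) :
    (⊤ : Subgroup Q).lowerCentralSeries (i + 1) < (⊤ : Subgroup Q).lowerCentralSeries i := by
  have hle : (⊤ : Subgroup Q).lowerCentralSeries (i + 1) ≤ (⊤ : Subgroup Q).lowerCentralSeries i :=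
    Subgroup.lowerCentralSeries_antitone _ (Nat.le_succ i)
  refine lt_of_le_of_ne hle ?_
  intro heq
  apply h
  have hall : ∀ k, (⊤ : Subgroup Q).lowerCentralSeries (i + k) =
      (⊤ : Subgroup Q).lowerCentralSeries i := by
    intro k
    induction k with
    | zero => rfl
    | succ k ih =>
      have : i + (k + 1) = (i + k) + 1 := by omega
      rw [this, Subgroup.lowerCentralSeries_succ, ih, ← Subgroup.lowerCentralSeries_succ, heq]
  have h1 := hall (Group.nilpotencyClass Q)
  have h2 : (⊤ : Subgroup Q).lowerCentralSeries (i + Group.nilpotencyClass Q) ≤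
      (⊤ : Subgroup Q).lowerCentralSeries (Group.nilpotencyClass Q) :=
    Subgroup.lowerCentralSeries_antitone _ (Nat.le_add_left _ _)
  rw [Subgroup.lowerCentralSeries_nilpotencyClass, le_bot_iff] at h2
  rw [← h1, h2]

theorem p_mul_card_le {Q : Type*} [Group Q] [Finite Q] {p : ℕ} [Fact p.Prime] (hQ : IsPGroup p Q)
    {H K : Subgroup Q} (h : H < K) : p * Nat.card H ≤ Nat.card K := by
  have h1 := Subgroup.relIndex_mul_relIndex ⊥ H K bot_le h.le
  rw [Subgroup.relIndex_bot_left, Subgroup.relIndex_bot_left] at h1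
  have h2 : H.relIndex K ≠ 1 := fun e => h.not_ge (Subgroup.relIndex_eq_one.1 e)
  obtain ⟨k, hk⟩ := (hQ.to_subgroup K).index (H.subgroupOf K)
  have hk' : H.relIndex K = p ^ k := hk
  have hk0 : k ≠ 0 := by
    intro h0
    rw [h0, pow_zero] at hk'
    exact h2 hk'
  have hp : p ≤ H.relIndex K := by
    rw [hk']
    calc p = p ^ 1 := (pow_one p).symm
      _ ≤ p ^ k := Nat.pow_le_pow_right (Fact.out : p.Prime).pos (by omega)
  calc p * Nat.card H ≤ H.relIndex K * Nat.card H := Nat.mul_le_mul_right _ hp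
    _ = Nat.card K := by rw [mul_comm]; exact h1

theorem comm_bot_of_cyclic {Q : Type*} [Group Q] (h : IsCyclic Q) : commutator Q = ⊥ := by
  rw [commutator_eq_bot_iff_center_eq_top, eq_top_iff]
  intro x _
  rw [Subgroup.mem_center_iff]
  intro y
  obtain ⟨g, hg⟩ := h.exists_generator
  obtain ⟨i, rfl⟩ := Subgroup.mem_zpowers_iff.mp (hg x)
  obtain ⟨j, rfl⟩ := Subgroup.mem_zpowers_iff.mp (hg y)
  exact zpow_mul_comm g j i

theorem lemA {Q : Type*} [Group Q] [Finite Q] {p : ℕ} [Fact p.Prime] (r : ℕ)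
    (hQ : Nat.card Q = p ^ r) (i : ℕ) :
    (⊤ : Subgroup Q).lowerCentralSeries (i + 1) = ⊥ ∨
      Nat.card ((⊤ : Subgroup Q).lowerCentralSeries (i + 1)) * p ^ (i + 2) ≤ p ^ r := by
  have hp : p.Prime := Fact.out
  have hP : IsPGroup p Q := IsPGroup.of_card hQ
  have hnil : Group.IsNilpotent Q := hP.isNilpotent
  induction i with
  | zero =>
    by_cases hb : (⊤ : Subgroup Q).lowerCentralSeries (0 + 1) = ⊥
    · left; exact hb
    · right
      have hb' : commutator Q ≠ ⊥ := hb
      obtain ⟨k, hk⟩ := hP.index (commutator Q)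
      have hmul := (commutator Q).card_mul_index
      rw [hk, hQ] at hmul
      have hk2 : 2 ≤ k := by
        by_contra hlt
        apply hb'
        apply comm_bot_of_cyclic
        apply Cfsg.Agent.Lib.H98KulTau8.isCyclic_of_abelianization hP
        have hcard : Nat.card (Q ⧸ commutator Q) = p ^ k := hk
        have hk01 : k = 0 ∨ k = 1 := by omega
        rcases hk01 with h0 | h1
        · rw [h0, pow_zero] at hcard
          have := (Nat.card_eq_one_iff_unique.mp hcard).1
          exact isCyclic_of_subsingleton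
        · rw [h1, pow_one] at hcard
          exact isCyclic_of_prime_card hcard
      change Nat.card (commutator Q) * p ^ 2 ≤ p ^ r
      rw [← hmul]
      exact Nat.mul_le_mul_left _ (Nat.pow_le_pow_right hp.pos hk2)
  | succ i ih =>
    by_cases hb : (⊤ : Subgroup Q).lowerCentralSeries (i + 1 + 1) = ⊥
    · left; exact hb
    · right
      have hb1 : (⊤ : Subgroup Q).lowerCentralSeries (i + 1) ≠ ⊥ := by
        intro h
        apply hb
        have := Subgroup.lowerCentralSeries_antitone (⊤ : Subgroup Q) (Nat.le_succ (i + 1))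
        rw [h, le_bot_iff] at this
        exact this
      have ih' := ih.resolve_left hb1
      have hlt := p_mul_card_le hP (lcs_lt (i + 1) hb1)
      calc Nat.card ((⊤ : Subgroup Q).lowerCentralSeries (i + 1 + 1)) * p ^ (i + 1 + 2)
          = (p * Nat.card ((⊤ : Subgroup Q).lowerCentralSeries (i + 1 + 1))) * p ^ (i + 2) := by
            ring
        _ ≤ Nat.card ((⊤ : Subgroup Q).lowerCentralSeries (i + 1)) * p ^ (i + 2) :=
            Nat.mul_le_mul_right _ hlt
        _ ≤ p ^ r := ih'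

theorem lemB {Q : Type*} [Group Q] [Finite Q] {p : ℕ} [Fact p.Prime] (hP : IsPGroup p Q)
    (k : ℕ) (hk : k ≤ Group.nilpotencyClass Q) :
    p ^ k ≤ Nat.card ((⊤ : Subgroup Q).lowerCentralSeries (Group.nilpotencyClass Q - k)) := by
  have hnil : Group.IsNilpotent Q := hP.isNilpotent
  induction k with
  | zero => simp
  | succ k ih =>
    have ih' := ih (by omega)
    have hne : (⊤ : Subgroup Q).lowerCentralSeries (Group.nilpotencyClass Q - (k + 1)) ≠ ⊥ := by
      intro h
      rw [Subgroup.lowerCentralSeries_eq_bot_iff_nilpotencyClass_le] at h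
      omega
    have hlt := p_mul_card_le hP (lcs_lt _ hne)
    have he : Group.nilpotencyClass Q - (k + 1) + 1 = Group.nilpotencyClass Q - k := by omega
    rw [he] at hlt
    calc p ^ (k + 1) = p * p ^ k := by ring
      _ ≤ p * Nat.card ((⊤ : Subgroup Q).lowerCentralSeries (Group.nilpotencyClass Q - k)) :=
          Nat.mul_le_mul_left _ ih'
      _ ≤ _ := hlt

theorem part1 {G : Type*} [Group G] [Finite G] {p : ℕ} [Fact p.Prime] (n : ℕ)
    (hG : Nat.card G = p ^ n) (hcl : Group.nilpotencyClass G = n - 1) (hn : 3 ≤ n)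
    (N : Subgroup G) [N.Normal] (r : ℕ) (hr : 2 ≤ r) (hN : N.index = p ^ r) :
    N = (⊤ : Subgroup G).lowerCentralSeries (r - 1) := by
  have hp : p.Prime := Fact.out
  have hP : IsPGroup p G := IsPGroup.of_card hG
  have hQ : Nat.card (G ⧸ N) = p ^ r := hN
  have hbot : (⊤ : Subgroup (G ⧸ N)).lowerCentralSeries (r - 1) = ⊥ := by
    have h := lemA r hQ (r - 2)
    have e1 : r - 2 + 1 = r - 1 := by omega
    have e2 : r - 2 + 2 = r := by omega
    rw [e1, e2] at h
    rcases h with h | h
    · exact h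
    · apply Subgroup.eq_bot_of_card_le
      have hpos : 0 < p ^ r := pow_pos hp.pos r
      exact Nat.le_of_mul_le_mul_right (by simpa using h) hpos
  have hle : (⊤ : Subgroup G).lowerCentralSeries (r - 1) ≤ N := by
    have h1 := map_lowerCentralSeries (⊤ : Subgroup G) (QuotientGroup.mk' N) (r - 1)
    rw [Subgroup.map_top_of_surjective _ (QuotientGroup.mk'_surjective N), hbot,
      Subgroup.map_eq_bot_iff, QuotientGroup.ker_mk'] at h1
    exact h1
  have hmul := N.card_mul_index
  rw [hN, hG] at hmul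
  have hrn : r ≤ n := by
    have : p ^ r ∣ p ^ n := Dvd.intro_left _ hmul
    exact (Nat.pow_dvd_pow_iff_le_right hp.one_lt).mp this
  have hcardN : Nat.card N = p ^ (n - r) := by
    have h2 : p ^ n = p ^ (n - r) * p ^ r := by rw [← pow_add]; congr 1; omega
    rw [h2] at hmul
    exact Nat.eq_of_mul_eq_mul_right (pow_pos hp.pos r) hmul
  have hB := lemB hP (n - r) (by rw [hcl]; omega)
  have e3 : Group.nilpotencyClass G - (n - r) = r - 1 := by rw [hcl]; omega
  rw [e3] at hB
  exact (Subgroup.eq_of_le_of_card_ge hle (by rw [hcardN]; exact hB)).symm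

/-- In a p-group of maximal class of order at least p³ the normal subgroups of index at least p² are exactly the terms of the lower central series, and there are exactly p + 1 normal subgroups of index p. -/
theorem result {G : Type*} [Group G] [Finite G] {p : ℕ} [Fact p.Prime] (n : ℕ) (hG : Nat.card G = p ^ n) (hcl : Group.nilpotencyClass G = n - 1) (hn : 3 ≤ n) : (∀ (N : Subgroup G) [N.Normal] (r : ℕ), 2 ≤ r → N.index = p ^ r → N = (⊤ : Subgroup G).lowerCentralSeries (r - 1)) ∧ Nat.card {N : Subgroup G // N.Normal ∧ N.index = p} = p + 1 := by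
  refine ⟨fun N _ r hr hN => part1 n hG hcl hn N r hr hN, ?_⟩
  have hp : p.Prime := Fact.out
  have hP : IsPGroup p G := IsPGroup.of_card hG
  have hnil : Group.IsNilpotent G := hP.isNilpotent
  have hnc : ¬ IsCyclic G := by
    intro h
    have h1 : (⊤ : Subgroup G).lowerCentralSeries 1 = ⊥ := comm_bot_of_cyclic h
    rw [Subgroup.lowerCentralSeries_eq_bot_iff_nilpotencyClass_le] at h1
    omega
  have h2 := Cfsg.Agent.Lib.H98KulMaxMod.two_le_mu hP hnc
  unfold Cfsg.Agent.Lib.Helper98KulDefs.mu at h2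
  have hnt := Finite.one_lt_card_iff_nontrivial.mp (lt_of_lt_of_le one_lt_two h2)
  obtain ⟨M₁, M₂, hne⟩ := hnt
  have hne' : M₁.1 ≠ M₂.1 := fun h => hne (Subtype.ext h)
  have hT : Cfsg.Agent.Lib.Helper98KulDefs.IsT p (M₁.1 ⊓ M₂.1) :=
    ⟨M₁.1, M₂.1, M₁.2.1, M₂.2.1, hne', rfl⟩
  have hTi := Cfsg.Agent.Lib.H98KulTCount.index_of_isT hP _ hT
  have n1 := Cfsg.Agent.Lib.H98KulMuMod.normal_of_index hP M₁.1 M₁.2.1
  have n2 := Cfsg.Agent.Lib.H98KulMuMod.normal_of_index hP M₂.1 M₂.2.1
  have hTL := part1 n hG hcl hn (M₁.1 ⊓ M₂.1) 2 le_rfl hTi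
  have hmu := Cfsg.Agent.Lib.H98KulTCount.mu_of_isT hP _ hT
  rw [← hmu]
  unfold Cfsg.Agent.Lib.Helper98KulDefs.mu
  apply Nat.card_congr
  apply Equiv.subtypeEquivRight
  intro M
  constructor
  · rintro ⟨hMn, hMi⟩
    refine ⟨hMi, ?_⟩
    rw [hTL]
    have hQ : Nat.card (G ⧸ M) = p := hMi
    have hcyc : IsCyclic (G ⧸ M) := isCyclic_of_prime_card hQ
    have hb : (⊤ : Subgroup (G ⧸ M)).lowerCentralSeries 1 = ⊥ := comm_bot_of_cyclic hcyc
    have h1 := map_lowerCentralSeries (⊤ : Subgroup G) (QuotientGroup.mk' M) 1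
    rw [Subgroup.map_top_of_surjective _ (QuotientGroup.mk'_surjective M), hb,
      Subgroup.map_eq_bot_iff, QuotientGroup.ker_mk'] at h1
    exact h1
  · rintro ⟨hMi, _⟩
    exact ⟨Cfsg.Agent.Lib.H98KulMuMod.normal_of_index hP M hMi, hMi⟩

end Cfsg.Agent.S0662
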