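import Cfsg.Statements.S0663
import Mathlib

set_option autoImplicit false
open Cfsg
open scoped commutatorElement

namespace Cfsg.Agent.S0663

variable {L : Type*} [Group L]

theorem card_mul_relIndex {H K : Subgroup L} (h : H ≤ K) :
    Nat.card H * H.relIndex K = Nat.card K := by
  have := Subgroup.relIndex_mul_relIndex ⊥ H K bot_le h
  simpa using this

theorem comm_ne [Finite L] {p : ℕ} [Fact p.Prime] (H G : Subgroup L) (hH : IsPGroup p H)
    (hG : IsPGroup p G) (hGH : G ≤ Subgroup.normalizer (H : Set L)) (h : ⁅H, G⁆ = H) : H = ⊥ := by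
  have hΓ : IsPGroup p (H ⊔ G : Subgroup L) := hH.to_sup_of_normal_left' hG hGH
  have hnil : Group.IsNilpotent (H ⊔ G : Subgroup L) := hΓ.isNilpotent
  obtain ⟨k, hk⟩ := (Subgroup.isNilpotent_iff_lowerCentralSeries _).1 hnil
  have key : ∀ k, H ≤ (H ⊔ G).lowerCentralSeries k := by
    intro k
    induction k with
    | zero => exact le_sup_left
    | succ k ih =>
      rw [Subgroup.lowerCentralSeries_succ]
      calc H = ⁅H, G⁆ := h.symm
        _ ≤ _ := Subgroup.commutator_mono ih le_sup_right
  exact le_bot_iff.1 (hk ▸ key k)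

theorem sandwich [Finite L] {p : ℕ} (hp : p.Prime) {A X B : Subgroup L} (h1 : A ≤ X) (h2 : X ≤ B)
    (hc : Nat.card B = Nat.card A * p) : X = A ∨ X = B := by
  have e1 := card_mul_relIndex h1
  have e2 := card_mul_relIndex h2
  have hA : 0 < Nat.card A := Nat.card_pos
  have key : A.relIndex X * X.relIndex B = p := by
    have : Nat.card A * (A.relIndex X * X.relIndex B) = Nat.card A * p := by
      rw [← mul_assoc, e1, e2, hc]
    exact Nat.eq_of_mul_eq_mul_left hA this
  rcases (Nat.Prime.eq_one_or_self_of_dvd hp _ ⟨_, key.symm⟩) with h | h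
  · left; exact le_antisymm (Subgroup.relIndex_eq_one.1 h) h1
  · right
    have : X.relIndex B = 1 := by
      rw [h] at key
      exact Nat.eq_of_mul_eq_mul_left hp.pos (by simpa using key)
    exact le_antisymm h2 (Subgroup.relIndex_eq_one.1 this)

section
variable (N G : Subgroup L)

theorem inv (hGN : G ≤ Subgroup.normalizer (N : Set L)) (i : ℕ) :
    G ≤ Subgroup.normalizer (iterCommutator N G i : Set L) := by
  cases i with
  | zero => exact hGN
  | succ i => exact Subgroup.normalizer_commutator_ge_right _ _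

theorem succ_le (hGN : G ≤ Subgroup.normalizer (N : Set L)) (i : ℕ) :
    iterCommutator N G (i+1) ≤ iterCommutator N G i :=
  Subgroup.le_normalizer_iff_commutator_le_left.1 (inv N G hGN i)

theorem anti (hGN : G ≤ Subgroup.normalizer (N : Set L)) : Antitone (iterCommutator N G) :=
  antitone_nat_of_succ_le (succ_le N G hGN)

theorem le_N (hGN : G ≤ Subgroup.normalizer (N : Set L)) (i : ℕ) :
    iterCommutator N G i ≤ N := anti N G hGN (Nat.zero_le i)

variable [Finite L] {p : ℕ} [Fact p.Prime]

omit [Finite L] in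
theorem ne_bot_of_card {H : Subgroup L} {k : ℕ} (hk : 0 < k) (h : Nat.card H = p ^ k) : H ≠ ⊥ := by
  intro h0
  rw [h0] at h
  simp at h
  have := Nat.one_lt_pow hk.ne' (Fact.out : p.Prime).one_lt
  omega

theorem Q_of_U (hGN : G ≤ Subgroup.normalizer (N : Set L)) (n : ℕ) (hn : Nat.card N = p ^ n)
    (U : ∀ H : Subgroup L, H ≤ N → G ≤ Subgroup.normalizer (H : Set L) → H ≠ ⊥ →
      (⁅H, G⁆).relIndex H = p) :
    ∀ i ≤ n, Nat.card (iterCommutator N G i) = p ^ (n - i) := by
  intro i
  induction i with
  | zero => intro _; exact hn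
  | succ i ih =>
    intro hi
    have h1 := ih (by omega)
    have hne : iterCommutator N G i ≠ ⊥ := ne_bot_of_card (p := p) (k := n - i) (by omega) h1
    have h2 := U _ (le_N N G hGN i) (inv N G hGN i) hne
    have h3 := card_mul_relIndex (succ_le N G hGN i)
    change Nat.card (iterCommutator N G (i+1)) * (⁅iterCommutator N G i, G⁆).relIndex _ = _ at h3
    rw [h2, h1] at h3
    have : n - i = (n - (i+1)) + 1 := by omega
    rw [this, pow_succ] at h3
    exact Nat.eq_of_mul_eq_mul_right (Fact.out : p.Prime).pos h3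

theorem Q_of_chain (hN : IsPGroup p N) (hG : IsPGroup p G)
    (hGN : G ≤ Subgroup.normalizer (N : Set L)) (n : ℕ) (hn : Nat.card N = p ^ n)
    (h : iterCommutator N G (n - 1) ≠ ⊥ ∨ n = 0) :
    ∀ i ≤ n, Nat.card (iterCommutator N G i) = p ^ (n - i) := by
  have hp : p.Prime := Fact.out
  have hP : ∀ i, IsPGroup p (iterCommutator N G i) := fun i => hN.to_le (le_N N G hGN i)
  have hex : ∀ i, ∃ e, Nat.card (iterCommutator N G i) = p ^ e := fun i =>
    IsPGroup.iff_card.1 (hP i)
  choose e he using hex
  have he0 : e 0 = n := by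
    have : p ^ e 0 = p ^ n := by rw [← he 0, ← hn]; rfl
    exact Nat.pow_right_injective hp.two_le this
  have hne : ∀ i < n, iterCommutator N G i ≠ ⊥ := by
    intro i hi h0
    rcases h with h | h
    · apply h
      have := anti N G hGN (show i ≤ n - 1 by omega)
      rw [h0] at this
      exact le_bot_iff.1 this
    · omega
  have hlt : ∀ i < n, e (i+1) < e i := by
    intro i hi
    by_contra hcon
    push Not at hcon
    apply hne i hi
    apply comm_ne _ G (hP i) hG (inv N G hGN i)
    apply Subgroup.eq_of_le_of_card_ge (succ_le N G hGN i)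
    rw [he, he]
    exact Nat.pow_le_pow_right hp.pos hcon
  have hup : ∀ i ≤ n, e i + i ≤ n := by
    intro i
    induction i with
    | zero => intro _; omega
    | succ i ih =>
      intro hi
      have := ih (by omega)
      have := hlt i (by omega)
      omega
  have hlo : ∀ j ≤ n, j ≤ e (n - j) := by
    intro j
    induction j with
    | zero => intro _; omega
    | succ j ih =>
      intro hj
      have h1 := ih (by omega)
      have h2 := hlt (n - (j+1)) (by omega)
      have h3 : n - (j+1) + 1 = n - j := by omega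
      rw [h3] at h2
      omega
  intro i hi
  rw [he]
  congr 1
  have h1 := hup i hi
  have h2 := hlo (n - i) (by omega)
  have h3 : n - (n - i) = i := by omega
  rw [h3] at h2
  omega

theorem key (hN : IsPGroup p N) (hG : IsPGroup p G)
    (hGN : G ≤ Subgroup.normalizer (N : Set L)) (n : ℕ)
    (Q : ∀ i ≤ n, Nat.card (iterCommutator N G i) = p ^ (n - i)) (i : ℕ) (hi : i < n)
    (hΓ : N ⊔ G ≤ Subgroup.normalizer (iterCommutator N G i : Set L)) :
    ⁅iterCommutator N G i, N ⊔ G⁆ = iterCommutator N G (i+1) := by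
  have hp : p.Prime := Fact.out
  have hc : Nat.card (iterCommutator N G i) = Nat.card (iterCommutator N G (i+1)) * p := by
    rw [Q i hi.le, Q (i+1) hi, ← pow_succ]
    congr 1
    omega
  have h1 : iterCommutator N G (i+1) ≤ ⁅iterCommutator N G i, N ⊔ G⁆ :=
    Subgroup.commutator_mono le_rfl le_sup_right
  have h2 : ⁅iterCommutator N G i, N ⊔ G⁆ ≤ iterCommutator N G i :=
    Subgroup.le_normalizer_iff_commutator_le_left.1 hΓ
  rcases sandwich hp h1 h2 hc with h | h
  · exact h
  · exfalso
    have hΓp : IsPGroup p (N ⊔ G : Subgroup L) := hN.to_sup_of_normal_left' hG hGN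
    have := comm_ne _ _ (hN.to_le (le_N N G hGN i)) hΓp hΓ h
    exact ne_bot_of_card (p := p) (k := n - i) (by omega) (Q i hi.le) this

theorem nor (hN : IsPGroup p N) (hG : IsPGroup p G)
    (hGN : G ≤ Subgroup.normalizer (N : Set L)) (n : ℕ)
    (Q : ∀ i ≤ n, Nat.card (iterCommutator N G i) = p ^ (n - i)) :
    ∀ i ≤ n, N ⊔ G ≤ Subgroup.normalizer (iterCommutator N G i : Set L) := by
  intro i
  induction i with
  | zero => intro _; exact sup_le Subgroup.le_normalizer hGN
  | succ i ih =>
    intro hi
    rw [← key N G hN hG hGN n Q i (by omega) (ih (by omega))]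
    exact Subgroup.normalizer_commutator_ge_right _ _

theorem main (hN : IsPGroup p N) (hG : IsPGroup p G)
    (hGN : G ≤ Subgroup.normalizer (N : Set L)) (n : ℕ)
    (Q : ∀ i ≤ n, Nat.card (iterCommutator N G i) = p ^ (n - i))
    (H : Subgroup L) (hHN : H ≤ N) (hGH : G ≤ Subgroup.normalizer (H : Set L)) :
    ∀ k i, i + k = n → H ≤ iterCommutator N G i → ∃ j ≤ n, H = iterCommutator N G j := by
  have hp : p.Prime := Fact.out
  have hbot : iterCommutator N G n = ⊥ := by
    apply Subgroup.eq_bot_of_card_eq
    rw [Q n le_rfl]; simp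
  intro k
  induction k with
  | zero =>
    intro i hi hH
    have : i = n := by omega
    subst this
    refine ⟨i, le_rfl, ?_⟩
    rw [hbot] at hH ⊢
    exact le_bot_iff.1 hH
  | succ k ih =>
    intro i hi hH
    by_cases hH' : H ≤ iterCommutator N G (i+1)
    · exact ih (i+1) (by omega) hH'
    · refine ⟨i, by omega, le_antisymm hH ?_⟩
      have hc : Nat.card (iterCommutator N G i) = Nat.card (iterCommutator N G (i+1)) * p := by
        rw [Q i (by omega), Q (i+1) (by omega), ← pow_succ]
        congr 1
        omega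
      have hs : H ⊔ iterCommutator N G (i+1) = iterCommutator N G i := by
        rcases sandwich hp (le_sup_right : _ ≤ H ⊔ iterCommutator N G (i+1))
          (sup_le hH (succ_le N G hGN i)) hc with h | h
        · exact absurd (h ▸ le_sup_left) hH'
        · exact h
      have claim : ∀ m, i + 1 + m ≤ n → iterCommutator N G i ≤ H ⊔ iterCommutator N G (i+1+m) := by
        intro m
        induction m with
        | zero => intro _; exact hs.ge
        | succ m ihm =>
          intro hm
          have h1 := ihm (by omega)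
          have h2 : iterCommutator N G (i+1) ≤ H ⊔ iterCommutator N G (i+1+(m+1)) := by
            change ⁅iterCommutator N G i, G⁆ ≤ _
            rw [Subgroup.commutator_le]
            intro x hx g hg
            have hx' := h1 hx
            have hnor : H ≤ Subgroup.normalizer (iterCommutator N G (i+1+m) : Set L) :=
              (hHN.trans le_sup_left).trans (nor N G hN hG hGN n Q _ (by omega))
            rw [← SetLike.mem_coe, Subgroup.coe_mul_of_left_le_normalizer_right _ _ hnor] at hx'
            obtain ⟨h, hh, y, hy, rfl⟩ := hx'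
            rw [commutatorElement_mul_left_eq_conj_mul]
            have hhM : h ∈ H ⊔ iterCommutator N G (i+1+(m+1)) := Subgroup.mem_sup_left hh
            have hyM : ⁅y, g⁆ ∈ H ⊔ iterCommutator N G (i+1+(m+1)) :=
              Subgroup.mem_sup_right (Subgroup.commutator_mem_commutator hy hg)
            have hgM : ⁅h, g⁆ ∈ H ⊔ iterCommutator N G (i+1+(m+1)) :=
              Subgroup.mem_sup_left (Subgroup.le_normalizer_iff_commutator_le_left.1 hGH
                (Subgroup.commutator_mem_commutator hh hg))
            exact mul_mem (mul_mem (mul_mem hhM hyM) (inv_mem hhM)) hgM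
          rw [← hs]
          exact sup_le le_sup_left h2
      have := claim k (by omega)
      have e : i + 1 + k = n := by omega
      rw [e, hbot, sup_bot_eq] at this
      exact this

theorem U_of_Q (hN : IsPGroup p N) (hG : IsPGroup p G)
    (hGN : G ≤ Subgroup.normalizer (N : Set L)) (n : ℕ)
    (Q : ∀ i ≤ n, Nat.card (iterCommutator N G i) = p ^ (n - i))
    (H : Subgroup L) (hHN : H ≤ N) (hGH : G ≤ Subgroup.normalizer (H : Set L)) (hne : H ≠ ⊥) :
    (⁅H, G⁆).relIndex H = p := by
  have hp : p.Prime := Fact.out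
  obtain ⟨j, hj, rfl⟩ := main N G hN hG hGN n Q H hHN hGH n 0 (by omega) hHN
  have hjn : j ≠ n := by
    rintro rfl
    apply hne
    apply Subgroup.eq_bot_of_card_eq
    rw [Q j le_rfl]; simp
  have h3 := card_mul_relIndex (succ_le N G hGN j)
  rw [Q j hj, Q (j+1) (by omega)] at h3
  have e : n - j = (n - (j+1)) + 1 := by omega
  rw [e, pow_succ] at h3
  exact Nat.eq_of_mul_eq_mul_left (pow_pos hp.pos _) h3

end

/-- A p-group acts uniserially on a p-group N of order p^n exactly when the iterated commutator chain from N has length n; in that case the chain terms are all the invariant subgroups of N and they are normal in N. -/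
theorem result {L : Type*} [Group L] [Finite L] {p : ℕ} [Fact p.Prime] (N G : Subgroup L) (hN : IsPGroup p N) (hG : IsPGroup p G) (hGN : G ≤ Subgroup.normalizer (N : Set L)) (n : ℕ) (hn : Nat.card N = p ^ n) : ((∀ H : Subgroup L, H ≤ N → G ≤ Subgroup.normalizer (H : Set L) → H ≠ ⊥ → (⁅H, G⁆).relIndex H = p) ↔ Cfsg.iterCommutator N G (n - 1) ≠ ⊥ ∨ n = 0) ∧ ((∀ H : Subgroup L, H ≤ N → G ≤ Subgroup.normalizer (H : Set L) → H ≠ ⊥ → (⁅H, G⁆).relIndex H = p) → ∀ H : Subgroup L, H ≤ N → G ≤ Subgroup.normalizer (H : Set L) → (∃ i ≤ n, H = Cfsg.iterCommutator N G i) ∧ N ≤ Subgroup.normalizer (H : Set L)) := by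
  refine ⟨⟨fun U => ?_, fun h H hHN hGH hne =>
    U_of_Q N G hN hG hGN n (Q_of_chain N G hN hG hGN n hn h) H hHN hGH hne⟩, fun U H hHN hGH => ?_⟩
  · have Q := Q_of_U N G hGN n hn U
    by_cases h0 : n = 0
    · exact Or.inr h0
    · left
      exact ne_bot_of_card (p := p) (k := n - (n - 1)) (by omega) (Q (n-1) (by omega))
  · have Q := Q_of_U N G hGN n hn U
    obtain ⟨j, hj, rfl⟩ := main N G hN hG hGN n Q H hHN hGH n 0 (by omega) hHN
    exact ⟨⟨j, hj, rfl⟩, le_sup_left.trans (nor N G hN hG hGN n Q j hj)⟩

end Cfsg.Agent.S0663
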