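import Mathlib
import Cfsg.Statements.S0668

set_option autoImplicit false
open Cfsg
namespace Cfsg.Agent.S0668

theorem permRep_single {G : Type*} [Group G] {K : Type*} [Field K] {Ω : Type*} [DecidableEq Ω]
    [MulAction G Ω] (g : G) (x : Ω) :
    Cfsg.permRep K G Ω g (Pi.single x 1) = Pi.single (g • x) 1 := by
  funext z
  change (Pi.single x (1 : K) : Ω → K) (g⁻¹ • z) = (Pi.single (g • x) (1 : K) : Ω → K) z
  by_cases h : z = g • x
  · subst h
    simp
  · rw [Pi.single_eq_of_ne h, Pi.single_eq_of_ne]
    intro h2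
    apply h
    rw [← h2, smul_inv_smul]

/-- The equivariant linear maps between the permutation modules of two finite `G`-sets form a space whose dimension is the number of `G`-orbits on the product of the two sets. -/
theorem result {G : Type*} [Group G] {K : Type*} [Field K] {Ω₁ Ω₂ : Type*} [Fintype Ω₁] [Fintype Ω₂] [MulAction G Ω₁] [MulAction G Ω₂] : Module.finrank K ((Cfsg.permRep K G Ω₁).linHom (Cfsg.permRep K G Ω₂)).invariants = Nat.card (MulAction.orbitRel.Quotient G (Ω₁ × Ω₂)) := by
  classical
  haveI : Fintype (MulAction.orbitRel.Quotient G (Ω₁ × Ω₂)) := Fintype.ofFinite _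
  let Ψ : (MulAction.orbitRel.Quotient G (Ω₁ × Ω₂) → K) →ₗ[K] Matrix Ω₂ Ω₁ K :=
    { toFun := fun c => Matrix.of fun y x => c (Quotient.mk'' (x, y))
      map_add' := fun c d => rfl
      map_smul' := fun a c => rfl }
  let Φ : (MulAction.orbitRel.Quotient G (Ω₁ × Ω₂) → K) →ₗ[K] ((Ω₁ → K) →ₗ[K] (Ω₂ → K)) :=
    (Matrix.toLin' : Matrix Ω₂ Ω₁ K ≃ₗ[K] _).toLinearMap ∘ₗ Ψ
  have hΦ : ∀ c x y, Φ c (Pi.single x 1) y = c (Quotient.mk'' (x, y)) := by
    intro c x y
    change (Matrix.toLin' (Ψ c)) (Pi.single x 1) y = _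
    rw [Matrix.toLin'_apply, Matrix.mulVec_single_one]
    rfl
  have hinj : Function.Injective Φ := by
    intro c d h
    funext z
    induction z using Quotient.inductionOn' with
    | h a =>
      obtain ⟨x, y⟩ := a
      rw [← hΦ c x y, ← hΦ d x y, h]
  have hmem : ∀ T : (Ω₁ → K) →ₗ[K] (Ω₂ → K),
      T ∈ ((Cfsg.permRep K G Ω₁).linHom (Cfsg.permRep K G Ω₂)).invariants ↔
        ∀ (g : G) x y, T (Pi.single (g • x) 1) (g • y) = T (Pi.single x 1) y := by
    intro T
    rw [Representation.mem_invariants]
    constructor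
    · intro h g x y
      have h1 := h g⁻¹
      rw [Representation.linHom_apply] at h1
      have h2 := congrArg (fun S : (Ω₁ → K) →ₗ[K] (Ω₂ → K) => S (Pi.single x 1) y) h1
      simp only [LinearMap.comp_apply, inv_inv, permRep_single] at h2
      rw [← h2]
      change _ = T (Pi.single (g • x) 1) ((g⁻¹)⁻¹ • y)
      rw [inv_inv]
    · intro h g
      rw [Representation.linHom_apply]
      apply LinearMap.pi_ext'
      intro x
      apply LinearMap.ext_ring
      funext y
      simp only [LinearMap.comp_apply, LinearMap.single_apply, permRep_single]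
      change T (Pi.single (g⁻¹ • x) 1) (g⁻¹ • y) = _
      rw [h]
  have hrange : LinearMap.range Φ = ((Cfsg.permRep K G Ω₁).linHom (Cfsg.permRep K G Ω₂)).invariants := by
    ext T
    rw [hmem]
    constructor
    · rintro ⟨c, rfl⟩ g x y
      rw [hΦ, hΦ]
      congr 1
      apply Quotient.sound'
      exact ⟨g, rfl⟩
    · intro h
      refine ⟨fun z => Quotient.liftOn' z (fun a => T (Pi.single a.1 1) a.2) ?_, ?_⟩
      · rintro ⟨x, y⟩ ⟨x', y'⟩ ⟨g, hg⟩
        have hx : g • x' = x := congrArg Prod.fst hg
        have hy : g • y' = y := congrArg Prod.snd hg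
        change T (Pi.single x 1) y = T (Pi.single x' 1) y'
        rw [← hx, ← hy, h]
      · apply LinearMap.pi_ext'
        intro x
        apply LinearMap.ext_ring
        funext y
        simp only [LinearMap.comp_apply, LinearMap.single_apply]
        rw [hΦ]
        rfl
  rw [← hrange, LinearMap.finrank_range_of_inj hinj, Module.finrank_fintype_fun_eq_card,
    Nat.card_eq_fintype_card]

end Cfsg.Agent.S0668
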