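import Cfsg.Statements.S0669
import Mathlib

set_option autoImplicit false
open Cfsg

namespace Cfsg.Agent.S0669

/-- The rank of a transitive action: orbits on ordered pairs correspond to orbits of a point stabiliser. -/
theorem result {G : Type*} [Group G] {Ω : Type*} [Finite Ω] [MulAction G Ω] [MulAction.IsPretransitive G Ω] (a : Ω) : Nat.card (MulAction.orbitRel.Quotient G (Ω × Ω)) = Nat.card (MulAction.orbitRel.Quotient (MulAction.stabilizer G a) Ω) := by
  symm
  let f : MulAction.orbitRel.Quotient (MulAction.stabilizer G a) Ω → MulAction.orbitRel.Quotient G (Ω × Ω) :=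
    Quotient.map' (s₁ := MulAction.orbitRel (MulAction.stabilizer G a) Ω) (s₂ := MulAction.orbitRel G (Ω × Ω)) (fun b => (a, b)) (by
      intro b b' h
      rw [MulAction.orbitRel_apply] at h ⊢
      obtain ⟨g, hg⟩ := h
      refine ⟨g.1, ?_⟩
      have h1 : g.1 • a = a := g.2
      have h2 : g.1 • b' = b := hg
      simp [Prod.smul_mk, h1, h2])
  apply Nat.card_congr
  refine Equiv.ofBijective f ⟨?_, ?_⟩
  · intro x y
    induction x using Quotient.inductionOn'
    induction y using Quotient.inductionOn'
    rename_i b b'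
    intro h
    have h' := Quotient.exact' h
    apply Quotient.sound'
    rw [MulAction.orbitRel_apply] at h' ⊢
    obtain ⟨g, hg⟩ := h'
    simp only [Prod.smul_mk, Prod.mk.injEq] at hg
    exact ⟨⟨g, hg.1⟩, hg.2⟩
  · intro x
    induction x using Quotient.inductionOn'
    rename_i xy
    obtain ⟨x, y⟩ := xy
    obtain ⟨g, hg⟩ := MulAction.exists_smul_eq G x a
    refine ⟨Quotient.mk'' (g • y), ?_⟩
    apply Quotient.sound'
    rw [MulAction.orbitRel_apply]
    exact ⟨g, by simp [Prod.smul_mk, hg]⟩

end Cfsg.Agent.S0669
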