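import Cfsg.Statements.S0672

set_option autoImplicit false
open Cfsg
open scoped Pointwise

namespace Cfsg.Agent.S0672

theorem three_trans {G Ω : Type*} [Group G] [Finite G] [MulAction G Ω] [FaithfulSMul G Ω]
    (h2 : MulAction.IsMultiplyPretransitive G Ω 2)
    (heven : ∀ a : Ω, Even (Nat.card (MulAction.stabilizer G a)))
    (hstar : ∀ x y a₁ a₂ : Ω, x ≠ y → a₁ ≠ x → a₁ ≠ y → a₂ ≠ x → a₂ ≠ y →
      ∃ g : G, g • a₁ = a₂ ∧ ((g • x = x ∧ g • y = y) ∨ (g • x = y ∧ g • y = x))) :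
    MulAction.IsMultiplyPretransitive G Ω 3 := by
  by_cases hne : Nonempty Ω
  swap
  · exact ⟨fun x => (hne ⟨x 0⟩).elim⟩
  obtain ⟨a⟩ := hne
  have : MulAction.IsPretransitive G Ω := MulAction.isPretransitive_of_is_two_pretransitive
  rw [show (3 : ℕ) = Nat.succ 2 from rfl,
    SubMulAction.ofStabilizer.isMultiplyPretransitive (a := a)]
  rw [MulAction.is_two_pretransitive_iff]
  obtain ⟨⟨u, hua⟩, hu⟩ := exists_prime_orderOf_dvd_card' 2 (even_iff_two_dvd.1 (heven a))
  have hu2 : orderOf u = 2 := by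
    rw [← hu]; exact (Subgroup.orderOf_mk u hua).symm
  have hu1 : u ≠ 1 := by
    rintro rfl
    rw [orderOf_one] at hu2; omega
  have huu : u * u = 1 := by
    rw [← sq, ← hu2]; exact pow_orderOf_eq_one u
  obtain ⟨b, hb⟩ : ∃ b : Ω, u • b ≠ b := by
    by_contra hcon
    push Not at hcon
    exact hu1 (FaithfulSMul.eq_of_smul_eq_smul (α := Ω) (by simpa using hcon))
  have hua' : u • a = a := hua
  obtain ⟨c, hc⟩ : ∃ c, c = u • b := ⟨_, rfl⟩
  have huc : u • c = b := by rw [hc, ← mul_smul, huu, one_smul]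
  have hbc : b ≠ c := fun h => hb (by rw [← hc, ← h])
  have hba : b ≠ a := by
    rintro rfl
    exact hb hua'
  have hca : c ≠ a := by
    rintro rfl
    apply hba
    rw [← huc, hua']
  have h2' : ∀ a b c d : Ω, a ≠ b → c ≠ d → ∃ g : G, g • a = c ∧ g • b = d :=
    fun a b c d h h' => (MulAction.is_two_pretransitive_iff.1 h2) h h'
  have key : ∀ x y : Ω, x ≠ y → x ≠ a → y ≠ a → ∃ g : G, g • a = a ∧ g • b = x ∧ g • c = y := by
    intro x y hxy hxa hya
    obtain ⟨k, hk1, hk2⟩ := h2' _ _ _ _ hbc hxy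
    have h3 : k • a ≠ x := by
      rw [← hk1]; exact fun h => hba (MulAction.injective k h).symm
    have h4 : k • a ≠ y := by
      rw [← hk2]; exact fun h => hca (MulAction.injective k h).symm
    obtain ⟨g', hg', hor⟩ := hstar x y (k • a) a hxy h3 h4 hxa.symm hya.symm
    rcases hor with ⟨h5, h6⟩ | ⟨h5, h6⟩
    · refine ⟨g' * k, ?_, ?_, ?_⟩
      · rw [mul_smul, hg']
      · rw [mul_smul, hk1, h5]
      · rw [mul_smul, hk2, h6]
    · refine ⟨g' * k * u, ?_, ?_, ?_⟩
      · rw [mul_smul, mul_smul, hua', hg']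
      · rw [mul_smul, mul_smul, ← hc, hk2, h6]
      · rw [mul_smul, mul_smul, huc, hk1, h5]
  rintro ⟨x, hx⟩ ⟨y, hy⟩ ⟨z, hz⟩ ⟨w, hw⟩ hxy hzw
  obtain ⟨g₁, h11, h12, h13⟩ := key x y (fun h => hxy (Subtype.ext h)) hx hy
  obtain ⟨g₂, h21, h22, h23⟩ := key z w (fun h => hzw (Subtype.ext h)) hz hw
  have hmem : g₂ * g₁⁻¹ ∈ MulAction.stabilizer G a := by
    rw [MulAction.mem_stabilizer_iff, mul_smul, inv_smul_eq_iff.2 h11.symm, h21]
  refine ⟨⟨g₂ * g₁⁻¹, hmem⟩, Subtype.ext ?_, Subtype.ext ?_⟩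
  · show (g₂ * g₁⁻¹) • x = z
    rw [mul_smul, inv_smul_eq_iff.2 h12.symm, h22]
  · show (g₂ * g₁⁻¹) • y = w
    rw [mul_smul, inv_smul_eq_iff.2 h13.symm, h23]

theorem kernel_const {G : Type*} [Group G] {K : Type*} [Field K] {Ω : Type*} [Fintype Ω]
    [DecidableEq Ω] [MulAction G Ω]
    (h : ∀ f : Representation.IntertwiningMap (Cfsg.permSumZero K G Ω).toRepresentation (Cfsg.permRep K G (Set.powersetCard Ω 2)), (∀ v : (Cfsg.permSumZero K G Ω).toSubmodule, (v : Ω → K) ∈ (Cfsg.permConstants K G Ω).toSubmodule → f v = 0) → f = 0)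
    (κ : Ω → Set.powersetCard Ω 2 → K) (hinv : ∀ (g : G) a B, κ (g • a) (g • B) = κ a B)
    (hsum : ∀ B, ∑ a, κ a B = 0) (a a' : Ω) (B : Set.powersetCard Ω 2) : κ a B = κ a' B := by
  let T : (Ω → K) →ₗ[K] (Set.powersetCard Ω 2 → K) :=
    { toFun := fun v B => ∑ a, κ a B * v a
      map_add' := by intro v w; ext B; simp [mul_add, Finset.sum_add_distrib]
      map_smul' := by intro c v; ext B; simp [Finset.mul_sum, mul_left_comm] }
  have hT : ∀ v B, T v B = ∑ a, κ a B * v a := fun v B => rfl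
  let f : Representation.IntertwiningMap (Cfsg.permSumZero K G Ω).toRepresentation
      (Cfsg.permRep K G (Set.powersetCard Ω 2)) :=
    ⟨T.comp (Cfsg.permSumZero K G Ω).toSubmodule.subtype, by
      intro g
      ext v B
      show T (fun x => (v : Ω → K) (g⁻¹ • x)) B = T (v : Ω → K) (g⁻¹ • B)
      rw [hT, hT]
      apply Fintype.sum_equiv (MulAction.toPerm g⁻¹)
      intro x
      rw [MulAction.toPerm_apply, hinv]⟩
  have hf : ∀ v : (Cfsg.permSumZero K G Ω).toSubmodule, f v = T (v : Ω → K) := fun v => rfl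
  have h0 := h f (by
    intro v hv
    obtain ⟨c, hc⟩ := Submodule.mem_span_singleton.1 hv
    rw [hf, ← hc]
    ext B
    rw [hT]
    simp only [Pi.smul_apply, smul_eq_mul, mul_one, Pi.zero_apply]
    rw [← Finset.sum_mul, hsum, zero_mul])
  have hv : (Pi.single a 1 - Pi.single a' 1 : Ω → K) ∈ (Cfsg.permSumZero K G Ω).toSubmodule := by
    change ∑ z, (Pi.single a 1 - Pi.single a' 1 : Ω → K) z = 0
    simp only [Pi.sub_apply, Finset.sum_sub_distrib, Finset.sum_pi_single']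
    simp
  have h1 : f ⟨_, hv⟩ = 0 := by rw [h0]; rfl
  rw [hf] at h1
  have h2 := congrFun h1 B
  rw [hT] at h2
  simp only [Pi.sub_apply, mul_sub, Finset.sum_sub_distrib, Pi.zero_apply] at h2
  simp only [Pi.single_apply, mul_ite, mul_one, mul_zero, Finset.sum_ite_eq', Finset.mem_univ,
    if_true] at h2
  exact sub_eq_zero.1 h2

/-- Let a finite group act faithfully and doubly transitively with point stabilisers of even order, and let `K` have characteristic `p` dividing the degree. If the heart of the permutation module admits no non-zero equivariant map to the permutation module on unordered pairs (phrased: every intertwining map from the sum-zero functions vanishing on the constants is zero), the action is triply transitive. -/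
theorem result {G : Type*} [Group G] [Finite G] {K : Type*} [Field K] {p : ℕ} [Fact p.Prime] [CharP K p] {Ω : Type*} [Fintype Ω] [DecidableEq Ω] [MulAction G Ω] [FaithfulSMul G Ω] (h2 : MulAction.IsMultiplyPretransitive G Ω 2) (hp : p ∣ Fintype.card Ω) (heven : ∀ a : Ω, Even (Nat.card (MulAction.stabilizer G a))) (h : ∀ f : Representation.IntertwiningMap (Cfsg.permSumZero K G Ω).toRepresentation (Cfsg.permRep K G (Set.powersetCard Ω 2)), (∀ v : (Cfsg.permSumZero K G Ω).toSubmodule, (v : Ω → K) ∈ (Cfsg.permConstants K G Ω).toSubmodule → f v = 0) → f = 0) : MulAction.IsMultiplyPretransitive G Ω 3 := by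
  classical
  apply three_trans h2 heven
  intro x y a₁ a₂ hxy h1x h1y h2x h2y
  let B₁ : Set.powersetCard Ω 2 := ⟨{x, y}, Finset.card_pair hxy⟩
  have hB₁ : (B₁ : Finset Ω) = {x, y} := rfl
  let Δ : Ω → Set.powersetCard Ω 2 → Prop := fun a B => ∃ g : G, g • a₁ = a ∧ g • B₁ = B
  have hΔmem : ∀ a B, Δ a B → a ∉ (B : Finset Ω) := by
    rintro a B ⟨g, rfl, rfl⟩
    rw [Set.powersetCard.coe_smul, Finset.smul_mem_smul_finset_iff, hB₁]
    simp [h1x, h1y]
  have hΔ : Δ a₂ B₁ := by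
    by_contra hcon
    obtain ⟨m₀, hm₀⟩ : ∃ m₀ : K, m₀ = ∑ a, (if a ∈ (B₁ : Finset Ω) then 1 else 0) := ⟨_, rfl⟩
    obtain ⟨m₁, hm₁⟩ : ∃ m₁ : K, m₁ = ∑ a, (if Δ a B₁ then 1 else 0) := ⟨_, rfl⟩
    obtain ⟨c₀, c₁, hne, hc⟩ : ∃ c₀ c₁ : K, (c₀ ≠ 0 ∨ c₁ ≠ 0) ∧ c₀ * m₀ + c₁ * m₁ = 0 := by
      by_cases hm : m₁ = 0 ∧ m₀ = 0
      · exact ⟨1, 0, Or.inl one_ne_zero, by rw [hm.2]; ring⟩
      · refine ⟨m₁, -m₀, ?_, by ring⟩
        by_contra hcon
        push Not at hcon
        exact hm ⟨hcon.1, neg_eq_zero.1 hcon.2⟩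
    let κ : Ω → Set.powersetCard Ω 2 → K := fun a B =>
      c₀ * (if a ∈ (B : Finset Ω) then 1 else 0) + c₁ * (if Δ a B then 1 else 0)
    have hκ : ∀ a B, κ a B =
      c₀ * (if a ∈ (B : Finset Ω) then 1 else 0) + c₁ * (if Δ a B then 1 else 0) :=
      fun a B => rfl
    have hinv : ∀ (g : G) a B, κ (g • a) (g • B) = κ a B := by
      intro g a B
      have e1 : (g • a ∈ ((g • B : Set.powersetCard Ω 2) : Finset Ω)) ↔ a ∈ (B : Finset Ω) := by
        rw [Set.powersetCard.coe_smul, Finset.smul_mem_smul_finset_iff]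
      have e2 : Δ (g • a) (g • B) ↔ Δ a B := by
        constructor
        · rintro ⟨k, hk1, hk2⟩
          refine ⟨g⁻¹ * k, ?_, ?_⟩
          · rw [mul_smul, hk1, inv_smul_smul]
          · rw [mul_smul, hk2, inv_smul_smul]
        · rintro ⟨k, rfl, rfl⟩
          exact ⟨g * k, mul_smul _ _ _, mul_smul _ _ _⟩
      rw [hκ, hκ]
      simp only [e1, e2]
    have hsum1 : ∑ a, κ a B₁ = 0 := by
      simp only [hκ, Finset.sum_add_distrib, ← Finset.mul_sum]
      rw [← hm₀, ← hm₁, hc]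
    have htr : MulAction.IsPretransitive G (Set.powersetCard Ω 2) :=
      Set.powersetCard.isPretransitive_of_isMultiplyPretransitive G h2
    have hsum : ∀ B, ∑ a, κ a B = 0 := by
      intro B
      obtain ⟨g, rfl⟩ := MulAction.exists_smul_eq G B₁ B
      rw [← hsum1]
      exact (Fintype.sum_equiv (MulAction.toPerm g) _ _ (fun a => (hinv g a B₁).symm)).symm
    have hK := kernel_const h κ hinv hsum
    have e1 : κ x B₁ = c₀ := by
      have h3 : x ∈ (B₁ : Finset Ω) := by rw [hB₁]; simp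
      rw [hκ, if_pos h3, if_neg (fun h4 => hΔmem _ _ h4 h3)]; ring
    have e2 : κ a₁ B₁ = c₁ := by
      have h3 : a₁ ∉ (B₁ : Finset Ω) := by rw [hB₁]; simp [h1x, h1y]
      rw [hκ, if_neg h3, if_pos ⟨1, one_smul _ _, one_smul _ _⟩]; ring
    have e3 : κ a₂ B₁ = 0 := by
      have h3 : a₂ ∉ (B₁ : Finset Ω) := by rw [hB₁]; simp [h2x, h2y]
      rw [hκ, if_neg h3, if_neg hcon]; ring
    rcases hne with h0 | h0
    · exact h0 (by rw [← e1, hK x a₂ B₁, e3])
    · exact h0 (by rw [← e2, hK a₁ a₂ B₁, e3])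
  obtain ⟨g, hg1, hg2⟩ := hΔ
  refine ⟨g, hg1, ?_⟩
  have h3 : g • ({x, y} : Finset Ω) = {x, y} := by
    have := congrArg Subtype.val hg2
    rwa [Set.powersetCard.coe_smul] at this
  have hx : g • x ∈ ({x, y} : Finset Ω) := by
    rw [← h3]; exact Finset.smul_mem_smul_finset (by simp)
  have hy : g • y ∈ ({x, y} : Finset Ω) := by
    rw [← h3]; exact Finset.smul_mem_smul_finset (by simp)
  simp only [Finset.mem_insert, Finset.mem_singleton] at hx hy
  have hinj : g • x ≠ g • y := fun h4 => hxy (MulAction.injective g h4)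
  rcases hx with hx | hx <;> rcases hy with hy | hy
  · exact absurd (hx.trans hy.symm) hinj
  · exact Or.inl ⟨hx, hy⟩
  · exact Or.inr ⟨hx, hy⟩
  · exact absurd (hx.trans hy.symm) hinj

end Cfsg.Agent.S0672
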