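import Cfsg.Statements.S0676
import Cfsg.Agent.S0672
import Cfsg.Agent.S0675
import Cfsg.Agent.Lib.Helper75PrimeDegD

set_option autoImplicit false
open Cfsg
open scoped Pointwise

namespace Cfsg.Agent.S0676

open Cfsg.Agent.Lib.Helper75PrimeDeg in
/-- A non-solvable transitive permutation group of prime degree `p` whose Sylow `p`-normaliser has even order is triply transitive. -/
theorem result {α : Type*} [Fintype α] [DecidableEq α] {p : ℕ} [Fact p.Prime] (hα : Fintype.card α = p) (G : Subgroup (Equiv.Perm α)) [MulAction.IsPretransitive G α] (hG : ¬ Group.IsSolvable G) (P : Sylow p G) (heven : Even (Nat.card (Subgroup.normalizer ((P : Subgroup G) : Set G)))) : MulAction.IsMultiplyPretransitive G α 3 := by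
  have hp := (Fact.out : p.Prime)
  have h2t : MulAction.IsMultiplyPretransitive G α 2 :=
    (Cfsg.Agent.S0675.result (hα ▸ hp) G).resolve_left hG
  have hp2 : p ≠ 2 := by
    rintro rfl
    apply hG
    have hfact : Nat.card G ∣ (2 : ℕ).factorial := by
      rw [← hα, ← Fintype.card_perm, ← Nat.card_eq_fintype_card]
      exact Subgroup.card_subgroup_dvd_card _
    have h3 : Nat.card G ∣ 2 ^ 1 := by simpa using hfact
    obtain ⟨k, -, hk⟩ := (Nat.dvd_prime_pow Nat.prime_two).1 h3
    have h4 : Group.IsNilpotent G := (IsPGroup.of_card hk).isNilpotent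
    infer_instance
  obtain ⟨σ, hσ, e, he, u, hu, b, hub⟩ := exists_coord_invol hα hp2 G P heven
  have h2ne := two_ne_zero_of_ne hp2
  have hpow := coord_pow he
  apply Cfsg.Agent.S0672.result (G := G) (K := ZMod p) (p := p) h2t (by rw [hα])
  · -- even stabilizers
    intro a
    have hstab : ∀ a : α, Nat.card (MulAction.stabilizer G a) * p = Nat.card G := by
      intro a
      have h4 := MulAction.index_stabilizer_of_transitive G a
      rw [Nat.card_eq_fintype_card, hα] at h4
      rw [← h4]; exact Subgroup.card_mul_index _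
    have h3 : Nat.card (MulAction.stabilizer G a) =
        Nat.card (MulAction.stabilizer G (e.symm (b / 2))) :=
      Nat.eq_of_mul_eq_mul_right hp.pos ((hstab a).trans (hstab _).symm)
    rw [h3, even_iff_two_dvd]
    have hmem : (⟨u, hu⟩ : G) ∈ MulAction.stabilizer G (e.symm (b / 2)) := by
      rw [MulAction.mem_stabilizer_iff]
      show u (e.symm (b / 2)) = e.symm (b / 2)
      rw [Equiv.eq_symm_apply, hub, Equiv.apply_symm_apply]
      field_simp
      ring
    have hord : orderOf (⟨⟨u, hu⟩, hmem⟩ : MulAction.stabilizer G (e.symm (b / 2))) = 2 := by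
      apply orderOf_eq_prime
      · apply Subtype.ext
        apply Subtype.ext
        ext x
        show (u ^ 2) x = x
        apply e.injective
        rw [sq, Equiv.Perm.mul_apply, hub, hub]; ring
      · intro h
        have h5 : u = 1 := congrArg (fun z : MulAction.stabilizer G (e.symm (b / 2)) =>
          ((z : G) : Equiv.Perm α)) h
        have h6 := hub (e.symm (b / 2 + 1))
        rw [h5, Equiv.Perm.one_apply, Equiv.apply_symm_apply] at h6
        apply h2ne
        have h7 : b / 2 * 2 = b := by field_simp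
        linear_combination h6 - h7
    rw [← hord]
    exact orderOf_dvd_natCard _
  · intro f hf
    have hSmem : ∀ v : α → ZMod p, v ∈ (Cfsg.permSumZero (ZMod p) G α).toSubmodule ↔
        ∑ x, v x = 0 := fun v => Iff.rfl
    -- equivariance
    have hE : ∀ (g : G) (v : α → ZMod p)
        (hv : v ∈ (Cfsg.permSumZero (ZMod p) G α).toSubmodule),
        ∃ hv' : (fun x => v (g • x)) ∈ (Cfsg.permSumZero (ZMod p) G α).toSubmodule,
          ∀ B, f ⟨_, hv'⟩ B = f ⟨v, hv⟩ (g • B) := by
      intro g v hv
      have h3 := f.isIntertwining _ _ g⁻¹ ⟨v, hv⟩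
      have h4 : (Cfsg.permRep (ZMod p) G α g⁻¹) v = fun x => v (g • x) := by
        ext x
        show v (g⁻¹⁻¹ • x) = v (g • x)
        rw [inv_inv]
      have hv' : (fun x => v (g • x)) ∈ (Cfsg.permSumZero (ZMod p) G α).toSubmodule := by
        rw [← h4]
        exact (Cfsg.permSumZero (ZMod p) G α).apply_mem_toSubmodule g⁻¹ hv
      refine ⟨hv', fun B => ?_⟩
      have h5 : (Cfsg.permSumZero (ZMod p) G α).toRepresentation g⁻¹ ⟨v, hv⟩ = ⟨_, hv'⟩ :=
        Subtype.ext h4
      rw [h5] at h3
      rw [h3]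
      show f ⟨v, hv⟩ (g⁻¹⁻¹ • B) = _
      rw [inv_inv]
    -- constants
    have hconst : ∀ c : ZMod p, ∃ hc : (fun _ => c : α → ZMod p) ∈
        (Cfsg.permSumZero (ZMod p) G α).toSubmodule, f ⟨_, hc⟩ = 0 := by
      intro c
      have hc : (fun _ => c : α → ZMod p) ∈ (Cfsg.permSumZero (ZMod p) G α).toSubmodule := by
        rw [hSmem, Finset.sum_const, Finset.card_univ, hα]
        simp
      refine ⟨hc, hf _ ?_⟩
      exact Submodule.mem_span_singleton.2 ⟨c, by ext x; simp⟩
    -- the coordinate function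
    have hv₁ : (fun x => e x : α → ZMod p) ∈ (Cfsg.permSumZero (ZMod p) G α).toSubmodule := by
      rw [hSmem, Equiv.sum_comp e (fun j => j)]
      have h3 : ∑ j : ZMod p, j = ∑ j : ZMod p, -j :=
        (Equiv.sum_comp (Equiv.neg (ZMod p)) (fun j => j)).symm
      rw [Finset.sum_neg_distrib] at h3
      have h4 : 2 * ∑ j : ZMod p, j = 0 := by linear_combination h3
      exact (mul_eq_zero.1 h4).resolve_left h2ne
    have hF1 : ∀ B, f ⟨_, hv₁⟩ ((⟨σ, hσ⟩ : G) • B) = f ⟨_, hv₁⟩ B := by
      intro B
      obtain ⟨hv', h3⟩ := hE ⟨σ, hσ⟩ _ hv₁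
      obtain ⟨hc, h4⟩ := hconst 1
      rw [← h3]
      have h5 : (⟨_, hv'⟩ : (Cfsg.permSumZero (ZMod p) G α).toSubmodule) =
          ⟨_, hv₁⟩ + ⟨_, hc⟩ := by
        apply Subtype.ext
        ext x
        exact he x
      rw [h5, map_add, h4, add_zero]
    have hFn : ∀ (n : ℕ) B, f ⟨_, hv₁⟩ ((⟨σ, hσ⟩ : G) ^ n • B) = f ⟨_, hv₁⟩ B := by
      intro n
      induction n with
      | zero => intro B; simp
      | succ n ih => intro B; rw [pow_succ', mul_smul, hF1, ih]
    have hF2 : ∀ B, f ⟨_, hv₁⟩ ((⟨u, hu⟩ : G) • B) = - f ⟨_, hv₁⟩ B := by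
      intro B
      obtain ⟨hv', h3⟩ := hE ⟨u, hu⟩ _ hv₁
      obtain ⟨hc, h4⟩ := hconst b
      rw [← h3]
      have h5 : (⟨_, hv'⟩ : (Cfsg.permSumZero (ZMod p) G α).toSubmodule) =
          - ⟨_, hv₁⟩ + ⟨_, hc⟩ := by
        apply Subtype.ext
        ext x
        exact hub x
      rw [h5, map_add, h4, add_zero, map_neg]
      rfl
    have hF0 : f ⟨_, hv₁⟩ = 0 := by
      ext B
      obtain ⟨x, y, hxy, hB⟩ := Finset.card_eq_two.1 B.2
      have h3 : (⟨σ, hσ⟩ : G) ^ (b - e x - e y).val • B = (⟨u, hu⟩ : G) • B := by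
        apply Subtype.ext
        show (⟨σ, hσ⟩ : G) ^ (b - e x - e y).val • (B : Finset α) = (⟨u, hu⟩ : G) • (B : Finset α)
        have e1 : (⟨σ, hσ⟩ : G) ^ (b - e x - e y).val • x = (⟨u, hu⟩ : G) • y := by
          apply e.injective
          show e ((σ ^ (b - e x - e y).val) x) = e (u y)
          rw [hpow, hub, ZMod.natCast_zmod_val]; ring
        have e2 : (⟨σ, hσ⟩ : G) ^ (b - e x - e y).val • y = (⟨u, hu⟩ : G) • x := by
          apply e.injective
          show e ((σ ^ (b - e x - e y).val) y) = e (u x)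
          rw [hpow, hub, ZMod.natCast_zmod_val]; ring
        rw [hB, Finset.smul_finset_insert, Finset.smul_finset_singleton,
          Finset.smul_finset_insert, Finset.smul_finset_singleton, e1, e2, Finset.pair_comm]
      have h4 := hFn (b - e x - e y).val B
      rw [h3, hF2] at h4
      have h5 : 2 * f ⟨_, hv₁⟩ B = 0 := by linear_combination -h4
      exact (mul_eq_zero.1 h5).resolve_left h2ne
    -- the kernel as a subspace
    let W : Submodule (ZMod p) (α → ZMod p) :=
      (LinearMap.ker f.toLinearMap).map (Cfsg.permSumZero (ZMod p) G α).toSubmodule.subtype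
    have hWmem : ∀ v, v ∈ W ↔
        ∃ hv : v ∈ (Cfsg.permSumZero (ZMod p) G α).toSubmodule, f ⟨v, hv⟩ = 0 := by
      intro v
      constructor
      · rintro ⟨⟨w, hw⟩, hker, rfl⟩
        exact ⟨hw, hker⟩
      · rintro ⟨hv, h0⟩
        exact ⟨⟨v, hv⟩, h0, rfl⟩
    have hWinv : ∀ g ∈ G, ∀ v ∈ W, (fun x => v (g x)) ∈ W := by
      intro g hg v hv
      rw [hWmem] at hv ⊢
      obtain ⟨hv, h0⟩ := hv
      obtain ⟨hv', h3⟩ := hE ⟨g, hg⟩ v hv
      refine ⟨hv', ?_⟩
      ext B
      refine (h3 B).trans ?_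
      rw [h0]; rfl
    have hWle : W ≤ (Cfsg.permSumZero (ZMod p) G α).toSubmodule := by
      intro v hv
      exact ((hWmem v).1 hv).1
    obtain ⟨a₀⟩ : Nonempty α := Fintype.card_pos_iff.1 (by rw [hα]; exact hp.pos)
    have hfin2 : 2 ≤ Module.finrank (ZMod p) W := by
      have hc1 : Module.finrank (ZMod p) (Cfsg.permConstants (ZMod p) G α).toSubmodule = 1 := by
        apply finrank_span_singleton
        intro h
        exact one_ne_zero (congrFun h a₀)
      have hlt : (Cfsg.permConstants (ZMod p) G α).toSubmodule < W := by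
        rw [SetLike.lt_iff_le_and_exists]
        constructor
        · intro v hv
          obtain ⟨c, rfl⟩ := Submodule.mem_span_singleton.1 hv
          obtain ⟨hc, h0⟩ := hconst c
          rw [hWmem]
          have h3 : (c • fun _ => 1 : α → ZMod p) = fun _ => c := by ext x; simp
          rw [h3]
          exact ⟨hc, h0⟩
        · refine ⟨fun x => e x, (hWmem _).2 ⟨hv₁, hF0⟩, ?_⟩
          intro hv
          obtain ⟨c, hc⟩ := Submodule.mem_span_singleton.1 hv
          have h3 := congrFun hc (e.symm 0)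
          have h4 := congrFun hc (e.symm 1)
          simp only [Pi.smul_apply, smul_eq_mul, mul_one, Equiv.apply_symm_apply] at h3 h4
          exact one_ne_zero (h4.symm.trans h3)
      have := Submodule.finrank_lt_finrank_of_lt hlt
      omega
    have hbig : p < Module.finrank (ZMod p) W + 2 := by
      by_contra hcon
      push Not at hcon
      exact hG (isSolvable_of_invariant_subspace hα G W hWinv hfin2 hcon)
    have hfinE : Module.finrank (ZMod p) (α → ZMod p) = p := by
      rw [Module.finrank_fintype_fun_eq_card, hα]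
    have hs1 : Module.finrank (ZMod p) (Cfsg.permSumZero (ZMod p) G α).toSubmodule < p := by
      refine lt_of_lt_of_eq (Submodule.finrank_lt ?_) hfinE
      intro h
      have h3 : (Pi.single a₀ 1 : α → ZMod p) ∈ (Cfsg.permSumZero (ZMod p) G α).toSubmodule := by
        rw [h]; trivial
      have h4 : ∑ x, (Pi.single a₀ 1 : α → ZMod p) x = 0 := h3
      rw [Finset.sum_pi_single'] at h4
      simp at h4
    have hWS : W = (Cfsg.permSumZero (ZMod p) G α).toSubmodule :=
      Submodule.eq_of_le_of_finrank_le hWle (by omega)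
    apply Representation.IntertwiningMap.ext
    ext1 v
    obtain ⟨v, hv⟩ := v
    have h3 : v ∈ W := by rw [hWS]; exact hv
    obtain ⟨_, h0⟩ := (hWmem v).1 h3
    exact h0

end Cfsg.Agent.S0676
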