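import Cfsg.Statements.S0677
import Cfsg.Agent.S0675
import Cfsg.Agent.Lib.Helper75PrimeDegC
import Cfsg.Agent.Lib.Helper12Hall

set_option autoImplicit false
open Cfsg

namespace Cfsg.Agent.S0677

/-- a finset stable under a fixed point free involution has even cardinality -/
theorem even_card_of_involution {β : Type*} [DecidableEq β] (s : Finset β) (f : β → β)
    (hmem : ∀ a ∈ s, f a ∈ s) (hinv : ∀ a ∈ s, f (f a) = a) (hfix : ∀ a ∈ s, f a ≠ a) :
    Even s.card := by
  have h := Finset.sum_involution (s := s) (f := fun _ => (1 : ZMod 2)) (fun a _ => f a)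
    (fun a _ => by decide) (fun a ha _ => hfix a ha) (fun a ha => hmem a ha)
    (fun a ha => hinv a ha)
  rw [Finset.sum_const, nsmul_eq_mul, mul_one] at h
  exact (ZMod.natCast_eq_zero_iff_even).1 h

/-- **No nontrivial cyclic difference set of prime order admits the multiplier `-1`.** -/
theorem core {p : ℕ} [Fact p.Prime] (hp2 : p ≠ 2) (S : Set (Equiv.Perm (ZMod p)))
    (D : Set (ZMod p))
    (h2 : ∀ x y x' y' : ZMod p, x ≠ y → x' ≠ y' → ∃ g ∈ S, g x = x' ∧ g y = y')
    (hD : ∀ g ∈ S, ∀ i : ZMod p, ∃ i' : ZMod p, ∀ j, g j + i ∈ D ↔ j + i' ∈ D)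
    (hu : ∃ u ∈ S, ∃ b : ZMod p, ∀ j, u j = -j + b) :
    ∃ x₀ : ZMod p, (∀ j, j ≠ x₀ → j ∈ D) ∨ (∀ j, j ≠ x₀ → j ∉ D) := by
  classical
  have hp := (Fact.out : p.Prime)
  have h2ne : (2 : ZMod p) ≠ 0 := by
    intro h
    have h3 : ((2 : ℕ) : ZMod p) = 0 := by exact_mod_cast h
    rw [ZMod.natCast_eq_zero_iff] at h3
    exact hp2 ((Nat.prime_dvd_prime_iff_eq hp Nat.prime_two).1 h3)
  by_cases hemp : ∀ j, j ∉ D
  · exact ⟨0, Or.inr fun j _ => hemp j⟩
  by_cases huniv : ∀ j, j ∈ D
  · exact ⟨0, Or.inl fun j _ => huniv j⟩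
  push Not at hemp huniv
  obtain ⟨a₁, ha₁⟩ := hemp
  obtain ⟨a₂, ha₂⟩ := huniv
  -- Step 1
  have step1 : ∀ c : ZMod p, (∀ j, j + c ∈ D ↔ j ∈ D) → c = 0 := by
    intro c hc
    by_contra hc0
    have h3 : ∀ n : ℕ, a₁ + n * c ∈ D := by
      intro n
      induction n with
      | zero => simpa using ha₁
      | succ n ih =>
        have := (hc (a₁ + n * c)).2 ih
        convert this using 1
        push_cast; ring
    apply ha₂
    have h4 := h3 ((a₂ - a₁) / c).val
    rw [ZMod.natCast_zmod_val, div_mul_cancel₀ _ hc0] at h4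
    simpa using h4
  -- the counting function
  let N : ZMod p → ZMod p → ℕ := fun x y =>
    (Finset.univ.filter fun i : ZMod p => x + i ∈ D ∧ y + i ∈ D).card
  have step3 : ∀ g ∈ S, ∀ x y, N (g x) (g y) = N x y := by
    intro g hg x y
    choose π hπ using hD g hg
    have hinj : Function.Injective π := by
      intro i i' hii
      have h3 : ∀ j, j + (i - i') ∈ D ↔ j ∈ D := by
        intro j
        obtain ⟨z, hz⟩ := g.surjective (j - i')
        have h4 := hπ i z
        have h5 := hπ i' z
        rw [hii, ← h5, hz] at h4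
        convert h4 using 2 <;> ring
      exact sub_eq_zero.1 (step1 _ h3)
    have hbij : Function.Bijective π := Finite.injective_iff_bijective.1 hinj
    apply Finset.card_bij (fun i _ => π i)
    · intro i hi
      simp only [Finset.mem_filter, Finset.mem_univ, true_and] at hi ⊢
      exact ⟨(hπ i x).1 hi.1, (hπ i y).1 hi.2⟩
    · intro i _ i' _ h
      exact hinj h
    · intro i' hi'
      obtain ⟨i, rfl⟩ := hbij.2 i'
      simp only [Finset.mem_filter, Finset.mem_univ, true_and] at hi'
      refine ⟨i, ?_, rfl⟩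
      simp only [Finset.mem_filter, Finset.mem_univ, true_and]
      exact ⟨(hπ i x).2 hi'.1, (hπ i y).2 hi'.2⟩
  have step4 : ∀ x y x' y', x ≠ y → x' ≠ y' → N x y = N x' y' := by
    intro x y x' y' hxy hxy'
    obtain ⟨g, hg, rfl, rfl⟩ := h2 x y x' y' hxy hxy'
    exact (step3 g hg x y).symm
  -- the symmetric translate
  obtain ⟨u, huS, b, hub⟩ := hu
  obtain ⟨i₀, hi₀⟩ := hD u huS 0
  set c : ZMod p := (b + i₀) / 2 with hc
  have hc2 : 2 * c = b + i₀ := by rw [hc]; field_simp
  have hsym : ∀ j, -j + c ∈ D ↔ j + c ∈ D := by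
    intro j
    have h3 := hi₀ (j + b - c)
    rw [hub, add_zero] at h3
    convert h3 using 2
    · ring
    · linear_combination hc2
  -- parity
  have hpar : ∀ d : ZMod p, d ≠ 0 → (Odd (N d (-d)) ↔ d + c ∈ D) := by
    intro d hd
    set T := Finset.univ.filter fun i : ZMod p => d + i ∈ D ∧ -d + i ∈ D with hT
    have hTN : N d (-d) = T.card := rfl
    have heven : Even (T.erase c).card := by
      apply even_card_of_involution _ (fun i => 2 * c - i)
      · intro i hi
        rw [Finset.mem_erase, hT, Finset.mem_filter] at hi ⊢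
        obtain ⟨hic, -, h3, h4⟩ := hi
        refine ⟨?_, Finset.mem_univ _, ?_, ?_⟩
        · intro h
          apply hic
          linear_combination -h
        · have := (hsym (-d + i - c)).2 (by convert h4 using 1; ring)
          convert this using 1; ring
        · have := (hsym (d + i - c)).2 (by convert h3 using 1; ring)
          convert this using 1; ring
      · intro i _; ring
      · intro i hi h
        rw [Finset.mem_erase] at hi
        apply hi.1
        have h5 : 2 * (c - i) = 0 := by linear_combination h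
        rcases mul_eq_zero.1 h5 with h6 | h6
        · exact absurd h6 h2ne
        · exact (sub_eq_zero.1 h6).symm
    rw [hTN]
    by_cases hcT : c ∈ T
    · have h3 : T.card = (T.erase c).card + 1 := (Finset.card_erase_add_one hcT).symm
      rw [h3]
      have h4 : d + c ∈ D := by
        rw [hT, Finset.mem_filter] at hcT; exact hcT.2.1
      exact ⟨fun _ => h4, fun _ => heven.add_one⟩
    · rw [Finset.erase_eq_of_notMem hcT] at heven
      constructor
      · intro h; exact absurd heven (Nat.not_even_iff_odd.2 h)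
      · intro h
        exfalso
        apply hcT
        rw [hT, Finset.mem_filter]
        exact ⟨Finset.mem_univ _, h, (hsym d).2 h⟩
  have hne : ∀ d : ZMod p, d ≠ 0 → d ≠ -d := by
    intro d hd h
    have h5 : 2 * d = 0 := by linear_combination h
    rcases mul_eq_zero.1 h5 with h6 | h6
    · exact h2ne h6
    · exact hd h6
  refine ⟨c, ?_⟩
  by_cases h1 : (1 : ZMod p) + c ∈ D
  · left
    intro j hj
    have hd : j - c ≠ 0 := sub_ne_zero.2 hj
    have h3 := (hpar 1 one_ne_zero).2 h1
    rw [step4 1 (-1) (j - c) (-(j - c)) (hne 1 one_ne_zero) (hne _ hd)] at h3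
    have := (hpar _ hd).1 h3
    simpa using this
  · right
    intro j hj hjD
    have hd : j - c ≠ 0 := sub_ne_zero.2 hj
    have h3 := (hpar _ hd).2 (by simpa using hjD)
    rw [step4 (j - c) (-(j - c)) 1 (-1) (hne _ hd) (hne 1 one_ne_zero)] at h3
    exact h1 ((hpar 1 one_ne_zero).1 h3)

theorem affine_aux {p : ℕ} [Fact p.Prime] (f : ZMod p → ZMod p) (k : ZMod p)
    (h : ∀ j, f (j + 1) = f j + k) (j : ZMod p) : f j = k * j + f 0 := by
  have key : ∀ n : ℕ, f (n : ZMod p) = k * n + f 0 := by
    intro n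
    induction n with
    | zero => simp
    | succ n ih => rw [Nat.cast_succ, h, ih]; ring
  have := key j.val
  rwa [ZMod.natCast_zmod_val] at this

open Cfsg.Agent.Lib.Helper75PrimeDeg in
/-- In a transitive permutation group of prime degree `p` whose Sylow `p`-normaliser has even order, the point stabilisers are the only subgroups of index `p`. -/
theorem result {α : Type*} [Fintype α] [DecidableEq α] {p : ℕ} [Fact p.Prime] (hα : Fintype.card α = p) (G : Subgroup (Equiv.Perm α)) [MulAction.IsPretransitive G α] (P : Sylow p G) (heven : Even (Nat.card (Subgroup.normalizer ((P : Subgroup G) : Set G)))) (H : Subgroup G) (hH : H.index = p) : ∃ a : α, H = MulAction.stabilizer G a := by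
  have hp := (Fact.out : p.Prime)
  obtain ⟨a₀⟩ : Nonempty α := Fintype.card_pos_iff.1 (by rw [hα]; exact hp.pos)
  have hfact : Nat.card G ∣ p.factorial := by
    rw [← hα, ← Fintype.card_perm, ← Nat.card_eq_fintype_card]
    exact Subgroup.card_subgroup_dvd_card _
  have hpp : ¬ p * p ∣ Nat.card G := by
    intro h
    have h1 := hfact
    have h3 : p.factorial = p * (p - 1).factorial := (Nat.mul_factorial_pred hp.ne_zero).symm
    rw [h3] at h1
    have h4 : p ∣ (p - 1).factorial := Nat.dvd_of_mul_dvd_mul_left hp.pos (h.trans h1)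
    have h5 := (hp.dvd_factorial).1 h4
    have := hp.pos
    omega
  have hHcard : Nat.card H * p = Nat.card G := by rw [← hH]; exact H.card_mul_index
  have hHcop : (Nat.card H).Coprime p := by
    apply Nat.Coprime.symm
    rw [hp.coprime_iff_not_dvd]
    intro hd
    apply hpp
    rw [← hHcard]
    exact Nat.mul_dvd_mul_right hd p
  have hstab : ∀ a : α, Nat.card (MulAction.stabilizer G a) * p = Nat.card G := by
    intro a
    have h4 := MulAction.index_stabilizer_of_transitive G a
    rw [Nat.card_eq_fintype_card, hα] at h4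
    rw [← h4]; exact Subgroup.card_mul_index _
  have hfix : ∀ a : α, (∀ h ∈ H, h • a = a) → H = MulAction.stabilizer G a := by
    intro a ha
    apply Subgroup.eq_of_le_of_card_ge (fun h hh => ha h hh)
    exact (Nat.eq_of_mul_eq_mul_right hp.pos ((hstab a).trans hHcard.symm)).le
  by_cases hs : Group.IsSolvable G
  · obtain ⟨g, hg⟩ := Cfsg.Agent.Lib.Helper12Hall.hall_conj (Nat.card H) p hHcard.symm hHcop
      (MulAction.stabilizer G a₀) H
      (Nat.eq_of_mul_eq_mul_right hp.pos ((hstab a₀).trans hHcard.symm)) rfl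
    refine ⟨g • a₀, hfix _ fun h hh => ?_⟩
    rw [← hg, Subgroup.mem_pointwise_smul_iff_inv_smul_mem] at hh
    have h3 : g⁻¹ * h * g ∈ MulAction.stabilizer G a₀ := by
      simpa [MulAut.smul_def, MulAut.conj_inv_apply] using hh
    rw [MulAction.mem_stabilizer_iff, mul_smul, mul_smul, inv_smul_eq_iff] at h3
    exact h3
  have h2t : MulAction.IsMultiplyPretransitive G α 2 :=
    (Cfsg.Agent.S0675.result (hα ▸ hp) G).resolve_left hs
  have hp2 : p ≠ 2 := by
    rintro rfl
    apply hs
    have h3 : Nat.card G ∣ 2 ^ 1 := by simpa using hfact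
    obtain ⟨k, -, hk⟩ := (Nat.dvd_prime_pow Nat.prime_two).1 h3
    have h4 : Group.IsNilpotent G := (IsPGroup.of_card hk).isNilpotent
    infer_instance
  obtain ⟨σ, hσ, e, he⟩ := exists_coord hα G
  have hpow : ∀ (n : ℕ) (x : α), e ((σ ^ n) x) = e x + n := by
    intro n
    induction n with
    | zero => intro x; simp
    | succ n ih =>
      intro x
      rw [pow_succ', Equiv.Perm.mul_apply, he, ih, Nat.cast_succ]; ring
  set s : G := ⟨σ, hσ⟩ with hsdef
  have hos : orderOf s = p := by
    apply orderOf_eq_prime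
    · apply Subtype.ext
      ext x
      apply e.injective
      show e ((σ ^ p) x) = e x
      rw [hpow]; simp
    · intro h
      have h3 : σ = 1 := congrArg Subtype.val h
      have := he a₀
      rw [h3, Equiv.Perm.one_apply] at this
      exact one_ne_zero (left_eq_add.1 this)
  have hcompl : Subgroup.IsComplement' H (Subgroup.zpowers s) :=
    Subgroup.isComplement'_of_coprime (by rw [Nat.card_zpowers, hos]; exact hHcard)
      (by rw [Nat.card_zpowers, hos]; exact hHcop)
  have hdec : ∀ g : G, ∃ h ∈ H, ∃ n : ℕ, g = h * s ^ n := by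
    intro g
    obtain ⟨⟨⟨h, hh⟩, ⟨k, hk⟩⟩, hg⟩ := hcompl.2 g
    have hk' : k ∈ Subgroup.zpowers s := hk
    rw [← mem_powers_iff_mem_zpowers] at hk'
    obtain ⟨n, rfl⟩ := hk'
    exact ⟨h, hh, n, hg.symm⟩
  have hinvol : ∃ u : G, ∃ b : ZMod p, ∀ x, e ((u : Equiv.Perm α) x) = - e x + b := by
    have hP' : IsPGroup p (Subgroup.zpowers s) := by
      apply IsPGroup.of_card (n := 1)
      rw [Nat.card_zpowers, hos, pow_one]
    have hi : ¬ p ∣ (Subgroup.zpowers s).index := by
      intro hd
      apply hpp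
      rw [← Subgroup.card_mul_index (Subgroup.zpowers s), Nat.card_zpowers, hos]
      exact Nat.mul_dvd_mul_left p hd
    have hcardN : Nat.card (Subgroup.normalizer ((Subgroup.zpowers s : Subgroup G) : Set G)) =
        Nat.card (Subgroup.normalizer ((P : Subgroup G) : Set G)) := by
      have h1 : Nat.card (Sylow p G) =
          (Subgroup.normalizer ((P : Subgroup G) : Set G)).index :=
        Sylow.card_eq_index_normalizer P
      have h2 : Nat.card (Sylow p G) =
          (Subgroup.normalizer ((Subgroup.zpowers s : Subgroup G) : Set G)).index :=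
        Sylow.card_eq_index_normalizer (hP'.toSylow hi)
      have h3 := Subgroup.card_mul_index (Subgroup.normalizer ((P : Subgroup G) : Set G))
      have h4 := Subgroup.card_mul_index
        (Subgroup.normalizer ((Subgroup.zpowers s : Subgroup G) : Set G))
      rw [← h1] at h3; rw [← h2] at h4
      exact Nat.eq_of_mul_eq_mul_right Nat.card_pos (h4.trans h3.symm)
    obtain ⟨⟨u, huN⟩, hu⟩ := exists_prime_orderOf_dvd_card' 2
      (even_iff_two_dvd.1 (hcardN ▸ heven))
    have hu2 : orderOf u = 2 := by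
      rw [← hu]; exact (Subgroup.orderOf_mk u huN).symm
    have h3 : u * s * u⁻¹ ∈ Subgroup.zpowers s :=
      (Subgroup.mem_normalizer_iff.1 huN _).1 (Subgroup.mem_zpowers _)
    rw [← mem_powers_iff_mem_zpowers] at h3
    obtain ⟨n, hn⟩ := h3
    have hn' : σ ^ n = (u : Equiv.Perm α) * σ * (u : Equiv.Perm α)⁻¹ := congrArg Subtype.val hn
    have haff := affine_aux (fun j => e ((u : Equiv.Perm α) (e.symm j))) (n : ZMod p) (by
      intro j
      show e ((u : Equiv.Perm α) (e.symm (j + 1))) = e ((u : Equiv.Perm α) (e.symm j)) + n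
      have h4 : e.symm (j + 1) = σ (e.symm j) := by
        rw [Equiv.symm_apply_eq, he, Equiv.apply_symm_apply]
      rw [h4, ← hpow, hn']
      simp)
    set b := e ((u : Equiv.Perm α) (e.symm 0)) with hb
    have huu : ∀ x, (u : Equiv.Perm α) ((u : Equiv.Perm α) x) = x := by
      intro x
      have h5 : u ^ 2 = 1 := by rw [← hu2]; exact pow_orderOf_eq_one u
      have h6 : (u : Equiv.Perm α) ^ 2 = 1 := congrArg Subtype.val h5
      rw [← Equiv.Perm.mul_apply, ← sq, h6, Equiv.Perm.one_apply]
    have hff : ∀ j : ZMod p, (n : ZMod p) * ((n : ZMod p) * j + b) + b = j := by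
      intro j
      rw [← haff j, ← haff, Equiv.symm_apply_apply, huu, Equiv.apply_symm_apply]
    have h0 := hff 0
    have h1 := hff 1
    have hn2 : ((n : ZMod p) - 1) * ((n : ZMod p) + 1) = 0 := by linear_combination h1 - h0
    refine ⟨u, b, fun x => ?_⟩
    have h7 := haff (e x)
    rw [Equiv.symm_apply_apply] at h7
    rcases mul_eq_zero.1 hn2 with h8 | h8
    · exfalso
      have h9 : (n : ZMod p) = 1 := sub_eq_zero.1 h8
      rw [h9] at h0 haff
      have h2ne : (2 : ZMod p) ≠ 0 := by
        intro h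
        have h3 : ((2 : ℕ) : ZMod p) = 0 := by exact_mod_cast h
        rw [ZMod.natCast_eq_zero_iff] at h3
        exact hp2 ((Nat.prime_dvd_prime_iff_eq hp Nat.prime_two).1 h3)
      have hb0 : b = 0 := by
        have h10 : 2 * b = 0 := by linear_combination h0
        exact (mul_eq_zero.1 h10).resolve_left h2ne
      have hu1 : u = 1 := by
        apply Subtype.ext
        ext x
        apply e.injective
        have := haff (e x)
        rw [Equiv.symm_apply_apply, hb0] at this
        simpa using this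
      rw [hu1, orderOf_one] at hu2
      omega
    · rw [h7, eq_neg_of_add_eq_zero_left h8]; ring
  obtain ⟨u, b, hub⟩ := hinvol
  -- the orbit
  let O : α → Prop := fun x => ∃ h ∈ H, (h : Equiv.Perm α) a₀ = x
  have hO : ∀ h ∈ H, ∀ x, O ((h : Equiv.Perm α) x) ↔ O x := by
    intro h hh x
    constructor
    · rintro ⟨h', hh', h3⟩
      refine ⟨h⁻¹ * h', H.mul_mem (H.inv_mem hh) hh', ?_⟩
      show (h : Equiv.Perm α)⁻¹ ((h' : Equiv.Perm α) a₀) = x
      rw [h3]; simp
    · rintro ⟨h', hh', rfl⟩
      exact ⟨h * h', H.mul_mem hh hh', rfl⟩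
  have hOuniv : ¬ ∀ x, O x := by
    intro hall
    have h3 : MulAction.orbit H a₀ = Set.univ := by
      ext x
      simp only [Set.mem_univ, iff_true]
      obtain ⟨h, hh, rfl⟩ := hall x
      exact ⟨⟨h, hh⟩, rfl⟩
    have h4 := MulAction.index_stabilizer H a₀
    rw [h3, Set.ncard_univ, Nat.card_eq_fintype_card, hα] at h4
    have h5 : p ∣ Nat.card H := h4 ▸ Subgroup.index_dvd_card _
    exact (hp.coprime_iff_not_dvd.1 hHcop.symm) h5
  obtain ⟨x₀, hx₀⟩ := core hp2 {g' | ∃ g : G, ∀ j, g' j = e ((g : Equiv.Perm α) (e.symm j))}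
    {j | O (e.symm j)}
    (by
      intro x y x' y' hxy hxy'
      have hxy1 : e.symm x ≠ e.symm y := fun h => hxy (e.symm.injective h)
      have hxy2 : e.symm x' ≠ e.symm y' := fun h => hxy' (e.symm.injective h)
      obtain ⟨g, hg1, hg2⟩ := (MulAction.is_two_pretransitive_iff.1 h2t) hxy1 hxy2
      refine ⟨e.permCongr (g : Equiv.Perm α), ⟨g, fun j => rfl⟩, ?_, ?_⟩
      · show e ((g : Equiv.Perm α) (e.symm x)) = x'
        rw [← Equiv.eq_symm_apply]; exact hg1
      · show e ((g : Equiv.Perm α) (e.symm y)) = y'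
        rw [← Equiv.eq_symm_apply]; exact hg2)
    (by
      rintro g' ⟨g, hg⟩ i
      obtain ⟨h, hh, n, hn⟩ := hdec (s ^ i.val * g)
      refine ⟨n, fun j => ?_⟩
      have h3 : g' j + i = e ((h : Equiv.Perm α) ((σ ^ n) (e.symm j))) := by
        have h4 : (σ ^ i.val) * (g : Equiv.Perm α) = (h : Equiv.Perm α) * σ ^ n :=
          congrArg Subtype.val hn
        rw [← Equiv.Perm.mul_apply, ← h4, Equiv.Perm.mul_apply, hpow, hg,
          ZMod.natCast_zmod_val]
      have h5 : j + n = e ((σ ^ n) (e.symm j)) := by rw [hpow, Equiv.apply_symm_apply]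
      show O (e.symm (g' j + i)) ↔ O (e.symm (j + n))
      rw [h3, h5, Equiv.symm_apply_apply, Equiv.symm_apply_apply]
      exact hO h hh _)
    ⟨e.permCongr (u : Equiv.Perm α), ⟨u, fun j => rfl⟩, b, fun j => by
      show e ((u : Equiv.Perm α) (e.symm j)) = -j + b
      rw [hub, Equiv.apply_symm_apply]⟩
  refine ⟨e.symm x₀, hfix _ fun h hh => ?_⟩
  show (h : Equiv.Perm α) (e.symm x₀) = e.symm x₀
  rcases hx₀ with hA | hB
  · have hx₀O : ¬ O (e.symm x₀) := by
      intro h3
      apply hOuniv
      intro x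
      by_cases hx : e x = x₀
      · rw [← hx, Equiv.symm_apply_apply] at h3; exact h3
      · have := hA (e x) hx
        simpa using this
    by_contra hne
    apply hx₀O
    rw [← hO h hh]
    have := hA (e ((h : Equiv.Perm α) (e.symm x₀))) (fun h3 => hne (by
      rw [Equiv.eq_symm_apply]; exact h3))
    simpa using this
  · have h3 : ∀ x, O x → x = e.symm x₀ := by
      intro x hx
      by_contra hne
      exact hB (e x) (fun h4 => hne (by rw [← h4, Equiv.symm_apply_apply]))
        (by simpa using hx)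
    have h4 : O a₀ := ⟨1, H.one_mem, rfl⟩
    have h5 := h3 _ h4
    rw [← h5]
    exact (h3 _ ((hO h hh a₀).2 h4)).trans h5.symm

end Cfsg.Agent.S0677
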