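import Cfsg.Statements.S0678
import Cfsg.Agent.Lib.Helper3Deg7B

set_option autoImplicit false
open Cfsg

namespace Cfsg.Agent.S0678

/-- A non-solvable transitive permutation group on 7 points that does not contain the alternating group is a simple group of order 168. -/
theorem result {α : Type*} [Fintype α] [DecidableEq α] (hα : Fintype.card α = 7) (G : Subgroup (Equiv.Perm α)) [MulAction.IsPretransitive G α] (hG : ¬ Group.IsSolvable G) (hA : ¬ alternatingGroup α ≤ G) : Nat.card G = 168 ∧ IsSimpleGroup G := by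
  let e : α ≃ Fin 7 := Fintype.equivFinOfCardEq hα
  let φ : Equiv.Perm α ≃* Equiv.Perm (Fin 7) := e.permCongrHom
  let ψ : G ≃* G.map φ.toMonoidHom := G.equivMapOfInjective φ.toMonoidHom φ.injective
  have hφ : ∀ (g : Equiv.Perm α) (x : Fin 7), φ g x = e (g (e.symm x)) := fun g x => rfl
  have htr : MulAction.IsPretransitive (G.map φ.toMonoidHom) (Fin 7) := by
    constructor
    intro x y
    obtain ⟨g, hg⟩ := MulAction.exists_smul_eq G (e.symm x) (e.symm y)
    refine ⟨⟨φ g, Subgroup.mem_map_of_mem _ g.2⟩, ?_⟩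
    change φ g x = y
    have h1 : (g : Equiv.Perm α) (e.symm x) = e.symm y := hg
    rw [hφ, h1, Equiv.apply_symm_apply]
  have hG' : ¬ Group.IsSolvable (G.map φ.toMonoidHom) := fun h =>
    hG (Group.isSolvable_of_isSolvable_injective (f := ψ.toMonoidHom) ψ.injective)
  have hA' : ¬ alternatingGroup (Fin 7) ≤ G.map φ.toMonoidHom := by
    intro h
    apply hA
    intro g hg
    have h1 : φ g ∈ alternatingGroup (Fin 7) := by
      rw [Equiv.Perm.mem_alternatingGroup] at hg ⊢
      change Equiv.Perm.sign (e.permCongr g) = 1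
      rw [Equiv.Perm.sign_permCongr, hg]
    obtain ⟨g', hg', h'⟩ := h h1
    have h2 : g' = g := φ.injective h'
    exact h2 ▸ hg'
  obtain ⟨h1, h2⟩ := Cfsg.Agent.Lib.Helper3Deg7B.main7 _ htr hG' hA'
  refine ⟨by rw [Nat.card_congr ψ.toEquiv, h1], ?_⟩
  haveI := h2
  exact ψ.isSimpleGroup

end Cfsg.Agent.S0678
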