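import Cfsg.Statements.S0681
import Mathlib

set_option autoImplicit false
open Cfsg

namespace Cfsg.Agent.S0681

variable {F : Type*} [Cfsg.NearField F]

theorem rd (a b c : F) : (a + b) * c = a * c + b * c := NearField.right_distrib a b c

theorem zmul (c : F) : (0 : F) * c = 0 := by
  have h := rd (0 : F) 0 c
  rw [add_zero] at h
  exact left_eq_add.mp h

theorem negmul (a c : F) : (-a) * c = -(a * c) := by
  have h := rd (-a) a c
  rw [neg_add_cancel, zmul] at h
  exact eq_neg_of_add_eq_zero_left h.symm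

theorem submul (a b c : F) : (a - b) * c = a * c - b * c := by
  rw [sub_eq_add_neg, rd, negmul, ← sub_eq_add_neg]

theorem mul_ne {a b : F} (ha : a ≠ 0) (hb : b ≠ 0) : a * b ≠ 0 := by
  intro h
  obtain ⟨b', hb1, _⟩ := NearField.exists_inv b hb
  apply ha
  calc a = a * (b * b') := by rw [hb1, mul_one]
    _ = (a * b) * b' := (mul_assoc _ _ _).symm
    _ = 0 := by rw [h, zmul]

/-- the affine permutation -/
noncomputable def aff (a a' b : F) (h1 : a * a' = 1) (h2 : a' * a = 1) : Equiv.Perm F where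
  toFun x := x * a + b
  invFun y := (y - b) * a'
  left_inv x := by
    simp only [add_sub_cancel_right, mul_assoc, h1, mul_one]
  right_inv y := by
    simp only [mul_assoc, h2, mul_one, sub_add_cancel]

def affSub : Subgroup (Equiv.Perm F) where
  carrier := {σ | ∃ a b : F, a ≠ 0 ∧ ∀ x : F, σ x = x * a + b}
  one_mem' := ⟨1, 0, (NearField.zero_ne_one).symm, fun x => by simp⟩
  mul_mem' := by
    rintro σ τ ⟨a, b, ha, hσ⟩ ⟨c, d, hc, hτ⟩
    refine ⟨c * a, d * a + b, mul_ne hc ha, fun x => ?_⟩
    rw [Equiv.Perm.mul_apply, hτ, hσ, rd, mul_assoc, add_assoc]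
  inv_mem' := by
    rintro σ ⟨a, b, ha, hσ⟩
    obtain ⟨a', h1, h2⟩ := NearField.exists_inv a ha
    have ha' : a' ≠ 0 := by
      intro h
      rw [h, zmul] at h2
      exact NearField.zero_ne_one h2
    refine ⟨a', -(b * a'), ha', fun x => ?_⟩
    apply σ.injective
    rw [Equiv.Perm.inv_def, Equiv.apply_symm_apply, hσ, rd, negmul, mul_assoc, mul_assoc, h2, mul_one, mul_one,
      neg_add_cancel_right]

/-- The affine maps `x ↦ x * a + b`, `a ≠ 0`, of a near-field form a sharply doubly transitive permutation group. -/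
theorem result {F : Type*} [Cfsg.NearField F] : ∃ H : Subgroup (Equiv.Perm F), (∀ σ : Equiv.Perm F, σ ∈ H ↔ ∃ a b : F, a ≠ 0 ∧ ∀ x : F, σ x = x * a + b) ∧ MulAction.IsMultiplyPretransitive H F 2 ∧ ∀ x : Fin 2 ↪ F, MulAction.stabilizer H x = ⊥ := by
  refine ⟨affSub, fun σ => Iff.rfl, ?_, ?_⟩
  · rw [MulAction.is_two_pretransitive_iff]
    intro x y z w hxy hzw
    have hu : x - y ≠ 0 := sub_ne_zero.mpr hxy
    have hv : z - w ≠ 0 := sub_ne_zero.mpr hzw
    obtain ⟨u', hu1, hu2⟩ := NearField.exists_inv (x - y) hu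
    have hu' : u' ≠ 0 := by
      intro h
      rw [h, zmul] at hu2
      exact NearField.zero_ne_one hu2
    have ha : u' * (z - w) ≠ 0 := mul_ne hu' hv
    obtain ⟨a', h1, h2⟩ := NearField.exists_inv _ ha
    have key : (x - y) * (u' * (z - w)) = z - w := by
      rw [← mul_assoc, hu1, one_mul]
    refine ⟨⟨aff (u' * (z - w)) a' (-(x * (u' * (z - w))) + z) h1 h2,
      ⟨u' * (z - w), -(x * (u' * (z - w))) + z, ha, fun t => rfl⟩⟩, ?_, ?_⟩
    · change x * (u' * (z - w)) + (-(x * (u' * (z - w))) + z) = z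
      rw [add_neg_cancel_left]
    · change y * (u' * (z - w)) + (-(x * (u' * (z - w))) + z) = w
      rw [submul] at key
      generalize u' * (z - w) = c at key
      have : y * c + -(x * c) = -(z - w) := by
        rw [← key, neg_sub, sub_eq_add_neg]
      rw [← add_assoc, this, neg_sub, sub_add_cancel]
  · intro x
    rw [eq_bot_iff]
    rintro ⟨g, a, b, ha, hg⟩ hs
    rw [Subgroup.mem_bot]
    apply Subtype.ext
    rw [MulAction.mem_stabilizer_iff] at hs
    have e0 : g (x 0) = x 0 := congrArg (fun f : Fin 2 ↪ F => f 0) hs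
    have e1 : g (x 1) = x 1 := congrArg (fun f : Fin 2 ↪ F => f 1) hs
    rw [hg] at e0 e1
    have hne : x 0 - x 1 ≠ 0 := sub_ne_zero.mpr (fun h => by
      have := x.injective h
      exact absurd this (by decide))
    obtain ⟨u', hu1, hu2⟩ := NearField.exists_inv _ hne
    have k : (x 0 - x 1) * a = x 0 - x 1 := by
      rw [submul]
      calc x 0 * a - x 1 * a = (x 0 * a + b) - (x 1 * a + b) := (add_sub_add_right_eq_sub _ _ _).symm
        _ = x 0 - x 1 := by rw [e0, e1]
    have ha1 : a = 1 := by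
      calc a = (u' * (x 0 - x 1)) * a := by rw [hu2, one_mul]
        _ = u' * ((x 0 - x 1) * a) := mul_assoc _ _ _
        _ = 1 := by rw [k, hu2]
    have hb : b = 0 := by
      rw [ha1, mul_one] at e0
      exact left_eq_add.mp e0.symm
    ext t
    change g t = t
    rw [hg, ha1, hb, mul_one, add_zero]

end Cfsg.Agent.S0681
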