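import Cfsg.Statements.S0682
import Cfsg.Agent.S0680
import Cfsg.Agent.S0681
import Mathlib

set_option autoImplicit false
open Cfsg

namespace Cfsg.Agent.S0682

open Cfsg.Agent.S0681

/-- A finite near-field has prime-power order; its additive group is commutative of prime exponent. -/
theorem result {F : Type*} [Cfsg.NearField F] [Finite F] : ∃ p j : ℕ, p.Prime ∧ 1 ≤ j ∧ Nat.card F = p ^ j ∧ (∀ x y : F, x + y = y + x) ∧ ∀ x : F, p • x = 0 := by
  classical
  have : Fintype F := Fintype.ofFinite F
  obtain ⟨H, hH, h2t, hsharp⟩ := Cfsg.Agent.S0681.result (F := F)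
  have h2 : 2 ≤ Fintype.card F := by
    have : (1 : ℕ) < Fintype.card F := Fintype.one_lt_card_iff.mpr ⟨0, 1, NearField.zero_ne_one⟩
    omega
  obtain ⟨p, j, hp, hj, hcard, hP⟩ := Cfsg.Agent.S0680.result H hsharp h2
  have hpF : Fact p.Prime := ⟨hp⟩
  obtain ⟨P⟩ : Nonempty (Sylow p H) := inferInstance
  obtain ⟨-, hab, hexp, -, -, hmem⟩ := hP hpF P
  -- translations
  let t : F → Equiv.Perm F := fun b => aff 1 1 b (one_mul 1) (one_mul 1)
  have ht : ∀ b x, t b x = x + b := by
    intro b x
    change x * 1 + b = x + b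
    rw [mul_one]
  have htH : ∀ b, t b ∈ H := by
    intro b
    rw [hH]
    exact ⟨1, b, NearField.zero_ne_one.symm, fun x => rfl⟩
  have htP : ∀ b, (⟨t b, htH b⟩ : H) ∈ (P : Subgroup H) := by
    intro b
    rw [hmem]
    by_cases hb : b = 0
    · left
      apply Subtype.ext
      ext x
      change t b x = x
      rw [ht, hb, add_zero]
    · right
      intro a ha
      have h1 : t b a = a := ha
      rw [ht] at h1
      exact hb (add_eq_left.mp h1)
  refine ⟨p, j, hp, hj, by rw [Nat.card_eq_fintype_card, hcard], ?_, ?_⟩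
  · intro x y
    have h1 := hab.is_comm.comm ⟨_, htP x⟩ ⟨_, htP y⟩
    have h2 : t x * t y = t y * t x := congrArg (fun z : (P : Subgroup H) => ((z : H) : Equiv.Perm F)) h1
    have h3 := congrArg (fun f : Equiv.Perm F => f 0) h2
    simp only [Equiv.Perm.mul_apply, ht, zero_add] at h3
    exact h3.symm
  · intro x
    have h1 := hexp _ (htP x)
    have h2 : (t x) ^ p = 1 := congrArg (fun z : H => (z : Equiv.Perm F)) h1
    have h3 : ∀ k : ℕ, ((t x) ^ k) 0 = k • x := by
      intro k
      induction k with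
      | zero => simp
      | succ k ih =>
        rw [pow_succ', Equiv.Perm.mul_apply, ih, ht, succ_nsmul]
    rw [← h3, h2]
    rfl

end Cfsg.Agent.S0682
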