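import Cfsg.Statements.S0683
import Cfsg.Agent.S0680
import Mathlib

set_option autoImplicit false
open Cfsg

namespace Cfsg.Agent.S0683

open MulAction

@[reducible] def mkAG {α : Type*} (add : α → α → α) (zero : α) (neg : α → α)
    (add_assoc : ∀ a b c, add (add a b) c = add a (add b c))
    (zero_add : ∀ a, add zero a = a)
    (neg_add_cancel : ∀ a, add (neg a) a = zero) : AddGroup α :=
  letI : Add α := ⟨add⟩
  letI : Zero α := ⟨zero⟩
  letI : Neg α := ⟨neg⟩
  AddGroup.ofLeftAxioms add_assoc zero_add neg_add_cancel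

@[reducible] def mkMon {α : Type*} (mul : α → α → α) (one : α)
    (mul_assoc : ∀ a b c, mul (mul a b) c = mul a (mul b c))
    (one_mul : ∀ a, mul one a = a) (mul_one : ∀ a, mul a one = a) : Monoid α :=
  { mul := mul
    one := one
    mul_assoc := mul_assoc
    one_mul := one_mul
    mul_one := mul_one }

/-- build a near-field from raw data -/
@[reducible] def mkNF {α : Type*} (add : α → α → α) (zero : α) (neg : α → α) (mul : α → α → α) (one : α)
    (add_assoc : ∀ a b c, add (add a b) c = add a (add b c))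
    (zero_add : ∀ a, add zero a = a)
    (neg_add_cancel : ∀ a, add (neg a) a = zero)
    (mul_assoc : ∀ a b c, mul (mul a b) c = mul a (mul b c))
    (one_mul : ∀ a, mul one a = a) (mul_one : ∀ a, mul a one = a)
    (right_distrib : ∀ a b c, mul (add a b) c = add (mul a c) (mul b c))
    (mul_zero : ∀ a, mul a zero = zero) (zero_ne_one : zero ≠ one)
    (exists_inv : ∀ a, a ≠ zero → ∃ b, mul a b = one ∧ mul b a = one) : Cfsg.NearField α :=
  { toAddGroup := mkAG add zero neg add_assoc zero_add neg_add_cancel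
    toMonoid := mkMon mul one mul_assoc one_mul mul_one
    right_distrib := right_distrib
    mul_zero := mul_zero
    zero_ne_one := zero_ne_one
    exists_inv := exists_inv }

/-- A finite sharply doubly transitive permutation group is the affine group of a near-field: the permuted set carries a near-field structure for which the group consists exactly of the maps `x ↦ x * a + b` with `a ≠ 0`. -/
theorem result {α : Type*} [Fintype α] [DecidableEq α] (H : Subgroup (Equiv.Perm α)) [MulAction.IsMultiplyPretransitive H α 2] (hsharp : ∀ x : Fin 2 ↪ α, MulAction.stabilizer H x = ⊥) (h2 : 2 ≤ Fintype.card α) : ∃ _ : Cfsg.NearField α, ∀ σ : Equiv.Perm α, σ ∈ H ↔ ∃ a b : α, a ≠ 0 ∧ ∀ x : α, σ x = x * a + b := by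
  have sharp : ∀ (g : H) (a b : α), a ≠ b → g • a = a → g • b = b → g = 1 := by
    intro g a b hab ha hb
    have : g ∈ stabilizer H (Function.Embedding.embFinTwo hab) := by
      rw [mem_stabilizer_iff]
      ext i
      fin_cases i
      · exact ha
      · exact hb
    rw [hsharp, Subgroup.mem_bot] at this
    exact this
  have sharp' : ∀ (g g' : H) (a b : α), a ≠ b → g • a = g' • a → g • b = g' • b → g = g' := by
    intro g g' a b hab ha hb
    have := sharp (g'⁻¹ * g) a b hab (by rw [mul_smul, ha, inv_smul_smul]) (by rw [mul_smul, hb, inv_smul_smul])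
    exact (inv_mul_eq_one.mp this).symm
  obtain ⟨p, j, C, hp, hj, hcard, hG, hCn, memC, hcomm, hexp, hCcard⟩ := Cfsg.Agent.S0680.core inferInstance sharp h2
  obtain ⟨o, e, hoe⟩ : ∃ a b : α, a ≠ b := by
    have : 1 < Fintype.card α := by omega
    exact Fintype.exists_pair_of_one_lt_card this
  -- uniqueness in C
  have Cinj : ∀ t ∈ C, ∀ t' ∈ C, ∀ a : α, t • a = t' • a → t = t' := by
    intro t ht t' ht' a h
    have h1 : t'⁻¹ * t ∈ C := C.mul_mem (C.inv_mem ht') ht
    rcases (memC _).mp h1 with h2 | h2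
    · exact (inv_mul_eq_one.mp h2).symm
    · exact absurd (by rw [mul_smul, h, inv_smul_smul]) (h2 a)
  have Csurj : ∀ b : α, ∃ t : H, t ∈ C ∧ t • o = b := by
    intro b
    have hbij : Function.Bijective (fun c : C => (c : H) • o) := by
      rw [Nat.bijective_iff_injective_and_card]
      refine ⟨?_, by rw [hCcard, Nat.card_eq_fintype_card, hcard]⟩
      intro c c' h
      exact Subtype.ext (Cinj c c.2 c' c'.2 o h)
    obtain ⟨c, hc⟩ := hbij.2 b
    exact ⟨c, c.2, hc⟩
  choose τ hτC hτ using Csurj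
  have τu : ∀ (t : H) (b : α), t ∈ C → t • o = b → τ b = t := by
    intro t b ht hb
    exact Cinj _ (hτC b) _ ht o (by rw [hτ, hb])
  have h2t : ∀ {a b c d : α}, a ≠ b → c ≠ d → ∃ g : H, g • a = c ∧ g • b = d :=
    fun h h' => is_two_pretransitive_iff.mp inferInstance h h'
  have Msurj : ∀ a : α, ∃ g : H, a ≠ o → (g • o = o ∧ g • e = a) := by
    intro a
    by_cases ha : a = o
    · exact ⟨1, fun h => absurd ha h⟩
    · obtain ⟨g, hg⟩ := h2t hoe (Ne.symm ha)
      exact ⟨g, fun _ => hg⟩
  choose μ hμ using Msurj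
  have μu : ∀ (g : H) (a : α), a ≠ o → g • o = o → g • e = a → μ a = g := by
    intro g a ha h0 h1
    exact sharp' _ _ o e hoe (by rw [(hμ a ha).1, h0]) (by rw [(hμ a ha).2, h1])
  have smul_ne : ∀ (g : H) (a : α), g • o = o → a ≠ o → g • a ≠ o := by
    intro g a hg ha h
    apply ha
    rw [← hg] at h
    exact MulAction.injective g h
  let add : α → α → α := fun a b => τ b • a
  let neg : α → α := fun a => (τ a)⁻¹ • o
  let mul : α → α → α := fun x a => if a = o then o else μ a • x
  have mul_o : ∀ x, mul x o = o := fun x => if_pos rfl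
  have mul_ne : ∀ x a, a ≠ o → mul x a = μ a • x := fun x a ha => if_neg ha
  have τo : τ o = 1 := τu 1 o C.one_mem (one_smul _ _)
  have μe : μ e = 1 := μu 1 e hoe.symm (one_smul _ _) (one_smul _ _)
  refine ⟨mkNF add o neg mul e ?_ ?_ ?_ ?_ ?_ ?_ ?_ ?_ hoe ?_, ?_⟩
  · intro a b c
    change τ c • τ b • a = τ (τ c • b) • a
    rw [τu (τ c * τ b) (τ c • b) (C.mul_mem (hτC c) (hτC b)) (by rw [mul_smul, hτ]), mul_smul]
  · intro a
    exact hτ a
  · intro a
    change τ a • (τ a)⁻¹ • o = o
    rw [smul_inv_smul]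
  · intro x a b
    by_cases hb : b = o
    · rw [hb, mul_o, mul_o, mul_o]
    · by_cases ha : a = o
      · rw [ha, mul_o, mul_ne o b hb, (hμ b hb).1, mul_o]
      · have hab : μ b • a ≠ o := smul_ne _ _ (hμ b hb).1 ha
        rw [mul_ne _ b hb, mul_ne _ a ha, mul_ne a b hb, mul_ne _ _ hab,
          μu (μ b * μ a) (μ b • a) hab (by rw [mul_smul, (hμ a ha).1, (hμ b hb).1])
            (by rw [mul_smul, (hμ a ha).2]), mul_smul]
  · intro a
    by_cases ha : a = o
    · rw [ha, mul_o]
    · rw [mul_ne _ a ha, (hμ a ha).2]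
  · intro a
    rw [mul_ne _ e hoe.symm, μe, one_smul]
  · intro a b c
    by_cases hc : c = o
    · rw [hc, mul_o, mul_o, mul_o]
      change o = τ o • o
      rw [hτ]
    · rw [mul_ne _ c hc, mul_ne _ c hc, mul_ne _ c hc]
      change μ c • τ b • a = τ (μ c • b) • μ c • a
      rw [τu (μ c * τ b * (μ c)⁻¹) (μ c • b) (hCn.conj_mem _ (hτC b) _)
        (by rw [mul_smul, mul_smul, inv_smul_eq_iff.mpr (hμ c hc).1.symm, hτ]), mul_smul, mul_smul,
        inv_smul_smul]
  · exact mul_o
  · intro a ha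
    have hb : (μ a)⁻¹ • e ≠ o := by
      apply smul_ne _ _ _ hoe.symm
      rw [inv_smul_eq_iff, (hμ a ha).1]
    have hμb : μ ((μ a)⁻¹ • e) = (μ a)⁻¹ := μu _ _ hb (by rw [inv_smul_eq_iff, (hμ a ha).1]) rfl
    refine ⟨(μ a)⁻¹ • e, ?_, ?_⟩
    · rw [mul_ne _ _ hb, hμb, inv_smul_eq_iff, (hμ a ha).2]
    · rw [mul_ne _ _ ha, smul_inv_smul]
  · intro σ
    change σ ∈ H ↔ ∃ a b : α, a ≠ o ∧ ∀ x : α, σ x = add (mul x a) b
    constructor
    · intro hσ
      let s : H := ⟨σ, hσ⟩
      have h0 : ((τ (s • o))⁻¹ * s) • o = o := by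
        rw [mul_smul, inv_smul_eq_iff, hτ]
      have ha : ((τ (s • o))⁻¹ * s) • e ≠ o := smul_ne _ _ h0 hoe.symm
      refine ⟨((τ (s • o))⁻¹ * s) • e, s • o, ha, ?_⟩
      intro x
      rw [mul_ne _ _ ha, μu _ _ ha h0 rfl]
      change s • x = τ (s • o) • ((τ (s • o))⁻¹ * s) • x
      rw [mul_smul, smul_inv_smul]
    · rintro ⟨a, b, ha, h⟩
      have : σ = ((τ b * μ a : H) : Equiv.Perm α) := by
        ext x
        rw [h, mul_ne _ _ ha]
        change τ b • μ a • x = (τ b * μ a) • x
        rw [mul_smul]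
      rw [this]
      exact (τ b * μ a).2

end Cfsg.Agent.S0683
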