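import Cfsg.Statements.S0684
import Cfsg.Agent.Lib.Helper1Fpf
import Mathlib

set_option autoImplicit false
open Cfsg

namespace Cfsg.Agent.S0684

open Cfsg.Agent.Lib.Helper1Fpf

variable {p : ℕ} [Fact p.Prime] {V : Type*} [AddCommGroup V] [Module (ZMod p) V]

/-- the action of `A` on an invariant subspace, written multiplicatively -/
@[reducible] def act (H : Subgroup (V ≃ₗ[ZMod p] V)) (A : Subgroup H) (W : Submodule (ZMod p) V)
    (hW : ∀ a ∈ A, ∀ v ∈ W, ((a : H) : V ≃ₗ[ZMod p] V) v ∈ W) :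
    MulDistribMulAction A (Multiplicative W) where
  smul a w := Multiplicative.ofAdd ⟨((a : H) : V ≃ₗ[ZMod p] V) (Multiplicative.toAdd w).1,
    hW a.1 a.2 _ (Multiplicative.toAdd w).2⟩
  one_smul w := by
    change Multiplicative.ofAdd _ = _
    simp
  mul_smul a b w := by
    change Multiplicative.ofAdd _ = Multiplicative.ofAdd _
    simp
    rfl
  smul_mul a w w' := by
    change Multiplicative.ofAdd _ = Multiplicative.ofAdd _ * Multiplicative.ofAdd _
    rw [← ofAdd_add]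
    congr 1
    ext
    simp
  smul_one a := by
    change Multiplicative.ofAdd _ = _
    simp

theorem fpf_act (H : Subgroup (V ≃ₗ[ZMod p] V))
    (hreg : ∀ v w : V, v ≠ 0 → w ≠ 0 → ∃! h : H, (h : V ≃ₗ[ZMod p] V) v = w)
    (A : Subgroup H) (W : Submodule (ZMod p) V)
    (hW : ∀ a ∈ A, ∀ v ∈ W, ((a : H) : V ≃ₗ[ZMod p] V) v ∈ W) :
    @Fpf A (Multiplicative W) _ _ (act H A W hW) := by
  intro a ha w hw
  by_contra hw1
  apply ha
  have hw0 : (Multiplicative.toAdd w).1 ≠ 0 := by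
    intro h0
    apply hw1
    have : Multiplicative.toAdd w = 0 := Subtype.ext h0
    exact this
  have h1 : ((a : H) : V ≃ₗ[ZMod p] V) (Multiplicative.toAdd w).1 = (Multiplicative.toAdd w).1 :=
    congrArg (fun z : Multiplicative W => (Multiplicative.toAdd z).1) hw
  obtain ⟨h, -, huniq⟩ := hreg _ _ hw0 hw0
  have e1 := huniq a.1 h1
  have e2 := huniq 1 (by simp)
  exact Subtype.ext (e1.trans e2.symm)

open scoped IsMulCommutative in
/-- Point stabiliser of a sharply doubly transitive group not of semilinear type: a maximal normal abelian subgroup `A` of a linear group `H` that is regular on non-zero vectors and has no irreducible cyclic normal subgroup is cyclic and reducible, and the order of `A` divides `p ^ k - 1` for `k` the dimension of a minimal `A`-invariant subspace. -/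
theorem result {p : ℕ} [Fact p.Prime] {V : Type*} [AddCommGroup V] [Module (ZMod p) V] [Finite V] (H : Subgroup (V ≃ₗ[ZMod p] V)) (hreg : ∀ v w : V, v ≠ 0 → w ≠ 0 → ∃! h : H, (h : V ≃ₗ[ZMod p] V) v = w) (hI : ∀ A : Subgroup H, A.Normal → IsCyclic A → ∃ W : Submodule (ZMod p) V, W ≠ ⊥ ∧ W ≠ ⊤ ∧ ∀ a ∈ A, ∀ v ∈ W, ((a : H) : V ≃ₗ[ZMod p] V) v ∈ W) (A : Subgroup H) (hAn : A.Normal) (hAc : IsMulCommutative A) (hAmax : ∀ B : Subgroup H, B.Normal → IsMulCommutative B → A ≤ B → B = A) : IsCyclic A ∧ ∃ W : Submodule (ZMod p) V, W ≠ ⊥ ∧ W ≠ ⊤ ∧ (∀ a ∈ A, ∀ v ∈ W, ((a : H) : V ≃ₗ[ZMod p] V) v ∈ W) ∧ (∀ W' : Submodule (ZMod p) V, W' ≤ W → (∀ a ∈ A, ∀ v ∈ W', ((a : H) : V ≃ₗ[ZMod p] V) v ∈ W') → W' = ⊥ ∨ W' = W) ∧ Nat.card A ∣ p ^ Module.finrank (ZMod p) W - 1 := by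
  have : Finite (V ≃ₗ[ZMod p] V) := Finite.of_injective (fun e => (e : V → V)) DFunLike.coe_injective
  have hcyc : IsCyclic A := by
    obtain ⟨W₁, hW₁, -, -⟩ := hI ⊥ inferInstance inferInstance
    obtain ⟨v, hv, hv0⟩ := Submodule.exists_mem_ne_zero_of_ne_bot hW₁
    have hT : ∀ a ∈ A, ∀ v ∈ (⊤ : Submodule (ZMod p) V), ((a : H) : V ≃ₗ[ZMod p] V) v ∈
        (⊤ : Submodule (ZMod p) V) := fun _ _ _ _ => trivial
    let _ := act H A ⊤ hT
    refine isCyclic_of_comm (A := A) (V := Multiplicative (⊤ : Submodule (ZMod p) V))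
      (fpf_act H hreg A ⊤ hT) ⟨Multiplicative.ofAdd ⟨v, trivial⟩, ?_⟩
    intro h
    apply hv0
    exact congrArg (fun z : Multiplicative (⊤ : Submodule (ZMod p) V) =>
      (Multiplicative.toAdd z).1) h
  refine ⟨hcyc, ?_⟩
  obtain ⟨W₀, hW₀, hW₀', hinv₀⟩ := hI A hAn hcyc
  obtain ⟨W, hWle, hWmin⟩ := exists_minimal_le_of_wellFoundedLT
    (fun W : Submodule (ZMod p) V => W ≠ ⊥ ∧ ∀ a ∈ A, ∀ v ∈ W, ((a : H) : V ≃ₗ[ZMod p] V) v ∈ W)
    W₀ ⟨hW₀, hinv₀⟩
  refine ⟨W, hWmin.prop.1, ?_, hWmin.prop.2, ?_, ?_⟩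
  · rintro rfl
    exact hW₀' (top_le_iff.1 hWle)
  · intro W' hW' hinv'
    by_cases h0 : W' = ⊥
    · exact Or.inl h0
    · exact Or.inr (le_antisymm hW' (hWmin.le_of_le ⟨h0, hinv'⟩ hW'))
  · let _ := act H A W hWmin.prop.2
    have h1 := card_dvd_sub_one (fpf_act H hreg A W hWmin.prop.2)
    have h2 : Nat.card (Multiplicative W) = p ^ Module.finrank (ZMod p) W := by
      have := Module.natCard_eq_pow_finrank (K := ZMod p) (V := W)
      rw [Nat.card_zmod] at this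
      exact this
    rwa [h2] at h1

end Cfsg.Agent.S0684
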