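import Cfsg.Statements.S0685
import Cfsg.Agent.S0684
import Mathlib

set_option autoImplicit false
open Cfsg

namespace Cfsg.Agent.S0685

theorem card_le_sq {H : Type*} [Group H] [Finite H] (A : Subgroup H) (hAn : A.Normal)
    (hcyc : IsCyclic A) (hCA : Subgroup.centralizer (A : Set H) ≤ A) :
    Nat.card H ≤ Nat.card A * Nat.card A := by
  classical
  obtain ⟨g, hg⟩ := hcyc.exists_generator
  let c : H → A := fun h => ⟨h * g.1 * h⁻¹, hAn.conj_mem g.1 g.2 h⟩
  have key : ∀ h₁ h₂ : H, c h₁ = c h₂ → h₁⁻¹ * h₂ ∈ A := by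
    intro h₁ h₂ h
    apply hCA
    have h1 : h₁ * g.1 * h₁⁻¹ = h₂ * g.1 * h₂⁻¹ := congrArg Subtype.val h
    have h2 : Commute (h₁⁻¹ * h₂) g.1 := by
      have h3 : g.1 = h₁⁻¹ * (h₂ * g.1 * h₂⁻¹) * h₁ := by rw [← h1]; group
      change h₁⁻¹ * h₂ * g.1 = g.1 * (h₁⁻¹ * h₂)
      conv_rhs => rw [h3]
      group
    rw [Subgroup.mem_centralizer_iff]
    intro x hx
    obtain ⟨z, hz⟩ := Subgroup.mem_zpowers_iff.1 (hg ⟨x, hx⟩)
    have hx' : x = g.1 ^ z := by
      have := congrArg Subtype.val hz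
      simpa using this.symm
    rw [hx']
    exact ((h2.zpow_right z).eq).symm
  let σ : A → H := fun x => if hx : ∃ h, c h = x then hx.choose else 1
  have hσ : ∀ h, c (σ (c h)) = c h := by
    intro h
    have hx : ∃ h', c h' = c h := ⟨h, rfl⟩
    simp only [σ, dif_pos hx]
    exact hx.choose_spec
  let f : H → A × A := fun h => (c h, ⟨(σ (c h))⁻¹ * h, key _ _ (hσ h)⟩)
  have hf : Function.Injective f := by
    intro h₁ h₂ h
    have e1 : c h₁ = c h₂ := congrArg Prod.fst h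
    have e2 : (σ (c h₁))⁻¹ * h₁ = (σ (c h₂))⁻¹ * h₂ := congrArg (fun z => (z.2 : H)) h
    rw [e1] at e2
    exact mul_left_cancel e2
  have := Nat.card_le_card_of_injective f hf
  rwa [Nat.card_prod] at this

/-- In a linear group over the prime field that is regular on non-zero vectors and has no irreducible cyclic normal subgroup, a maximal normal abelian subgroup is properly contained in its centraliser, which is non-abelian. -/
theorem result {p : ℕ} [Fact p.Prime] {V : Type*} [AddCommGroup V] [Module (ZMod p) V] [Finite V] (H : Subgroup (V ≃ₗ[ZMod p] V)) (hreg : ∀ v w : V, v ≠ 0 → w ≠ 0 → ∃! h : H, (h : V ≃ₗ[ZMod p] V) v = w) (hI : ∀ A : Subgroup H, A.Normal → IsCyclic A → ∃ W : Submodule (ZMod p) V, W ≠ ⊥ ∧ W ≠ ⊤ ∧ ∀ a ∈ A, ∀ v ∈ W, ((a : H) : V ≃ₗ[ZMod p] V) v ∈ W) (A : Subgroup H) (hAn : A.Normal) (hAc : IsMulCommutative A) (hAmax : ∀ B : Subgroup H, B.Normal → IsMulCommutative B → A ≤ B → B = A) : A < Subgroup.centralizer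 (A : Set H) ∧ ¬ IsMulCommutative (Subgroup.centralizer (A : Set H)) := by
  have : Finite (V ≃ₗ[ZMod p] V) := Finite.of_injective (fun e => (e : V → V)) DFunLike.coe_injective
  obtain ⟨hcyc, W, hW0, hWtop, hWinv, hWmin, hdvd⟩ :=
    Cfsg.Agent.S0684.result H hreg hI A hAn hAc hAmax
  have hle : A ≤ Subgroup.centralizer (A : Set H) := Subgroup.le_centralizer A
  have hne : ¬ (Subgroup.centralizer (A : Set H) ≤ A) := by
    intro hCA
    have hHA := card_le_sq A hAn hcyc hCA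
    have hq : Nat.card W = p ^ Module.finrank (ZMod p) W := by
      have := Module.natCard_eq_pow_finrank (K := ZMod p) (V := W)
      rwa [Nat.card_zmod] at this
    obtain ⟨w₀, hw₀, hw₀0⟩ := Submodule.exists_mem_ne_zero_of_ne_bot hW0
    have hq2 : 2 ≤ Nat.card W := by
      have : Nontrivial W := ⟨⟨⟨w₀, hw₀⟩, 0, fun h => hw₀0 (congrArg Subtype.val h)⟩⟩
      exact Finite.one_lt_card
    have hA : Nat.card A ≤ Nat.card W - 1 := by
      rw [hq]
      exact Nat.le_of_dvd (by rw [← hq]; omega) hdvd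
    have hVH : Nat.card V ≤ Nat.card H + 1 := by
      rw [← Finite.card_option]
      apply Nat.card_le_card_of_surjective
        (fun o : Option H => match o with | none => (0 : V) | some h => (h : V ≃ₗ[ZMod p] V) w₀)
      intro v
      by_cases hv : v = 0
      · exact ⟨none, hv.symm⟩
      · obtain ⟨h, hh, -⟩ := hreg w₀ v hw₀0 hv
        exact ⟨some h, hh⟩
    obtain ⟨u, hu⟩ : ∃ u : V, u ∉ W := by
      by_contra hcon
      push Not at hcon
      exact hWtop (eq_top_iff.2 fun x _ => hcon x)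
    have hu0 : u ≠ 0 := fun h => hu (h ▸ W.zero_mem)
    obtain ⟨h, hh, -⟩ := hreg w₀ u hw₀0 hu0
    have hinvW : ∀ a ∈ A, ∀ v ∈ W ⊓ W.map ((h : V ≃ₗ[ZMod p] V) : V →ₗ[ZMod p] V),
        ((a : H) : V ≃ₗ[ZMod p] V) v ∈ W ⊓ W.map ((h : V ≃ₗ[ZMod p] V) : V →ₗ[ZMod p] V) := by
      intro a ha v hv
      rw [Submodule.mem_inf] at hv ⊢
      refine ⟨hWinv a ha v hv.1, ?_⟩
      obtain ⟨y, hy, rfl⟩ := hv.2
      refine ⟨((h⁻¹ * a * h : H) : V ≃ₗ[ZMod p] V) y, hWinv _ ?_ y hy, ?_⟩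
      · have := hAn.conj_mem a ha h⁻¹
        simpa using this
      · simp
    have hinf : W ⊓ W.map ((h : V ≃ₗ[ZMod p] V) : V →ₗ[ZMod p] V) = ⊥ := by
      rcases hWmin (W ⊓ W.map ((h : V ≃ₗ[ZMod p] V) : V →ₗ[ZMod p] V)) inf_le_left hinvW with h0 | h0
      · exact h0
      · exfalso
        have h1 : W ≤ W.map ((h : V ≃ₗ[ZMod p] V) : V →ₗ[ZMod p] V) := inf_eq_left.1 h0
        have h2 : W = W.map ((h : V ≃ₗ[ZMod p] V) : V →ₗ[ZMod p] V) := by
          apply Submodule.eq_of_le_of_finrank_le h1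
          rw [LinearEquiv.finrank_map_eq]
        apply hu
        rw [h2]
        exact ⟨w₀, hw₀, hh⟩
    have hWV : Nat.card W * Nat.card W ≤ Nat.card V := by
      rw [← Nat.card_prod]
      apply Nat.card_le_card_of_injective (fun z : W × W => z.1.1 + (h : V ≃ₗ[ZMod p] V) z.2.1)
      rintro ⟨x, y⟩ ⟨x', y'⟩ hxy
      simp only at hxy
      have h1 : x.1 - x'.1 = (h : V ≃ₗ[ZMod p] V) (y'.1 - y.1) := by
        rw [map_sub]
        have := congrArg (fun t => t - x'.1 - (h : V ≃ₗ[ZMod p] V) y.1) hxy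
        rw [show x.1 + (h : V ≃ₗ[ZMod p] V) y.1 - x'.1 - (h : V ≃ₗ[ZMod p] V) y.1 = x.1 - x'.1 by abel,
          show x'.1 + (h : V ≃ₗ[ZMod p] V) y'.1 - x'.1 - (h : V ≃ₗ[ZMod p] V) y.1 =
            (h : V ≃ₗ[ZMod p] V) y'.1 - (h : V ≃ₗ[ZMod p] V) y.1 by abel] at this
        exact this
      have h2 : x.1 - x'.1 ∈ W ⊓ W.map ((h : V ≃ₗ[ZMod p] V) : V →ₗ[ZMod p] V) := by
        rw [Submodule.mem_inf]
        refine ⟨W.sub_mem x.2 x'.2, ?_⟩
        rw [h1]
        exact ⟨_, W.sub_mem y'.2 y.2, rfl⟩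
      rw [hinf, Submodule.mem_bot] at h2
      have h3 : (h : V ≃ₗ[ZMod p] V) (y'.1 - y.1) = 0 := by rw [← h1, h2]
      have h4 : y'.1 - y.1 = 0 := (LinearEquiv.map_eq_zero_iff _).1 h3
      exact Prod.ext (Subtype.ext (sub_eq_zero.1 h2)) (Subtype.ext (sub_eq_zero.1 h4).symm)
    have hApos : 0 < Nat.card A := Nat.card_pos
    have h5 : Nat.card A + 1 ≤ Nat.card W := by omega
    nlinarith
  constructor
  · exact lt_of_le_of_ne hle (fun h => hne h.ge)
  · intro hcomm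
    exact hne (hAmax _ inferInstance hcomm hle).le

end Cfsg.Agent.S0685
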