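import Cfsg.Statements.S0691
import Cfsg.Agent.Lib.Helper15Mat
import Mathlib

set_option autoImplicit false
open Cfsg

namespace Cfsg.Agent.S0691

open Cfsg.Agent.Lib.Helper15Mat

def big : ℕ := 0x30040831040421040c30810810420820021000810410c30440440c20810430c20420c01020040831030810041020021011041040810010c00c30030c30820c40c11030410010c20000010030040010810000c2002002040040100000000

def ent (a c : ℕ) : ℕ := (big >>> (30 * (a * 5 + c))) % 1073741824
def tb (a c : ℕ) : ℕ := ent a c % 64
def td (a c : ℕ) : ℕ := (ent a c / 64) % 64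
def pa (a c : ℕ) : ℕ := (ent a c / 4096) % 64
def pc (a c : ℕ) : ℕ := (ent a c / 262144) % 64
def dep (a c : ℕ) : ℕ := (ent a c / 16777216) % 64

def gens : List (ℕ × ℕ × ℕ × ℕ) := [(2, 0, 0, 3), (0, 4, 1, 0), (1, 2, 1, 3)]

theorem cert : chk 5 gens tb td pa pc dep = true := by decide +kernel

theorem cert0 : tb 1 0 = 0 ∧ td 1 0 = 1 := by decide +kernel

theorem mat_eq (M N : Matrix (Fin 2) (Fin 2) (ZMod 5)) (h00 : M 0 0 = N 0 0) (h01 : M 0 1 = N 0 1)
    (h10 : M 1 0 = N 1 0) (h11 : M 1 1 = N 1 1) : M = N := by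
  ext i j
  fin_cases i <;> fin_cases j
  · exact h00
  · exact h01
  · exact h10
  · exact h11

/-- An exceptional sharply doubly transitive group of degree 5^2: the listed matrices generate a subgroup of GL(2,5) of order 24 acting regularly on the non-zero vectors. -/
theorem result (A : Matrix.GeneralLinearGroup (Fin 2) (ZMod 5)) (B : Matrix.GeneralLinearGroup (Fin 2) (ZMod 5)) (C : Matrix.GeneralLinearGroup (Fin 2) (ZMod 5)) (hA : (A : Matrix (Fin 2) (Fin 2) (ZMod 5)) = !![2, 0; 0, -2]) (hB : (B : Matrix (Fin 2) (Fin 2) (ZMod 5)) = !![0, -1; 1, 0]) (hC : (C : Matrix (Fin 2) (Fin 2) (ZMod 5)) = !![1, 2; 1, -2]) : Nat.card (Subgroup.closure ({A, B, C} : Set (Matrix.GeneralLinearGroup (Fin 2) (ZMod 5)))) = 24 ∧ ∀ v w : Fin 2 → ZMod 5, v ≠ 0 → w ≠ 0 → ∃! h : Subgroup.closure ({A, B, C} : Set (Matrix.GeneralLinearGroup (Fin 2) (ZMod 5))), Matrix.mulVec ((h : Matrix.GeneralLinearGroup (Fin 2) (ZMod 5)) : Matrix (Fin 2) (Fin 2) (ZMod 5)) v = w := by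
  haveI : Fact (Nat.Prime 5) := ⟨by norm_num⟩
  have h := main 5 gens tb td pa pc dep cert0 cert {A, B, C} ?_ ?_
  · exact h
  · rintro x (rfl|rfl|rfl)
    · exact ⟨(2, 0, 0, 3), by simp [gens], by rw [hA]; exact mat_eq _ _ (by decide) (by decide) (by decide) (by decide)⟩
    · exact ⟨(0, 4, 1, 0), by simp [gens], by rw [hB]; exact mat_eq _ _ (by decide) (by decide) (by decide) (by decide)⟩
    · exact ⟨(1, 2, 1, 3), by simp [gens], by rw [hC]; exact mat_eq _ _ (by decide) (by decide) (by decide) (by decide)⟩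
  · intro g hg
    simp only [gens, List.mem_cons, List.not_mem_nil, or_false] at hg
    rcases hg with rfl|rfl|rfl
    · exact ⟨A, by simp, by rw [hA]; exact mat_eq _ _ (by decide) (by decide) (by decide) (by decide)⟩
    · exact ⟨B, by simp, by rw [hB]; exact mat_eq _ _ (by decide) (by decide) (by decide) (by decide)⟩
    · exact ⟨C, by simp, by rw [hC]; exact mat_eq _ _ (by decide) (by decide) (by decide) (by decide)⟩

end Cfsg.Agent.S0691
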