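import Mathlib
import Cfsg.Statements.S0694

set_option autoImplicit false
open Cfsg

namespace Cfsg.Agent.S0694

theorem modEq_one_iff {N x : ℕ} (hx : 1 ≤ x) : x ≡ 1 [MOD N] ↔ N ∣ x - 1 := by
  rw [Nat.ModEq.comm, Nat.modEq_iff_dvd' hx]

theorem dvd_iff_val {a b : ℕ} (ha : a ≠ 0) (hb : b ≠ 0) :
    a ∣ b ↔ ∀ p : ℕ, p.Prime → padicValNat p a ≤ padicValNat p b := by
  rw [← Nat.factorization_prime_le_iff_dvd ha hb]
  constructor
  · intro h p hp
    have := h p hp
    rwa [Nat.factorization_def _ hp, Nat.factorization_def _ hp] at this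
  · intro h p hp
    rw [Nat.factorization_def _ hp, Nat.factorization_def _ hp]
    exact h p hp

theorem pow_sub_one_ne {q i : ℕ} (hq : 2 ≤ q) (hi : i ≠ 0) : q ^ i - 1 ≠ 0 := by
  have : 1 < q ^ i := Nat.one_lt_pow hi (by omega)
  omega

theorem not_dvd_q {q r : ℕ} (hq : 2 ≤ q) (hr : r.Prime) (h : r ∣ q - 1) : ¬ r ∣ q := by
  intro h2
  have : r ∣ q - (q - 1) := Nat.dvd_sub h2 h
  have h3 : q - (q - 1) = 1 := by omega
  rw [h3] at this
  exact hr.one_lt.ne' (Nat.dvd_one.1 this)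

/-- LTE, odd prime. -/
theorem val_odd {q r i : ℕ} (hq : 2 ≤ q) (hr : r.Prime) (hr2 : r ≠ 2) (h : r ∣ q - 1) (hi : i ≠ 0) :
    padicValNat r (q ^ i - 1) = padicValNat r (q - 1) + padicValNat r i := by
  have : Fact r.Prime := ⟨hr⟩
  have := padicValNat.pow_sub_pow (p := r) (hr.odd_of_ne_two hr2) (x := q) (y := 1) (by omega) h
    (not_dvd_q hq hr h) hi
  rwa [one_pow] at this

/-- LTE, prime two, even exponent. -/
theorem val_two {q i : ℕ} (hq : 2 ≤ q) (h : 2 ∣ q - 1) (hi : i ≠ 0) (hev : Even i) :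
    padicValNat 2 (q ^ i - 1) + 1 = padicValNat 2 (q + 1) + padicValNat 2 (q - 1) + padicValNat 2 i := by
  have := padicValNat.pow_two_sub_pow (x := q) (y := 1) (by omega) h
    (not_dvd_q hq Nat.prime_two h) hi hev
  rwa [one_pow] at this

theorem val_trivial {q n i r : ℕ} (hq : 2 ≤ q) (hr : r.Prime) (hrn : ¬ r ∣ n) (hi : i ≠ 0) :
    padicValNat r n + padicValNat r (q - 1) ≤ padicValNat r (q ^ i - 1) := by
  rw [padicValNat.eq_zero_of_not_dvd hrn, zero_add]
  have h1 : q - 1 ∣ q ^ i - 1 := by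
    have := Nat.sub_dvd_pow_sub_pow q 1 i
    rwa [one_pow] at this
  exact (dvd_iff_val (by omega) (pow_sub_one_ne hq hi)).1 h1 r hr

/-- the divisibility in terms of valuations -/
theorem D_iff {q n i : ℕ} (hq : 2 ≤ q) (hn : n ≠ 0) (hi : i ≠ 0) :
    q ^ i ≡ 1 [MOD n * (q - 1)] ↔
      ∀ r : ℕ, r.Prime → padicValNat r n + padicValNat r (q - 1) ≤ padicValNat r (q ^ i - 1) := by
  rw [modEq_one_iff (Nat.one_le_pow _ _ (by omega)),
    dvd_iff_val (Nat.mul_ne_zero hn (by omega)) (pow_sub_one_ne hq hi)]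
  constructor
  · intro h r hr
    have : Fact r.Prime := ⟨hr⟩
    have := h r hr
    rwa [padicValNat.mul hn (by omega)] at this
  · intro h r hr
    have : Fact r.Prime := ⟨hr⟩
    rw [padicValNat.mul hn (by omega)]
    exact h r hr

/-- parity: if `2 ∣ n`, `q` odd and the congruence holds for `i` then `i` is even -/
theorem even_of_D {q n i : ℕ} (hq : 2 ≤ q) (h2 : 2 ∣ q - 1) (hn : 2 ∣ n)
    (h : q ^ i ≡ 1 [MOD n * (q - 1)]) : Even i := by
  by_contra hodd
  rw [Nat.not_even_iff_odd] at hodd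
  obtain ⟨k, rfl⟩ := hodd
  obtain ⟨t, ht⟩ := h2
  have hq' : q = 2 * t + 1 := by omega
  have h1 : q ^ (2 * k + 1) ≡ 1 [MOD 2 * (q - 1)] := h.of_dvd (Nat.mul_dvd_mul_right hn _)
  have h2 : q ^ 2 ≡ 1 [MOD 2 * (q - 1)] := by
    rw [modEq_one_iff (Nat.one_le_pow _ _ (by omega)), ht]
    refine ⟨t + 1, ?_⟩
    have : q ^ 2 = 2 * (2 * t) * (t + 1) + 1 := by rw [hq']; ring
    omega
  have h3 : q ^ (2 * k + 1) ≡ q [MOD 2 * (q - 1)] := by
    have := (h2.pow k).mul_right q
    rwa [one_pow, one_mul, ← pow_mul, ← pow_succ] at this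
  have h4 : q ≡ 1 [MOD 2 * (q - 1)] := h3.symm.trans h1
  rw [modEq_one_iff (by omega)] at h4
  have := Nat.le_of_dvd (by omega) h4
  omega

theorem forward (q n : ℕ) (hq : 2 ≤ q) (hn : 1 < n)
    (hA : ∀ r : ℕ, r.Prime → r ∣ n → r ∣ q - 1) (hA4 : 4 ∣ n → 4 ∣ q - 1) :
    q ^ n ≡ 1 [MOD n * (q - 1)] ∧ ∀ i : ℕ, 0 < i → i < n → ¬ q ^ i ≡ 1 [MOD n * (q - 1)] := by
  have hn0 : n ≠ 0 := by omega
  constructor
  · rw [D_iff hq hn0 hn0]
    intro r hr
    by_cases hrn : r ∣ n
    · by_cases hr2 : r = 2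
      · subst hr2
        have h1 := val_two hq (hA 2 hr hrn) hn0 (even_iff_two_dvd.2 hrn)
        have h2 : 1 ≤ padicValNat 2 (q + 1) := by
          apply one_le_padicValNat_of_dvd (by omega)
          have := hA 2 hr hrn
          omega
        omega
      · rw [val_odd hq hr hr2 (hA r hr hrn) hn0]; omega
    · exact val_trivial hq hr hrn hn0
  · intro i hi hin hD
    have hi0 : i ≠ 0 := by omega
    have hdvd : n ∣ i := by
      rw [dvd_iff_val hn0 hi0]
      intro r hr
      have hDr := (D_iff hq hn0 hi0).1 hD r hr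
      by_cases hrn : r ∣ n
      · by_cases hr2 : r = 2
        · subst hr2
          have hev := even_of_D hq (hA 2 hr hrn) hrn hD
          have h1 := val_two hq (hA 2 hr hrn) hi0 hev
          by_cases h4 : 4 ∣ n
          · have h4q := hA4 h4
            have h2 : padicValNat 2 (q + 1) = 1 := by
              have h3 : 1 ≤ padicValNat 2 (q + 1) := by
                apply one_le_padicValNat_of_dvd (by omega)
                omega
              have h5 : ¬ 2 ≤ padicValNat 2 (q + 1) := by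
                rw [← padicValNat_dvd_iff_le (by omega)]
                omega
              omega
            omega
          · have h2 : ¬ 2 ≤ padicValNat 2 n := by
              rw [← padicValNat_dvd_iff_le hn0]
              exact h4
            have h3 : 1 ≤ padicValNat 2 i :=
              one_le_padicValNat_of_dvd hi0 (even_iff_two_dvd.1 hev)
            omega
        · rw [val_odd hq hr hr2 (hA r hr hrn) hi0] at hDr; omega
      · rw [padicValNat.eq_zero_of_not_dvd hrn]; omega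
    have := Nat.le_of_dvd hi hdvd
    omega

theorem back2 (q n : ℕ) (hq : 2 ≤ q)
    (hA : ∀ r : ℕ, r.Prime → r ∣ n → r ∣ q - 1)
    (hB' : ∀ i : ℕ, 0 < i → i < n → ¬ q ^ i ≡ 1 [MOD n * (q - 1)]) (hn : 1 < n) (h4 : 4 ∣ n) :
    4 ∣ q - 1 := by
  by_contra h4q
  obtain ⟨k, hk⟩ := h4
  have h2q : 2 ∣ q - 1 := hA 2 Nat.prime_two (by omega)
  apply hB' (2 * k) (by omega) (by omega)
  rw [D_iff hq (by omega) (by omega)]
  intro r hr
  have : Fact r.Prime := ⟨hr⟩
  have hn2 : n = 2 * (2 * k) := by omega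
  by_cases hrn : r ∣ n
  · by_cases hr2 : r = 2
    · subst hr2
      have h1 := val_two hq h2q (i := 2 * k) (by omega) (by simp)
      have h2 : 2 ≤ padicValNat 2 (q + 1) := by
        rw [← padicValNat_dvd_iff_le (by omega)]
        omega
      have h3 : padicValNat 2 n = 1 + padicValNat 2 (2 * k) := by
        rw [hn2, padicValNat.mul (by omega) (by omega)]
        simp
      omega
    · rw [val_odd hq hr hr2 (hA r hr hrn) (by omega)]
      have h3 : padicValNat r n = padicValNat r (2 * k) := by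
        rw [hn2, padicValNat.mul (by omega) (by omega), padicValNat.eq_zero_of_not_dvd, zero_add]
        intro h
        exact hr2 ((Nat.prime_dvd_prime_iff_eq hr Nat.prime_two).1 h)
      omega
  · exact val_trivial hq hr hrn (by omega)

theorem back1 (q n : ℕ) (hq : 2 ≤ q) (hn : 1 < n)
    (hB : q ^ n ≡ 1 [MOD n * (q - 1)])
    (hB' : ∀ i : ℕ, 0 < i → i < n → ¬ q ^ i ≡ 1 [MOD n * (q - 1)]) :
    ∀ r : ℕ, r.Prime → r ∣ n → r ∣ q - 1 := by
  by_contra hcon
  push Not at hcon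
  obtain ⟨r0, hr0, hr0n, hr0q⟩ := hcon
  have hn0 : n ≠ 0 := by omega
  let s := n.primeFactors.filter (fun r => ¬ r ∣ q - 1)
  have hs : s.Nonempty := ⟨r0, by
    simp only [s, Finset.mem_filter, Nat.mem_primeFactors]
    exact ⟨⟨hr0, hr0n, hn0⟩, hr0q⟩⟩
  obtain ⟨r, hrs, hmax⟩ := s.exists_max_image id hs
  simp only [s, Finset.mem_filter, Nat.mem_primeFactors] at hrs
  obtain ⟨⟨hr, hrn, -⟩, hrq⟩ := hrs
  have hmax' : ∀ t : ℕ, t.Prime → t ∣ n → ¬ t ∣ q - 1 → t ≤ r := by
    intro t ht htn htq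
    exact hmax t (by
      simp only [s, Finset.mem_filter, Nat.mem_primeFactors]
      exact ⟨⟨ht, htn, hn0⟩, htq⟩)
  have hrF : Fact r.Prime := ⟨hr⟩
  obtain ⟨i, hi⟩ := hrn
  have hr2 := hr.two_le
  have hi0 : 0 < i := by
    rcases Nat.eq_zero_or_pos i with h | h
    · subst h; omega
    · exact h
  have hilt : i < n := by
    rw [hi]; nlinarith
  apply hB' i hi0 hilt
  obtain ⟨X, hX⟩ : ∃ X, q ^ i = X + 1 :=
    ⟨q ^ i - 1, by have := Nat.one_le_pow i q (by omega); omega⟩
  obtain ⟨T, hTdef⟩ : ∃ T, T = ∑ j ∈ Finset.range r, (X + 1) ^ j := ⟨_, rfl⟩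
  have hT : T * X + 1 = q ^ n := by
    rw [hi, mul_comm r i, pow_mul, hX, hTdef]
    exact geom_sum_mul_add X r
  have hdvd : n * (q - 1) ∣ T * X := by
    have := (modEq_one_iff (Nat.one_le_pow _ _ (by omega))).1 hB
    rw [← hT] at this
    simpa using this
  rw [modEq_one_iff (Nat.one_le_pow _ _ (by omega)), hX, Nat.add_sub_cancel]
  obtain ⟨a, n', hn', hna⟩ := Nat.exists_eq_pow_mul_and_not_dvd hn0 r hr.ne_one
  have hcop : Nat.Coprime (r ^ a) (n' * (q - 1)) :=
    Nat.Coprime.pow_left _ ((Nat.Prime.coprime_iff_not_dvd hr).2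
      (fun h => (hr.dvd_mul.1 h).elim hn' hrq))
  have hq1X : q - 1 ∣ X := by
    have := Nat.sub_dvd_pow_sub_pow q 1 i
    rw [one_pow, hX, Nat.add_sub_cancel] at this
    exact this
  rw [hna, mul_assoc]
  apply Nat.Coprime.mul_dvd_of_dvd_of_dvd hcop
  · -- the `r`-part
    rcases a with _ | b
    · exfalso
      apply hn'
      rw [pow_zero, one_mul] at hna
      rw [← hna, hi]
      exact dvd_mul_right _ _
    have hi' : i = n' * r ^ b := by
      have : r * i = r * (n' * r ^ b) := by rw [← hi, hna]; ring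
      exact Nat.eq_of_mul_eq_mul_left hr.pos this
    have h1 : ((q : ZMod r)) ^ n = 1 := by
      have h2 : r ∣ T * X := dvd_trans (dvd_trans ⟨i, hi⟩ (dvd_mul_right n (q - 1))) hdvd
      have h3 : ((T * X + 1 : ℕ) : ZMod r) = ((q ^ n : ℕ) : ZMod r) := by rw [hT]
      rw [Nat.cast_add, (ZMod.natCast_eq_zero_iff _ _).2 h2] at h3
      push_cast at h3
      rw [← h3]; simp
    have h2 : ((q : ZMod r)) ^ n' = 1 := by
      rw [hna, mul_comm, pow_mul, ZMod.pow_card_pow] at h1
      exact h1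
    have h3 : ((r : ℕ) : ℤ) ∣ (q : ℤ) ^ n' - 1 := by
      rw [← ZMod.intCast_zmod_eq_zero_iff_dvd]
      push_cast
      rw [h2]; simp
    have h4 := dvd_sub_pow_of_dvd_sub h3 b
    rw [one_pow, ← pow_mul, ← hi'] at h4
    have h5 : (q : ℤ) ^ i - 1 = (X : ℤ) := by
      have : ((q ^ i : ℕ) : ℤ) = ((X + 1 : ℕ) : ℤ) := by rw [hX]
      push_cast at this
      linarith
    rw [h5] at h4
    exact_mod_cast h4
  · -- the part prime to `r`
    have h1 : n' * (q - 1) ∣ T * X := dvd_trans ⟨r ^ a, by rw [hna]; ring⟩ hdvd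
    refine Nat.Coprime.dvd_of_dvd_mul_left ?_ h1
    apply Nat.coprime_of_dvd
    intro t ht htd htT
    have htF : Fact t.Prime := ⟨ht⟩
    have htr : t ≠ r := by
      rintro rfl
      exact (hr.dvd_mul.1 htd).elim hn' hrq
    have hT0 : (T : ZMod t) = 0 := (ZMod.natCast_eq_zero_iff _ _).2 htT
    by_cases htX : t ∣ X
    · have hX0 : (X : ZMod t) = 0 := (ZMod.natCast_eq_zero_iff _ _).2 htX
      have h2 : (T : ZMod t) = (r : ZMod t) := by
        rw [hTdef]
        push_cast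
        rw [hX0]
        simp
      rw [hT0] at h2
      have h3 : t ∣ r := (ZMod.natCast_eq_zero_iff _ _).1 h2.symm
      exact htr ((Nat.prime_dvd_prime_iff_eq ht hr).1 h3)
    · have hQ1 : ((X : ZMod t) + 1) ≠ 1 := by
        intro h
        apply htX
        rw [← ZMod.natCast_eq_zero_iff]
        simpa using h
      have hQr : ((X : ZMod t) + 1) ^ r = 1 := by
        have h3 : ((T * X + 1 : ℕ) : ZMod t) = (((X + 1) ^ r : ℕ) : ZMod t) := by
          rw [hT, hi, mul_comm r i, pow_mul, hX]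
        push_cast at h3
        rw [← h3, hT0]; simp
      have hord : orderOf ((X : ZMod t) + 1) = r := orderOf_eq_prime hQr hQ1
      have hQ0 : ((X : ZMod t) + 1) ≠ 0 := by
        intro h
        rw [h, zero_pow hr.ne_zero] at hQr
        exact zero_ne_one hQr
      have h4 := ZMod.orderOf_dvd_card_sub_one hQ0
      rw [hord] at h4
      have h5 : r ≤ t - 1 := Nat.le_of_dvd (by have := ht.two_le; omega) h4
      have htq : ¬ t ∣ q - 1 := fun h => htX (dvd_trans h hq1X)
      have htn : t ∣ n := by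
        rcases ht.dvd_mul.1 htd with h | h
        · rw [hna]; exact dvd_mul_of_dvd_right h _
        · exact absurd h htq
      have := hmax' t ht htn htq
      have := ht.two_le
      omega

/-- The Dickson pair condition: for a prime power `q` and `n > 1`, (every prime factor of `n` divides `q - 1`, and `4 ∣ n → 4 ∣ q - 1`) holds exactly when `q ^ n ≡ 1` modulo `n * (q - 1)` but `q ^ i` is not, for `0 < i < n`. -/
theorem result (q n : ℕ) (hq : IsPrimePow q) (hn : 1 < n) : ((∀ r : ℕ, r.Prime → r ∣ n → r ∣ q - 1) ∧ (4 ∣ n → 4 ∣ q - 1)) ↔ (q ^ n ≡ 1 [MOD n * (q - 1)] ∧ ∀ i : ℕ, 0 < i → i < n → ¬ q ^ i ≡ 1 [MOD n * (q - 1)]) := by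
  have hq2 : 2 ≤ q := hq.two_le
  constructor
  · rintro ⟨h1, h2⟩
    exact forward q n hq2 hn h1 h2
  · rintro ⟨h1, h2⟩
    have h3 := back1 q n hq2 hn h1 h2
    exact ⟨h3, back2 q n hq2 h3 h2 hn⟩

end Cfsg.Agent.S0694
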