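import Cfsg.Statements.S0695
import Mathlib

set_option autoImplicit false
open Cfsg

namespace Cfsg.Agent.S0695

open MulAction
open scoped Pointwise

theorem reg_inj {G : Type*} [Group G] {X : Type*} [MulAction G X] (N : Subgroup G)
    (hreg : ∀ x : X, MulAction.stabilizer N x = ⊥) (n n' : G) (hn : n ∈ N) (hn' : n' ∈ N) (x : X)
    (h : n • x = n' • x) : n = n' := by
  have h1 : (⟨n'⁻¹ * n, N.mul_mem (N.inv_mem hn') hn⟩ : N) ∈ stabilizer N x := by
    rw [mem_stabilizer_iff]
    change (n'⁻¹ * n) • x = x
    rw [mul_smul, h, inv_smul_smul]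
  rw [hreg, Subgroup.mem_bot] at h1
  have h2 : n'⁻¹ * n = 1 := congrArg Subtype.val h1
  exact (inv_mul_eq_one.mp h2).symm

theorem card_eq {G : Type*} [Group G] {X : Type*} [Fintype X] [MulAction G X] (N : Subgroup G)
    (htrans : MulAction.IsPretransitive N X)
    (hreg : ∀ x : X, MulAction.stabilizer N x = ⊥) (a : X) : Finite N ∧ Nat.card N = Fintype.card X := by
  have e : N ≃ X := Equiv.ofBijective (fun n => n • a) ⟨by
    intro n n' h
    exact Subtype.ext (reg_inj N hreg n n' n.2 n'.2 a h), fun b => htrans.exists_smul_eq a b⟩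
  exact ⟨Finite.of_equiv _ e.symm, by rw [Nat.card_congr e, Nat.card_eq_fintype_card]⟩

/-- A regular normal subgroup of a doubly primitive group of finite degree at least 2 is an elementary abelian 2-group (and the degree is a power of 2), unless the degree is 3. -/
theorem result {G : Type*} [Group G] {X : Type*} [Fintype X] [MulAction G X] (hX : 2 ≤ Fintype.card X) (h2 : MulAction.IsMultiplyPreprimitive G X 2) (N : Subgroup G) [N.Normal] (htrans : MulAction.IsPretransitive N X) (hreg : ∀ x : X, MulAction.stabilizer N x = ⊥) : Fintype.card X = 3 ∨ (IsMulCommutative N ∧ (∀ n ∈ N, n ^ 2 = 1) ∧ ∃ m : ℕ, Fintype.card X = 2 ^ m) := by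
  classical
  have hne : Nonempty X := Fintype.card_pos_iff.mp (by omega)
  obtain ⟨a⟩ := hne
  have htG : IsPretransitive G X :=
    ⟨fun x y => by obtain ⟨n, hn⟩ := htrans.exists_smul_eq x y; exact ⟨n, hn⟩⟩
  have hprim : IsPreprimitive (stabilizer G a) (SubMulAction.ofStabilizer G a) := by
    rw [← is_one_preprimitive_iff]
    have : IsMultiplyPreprimitive G X (Nat.succ 1) := h2
    exact isMultiplyPreprimitive_ofStabilizer G X
  by_cases hsq : ∀ n ∈ N, n ^ 2 = 1
  · right
    have hinv : ∀ n ∈ N, n⁻¹ = n := by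
      intro n hn
      have := hsq n hn
      rw [pow_two] at this
      exact inv_eq_of_mul_eq_one_left this
    refine ⟨⟨⟨fun x y => ?_⟩⟩, hsq, ?_⟩
    · apply Subtype.ext
      change (x : G) * y = y * x
      have h1 := hinv _ (N.mul_mem x.2 y.2)
      rw [mul_inv_rev, hinv _ x.2, hinv _ y.2] at h1
      exact h1.symm
    · obtain ⟨hfin, hc⟩ := card_eq N htrans hreg a
      have hpg : IsPGroup 2 N := by
        intro y
        refine ⟨1, ?_⟩
        rw [pow_one]
        exact Subtype.ext (hsq y y.2)
      have : Fact (Nat.Prime 2) := ⟨Nat.prime_two⟩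
      obtain ⟨m, hm⟩ := IsPGroup.iff_card.mp hpg
      exact ⟨m, by rw [← hc, hm]⟩
  · left
    push Not at hsq
    obtain ⟨n, hn, hn2⟩ := hsq
    have hnn : n ≠ n⁻¹ := by
      intro h
      apply hn2
      rw [pow_two]
      nth_rewrite 1 [h]
      exact inv_mul_cancel n
    have hn1 : n ≠ 1 := by
      rintro rfl
      simp at hn2
    have hblock : IsBlock (stabilizer G a) ({n • a, n⁻¹ • a} : Set X) := by
      rw [isBlock_iff_smul_eq_of_mem]
      intro g x hx hgx
      have hn'N : (g : G) * n * (g : G)⁻¹ ∈ N := ‹N.Normal›.conj_mem n hn g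
      have hga : (g : G) • a = a := g.2
      have e1 : g • (n • a) = ((g : G) * n * (g : G)⁻¹) • a := by
        rw [mul_smul, mul_smul, inv_smul_eq_iff.mpr hga.symm]; rfl
      have e2 : g • (n⁻¹ • a) = ((g : G) * n * (g : G)⁻¹)⁻¹ • a := by
        rw [mul_inv_rev, mul_inv_rev, inv_inv, mul_smul, mul_smul, inv_smul_eq_iff.mpr hga.symm]; rfl
      generalize (g : G) * n * (g : G)⁻¹ = n' at hn'N e1 e2
      have key : n' = n ∨ n' = n⁻¹ := by
        rcases hx with rfl | rfl
        · rw [e1] at hgx
          rcases hgx with h | h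
          · exact Or.inl (reg_inj N hreg _ _ hn'N hn a h)
          · exact Or.inr (reg_inj N hreg _ _ hn'N (N.inv_mem hn) a h)
        · rw [e2] at hgx
          rcases hgx with h | h
          · right
            have := reg_inj N hreg _ _ (N.inv_mem hn'N) hn a h
            rw [← this, inv_inv]
          · left
            have := reg_inj N hreg _ _ (N.inv_mem hn'N) (N.inv_mem hn) a h
            exact inv_injective this
      rw [Set.smul_set_insert, Set.smul_set_singleton, e1, e2]
      rcases key with rfl | rfl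
      · rfl
      · rw [inv_inv, Set.pair_comm]
    have h1 : n • a ≠ a := by
      intro h
      exact hn1 (reg_inj N hreg _ _ hn N.one_mem a (by rw [h, one_smul]))
    have h2' : n⁻¹ • a ≠ a := by
      intro h
      apply hn1
      have := reg_inj N hreg _ _ (N.inv_mem hn) N.one_mem a (by rw [h, one_smul])
      exact inv_eq_one.mp this
    have h3 : n • a ≠ n⁻¹ • a := fun h => hnn (reg_inj N hreg _ _ hn (N.inv_mem hn) a h)
    have hB := hprim.isTrivialBlock_of_isBlock
      (hblock.subtype_val_preimage (C := SubMulAction.ofStabilizer G a))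
    rcases hB with hB | hB
    · exfalso
      have := hB (x := ⟨n • a, h1⟩) (Or.inl rfl) (y := ⟨n⁻¹ • a, h2'⟩) (Or.inr rfl)
      exact h3 (congrArg Subtype.val this)
    · rw [← Finset.card_univ, Finset.card_eq_three]
      refine ⟨a, n • a, n⁻¹ • a, h1.symm, h2'.symm, h3, ?_⟩
      ext x
      simp only [Finset.mem_univ, Finset.mem_insert, Finset.mem_singleton, true_iff]
      by_cases hx : x = a
      · exact Or.inl hx
      · right
        have : (⟨x, hx⟩ : SubMulAction.ofStabilizer G a) ∈ (Subtype.val ⁻¹' ({n • a, n⁻¹ • a} : Set X) : Set (SubMulAction.ofStabilizer G a)) := by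
          rw [hB]; trivial
        exact this

end Cfsg.Agent.S0695
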