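import Cfsg.Statements.S0696
import Cfsg.Agent.S0695
import Mathlib

set_option autoImplicit false
open Cfsg

namespace Cfsg.Agent.S0696

open MulAction Cfsg.Agent.S0695
open scoped Pointwise

/-- A triply primitive group of degree at least 3 having a regular normal subgroup has degree 3 or 4. -/
theorem result {G : Type*} [Group G] {X : Type*} [Fintype X] [MulAction G X] (hX : 3 ≤ Fintype.card X) (h3 : MulAction.IsMultiplyPreprimitive G X 3) (N : Subgroup G) [N.Normal] (htrans : MulAction.IsPretransitive N X) (hreg : ∀ x : X, MulAction.stabilizer N x = ⊥) : Fintype.card X = 3 ∨ Fintype.card X = 4 := by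
  classical
  have h2 : IsMultiplyPreprimitive G X 2 := by
    apply isMultiplyPreprimitive_of_le G X h3 (by norm_num)
    rw [ENat.card_eq_coe_fintype_card]
    exact_mod_cast hX
  rcases Cfsg.Agent.S0695.result (by omega) h2 N htrans hreg with h | ⟨-, hsq, -⟩
  · exact Or.inl h
  have hne : Nonempty X := Fintype.card_pos_iff.mp (by omega)
  obtain ⟨a⟩ := hne
  obtain ⟨b, hb⟩ : ∃ b, b ∉ ({a} : Finset X) := by
    by_contra hcon
    push Not at hcon
    have : (Finset.univ : Finset X) ⊆ {a} := fun x _ => hcon x
    have := Finset.card_le_card this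
    rw [Finset.card_univ, Finset.card_singleton] at this
    omega
  obtain ⟨c, hc⟩ : ∃ c, c ∉ ({a, b} : Finset X) := by
    by_contra hcon
    push Not at hcon
    have : (Finset.univ : Finset X) ⊆ {a, b} := fun x _ => hcon x
    have := Finset.card_le_card this
    have h' := Finset.card_le_two (a := a) (b := b)
    rw [Finset.card_univ] at this
    omega
  simp only [Finset.mem_singleton] at hb
  simp only [Finset.mem_insert, Finset.mem_singleton, not_or] at hc
  obtain ⟨⟨n, hn⟩, hna⟩ := htrans.exists_smul_eq a b
  obtain ⟨⟨m, hm⟩, hma⟩ := htrans.exists_smul_eq a c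
  change n • a = b at hna
  change m • a = c at hma
  have hnn : n * n = 1 := by rw [← pow_two]; exact hsq n hn
  have hprim : IsPreprimitive (fixingSubgroup G ({a, b} : Set X)) (SubMulAction.ofFixingSubgroup G ({a, b} : Set X)) := by
    apply IsMultiplyPreprimitive.isPreprimitive_ofFixingSubgroup G 3
    rw [Set.encard_pair (Ne.symm hb)]
    rfl
  have hblock : IsBlock (fixingSubgroup G ({a, b} : Set X)) ({m • a, (m * n) • a} : Set X) := by
    rw [isBlock_iff_smul_eq_of_mem]
    intro g x hx hgx
    have hga : (g : G) • a = a := (mem_fixingSubgroup_iff G).mp g.2 a (by simp)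
    have hgb : (g : G) • b = b := (mem_fixingSubgroup_iff G).mp g.2 b (by simp)
    have hgn : (g : G) * n * (g : G)⁻¹ = n := by
      apply reg_inj N hreg _ _ (‹N.Normal›.conj_mem n hn g) hn a
      rw [mul_smul, mul_smul, inv_smul_eq_iff.mpr hga.symm, hna, hgb]
    have hm'N : (g : G) * m * (g : G)⁻¹ ∈ N := ‹N.Normal›.conj_mem m hm g
    have e1 : g • (m • a) = ((g : G) * m * (g : G)⁻¹) • a := by
      rw [mul_smul, mul_smul, inv_smul_eq_iff.mpr hga.symm]; rfl
    have e2 : g • ((m * n) • a) = (((g : G) * m * (g : G)⁻¹) * n) • a := by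
      nth_rewrite 2 [← hgn]
      have : (g : G) * m * (g : G)⁻¹ * ((g : G) * n * (g : G)⁻¹) = (g : G) * (m * n) * (g : G)⁻¹ := by group
      rw [this, mul_smul ((g : G) * (m * n)), mul_smul (g : G), inv_smul_eq_iff.mpr hga.symm]; rfl
    generalize (g : G) * m * (g : G)⁻¹ = m' at hm'N e1 e2
    have key : m' = m ∨ m' = m * n := by
      rcases hx with rfl | rfl
      · rw [e1] at hgx
        rcases hgx with h | h
        · exact Or.inl (reg_inj N hreg _ _ hm'N hm a h)
        · exact Or.inr (reg_inj N hreg _ _ hm'N (N.mul_mem hm hn) a h)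
      · rw [e2] at hgx
        rcases hgx with h | h
        · right
          have := reg_inj N hreg _ _ (N.mul_mem hm'N hn) hm a h
          rw [← this, mul_assoc, hnn, mul_one]
        · left
          have := reg_inj N hreg _ _ (N.mul_mem hm'N hn) (N.mul_mem hm hn) a h
          exact mul_right_cancel this
    rw [Set.smul_set_insert, Set.smul_set_singleton, e1, e2]
    rcases key with rfl | rfl
    · rfl
    · rw [mul_assoc, hnn, mul_one, Set.pair_comm]
  have hn1 : n ≠ 1 := by
    rintro rfl
    rw [one_smul] at hna
    exact hb hna.symm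
  have k1 : m • a ∉ ({a, b} : Set X) := by
    rw [hma]
    simp only [Set.mem_insert_iff, Set.mem_singleton_iff, not_or]
    exact hc
  have k2 : (m * n) • a ∉ ({a, b} : Set X) := by
    simp only [Set.mem_insert_iff, Set.mem_singleton_iff, not_or]
    constructor
    · intro h
      have := reg_inj N hreg _ _ (N.mul_mem hm hn) N.one_mem a (by rw [h, one_smul])
      have h' : m = n := by
        calc m = m * (n * n) := by rw [hnn, mul_one]
          _ = (m * n) * n := (mul_assoc _ _ _).symm
          _ = n := by rw [this, one_mul]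
      apply hc.2
      rw [← hma, h', hna]
    · intro h
      rw [← hna] at h
      have := reg_inj N hreg _ _ (N.mul_mem hm hn) hn a h
      have h' : m = 1 := mul_eq_right.mp this
      apply hc.1
      rw [← hma, h', one_smul]
  have k3 : m • a ≠ (m * n) • a := by
    intro h
    have := reg_inj N hreg _ _ hm (N.mul_mem hm hn) a h
    exact hn1 (left_eq_mul.mp this)
  have hB := hprim.isTrivialBlock_of_isBlock
    (hblock.subtype_val_preimage (C := SubMulAction.ofFixingSubgroup G ({a, b} : Set X)))
  rcases hB with hB | hB
  · exfalso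
    have := hB (x := ⟨m • a, k1⟩) (Or.inl rfl) (y := ⟨(m * n) • a, k2⟩) (Or.inr rfl)
    exact k3 (congrArg Subtype.val this)
  · have hsub : (Finset.univ : Finset X) ⊆ {a, b, m • a, (m * n) • a} := by
      intro x _
      simp only [Finset.mem_insert, Finset.mem_singleton]
      by_cases hx : x ∈ ({a, b} : Set X)
      · rcases hx with h | h
        · exact Or.inl h
        · exact Or.inr (Or.inl h)
      · right; right
        have : (⟨x, hx⟩ : SubMulAction.ofFixingSubgroup G ({a, b} : Set X)) ∈ (Subtype.val ⁻¹' ({m • a, (m * n) • a} : Set X) : Set (SubMulAction.ofFixingSubgroup G ({a, b} : Set X))) := by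
          rw [hB]; trivial
        exact this
    have h4 := Finset.card_le_card hsub
    have h5 := Finset.card_le_four (a := a) (b := b) (c := m • a) (d := (m * n) • a)
    rw [Finset.card_univ] at h4
    omega

end Cfsg.Agent.S0696
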