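import Cfsg.Statements.S0697
import Cfsg.Agent.S0680
import Cfsg.Agent.S0696
import Mathlib

set_option autoImplicit false
open Cfsg

namespace Cfsg.Agent.S0697

open MulAction SubMulAction
open scoped Pointwise

universe u v

/-- transfer of multiple transitivity between two descriptions of the stabiliser in a subgroup -/
theorem transfer {G : Type u} {X : Type v} [Group G] [MulAction G X] (H : Subgroup G) (a : X) (n : ℕ)
    (h : IsMultiplyPretransitive (H.subgroupOf (stabilizer G a)) (ofStabilizer G a) n) :
    IsMultiplyPretransitive (stabilizer H a) (ofStabilizer H a) n := by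
  let σ : H.subgroupOf (stabilizer G a) → stabilizer H a := fun x =>
    ⟨⟨((x : stabilizer G a) : G), Subgroup.mem_subgroupOf.mp x.2⟩, (x : stabilizer G a).2⟩
  let f : ofStabilizer G a →ₑ[σ] ofStabilizer H a :=
    { toFun := fun x => ⟨x.1, x.2⟩
      map_smul' := fun m x => rfl }
  have hf : Function.Surjective f := fun y => ⟨⟨y.1, y.2⟩, rfl⟩
  exact IsPretransitive.of_embedding hf

theorem faithful_stab {G : Type u} {X : Type v} [Group G] [MulAction G X] [FaithfulSMul G X] (a : X) :
    FaithfulSMul (stabilizer G a) (ofStabilizer G a) := by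
  constructor
  intro g g' h
  apply Subtype.ext
  apply FaithfulSMul.eq_of_smul_eq_smul (α := X)
  intro x
  by_cases hx : x = a
  · rw [hx]
    exact g.2.trans g'.2.symm
  · exact congrArg Subtype.val (h ⟨x, hx⟩)

theorem normal_trans {G : Type u} {X : Type v} [Group G] [MulAction G X] [FaithfulSMul G X]
    [IsPreprimitive G X] (H : Subgroup G) [H.Normal] (h : G) (hh : h ∈ H) (h1 : h ≠ 1) :
    IsPretransitive H X := by
  apply IsQuasiPreprimitive.isPretransitive_of_normal
  intro hfix
  apply h1
  apply FaithfulSMul.eq_of_smul_eq_smul (α := X)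
  intro x
  have : x ∈ fixedPoints H X := by rw [hfix]; trivial
  rw [one_smul]
  exact this ⟨h, hh⟩

theorem gen (k : ℕ) (hk : 1 ≤ k) : ∀ {G : Type u} {X : Type v} [Group G] [MulAction G X] [Finite X]
    [FaithfulSMul G X], k ≤ Nat.card X → IsMultiplyPreprimitive G X k →
    (¬ IsMultiplyPretransitive G X (Nat.card X - 1) ∨ k + 1 < Nat.card X) →
    ∀ (H : Subgroup G) [H.Normal], (∃ a : X, ∃ h ∈ H, h ≠ 1 ∧ h • a = a) →
    IsMultiplyPretransitive H X k := by
  induction k, hk using Nat.le_induction with
  | base =>
    intro G X _ _ _ _ _ hG _ H _ hnr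
    obtain ⟨a, h, hh, h1, -⟩ := hnr
    have : IsPreprimitive G X := (is_one_preprimitive_iff G X).mp hG
    exact is_one_pretransitive_iff.mpr (normal_trans H h hh h1)
  | succ k hk ih =>
    intro G X _ _ _ _ hkX hG hS H _ hnr
    classical
    obtain ⟨a, h, hh, h1, hha⟩ := hnr
    have hENat : ((k + 1 : ℕ) : ℕ∞) ≤ ENat.card X := by
      have := Fintype.ofFinite X
      rw [ENat.card_eq_coe_fintype_card, ← Nat.card_eq_fintype_card]
      exact_mod_cast hkX
    have hprim1 : IsPreprimitive G X :=
      (is_one_preprimitive_iff G X).mp (isMultiplyPreprimitive_of_le G X hG (by omega) hENat)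
    have hHtr : IsPretransitive H X := normal_trans H h hh h1
    have hGa : IsMultiplyPreprimitive (stabilizer G a) (ofStabilizer G a) k :=
      isMultiplyPreprimitive_ofStabilizer G X
    have hcardXa : Nat.card (ofStabilizer G a) = Nat.card X - 1 := nat_card_ofStabilizer_eq G a
    have hfa : FaithfulSMul (stabilizer G a) (ofStabilizer G a) := faithful_stab a
    have hkXa : k ≤ Nat.card (ofStabilizer G a) := by omega
    suffices hsuff : IsMultiplyPretransitive (H.subgroupOf (stabilizer G a)) (ofStabilizer G a) k from
      (ofStabilizer.isMultiplyPretransitive (G := H) (a := a)).mpr (transfer H a k hsuff)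
    by_cases hsr : ∃ b : ofStabilizer G a, ∃ h' ∈ H.subgroupOf (stabilizer G a), h' ≠ 1 ∧ h' • b = b
    · apply ih hkXa hGa _ _ hsr
      rcases hS with hS | hS
      · left
        intro hcon
        apply hS
        have h2 : Nat.card X - 1 = (Nat.card (ofStabilizer G a) - 1).succ := by omega
        rw [h2]
        exact (ofStabilizer.isMultiplyPretransitive (G := G) (a := a)).mpr hcon
      · right
        omega
    · push Not at hsr
      have hENat' : ((k : ℕ) : ℕ∞) ≤ ENat.card (ofStabilizer G a) := by
        have := Fintype.ofFinite (ofStabilizer G a)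
        rw [ENat.card_eq_coe_fintype_card, ← Nat.card_eq_fintype_card]
        exact_mod_cast hkXa
      have hGa1 : IsPreprimitive (stabilizer G a) (ofStabilizer G a) :=
        (is_one_preprimitive_iff _ _).mp (isMultiplyPreprimitive_of_le _ _ hGa hk hENat')
      have hHatr : IsPretransitive (H.subgroupOf (stabilizer G a)) (ofStabilizer G a) :=
        normal_trans (H.subgroupOf (stabilizer G a)) ⟨h, hha⟩ (Subgroup.mem_subgroupOf.mpr hh)
          (fun hc => h1 (congrArg Subtype.val hc))
      rcases Nat.eq_or_lt_of_le hk with rfl | hk2
      · exact is_one_pretransitive_iff.mpr hHatr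
      · exfalso
        have hH2 : IsMultiplyPretransitive H X 2 :=
          (ofStabilizer.isMultiplyPretransitive (G := H) (a := a) (n := 1)).mpr
            (transfer H a 1 (is_one_pretransitive_iff.mpr hHatr))
        have sharp : ∀ (g : H) (x y : X), x ≠ y → g • x = x → g • y = y → g = 1 := by
          intro g x y hxy hx hy
          obtain ⟨t, ht⟩ := hHtr.exists_smul_eq x a
          have e1 : (t * g * t⁻¹) • a = a := by
            rw [mul_smul, mul_smul, ← ht, inv_smul_smul, hx]
          have e2 : (t * g * t⁻¹) • (t • y) = t • y := by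
            rw [mul_smul, mul_smul, inv_smul_smul, hy]
          have e3 : t • y ≠ a := by
            rw [← ht]
            exact fun hc => hxy (MulAction.injective t hc).symm
          by_contra hg1
          have hne : (⟨((t * g * t⁻¹ : H) : G), e1⟩ : stabilizer G a) ≠ 1 := by
            intro hc
            apply hg1
            have h3 : ((t * g * t⁻¹ : H) : G) = 1 := congrArg Subtype.val hc
            have h4 : t * g * t⁻¹ = 1 := Subtype.ext h3
            have h5 : t * g = t := by
              have := mul_inv_eq_one.mp h4
              exact this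
            exact mul_eq_left.mp h5
          exact hsr ⟨t • y, e3⟩ ⟨((t * g * t⁻¹ : H) : G), e1⟩
            (Subgroup.mem_subgroupOf.mpr (t * g * t⁻¹).2) hne (Subtype.ext e2)
        have := Fintype.ofFinite X
        have hcX : Nat.card X = Fintype.card X := Nat.card_eq_fintype_card
        obtain ⟨p, j, C, hp, hj, hcard, -, hCn, memC, -, -, hCcard⟩ :=
          Cfsg.Agent.S0680.core hH2 sharp (by omega)
        have hC'n : (C.map H.subtype).Normal := by
          constructor
          rintro _ ⟨c, hc, rfl⟩ g
          have hcH : g * (c : G) * g⁻¹ ∈ H := ‹H.Normal›.conj_mem c c.2 g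
          refine ⟨⟨g * (c : G) * g⁻¹, hcH⟩, ?_, rfl⟩
          rw [SetLike.mem_coe, memC]
          rcases (memC c).mp hc with rfl | hd
          · left
            apply Subtype.ext
            simp
          · right
            intro x hx
            apply hd (g⁻¹ • x)
            change (g * (c : G) * g⁻¹) • x = x at hx
            change (c : G) • g⁻¹ • x = g⁻¹ • x
            rw [mul_smul, mul_smul, ← eq_inv_smul_iff] at hx
            exact hx
        have hC'st : ∀ x : X, stabilizer (C.map H.subtype) x = ⊥ := by
          intro x
          rw [eq_bot_iff]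
          rintro ⟨_, c, hc, rfl⟩ hs
          rw [Subgroup.mem_bot]
          apply Subtype.ext
          rcases (memC c).mp hc with rfl | hd
          · rfl
          · exact absurd hs (hd x)
        have hC'tr : IsPretransitive (C.map H.subtype) X := by
          constructor
          intro x y
          have hbij : Function.Bijective (fun c : C => (c : H) • x) := by
            rw [Nat.bijective_iff_injective_and_card]
            refine ⟨?_, by rw [hCcard, Nat.card_eq_fintype_card, hcard]⟩
            intro c c' hcc
            have h3 : (c' : H)⁻¹ * c ∈ C := C.mul_mem (C.inv_mem c'.2) c.2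
            rcases (memC _).mp h3 with h4 | h4
            · exact Subtype.ext (inv_mul_eq_one.mp h4).symm
            · exfalso
              apply h4 x
              simp only at hcc
              rw [mul_smul, hcc, inv_smul_smul]
          obtain ⟨c, hc⟩ := hbij.2 y
          exact ⟨⟨((c : H) : G), ⟨(c : H), c.2, rfl⟩⟩, hc⟩
        have h3 : IsMultiplyPreprimitive G X 3 := isMultiplyPreprimitive_of_le G X hG (by omega) hENat
        have h34 := Cfsg.Agent.S0696.result (by omega) h3 (C.map H.subtype) hC'tr hC'st
        rcases hS with hS | hS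
        · apply hS
          have : IsMultiplyPretransitive G X (k + 1) := hG.isMultiplyPretransitive
          exact isMultiplyPretransitive_of_le (n := k + 1) (by omega) hkX
        · omega

/-- In a `k`-primitive permutation group which is not the whole symmetric group, a non-trivial non-regular normal subgroup is `k`-transitive. -/
theorem result {α : Type*} [Fintype α] [DecidableEq α] (G : Subgroup (Equiv.Perm α)) {k : ℕ} (hk : 1 ≤ k) (hkn : k ≤ Fintype.card α) (hG : MulAction.IsMultiplyPreprimitive G α k) (htop : G ≠ ⊤) (H : Subgroup G) [H.Normal] (hH : H ≠ ⊥) (hnr : ∃ a : α, MulAction.stabilizer H a ≠ ⊥) : MulAction.IsMultiplyPretransitive H α k := by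
  apply gen k hk (by rw [Nat.card_eq_fintype_card]; exact hkn) hG
    (Or.inl (fun h => htop (Equiv.Perm.eq_top_of_isMultiplyPretransitive h))) H
  obtain ⟨a, ha⟩ := hnr
  obtain ⟨h, h1⟩ := (Subgroup.ne_bot_iff_exists_ne_one).mp ha
  exact ⟨a, ((h : H) : G), (h : H).2, fun hc => h1 (Subtype.ext (Subtype.ext hc)), h.2⟩

end Cfsg.Agent.S0697
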