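import Cfsg.Statements.S0698
import Cfsg.Agent.S0695
import Cfsg.Agent.S0696
import Cfsg.Agent.S0697
import Mathlib

set_option autoImplicit false
open Cfsg

namespace Cfsg.Agent.S0698

open MulAction SubMulAction

/-- Jordan's Theorem on normal subgroups of multiply transitive groups: if `G` is `k`-transitive (`k > 1`) of degree greater than `k`, a non-trivial normal subgroup is `(k-1)`-transitive, except possibly for `k = 3` when it may be an elementary abelian 2-group. -/
theorem result {α : Type*} [Fintype α] [DecidableEq α] (G : Subgroup (Equiv.Perm α)) {k : ℕ} (hk : 1 < k) (hdeg : k < Fintype.card α) (hG : MulAction.IsMultiplyPretransitive G α k) (N : Subgroup G) [N.Normal] (hN : N ≠ ⊥) : MulAction.IsMultiplyPretransitive N α (k - 1) ∨ (k = 3 ∧ IsMulCommutative N ∧ ∀ n ∈ N, n ^ 2 = 1) := by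
  obtain ⟨k', rfl⟩ : ∃ k', k = k' + 1 := ⟨k - 1, by omega⟩
  have hk' : 1 ≤ k' := by omega
  simp only [Nat.add_sub_cancel]
  have hENat : ((k' + 1 : ℕ) : ℕ∞) ≤ ENat.card α := by
    rw [ENat.card_eq_coe_fintype_card]
    exact_mod_cast hdeg.le
  have hENat' : ((k' : ℕ) : ℕ∞) ≤ ENat.card α := by
    rw [ENat.card_eq_coe_fintype_card]
    exact_mod_cast (by omega : k' ≤ Fintype.card α)
  have hprim : IsMultiplyPreprimitive G α k' :=
    isMultiplyPreprimitive_of_isMultiplyPretransitive_succ G α hENat
  by_cases hnr : ∃ a : α, ∃ h ∈ N, h ≠ 1 ∧ h • a = a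
  · left
    exact Cfsg.Agent.S0697.gen k' hk' (by rw [Nat.card_eq_fintype_card]; omega) hprim
      (Or.inr (by rw [Nat.card_eq_fintype_card]; exact hdeg)) N hnr
  · push Not at hnr
    have hprim1 : IsPreprimitive G α :=
      (is_one_preprimitive_iff G α).mp (isMultiplyPreprimitive_of_le G α hprim hk' hENat')
    obtain ⟨h, h1⟩ := (Subgroup.ne_bot_iff_exists_ne_one).mp hN
    have htr : IsPretransitive N α :=
      Cfsg.Agent.S0697.normal_trans N (h : G) h.2 (fun hc => h1 (Subtype.ext hc))
    have hreg : ∀ x : α, stabilizer N x = ⊥ := by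
      intro x
      rw [eq_bot_iff]
      intro n hn
      rw [Subgroup.mem_bot]
      by_contra hne
      exact hnr x (n : G) n.2 (fun hc => hne (Subtype.ext hc)) hn
    rcases Nat.lt_or_ge k' 2 with h2 | h2
    · left
      have : k' = 1 := by omega
      rw [this]
      exact is_one_pretransitive_iff.mpr htr
    · rcases Nat.lt_or_ge k' 3 with h3 | h3
      · have hk2 : k' = 2 := by omega
        subst hk2
        rcases Cfsg.Agent.S0695.result (by omega) hprim N htr hreg with hc | ⟨hc1, hc2, -⟩
        · omega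
        · exact Or.inr ⟨rfl, hc1, hc2⟩
      · exfalso
        have h3p : IsMultiplyPreprimitive G α 3 := isMultiplyPreprimitive_of_le G α hprim h3 hENat'
        rcases Cfsg.Agent.S0696.result (by omega) h3p N htr hreg with hc | hc <;> omega

end Cfsg.Agent.S0698
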