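import Cfsg.Statements.S0699
import Cfsg.Agent.Lib.Helper15Wagner
import Cfsg.Agent.Lib.Helper15TwoTrans
import Cfsg.Agent.S0698
import Mathlib

set_option autoImplicit false
open Cfsg

namespace Cfsg.Agent.S0699

open MulAction Cfsg.Agent.Lib.Helper15Wagner Cfsg.Agent.Lib.Helper15TwoTrans
  Cfsg.Agent.Lib.Helper14Sylow

theorem t3_of {G α : Type*} [Group G] [MulAction G α] (hG : IsMultiplyPretransitive G α 3)
    (a b c a' b' c' : α) (hab : a ≠ b) (hac : a ≠ c) (hbc : b ≠ c) (hab' : a' ≠ b') (hac' : a' ≠ c')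
    (hbc' : b' ≠ c') : ∃ g : G, g • a = a' ∧ g • b = b' ∧ g • c = c' := by
  let x : Fin 3 ↪ α := ⟨![a, b, c], by
    intro i j h; fin_cases i <;> fin_cases j <;> simp_all⟩
  let y : Fin 3 ↪ α := ⟨![a', b', c'], by
    intro i j h; fin_cases i <;> fin_cases j <;> simp_all⟩
  obtain ⟨g, hg⟩ := exists_smul_eq G x y
  exact ⟨g, DFunLike.congr_fun hg 0, DFunLike.congr_fun hg 1, DFunLike.congr_fun hg 2⟩

/-- Wagner's Theorem: a non-trivial normal subgroup of a triply transitive permutation group of odd degree at least 5 is triply transitive. -/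
theorem result {α : Type*} [Fintype α] [DecidableEq α] (G : Subgroup (Equiv.Perm α)) (hodd : Odd (Fintype.card α)) (h5 : 5 ≤ Fintype.card α) (hG : MulAction.IsMultiplyPretransitive G α 3) (N : Subgroup G) [N.Normal] (hN : N ≠ ⊥) : MulAction.IsMultiplyPretransitive N α 3 := by
  have h2G : IsMultiplyPretransitive G α 2 :=
    isMultiplyPretransitive_of_le (n := 3) (by norm_num) (by simp; omega)
  have hprim : IsPreprimitive G α := isPreprimitive_of_is_two_pretransitive h2G
  obtain ⟨⟨h, hh⟩, h1⟩ := Subgroup.ne_bot_iff_exists_ne_one.1 hN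
  have h1' : h ≠ 1 := fun e => h1 (Subtype.ext e)
  have hNtr : IsPretransitive N α := normal_trans N h hh h1'
  have h2N : IsMultiplyPretransitive N α 2 := by
    rcases Cfsg.Agent.S0698.result G (k := 3) (by norm_num) (by omega) hG N hN with h | ⟨-, -, h⟩
    · exact h
    · exfalso
      obtain ⟨a⟩ : Nonempty α := Fintype.card_pos_iff.1 (by omega)
      have hdvd : Fintype.card α ∣ Nat.card N := by
        have := orbit_ncard_dvd_card (N := N) a
        rwa [orbit_eq_univ, Set.ncard_univ, Nat.card_eq_fintype_card] at this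
      have hp : IsPGroup 2 N := by
        rintro ⟨n, hn⟩
        exact ⟨1, Subtype.ext (by simpa using h n hn)⟩
      obtain ⟨k, hk⟩ := IsPGroup.iff_card.1 hp
      rw [hk] at hdvd
      obtain ⟨j, -, hj⟩ := (Nat.dvd_prime_pow Nat.prime_two).1 hdvd
      rw [hj] at hodd h5
      cases j with
      | zero => simp at h5
      | succ j =>
        rw [pow_succ] at hodd
        exact absurd hodd (by simp)
  have hC : Cfg N (⊤ : Subgroup G) (Set.univ : Set α) := by
    refine ⟨le_top, ?_, fun _ _ _ _ => trivial, ?_, ?_⟩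
    · intro y _
      exact mem_normalizer_iff_cj.1 (by rw [Subgroup.normalizer_eq_top]; trivial)
    · intro a _ b _ c _ a' _ b' _ c' _ hab hac hbc hab' hac' hbc'
      obtain ⟨g, hg⟩ := t3_of hG a b c a' b' c' hab hac hbc hab' hac' hbc'
      exact ⟨g, trivial, hg⟩
    · intro a _ b _ a' _ b' _ hab hab'
      obtain ⟨⟨g, hgN⟩, hg⟩ := (is_two_pretransitive_iff.1 h2N) hab hab'
      exact ⟨g, hgN, hg⟩
  have hmain := main (Fintype.card α) (Set.univ : Set α) N ⊤ Set.finite_univ
    (by rw [Set.ncard_univ, Nat.card_eq_fintype_card]) hodd hC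
  refine ⟨fun x y => ?_⟩
  have hx : ∀ i j : Fin 3, i ≠ j → x i ≠ x j := fun i j hij e => hij (x.injective e)
  have hy : ∀ i j : Fin 3, i ≠ j → y i ≠ y j := fun i j hij e => hij (y.injective e)
  obtain ⟨ν1, hν1, h10, h11⟩ := hC.t2 (x 0) trivial (x 1) trivial (y 0) trivial (y 1) trivial
    (hx 0 1 (by decide)) (hy 0 1 (by decide))
  have hn0 : y 0 ≠ ν1 • x 2 := by
    rw [← h10]; intro e; exact hx 0 2 (by decide) (smul_left_cancel ν1 e)
  have hn1 : y 1 ≠ ν1 • x 2 := by
    rw [← h11]; intro e; exact hx 1 2 (by decide) (smul_left_cancel ν1 e)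
  obtain ⟨ν2, hν2, h20, h21, h22⟩ := hmain (y 0) trivial (y 1) trivial (ν1 • x 2) trivial (y 2) trivial
    (hy 0 1 (by decide)) hn0 hn1 (hy 0 2 (by decide)) (hy 1 2 (by decide))
  refine ⟨⟨ν2 * ν1, N.mul_mem hν2 hν1⟩, ?_⟩
  ext i
  change (ν2 * ν1) • x i = y i
  fin_cases i
  · change (ν2 * ν1) • x 0 = y 0
    rw [mul_smul, h10, h20]
  · change (ν2 * ν1) • x 1 = y 1
    rw [mul_smul, h11, h21]
  · change (ν2 * ν1) • x 2 = y 2
    rw [mul_smul, h22]

end Cfsg.Agent.S0699
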