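import Cfsg.Statements.S0700
import Cfsg.Agent.Lib.Helper15TwoTrans
import Mathlib

set_option autoImplicit false
open Cfsg

namespace Cfsg.Agent.S0700

open MulAction Cfsg.Agent.Lib.Helper15TwoTrans
open scoped Pointwise

theorem simple_of_prim {G Ω : Type*} [Group G] [Finite G] [MulAction G Ω] [Fintype Ω] [DecidableEq Ω]
    [FaithfulSMul G Ω] (h2t : IsMultiplyPretransitive G Ω 2) (N : Subgroup G) [N.Normal] (hN : N ≠ ⊥)
    (hmin : ∀ M : Subgroup G, M.Normal → M ≤ N → M = ⊥ ∨ M = N)
    (hprim : IsPreprimitive N Ω)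
    (hnF : ∃ ν ∈ N, ν ≠ 1 ∧ ∃ a : Ω, ν • a = a) : IsSimpleGroup N := by
  classical
  have hnt : Nontrivial N := (Subgroup.nontrivial_iff_ne_bot N).mpr hN
  refine ⟨fun M hM => ?_⟩
  by_contra hcon
  push Not at hcon
  obtain ⟨hMb, hMt⟩ := hcon
  obtain ⟨K, ⟨hKb, hKn⟩, hKmin⟩ := Set.exists_min_image {K : Subgroup N | K ≠ ⊥ ∧ K.Normal}
    (fun K => Nat.card K) (Set.toFinite _) ⟨M, hMb, hM⟩
  have hKlt : Nat.card K < Nat.card N := by
    have h1 : Nat.card K ≤ Nat.card M := hKmin M ⟨hMb, hM⟩
    have h2 : Nat.card M ≤ Nat.card N := Subgroup.card_le_card_group M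
    have h3 : Nat.card M ≠ Nat.card N := fun h => hMt (Subgroup.eq_top_of_card_eq M h)
    omega
  have hfN : FaithfulSMul N Ω := by
    constructor
    intro x y h
    exact Subtype.ext (FaithfulSMul.eq_of_smul_eq_smul (α := Ω) h)
  obtain ⟨k₀, hk₀⟩ := (Subgroup.ne_bot_iff_exists_ne_one).mp hKb
  have hKtr : IsPretransitive K Ω := normal_trans K (k₀ : N) k₀.2 (fun h => hk₀ (Subtype.ext h))
  have hNtr : IsPretransitive N Ω := hprim.toIsPretransitive
  -- conjugates
  let Kg : G → Subgroup N := fun g => K.map (MulAut.conjNormal g : N ≃* N).toMonoidHom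
  have hKgN : ∀ g, (Kg g).Normal := fun g => hKn.map _ (MulAut.conjNormal g : N ≃* N).surjective
  have hKgc : ∀ g, Nat.card (Kg g) = Nat.card K :=
    fun g => Subgroup.card_map_of_injective (MulAut.conjNormal g : N ≃* N).injective
  have dich : ∀ g, Kg g = K ∨ K ⊓ Kg g = ⊥ := by
    intro g
    by_cases h : K ⊓ Kg g = ⊥
    · exact Or.inr h
    · left
      have := hKgN g
      have h1 : Nat.card K ≤ Nat.card (K ⊓ Kg g : Subgroup N) := hKmin _ ⟨h, inferInstance⟩
      have h2 : K ⊓ Kg g = K := Subgroup.eq_of_le_of_card_ge inf_le_left h1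
      have h3 : K ≤ Kg g := inf_eq_left.mp h2
      exact (Subgroup.eq_of_le_of_card_ge h3 (hKgc g).le).symm
  obtain ⟨g₀, hg₀⟩ : ∃ g₀, Kg g₀ ≠ K := by
    by_contra h
    push Not at h
    have hn : (K.map N.subtype).Normal := by
      constructor
      rintro _ ⟨k, hk, rfl⟩ g
      have h1 : MulAut.conjNormal g k ∈ Kg g := ⟨k, hk, rfl⟩
      rw [h g] at h1
      exact ⟨_, h1, MulAut.conjNormal_apply g k⟩
    rcases hmin _ hn (Subgroup.map_subtype_le K) with h1 | h1
    · exact hKb ((Subgroup.map_eq_bot_iff_of_injective K N.subtype_injective).mp h1)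
    · have h2 : Nat.card (K.map N.subtype) = Nat.card K :=
        Subgroup.card_map_of_injective N.subtype_injective
      rw [h1] at h2
      omega
  let Z : Subgroup N := Subgroup.centralizer (K : Set N)
  have hKgZ : ∀ g, K ⊓ Kg g = ⊥ → Kg g ≤ Z := by
    intro g hg y hy
    rw [Subgroup.mem_centralizer_iff]
    intro k hk
    exact Subgroup.commute_of_normal_of_disjoint K (Kg g) hKn (hKgN g) (disjoint_iff.mpr hg) k y hk hy
  have Zsr : ∀ z ∈ Z, ∀ a : Ω, z • a = a → z = 1 := by
    intro z hz a ha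
    apply FaithfulSMul.eq_of_smul_eq_smul (α := Ω)
    intro b
    obtain ⟨k, rfl⟩ := hKtr.exists_smul_eq a b
    have h1 : (k : N) * z = z * k := Subgroup.mem_centralizer_iff.mp hz k k.2
    change z • (k : N) • a = (1 : N) • (k : N) • a
    rw [one_smul, ← mul_smul, ← h1, mul_smul, ha]
  have hg₀Z : Kg g₀ ≤ Z := hKgZ g₀ ((dich g₀).resolve_left hg₀)
  have Ksr : ∀ k ∈ K, ∀ a : Ω, k • a = a → k = 1 := by
    intro k hk a ha
    have h1 : MulAut.conjNormal g₀ k ∈ Z := hg₀Z ⟨k, hk, rfl⟩
    have h2 : (MulAut.conjNormal g₀ k) • (g₀ • a) = g₀ • a := by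
      change ((MulAut.conjNormal g₀ k : N) : G) • (g₀ • a) = g₀ • a
      rw [MulAut.conjNormal_apply, mul_smul, mul_smul, inv_smul_smul]
      congr 1
    have h3 := Zsr _ h1 _ h2
    exact (map_eq_one_iff _ (MulAut.conjNormal g₀ : N ≃* N).injective).mp h3
  obtain ⟨ν, hν, hν1, a, hνa⟩ := hnF
  have hKcard : Nat.card K = Fintype.card Ω := by
    rw [← Nat.card_eq_fintype_card]
    apply Nat.card_congr
    refine Equiv.ofBijective (fun k : K => k • a) ⟨?_, fun b => hKtr.exists_smul_eq a b⟩
    intro k k' h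
    have h1 : ((k' : N)⁻¹ * k) • a = a := by
      rw [mul_smul]
      change (k' : N)⁻¹ • (k • a) = a
      simp only at h
      rw [h]
      exact inv_smul_smul k' a
    have h2 := Ksr _ (K.mul_mem (K.inv_mem k'.2) k.2) a h1
    exact Subtype.ext (inv_mul_eq_one.mp h2).symm
  have hZcard : Nat.card Z ∣ Fintype.card Ω := by
    have hst : ∀ b : Ω, stabilizer Z b = ⊥ := by
      intro b
      rw [eq_bot_iff]
      intro z hz
      rw [Subgroup.mem_bot]
      exact Subtype.ext (Zsr z z.2 b hz)
    rw [← Nat.card_eq_fintype_card, Nat.card_congr (selfEquivOrbitsQuotientProd hst), Nat.card_prod]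
    exact Dvd.intro_left _ rfl
  have hKZ : K ⊔ Z = ⊤ := by
    have hle : ∀ g, Kg g ≤ K ⊔ Z := by
      intro g
      rcases dich g with h | h
      · rw [h]; exact le_sup_left
      · exact (hKgZ g h).trans le_sup_right
    have hR1 : Subgroup.normalClosure ((K.map N.subtype : Subgroup G) : Set G) ≤ N :=
      Subgroup.normalClosure_le_normal (Subgroup.map_subtype_le K)
    have hR2 : Subgroup.normalClosure ((K.map N.subtype : Subgroup G) : Set G) ≠ ⊥ := by
      intro h
      have h1 : K.map N.subtype ≤ ⊥ := h ▸ Subgroup.le_normalClosure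
      exact hKb ((Subgroup.map_eq_bot_iff_of_injective K N.subtype_injective).mp (le_bot_iff.mp h1))
    have hR3 := (hmin _ inferInstance hR1).resolve_left hR2
    have hR4 : Subgroup.normalClosure ((K.map N.subtype : Subgroup G) : Set G) ≤ (K ⊔ Z).map N.subtype := by
      unfold Subgroup.normalClosure
      rw [Subgroup.closure_le]
      intro x hx
      obtain ⟨y, ⟨k, hk, rfl⟩, hyx⟩ := Group.mem_conjugatesOfSet_iff.mp hx
      obtain ⟨c, rfl⟩ := isConj_iff.mp hyx
      exact ⟨MulAut.conjNormal c k, hle c ⟨k, hk, rfl⟩, MulAut.conjNormal_apply c k⟩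
    rw [hR3] at hR4
    rw [eq_top_iff]
    intro x _
    obtain ⟨y, hy, hyx⟩ := hR4 x.2
    have : y = x := Subtype.ext hyx
    rw [← this]; exact hy
  have hidx : K.index ∣ Fintype.card Ω := by
    have h1 : K.relIndex (K ⊔ Z) = K.relIndex Z := Subgroup.relIndex_sup_left Z K
    rw [hKZ, Subgroup.relIndex_top_right] at h1
    rw [h1]
    exact (Subgroup.index_dvd_card _).trans hZcard
  have hNcard : Nat.card N ∣ Fintype.card Ω * Fintype.card Ω := by
    rw [← K.card_mul_index, hKcard]
    exact Nat.mul_dvd_mul_left _ hidx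
  exact hν1 (regular_of_card_dvd_sq h2t N hNtr hNcard ν hν a hνa)

/-- Burnside's Theorem on doubly transitive groups: a minimal normal subgroup of a finite doubly transitive permutation group is elementary abelian and regular, or simple and primitive. -/
theorem result {α : Type*} [Fintype α] [DecidableEq α] (G : Subgroup (Equiv.Perm α)) (hG : MulAction.IsMultiplyPretransitive G α 2) (N : Subgroup G) [N.Normal] (hN : N ≠ ⊥) (hmin : ∀ M : Subgroup G, M.Normal → M ≤ N → M = ⊥ ∨ M = N) : (IsMulCommutative N ∧ (∃ p : ℕ, p.Prime ∧ ∀ n ∈ N, n ^ p = 1) ∧ ∀ a : α, MulAction.stabilizer N a = ⊥) ∨ (IsSimpleGroup N ∧ MulAction.IsPreprimitive N α) := by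
  obtain ⟨ν₀, hν₀⟩ := (Subgroup.ne_bot_iff_exists_ne_one).mp hN
  have hprimG : IsPreprimitive G α := isPreprimitive_of_is_two_pretransitive hG
  have hNtr : IsPretransitive N α := normal_trans N (ν₀ : G) ν₀.2 (fun h => hν₀ (Subtype.ext h))
  have h2 : 2 ≤ Fintype.card α := by
    by_contra h
    apply hν₀
    have : Fintype.card α ≤ 1 := by omega
    have hs : Subsingleton α := Fintype.card_le_one_iff_subsingleton.mp this
    apply Subtype.ext
    apply Subtype.ext
    ext x
    exact Subsingleton.elim _ _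
  by_cases hF : ∀ ν ∈ N, ∀ a b : α, a ≠ b → ν • a = a → ν • b = b → ν = 1
  · left
    obtain ⟨p, K, hp, hKn, hKN, memK, hexp, hKc⟩ := thmA hG h2 N hNtr hF
    have hKb : K ≠ ⊥ := by
      intro h
      rw [h, Subgroup.card_bot] at hKc
      omega
    have hKeq : K = N := (hmin K hKn hKN).resolve_left hKb
    rw [hKeq] at memK hexp
    have hpF : Fact p.Prime := ⟨hp⟩
    have hnt : Nontrivial N := (Subgroup.nontrivial_iff_ne_bot N).mpr hN
    have hpg : IsPGroup p N := by
      intro y
      refine ⟨1, ?_⟩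
      rw [pow_one]
      exact Subtype.ext (hexp y y.2)
    have hcen : (Subgroup.center N).map N.subtype = N := by
      apply (hmin _ inferInstance (Subgroup.map_subtype_le _)).resolve_left
      intro h
      have h1 := (Subgroup.map_eq_bot_iff_of_injective _ N.subtype_injective).mp h
      have h2 := hpg.center_nontrivial
      rw [h1] at h2
      exact not_nontrivial _ h2
    refine ⟨⟨⟨fun x y => ?_⟩⟩, ⟨p, hp, hexp⟩, ?_⟩
    · have hx : (x : G) ∈ (Subgroup.center N).map N.subtype := by rw [hcen]; exact x.2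
      obtain ⟨z, hz, hzx⟩ := hx
      have : z = x := Subtype.ext hzx
      rw [← this]
      exact (Subgroup.mem_center_iff.mp hz y).symm
    · intro a
      rw [eq_bot_iff]
      intro y hy
      rw [Subgroup.mem_bot]
      rcases ((memK y).mp y.2).2 with h | h
      · exact Subtype.ext h
      · exact absurd hy (h a)
  · right
    have hprim : IsPreprimitive N α := by
      by_contra hnp
      exact hF (thmB hG N hNtr hnp)
    refine ⟨simple_of_prim hG N hN hmin hprim ?_, hprim⟩
    push Not at hF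
    obtain ⟨ν, hν, a, b, -, ha, -, h1⟩ := hF
    exact ⟨ν, hν, h1, a, ha⟩

end Cfsg.Agent.S0700
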