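import Cfsg.Statements.S0701
import Mathlib

set_option autoImplicit false
open Cfsg

namespace Cfsg.Agent.S0701

theorem reg_inj {α : Type*} (G : Subgroup (Equiv.Perm α))
    (h : ∀ a : α, MulAction.stabilizer G a = ⊥) (a : α) (g g' : G) (e : g • a = g' • a) : g = g' := by
  have : g'⁻¹ * g ∈ MulAction.stabilizer G a := by
    rw [MulAction.mem_stabilizer_iff, mul_smul, e, inv_smul_smul]
  rw [h a, Subgroup.mem_bot] at this
  exact (inv_mul_eq_one.mp this).symm

/-- The centraliser in the full symmetric group of a transitive permutation group `G` is semiregular, and it is transitive if and only if `G` is regular. -/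
theorem result {α : Type*} (G : Subgroup (Equiv.Perm α)) [MulAction.IsPretransitive G α] : (∀ c ∈ Subgroup.centralizer (G : Set (Equiv.Perm α)), ∀ a : α, c a = a → c = 1) ∧ (MulAction.IsPretransitive (Subgroup.centralizer (G : Set (Equiv.Perm α))) α ↔ ∀ a : α, MulAction.stabilizer G a = ⊥) := by
  refine ⟨?_, ?_, ?_⟩
  · intro c hc a hca
    ext b
    obtain ⟨g, rfl⟩ := MulAction.exists_smul_eq G a b
    have h1 := Subgroup.mem_centralizer_iff.mp hc (g : Equiv.Perm α) g.2
    have h2 := congrArg (fun f : Equiv.Perm α => f a) h1
    simp only [Equiv.Perm.mul_apply, hca] at h2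
    simpa [Subgroup.smul_def] using h2.symm
  · intro hC a
    rw [eq_bot_iff]
    intro g hg
    rw [Subgroup.mem_bot]
    apply Subtype.ext
    ext b
    obtain ⟨c, rfl⟩ := MulAction.exists_smul_eq (Subgroup.centralizer (G : Set (Equiv.Perm α))) a b
    have h1 := Subgroup.mem_centralizer_iff.mp c.2 (g : Equiv.Perm α) g.2
    have h2 := congrArg (fun f : Equiv.Perm α => f a) h1
    have hg' : (g : Equiv.Perm α) a = a := hg
    simp only [Equiv.Perm.mul_apply, hg'] at h2
    simpa [Subgroup.smul_def] using h2
  · intro hreg
    constructor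
    intro a b
    obtain ⟨F, hF⟩ : ∃ F : α → α → α → α, ∀ (a b : α) (g : G), F a b (g • a) = g • b := by
      refine ⟨fun a b x => (Classical.choose (MulAction.exists_smul_eq G a x)) • b, ?_⟩
      intro a b g
      have h1 := Classical.choose_spec (MulAction.exists_smul_eq G a (g • a))
      have h2 := reg_inj G hreg a _ _ h1
      change (Classical.choose (MulAction.exists_smul_eq G a (g • a))) • b = g • b
      rw [h2]
    let c : Equiv.Perm α :=
      { toFun := F a b
        invFun := F b a
        left_inv := by
          intro x
          obtain ⟨g, rfl⟩ := MulAction.exists_smul_eq G a x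
          rw [hF, hF]
        right_inv := by
          intro x
          obtain ⟨g, rfl⟩ := MulAction.exists_smul_eq G b x
          rw [hF, hF] }
    have hc : c ∈ Subgroup.centralizer (G : Set (Equiv.Perm α)) := by
      rw [Subgroup.mem_centralizer_iff]
      intro h hh
      ext x
      obtain ⟨g, rfl⟩ := MulAction.exists_smul_eq G a x
      change h (F a b (g • a)) = F a b (h (g • a))
      have : h (g • a) = ((⟨h, hh⟩ : G) * g) • a := by
        rw [mul_smul]; rfl
      rw [this, hF, hF, mul_smul]; rfl
    refine ⟨⟨c, hc⟩, ?_⟩
    change F a b a = b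
    have := hF a b 1
    simpa using this

end Cfsg.Agent.S0701
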