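import Cfsg.Statements.S0702
import Cfsg.Agent.S0701
import Mathlib

set_option autoImplicit false
open Cfsg

namespace Cfsg.Agent.S0702

variable {α : Type*} (G : Subgroup (Equiv.Perm α)) [MulAction.IsPretransitive G α]

/-- for points with equal stabilisers there is a centralising permutation -/
theorem exists_cent (a b : α) (hab : MulAction.stabilizer G a = MulAction.stabilizer G b) :
    ∃ c ∈ Subgroup.centralizer (G : Set (Equiv.Perm α)), ∀ g : G, c (g • a) = g • b := by
  have key : ∀ (a b : α), MulAction.stabilizer G a = MulAction.stabilizer G b →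
      ∃ F : α → α, ∀ g : G, F (g • a) = g • b := by
    intro a b hab
    refine ⟨fun x => (Classical.choose (MulAction.exists_smul_eq G a x)) • b, ?_⟩
    intro g
    have h1 := Classical.choose_spec (MulAction.exists_smul_eq G a (g • a))
    change (Classical.choose (MulAction.exists_smul_eq G a (g • a))) • b = g • b
    generalize Classical.choose (MulAction.exists_smul_eq G a (g • a)) = g' at h1
    have h2 : g⁻¹ * g' ∈ MulAction.stabilizer G a := by
      rw [MulAction.mem_stabilizer_iff, mul_smul, h1, inv_smul_smul]
    rw [hab, MulAction.mem_stabilizer_iff, mul_smul, inv_smul_eq_iff] at h2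
    exact h2
  obtain ⟨F, hF⟩ := key a b hab
  obtain ⟨F', hF'⟩ := key b a hab.symm
  let c : Equiv.Perm α :=
    { toFun := F
      invFun := F'
      left_inv := by
        intro x
        obtain ⟨g, rfl⟩ := MulAction.exists_smul_eq G a x
        rw [hF, hF']
      right_inv := by
        intro x
        obtain ⟨g, rfl⟩ := MulAction.exists_smul_eq G b x
        rw [hF', hF] }
  refine ⟨c, ?_, hF⟩
  rw [Subgroup.mem_centralizer_iff]
  intro h hh
  ext x
  obtain ⟨g, rfl⟩ := MulAction.exists_smul_eq G a x
  change h (F (g • a)) = F (h (g • a))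
  have : h (g • a) = ((⟨h, hh⟩ : G) * g) • a := by
    rw [mul_smul]; rfl
  rw [this, hF, hF, mul_smul]; rfl

theorem cent_comm (c : Equiv.Perm α) (hc : c ∈ Subgroup.centralizer (G : Set (Equiv.Perm α))) (g : G) (x : α) :
    c (g • x) = g • c x := by
  have h1 := Subgroup.mem_centralizer_iff.mp hc (g : Equiv.Perm α) g.2
  have h2 := congrArg (fun f : Equiv.Perm α => f x) h1
  exact h2.symm

theorem stab_cent (c : Equiv.Perm α) (hc : c ∈ Subgroup.centralizer (G : Set (Equiv.Perm α))) (a : α) :
    MulAction.stabilizer G (c a) = MulAction.stabilizer G a := by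
  ext g
  rw [MulAction.mem_stabilizer_iff, MulAction.mem_stabilizer_iff, ← cent_comm G c hc]
  exact c.injective.eq_iff

theorem cent_ext (c c' : Equiv.Perm α) (hc : c ∈ Subgroup.centralizer (G : Set (Equiv.Perm α)))
    (hc' : c' ∈ Subgroup.centralizer (G : Set (Equiv.Perm α))) (a : α) (h : c a = c' a) : c = c' := by
  ext x
  obtain ⟨g, rfl⟩ := MulAction.exists_smul_eq G a x
  rw [cent_comm G c hc, cent_comm G c' hc', h]

theorem stab_smul_norm (a : α) (n : G) :
    n ∈ Subgroup.normalizer ((MulAction.stabilizer G a : Subgroup G) : Set G) ↔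
      MulAction.stabilizer G (n⁻¹ • a) = MulAction.stabilizer G a := by
  rw [MulAction.stabilizer_smul_eq_stabilizer_map_conj]
  constructor
  · intro hn
    ext g
    rw [Subgroup.mem_map]
    constructor
    · rintro ⟨s, hs, rfl⟩
      have := (Subgroup.mem_normalizer_iff.mp (Subgroup.inv_mem _ hn) s).mp hs
      simpa using this
    · intro hg
      refine ⟨n * g * n⁻¹, (Subgroup.mem_normalizer_iff.mp hn g).mp hg, ?_⟩
      simp [mul_assoc]
  · intro h
    rw [Subgroup.mem_normalizer_iff]
    intro g
    constructor
    · intro hg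
      rw [← h] at hg
      obtain ⟨s, hs, rfl⟩ := hg
      simpa [mul_assoc] using hs
    · intro hg
      rw [← h]
      exact ⟨n * g * n⁻¹, hg, by simp [mul_assoc]⟩

/-- For a transitive permutation group `G` on a finite set, the centraliser of `G` in the symmetric group is isomorphic to `N_G(G_ω)/G_ω`, and its orbit of `ω` is the set of fixed points of `G_ω`. -/
theorem result {α : Type*} [Finite α] (G : Subgroup (Equiv.Perm α)) [MulAction.IsPretransitive G α] (a : α) : Nonempty (Subgroup.centralizer (G : Set (Equiv.Perm α)) ≃* Subgroup.normalizer ((MulAction.stabilizer G a : Subgroup G) : Set G) ⧸ (MulAction.stabilizer G a).subgroupOf (Subgroup.normalizer ((MulAction.stabilizer G a : Subgroup G) : Set G))) ∧ MulAction.orbit (Subgroup.centralizer (G : Set (Equiv.Perm α))) a = MulAction.fixedPoints (MulAction.stabilizer G a) α := by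
  constructor
  · -- the homomorphism from the normaliser
    have hex : ∀ n : Subgroup.normalizer ((MulAction.stabilizer G a : Subgroup G) : Set G),
        ∃ c : Subgroup.centralizer (G : Set (Equiv.Perm α)), (c : Equiv.Perm α) a = (n : G)⁻¹ • a := by
      intro n
      obtain ⟨c, hc, hc'⟩ := exists_cent G a ((n : G)⁻¹ • a) ((stab_smul_norm G a n).mp n.2).symm
      refine ⟨⟨c, hc⟩, ?_⟩
      have := hc' 1
      simpa using this
    choose φ hφ using hex
    let f : Subgroup.normalizer ((MulAction.stabilizer G a : Subgroup G) : Set G) →* Subgroup.centralizer (G : Set (Equiv.Perm α)) :=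
      MonoidHom.mk' φ (by
        intro n m
        apply Subtype.ext
        apply cent_ext G _ _ (φ (n * m)).2 (φ n * φ m).2 a
        rw [hφ]
        change _ = (φ n : Equiv.Perm α) ((φ m : Equiv.Perm α) a)
        rw [hφ, cent_comm G _ (φ n).2, hφ, ← mul_smul]
        simp)
    have hsurj : Function.Surjective f := by
      intro c
      obtain ⟨g, hg⟩ := MulAction.exists_smul_eq G a ((c : Equiv.Perm α) a)
      have hn : g⁻¹ ∈ Subgroup.normalizer ((MulAction.stabilizer G a : Subgroup G) : Set G) := by
        rw [stab_smul_norm, inv_inv, hg, stab_cent G _ c.2]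
      refine ⟨⟨g⁻¹, hn⟩, ?_⟩
      apply Subtype.ext
      apply cent_ext G _ _ (φ ⟨g⁻¹, hn⟩).2 c.2 a
      change (φ ⟨g⁻¹, hn⟩ : Equiv.Perm α) a = _
      rw [hφ, ← hg]
      simp
    have hker : f.ker = (MulAction.stabilizer G a).subgroupOf (Subgroup.normalizer ((MulAction.stabilizer G a : Subgroup G) : Set G)) := by
      ext n
      rw [MonoidHom.mem_ker, Subgroup.mem_subgroupOf, MulAction.mem_stabilizer_iff]
      constructor
      · intro h
        have h1 := hφ n
        have h2 : φ n = 1 := h
        rw [h2] at h1
        have h3 : a = (n : G)⁻¹ • a := h1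
        rw [eq_inv_smul_iff] at h3
        exact h3
      · intro h
        apply Subtype.ext
        apply cent_ext G _ _ (φ n).2 (Subgroup.one_mem _) a
        change (φ n : Equiv.Perm α) a = a
        rw [hφ, inv_smul_eq_iff, h]
    exact ⟨((QuotientGroup.quotientMulEquivOfEq hker.symm).trans
      (QuotientGroup.quotientKerEquivOfSurjective f hsurj)).symm⟩
  · ext b
    constructor
    · rintro ⟨c, rfl⟩
      rw [MulAction.mem_fixedPoints]
      intro s
      change (s : G) • ((c : Equiv.Perm α) a) = (c : Equiv.Perm α) a
      rw [← cent_comm G _ c.2]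
      congr 1
      exact s.2
    · intro hb
      rw [MulAction.mem_fixedPoints] at hb
      have hle : MulAction.stabilizer G a ≤ MulAction.stabilizer G b := by
        intro s hs
        exact hb ⟨s, hs⟩
      have hcard : Nat.card (MulAction.stabilizer G a) = Nat.card (MulAction.stabilizer G b) := by
        obtain ⟨g, rfl⟩ := MulAction.exists_smul_eq G a b
        rw [MulAction.stabilizer_smul_eq_stabilizer_map_conj]
        exact (Subgroup.card_map_of_injective (MulAut.conj g).injective).symm
      have heq : MulAction.stabilizer G a = MulAction.stabilizer G b :=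
        Subgroup.eq_of_le_of_card_ge hle hcard.ge
      obtain ⟨c, hc, hc'⟩ := exists_cent G a b heq
      refine ⟨⟨c, hc⟩, ?_⟩
      have := hc' 1
      simpa using this

end Cfsg.Agent.S0702
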