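import Cfsg.Statements.S0703
import Cfsg.Agent.S0701
import Mathlib

set_option autoImplicit false
open Cfsg

namespace Cfsg.Agent.S0703

/-- An abelian transitive minimal normal subgroup `M` of a permutation group on a finite set is self-centralising in the symmetric group, regular, elementary abelian, and is the unique minimal normal subgroup. -/
theorem result {α : Type*} [Finite α] (G : Subgroup (Equiv.Perm α)) (M : Subgroup G) [M.Normal] (hM : M ≠ ⊥) (hmin : ∀ L : Subgroup G, L.Normal → L ≤ M → L = ⊥ ∨ L = M) (hab : IsMulCommutative M) (htrans : MulAction.IsPretransitive M α) : Subgroup.centralizer ((M.map G.subtype : Subgroup (Equiv.Perm α)) : Set (Equiv.Perm α)) = M.map G.subtype ∧ (∀ a : α, MulAction.stabilizer M a = ⊥) ∧ (∃ p : ℕ, p.Prime ∧ ∀ m ∈ M, m ^ p = 1) ∧ ∀ L : Subgroup G, L.Normal → L ≠ ⊥ → (∀ L' : Subgroup G, L'.Normal → L' ≤ L → L' = ⊥ ∨ L' = L) → L = M := by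
  have hcomm : ∀ x ∈ M, ∀ y ∈ M, x * y = y * x := by
    intro x hx y hy
    have := hab.is_comm.comm ⟨x, hx⟩ ⟨y, hy⟩
    exact congrArg Subtype.val this
  -- transitivity of the image
  have htr' : MulAction.IsPretransitive (M.map G.subtype : Subgroup (Equiv.Perm α)) α := by
    constructor
    intro a b
    obtain ⟨m, hm⟩ := htrans.exists_smul_eq a b
    exact ⟨⟨(m : G), ⟨(m : G), m.2, rfl⟩⟩, hm⟩
  have hcen : Subgroup.centralizer ((M.map G.subtype : Subgroup (Equiv.Perm α)) : Set (Equiv.Perm α)) = M.map G.subtype := by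
    apply le_antisymm
    · intro c hc
      by_cases hne : Nonempty α
      · obtain ⟨a⟩ := hne
        obtain ⟨m, hm⟩ := htr'.exists_smul_eq a (c a)
        have hmc : (m : Equiv.Perm α) ∈ Subgroup.centralizer ((M.map G.subtype : Subgroup (Equiv.Perm α)) : Set (Equiv.Perm α)) := by
          rw [Subgroup.mem_centralizer_iff]
          rintro _ ⟨y, hy, rfl⟩
          obtain ⟨x, hx, hxm⟩ := m.2
          rw [← hxm]
          have := hcomm y hy x hx
          exact congrArg Subtype.val this
        have h1 : (m : Equiv.Perm α)⁻¹ * c = 1 := by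
          apply (Cfsg.Agent.S0701.result (M.map G.subtype)).1 _ (Subgroup.mul_mem _ (Subgroup.inv_mem _ hmc) hc) a
          rw [Equiv.Perm.mul_apply, ← hm]
          exact inv_smul_smul m a
        have : c = m := (inv_mul_eq_one.mp h1).symm
        rw [this]; exact m.2
      · have : c = 1 := by
          ext x; exact (hne ⟨x⟩).elim
        rw [this]; exact Subgroup.one_mem _
    · rintro _ ⟨x, hx, rfl⟩
      rw [Subgroup.mem_centralizer_iff]
      rintro _ ⟨y, hy, rfl⟩
      exact congrArg Subtype.val (hcomm y hy x hx)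
  refine ⟨hcen, ?_, ?_, ?_⟩
  · intro a
    rw [eq_bot_iff]
    intro m hm
    rw [Subgroup.mem_bot]
    apply Subtype.ext
    apply Subtype.ext
    ext b
    obtain ⟨n, rfl⟩ := htrans.exists_smul_eq a b
    have h1 : m * n = n * m := hab.is_comm.comm m n
    have h2 : m • a = a := hm
    change m • (n • a) = n • a
    rw [← mul_smul, h1, mul_smul, h2]
  · have : Finite G := inferInstance
    have hMnt : Nontrivial M := (Subgroup.nontrivial_iff_ne_bot M).mpr hM
    obtain ⟨p, hp, hpd⟩ := Nat.exists_prime_and_dvd (n := Nat.card M) (by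
      intro h
      have := Finite.one_lt_card (α := M)
      omega)
    haveI := Fact.mk hp
    obtain ⟨x, hx⟩ := exists_prime_orderOf_dvd_card' (G := M) p hpd
    let L : Subgroup G :=
      { carrier := {g | g ∈ M ∧ g ^ p = 1}
        one_mem' := ⟨M.one_mem, one_pow _⟩
        mul_mem' := by
          rintro a b ⟨ha, ha'⟩ ⟨hb, hb'⟩
          refine ⟨M.mul_mem ha hb, ?_⟩
          rw [(show Commute a b from hcomm a ha b hb).mul_pow, ha', hb', one_mul]
        inv_mem' := by
          rintro a ⟨ha, ha'⟩
          exact ⟨M.inv_mem ha, by rw [inv_pow, ha', inv_one]⟩ }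
    have hLn : L.Normal := by
      constructor
      rintro n ⟨hn, hn'⟩ g
      refine ⟨‹M.Normal›.conj_mem n hn g, ?_⟩
      rw [conj_pow, hn', mul_one, mul_inv_cancel]
    have hLM : L ≤ M := fun g hg => hg.1
    refine ⟨p, hp, ?_⟩
    rcases hmin L hLn hLM with h | h
    · exfalso
      have hxL : (x : G) ∈ L := ⟨x.2, by
        have := pow_orderOf_eq_one x
        rw [hx] at this
        exact congrArg Subtype.val this⟩
      rw [h, Subgroup.mem_bot] at hxL
      have : x = 1 := Subtype.ext hxL
      rw [this, orderOf_one] at hx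
      exact hp.one_lt.ne hx
    · intro m hm
      rw [← h] at hm
      exact hm.2
  · intro L hLn hL hLmin
    have hLM : (L ⊓ M).Normal := inferInstance
    rcases hLmin (L ⊓ M) hLM inf_le_left with h | h
    · exfalso
      apply hL
      have hLc : L.map G.subtype ≤ Subgroup.centralizer ((M.map G.subtype : Subgroup (Equiv.Perm α)) : Set (Equiv.Perm α)) := by
        rintro _ ⟨l, hl, rfl⟩
        rw [Subgroup.mem_centralizer_iff]
        rintro _ ⟨m, hm, rfl⟩
        have h3 : l * m * l⁻¹ * m⁻¹ ∈ L ⊓ M := by
          refine ⟨?_, ?_⟩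
          · have := hLn.conj_mem l⁻¹ (L.inv_mem hl) m
            have h4 := L.mul_mem hl this
            simpa [mul_assoc] using h4
          · exact M.mul_mem (‹M.Normal›.conj_mem m hm l) (M.inv_mem hm)
        rw [h, Subgroup.mem_bot] at h3
        have h5 : l * m = m * l := by
          have := mul_inv_eq_one.mp h3
          exact mul_inv_eq_iff_eq_mul.mp this
        exact congrArg Subtype.val h5.symm
      rw [hcen] at hLc
      have hLleM : L ≤ M := by
        intro l hl
        obtain ⟨m, hm, hml⟩ := hLc ⟨l, hl, rfl⟩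
        have : m = l := Subtype.ext hml
        rw [← this]; exact hm
      rw [← h]
      exact (inf_eq_left.mpr hLleM).symm
    · have hLleM : L ≤ M := inf_eq_left.mp h
      rcases hmin L hLn hLleM with h' | h'
      · exact absurd h' hL
      · exact h'

end Cfsg.Agent.S0703
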