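import Cfsg.Statements.S0704
import Mathlib

set_option autoImplicit false
open Cfsg

namespace Cfsg.Agent.S0704

variable {α : Type*} {G : Subgroup (Equiv.Perm α)}

theorem inf_eq_bot (A B : Subgroup G) [A.Normal] [B.Normal] (hA : A ≠ ⊥)
    (hAmin : ∀ L : Subgroup G, L.Normal → L ≤ A → L = ⊥ ∨ L = A)
    (hBmin : ∀ L : Subgroup G, L.Normal → L ≤ B → L = ⊥ ∨ L = B) (hAB : A ≠ B) : A ⊓ B = ⊥ := by
  rcases hAmin (A ⊓ B) inferInstance inf_le_left with h | h
  · exact h
  · have hle : A ≤ B := by rw [← h]; exact inf_le_right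
    rcases hBmin A inferInstance hle with h' | h'
    · exact absurd h' hA
    · exact absurd h' hAB

theorem comm_of (A B : Subgroup G) [A.Normal] [B.Normal] (h : A ⊓ B = ⊥) (a b : G) (ha : a ∈ A)
    (hb : b ∈ B) : a * b = b * a :=
  Subgroup.commute_of_normal_of_disjoint A B inferInstance inferInstance (disjoint_iff.2 h) a b ha hb

theorem fix_eq_one (A : Subgroup G) (hAt : MulAction.IsPretransitive A α) (c : Equiv.Perm α)
    (hc : ∀ a ∈ A, c * (a : Equiv.Perm α) = (a : Equiv.Perm α) * c) (x : α) (hx : c x = x) : c = 1 := by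
  ext y
  obtain ⟨a, ha⟩ := hAt.exists_smul_eq x y
  have h1 : ((a : G) : Equiv.Perm α) x = y := ha
  have h2 := congrArg (fun τ : Equiv.Perm α => τ x) (hc a a.2)
  simp only [Equiv.Perm.mul_apply, hx, h1] at h2
  simpa using h2

theorem stab_bot (A B : Subgroup G) (hAt : MulAction.IsPretransitive A α)
    (hcomm : ∀ a b : G, a ∈ A → b ∈ B → a * b = b * a) (x : α) : MulAction.stabilizer B x = ⊥ := by
  rw [Subgroup.eq_bot_iff_forall]
  intro b hb
  have hb' : ((b : G) : Equiv.Perm α) x = x := hb
  have := fix_eq_one A hAt ((b : G) : Equiv.Perm α) (fun a ha => by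
    have := hcomm a b ha b.2
    exact (congrArg Subtype.val this).symm) x hb'
  apply Subtype.ext
  apply Subtype.ext
  exact this

theorem cent_eq (A B : Subgroup G) (hAt : MulAction.IsPretransitive A α)
    (hBt : MulAction.IsPretransitive B α)
    (hcomm : ∀ a b : G, a ∈ A → b ∈ B → a * b = b * a) :
    Subgroup.centralizer ((A.map G.subtype : Subgroup (Equiv.Perm α)) : Set (Equiv.Perm α))
      = B.map G.subtype := by
  apply le_antisymm
  · intro c hc
    rw [Subgroup.mem_centralizer_iff] at hc
    have hc' : ∀ a ∈ A, c * (a : Equiv.Perm α) = (a : Equiv.Perm α) * c := by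
      intro a ha
      exact (hc a ⟨a, ha, rfl⟩).symm
    by_cases hne : Nonempty α
    · obtain ⟨x⟩ := hne
      obtain ⟨b, hb⟩ := hBt.exists_smul_eq x (c x)
      have hb' : ((b : G) : Equiv.Perm α) x = c x := hb
      have h1 : (((b : G) : Equiv.Perm α))⁻¹ * c = 1 := by
        apply fix_eq_one A hAt _ _ x
        · rw [Equiv.Perm.mul_apply, ← hb']
          simp
        · intro a ha
          have h2 : (a : Equiv.Perm α) * ((b : G) : Equiv.Perm α) = ((b : G) : Equiv.Perm α) * a :=
            congrArg Subtype.val (hcomm a b ha b.2)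
          rw [mul_assoc, hc' a ha, ← mul_assoc, ← mul_assoc]
          congr 1
          rw [inv_mul_eq_iff_eq_mul, ← mul_assoc, ← h2, mul_assoc, mul_inv_cancel, mul_one]
      have h2 : c = ((b : G) : Equiv.Perm α) := (inv_mul_eq_one.1 h1).symm
      rw [h2]
      exact ⟨b, b.2, rfl⟩
    · rw [not_nonempty_iff] at hne
      have : c = 1 := Subsingleton.elim _ _
      rw [this]
      exact Subgroup.one_mem _
  · rintro _ ⟨b, hb, rfl⟩
    rw [Subgroup.mem_centralizer_iff]
    rintro _ ⟨a, ha, rfl⟩
    exact congrArg Subtype.val (hcomm a b ha hb)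

theorem map_le_iff (A B : Subgroup G) : A.map G.subtype ≤ B.map G.subtype ↔ A ≤ B :=
  Subgroup.map_le_map_iff_of_injective G.subtype_injective

theorem iso (A B : Subgroup G) (hAt : MulAction.IsPretransitive A α)
    (hBt : MulAction.IsPretransitive B α)
    (hcomm : ∀ a b : G, a ∈ A → b ∈ B → a * b = b * a) (x : α) : Nonempty (A ≃* B) := by
  have hA : ∀ a a' : A, a • x = a' • x → a = a' := by
    intro a a' h
    have : a'⁻¹ * a ∈ MulAction.stabilizer A x := by
      rw [MulAction.mem_stabilizer_iff, mul_smul, h, inv_smul_smul]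
    rw [stab_bot B A hBt (fun a b ha hb => (hcomm b a hb ha).symm) x, Subgroup.mem_bot] at this
    exact (inv_mul_eq_one.1 this).symm
  have hB : ∀ b b' : B, ∀ y : α, b • y = b' • y → b = b' := by
    intro a a' y h
    have : a'⁻¹ * a ∈ MulAction.stabilizer B y := by
      rw [MulAction.mem_stabilizer_iff, mul_smul, h, inv_smul_smul]
    rw [stab_bot A B hAt hcomm y, Subgroup.mem_bot] at this
    exact (inv_mul_eq_one.1 this).symm
  have hex : ∀ a : A, ∃ b : B, b • (a • x) = x := fun a => hBt.exists_smul_eq _ _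
  choose f hf using hex
  have hsc : ∀ (a : A) (b : B) (y : α), a • (b • y) = b • (a • y) := by
    intro a b y
    have := congrArg (fun g : G => g • y) (hcomm a b a.2 b.2)
    simp only [mul_smul] at this
    exact this
  have hmul : ∀ a a' : A, f (a * a') = f a * f a' := by
    intro a a'
    apply hB _ _ ((a * a') • x)
    rw [hf, mul_smul, mul_smul, ← hsc, hf, hf]
  refine ⟨MulEquiv.ofBijective (MonoidHom.mk' f hmul) ⟨?_, ?_⟩⟩
  · intro a a' h
    have h' : f a = f a' := h
    apply hA
    have h1 := hf a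
    have h2 := hf a'
    rw [h'] at h1
    exact smul_left_cancel (f a') (h1.trans h2.symm)
  · intro b
    obtain ⟨a, ha⟩ := hAt.exists_smul_eq x (b⁻¹ • x)
    refine ⟨a, ?_⟩
    change f a = b
    apply hB _ _ (a • x)
    rw [hf, ha, smul_inv_smul]

/-- Two distinct transitive minimal normal subgroups `M`, `N` of a permutation group are regular, non-abelian, isomorphic, each other's centraliser in the symmetric group, and the only minimal normal subgroups. -/
theorem result {α : Type*} (G : Subgroup (Equiv.Perm α)) (M N : Subgroup G) [M.Normal] [N.Normal] (hM : M ≠ ⊥) (hN : N ≠ ⊥) (hMmin : ∀ L : Subgroup G, L.Normal → L ≤ M → L = ⊥ ∨ L = M) (hNmin : ∀ L : Subgroup G, L.Normal → L ≤ N → L = ⊥ ∨ L = N) (hMN : M ≠ N) (hMt : MulAction.IsPretransitive M α) (hNt : MulAction.IsPretransitive N α) : (∀ a : α, MulAction.stabilizer M a = ⊥) ∧ (∀ a : α, MulAction.stabilizer N a = ⊥) ∧ ¬ IsMulCommutative M ∧ Nonempty (M ≃* N) ∧ Subgroup.centralizer ((M.map G.subtype : Subgroup (Equiv.Perm α)) : Set (Equiv.Perm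 α)) = N.map G.subtype ∧ Subgroup.centralizer ((N.map G.subtype : Subgroup (Equiv.Perm α)) : Set (Equiv.Perm α)) = M.map G.subtype ∧ ∀ L : Subgroup G, L.Normal → L ≠ ⊥ → (∀ L' : Subgroup G, L'.Normal → L' ≤ L → L' = ⊥ ∨ L' = L) → L = M ∨ L = N := by
  have hinf := inf_eq_bot M N hM hMmin hNmin hMN
  have hcomm : ∀ a b : G, a ∈ M → b ∈ N → a * b = b * a := comm_of M N hinf
  have hcomm' : ∀ a b : G, a ∈ N → b ∈ M → a * b = b * a := fun a b ha hb => (hcomm b a hb ha).symm
  have hcM := cent_eq M N hMt hNt hcomm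
  have hcN := cent_eq N M hNt hMt hcomm'
  have hne : Nonempty α := by
    by_contra hne
    rw [not_nonempty_iff] at hne
    apply hM
    rw [Subgroup.eq_bot_iff_forall]
    intro x _
    apply Subtype.ext
    exact Subsingleton.elim _ _
  obtain ⟨x⟩ := hne
  refine ⟨stab_bot N M hNt hcomm', stab_bot M N hMt hcomm, ?_, iso M N hMt hNt hcomm x, hcM, hcN, ?_⟩
  · intro hab
    have hle : M.map G.subtype ≤ N.map G.subtype := by
      rw [← hcM]
      rintro _ ⟨a, ha, rfl⟩
      rw [Subgroup.mem_centralizer_iff]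
      rintro _ ⟨b, hb, rfl⟩
      have := hab.is_comm.comm ⟨b, hb⟩ ⟨a, ha⟩
      exact congrArg (fun z : M => ((z : G) : Equiv.Perm α)) this
    rw [map_le_iff] at hle
    rcases hNmin M inferInstance hle with h | h
    · exact hM h
    · exact hMN h
  · intro L hLn hL hLmin
    by_cases hLM : L = M
    · exact Or.inl hLM
    · right
      have hinf' := inf_eq_bot L M hL hLmin hMmin hLM
      have hc := comm_of L M hinf'
      have hle : L.map G.subtype ≤ N.map G.subtype := by
        rw [← hcM]
        rintro _ ⟨a, ha, rfl⟩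
        rw [Subgroup.mem_centralizer_iff]
        rintro _ ⟨b, hb, rfl⟩
        exact congrArg Subtype.val (hc a b ha hb).symm
      rw [map_le_iff] at hle
      rcases hNmin L hLn hle with h | h
      · exact absurd h hL
      · exact h

end Cfsg.Agent.S0704
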