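import Cfsg.Statements.S0705
import Mathlib

set_option autoImplicit false
open scoped Pointwise
open Cfsg

namespace Cfsg.Agent.S0705

theorem step {α : Type*} [Fintype α] [DecidableEq α] (G : Subgroup (Equiv.Perm α)) {k : ℕ} (hk : k < Fintype.card α) (hgen : ∀ s : Finset α, s.card = k + 1 → ∀ σ : Equiv.Perm ↥s, ∃ g ∈ G, ∀ x : ↥s, g (x : α) = σ x)
    (y : Fin k ↪ α) (j : ℕ) (hj : j ≤ k) : ∀ x : Fin k ↪ α, ∃ g ∈ G, ∀ i : Fin k, i.val < j → g (x i) = y i := by
  induction j with
  | zero => intro x; exact ⟨1, G.one_mem, fun i hi => absurd hi (Nat.not_lt_zero _)⟩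
  | succ j ih =>
    intro x
    obtain ⟨g, hg, hgx⟩ := ih (by omega) x
    have hjk : j < k := by omega
    set u := g (x ⟨j, hjk⟩) with hu
    set v := y ⟨j, hjk⟩ with hv
    have hcard : (insert v (Finset.univ.image (fun i => g (x i)))).card ≤ k + 1 := by
      refine (Finset.card_insert_le _ _).trans ?_
      have := Finset.card_image_le (s := (Finset.univ : Finset (Fin k))) (f := fun i => g (x i))
      simp at this
      omega
    obtain ⟨s, hs1, -, hs2⟩ := Finset.exists_subsuperset_card_eq
      (Finset.subset_univ (insert v (Finset.univ.image (fun i => g (x i))))) hcard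
      (by rw [Finset.card_univ]; omega)
    have hvs : v ∈ s := hs1 (Finset.mem_insert_self _ _)
    have hxs : ∀ i, g (x i) ∈ s := fun i =>
      hs1 (Finset.mem_insert_of_mem (Finset.mem_image_of_mem _ (Finset.mem_univ i)))
    obtain ⟨h, hh, hhs⟩ := hgen s hs2 (Equiv.swap ⟨u, hxs _⟩ ⟨v, hvs⟩)
    refine ⟨h * g, G.mul_mem hh hg, ?_⟩
    intro i hi
    rw [Equiv.Perm.mul_apply]
    rw [hhs ⟨g (x i), hxs i⟩]
    rcases Nat.lt_succ_iff_lt_or_eq.1 hi with hlt | heq
    · have h1 : g (x i) ≠ u := by
        intro h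
        have := x.injective (g.injective h)
        rw [Fin.ext_iff] at this
        simp at this
        omega
      have h2 : g (x i) ≠ v := by
        rw [hgx i hlt]
        intro h
        have := y.injective h
        rw [Fin.ext_iff] at this
        simp at this
        omega
      rw [Equiv.swap_apply_of_ne_of_ne]
      · exact hgx i hlt
      · intro h; exact h1 (congrArg Subtype.val h)
      · intro h; exact h2 (congrArg Subtype.val h)
    · have hi' : i = ⟨j, hjk⟩ := Fin.ext heq
      subst hi'
      rw [Equiv.swap_apply_left]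

/-- A generously `k`-transitive permutation group (every `(k+1)`-subset has its full symmetric group induced by the setwise stabiliser) of degree greater than `k` is `k`-transitive, and for a `k`-subset the setwise and pointwise stabilisers have the same orbits outside it. -/
theorem result {α : Type*} [Fintype α] [DecidableEq α] (G : Subgroup (Equiv.Perm α)) {k : ℕ} (hk : k < Fintype.card α) (hgen : ∀ s : Finset α, s.card = k + 1 → ∀ σ : Equiv.Perm ↥s, ∃ g ∈ G, ∀ x : ↥s, g (x : α) = σ x) : MulAction.IsMultiplyPretransitive G α k ∧ ∀ s : Finset α, s.card = k → ∀ a b : α, a ∉ s → b ∉ s → (∃ g ∈ G, g • s = s ∧ g a = b) → ∃ g ∈ G, (∀ x ∈ s, g x = x) ∧ g a = b := by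
  constructor
  · constructor
    intro x y
    obtain ⟨g, hg, hgx⟩ := step G hk hgen y k le_rfl x
    refine ⟨⟨g, hg⟩, ?_⟩
    ext i
    exact hgx i i.2
  · intro s hs a b ha hb ⟨g, hg, hgs, hgab⟩
    have hgmem : ∀ x, x ∈ s → g x ∈ s := by
      intro x hx
      have : g • x ∈ g • s := Finset.smul_mem_smul_finset hx
      rw [hgs] at this
      exact this
    have hginv : ∀ x, x ∈ s → g⁻¹ x ∈ s := by
      intro x hx
      rw [← hgs] at hx
      obtain ⟨y, hy, rfl⟩ := Finset.mem_smul_finset.1 hx
      simpa using hy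
    have hcard : (insert b s).card = k + 1 := by
      rw [Finset.card_insert_of_notMem hb, hs]
    have hπ : ∀ x, x ∈ insert b s → (Equiv.swap a b * g⁻¹) x ∈ insert b s := by
      intro x hx
      rcases Finset.mem_insert.1 hx with rfl | hx
      · have : g⁻¹ x = a := by rw [← hgab]; simp
        rw [Equiv.Perm.mul_apply, this, Equiv.swap_apply_left]
        exact Finset.mem_insert_self _ _
      · have h1 := hginv x hx
        rw [Equiv.Perm.mul_apply, Equiv.swap_apply_of_ne_of_ne]
        · exact Finset.mem_insert_of_mem h1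
        · rintro h; exact ha (h ▸ h1)
        · rintro h; exact hb (h ▸ h1)
    obtain ⟨h, hh, hhs⟩ := hgen (insert b s) hcard
      (Equiv.Perm.subtypePermOfFintype (Equiv.swap a b * g⁻¹) hπ)
    refine ⟨h * g, G.mul_mem hh hg, ?_, ?_⟩
    · intro x hx
      rw [Equiv.Perm.mul_apply, hhs ⟨g x, Finset.mem_insert_of_mem (hgmem x hx)⟩]
      simp only [Equiv.Perm.subtypePermOfFintype_apply, Equiv.Perm.mul_apply]
      rw [Equiv.Perm.coe_inv, Equiv.symm_apply_apply, Equiv.swap_apply_of_ne_of_ne]
      · rintro h; exact ha (h ▸ hx)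
      · rintro h; exact hb (h ▸ hx)
    · rw [Equiv.Perm.mul_apply, hgab, hhs ⟨b, Finset.mem_insert_self _ _⟩]
      simp only [Equiv.Perm.subtypePermOfFintype_apply, Equiv.Perm.mul_apply]
      have : g⁻¹ b = a := by rw [← hgab]; simp
      rw [this, Equiv.swap_apply_left]

end Cfsg.Agent.S0705
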