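import Cfsg.Statements.S0706
import Cfsg.Agent.S0705
import Cfsg.Agent.Lib.Helper16Sylow
import Mathlib

set_option autoImplicit false
open Cfsg

namespace Cfsg.Agent.S0706

open Cfsg.Agent.Lib.Helper16Sylow MulAction
open scoped Pointwise

theorem exists_p_elt {G : Type*} [Group G] [Finite G] {p : ℕ} (hp : p.Prime) (y : G) :
    ∃ m : ℕ, ¬ p ∣ m ∧ IsPGroup p (Subgroup.zpowers (y ^ m)) := by
  obtain ⟨e, m, hm, ho⟩ := Nat.exists_eq_pow_mul_and_not_dvd (orderOf_pos y).ne' p hp.ne_one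
  refine ⟨m, hm, ?_⟩
  have h1 : (y ^ m) ^ (p ^ e) = 1 := by
    rw [← pow_mul, mul_comm, ← ho, pow_orderOf_eq_one]
  have h2 := orderOf_dvd_of_pow_eq_one h1
  obtain ⟨b, _, hb⟩ := (Nat.dvd_prime_pow hp).1 h2
  exact IsPGroup.of_card (n := b) (by rw [Nat.card_zpowers, hb])

theorem exists_fixed {α : Type*} {G : Type*} [Group G] [MulAction G α] {p : ℕ} [Fact p.Prime]
    (P : Subgroup G) (hP : IsPGroup p P) (O : Set α) (hinv : ∀ g ∈ P, ∀ x ∈ O, g • x ∈ O)
    (hO : ¬ p ∣ Nat.card O) : ∃ x ∈ O, ∀ g ∈ P, g • x = x := by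
  let A : SubMulAction P α := ⟨O, fun c x hx => hinv c c.2 x hx⟩
  obtain ⟨⟨x, hx⟩, hfix⟩ := hP.nonempty_fixed_point_of_prime_not_dvd_card A hO
  refine ⟨x, hx, fun g hg => ?_⟩
  exact congrArg Subtype.val (hfix ⟨g, hg⟩)

/-- In a generously `k`-transitive permutation group, for a prime `p ≤ k` and a `k`-set `Γ`, there are no `p` points outside `Γ` lying in distinct orbits of the pointwise stabiliser of `Γ` all of length prime to `p` (at most `p - 1` such orbits). -/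
theorem result {α : Type*} [Fintype α] [DecidableEq α] (G : Subgroup (Equiv.Perm α)) {k : ℕ} (hk : k < Fintype.card α) (hgen : ∀ s : Finset α, s.card = k + 1 → ∀ σ : Equiv.Perm ↥s, ∃ g ∈ G, ∀ x : ↥s, g (x : α) = σ x) {p : ℕ} (hp : p.Prime) (hpk : p ≤ k) (Γ : Finset α) (hΓ : Γ.card = k) (f : Fin p → α) (hf : ∀ i, f i ∉ Γ) (hdist : ∀ i j, i ≠ j → f j ∉ MulAction.orbit (fixingSubgroup G (Γ : Set α)) (f i)) : ∃ i, p ∣ Nat.card (MulAction.orbit (fixingSubgroup G (Γ : Set α)) (f i)) := by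
  by_contra hcon
  push Not at hcon
  have : Fact p.Prime := ⟨hp⟩
  obtain ⟨hkt, horb⟩ := Cfsg.Agent.S0705.result G hk hgen
  set H := fixingSubgroup G (Γ : Set α) with hH
  set S := stabilizer G Γ with hS
  have hmemH : ∀ g : G, g ∈ H ↔ ∀ x ∈ Γ, g • x = x := by
    intro g
    rw [hH, mem_fixingSubgroup_iff]
    simp
  have hmemS : ∀ g : G, g ∈ S ↔ ∀ x ∈ Γ, g • x ∈ Γ := fun g => mem_stabilizer_finset'
  have hHS : H ≤ S := fun g hg => (hmemS g).2 fun x hx => by
    rw [(hmemH g).1 hg x hx]; exact hx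
  have hSN : S ≤ Subgroup.normalizer (H : Set G) := by
    intro s hs
    rw [mem_normalizer_iff_cj]
    apply cj_eq_of_le
    intro y hy
    rw [mem_cj] at hy
    rw [hmemH]
    intro x hx
    have hs' : s⁻¹ ∈ S := S.inv_mem hs
    have h1 := (hmemS _).1 hs' x hx
    have h2 := (hmemH _).1 hy _ h1
    simp only [mul_smul, smul_inv_smul] at h2
    exact smul_left_cancel _ h2
  obtain ⟨C, hCΓ, hCcard⟩ := Finset.exists_subset_card_eq (hpk.trans_eq hΓ.symm)
  obtain ⟨π, hπ, hπsupp⟩ := C.exists_cycleOn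
  have hπfix : ∀ z, z ∉ C → π z = z := fun z hz => by
    by_contra h
    exact hz (hπsupp (Equiv.Perm.mem_support.2 h))
  have hπΓ : ∀ z ∈ Γ, π z ∈ Γ := by
    intro z hz
    by_cases hzC : z ∈ C
    · exact hCΓ (hπ.1.mapsTo hzC)
    · rw [hπfix z hzC]; exact hz
  let i0 : Fin p := ⟨0, hp.pos⟩
  have hcard1 : (insert (f i0) Γ).card = k + 1 := by
    rw [Finset.card_insert_of_notMem (hf i0), hΓ]
  have hπs : ∀ z, z ∈ insert (f i0) Γ → π z ∈ insert (f i0) Γ := by
    intro z hz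
    rcases Finset.mem_insert.1 hz with rfl | hz
    · rw [hπfix _ (fun h => hf i0 (hCΓ h))]
      exact Finset.mem_insert_self _ _
    · exact Finset.mem_insert_of_mem (hπΓ z hz)
  obtain ⟨y0, hy0G, hy0⟩ := hgen _ hcard1 (π.subtypePermOfFintype hπs)
  let y : G := ⟨y0, hy0G⟩
  have hyπ : ∀ z ∈ Γ, y • z = π z := fun z hz => hy0 ⟨z, Finset.mem_insert_of_mem hz⟩
  have hyS : y ∈ S := (hmemS y).2 fun z hz => by rw [hyπ z hz]; exact hπΓ z hz
  obtain ⟨m, hm, hxp⟩ := exists_p_elt hp y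
  set x := y ^ m with hx
  have hxS : x ∈ S := S.pow_mem hyS m
  have hxH : x ∉ H := by
    intro hxH
    obtain ⟨c, hc⟩ : C.Nonempty := by
      rw [← Finset.card_pos, hCcard]; exact hp.pos
    have hcΓ := hCΓ hc
    have hpow : ∀ j : ℕ, ∀ z ∈ Γ, y ^ j • z = (π ^ j) z ∧ (π ^ j) z ∈ Γ := by
      intro j
      induction j with
      | zero => intro z hz; simpa using hz
      | succ j ih =>
        intro z hz
        obtain ⟨h1, h2⟩ := ih z hz
        rw [pow_succ', pow_succ', mul_smul, h1, hyπ _ h2, Equiv.Perm.mul_apply]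
        exact ⟨rfl, hπΓ _ h2⟩
    have h1 : (π ^ m) c = c := by
      rw [← (hpow m c hcΓ).1]
      exact (hmemH x).1 hxH c hcΓ
    rw [hπ.pow_apply_eq hc, hCcard] at h1
    exact hm h1
  obtain ⟨P, hP, hxP⟩ := exists_isSylowIn_ge hxp (Subgroup.zpowers_le.2 hxS)
  have hxP' : x ∈ P := hxP (Subgroup.mem_zpowers x)
  have hOinv : ∀ i, ∀ g ∈ P, ∀ z ∈ orbit H (f i), g • z ∈ orbit H (f i) := by
    intro i g hg z hz
    obtain ⟨h, rfl⟩ := hz
    have hgS : g * (h : G) ∈ S := S.mul_mem (hP.1 hg) (hHS h.2)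
    have hb : (g * (h : G)) • f i ∉ Γ := by
      intro hb
      have := (hmemS _).1 (S.inv_mem hgS) _ hb
      rw [inv_smul_smul] at this
      exact hf i this
    obtain ⟨h', hh'G, hh'fix, hh'⟩ := horb Γ hΓ (f i) _ (hf i) hb
      ⟨((g * (h : G) : G) : Equiv.Perm α), (g * (h : G)).2, hgS, rfl⟩
    refine ⟨⟨⟨h', hh'G⟩, (hmemH _).2 hh'fix⟩, ?_⟩
    change h' (f i) = g • ((h : G) • f i)
    rw [hh', mul_smul]
  have hδ : ∀ i, ∃ z ∈ orbit H (f i), ∀ g ∈ P, g • z = z :=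
    fun i => exists_fixed P hP.2.1 _ (hOinv i) (hcon i)
  choose δ hδO hδfix using hδ
  have hδΓ : ∀ i, δ i ∉ Γ := by
    intro i hi
    obtain ⟨h, hh⟩ := hδO i
    have h1 : (h : G)⁻¹ • δ i = δ i := (hmemH _).1 (H.inv_mem h.2) _ hi
    have h2 : (h : G) • f i = δ i := hh
    rw [← h2, inv_smul_smul] at h1
    rw [← h2, ← h1] at hi
    exact hf i hi
  have hδinj : Function.Injective δ := by
    intro i j hij
    by_contra hne
    apply hdist i j hne
    have h1 := hδO i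
    have h2 := hδO j
    rw [← hij] at h2
    rw [← orbit_eq_iff] at h1 h2
    rw [← h1, h2]
    exact mem_orbit_self _
  set Γ' : Finset α := (Γ \ C) ∪ Finset.univ.image δ with hΓ'
  have hΓ'card : Γ'.card = k := by
    rw [hΓ', Finset.card_union_of_disjoint, Finset.card_sdiff_of_subset hCΓ,
      Finset.card_image_of_injective _ hδinj, Finset.card_univ, Fintype.card_fin, hΓ, hCcard]
    · omega
    · rw [Finset.disjoint_left]
      intro z hz hz'
      obtain ⟨i, _, rfl⟩ := Finset.mem_image.1 hz'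
      exact hδΓ i (Finset.mem_sdiff.1 hz).1
  set H2 := fixingSubgroup G (Γ' : Set α) with hH2
  have hmemH2 : ∀ g : G, g ∈ H2 ↔ ∀ x ∈ Γ', g • x = x := by
    intro g
    rw [hH2, mem_fixingSubgroup_iff]
    simp
  have hcardH : Nat.card H2 = Nat.card H := by
    have e1 := hkt.index_of_fixingSubgroup_mul (s := (Γ : Set α)) (by rw [Set.ncard_coe_finset, hΓ])
    have e2 := hkt.index_of_fixingSubgroup_mul (s := (Γ' : Set α))
      (by rw [Set.ncard_coe_finset, hΓ'card])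
    have e3 : H.index = H2.index :=
      Nat.eq_of_mul_eq_mul_right (Nat.factorial_pos _) (e1.trans e2.symm)
    have e4 := H.card_mul_index
    have e5 := H2.card_mul_index
    rw [← e3, ← e4] at e5
    exact Nat.eq_of_mul_eq_mul_right (Nat.pos_of_ne_zero Subgroup.index_ne_zero_of_finite) e5
  have hfixΓ' : ∀ g ∈ P, (∀ z ∈ Γ \ C, g • z = z) → g ∈ H2 := by
    intro g hg hgz
    rw [hmemH2]
    intro z hz
    rcases Finset.mem_union.1 hz with hz | hz
    · exact hgz z hz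
    · obtain ⟨i, _, rfl⟩ := Finset.mem_image.1 hz
      exact hδfix i g hg
  have hQR : P ⊓ H ≤ P ⊓ H2 := by
    intro g hg
    refine Subgroup.mem_inf.2 ⟨hg.1, hfixΓ' g hg.1 ?_⟩
    intro z hz
    exact (hmemH g).1 hg.2 z (Finset.mem_sdiff.1 hz).1
  have hxR : x ∈ P ⊓ H2 := by
    refine Subgroup.mem_inf.2 ⟨hxP', hfixΓ' x hxP' ?_⟩
    intro z hz
    obtain ⟨hz1, hz2⟩ := Finset.mem_sdiff.1 hz
    have h1 : y ∈ stabilizer G z := by
      rw [mem_stabilizer_iff, hyπ z hz1, hπfix z hz2]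
    exact (stabilizer G z).pow_mem h1 m
  have hQ := hP.inf_normal hHS hSN
  obtain ⟨T, hT, hRT⟩ := exists_isSylowIn_ge (p := p) (Q := P ⊓ H2) (H := H2)
    (hP.2.1.to_le inf_le_left) inf_le_right
  have c1 := hQ.card_eq
  have c2 := hT.card_eq
  have c3 : Nat.card T = Nat.card (P ⊓ H : Subgroup G) := by rw [c1, c2, hcardH]
  have hle : Nat.card (P ⊓ H2 : Subgroup G) ≤ Nat.card (P ⊓ H : Subgroup G) :=
    c3 ▸ Subgroup.card_le_of_le hRT
  have heq := Subgroup.eq_of_le_of_card_ge hQR hle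
  rw [← heq] at hxR
  exact hxH hxR.2

end Cfsg.Agent.S0706
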