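import Cfsg.Statements.S0707
import Mathlib

set_option autoImplicit false
open Cfsg

namespace Cfsg.Agent.S0707

/-- In a primitive permutation group, distinct points have distinct stabilisers unless the group is regular of prime degree. -/
theorem result {α : Type*} (G : Subgroup (Equiv.Perm α)) [MulAction.IsPreprimitive G α] (h : ¬ (Nat.card α).Prime ∨ ∃ a : α, MulAction.stabilizer G a ≠ ⊥) {a b : α} (hab : a ≠ b) : MulAction.stabilizer G a ≠ MulAction.stabilizer G b := by
  intro heq
  have : Nontrivial α := ⟨a, b, hab⟩
  have hco : IsCoatom (MulAction.stabilizer G a) :=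
    MulAction.IsPreprimitive.isCoatom_stabilizer_of_isPreprimitive G a
  obtain ⟨g, hg⟩ := MulAction.exists_smul_eq G a b
  have hgN : g ∈ Subgroup.normalizer ((MulAction.stabilizer G a : Subgroup G) : Set G) := by
    rw [Subgroup.mem_normalizer_iff]
    intro x
    constructor
    · intro hx
      rw [heq, MulAction.mem_stabilizer_iff, ← hg]
      rw [MulAction.mem_stabilizer_iff] at hx
      simp [mul_smul, hx]
    · intro hx
      rw [heq, MulAction.mem_stabilizer_iff, ← hg] at hx
      rw [MulAction.mem_stabilizer_iff]
      simpa [mul_smul] using hx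
  have hgS : g ∉ MulAction.stabilizer G a := by
    rw [MulAction.mem_stabilizer_iff, hg]
    exact fun h => hab h.symm
  have hN : Subgroup.normalizer ((MulAction.stabilizer G a : Subgroup G) : Set G) = ⊤ := by
    apply hco.2
    exact lt_of_le_of_ne Subgroup.le_normalizer (fun h => hgS (h ▸ hgN))
  have hSbot : ∀ c : α, MulAction.stabilizer G c = ⊥ := by
    have h1 : MulAction.stabilizer G a = ⊥ := by
      rw [Subgroup.eq_bot_iff_forall]
      intro x hx
      apply Subtype.ext
      apply Equiv.ext
      intro y
      obtain ⟨k, hk⟩ := MulAction.exists_smul_eq G a y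
      have hkN : k⁻¹ ∈ Subgroup.normalizer ((MulAction.stabilizer G a : Subgroup G) : Set G) := by
        rw [hN]; trivial
      have := (Subgroup.mem_normalizer_iff.1 hkN x).1 hx
      rw [MulAction.mem_stabilizer_iff] at this
      simp only [inv_inv, mul_smul, hk] at this
      have h2 : x • y = y := by
        rw [inv_smul_eq_iff] at this
        rw [this, hk]
      exact h2
    intro c
    obtain ⟨k, hk⟩ := MulAction.exists_smul_eq G a c
    rw [← hk, MulAction.stabilizer_smul_eq_stabilizer_map_conj, h1, Subgroup.map_bot]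
  rw [hSbot a] at hco
  have hall : ∀ H : Subgroup G, H = ⊥ ∨ H = ⊤ := by
    intro H
    by_cases hH : H = ⊥
    · exact Or.inl hH
    · exact Or.inr (hco.2 H (bot_lt_iff_ne_bot.2 hH))
  have hg1 : g ≠ 1 := by
    rintro rfl
    exact hgS (Subgroup.one_mem _)
  have hz : Subgroup.zpowers g = ⊤ :=
    (hall _).resolve_left (Subgroup.zpowers_ne_bot.2 hg1)
  have : IsCyclic G := ⟨⟨g, (Subgroup.eq_top_iff' _).1 hz⟩⟩
  have : Nontrivial G := ⟨g, 1, hg1⟩
  have : IsSimpleGroup G := ⟨fun H _ => hall H⟩
  have hp : (Nat.card G).Prime := Group.is_simple_iff_prime_card.1 inferInstance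
  have hcard : Nat.card G = Nat.card α := by
    apply Nat.card_congr
    refine Equiv.ofBijective (fun x : G => x • a) ⟨?_, ?_⟩
    · intro x y hxy
      have : x⁻¹ * y ∈ MulAction.stabilizer G a := by
        rw [MulAction.mem_stabilizer_iff, mul_smul, inv_smul_eq_iff]
        exact hxy.symm
      rw [hSbot a, Subgroup.mem_bot] at this
      exact (inv_mul_eq_one.1 this)
    · intro y
      exact MulAction.exists_smul_eq G a y
  rcases h with h | ⟨c, hc⟩
  · exact h (hcard ▸ hp)
  · exact hc (hSbot c)

end Cfsg.Agent.S0707
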