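import Cfsg.Statements.S0708
import Cfsg.Agent.Lib.Helper10Sharp

set_option autoImplicit false
open Cfsg

namespace Cfsg.Agent.S0708

open MulAction Cfsg.Agent.Lib.Helper10Sharp

theorem finite_of_sharp {G α : Type*} [Group G] [MulAction G α] (h : Sharp G α 4)
    (t : Fin 4 ↪ α) : Finite α := by
  classical
  obtain ⟨p, q, a, b, hl⟩ : ∃ p q a b : α, [p, q, a, b].Nodup := by
    refine ⟨t 0, t 1, t 2, t 3, ?_⟩
    simp only [List.nodup_cons, List.mem_cons, List.not_mem_nil, or_false, not_or,
      List.nodup_nil, and_true, not_false_eq_true, EmbeddingLike.apply_eq_iff_eq]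
    decide
  have hl' : [p, q, b, a].Nodup := by
    simp only [List.nodup_cons, List.mem_cons, List.not_mem_nil, or_false, not_or,
      List.nodup_nil, and_true, not_false_eq_true] at hl ⊢
    tauto
  obtain ⟨x, hx⟩ := h.exists_map [p, q, a, b] [p, q, b, a] hl hl' rfl rfl
  simp only [List.map_cons, List.map_nil, List.cons.injEq, and_true] at hx
  obtain ⟨hxp, hxq, hxa, hxb⟩ := hx
  simp only [List.nodup_cons, List.mem_cons, List.not_mem_nil, or_false, not_or,
      List.nodup_nil, and_true, not_false_eq_true] at hl'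
  obtain ⟨⟨hpq, hpb, hpa⟩, ⟨hqb, hqa⟩, hba⟩ := hl'
  have hxx : x * x = 1 := h.eq_one [p, q, a, b] hl rfl _ (by
    simp [mul_smul, hxp, hxq, hxa, hxb])
  have hxx' : ∀ y : α, x • x • y = y := fun y => by rw [← mul_smul, hxx, one_smul]
  have hx1 : x ≠ 1 := by
    rintro rfl
    rw [one_smul] at hxa
    exact hba hxa.symm
  set F : Set α := {y : α | x • y = y} with hF
  have hFfin : F.Finite := by
    by_contra hcon
    obtain ⟨s, hs, hs4⟩ := Set.Infinite.exists_subset_card_eq hcon 4
    apply hx1
    refine h.eq_one s.toList s.nodup_toList (by simp [hs4]) x (fun y hy => ?_)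
    exact hs (Finset.mem_toList.mp hy)
  let H := {g : G // g • a = a ∧ g * x = x * g}
  have Hcomm : ∀ (g : H) (y : α), g.1 • x • y = x • g.1 • y := fun g y => by
    rw [← mul_smul, g.2.2, mul_smul]
  have Hb : ∀ g : H, g.1 • b = b := fun g => by
    rw [← hxa, Hcomm, g.2.1]
  let f1 : H → F × F := fun g => (⟨g.1 • p, by
      show x • g.1 • p = g.1 • p
      rw [← Hcomm, hxp]⟩, ⟨g.1 • q, by
      show x • g.1 • q = g.1 • q
      rw [← Hcomm, hxq]⟩)
  have hf1 : Function.Injective f1 := by
    intro g g' hgg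
    have h1 := congrArg (fun z => z.1.1) hgg
    have h2 := congrArg (fun z => z.2.1) hgg
    simp only [f1] at h1 h2
    apply Subtype.ext
    refine h.eq_of_agree [p, q, a, b] hl rfl _ _ ?_
    simp [h1, h2, g.2.1, g'.2.1, Hb]
  have : Finite F := hFfin
  have hHfin : Finite H := Finite.of_injective f1 hf1
  have hxc_ne : ∀ y, y ≠ b → y ≠ a → ¬ x • y = y → [a, b, y, x • y].Nodup := by
    intro y hyb hya hxy
    simp only [List.nodup_cons, List.mem_cons, List.not_mem_nil, or_false, not_or,
      List.nodup_nil, and_true, not_false_eq_true]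
    refine ⟨⟨fun h => hba h.symm, fun h => hya h.symm, ?_⟩, ⟨fun h => hyb h.symm, ?_⟩,
      fun h => hxy h.symm⟩
    · intro hh
      apply hyb
      rw [← hxa, hh, hxx']
    · intro hh
      apply hya
      rw [← hxb, hh, hxx']
  set E : Set α := {y : α | y ≠ b ∧ y ≠ a ∧ ¬ x • y = y} with hE
  have hEfin : E.Finite := by
    by_cases hEe : E = ∅
    · rw [hEe]; exact Set.finite_empty
    obtain ⟨c, hc⟩ := Set.nonempty_iff_ne_empty.mpr hEe
    obtain ⟨hcb, hca, hxc⟩ := hc
    apply (Set.finite_range (fun g : H => g.1 • c)).subset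
    rintro c' ⟨hcb', hca', hxc'⟩
    obtain ⟨g, hg⟩ := h.exists_map [a, b, c, x • c] [a, b, c', x • c'] (hxc_ne c hcb hca hxc)
      (hxc_ne c' hcb' hca' hxc') rfl rfl
    simp only [List.map_cons, List.map_nil, List.cons.injEq, and_true] at hg
    obtain ⟨hga, hgb, hgc, hgxc⟩ := hg
    refine ⟨⟨g, hga, h.comm_of_agree [a, b, c, x • c] (hxc_ne c hcb hca hxc) rfl g x ?_⟩, hgc⟩
    simp [hxa, hxb, hga, hgb, hgc, hgxc, hxx']
  have huniv : (Set.univ : Set α) = F ∪ ({a, b} ∪ E) := by
    symm
    rw [Set.eq_univ_iff_forall]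
    intro y
    by_cases h1 : x • y = y
    · exact Or.inl h1
    · by_cases h2 : y = a
      · right; left; simp [h2]
      · by_cases h3 : y = b
        · right; left; simp [h3]
        · right; right; exact ⟨h3, h2, h1⟩
  rw [← Set.finite_univ_iff, huniv]
  exact hFfin.union ((Set.toFinite _).union hEfin)

/-- Tits' argument: a sharply 4-transitive group (no finiteness assumed) has finite degree at most 11, and at most 6 when the degree is even. -/
theorem result {G : Type*} [Group G] {Ω : Type*} [MulAction G Ω] (h4 : MulAction.IsMultiplyPretransitive G Ω 4) (hsharp : ∀ x : Fin 4 ↪ Ω, MulAction.stabilizer G x = ⊥) (hne : Nonempty (Fin 4 ↪ Ω)) : Finite Ω ∧ Nat.card Ω ≤ 11 ∧ (Even (Nat.card Ω) → Nat.card Ω ≤ 6) := by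
  obtain ⟨t⟩ := hne
  have hS : Sharp G Ω 4 := ⟨h4, hsharp⟩
  have hfin : Finite Ω := finite_of_sharp hS t
  have h4' : 4 ≤ Nat.card Ω := by
    have := Finite.card_le_of_embedding t
    simpa using this
  have := degree_four hS h4'
  refine ⟨hfin, by omega, fun he => ?_⟩
  rcases this with h | h | h | h
  · omega
  · omega
  · omega
  · rw [h] at he
    exact absurd he (by decide)

end Cfsg.Agent.S0708
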