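import Cfsg.Statements.S0709
import Mathlib

set_option autoImplicit false
open Cfsg

namespace Cfsg.Agent.S0709

open Equiv Subgroup

variable {α : Type*}

/-- `K` is `k`-transitive on the complement of `F`. -/
def MT (K : Subgroup (Perm α)) (F : Set α) (k : ℕ) : Prop :=
  ∀ x y : Fin k → α, Function.Injective x → Function.Injective y → (∀ i, x i ∉ F) →
    (∀ i, y i ∉ F) → ∃ g ∈ K, ∀ i, g (x i) = y i

theorem MT.step {A K : Subgroup (Perm α)} {F F' : Set α} {r : α} {k : ℕ} (hAK : A ≤ K)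
    (hA : MT A F k) (hAr : ∀ a ∈ A, a r = r) (hF : ∀ x, x ∈ F → x ∈ F' ∨ x = r)
    (hKF : ∀ g ∈ K, ∀ x ∈ F', g x = x) (htr : ∀ x, x ∉ F' → ∃ g ∈ K, g x = r) :
    MT K F' (k + 1) := by
  intro x y hx hy hxF hyF
  obtain ⟨g1, hg1, e1⟩ := htr (x 0) (hxF 0)
  obtain ⟨g2, hg2, e2⟩ := htr (y 0) (hyF 0)
  have pres : ∀ g ∈ K, ∀ z, z ∉ F' → g z ∉ F' := by
    intro g hg z hz hc
    have h1 := hKF g hg _ hc
    have h2 : g z = z := g.injective h1
    rw [h2] at hc
    exact hz hc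
  have avoid : ∀ (g : Perm α) (w : Fin (k + 1) → α), g ∈ K → Function.Injective w →
      (∀ i, w i ∉ F') → g (w 0) = r → ∀ i : Fin k, g (w i.succ) ∉ F := by
    intro g w hg hw hwF e i hc
    rcases hF _ hc with h | h
    · exact pres g hg _ (hwF _) h
    · rw [← e] at h
      exact Fin.succ_ne_zero i (hw (g.injective h))
  obtain ⟨a, ha, hax⟩ := hA (fun i => g1 (x i.succ)) (fun i => g2 (y i.succ))
    (fun i j h => Fin.succ_injective _ (hx (g1.injective h)))
    (fun i j h => Fin.succ_injective _ (hy (g2.injective h)))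
    (avoid g1 x hg1 hx hxF e1) (avoid g2 y hg2 hy hyF e2)
  refine ⟨g2⁻¹ * a * g1, K.mul_mem (K.mul_mem (K.inv_mem hg2) (hAK ha)) hg1, ?_⟩
  intro i
  refine Fin.cases ?_ (fun j => ?_) i
  · rw [Perm.mul_apply, Perm.mul_apply, e1, hAr a ha, Perm.inv_eq_iff_eq, e2]
  · rw [Perm.mul_apply, Perm.mul_apply, hax j, Perm.inv_eq_iff_eq]

theorem ext_lemma (A : Subgroup (Perm α)) (σ₁ σ₂ : Perm α) (p : α) (hσ₁ : σ₁ ∈ A)
    (hc : ∀ g ∈ A, g p = p ∨ ∃ u ∈ A, ∃ v ∈ A, u p = p ∧ v p = p ∧ g = u * σ₁ * v)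
    (hd : ∀ g ∈ A, g p = p → σ₂ * g * σ₂⁻¹ ∈ A)
    (he : σ₂ ^ 2 ∈ A) (hf : (σ₁ * σ₂) ^ 3 ∈ A) :
    ∀ x ∈ closure ((A : Set (Perm α)) ∪ {σ₂}), x ∈ A ∨ ∃ u ∈ A, ∃ v ∈ A, x = u * σ₂ * v := by
  have left_A : ∀ a ∈ A, ∀ y, (y ∈ A ∨ ∃ u ∈ A, ∃ v ∈ A, y = u * σ₂ * v) →
      (a * y ∈ A ∨ ∃ u ∈ A, ∃ v ∈ A, a * y = u * σ₂ * v) := by
    rintro a ha y (hy | ⟨u, hu, v, hv, rfl⟩)
    · exact Or.inl (A.mul_mem ha hy)
    · exact Or.inr ⟨a * u, A.mul_mem ha hu, v, hv, by group⟩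
  have left_σ : ∀ y, (y ∈ A ∨ ∃ u ∈ A, ∃ v ∈ A, y = u * σ₂ * v) →
      (σ₂ * y ∈ A ∨ ∃ u ∈ A, ∃ v ∈ A, σ₂ * y = u * σ₂ * v) := by
    rintro y (hy | ⟨u, hu, v, hv, rfl⟩)
    · exact Or.inr ⟨1, A.one_mem, y, hy, by group⟩
    · rcases hc u hu with hup | ⟨u₁, hu₁, u₂, hu₂, h1, h2, rfl⟩
      · left
        have e : σ₂ * (u * σ₂ * v) = (σ₂ * u * σ₂⁻¹) * σ₂ ^ 2 * v := by group
        rw [e]
        exact A.mul_mem (A.mul_mem (hd u hu hup) he) hv
      · right
        refine ⟨(σ₂ * u₁ * σ₂⁻¹) * σ₁⁻¹ * (σ₁ * σ₂) ^ 3 * (σ₂ ^ 2)⁻¹, ?_,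
          σ₁⁻¹ * ((σ₂ ^ 2)⁻¹ * (σ₂ * u₂ * σ₂⁻¹) * σ₂ ^ 2) * v, ?_, ?_⟩
        · exact A.mul_mem (A.mul_mem (A.mul_mem (hd u₁ hu₁ h1) (A.inv_mem hσ₁)) hf) (A.inv_mem he)
        · exact A.mul_mem (A.mul_mem (A.inv_mem hσ₁)
            (A.mul_mem (A.mul_mem (A.inv_mem he) (hd u₂ hu₂ h2)) he)) hv
        · have e3 : (σ₁ * σ₂) ^ 3 = σ₁ * σ₂ * (σ₁ * σ₂) * (σ₁ * σ₂) := by
            rw [pow_succ, pow_succ, pow_one]
          rw [e3]
          group
  intro x hx
  induction hx using closure_induction_left with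
  | one => exact Or.inl A.one_mem
  | mul_left a ha y _ ih =>
    rcases ha with ha | ha
    · exact left_A a ha y ih
    · rw [Set.mem_singleton_iff.1 ha]
      exact left_σ y ih
  | inv_mul_cancel a ha y _ ih =>
    rcases ha with ha | ha
    · exact left_A a⁻¹ (A.inv_mem ha) y ih
    · rw [Set.mem_singleton_iff.1 ha]
      have e : σ₂⁻¹ * y = (σ₂ ^ 2)⁻¹ * (σ₂ * y) := by group
      rw [e]
      exact left_A _ (A.inv_mem he) _ (left_σ y ih)

theorem inj_pair {a b : α} (h : a ≠ b) : Function.Injective ![a, b] := by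
  intro i j hij
  fin_cases i <;> fin_cases j <;> simp_all [eq_comm]

/-- double coset decomposition from 2-transitivity -/
theorem decomp {A : Subgroup (Perm α)} {F : Set α} (hA : MT A F 2) (hAF : ∀ g ∈ A, ∀ x ∈ F, g x = x)
    (σ₁ : Perm α) (hσ₁ : σ₁ ∈ A) (p : α) (hp : p ∉ F) (hσp : σ₁ p ≠ p) :
    ∀ g ∈ A, g p = p ∨ ∃ u ∈ A, ∃ v ∈ A, u p = p ∧ v p = p ∧ g = u * σ₁ * v := by
  intro g hg
  by_cases hgp : g p = p
  · exact Or.inl hgp
  right
  have pres : ∀ g ∈ A, ∀ z, z ∉ F → g z ∉ F := by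
    intro g hg z hz hc
    have h1 := hAF g hg _ hc
    have h2 : g z = z := g.injective h1
    rw [h2] at hc
    exact hz hc
  obtain ⟨u, hu, hux⟩ := hA ![p, σ₁ p] ![p, g p]
    (by
      intro i j h
      fin_cases i <;> fin_cases j <;> simp_all [eq_comm])
    (by
      intro i j h
      fin_cases i <;> fin_cases j <;> simp_all [eq_comm])
    (by
      intro i
      fin_cases i
      · exact hp
      · exact pres σ₁ hσ₁ p hp)
    (by
      intro i
      fin_cases i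
      · exact hp
      · exact pres g hg p hp)
  have hu0 : u p = p := hux 0
  have hu1 : u (σ₁ p) = g p := hux 1
  refine ⟨u, hu, σ₁⁻¹ * u⁻¹ * g, A.mul_mem (A.mul_mem (A.inv_mem hσ₁) (A.inv_mem hu)) hg, hu0, ?_,
    by group⟩
  rw [Perm.mul_apply, Perm.mul_apply, Perm.inv_eq_iff_eq, Perm.inv_eq_iff_eq, hu1]

/-- Witt's Lemma for constructing transitive extensions. Points `q 1, …, q t` (`t ≥ 2`) of a finite set are given; `G` fixes `q i` for `i ≥ 3` and is doubly transitive on the remaining points; `s 1 ∈ G` swaps `q 1, q 2`; for `2 ≤ i ≤ t-1`, `s i` swaps `q i, q (i+1)` and fixes the other `q j`; with `H` the stabiliser of `q 1, q 2` in `G`: `s i ^ 2 ∈ H`, `(s i * s (i+1)) ^ 3 ∈ H`, `(s i * s j) ^ 2 ∈ H` for `j ≥ i + 2`, and `s i` (`i ≥ 2`) normalises the stabiliser of `q 2` in `G`. Then `G` and the `s i` generate a `t`-transitive group whose pointwise stabiliser of the `q`'s is `H`. -/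
theorem result {α : Type*} [Fintype α] [DecidableEq α] (t : ℕ) (ht : 2 ≤ t) (q : ℕ → α) (hq : ∀ i j : ℕ, 1 ≤ i → i ≤ t → 1 ≤ j → j ≤ t → q i = q j → i = j) (G : Subgroup (Equiv.Perm α)) (hfix : ∀ g ∈ G, ∀ i : ℕ, 3 ≤ i → i ≤ t → g (q i) = q i) (h2 : ∀ a b c d : α, (∀ i, 3 ≤ i → i ≤ t → a ≠ q i ∧ b ≠ q i ∧ c ≠ q i ∧ d ≠ q i) → a ≠ b → c ≠ d → ∃ g ∈ G, g a = c ∧ g b = d) (s : ℕ → Equiv.Perm α) (hs1 : s 1 ∈ G) (hs1q : s 1 (q 1) = q 2 ∧ s 1 (q 2) = q 1) (hsq : ∀ i : ℕ, 2 ≤ i → i + 1 ≤ t → s i (q i) = q (i + 1) ∧ s i (q (i + 1)) = q i ∧ ∀ j : ℕ, 1 ≤ j → j ≤ t → j ≠ i → j ≠ i + 1 → s i (q j) = q j) (H : Subgroup (Equiv.Perm α)) (hH : H = G ⊓ MulAction.stabilizer (Equiv.Perm α) (q 1) ⊓ MulAction.stabilizer (Equiv.Perm α) (q 2)) (hsq2 : ∀ i : ℕ, 1 ≤ i → i + 1 ≤ t → s i ^ 2 ∈ H) (hbraid : ∀ i : ℕ, 1 ≤ i → i + 2 ≤ t → (s i * s (i + 1)) ^ 3 ∈ H) (hcomm : ∀ i j : ℕ, 1 ≤ i → i + 2 ≤ j → j + 1 ≤ t → (s i * s j) ^ 2 ∈ H ∧ (s j * s i) ^ 2 ∈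 H) (hnorm : ∀ i : ℕ, 2 ≤ i → i + 1 ≤ t → ∀ g ∈ G ⊓ MulAction.stabilizer (Equiv.Perm α) (q 2), s i * g * (s i)⁻¹ ∈ G ⊓ MulAction.stabilizer (Equiv.Perm α) (q 2)) : MulAction.IsMultiplyPretransitive ↥(Subgroup.closure ((G : Set (Equiv.Perm α)) ∪ {x | ∃ i : ℕ, 2 ≤ i ∧ i + 1 ≤ t ∧ x = s i})) α t ∧ Subgroup.closure ((G : Set (Equiv.Perm α)) ∪ {x | ∃ i : ℕ, 2 ≤ i ∧ i + 1 ≤ t ∧ x = s i}) ⊓ fixingSubgroup (Equiv.Perm α) {x | ∃ i : ℕ, 1 ≤ i ∧ i ≤ t ∧ x = q i} = H := by
  classical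
  set Kf : ℕ → Subgroup (Equiv.Perm α) := fun m =>
    closure ((G : Set (Equiv.Perm α)) ∪ {x | ∃ i : ℕ, 2 ≤ i ∧ i ≤ m ∧ x = s i}) with hKf
  set F : ℕ → Set α := fun m => {x | ∃ i : ℕ, m + 2 ≤ i ∧ i ≤ t ∧ x = q i} with hF
  have hGK : ∀ m, G ≤ Kf m := fun m g hg => subset_closure (Or.inl hg)
  have hsK : ∀ m i, 2 ≤ i → i ≤ m → s i ∈ Kf m := fun m i h1 h2 =>
    subset_closure (Or.inr ⟨i, h1, h2, rfl⟩)
  have hmono : ∀ m m', m ≤ m' → Kf m ≤ Kf m' := by
    intro m m' hmm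
    apply Subgroup.closure_mono
    apply Set.union_subset_union_right
    rintro x ⟨i, h1, h2, rfl⟩
    exact ⟨i, h1, h2.trans hmm, rfl⟩
  have hK1 : Kf 1 = G := by
    apply le_antisymm _ (hGK 1)
    rw [hKf]
    simp only
    rw [closure_le]
    rintro x (hx | ⟨i, h1, h2, -⟩)
    · exact hx
    · omega
  have hKsucc : ∀ m, 1 ≤ m → Kf (m + 1) = closure ((Kf m : Set (Equiv.Perm α)) ∪ {s (m + 1)}) := by
    intro m hm
    apply le_antisymm
    · show Subgroup.closure _ ≤ _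
      rw [closure_le]
      rintro x (hx | ⟨i, h1, h2, rfl⟩)
      · exact subset_closure (Or.inl (hGK m hx))
      · rcases Nat.eq_or_lt_of_le h2 with h | h
        · rw [h]; exact subset_closure (Or.inr rfl)
        · exact subset_closure (Or.inl (hsK m i h1 (by omega)))
    · rw [closure_le]
      rintro x (hx | hx)
      · exact hmono m (m + 1) (by omega) hx
      · rw [Set.mem_singleton_iff.1 hx]
        exact hsK (m + 1) (m + 1) (by omega) le_rfl
  have hHG : H ≤ G := by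
    rw [hH]; exact inf_le_left.trans inf_le_left
  have hHq : ∀ h ∈ H, ∀ i, 1 ≤ i → i ≤ t → h (q i) = q i := by
    intro h hh i h1 h2
    have hh' := hh
    rw [hH] at hh'
    obtain ⟨⟨-, e1⟩, e2⟩ := hh'
    rcases (show i = 1 ∨ i = 2 ∨ 3 ≤ i by omega) with rfl | rfl | h3
    · exact e1
    · exact e2
    · exact hfix h (hHG hh) i h3 h2
  have hHK : ∀ m, H ≤ Kf m := fun m => hHG.trans (hGK m)
  have P1 : ∀ m, ∀ g ∈ Kf m, ∀ i, m + 2 ≤ i → 3 ≤ i → i ≤ t → g (q i) = q i := by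
    intro m g hg i hi1 hi3 hi2
    induction hg using closure_induction with
    | mem x hx =>
      rcases hx with hx | ⟨j, h1, h2, rfl⟩
      · exact hfix x hx i hi3 hi2
      · exact (hsq j h1 (by omega)).2.2 i (by omega) hi2 (by omega) (by omega)
    | one => rfl
    | mul x y _ _ hx hy => rw [Equiv.Perm.mul_apply, hy, hx]
    | inv x _ hx => rw [Equiv.Perm.inv_eq_iff_eq, hx]
  have hqF : ∀ m i, 1 ≤ i → i ≤ m + 1 → i ≤ t → q i ∉ F m := by
    rintro m i h1 h2 h3 ⟨j, hj1, hj2, hj⟩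
    have := hq i j h1 h3 (by omega) hj2 hj
    omega
  -- base transitivity
  have B2 : MT G (F 1) 2 := by
    intro x y hx hy hxF hyF
    obtain ⟨g, hg, h0, h1⟩ := h2 (x 0) (x 1) (y 0) (y 1)
      (fun i hi1 hi2 => ⟨fun h => hxF 0 ⟨i, by omega, hi2, h⟩, fun h => hxF 1 ⟨i, by omega, hi2, h⟩,
        fun h => hyF 0 ⟨i, by omega, hi2, h⟩, fun h => hyF 1 ⟨i, by omega, hi2, h⟩⟩)
      (fun h => absurd (hx h) (by decide)) (fun h => absurd (hy h) (by decide))
    refine ⟨g, hg, fun i => ?_⟩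
    fin_cases i
    · exact h0
    · exact h1
  have hother : ∀ z : α, ∃ b, b ≠ z ∧ b ∉ F 1 := by
    intro z
    by_cases hz : z = q 1
    · refine ⟨q 2, fun h => ?_, hqF 1 2 (by omega) (by omega) ht⟩
      have := hq 2 1 (by omega) ht (by omega) (by omega) (h.trans hz)
      omega
    · exact ⟨q 1, fun h => hz h.symm, hqF 1 1 (by omega) (by omega) (by omega)⟩
  have B1 : MT G (F 1) 1 := by
    intro x y hx hy hxF hyF
    obtain ⟨b, hb, hbF⟩ := hother (x 0)
    obtain ⟨d, hd, hdF⟩ := hother (y 0)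
    obtain ⟨g, hg, hgx⟩ := B2 ![x 0, b] ![y 0, d] (inj_pair hb.symm) (inj_pair hd.symm)
      (by
        intro i
        fin_cases i
        · exact hxF 0
        · exact hbF)
      (by
        intro i
        fin_cases i
        · exact hyF 0
        · exact hdF)
    refine ⟨g, hg, fun i => ?_⟩
    fin_cases i
    exact hgx 0
  have B0 : ∀ (K : Subgroup (Equiv.Perm α)) (E : Set α), MT K E 0 := fun K E x y _ _ _ _ =>
    ⟨1, K.one_mem, fun i => i.elim0⟩
  have hGF : ∀ g ∈ G, ∀ x ∈ F 1, g x = x := by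
    rintro g hg _ ⟨i, h1, h2, rfl⟩
    exact hfix g hg i (by omega) h2
  have hq12 : q 1 ≠ q 2 := by
    intro h
    have := hq 1 2 (by omega) (by omega) (by omega) ht h
    omega
  have dG := decomp B2 hGF (s 1) hs1 (q 2) (hqF 1 2 (by omega) (by omega) ht)
    (by rw [hs1q.2]; exact hq12)
  -- conjugation formula
  have conjf : ∀ a b : Equiv.Perm α, a * b * a⁻¹ = (a * b) ^ 2 * b⁻¹ * (a ^ 2)⁻¹ := by
    intro a b
    rw [pow_two, pow_two]
    group
  have D : ∀ m j, m + 2 ≤ j → 3 ≤ j → j + 1 ≤ t → ∀ g ∈ Kf m, s j * g * (s j)⁻¹ ∈ Kf m := by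
    intro m j hj hj3 hjt g hg
    have hsj2 : (s j ^ 2)⁻¹ ∈ Kf m := (Kf m).inv_mem (hHK m (hsq2 j (by omega) hjt))
    induction hg using closure_induction with
    | mem x hx =>
      rcases hx with hx | ⟨i, h1, h2, rfl⟩
      · have hstab : ∀ u ∈ G, u (q 2) = q 2 → s j * u * (s j)⁻¹ ∈ Kf m := by
          intro u hu hu2
          exact hGK m (hnorm j (by omega) hjt u ⟨hu, hu2⟩).1
        rcases dG x hx with h | ⟨u, hu, v, hv, hu2, hv2, rfl⟩
        · exact hstab x hx h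
        · have e : s j * (u * s 1 * v) * (s j)⁻¹
              = (s j * u * (s j)⁻¹) * (s j * s 1 * (s j)⁻¹) * (s j * v * (s j)⁻¹) := by group
          rw [e, conjf (s j) (s 1)]
          refine (Kf m).mul_mem ((Kf m).mul_mem (hstab u hu hu2) ?_) (hstab v hv hv2)
          exact (Kf m).mul_mem ((Kf m).mul_mem (hHK m (hcomm 1 j le_rfl (by omega) hjt).2)
            ((Kf m).inv_mem (hGK m hs1))) hsj2
      · rw [conjf (s j) (s i)]
        exact (Kf m).mul_mem ((Kf m).mul_mem (hHK m (hcomm i j (by omega) (by omega) hjt).2)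
            ((Kf m).inv_mem (hsK m i h1 h2))) hsj2
    | one => simp [(Kf m).one_mem]
    | mul x y _ _ hx hy =>
      have e : s j * (x * y) * (s j)⁻¹ = (s j * x * (s j)⁻¹) * (s j * y * (s j)⁻¹) := by group
      rw [e]; exact (Kf m).mul_mem hx hy
    | inv x _ hx =>
      have e : s j * x⁻¹ * (s j)⁻¹ = (s j * x * (s j)⁻¹)⁻¹ := by group
      rw [e]; exact (Kf m).inv_mem hx
  -- main induction
  have main : ∀ m, 1 ≤ m → m + 1 ≤ t → (∀ k ≤ m + 1, MT (Kf m) (F m) k) ∧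
      (2 ≤ m → ∀ g ∈ Kf m, g (q (m + 1)) = q (m + 1) → g ∈ Kf (m - 1)) := by
    intro m hm
    induction m, hm using Nat.le_induction with
    | base =>
      intro _
      refine ⟨?_, fun h => absurd h (by norm_num)⟩
      rw [hK1]
      intro k hk
      interval_cases k
      · exact B0 _ _
      · exact B1
      · exact B2
    | succ m hm ih =>
      intro hmt
      obtain ⟨ihMT, ihP3⟩ := ih (by omega)
      have hσ₁ : s m ∈ Kf m := by
        rcases Nat.eq_or_lt_of_le hm with rfl | hm2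
        · exact hGK 1 hs1
        · exact hsK m m hm2 le_rfl
      have hσ₁p : s m (q (m + 1)) = q m := by
        rcases Nat.eq_or_lt_of_le hm with rfl | hm2
        · exact hs1q.2
        · exact (hsq m hm2 (by omega)).2.1
      have hqne : q m ≠ q (m + 1) := by
        intro h
        have := hq m (m + 1) hm (by omega) (by omega) (by omega) h
        omega
      have hpr : q (m + 1) ≠ q (m + 2) := by
        intro h
        have := hq (m + 1) (m + 2) (by omega) (by omega) (by omega) (by omega) h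
        omega
      have hAF : ∀ g ∈ Kf m, ∀ x ∈ F m, g x = x := by
        rintro g hg _ ⟨i, h1, h2, rfl⟩
        exact P1 m g hg i h1 (by omega) h2
      have hc := decomp (ihMT 2 (by omega)) hAF (s m) hσ₁ (q (m + 1))
        (hqF m (m + 1) (by omega) le_rfl (by omega)) (by rw [hσ₁p]; exact hqne)
      have hs2 := hsq (m + 1) (by omega) (by omega)
      have hd : ∀ g ∈ Kf m, g (q (m + 1)) = q (m + 1) → s (m + 1) * g * (s (m + 1))⁻¹ ∈ Kf m := by
        intro g hg hgp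
        rcases Nat.eq_or_lt_of_le hm with rfl | hm2
        · rw [hK1] at hg ⊢
          exact (hnorm 2 le_rfl (by omega) g ⟨hg, hgp⟩).1
        · have h1 := ihP3 hm2 g hg hgp
          exact hmono (m - 1) m (by omega) (D (m - 1) (m + 1) (by omega) (by omega) (by omega) g h1)
      have ext := ext_lemma (Kf m) (s m) (s (m + 1)) (q (m + 1)) hσ₁ hc hd
        (hHK m (hsq2 (m + 1) (by omega) (by omega))) (hHK m (hbraid m hm (by omega)))
      rw [← hKsucc m hm] at ext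
      have hAr : ∀ a ∈ Kf m, a (q (m + 2)) = q (m + 2) := fun a ha =>
        P1 m a ha (m + 2) le_rfl (by omega) (by omega)
      constructor
      · intro k hk
        rcases k with _ | k
        · exact B0 _ _
        · apply MT.step (r := q (m + 2)) (hmono m (m + 1) (by omega)) (ihMT k (by omega)) hAr
          · rintro x ⟨i, h1, h2, rfl⟩
            rcases Nat.eq_or_lt_of_le h1 with h | h
            · right; rw [h]
            · left; exact ⟨i, by omega, h2, rfl⟩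
          · rintro g hg _ ⟨i, h1, h2, rfl⟩
            exact P1 (m + 1) g hg i h1 (by omega) h2
          · intro x hx
            by_cases hxr : x = q (m + 2)
            · exact ⟨1, (Kf (m + 1)).one_mem, hxr⟩
            · have hxF : x ∉ F m := by
                rintro ⟨i, h1, h2, rfl⟩
                rcases Nat.eq_or_lt_of_le h1 with h | h
                · exact hxr (by rw [h])
                · exact hx ⟨i, by omega, h2, rfl⟩
              obtain ⟨a, ha, hax⟩ := ihMT 1 (by omega) ![x] ![q (m + 1)]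
                (fun i j _ => Subsingleton.elim i j) (fun i j _ => Subsingleton.elim i j)
                (by intro i; fin_cases i; exact hxF)
                (by intro i; fin_cases i; exact hqF m (m + 1) (by omega) le_rfl (by omega))
              refine ⟨s (m + 1) * a, (Kf (m + 1)).mul_mem (hsK (m + 1) (m + 1) (by omega) le_rfl)
                (hmono m (m + 1) (by omega) ha), ?_⟩
              have hax0 : a x = q (m + 1) := hax 0
              rw [Equiv.Perm.mul_apply, hax0]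
              exact hs2.1
      · intro _ g hg hgr
        rw [Nat.add_sub_cancel]
        rcases ext g hg with h | ⟨u, hu, v, hv, rfl⟩
        · exact h
        · exfalso
          have e1 : (u * s (m + 1) * v) (q (m + 2)) = u (q (m + 1)) := by
            rw [Equiv.Perm.mul_apply, Equiv.Perm.mul_apply, hAr v hv]
            congr 1
            exact hs2.2.1
          have hgr' : (u * s (m + 1) * v) (q (m + 2)) = q (m + 2) := hgr
          rw [e1, ← hAr u hu] at hgr'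
          exact hpr (u.injective hgr')
  have hKfinal : closure ((G : Set (Equiv.Perm α)) ∪ {x | ∃ i : ℕ, 2 ≤ i ∧ i + 1 ≤ t ∧ x = s i})
      = Kf (t - 1) := by
    show _ = Subgroup.closure _
    congr 2
    ext x
    constructor
    · rintro ⟨i, h1, h2, rfl⟩
      exact ⟨i, h1, by omega, rfl⟩
    · rintro ⟨i, h1, h2, rfl⟩
      exact ⟨i, h1, by omega, rfl⟩
  rw [hKfinal]
  obtain ⟨hMT, -⟩ := main (t - 1) (by omega) (by omega)
  constructor
  · have h1 := hMT t (by omega)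
    constructor
    intro x y
    obtain ⟨g, hg, hgx⟩ := h1 x y x.injective y.injective
      (by rintro i ⟨j, hj1, hj2, -⟩; omega) (by rintro i ⟨j, hj1, hj2, -⟩; omega)
    refine ⟨⟨g, hg⟩, ?_⟩
    ext i
    exact hgx i
  · apply le_antisymm
    · rintro g ⟨hgK, hgfix⟩
      have hgfix' : g ∈ fixingSubgroup (Equiv.Perm α) {x | ∃ i : ℕ, 1 ≤ i ∧ i ≤ t ∧ x = q i} := hgfix
      rw [mem_fixingSubgroup_iff] at hgfix'
      have hgq : ∀ i, 1 ≤ i → i ≤ t → g (q i) = q i := fun i h1 h2 => hgfix' _ ⟨i, h1, h2, rfl⟩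
      have down : ∀ d, d + 2 ≤ t → g ∈ Kf (t - 1 - d) := by
        intro d
        induction d with
        | zero => intro _; exact hgK
        | succ d ih =>
          intro hd
          have h1 := ih (by omega)
          have h2 := (main (t - 1 - d) (by omega) (by omega)).2 (by omega) g h1
            (hgq _ (by omega) (by omega))
          have e : t - 1 - d - 1 = t - 1 - (d + 1) := by omega
          rwa [e] at h2
      have hgG : g ∈ G := by
        have := down (t - 2) (by omega)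
        have e : t - 1 - (t - 2) = 1 := by omega
        rw [e, hK1] at this
        exact this
      rw [hH]
      exact ⟨⟨hgG, hgq 1 le_rfl (by omega)⟩, hgq 2 (by omega) ht⟩
    · intro h hh
      refine ⟨hHK _ hh, ?_⟩
      show h ∈ fixingSubgroup (Equiv.Perm α) {x | ∃ i : ℕ, 1 ≤ i ∧ i ≤ t ∧ x = q i}
      rw [mem_fixingSubgroup_iff]
      rintro _ ⟨i, h1, h2, rfl⟩
      exact hHq h hh i h1 h2

end Cfsg.Agent.S0709
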