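import Cfsg.Statements.S0710
import Mathlib

set_option autoImplicit false
open Cfsg

namespace Cfsg.Agent.S0710

theorem arith (n d : ℕ) (h4 : n * (d * 13) = 13 * 12 * 11 * 10 * 9 * 8) (key : d ∣ 12)
    (h6 : n % 13 = 1 % 13) : False := by
  have hd12 : d ≤ 12 := Nat.le_of_dvd (by norm_num) key
  interval_cases d <;> first | omega | (revert key; norm_num)

/-- No transitive permutation group on 13 points has order `13 * 12 * 11 * 10 * 9 * 8`. -/
theorem result {α : Type*} [Fintype α] [DecidableEq α] (hα : Fintype.card α = 13) (G : Subgroup (Equiv.Perm α)) [MulAction.IsPretransitive G α] : Nat.card G ≠ 13 * 12 * 11 * 10 * 9 * 8 := by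
  intro hcard
  have hp13 : Fact (Nat.Prime 13) := ⟨by norm_num⟩
  obtain ⟨P⟩ : Nonempty (Sylow 13 G) := inferInstance
  have hPcard : Nat.card P = 13 := by
    obtain ⟨k, hk⟩ := P.2.exists_card_eq
    have h1 : Nat.card P * (P : Subgroup G).index = Nat.card G := Subgroup.card_mul_index _
    have h2 := P.not_dvd_index
    rw [hcard] at h1
    rcases k with _ | _ | k
    · exfalso
      apply h2
      rw [hk] at h1
      simp only [pow_zero, one_mul] at h1
      rw [h1]
      norm_num
    · simpa using hk
    · exfalso
      rw [hk] at h1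
      have : 169 ∣ 13 * 12 * 11 * 10 * 9 * 8 := by
        rw [← h1]
        refine Dvd.dvd.mul_right ?_ _
        rw [show k + 1 + 1 = 2 + k by ring, pow_add]
        exact Dvd.intro _ rfl
      revert this
      norm_num
  have hPcyc : IsCyclic P := isCyclic_of_prime_card hPcard
  have key := Subgroup.card_dvd_of_injective _
    (QuotientGroup.kerLift_injective (P : Subgroup G).normalizerMonoidHom)
  rw [Subgroup.normalizerMonoidHom_ker, ← Subgroup.index, ← Subgroup.relIndex, hPcyc.card_mulAut,
    hPcard] at key
  have htot : Nat.totient 13 = 12 := by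
    rw [Nat.totient_prime (by norm_num)]
  rw [htot] at key
  -- centralizer has order 13
  obtain ⟨g, hg⟩ := hPcyc.exists_generator
  have hgo : orderOf g = 13 := by
    rw [orderOf_eq_card_of_forall_mem_zpowers hg, hPcard]
  have hgo' : orderOf (((g : G) : Equiv.Perm α)) = 13 := by
    refine Eq.trans ?_ hgo
    simp
  have hcyc : (((g : G) : Equiv.Perm α)).IsCycle := by
    apply Equiv.Perm.isCycle_of_prime_order'
    · rw [hgo']; norm_num
    · rw [hgo', hα]; norm_num
  have hct : (((g : G) : Equiv.Perm α)).cycleType = {13} := by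
    rw [hcyc.cycleType, ← hcyc.orderOf, hgo']
  have hcent : Nat.card (Subgroup.centralizer {((g : G) : Equiv.Perm α)}) = 13 := by
    rw [Equiv.Perm.nat_card_centralizer, hct, hα]
    simp
  have hC1 : Nat.card (Subgroup.centralizer ((P : Subgroup G) : Set G)) ≤ 13 := by
    refine le_of_le_of_eq ?_ hcent
    refine Nat.card_le_card_of_injective
      (fun c => ⟨((c : G) : Equiv.Perm α), ?_⟩) ?_
    · rw [Subgroup.mem_centralizer_singleton_iff]
      have := c.2 (g : G) g.2
      exact (congrArg Subtype.val this).symm
    · intro c c' h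
      apply Subtype.ext
      apply Subtype.ext
      exact congrArg (fun z : Subgroup.centralizer {((g : G) : Equiv.Perm α)} => (z : Equiv.Perm α)) h
  have hPC : (P : Subgroup G) ≤ Subgroup.centralizer ((P : Subgroup G) : Set G) := by
    have : IsMulCommutative P := inferInstance
    exact Subgroup.le_centralizer _
  have hC2 : 13 ≤ Nat.card (Subgroup.centralizer ((P : Subgroup G) : Set G)) := by
    refine le_of_eq_of_le hPcard.symm ?_
    exact Subgroup.card_le_of_le hPC
  have hC : Nat.card (Subgroup.centralizer ((P : Subgroup G) : Set G)) = 13 := le_antisymm hC1 hC2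
  have hCN : Subgroup.centralizer ((P : Subgroup G) : Set G) ≤ Subgroup.normalizer ((P : Subgroup G) : Set G) :=
    Subgroup.centralizer_le_normalizer _
  have h3 : (Subgroup.centralizer ((P : Subgroup G) : Set G)).relIndex (Subgroup.normalizer ((P : Subgroup G) : Set G)) * Nat.card (Subgroup.centralizer ((P : Subgroup G) : Set G)) = Nat.card (Subgroup.normalizer ((P : Subgroup G) : Set G)) := by
    have := Subgroup.relIndex_mul_relIndex ⊥ _ _ bot_le hCN
    rw [Subgroup.relIndex_bot_left, Subgroup.relIndex_bot_left] at this
    rw [mul_comm]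
    exact this
  have h4 := Subgroup.index_mul_card (Subgroup.normalizer ((P : Subgroup G) : Set G))
  have h5 := P.card_eq_index_normalizer
  have h6 : Nat.card (Sylow 13 G) ≡ 1 [MOD 13] := card_sylow_modEq_one 13 G
  rw [h5] at h6
  rw [← h3, hC, hcard] at h4
  exact arith _ _ h4 key h6

end Cfsg.Agent.S0710
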