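import Cfsg.Statements.S0711
import Mathlib

set_option autoImplicit false
open Cfsg

namespace Cfsg.Agent.S0711

open Equiv Equiv.Perm MulAction

variable {α : Type*} [Fintype α] [DecidableEq α]

theorem exists_agree (G : Subgroup (Perm α)) {k : ℕ} (hkn : k ≤ Fintype.card α)
    (hG : IsMultiplyPretransitive G α k) (Δ : Finset α) (hΔ : Δ.card ≤ k) (σ : Perm α) :
    ∃ h ∈ G, ∀ x ∈ Δ, h x = σ x := by
  have hk : IsMultiplyPretransitive G α Δ.card :=
    isMultiplyPretransitive_of_le hΔ (by rw [Nat.card_eq_fintype_card]; exact hkn)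
  let e := Δ.equivFin.symm
  let x : Fin Δ.card ↪ α := e.toEmbedding.trans (Function.Embedding.subtype _)
  obtain ⟨h, hh⟩ := hk.exists_smul_eq x (x.trans σ.toEmbedding)
  refine ⟨h, h.2, ?_⟩
  intro z hz
  have := DFunLike.congr_fun hh (e.symm ⟨z, hz⟩)
  simp only [x, Function.Embedding.smul_apply, Function.Embedding.trans_apply,
    Equiv.coe_toEmbedding, Equiv.apply_symm_apply, Function.Embedding.subtype_apply] at this
  exact this

theorem exists_few_exits (g : Perm α) (j : ℕ) (hj : j ≤ g.support.card) :
    ∃ A : Finset α, A ⊆ g.support ∧ A.card = j ∧ (A.filter (fun p => g p ∉ A)).card ≤ 1 := by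
  induction j with
  | zero => exact ⟨∅, by simp, by simp, by simp⟩
  | succ j ih =>
    obtain ⟨A, hA, hcard, hex⟩ := ih (by omega)
    rcases (A.filter (fun p => g p ∉ A)).eq_empty_or_nonempty with he | ⟨p, hp⟩
    · obtain ⟨x, hx, hxA⟩ := Finset.exists_mem_notMem_of_card_lt_card
        (show A.card < g.support.card by omega)
      refine ⟨insert x A, Finset.insert_subset hx hA, by
        rw [Finset.card_insert_of_notMem hxA, hcard], ?_⟩
      have hsub : (insert x A).filter (fun p => g p ∉ insert x A) ⊆ {x} := by
        intro y hy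
        rw [Finset.mem_filter] at hy
        rcases Finset.mem_insert.1 hy.1 with h | h
        · simp [h]
        · exfalso
          have : y ∉ A.filter (fun p => g p ∉ A) := by rw [he]; simp
          rw [Finset.mem_filter] at this
          push Not at this
          exact hy.2 (Finset.mem_insert_of_mem (this h))
      exact (Finset.card_le_card hsub).trans (by simp)
    · rw [Finset.mem_filter] at hp
      refine ⟨insert (g p) A, Finset.insert_subset (apply_mem_support.2 (hA hp.1)) hA, by
        rw [Finset.card_insert_of_notMem hp.2, hcard], ?_⟩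
      have hsub : (insert (g p) A).filter (fun y => g y ∉ insert (g p) A) ⊆ {g p} := by
        intro y hy
        rw [Finset.mem_filter] at hy
        rcases Finset.mem_insert.1 hy.1 with h | h
        · simp [h]
        · exfalso
          have hyex : y ∈ A.filter (fun p => g p ∉ A) := by
            rw [Finset.mem_filter]
            exact ⟨h, fun hc => hy.2 (Finset.mem_insert_of_mem hc)⟩
          have hpex : p ∈ A.filter (fun p => g p ∉ A) := by
            rw [Finset.mem_filter]; exact hp
          have := Finset.card_le_one.1 hex y hyex p hpex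
          apply hy.2
          rw [this]
          exact Finset.mem_insert_self _ _
      exact (Finset.card_le_card hsub).trans (by simp)

theorem support_comm_subset (g t : Perm α) (A : Finset α) (ht : ∀ x ∈ A, t x = x) :
    (g⁻¹ * t * g * t⁻¹).support ⊆
      ((g.support \ A) ∪ (g.support \ A).image t) ∪ A.filter (fun p => g p ∉ A) := by
  intro x hx
  by_contra hcon
  simp only [Finset.mem_union, Finset.mem_sdiff, Finset.mem_image, Finset.mem_filter, not_or,
    not_and, not_exists, not_not] at hcon
  obtain ⟨⟨h1, h2⟩, h3⟩ := hcon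
  rw [mem_support] at hx
  apply hx
  simp only [Perm.mul_apply]
  by_cases hxA : x ∈ A
  · have e1 : t⁻¹ x = x := by rw [Perm.inv_eq_iff_eq, ht x hxA]
    rw [e1, ht _ (h3 hxA)]
    simp
  · have hxS : x ∉ g.support := fun h => hxA (h1 h)
    have hty : t (t⁻¹ x) = x := by simp
    have hyA : t⁻¹ x ∉ A := by
      intro h
      have := ht _ h
      rw [hty] at this
      rw [← this] at h
      exact hxA h
    have hyS : t⁻¹ x ∉ g.support := by
      intro h
      exact h2 _ ⟨h, hyA⟩ hty
    rw [notMem_support] at hyS hxS
    rw [hyS, hty, Perm.inv_eq_iff_eq, hxS]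

theorem ne_one_of_out (g t : Perm α) {q q' : α} (hq : q ∈ g.support) (hq' : q' ∉ g.support)
    (htq : t q = q') : g⁻¹ * t * g * t⁻¹ ≠ 1 := by
  intro hc
  have h1 := congrArg (fun τ : Perm α => τ q') hc
  simp only [Perm.mul_apply, Perm.one_apply] at h1
  have e1 : t⁻¹ q' = q := by rw [Perm.inv_eq_iff_eq, htq]
  rw [e1, Perm.inv_eq_iff_eq, notMem_support.1 hq', ← htq] at h1
  exact (mem_support.1 hq) (t.injective h1)

theorem ne_one_of_exit (g t : Perm α) {p : α} (hp : t p = p) (htq : t (g p) ≠ g p) :
    g⁻¹ * t * g * t⁻¹ ≠ 1 := by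
  intro hc
  have h1 := congrArg (fun τ : Perm α => τ p) hc
  simp only [Perm.mul_apply, Perm.one_apply] at h1
  have e1 : t⁻¹ p = p := by rw [Perm.inv_eq_iff_eq, hp]
  rw [e1, Perm.inv_eq_iff_eq] at h1
  exact htq h1

theorem main (G : Subgroup (Perm α)) {k : ℕ} (hk : 3 ≤ k) (hkn : k ≤ Fintype.card α)
    (hG : IsMultiplyPretransitive G α k) : ∀ m : ℕ, ∀ g ∈ G, g ≠ 1 → g.support.card = m →
      m < 2 * k - 2 → ∃ h : Perm α, h ∈ G ∧ h ≠ 1 ∧ h.support.card ≤ 3 := by
  intro m
  induction m using Nat.strong_induction_on with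
  | _ m ih =>
  intro g hg hg1 hm hmk
  by_cases hm3 : m ≤ 3
  · exact ⟨g, hg, hg1, by omega⟩
  have hmn : m ≤ Fintype.card α := by rw [← hm]; exact Finset.card_le_univ _
  rcases Nat.eq_or_lt_of_le hmn with hmn | hmn
  · -- full support
    obtain ⟨Δ, -, hΔ⟩ := Finset.exists_subset_card_eq (s := (Finset.univ : Finset α)) (n := k)
      (by rw [Finset.card_univ]; exact hkn)
    obtain ⟨u, hu, v, hv, huv⟩ := Finset.one_lt_card.1 (show 1 < Δ.card by omega)
    obtain ⟨t, ht, htΔ⟩ := exists_agree G hkn hG Δ hΔ.le (swap u v)
    have ht1 : t ≠ 1 := by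
      intro h
      have := htΔ u hu
      rw [h, swap_apply_left] at this
      exact huv this
    have hsub : t.support ⊆ Finset.univ \ (Δ \ {u, v}) := by
      intro x hx
      rw [Finset.mem_sdiff]
      refine ⟨Finset.mem_univ _, fun hxΔ => ?_⟩
      rw [Finset.mem_sdiff] at hxΔ
      simp only [Finset.mem_insert, Finset.mem_singleton, not_or] at hxΔ
      rw [mem_support] at hx
      apply hx
      rw [htΔ x hxΔ.1, swap_apply_of_ne_of_ne hxΔ.2.1 hxΔ.2.2]
    have hc1 := Finset.card_le_card hsub
    rw [Finset.card_sdiff_of_subset (Finset.subset_univ _), Finset.card_univ] at hc1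
    have hc2 := Finset.le_card_sdiff ({u, v} : Finset α) Δ
    have hc3 : ({u, v} : Finset α).card = 2 := Finset.card_pair huv
    exact ih t.support.card (by omega) t ht ht1 rfl (by omega)
  · -- a point outside the support
    obtain ⟨q', -, hq'⟩ := Finset.exists_mem_notMem_of_card_lt_card
      (show g.support.card < (Finset.univ : Finset α).card by rw [Finset.card_univ]; omega)
    obtain ⟨A, hA, hAc, hex⟩ := exists_few_exits g (min (k - 1) (m - 1)) (by omega)
    have hr : (g.support \ A).card = m - min (k - 1) (m - 1) := by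
      rw [Finset.card_sdiff_of_subset hA, hm, hAc]
    have key : ∀ t ∈ G, (∀ x ∈ A, t x = x) → g⁻¹ * t * g * t⁻¹ ≠ 1 →
        (((g.support \ A) ∪ (g.support \ A).image t) ∪ A.filter (fun p => g p ∉ A)).card < m →
        ∃ h : Perm α, h ∈ G ∧ h ≠ 1 ∧ h.support.card ≤ 3 := by
      intro t ht htA hne hcard
      have hle := Finset.card_le_card (support_comm_subset g t A htA)
      exact ih _ (lt_of_le_of_lt hle hcard) _
        (G.mul_mem (G.mul_mem (G.mul_mem (G.inv_mem hg) ht) hg) (G.inv_mem ht)) hne rfl (by omega)
    have hq'A : q' ∉ A := fun h => hq' (hA h)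
    by_cases hX : 2 ≤ (g.support \ A).card ∧ (A.filter (fun p => g p ∉ A)).Nonempty
    · obtain ⟨hr2, p, hp⟩ := hX
      rw [Finset.mem_filter] at hp
      have hgp : g p ∈ g.support \ A :=
        Finset.mem_sdiff.2 ⟨apply_mem_support.2 (hA hp.1), hp.2⟩
      obtain ⟨q2, hq2, hq2ne⟩ := Finset.exists_mem_ne (show 1 < (g.support \ A).card by omega) (g p)
      have hq2A : q2 ∉ A := (Finset.mem_sdiff.1 hq2).2
      obtain ⟨t, ht, htΔ⟩ := exists_agree G hkn hG (insert (g p) A)
        (by rw [Finset.card_insert_of_notMem hp.2, hAc]; omega) (swap (g p) q2)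
      have htA : ∀ x ∈ A, t x = x := by
        intro x hx
        rw [htΔ x (Finset.mem_insert_of_mem hx)]
        exact swap_apply_of_ne_of_ne (fun h => hp.2 (h ▸ hx)) (fun h => hq2A (h ▸ hx))
      have htq : t (g p) = q2 := by
        rw [htΔ _ (Finset.mem_insert_self _ _), swap_apply_left]
      apply key t ht htA (ne_one_of_exit g t (htA p hp.1) (by rw [htq]; exact hq2ne))
      have hsub : (g.support \ A) ∪ (g.support \ A).image t
          ⊆ (g.support \ A) ∪ ((g.support \ A).erase (g p)).image t := by
        intro x hx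
        rcases Finset.mem_union.1 hx with h | h
        · exact Finset.mem_union_left _ h
        · obtain ⟨y, hy, rfl⟩ := Finset.mem_image.1 h
          by_cases hyp : y = g p
          · rw [hyp, htq]; exact Finset.mem_union_left _ hq2
          · exact Finset.mem_union_right _
              (Finset.mem_image_of_mem _ (Finset.mem_erase.2 ⟨hyp, hy⟩))
      have c1 := Finset.card_union_le ((g.support \ A) ∪ (g.support \ A).image t)
        (A.filter (fun p => g p ∉ A))
      have c2 := Finset.card_le_card hsub
      have c3 := Finset.card_union_le (g.support \ A) (((g.support \ A).erase (g p)).image t)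
      have c4 : (((g.support \ A).erase (g p)).image t).card ≤ ((g.support \ A).erase (g p)).card :=
        Finset.card_image_le
      rw [Finset.card_erase_of_mem hgp] at c4
      omega
    · obtain ⟨q, hq⟩ : (g.support \ A).Nonempty := by
        rw [← Finset.card_pos]; omega
      have hqS := (Finset.mem_sdiff.1 hq).1
      have hqA := (Finset.mem_sdiff.1 hq).2
      obtain ⟨t, ht, htΔ⟩ := exists_agree G hkn hG (insert q A)
        (by rw [Finset.card_insert_of_notMem hqA, hAc]; omega) (swap q q')
      have htA : ∀ x ∈ A, t x = x := by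
        intro x hx
        rw [htΔ x (Finset.mem_insert_of_mem hx)]
        exact swap_apply_of_ne_of_ne (fun h => hqA (h ▸ hx)) (fun h => hq'A (h ▸ hx))
      have htq : t q = q' := by
        rw [htΔ _ (Finset.mem_insert_self _ _), swap_apply_left]
      apply key t ht htA (ne_one_of_out g t hqS hq' htq)
      have c1 := Finset.card_union_le ((g.support \ A) ∪ (g.support \ A).image t)
        (A.filter (fun p => g p ∉ A))
      have c3 := Finset.card_union_le (g.support \ A) ((g.support \ A).image t)
      have c4 : ((g.support \ A).image t).card ≤ (g.support \ A).card := Finset.card_image_le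
      rw [not_and_or] at hX
      rcases hX with hX | hX
      · omega
      · rw [Finset.not_nonempty_iff_eq_empty] at hX
        rw [hX] at c1 ⊢
        rw [Finset.card_empty] at c1
        omega

/-- A `k`-transitive permutation group (`k ≥ 3`) with a non-identity element of support smaller than `2k - 2` contains a non-identity element of support at most 3, and therefore contains the alternating group. -/
theorem result {α : Type*} [Fintype α] [DecidableEq α] (G : Subgroup (Equiv.Perm α)) {k : ℕ} (hk : 3 ≤ k) (hkn : k ≤ Fintype.card α) (hG : MulAction.IsMultiplyPretransitive G α k) (g : Equiv.Perm α) (hg : g ∈ G) (hg1 : g ≠ 1) (hsupp : g.support.card < 2 * k - 2) : (∃ h : Equiv.Perm α, h ∈ G ∧ h ≠ 1 ∧ h.support.card ≤ 3) ∧ alternatingGroup α ≤ G := by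
  obtain ⟨h, hh, hh1, hh3⟩ := main G hk hkn hG _ g hg hg1 rfl hsupp
  refine ⟨⟨h, hh, hh1, hh3⟩, ?_⟩
  have h2 : IsMultiplyPretransitive G α 2 :=
    isMultiplyPretransitive_of_le (n := k) (by omega) (by rw [Nat.card_eq_fintype_card]; exact hkn)
  have hprim : IsPreprimitive G α := isPreprimitive_of_is_two_pretransitive h2
  have h2le := two_le_card_support_of_ne_one hh1
  rcases (show h.support.card = 2 ∨ h.support.card = 3 by omega) with hc | hc
  · rw [subgroup_eq_top_of_isPreprimitive_of_isSwap_mem hprim h (card_support_eq_two.1 hc) hh]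
    exact le_top
  · exact alternatingGroup_le_of_isPreprimitive_of_isThreeCycle_mem hprim
      (card_support_eq_three_iff.1 hc) hh

end Cfsg.Agent.S0711
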