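import Cfsg.Statements.S0714
import Mathlib

set_option autoImplicit false
open Cfsg

namespace Cfsg.Agent.S0714

open Equiv MulAction

variable {α : Type*} [Fintype α] [DecidableEq α] {K : Type*} [Field K]

/-- invariance in composition form -/
theorem comp_mem (W : Subrepresentation (Cfsg.permRep K (alternatingGroup α) α)) (σ : Perm α)
    (hσ : σ ∈ alternatingGroup α) (v : α → K) (hv : v ∈ W.toSubmodule) :
    (fun x => v (σ x)) ∈ W.toSubmodule := by
  have := W.apply_mem_toSubmodule (⟨σ, hσ⟩⁻¹ : alternatingGroup α) hv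
  convert this using 1
  ext x
  simp [Cfsg.permRep]

theorem swap_mul_swap_mem (a b c d : α) (hab : a ≠ b) (hcd : c ≠ d) :
    swap a b * swap c d ∈ alternatingGroup α := by
  rw [Perm.mem_alternatingGroup, Perm.sign_mul, Perm.sign_swap hab, Perm.sign_swap hcd]
  simp

theorem diff_mem (hα : 5 ≤ Fintype.card α)
    (W : Subrepresentation (Cfsg.permRep K (alternatingGroup α) α)) (f : α → K)
    (hf : f ∈ W.toSubmodule) (a b : α) (hab : f a ≠ f b) :
    ∃ d, b ≠ d ∧ (Pi.single b 1 - Pi.single d 1 : α → K) ∈ W.toSubmodule := by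
  have hab' : a ≠ b := fun h => hab (h ▸ rfl)
  -- pick c, d, e
  have h1 : 2 < (({a, b} : Finset α)ᶜ).card := by
    rw [Finset.card_compl, Finset.card_pair hab']
    omega
  obtain ⟨c, hc, d, hd, e, he, hcd, hce, hde⟩ := Finset.two_lt_card.1 h1
  simp only [Finset.mem_compl, Finset.mem_insert, Finset.mem_singleton, not_or] at hc hd he
  set σ := swap a b * swap a c with hσ
  have hσm : σ ∈ alternatingGroup α := swap_mul_swap_mem _ _ _ _ hab' (Ne.symm hc.1)
  set h : α → K := f - fun x => f (σ x) with hh
  have hhm : h ∈ W.toSubmodule := W.toSubmodule.sub_mem hf (comp_mem W σ hσm f hf)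
  have hσb : σ b = a := by
    rw [hσ, Perm.mul_apply, swap_apply_of_ne_of_ne hab'.symm (Ne.symm hc.2), swap_apply_right]
  have hσx : ∀ x, x ≠ a → x ≠ b → x ≠ c → σ x = x := by
    intro x h1 h2 h3
    rw [hσ, Perm.mul_apply, swap_apply_of_ne_of_ne h1 h3, swap_apply_of_ne_of_ne h1 h2]
  have hhb : h b = f b - f a := by simp [hh, hσb]
  have hhx : ∀ x, x ≠ a → x ≠ b → x ≠ c → h x = 0 := by
    intro x h1 h2 h3
    simp [hh, hσx x h1 h2 h3]
  set σ' := swap b d * swap b e with hσ'
  have hσ'm : σ' ∈ alternatingGroup α := swap_mul_swap_mem _ _ _ _ (Ne.symm hd.2) (Ne.symm he.2)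
  have hh'm : (h - fun x => h (σ' x)) ∈ W.toSubmodule :=
    W.toSubmodule.sub_mem hhm (comp_mem W σ' hσ'm h hhm)
  have hσ'd : σ' d = b := by
    rw [hσ', Perm.mul_apply, swap_apply_of_ne_of_ne hd.2 hde, swap_apply_right]
  have hσ'e : σ' e = d := by
    rw [hσ', Perm.mul_apply, swap_apply_right, swap_apply_left]
  have hσ'b : σ' b = e := by
    rw [hσ', Perm.mul_apply, swap_apply_left, swap_apply_of_ne_of_ne he.2 hde.symm]
  have hσ'x : ∀ x, x ≠ b → x ≠ d → x ≠ e → σ' x = x := by
    intro x h1 h2 h3
    rw [hσ', Perm.mul_apply, swap_apply_of_ne_of_ne h1 h3, swap_apply_of_ne_of_ne h1 h2]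
  have hd0 : h d = 0 := hhx d hd.1 hd.2 hcd.symm
  have he0 : h e = 0 := hhx e he.1 he.2 hce.symm
  have hβ : f b - f a ≠ 0 := sub_ne_zero.2 (Ne.symm hab)
  have key : (h - fun x => h (σ' x)) = (f b - f a) • (Pi.single b 1 - Pi.single d 1 : α → K) := by
    ext x
    simp only [Pi.sub_apply, Pi.smul_apply, smul_eq_mul]
    by_cases hxb : x = b
    · subst hxb
      rw [hσ'b, he0, hhb, Pi.single_eq_same, Pi.single_eq_of_ne (Ne.symm hd.2)]
      ring
    · by_cases hxd : x = d
      · subst hxd
        rw [hσ'd, hd0, hhb, Pi.single_eq_same, Pi.single_eq_of_ne hxb]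
        ring
      · by_cases hxe : x = e
        · subst hxe
          rw [hσ'e, hd0, he0, Pi.single_eq_of_ne hxb, Pi.single_eq_of_ne hxd]
          ring
        · rw [hσ'x x hxb hxd hxe, Pi.single_eq_of_ne hxb, Pi.single_eq_of_ne hxd]
          ring
  refine ⟨d, Ne.symm hd.2, ?_⟩
  rw [key] at hh'm
  exact (W.toSubmodule.smul_mem_iff hβ).1 hh'm

theorem all_diff_mem (hα : 5 ≤ Fintype.card α)
    (W : Subrepresentation (Cfsg.permRep K (alternatingGroup α) α)) (b d : α) (hbd : b ≠ d)
    (h : (Pi.single b 1 - Pi.single d 1 : α → K) ∈ W.toSubmodule) (x y : α) :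
    (Pi.single x 1 - Pi.single y 1 : α → K) ∈ W.toSubmodule := by
  by_cases hxy : x = y
  · rw [hxy, sub_self]; exact W.toSubmodule.zero_mem
  have h2 : IsMultiplyPretransitive (alternatingGroup α) α 2 := by
    have := alternatingGroup.isMultiplyPretransitive α
    apply isMultiplyPretransitive_of_le (n := Nat.card α - 2)
    · rw [Nat.card_eq_fintype_card]; omega
    · omega
  rw [is_two_pretransitive_iff] at h2
  obtain ⟨g, hg1, hg2⟩ := h2 hxy hbd
  have := comp_mem W g g.2 _ h
  convert this using 1
  ext z
  have hg1' : (g : Perm α) x = b := hg1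
  have hg2' : (g : Perm α) y = d := hg2
  simp only [Pi.sub_apply, Pi.single_apply]
  congr 1
  · by_cases hz : z = x
    · simp [hz, hg1']
    · have : (g : Perm α) z ≠ b := fun h => hz ((g : Perm α).injective (h.trans hg1'.symm))
      simp [hz, this]
  · by_cases hz : z = y
    · simp [hz, hg2']
    · have : (g : Perm α) z ≠ d := fun h => hz ((g : Perm α).injective (h.trans hg2'.symm))
      simp [hz, this]

theorem sumZero_le (M : Submodule K (α → K))
    (h : ∀ x y : α, (Pi.single x 1 - Pi.single y 1 : α → K) ∈ M) (v : α → K)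
    (hv : ∑ x, v x = 0) : v ∈ M := by
  by_cases hne : Nonempty α
  · obtain ⟨x0⟩ := hne
    have : v = ∑ x, v x • (Pi.single x 1 - Pi.single x0 1 : α → K) := by
      simp only [smul_sub, Finset.sum_sub_distrib, ← Finset.sum_smul, hv, zero_smul, sub_zero]
      ext z
      simp [Finset.sum_apply, Pi.single_apply]
    rw [this]
    exact M.sum_mem fun x _ => M.smul_mem _ (h x x0)
  · rw [not_nonempty_iff] at hne
    have : v = 0 := Subsingleton.elim _ _
    rw [this]; exact M.zero_mem

/-- Over any field, the permutation module of the alternating group of degree at least 5 has exactly four invariant subspaces: zero, the constant functions, the functions with coordinate sum zero, and everything. -/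
theorem result {α : Type*} [Fintype α] [DecidableEq α] (hα : 5 ≤ Fintype.card α) {K : Type*} [Field K] (W : Subrepresentation (Cfsg.permRep K (alternatingGroup α) α)) : W.toSubmodule = ⊥ ∨ W = Cfsg.permConstants K (alternatingGroup α) α ∨ W = Cfsg.permSumZero K (alternatingGroup α) α ∨ W.toSubmodule = ⊤ := by
  by_cases hconst : ∀ f ∈ W.toSubmodule, ∀ a b : α, f a = f b
  · by_cases hbot : W.toSubmodule = ⊥
    · exact Or.inl hbot
    · right; left
      apply Subrepresentation.toSubmodule_injective
      change W.toSubmodule = Submodule.span K {fun _ => 1}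
      obtain ⟨f, hf, hf0⟩ := (Submodule.ne_bot_iff _).1 hbot
      have hne : Nonempty α := by
        by_contra hne
        rw [not_nonempty_iff] at hne
        exact hf0 (Subsingleton.elim _ _)
      obtain ⟨x0⟩ := hne
      apply le_antisymm
      · intro v hv
        rw [Submodule.mem_span_singleton]
        refine ⟨v x0, ?_⟩
        ext z
        simp [hconst v hv z x0]
      · rw [Submodule.span_singleton_le_iff_mem]
        have hfx : f x0 ≠ 0 := by
          intro h
          apply hf0
          ext z
          rw [hconst f hf z x0, h]; rfl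
        have : (fun _ => 1 : α → K) = (f x0)⁻¹ • f := by
          ext z
          simp [hconst f hf z x0, hfx]
        rw [this]
        exact W.toSubmodule.smul_mem _ hf
  · push Not at hconst
    obtain ⟨f, hf, a, b, hab⟩ := hconst
    obtain ⟨d, hbd, hd⟩ := diff_mem hα W f hf a b hab
    have hall := all_diff_mem hα W b d hbd hd
    have hle := sumZero_le W.toSubmodule hall
    right; right
    by_cases hsz : ∀ v ∈ W.toSubmodule, ∑ x, v x = 0
    · left
      apply Subrepresentation.toSubmodule_injective
      apply le_antisymm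
      · intro v hv
        exact hsz v hv
      · intro v hv
        exact hle v hv
    · right
      push Not at hsz
      obtain ⟨u, hu, hus⟩ := hsz
      rw [eq_top_iff]
      intro v _
      have h1 : v - ((∑ x, v x) / (∑ x, u x)) • u ∈ W.toSubmodule := by
        apply hle
        simp only [Pi.sub_apply, Pi.smul_apply, smul_eq_mul, Finset.sum_sub_distrib,
          ← Finset.mul_sum]
        field_simp
        ring
      have h2 := W.toSubmodule.add_mem h1 (W.toSubmodule.smul_mem ((∑ x, v x) / (∑ x, u x)) hu)
      simpa using h2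

end Cfsg.Agent.S0714
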