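import Cfsg.Statements.S0715
import Cfsg.Agent.Lib.Helper16Hecke
import Cfsg.Agent.Lib.Helper83Char
import Mathlib

set_option autoImplicit false
open Cfsg

namespace Cfsg.Agent.S0715

open MulAction Cfsg.Agent.Lib.Helper16Hecke Cfsg.Agent.Lib.Helper4Char

theorem dvd_of_isIntegral {k f : ℕ} {z : ℂ} (hz : IsIntegral ℤ z) (h : (k : ℂ) = f * z) : f ∣ k := by
  by_cases hf : f = 0
  · subst hf
    simp only [Nat.cast_zero, zero_mul, Nat.cast_eq_zero] at h
    rw [h]
  have hfc : (f : ℂ) ≠ 0 := Nat.cast_ne_zero.mpr hf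
  have hzq : z = algebraMap ℚ ℂ ((k : ℚ) / f) := by
    rw [map_div₀, map_natCast, map_natCast, h]
    field_simp
  rw [hzq, isIntegral_algebraMap_iff (algebraMap ℚ ℂ).injective] at hz
  obtain ⟨y, hy⟩ := IsIntegrallyClosed.isIntegral_iff.mp hz
  have hfq : (f : ℚ) ≠ 0 := Nat.cast_ne_zero.mpr hf
  have h2 : ((k : ℤ) : ℚ) = ((f * y : ℤ) : ℚ) := by
    have : (y : ℚ) = (k : ℚ) / f := hy
    push_cast
    rw [this]
    field_simp
  have h3 : (k : ℤ) = f * y := by exact_mod_cast h2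
  exact Int.natCast_dvd_natCast.mp ⟨y, h3⟩

/-- If a natural number `f` divides the degree of every non-principal irreducible constituent of the permutation character of a transitive group, then `f` divides every non-trivial subdegree. -/
theorem result {G : Type*} [Group G] [Fintype G] {Ω : Type*} [Fintype Ω] [MulAction G Ω] [MulAction.IsPretransitive G Ω] (f : ℕ) (hf : ∀ χ : G → ℂ, Cfsg.IsIrrCharacter G χ → χ ≠ (fun _ => 1) → Cfsg.classInner (fun g : G => (Nat.card (MulAction.fixedBy Ω g) : ℂ)) χ ≠ 0 → ∃ m : ℕ, χ 1 = (f : ℂ) * m) (a b : Ω) (hab : b ≠ a) : f ∣ Nat.card (MulAction.orbit (MulAction.stabilizer G a) b) := by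
  classical
  set Δ : Set Ω := orbit (stabilizer G a) b with hΔdef
  have hΔ : Inv G a Δ := inv_orbit a b
  have haΔ : a ∉ Δ := by
    rintro ⟨h, hh⟩
    apply hab
    have h1 : (h : G) • b = a := hh
    have h2 : (h : G) • a = a := h.2
    exact smul_left_cancel _ (h1.trans h2.symm)
  have hsum := sum_degree_cc (G := G) a Δ
  rw [if_neg haΔ] at hsum
  let one : Cfsg.IrrCharacter G := ⟨fun _ => 1, Cfsg.Agent.Lib.Helper83Char.isIrr_one⟩
  have hterm : ∀ χ : Cfsg.IrrCharacter G, χ ≠ one →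
      ∃ z : ℂ, IsIntegral ℤ z ∧ (χ : G → ℂ) 1 * cc (χ : G → ℂ) a Δ = f * z := by
    intro χ hχ
    have hχ1 : (χ : G → ℂ) ≠ fun _ => 1 := fun h => hχ (Subtype.ext h)
    by_cases h0 : Cfsg.classInner (fun g : G => (Nat.card (MulAction.fixedBy Ω g) : ℂ)) χ = 0
    · refine ⟨0, isIntegral_zero, ?_⟩
      rw [cc_eq_zero_of_classInner_eq_zero hΔ (IsIrrCharacter.isCharacter χ.2) h0]
      simp
    · obtain ⟨m, hm⟩ := hf χ χ.2 hχ1 h0
      refine ⟨m * cc (χ : G → ℂ) a Δ, ?_, by rw [hm]; ring⟩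
      have hm' : IsIntegral ℤ (m : ℂ) := by
        have := isIntegral_algebraMap (R := ℤ) (A := ℂ) (x := (m : ℤ))
        simpa using this
      exact hm'.mul (isIntegral_cc hΔ (IsIrrCharacter.isCharacter χ.2))
  choose! z hz1 hz2 using hterm
  rw [← Finset.add_sum_erase Finset.univ _ (Finset.mem_univ one)] at hsum
  have hone : (one : G → ℂ) 1 * cc (one : G → ℂ) a Δ = (Δ.ncard : ℂ) := by
    show (1 : ℂ) * cc (fun _ : G => (1 : ℂ)) a Δ = _
    rw [one_mul, cc_one]
  rw [hone, Finset.sum_congr rfl (fun χ hχ => hz2 χ (Finset.ne_of_mem_erase hχ)),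
    ← Finset.mul_sum] at hsum
  have hcard : Nat.card (orbit (stabilizer G a) b) = Δ.ncard := Nat.card_coe_set_eq _
  rw [hcard]
  apply dvd_of_isIntegral (z := - ∑ χ ∈ Finset.univ.erase one, z χ)
  · apply IsIntegral.neg
    apply IsIntegral.sum
    intro χ hχ
    exact hz1 χ (Finset.ne_of_mem_erase hχ)
  · linear_combination hsum

end Cfsg.Agent.S0715
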