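import Cfsg.Statements.S0716
import Cfsg.Agent.Lib.Helper16PermChar
import Cfsg.Agent.S0715
import Mathlib

set_option autoImplicit false
open Cfsg

namespace Cfsg.Agent.S0716

open MulAction Cfsg.Agent.Lib.Helper16Hecke Cfsg.Agent.Lib.Helper4Char
  Cfsg.Agent.Lib.Helper16PermChar

variable {G : Type*} [Group G] [Fintype G] {Ω : Type*} [Fintype Ω] [MulAction G Ω]
  [MulAction.IsPretransitive G Ω]

theorem card_orbit_self (a : Ω) : Nat.card (orbit (stabilizer G a) a) = 1 := by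
  rw [Nat.card_eq_one_iff_unique]
  refine ⟨⟨?_⟩, ⟨⟨a, mem_orbit_self a⟩⟩⟩
  rintro ⟨_, ⟨h, rfl⟩⟩ ⟨_, ⟨k, rfl⟩⟩
  apply Subtype.ext
  show (h : G) • a = (k : G) • a
  rw [mem_stabilizer_iff.mp h.2, mem_stabilizer_iff.mp k.2]

theorem partA (a : Ω) (f : ℕ) (hf : ∀ χ : G → ℂ, Cfsg.IsIrrCharacter G χ → χ ≠ (fun _ => 1) →
      Cfsg.classInner (fun g : G => (Nat.card (MulAction.fixedBy Ω g) : ℂ)) χ ≠ 0 → χ 1 = f) :
    (∀ χ : G → ℂ, Cfsg.IsIrrCharacter G χ →
      Cfsg.classInner (fun g : G => (Nat.card (MulAction.fixedBy Ω g) : ℂ)) χ = 0 ∨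
      Cfsg.classInner (fun g : G => (Nat.card (MulAction.fixedBy Ω g) : ℂ)) χ = 1) ∧
    ∀ b : Ω, b ≠ a → Nat.card (MulAction.orbit (MulAction.stabilizer G a) b) = f := by
  classical
  obtain ⟨m, d, hm, hd, hd0, hm1, hd1, hn, hnorm, -⟩ := exists_data (G := G) a
  set s : Ω → ℕ := fun x => Nat.card (orbit (stabilizer G a) x) with hs
  have hspos : ∀ x, 0 < s x := by
    intro x
    have : Nonempty (orbit (stabilizer G a) x) := ⟨⟨x, mem_orbit_self x⟩⟩
    exact Nat.card_pos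
  have hsa : s a = 1 := card_orbit_self a
  have key1 : ∀ χ : Cfsg.IrrCharacter G, χ ≠ one → m χ ≠ 0 → d χ = f := by
    intro χ hχ hmχ
    have h1 := hf χ χ.2 (fun h => hχ (Subtype.ext h)) (by
      have := hm χ
      rw [show (fun g : G => (Nat.card (MulAction.fixedBy Ω g) : ℂ)) = pc G Ω from rfl, this]
      exact Nat.cast_ne_zero.mpr hmχ)
    rw [hd] at h1
    exact_mod_cast h1
  have hdiv : ∀ x : Ω, x ≠ a → f ∣ s x := by
    intro x hx
    apply Cfsg.Agent.S0715.result f _ a x hx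
    intro χ hχ h1 h2
    exact ⟨1, by rw [hf χ hχ h1 h2]; simp⟩
  have hQ : (∑ x : Ω, (s x : ℚ)⁻¹) = ∑ χ, (m χ : ℚ) ^ 2 := by
    have h1 := classInner_pc_pc_eq_sum (G := G) a
    rw [hnorm] at h1
    have h2 : ((∑ x : Ω, (s x : ℚ)⁻¹ : ℚ) : ℂ) = ((∑ χ, (m χ : ℚ) ^ 2 : ℚ) : ℂ) := by
      push_cast
      push_cast at h1
      exact h1.symm
    exact_mod_cast h2
  have hfin : ∀ (hle : ∀ χ, m χ ≤ 1), ∀ χ : G → ℂ, Cfsg.IsIrrCharacter G χ →
      Cfsg.classInner (fun g : G => (Nat.card (MulAction.fixedBy Ω g) : ℂ)) χ = 0 ∨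
      Cfsg.classInner (fun g : G => (Nat.card (MulAction.fixedBy Ω g) : ℂ)) χ = 1 := by
    intro hle χ hχ
    have h1 := hm ⟨χ, hχ⟩
    have h2 := hle ⟨χ, hχ⟩
    rw [show (fun g : G => (Nat.card (MulAction.fixedBy Ω g) : ℂ)) = pc G Ω from rfl]
    simp only at h1
    rw [h1]
    interval_cases (m ⟨χ, hχ⟩) <;> simp
  have hn' : Fintype.card Ω = 1 + f * ∑ χ ∈ Finset.univ.erase one, m χ := by
    rw [hn, ← Finset.add_sum_erase Finset.univ _ (Finset.mem_univ one), hm1, hd1, Finset.mul_sum]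
    congr 1
    apply Finset.sum_congr rfl
    intro χ hχ
    by_cases h0 : m χ = 0
    · rw [h0]; simp
    · rw [key1 χ (Finset.ne_of_mem_erase hχ) h0, mul_comm]
  rcases Nat.eq_zero_or_pos f with hf0 | hf0
  · subst hf0
    rw [zero_mul, add_zero] at hn'
    constructor
    · apply hfin
      intro χ
      by_cases hχ : χ = one
      · rw [hχ, hm1]
      · by_contra hcon
        have := key1 χ hχ (by omega)
        have := hd0 χ
        omega
    · intro b hb
      exfalso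
      apply hb
      exact (Fintype.card_le_one_iff.mp hn'.le) b a
  · set M := ∑ χ ∈ Finset.univ.erase one, m χ with hM
    have hfq : (0 : ℚ) < f := Nat.cast_pos.mpr hf0
    have hle1 : ∀ x ∈ Finset.univ.erase a, (s x : ℚ)⁻¹ ≤ (f : ℚ)⁻¹ := by
      intro x hx
      have h1 := Nat.le_of_dvd (hspos x) (hdiv x (Finset.ne_of_mem_erase hx))
      exact inv_anti₀ hfq (Nat.cast_le.mpr h1)
    have hcardE : ((Finset.univ.erase a : Finset Ω).card : ℚ) = f * M := by
      rw [Finset.card_erase_of_mem (Finset.mem_univ a), Finset.card_univ, hn']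
      push_cast
      simp
    have hsumf : ∑ x ∈ Finset.univ.erase a, (f : ℚ)⁻¹ = M := by
      rw [Finset.sum_const, nsmul_eq_mul, hcardE]
      field_simp
    have hL : (∑ x : Ω, (s x : ℚ)⁻¹) = 1 + ∑ x ∈ Finset.univ.erase a, (s x : ℚ)⁻¹ := by
      rw [← Finset.add_sum_erase Finset.univ _ (Finset.mem_univ a), hsa]
      simp
    have hR : (∑ χ, (m χ : ℚ) ^ 2) = 1 + ∑ χ ∈ Finset.univ.erase one, (m χ : ℚ) ^ 2 := by
      rw [← Finset.add_sum_erase Finset.univ _ (Finset.mem_univ one), hm1]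
      simp
    have hle2 : ∀ χ ∈ Finset.univ.erase (one : Cfsg.IrrCharacter G), (m χ : ℚ) ≤ (m χ : ℚ) ^ 2 := by
      intro χ _
      have : m χ ≤ m χ ^ 2 := Nat.le_self_pow (by norm_num) _
      exact_mod_cast this
    have hMq : (M : ℚ) = ∑ χ ∈ Finset.univ.erase one, (m χ : ℚ) := by
      rw [hM]; push_cast; rfl
    have h3 : ∑ x ∈ Finset.univ.erase a, (s x : ℚ)⁻¹ ≤ M := by
      rw [← hsumf]; exact Finset.sum_le_sum hle1
    have h4 : (M : ℚ) ≤ ∑ χ ∈ Finset.univ.erase one, (m χ : ℚ) ^ 2 := by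
      rw [hMq]; exact Finset.sum_le_sum hle2
    have h5 : ∑ x ∈ Finset.univ.erase a, (s x : ℚ)⁻¹ =
        ∑ χ ∈ Finset.univ.erase one, (m χ : ℚ) ^ 2 := by
      rw [hL, hR] at hQ
      linarith
    have h6 : ∑ x ∈ Finset.univ.erase a, (s x : ℚ)⁻¹ = ∑ x ∈ Finset.univ.erase a, (f : ℚ)⁻¹ := by
      rw [hsumf]; linarith
    have h7 : ∑ χ ∈ Finset.univ.erase one, (m χ : ℚ) =
        ∑ χ ∈ Finset.univ.erase one, (m χ : ℚ) ^ 2 := by
      rw [← hMq]; linarith
    constructor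
    · apply hfin
      intro χ
      by_cases hχ : χ = one
      · rw [hχ, hm1]
      · have h8 := (Finset.sum_eq_sum_iff_of_le hle2).mp h7 χ
          (Finset.mem_erase.mpr ⟨hχ, Finset.mem_univ χ⟩)
        have h9 : m χ = m χ ^ 2 := by exact_mod_cast h8
        by_contra hcon
        push Not at hcon
        nlinarith
    · intro b hb
      have h8 := (Finset.sum_eq_sum_iff_of_le hle1).mp h6 b
        (Finset.mem_erase.mpr ⟨hb, Finset.mem_univ b⟩)
      have h9 : (s b : ℚ) = f := inv_injective h8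
      exact_mod_cast h9

/-- (a) If all non-principal irreducible constituents of the permutation character of a transitive group have the same degree `f`, the character is multiplicity-free and all non-trivial subdegrees equal `f`. (b) A transitive group of rank at most 5 has multiplicity-free permutation character. -/
theorem result {G : Type*} [Group G] [Fintype G] {Ω : Type*} [Fintype Ω] [MulAction G Ω] [MulAction.IsPretransitive G Ω] (a : Ω) : ((f : ℕ) → (∀ χ : G → ℂ, Cfsg.IsIrrCharacter G χ → χ ≠ (fun _ => 1) → Cfsg.classInner (fun g : G => (Nat.card (MulAction.fixedBy Ω g) : ℂ)) χ ≠ 0 → χ 1 = f) → (∀ χ : G → ℂ, Cfsg.IsIrrCharacter G χ → Cfsg.classInner (fun g : G => (Nat.card (MulAction.fixedBy Ω g) : ℂ)) χ = 0 ∨ Cfsg.classInner (fun g : G => (Nat.card (MulAction.fixedBy Ω g) : ℂ)) χ = 1) ∧ ∀ b : Ω, b ≠ a → Nat.card (MulAction.orbit (MulAction.stabilizer G a) b) = f) ∧ (Nat.card (MulAction.orbitRel.Quotient (MulAction.stabilizer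 G a) Ω) ≤ 5 → ∀ χ : G → ℂ, Cfsg.IsIrrCharacter G χ → Cfsg.classInner (fun g : G => (Nat.card (MulAction.fixedBy Ω g) : ℂ)) χ = 0 ∨ Cfsg.classInner (fun g : G => (Nat.card (MulAction.fixedBy Ω g) : ℂ)) χ = 1) := by
  classical
  refine ⟨fun f hf => partA a f hf, ?_⟩
  intro hrank
  obtain ⟨m, d, hm, hd, hd0, hm1, hd1, hn, hnorm, -⟩ := exists_data (G := G) a
  have hr : ∑ χ, m χ ^ 2 ≤ 5 := by
    have h1 := classInner_pc_pc_eq_rank (G := G) a
    rw [hnorm] at h1
    have h2 : ∑ χ, m χ ^ 2 = Nat.card (orbitRel.Quotient (stabilizer G a) Ω) := by exact_mod_cast h1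
    rw [h2]; exact hrank
  by_cases hall : ∀ χ, m χ ≤ 1
  · intro χ hχ
    have h1 := hm ⟨χ, hχ⟩
    have h2 := hall ⟨χ, hχ⟩
    rw [show (fun g : G => (Nat.card (MulAction.fixedBy Ω g) : ℂ)) = pc G Ω from rfl]
    simp only at h1
    rw [h1]
    interval_cases (m ⟨χ, hχ⟩) <;> simp
  · push Not at hall
    obtain ⟨ψ, hψ⟩ := hall
    have hψ1 : ψ ≠ one := by
      rintro rfl
      rw [hm1] at hψ
      omega
    have hsplit : ∑ χ, m χ ^ 2 = 1 + (m ψ ^ 2 + ∑ χ ∈ (Finset.univ.erase one).erase ψ, m χ ^ 2) := by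
      rw [← Finset.add_sum_erase Finset.univ _ (Finset.mem_univ one), hm1,
        ← Finset.add_sum_erase (Finset.univ.erase one) _
          (Finset.mem_erase.mpr ⟨hψ1, Finset.mem_univ ψ⟩)]
      simp
    have h4 : 4 ≤ m ψ ^ 2 := by nlinarith
    have hrest : ∑ χ ∈ (Finset.univ.erase one).erase ψ, m χ ^ 2 = 0 := by omega
    have hzero : ∀ χ, χ ≠ one → χ ≠ ψ → m χ = 0 := by
      intro χ h1 h2
      have := (Finset.sum_eq_zero_iff.mp hrest) χ
        (Finset.mem_erase.mpr ⟨h2, Finset.mem_erase.mpr ⟨h1, Finset.mem_univ χ⟩⟩)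
      exact pow_eq_zero_iff (by norm_num) |>.mp this
    have hA := (partA a (d ψ) (by
      intro χ hχ h1 h2
      have h3 : (⟨χ, hχ⟩ : Cfsg.IrrCharacter G) = ψ := by
        by_contra hne
        apply h2
        have := hm ⟨χ, hχ⟩
        rw [hzero ⟨χ, hχ⟩ (fun h => h1 (congrArg Subtype.val h)) hne, Nat.cast_zero] at this
        exact this
      have h4 := hd ψ
      rw [← h3] at h4 ⊢
      exact h4)).1 ψ ψ.2
    exfalso
    have h5 := hm ψ
    rw [show (fun g : G => (Nat.card (MulAction.fixedBy Ω g) : ℂ)) = pc G Ω from rfl, h5] at hA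
    rcases hA with h | h
    · have : m ψ = 0 := by exact_mod_cast h
      omega
    · have : m ψ = 1 := by exact_mod_cast h
      omega

end Cfsg.Agent.S0716
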