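import Cfsg.Statements.S0717
import Cfsg.Agent.Lib.Helper16PermChar
import Cfsg.Agent.Lib.Helper83FS
import Mathlib

set_option autoImplicit false
open Cfsg

namespace Cfsg.Agent.S0717

open MulAction Cfsg.Agent.Lib.Helper16Hecke Cfsg.Agent.Lib.Helper4Char Cfsg.Agent.Lib.Helper4Char2
  Cfsg.Agent.Lib.Helper16PermChar
open scoped ComplexConjugate

variable {G : Type*} [Group G] [Fintype G] {Ω : Type*} [Fintype Ω] [MulAction G Ω]
  [MulAction.IsPretransitive G Ω]

/-- Fourier inversion for the indicator of `{k | k • a ∈ Δ}` -/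
theorem fourier (a : Ω) (Δ : Set Ω) [DecidablePred (· ∈ Δ)] (k : G) :
    ∑ χ : Cfsg.IrrCharacter G, (χ : G → ℂ) 1 *
      ∑ g : G, (if g • a ∈ Δ then (χ : G → ℂ) (g * k⁻¹) else 0) =
      if k • a ∈ Δ then (Nat.card G : ℂ) else 0 := by
  classical
  simp_rw [Finset.mul_sum]
  rw [Finset.sum_comm]
  have h2 : ∀ g : G, (∑ χ : Cfsg.IrrCharacter G,
      (χ : G → ℂ) 1 * (if g • a ∈ Δ then (χ : G → ℂ) (g * k⁻¹) else 0)) =
      if g = k then (if k • a ∈ Δ then (Nat.card G : ℂ) else 0) else 0 := by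
    intro g
    have e : g * k⁻¹ = 1 ↔ g = k := mul_inv_eq_one
    by_cases hg : g • a ∈ Δ
    · simp only [hg, if_true]
      rw [sum_degree_mul]
      simp only [e]
      split_ifs with h1 h2 h2
      · rfl
      · rw [h1] at hg; exact absurd hg h2
      · rfl
    · simp only [hg, if_false, mul_zero, Finset.sum_const_zero]
      split_ifs with h1 h2
      · rw [h1] at hg; exact absurd h2 hg
      · rfl
      · rfl
  simp_rw [h2]
  rw [Finset.sum_ite_eq' Finset.univ k]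
  simp

theorem backward (h : ∀ χ : G → ℂ, Cfsg.IsIrrCharacter G χ →
      Cfsg.classInner (fun g : G => (Nat.card (MulAction.fixedBy Ω g) : ℂ)) χ ≠ 0 →
      Cfsg.classInner (fun g : G => (Nat.card (MulAction.fixedBy Ω g) : ℂ)) χ = 1 ∧
      ∀ g : G, (starRingEnd ℂ) (χ g) = χ g) (a b : Ω) : ∃ g : G, g • a = b ∧ g • b = a := by
  classical
  set Δ : Set Ω := orbit (stabilizer G a) b with hΔdef
  have hΔ : Inv G a Δ := inv_orbit a b
  set Δ' : Set Ω := {x | ∃ g : G, g • a = x ∧ g⁻¹ • a ∈ Δ} with hΔ'def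
  have hmem : ∀ g : G, g • a ∈ Δ' ↔ g⁻¹ • a ∈ Δ := by
    intro g
    constructor
    · rintro ⟨g', h1, h2⟩
      have h3 : g⁻¹ * g' ∈ stabilizer G a := by
        rw [mem_stabilizer_iff, mul_smul, h1, inv_smul_smul]
      have h4 := (hΔ _ h3 (g'⁻¹ • a)).mpr h2
      rwa [mul_smul, smul_inv_smul] at h4
    · intro h1
      exact ⟨g, rfl, h1⟩
  have hΔ' : Inv G a Δ' := by
    apply inv_of_forall
    rintro k hk _ ⟨g, rfl, hg⟩
    rw [← mul_smul, hmem, mul_inv_rev, mul_smul, mem_stabilizer_iff.mp (inv_mem hk)]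
    exact hg
  have hcc : ∀ χ : Cfsg.IrrCharacter G, cc (χ : G → ℂ) a Δ' = cc (χ : G → ℂ) a Δ := by
    intro χ
    by_cases h0 : Cfsg.classInner (fun g : G => (Nat.card (MulAction.fixedBy Ω g) : ℂ)) χ = 0
    · rw [cc_eq_zero_of_classInner_eq_zero hΔ (IsIrrCharacter.isCharacter χ.2) h0,
        cc_eq_zero_of_classInner_eq_zero hΔ' (IsIrrCharacter.isCharacter χ.2) h0]
    · have hreal := (h χ χ.2 h0).2
      rw [cc, cc]
      congr 1
      refine Fintype.sum_equiv (Equiv.inv G) _ _ (fun g => ?_)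
      simp only [Equiv.inv_apply, hmem]
      rw [IsCharacter.apply_inv (IsIrrCharacter.isCharacter χ.2), hreal]
  have h01 : ∀ χ : Cfsg.IrrCharacter G,
      Cfsg.classInner (fun g : G => (Nat.card (MulAction.fixedBy Ω g) : ℂ)) χ = 0 ∨
      Cfsg.classInner (fun g : G => (Nat.card (MulAction.fixedBy Ω g) : ℂ)) χ = 1 := by
    intro χ
    by_cases h0 : Cfsg.classInner (fun g : G => (Nat.card (MulAction.fixedBy Ω g) : ℂ)) χ = 0
    · exact Or.inl h0
    · exact Or.inr (h χ χ.2 h0).1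
  obtain ⟨k, hk⟩ := exists_smul_eq G a b
  have hF := fourier (G := G) a Δ k
  have hF' := fourier (G := G) a Δ' k
  have heq : ∀ χ : Cfsg.IrrCharacter G,
      ∑ g : G, (if g • a ∈ Δ then (χ : G → ℂ) (g * k⁻¹) else 0) =
      ∑ g : G, (if g • a ∈ Δ' then (χ : G → ℂ) (g * k⁻¹) else 0) := by
    intro χ
    rw [sum_mul_eq hΔ (IsIrrCharacter.isCharacter χ.2) (h01 χ),
      sum_mul_eq hΔ' (IsIrrCharacter.isCharacter χ.2) (h01 χ), hcc]
  simp_rw [heq] at hF
  rw [hF] at hF'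
  have hkΔ : k • a ∈ Δ := by rw [hk]; exact mem_orbit_self b
  rw [if_pos hkΔ] at hF'
  have hkΔ' : k • a ∈ Δ' := by
    by_contra hcon
    rw [if_neg hcon] at hF'
    exact card_ne_zero hF'
  obtain ⟨u, hu⟩ := (hmem k).mp hkΔ'
  have hu' : (u : G) • b = k⁻¹ • a := hu
  refine ⟨k * u, ?_, ?_⟩
  · rw [mul_smul, mem_stabilizer_iff.mp u.2, hk]
  · rw [mul_smul, hu', smul_inv_smul]

theorem card_swap (x y : Ω) (g₀ : G) (h1 : g₀ • x = y) (h2 : g₀ • y = x) [DecidableEq Ω] :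
    ((Finset.univ.filter (fun g : G => g • x = y ∧ g • y = x)).card : ℂ) =
      (Nat.card (stabilizer G x) : ℂ) * (Nat.card (orbit (stabilizer G x) y) : ℂ)⁻¹ := by
  have e1 : (Finset.univ.filter (fun g : G => g • x = y ∧ g • y = x)).card =
      Fintype.card (stabilizer (stabilizer G x) y) := by
    rw [← Fintype.card_subtype]
    apply Fintype.card_congr
    exact
      { toFun := fun g => ⟨⟨g₀⁻¹ * g.1, by
            rw [mem_stabilizer_iff, mul_smul, g.2.1, inv_smul_eq_iff, h1]⟩, by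
            rw [mem_stabilizer_iff]
            show (g₀⁻¹ * g.1) • y = y
            rw [mul_smul, g.2.2, inv_smul_eq_iff, h2]⟩
        invFun := fun u => ⟨g₀ * u.1.1, by
            constructor
            · rw [mul_smul, mem_stabilizer_iff.mp u.1.2, h1]
            · have : (u.1 : G) • y = y := u.2
              rw [mul_smul, this, h2]⟩
        left_inv := fun g => by simp
        right_inv := fun u => by simp }
  have e2 := Subgroup.card_mul_index (stabilizer (stabilizer G x) y)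
  rw [index_stabilizer, ← Nat.card_coe_set_eq] at e2
  rw [e1, ← Nat.card_eq_fintype_card, ← e2]
  have h4 : (Nat.card (orbit (stabilizer G x) y) : ℂ) ≠ 0 := by
    have : Nonempty (orbit (stabilizer G x) y) := ⟨⟨y, mem_orbit_self y⟩⟩
    exact Nat.cast_ne_zero.mpr Nat.card_pos.ne'
  push_cast
  field_simp

theorem sum_sq [Nonempty Ω] (hswap : ∀ a b : Ω, ∃ g : G, g • a = b ∧ g • b = a) :
    ∑ g : G, pc G Ω (g * g) = (Nat.card G : ℂ) * Cfsg.classInner (pc G Ω) (pc G Ω) := by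
  classical
  simp_rw [pc_eq_sum]
  rw [Finset.sum_comm]
  have h1 : ∀ x : Ω, (∑ g : G, if (g * g) • x = x then (1 : ℂ) else 0) =
      (Nat.card (stabilizer G x) : ℂ) * Cfsg.classInner (pc G Ω) (pc G Ω) := by
    intro x
    have h2 : ∀ g : G, (if (g * g) • x = x then (1 : ℂ) else 0) =
        ∑ y : Ω, if g • x = y ∧ g • y = x then (1 : ℂ) else 0 := by
      intro g
      rw [Finset.sum_eq_single (g • x)]
      · simp [mul_smul]
      · intro y _ hy
        rw [if_neg]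
        rintro ⟨h3, -⟩
        exact hy h3.symm
      · intro h; exact absurd (Finset.mem_univ _) h
    simp_rw [h2]
    rw [Finset.sum_comm, classInner_pc_pc_eq_sum x, Finset.mul_sum]
    apply Finset.sum_congr rfl
    intro y _
    obtain ⟨g₀, h3, h4⟩ := hswap x y
    rw [Finset.sum_boole]
    exact card_swap x y g₀ h3 h4
  rw [Finset.sum_congr rfl (fun x _ => h1 x), ← Finset.sum_mul]
  congr 1
  have hn : (Fintype.card Ω : ℂ) ≠ 0 := Nat.cast_ne_zero.mpr Fintype.card_ne_zero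
  have h5 : ∀ x : Ω, (Nat.card (stabilizer G x) : ℂ) = (Nat.card G : ℂ) / (Fintype.card Ω : ℂ) := by
    intro x
    rw [card_group_eq (G := G) x]
    push_cast
    field_simp
  rw [Finset.sum_congr rfl (fun x _ => h5 x), Finset.sum_const, Finset.card_univ, nsmul_eq_mul]
  field_simp

theorem forward (hswap : ∀ a b : Ω, ∃ g : G, g • a = b ∧ g • b = a) (a : Ω) (χ : G → ℂ)
    (hχ : Cfsg.IsIrrCharacter G χ)
    (h0 : Cfsg.classInner (fun g : G => (Nat.card (MulAction.fixedBy Ω g) : ℂ)) χ ≠ 0) :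
    Cfsg.classInner (fun g : G => (Nat.card (MulAction.fixedBy Ω g) : ℂ)) χ = 1 ∧
      ∀ g : G, (starRingEnd ℂ) (χ g) = χ g := by
  classical
  have : Nonempty Ω := ⟨a⟩
  obtain ⟨m, d, hm, hd, hd0, hm1, hd1, hn, hnorm, hsum⟩ := exists_data (G := G) a
  have hG : (Nat.card G : ℂ) ≠ 0 := card_ne_zero
  have hν : ∀ ψ : Cfsg.IrrCharacter G, ∃ ν : ℤ, (ν = 0 ∨ ν = 1 ∨ ν = -1) ∧
      (Nat.card G : ℂ)⁻¹ * ∑ s : G, (ψ : G → ℂ) (s * s) = ν := by
    intro ψ
    rcases (Cfsg.Agent.Lib.Helper83FS.irr_fs ψ.2).1 with h | h | h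
    · exact ⟨0, Or.inl rfl, by rw [h]; simp⟩
    · exact ⟨1, Or.inr (Or.inl rfl), by rw [h]; simp⟩
    · exact ⟨-1, Or.inr (Or.inr rfl), by rw [h]; simp⟩
  choose ν hν1 hν2 using hν
  have E1 := sum_sq (G := G) hswap
  have E2 : ∑ g : G, pc G Ω (g * g) = (Nat.card G : ℂ) * ∑ ψ, (m ψ : ℂ) * (ν ψ : ℂ) := by
    have h1 : ∀ g : G, pc G Ω (g * g) = ∑ ψ : Cfsg.IrrCharacter G, (m ψ : ℂ) * (ψ : G → ℂ) (g * g) := by
      intro g
      have := congrFun hsum (g * g)
      rw [Finset.sum_apply] at this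
      rw [this]
      rfl
    rw [Finset.sum_congr rfl (fun g _ => h1 g), Finset.sum_comm, Finset.mul_sum]
    apply Finset.sum_congr rfl
    intro ψ _
    rw [← hν2 ψ, ← Finset.mul_sum]
    field_simp
  rw [E1, hnorm] at E2
  have E3 := mul_left_cancel₀ hG E2
  have E4 : ∑ ψ, ((m ψ : ℤ) ^ 2 - (m ψ : ℤ) * ν ψ) = 0 := by
    rw [Finset.sum_sub_distrib, sub_eq_zero]
    have : ((∑ ψ, (m ψ : ℤ) ^ 2 : ℤ) : ℂ) = ((∑ ψ, (m ψ : ℤ) * ν ψ : ℤ) : ℂ) := by
      push_cast
      push_cast at E3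
      exact E3
    exact_mod_cast this
  have hnonneg : ∀ ψ ∈ (Finset.univ : Finset (Cfsg.IrrCharacter G)),
      0 ≤ (m ψ : ℤ) ^ 2 - (m ψ : ℤ) * ν ψ := by
    intro ψ _
    have h1 : (0 : ℤ) ≤ m ψ := Int.natCast_nonneg _
    rcases hν1 ψ with h | h | h <;> rw [h] <;> nlinarith
  have E5 := (Finset.sum_eq_zero_iff_of_nonneg hnonneg).mp E4 ⟨χ, hχ⟩ (Finset.mem_univ _)
  have hmχ := hm ⟨χ, hχ⟩
  simp only at hmχ
  have hm0 : m ⟨χ, hχ⟩ ≠ 0 := by
    intro h
    apply h0
    rw [show (fun g : G => (Nat.card (MulAction.fixedBy Ω g) : ℂ)) = pc G Ω from rfl, hmχ, h]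
    simp
  have hmpos : (1 : ℤ) ≤ m ⟨χ, hχ⟩ := by
    have : 1 ≤ m ⟨χ, hχ⟩ := Nat.one_le_iff_ne_zero.mpr hm0
    exact_mod_cast this
  have hboth : m ⟨χ, hχ⟩ = 1 ∧ ν ⟨χ, hχ⟩ = 1 := by
    rcases hν1 ⟨χ, hχ⟩ with h | h | h
    · rw [h] at E5; exfalso; nlinarith
    · rw [h] at E5
      refine ⟨?_, h⟩
      have : (m ⟨χ, hχ⟩ : ℤ) = 1 := by nlinarith
      exact_mod_cast this
    · rw [h] at E5; exfalso; nlinarith
  constructor
  · rw [show (fun g : G => (Nat.card (MulAction.fixedBy Ω g) : ℂ)) = pc G Ω from rfl, hmχ, hboth.1]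
    simp
  · intro g
    have h2 := (Cfsg.Agent.Lib.Helper83FS.irr_fs hχ).2
    have h3 := hν2 ⟨χ, hχ⟩
    simp only at h3
    rw [hboth.2] at h3
    have h4 : ¬ ∃ s : G, (χ s).im ≠ 0 := by
      intro hc
      have := h2.mpr hc
      rw [h3] at this
      simp at this
    push Not at h4
    exact Complex.conj_eq_iff_im.mpr (h4 g)

/-- All suborbits of a transitive group are self-paired (every pair of points is interchanged by some group element) if and only if the permutation character is multiplicity-free and each of its irreducible constituents is real-valued. -/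
theorem result {G : Type*} [Group G] [Fintype G] {Ω : Type*} [Fintype Ω] [MulAction G Ω] [MulAction.IsPretransitive G Ω] : (∀ a b : Ω, ∃ g : G, g • a = b ∧ g • b = a) ↔ ∀ χ : G → ℂ, Cfsg.IsIrrCharacter G χ → Cfsg.classInner (fun g : G => (Nat.card (MulAction.fixedBy Ω g) : ℂ)) χ ≠ 0 → Cfsg.classInner (fun g : G => (Nat.card (MulAction.fixedBy Ω g) : ℂ)) χ = 1 ∧ ∀ g : G, (starRingEnd ℂ) (χ g) = χ g := by
  constructor
  · intro hswap χ hχ h0
    rcases isEmpty_or_nonempty Ω with hE | ⟨⟨a⟩⟩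
    · exfalso
      apply h0
      have : (fun g : G => (Nat.card (MulAction.fixedBy Ω g) : ℂ)) = 0 := by
        ext g
        simp
      rw [this, classInner_zero_left]
    · exact forward hswap a χ hχ h0
  · intro h a b
    exact backward h a b

end Cfsg.Agent.S0717
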