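import Cfsg.Statements.S0718
import Cfsg.Agent.Lib.Helper16MultFree
import Mathlib

set_option autoImplicit false
open Cfsg

namespace Cfsg.Agent.S0718

open MulAction Cfsg.Agent.Lib.Helper16MultFree

theorem permRep_character {G : Type*} [Group G] {Ω : Type*} [Fintype Ω] [MulAction G Ω] (g : G) :
    (Cfsg.permRep ℂ G Ω).character g = (Nat.card (fixedBy Ω g) : ℂ) := by
  classical
  rw [Representation.character, LinearMap.trace_eq_matrix_trace ℂ (Pi.basisFun ℂ Ω), Matrix.trace]
  have h1 : ∀ x : Ω, (LinearMap.toMatrix (Pi.basisFun ℂ Ω) (Pi.basisFun ℂ Ω)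
      (Cfsg.permRep ℂ G Ω g)).diag x = if g • x = x then 1 else 0 := by
    intro x
    rw [Matrix.diag_apply, LinearMap.toMatrix_apply, Pi.basisFun_apply, Pi.basisFun_repr]
    show (Pi.single x (1 : ℂ) : Ω → ℂ) (g⁻¹ • x) = _
    rw [Pi.single_apply]
    have : g⁻¹ • x = x ↔ g • x = x := by
      rw [inv_smul_eq_iff]; exact eq_comm
    simp only [this]
  rw [Finset.sum_congr rfl (fun x _ => h1 x), Finset.sum_boole, Nat.card_eq_fintype_card,
    Fintype.card_subtype]
  rfl

theorem mem_inv_iff {G : Type*} [Group G] {V : Type*} [AddCommGroup V] [Module ℂ V]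
    (ρ : Representation ℂ G V) (S : V →ₗ[ℂ] V) :
    S ∈ (ρ.linHom ρ).invariants ↔ ∀ g, S ∘ₗ ρ g = ρ g ∘ₗ S := by
  rw [Representation.mem_invariants]
  simp only [Representation.linHom_apply]
  rw [Representation.mem_linHom_invariants_iff_isIntertwining]
  constructor
  · intro h g
    ext v
    exact h.isIntertwining g v
  · intro h
    exact ⟨fun g v => LinearMap.congr_fun (h g) v⟩

/-- Multiplicity-freeness of the permutation character is equivalent to commutativity of the centraliser ring, i.e. of the algebra of `G`-equivariant endomorphisms of the complex permutation module. -/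
theorem result {G : Type*} [Group G] [Fintype G] {Ω : Type*} [Fintype Ω] [MulAction G Ω] : (∀ χ : G → ℂ, Cfsg.IsIrrCharacter G χ → Cfsg.classInner (fun g : G => (Nat.card (MulAction.fixedBy Ω g) : ℂ)) χ = 0 ∨ Cfsg.classInner (fun g : G => (Nat.card (MulAction.fixedBy Ω g) : ℂ)) χ = 1) ↔ ∀ S T : (Ω → ℂ) →ₗ[ℂ] (Ω → ℂ), S ∈ ((Cfsg.permRep ℂ G Ω).linHom (Cfsg.permRep ℂ G Ω)).invariants → T ∈ ((Cfsg.permRep ℂ G Ω).linHom (Cfsg.permRep ℂ G Ω)).invariants → S ∘ₗ T = T ∘ₗ S := by
  have e : (fun g : G => (Nat.card (MulAction.fixedBy Ω g) : ℂ)) = (Cfsg.permRep ℂ G Ω).character := by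
    ext g
    exact (permRep_character g).symm
  rw [e]
  constructor
  · intro h S T hS hT
    exact comm_of_multFree _ h S T ((mem_inv_iff _ S).mp hS) ((mem_inv_iff _ T).mp hT)
  · intro h χ hχ
    exact multFree_of_comm _ (fun S T hS hT => h S T ((mem_inv_iff _ S).mpr hS)
      ((mem_inv_iff _ T).mpr hT)) χ hχ

end Cfsg.Agent.S0718
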