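import Cfsg.Statements.S0719
import Cfsg.Agent.Lib.Helper16PermChar
import Mathlib

set_option autoImplicit false
open Cfsg

namespace Cfsg.Agent.S0719

open MulAction Cfsg.Agent.Lib.Helper16Hecke Cfsg.Agent.Lib.Helper4Char Cfsg.Agent.Lib.Helper4Char2
  Cfsg.Agent.Lib.Helper16PermChar
open scoped ComplexConjugate

theorem int_of_integral_rat {z : ℂ} (hz : IsIntegral ℤ z) (q : ℚ) (h : z = q) : ∃ n : ℤ, z = n := by
  have hzq : z = algebraMap ℚ ℂ q := h
  rw [hzq, isIntegral_algebraMap_iff (algebraMap ℚ ℂ).injective] at hz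
  obtain ⟨y, hy⟩ := IsIntegrallyClosed.isIntegral_iff.mp hz
  refine ⟨y, ?_⟩
  rw [h, ← hy]
  simp

/-- the arithmetic core -/
theorem arith (m k R S : ℤ) (hm : 2 ≤ m) (hk1 : 2 ≤ k) (hk2 : k ≤ 2 * m - 3)
    (h1 : k + (m - 1) * R + m * S = 0) (h2 : k ^ 2 + (m - 1) * R ^ 2 + m * S ^ 2 = 2 * m * k) :
    m = 2 * R ^ 2 + 2 * R + 1 ∧ k = R + m := by
  obtain ⟨u, hu⟩ : ∃ u, u = R + S := ⟨_, rfl⟩
  have hS : S = u - R := by rw [hu]; ring
  have hk : k = R - m * u := by rw [hS] at h1; linarith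
  have hE : m * (2 * (m - 1) * (u * (u + 2)) - (1 - (2 * R - 2 * u - 1) ^ 2)) = 0 := by
    rw [hS, hk] at h2
    linear_combination (2) * h2
  have hE' : 2 * (m - 1) * (u * (u + 2)) = 1 - (2 * R - 2 * u - 1) ^ 2 := by
    rcases mul_eq_zero.mp hE with h | h
    · omega
    · linarith
  have hodd : 1 ≤ (2 * R - 2 * u - 1) ^ 2 := by
    have : 2 * R - 2 * u - 1 ≠ 0 := by omega
    have h := sq_pos_of_ne_zero this
    linarith
  have hle : u * (u + 2) ≤ 0 := by
    by_contra hcon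
    push Not at hcon
    nlinarith
  have hu1 : -2 ≤ u := by nlinarith
  have hu2 : u ≤ 0 := by nlinarith
  have hcases : u = 0 ∨ u = -1 ∨ u = -2 := by omega
  rcases hcases with h | h | h
  · exfalso
    rw [h] at hE' hk
    have h3 : (2 * R - 1) ^ 2 = 1 := by linarith
    have h4 : R = 0 ∨ R = 1 := by
      have : (R) * (R - 1) = 0 := by nlinarith
      rcases mul_eq_zero.mp this with h | h
      · left; exact h
      · right; omega
    rcases h4 with h4 | h4 <;> rw [h4] at hk <;> omega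
  · rw [h] at hE' hk
    constructor
    · nlinarith
    · linarith
  · exfalso
    rw [h] at hE' hk
    have h4 : R = -1 ∨ R = -2 := by
      have : (R + 1) * (R + 2) = 0 := by nlinarith
      rcases mul_eq_zero.mp this with h | h
      · left; omega
      · right; omega
    rcases h4 with h4 | h4 <;> rw [h4] at hk <;> omega

theorem arith2 (m k : ℕ) (R : ℤ) (hm : 2 ≤ m) (h1 : (m : ℤ) = 2 * R ^ 2 + 2 * R + 1)
    (h2 : (k : ℤ) = R + m) :
    ∃ a : ℕ, 0 < a ∧ m = 2 * a ^ 2 + 2 * a + 1 ∧ (k = a * (2 * a + 1) ∨ k = (a + 1) * (2 * a + 1)) := by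
  rcases le_or_gt 0 R with hR | hR
  · obtain ⟨a, rfl⟩ := Int.eq_ofNat_of_zero_le hR
    refine ⟨a, ?_, ?_, Or.inr ?_⟩
    · rcases Nat.eq_zero_or_pos a with h | h
      · subst h
        simp at h1
        omega
      · exact h
    · have : (m : ℤ) = ((2 * a ^ 2 + 2 * a + 1 : ℕ) : ℤ) := by push_cast; exact h1
      exact_mod_cast this
    · have : (k : ℤ) = (((a + 1) * (2 * a + 1) : ℕ) : ℤ) := by
        push_cast; rw [h2, h1]; ring
      exact_mod_cast this
  · obtain ⟨a, ha⟩ := Int.eq_ofNat_of_zero_le (show 0 ≤ -R - 1 by omega)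
    have hRa : R = -(a : ℤ) - 1 := by omega
    refine ⟨a, ?_, ?_, Or.inl ?_⟩
    · rcases Nat.eq_zero_or_pos a with h | h
      · subst h
        rw [hRa] at h1
        simp at h1
        omega
      · exact h
    · have : (m : ℤ) = ((2 * a ^ 2 + 2 * a + 1 : ℕ) : ℤ) := by
        push_cast; rw [h1, hRa]; ring
      exact_mod_cast this
    · have : (k : ℤ) = ((a * (2 * a + 1) : ℕ) : ℤ) := by
        push_cast; rw [h2, h1, hRa]; ring
      exact_mod_cast this

variable {G : Type*} [Group G] [Fintype G] {Ω : Type*} [Fintype Ω] [MulAction G Ω]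

theorem all_fixed (hprim : IsPreprimitive G Ω) {a x : Ω} (hx : x ≠ a)
    (hfix : ∀ h ∈ stabilizer G a, h • x = x) : ∀ h ∈ stabilizer G a, ∀ y : Ω, h • y = y := by
  have htrans : IsPretransitive G Ω := hprim.toIsPretransitive
  have hnt : Nontrivial Ω := ⟨⟨x, a, hx⟩⟩
  have hco : IsCoatom (stabilizer G a) := (isCoatom_stabilizer_iff_preprimitive G a).mpr hprim
  have hle : stabilizer G a ≤ stabilizer G x := fun h hh => hfix h hh
  have heq : stabilizer G a = stabilizer G x := by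
    apply Subgroup.eq_of_le_of_card_ge hle
    have h1 := card_group_eq (G := G) a
    have h2 := card_group_eq (G := G) x
    rw [h1] at h2
    have h3 : 0 < Fintype.card Ω := Fintype.card_pos
    exact (Nat.eq_of_mul_eq_mul_left h3 h2).ge
  obtain ⟨g, hg⟩ := exists_smul_eq G a x
  have hgN : g ∈ Subgroup.normalizer (stabilizer G a : Set G) := by
    rw [Subgroup.mem_normalizer_iff]
    intro h
    nth_rewrite 2 [heq]
    rw [mem_stabilizer_iff, mem_stabilizer_iff, mul_smul, mul_smul, ← hg, inv_smul_smul]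
    exact ⟨fun h1 => by rw [h1], fun h1 => smul_left_cancel g h1⟩
  have hgH : g ∉ stabilizer G a := by
    intro h
    rw [mem_stabilizer_iff, hg] at h
    exact hx h
  have hN : Subgroup.normalizer (stabilizer G a : Set G) = ⊤ := by
    apply hco.2
    exact lt_of_le_of_ne Subgroup.le_normalizer (fun h => hgH (by rw [h]; exact hgN))
  intro h hh y
  obtain ⟨k, rfl⟩ := exists_smul_eq G a y
  have hk : k⁻¹ ∈ Subgroup.normalizer (stabilizer G a : Set G) := by rw [hN]; exact Subgroup.mem_top _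
  have h1 := (Subgroup.mem_normalizer_iff.mp hk h).mp hh
  rw [inv_inv, mem_stabilizer_iff, mul_smul, mul_smul, inv_smul_eq_iff] at h1
  exact h1

theorem no_fixed (hprim : IsPreprimitive G Ω) {m : ℕ} (hm : Fintype.card Ω = 2 * m) (a : Ω)
    (hrank : Nat.card (orbitRel.Quotient (stabilizer G a) Ω) = 3) {x : Ω} (hx : x ≠ a)
    (hfix : ∀ h ∈ stabilizer G a, h • x = x) : False := by
  have htrans : IsPretransitive G Ω := hprim.toIsPretransitive
  have hall := all_fixed hprim hx hfix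
  have h1 := classInner_pc_pc_eq_sum (G := G) a
  rw [classInner_pc_pc_eq_rank (G := G) a, hrank] at h1
  have h2 : ∀ y : Ω, (Nat.card (orbit (stabilizer G a) y) : ℂ)⁻¹ = 1 := by
    intro y
    have : Nat.card (orbit (stabilizer G a) y) = 1 := by
      rw [Nat.card_eq_one_iff_unique]
      refine ⟨⟨?_⟩, ⟨⟨y, mem_orbit_self y⟩⟩⟩
      rintro ⟨_, ⟨h, rfl⟩⟩ ⟨_, ⟨k, rfl⟩⟩
      apply Subtype.ext
      show (h : G) • y = (k : G) • y
      rw [hall h h.2, hall k k.2]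
    rw [this]; simp
  rw [Finset.sum_congr rfl (fun y _ => h2 y), Finset.sum_const, Finset.card_univ, hm] at h1
  have h3 : (3 : ℕ) = 2 * m := by
    have : ((3 : ℕ) : ℂ) = ((2 * m : ℕ) : ℂ) := by
      rw [h1]; simp
    exact_mod_cast this
  omega

theorem cc_add (χ ψ : G → ℂ) (a : Ω) (Δ : Set Ω) : cc (χ + ψ) a Δ = cc χ a Δ + cc ψ a Δ := by
  classical
  rw [cc, cc, cc, ← mul_add, ← Finset.sum_add_distrib]
  congr 1
  apply Finset.sum_congr rfl
  intro g _
  split_ifs <;> simp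

theorem cc_pc_rat (a : Ω) (Δ : Set Ω) : ∃ q : ℚ, cc (pc G Ω) a Δ = q := by
  classical
  refine ⟨(Nat.card (stabilizer G a) : ℚ)⁻¹ *
    ∑ g : G, if g • a ∈ Δ then (Nat.card (fixedBy Ω g) : ℚ) else 0, ?_⟩
  rw [cc]
  push_cast
  congr 1
  apply Finset.sum_congr rfl
  intro g _
  split_ifs <;> simp

theorem per_b (hprim : MulAction.IsPreprimitive G Ω) {m : ℕ} (hm : Fintype.card Ω = 2 * m) (a₀ : Ω)
    (hrank : Nat.card (MulAction.orbitRel.Quotient (MulAction.stabilizer G a₀) Ω) = 3)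
    (χ₁ χ₂ : G → ℂ) (h₁ : Cfsg.IsIrrCharacter G χ₁) (h₂ : Cfsg.IsIrrCharacter G χ₂)
    (hπ : (fun g : G => (Nat.card (MulAction.fixedBy Ω g) : ℂ)) = fun g => 1 + χ₁ g + χ₂ g)
    (hd₁ : χ₁ 1 = (m : ℂ) - 1) (hd₂ : χ₂ 1 = m) (b : Ω) (hb : b ≠ a₀) :
    ∃ a : ℕ, 0 < a ∧ m = 2 * a ^ 2 + 2 * a + 1 ∧
      (Nat.card (MulAction.orbit (MulAction.stabilizer G a₀) b) = a * (2 * a + 1) ∨
       Nat.card (MulAction.orbit (MulAction.stabilizer G a₀) b) = (a + 1) * (2 * a + 1)) := by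
  classical
  have htrans : IsPretransitive G Ω := hprim.toIsPretransitive
  have hone : Cfsg.IsIrrCharacter G (fun _ : G => (1 : ℂ)) := (one (G := G)).2
  have hpc : pc G Ω = (fun _ : G => (1 : ℂ)) + χ₁ + χ₂ := hπ
  have hinner : ∀ ψ : G → ℂ, Cfsg.IsIrrCharacter G ψ → Cfsg.classInner (pc G Ω) ψ =
      (if (fun _ : G => (1 : ℂ)) = ψ then 1 else 0) + (if χ₁ = ψ then 1 else 0) +
        (if χ₂ = ψ then 1 else 0) := by
    intro ψ hψ
    rw [hpc, classInner_add_left, classInner_add_left, classInner_irr hone hψ, classInner_irr h₁ hψ,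
      classInner_irr h₂ hψ]
  have hne12 : χ₁ ≠ χ₂ := by
    intro h
    rw [h, hd₂] at hd₁
    have : (1 : ℂ) = 0 := by linear_combination hd₁
    exact one_ne_zero this
  obtain ⟨mm, d, hmm, -, -, hmm1, -, -, -, -⟩ := exists_data (G := G) a₀
  have hin1 : Cfsg.classInner (pc G Ω) (fun _ : G => (1 : ℂ)) = 1 := by
    have := hmm one
    rw [hmm1, Nat.cast_one] at this
    exact this
  have hne1 : χ₁ ≠ fun _ : G => (1 : ℂ) := by
    intro h
    have h3 := hinner _ hone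
    rw [hin1, if_pos rfl, if_pos h] at h3
    split_ifs at h3 <;> norm_num at h3
  have hne2 : χ₂ ≠ fun _ : G => (1 : ℂ) := by
    intro h
    have h3 := hinner _ hone
    rw [hin1, if_pos rfl, if_pos h] at h3
    split_ifs at h3 <;> norm_num at h3
  let X₁ : Cfsg.IrrCharacter G := ⟨χ₁, h₁⟩
  let X₂ : Cfsg.IrrCharacter G := ⟨χ₂, h₂⟩
  have hX1 : X₁ ≠ one := fun h => hne1 (congrArg Subtype.val h)
  have hX2 : X₂ ≠ one := fun h => hne2 (congrArg Subtype.val h)
  have hX12 : X₁ ≠ X₂ := fun h => hne12 (congrArg Subtype.val h)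
  have h01 : ∀ ψ : Cfsg.IrrCharacter G,
      Cfsg.classInner (fun g : G => (Nat.card (fixedBy Ω g) : ℂ)) ψ = 0 ∨
      Cfsg.classInner (fun g : G => (Nat.card (fixedBy Ω g) : ℂ)) ψ = 1 := by
    intro ψ
    have h3 := hinner ψ ψ.2
    rw [show (fun g : G => (Nat.card (fixedBy Ω g) : ℂ)) = pc G Ω from rfl, h3]
    by_cases e0 : (fun _ : G => (1 : ℂ)) = ψ
    · rw [if_pos e0, if_neg (fun h => hne1 (h.trans e0.symm)), if_neg (fun h => hne2 (h.trans e0.symm))]
      right; norm_num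
    · rw [if_neg e0]
      by_cases e1 : χ₁ = ψ
      · rw [if_pos e1, if_neg (fun h => hne12 (e1.trans h.symm))]
        right; norm_num
      · rw [if_neg e1]
        by_cases e2 : χ₂ = ψ
        · rw [if_pos e2]; right; norm_num
        · rw [if_neg e2]; left; norm_num
  have hvan : ∀ ψ : Cfsg.IrrCharacter G, ψ ≠ one → ψ ≠ X₁ → ψ ≠ X₂ →
      Cfsg.classInner (fun g : G => (Nat.card (fixedBy Ω g) : ℂ)) ψ = 0 := by
    intro ψ e0 e1 e2
    have h3 := hinner ψ ψ.2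
    rw [show (fun g : G => (Nat.card (fixedBy Ω g) : ℂ)) = pc G Ω from rfl, h3,
      if_neg (fun h => e0 (Subtype.ext h.symm)), if_neg (fun h => e1 (Subtype.ext h.symm)),
      if_neg (fun h => e2 (Subtype.ext h.symm))]
    norm_num
  have hsum3 : ∀ F : Cfsg.IrrCharacter G → ℂ, (∀ ψ, ψ ≠ one → ψ ≠ X₁ → ψ ≠ X₂ → F ψ = 0) →
      ∑ ψ, F ψ = F one + F X₁ + F X₂ := by
    intro F hF
    rw [← Finset.sum_subset (Finset.subset_univ ({one, X₁, X₂} : Finset (Cfsg.IrrCharacter G)))]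
    · rw [Finset.sum_insert, Finset.sum_insert, Finset.sum_singleton, add_assoc]
      · simpa using hX12
      · simp only [Finset.mem_insert, Finset.mem_singleton, not_or]
        exact ⟨hX1.symm, hX2.symm⟩
    · intro ψ _ hψ
      simp only [Finset.mem_insert, Finset.mem_singleton, not_or] at hψ
      exact hF ψ hψ.1 hψ.2.1 hψ.2.2
  set Δ : Set Ω := orbit (stabilizer G a₀) b with hΔdef
  have hΔ : Inv G a₀ Δ := inv_orbit a₀ b
  have haΔ : a₀ ∉ Δ := by
    rintro ⟨h, hh⟩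
    apply hb
    have h1 : (h : G) • b = a₀ := hh
    have h2 : (h : G) • a₀ = a₀ := h.2
    exact smul_left_cancel _ (h1.trans h2.symm)
  have hcard : Nat.card (orbit (stabilizer G a₀) b) = Δ.ncard := Nat.card_coe_set_eq _
  set k := Δ.ncard with hk
  set r := cc χ₁ a₀ Δ with hr
  set s := cc χ₂ a₀ Δ with hs
  have hc1 : cc (fun _ : G => (1 : ℂ)) a₀ Δ = k := cc_one a₀ Δ
  -- equation (1)
  have E1 : (k : ℂ) + ((m : ℂ) - 1) * r + m * s = 0 := by
    have h3 := sum_degree_cc (G := G) a₀ Δ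
    rw [if_neg haΔ, hsum3] at h3
    · have e0 : ((one : Cfsg.IrrCharacter G) : G → ℂ) 1 * cc ((one : Cfsg.IrrCharacter G) : G → ℂ) a₀ Δ
          = k := by
        show (1 : ℂ) * cc (fun _ : G => (1 : ℂ)) a₀ Δ = k
        rw [one_mul, hc1]
      rw [e0] at h3
      show (k : ℂ) + ((m : ℂ) - 1) * cc χ₁ a₀ Δ + m * cc χ₂ a₀ Δ = 0
      rw [← hd₁, ← hd₂]
      exact h3
    · intro ψ e0 e1 e2
      rw [cc_eq_zero_of_classInner_eq_zero hΔ (IsIrrCharacter.isCharacter ψ.2) (hvan ψ e0 e1 e2),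
        mul_zero]
  -- r + s is an integer
  obtain ⟨q, hq⟩ := cc_pc_rat (G := G) a₀ Δ
  rw [hpc, cc_add, cc_add, hc1] at hq
  obtain ⟨u, hu⟩ : ∃ u : ℤ, r + s = u := by
    apply int_of_integral_rat ((isIntegral_cc hΔ (IsIrrCharacter.isCharacter h₁)).add
      (isIntegral_cc hΔ (IsIrrCharacter.isCharacter h₂))) (q - k)
    push_cast
    rw [← hq]
    ring
  have hS : s = ((-(k : ℤ) - ((m : ℤ) - 1) * u : ℤ) : ℂ) := by
    push_cast
    rw [← hu]
    linear_combination E1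
  have hR : r = ((u - (-(k : ℤ) - ((m : ℤ) - 1) * u) : ℤ) : ℂ) := by
    have : r = u - s := by rw [← hu]; ring
    rw [this, hS]
    push_cast; ring
  obtain ⟨R, hR'⟩ : ∃ R : ℤ, r = R := ⟨_, hR⟩
  obtain ⟨S, hS'⟩ : ∃ S : ℤ, s = S := ⟨_, hS⟩
  -- equation (2)
  have E2 : (k : ℂ) * k + ((m : ℂ) - 1) * (r * conj r) + m * (s * conj s) = (2 * m : ℂ) * k := by
    have h3 := norm_formula (G := G) hΔ h01
    rw [hsum3, hm] at h3
    · have e0 : ((one : Cfsg.IrrCharacter G) : G → ℂ) 1 *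
          (cc ((one : Cfsg.IrrCharacter G) : G → ℂ) a₀ Δ *
            conj (cc ((one : Cfsg.IrrCharacter G) : G → ℂ) a₀ Δ)) = (k : ℂ) * k := by
        show (1 : ℂ) * (cc (fun _ : G => (1 : ℂ)) a₀ Δ * conj (cc (fun _ : G => (1 : ℂ)) a₀ Δ)) = _
        rw [one_mul, hc1, Complex.conj_natCast]
      rw [e0] at h3
      show (k : ℂ) * k + ((m : ℂ) - 1) * (cc χ₁ a₀ Δ * conj (cc χ₁ a₀ Δ)) +
        m * (cc χ₂ a₀ Δ * conj (cc χ₂ a₀ Δ)) = (2 * m : ℂ) * k
      push_cast at h3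
      rw [← h3, ← hd₁, ← hd₂]
    · intro ψ e0 e1 e2
      rw [cc_eq_zero_of_classInner_eq_zero hΔ (IsIrrCharacter.isCharacter ψ.2) (hvan ψ e0 e1 e2)]
      simp
  rw [hR', hS', map_intCast, map_intCast] at E2
  rw [hR', hS'] at E1
  have E1' : (k : ℤ) + ((m : ℤ) - 1) * R + m * S = 0 := by exact_mod_cast E1
  have E2' : (k : ℤ) ^ 2 + ((m : ℤ) - 1) * R ^ 2 + m * S ^ 2 = 2 * m * k := by
    have : ((k : ℤ) : ℂ) * k + (((m : ℤ) : ℂ) - 1) * (R * R) + (m : ℤ) * (S * S) = (2 * (m : ℤ) : ℂ) * (k : ℤ) := by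
      push_cast; exact E2
    have h4 : (k : ℤ) * k + ((m : ℤ) - 1) * (R * R) + m * (S * S) = 2 * m * k := by exact_mod_cast this
    linarith
  -- bounds
  have fix_of_one : ∀ (Γ : Set Ω), Inv G a₀ Γ → Γ.ncard = 1 → ∀ x ∈ Γ, ∀ h ∈ stabilizer G a₀,
      h • x = x := by
    intro Γ hΓ h1 x hx h hh
    obtain ⟨y, hy⟩ := Set.ncard_eq_one.mp h1
    have h2 : h • x ∈ Γ := (hΓ h hh x).mpr hx
    rw [hy, Set.mem_singleton_iff] at h2 hx
    rw [h2, hx]
  have hbΔ : b ∈ Δ := mem_orbit_self b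
  have hk1 : k ≠ 0 := by
    rw [hk]
    exact (Set.ncard_pos (Set.toFinite _)).mpr ⟨b, hbΔ⟩ |>.ne'
  have hk2 : k ≠ 1 := by
    intro h1
    exact no_fixed hprim hm a₀ hrank hb (fix_of_one Δ hΔ h1 b hbΔ)
  obtain ⟨x, hxa, hxΔ⟩ : ∃ x : Ω, x ≠ a₀ ∧ x ∉ Δ := by
    by_contra hcon
    push Not at hcon
    let f : Bool → orbitRel.Quotient (stabilizer G a₀) Ω := fun t =>
      if t then Quotient.mk'' a₀ else Quotient.mk'' b
    have hsurj : Function.Surjective f := by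
      intro q
      obtain ⟨y, rfl⟩ := Quotient.exists_rep q
      by_cases hy : y = a₀
      · exact ⟨true, by rw [hy]; rfl⟩
      · refine ⟨false, ?_⟩
        symm
        apply Quotient.sound
        exact hcon y hy
    have := Nat.card_le_card_of_surjective f hsurj
    rw [hrank] at this
    simp at this
  set Γ : Set Ω := (insert a₀ Δ)ᶜ with hΓdef
  have hΓ : Inv G a₀ Γ := by
    have h1 : Inv G a₀ ({a₀} ∪ Δ) := inv_union (inv_singleton a₀) hΔ
    rw [Set.singleton_union] at h1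
    exact inv_compl h1
  have hxΓ : x ∈ Γ := by
    rw [hΓdef, Set.mem_compl_iff, Set.mem_insert_iff, not_or]
    exact ⟨hxa, hxΔ⟩
  have hΓcard : (k + 1) + Γ.ncard = 2 * m := by
    have h1 := Set.ncard_add_ncard_compl (insert a₀ Δ)
    rw [Set.ncard_insert_of_notMem haΔ (Set.toFinite _), Nat.card_eq_fintype_card, hm] at h1
    exact h1
  have hΓ0 : Γ.ncard ≠ 0 := (Set.ncard_pos (Set.toFinite _)).mpr ⟨x, hxΓ⟩ |>.ne'
  have hΓ1 : Γ.ncard ≠ 1 := by
    intro h1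
    exact no_fixed hprim hm a₀ hrank hxa (fix_of_one Γ hΓ h1 x hxΓ)
  obtain ⟨e1, e2⟩ := arith m k R S (by omega) (by omega) (by omega) E1' E2'
  rw [hcard]
  exact arith2 m k R (by omega) e1 e2

/-- Groups of Wielandt type: if a primitive group of degree `2m` has rank 3 and permutation character `1 + χ₁ + χ₂` with irreducible `χ₁, χ₂` of degrees `m - 1` and `m`, then `m = 2a² + 2a + 1` for some positive integer `a` and the two non-trivial subdegrees are `a(2a+1)` and `(a+1)(2a+1)`. -/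
theorem result {G : Type*} [Group G] [Fintype G] {Ω : Type*} [Fintype Ω] [MulAction G Ω] (hprim : MulAction.IsPreprimitive G Ω) {m : ℕ} (hm : Fintype.card Ω = 2 * m) (a₀ : Ω) (hrank : Nat.card (MulAction.orbitRel.Quotient (MulAction.stabilizer G a₀) Ω) = 3) (χ₁ χ₂ : G → ℂ) (h₁ : Cfsg.IsIrrCharacter G χ₁) (h₂ : Cfsg.IsIrrCharacter G χ₂) (hπ : (fun g : G => (Nat.card (MulAction.fixedBy Ω g) : ℂ)) = fun g => 1 + χ₁ g + χ₂ g) (hd₁ : χ₁ 1 = (m : ℂ) - 1) (hd₂ : χ₂ 1 = m) : ∃ a : ℕ, 0 < a ∧ m = 2 * a ^ 2 + 2 * a + 1 ∧ ∀ b : Ω, b ≠ a₀ → Nat.card (MulAction.orbit (MulAction.stabilizer G a₀) b) = a * (2 * a + 1) ∨ Nat.card (MulAction.orbit (MulAction.stabilizer G a₀) b) = (a + 1) * (2 * a + 1) := by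
  obtain ⟨b₀, hb₀⟩ : ∃ b₀ : Ω, b₀ ≠ a₀ := by
    by_contra hcon
    push Not at hcon
    have h1 : Nat.card (MulAction.orbitRel.Quotient (MulAction.stabilizer G a₀) Ω) ≤ 1 := by
      rw [Finite.card_le_one_iff_subsingleton]
      constructor
      intro p q
      obtain ⟨y, rfl⟩ := Quotient.exists_rep p
      obtain ⟨z, rfl⟩ := Quotient.exists_rep q
      rw [hcon y, hcon z]
    omega
  obtain ⟨a, ha0, ham, -⟩ := per_b hprim hm a₀ hrank χ₁ χ₂ h₁ h₂ hπ hd₁ hd₂ b₀ hb₀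
  refine ⟨a, ha0, ham, ?_⟩
  intro b hb
  obtain ⟨a', -, ham', h⟩ := per_b hprim hm a₀ hrank χ₁ χ₂ h₁ h₂ hπ hd₁ hd₂ b hb
  have : a' = a := by
    rw [ham] at ham'
    nlinarith
  rw [this] at h
  exact h

end Cfsg.Agent.S0719
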