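import Cfsg.Statements.S0723
import Cfsg.Agent.S0721
import Cfsg.Agent.Lib.H82OSDefs
import Cfsg.Agent.Lib.H82OSPerm
import Cfsg.Agent.Lib.H82OSTrans
import Cfsg.Agent.Lib.H82OSDich
import Cfsg.Agent.Lib.H82OSProj
import Cfsg.Agent.Lib.H82OSCaseA
import Cfsg.Agent.Lib.H82OSAut
import Cfsg.Agent.Lib.H82OSSupp
import Cfsg.Agent.Lib.H82OSFull
import Cfsg.Agent.Lib.H82OSStruct
import Cfsg.Agent.Lib.H82OSFibre
import Cfsg.Agent.Lib.H82OSNorm
import Cfsg.Agent.Lib.H82OSHypN
import Cfsg.Agent.Lib.H82OSCongr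

set_option autoImplicit false
open Cfsg

namespace Cfsg.Agent.S0723

open Cfsg.Agent.Lib.H82OSDefs
open Cfsg.Agent.Lib

/-- the abstract theorem on `Fin m → T`. -/
theorem abs {T : Type*} [Group T] [IsSimpleGroup T] (hna : ¬ IsMulCommutative T) {m : ℕ} (hm : 0 < m)
    (A : Subgroup (MulAut (Fin m → T))) (D : Subgroup (Fin m → T)) (h : Hyp T m A D) :
    (∃ K : Fin m → Subgroup T, (∀ i, K i ≠ ⊤) ∧ ∀ x : Fin m → T, x ∈ D ↔ ∀ i, x i ∈ K i) ∨
    (∃ (θ : (Fin m → T) ≃* (Fin m → T)) (k : ℕ) (c : Fin m → Fin m), 2 ≤ k ∧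
      (∀ j : Fin m, Nat.card {i : Fin m // c i = j} = k ∨ Nat.card {i : Fin m // c i = j} = 0) ∧
      ∀ x : Fin m → T, x ∈ D ↔ ∀ i j : Fin m, c i = c j → θ x i = θ x j) := by
  rcases H82OSDich.dich hna A D h with hX | hX
  · exact Or.inl (H82OSCaseA.caseA hna A D h hX)
  · right
    have hS : Subd D := H82OSProj.sub_of_top D hX
    obtain ⟨c, α, hc, hcc, hα, hD⟩ := H82OSStruct.struct hna D hS
    let i0 : Fin m := ⟨0, hm⟩
    set k := Nat.card {i' : Fin m // Lk D i0 i'} with hk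
    have hfib : ∀ i : Fin m, Nat.card {i' : Fin m // c i' = c i} = k := by
      intro i
      rw [hk, H82OSFibre.fibre hna A D h i0 i]
      apply Nat.card_congr
      apply Equiv.subtypeEquivRight
      intro i'
      rw [← hc i i']
      exact eq_comm
    let θ : (Fin m → T) ≃* (Fin m → T) := MulEquiv.piCongrRight (fun i => (α i).symm)
    have hθ : ∀ (x : Fin m → T) (i : Fin m), θ x i = (α i).symm (x i) := fun x i => rfl
    have hmem : ∀ x : Fin m → T, x ∈ D ↔ ∀ i j : Fin m, c i = c j → θ x i = θ x j := by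
      intro x
      rw [hD x]
      constructor
      · intro hx i j hij
        rw [hθ, hθ, hx i, hx j, hij]
        simp
      · intro hx i
        have h1 := hx i (c i) (hcc i).symm
        rw [hθ, hθ, hα i] at h1
        have h2 : (α i).symm (x i) = x (c i) := h1
        rw [← h2]
        simp
    refine ⟨θ, k, c, ?_, ?_, hmem⟩
    · by_contra hk2
      have hk1 : k = 0 ∨ k = 1 := by omega
      have hsub : ∀ i : Fin m, c i = i := by
        intro i
        have hfi := hfib i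
        have hle : Nat.card {i' : Fin m // c i' = c i} ≤ 1 := by omega
        have hss : Subsingleton {i' : Fin m // c i' = c i} :=
          (Finite.card_le_one_iff_subsingleton).1 hle
        have := hss.elim ⟨c i, hcc i⟩ ⟨i, rfl⟩
        exact congrArg Subtype.val this
      apply h.ne_top
      rw [eq_top_iff]
      intro x _
      rw [hD x]
      intro i
      have h1 := hα i
      rw [hsub i] at h1
      rw [h1, hsub i]
      rfl
    · intro j
      by_cases hj : ∃ i, c i = j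
      · obtain ⟨i, rfl⟩ := hj
        exact Or.inl (hfib i)
      · right
        have : IsEmpty {i : Fin m // c i = j} := ⟨fun i => hj ⟨i.1, i.2⟩⟩
        exact Nat.card_of_isEmpty

theorem result {α : Type*} [Finite α] (H : Subgroup (Equiv.Perm α)) [MulAction.IsPreprimitive H α] (N : Subgroup H) [N.Normal] (hN : N ≠ ⊥) (hmin : ∀ M : Subgroup H, M.Normal → M ≤ N → M = ⊥ ∨ M = N) (huniq : ∀ L : Subgroup H, L.Normal → L ≠ ⊥ → (∀ M : Subgroup H, M.Normal → M ≤ L → M = ⊥ ∨ M = L) → L = N) (hnab : ¬ IsMulCommutative N) (a : α) : ∃ (T : Type) (_ : Group T) (m : ℕ) (e : N ≃* (Fin m → T)), IsSimpleGroup T ∧ ¬ IsMulCommutative T ∧ 0 < m ∧ ((∃ K : Fin m → Subgroup T, (∀ i, K i ≠ ⊤) ∧ ∀ n : N, (n : H) ∈ MulAction.stabilizer H a ↔ ∀ i, e n i ∈ K i) ∨ (∃ (k : ℕ) (c : Fin m → Fin m), 2 ≤ k ∧ (∀ j : Fin m, Nat.card {i : Fin m // c i = j} = k ∨ Nat.card {i : Fin m // c i = j} = 0) ∧ ∀ n : N, (n : H) ∈ MulAction.stabilizer H a ↔ ∀ i j : Fin m, c i =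 c j → e n i = e n j)) := by
  obtain ⟨T, _, m, hT, hm, ⟨e0⟩⟩ := Cfsg.Agent.S0721.result N hN hmin
  have hna : ¬ IsMulCommutative T := by
    intro hc
    apply hnab
    refine ⟨⟨fun x y => ?_⟩⟩
    apply e0.injective
    rw [map_mul, map_mul]
    funext i
    exact hc.is_comm.comm _ _
  obtain ⟨A0, hA0⟩ := H82OSHypN.hypN H N hN hmin a
  obtain ⟨A, hA⟩ := H82OSCongr.congr e0 A0 _ hA0
  have hmemD : ∀ n : N, (n : H) ∈ MulAction.stabilizer H a ↔
      e0 n ∈ ((MulAction.stabilizer H a).subgroupOf N).map e0.toMonoidHom := by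
    intro n
    constructor
    · intro hn
      exact ⟨n, Subgroup.mem_subgroupOf.2 hn, rfl⟩
    · rintro ⟨n', hn', he⟩
      have : n' = n := e0.injective he
      rw [← this]
      exact Subgroup.mem_subgroupOf.1 hn'
  rcases abs hna hm A _ hA with ⟨K, hK, hKD⟩ | ⟨θ, k, c, hk, hfib, hD⟩
  · refine ⟨T, inferInstance, m, e0, hT, hna, hm, Or.inl ⟨K, hK, fun n => ?_⟩⟩
    rw [hmemD n, hKD]
  · refine ⟨T, inferInstance, m, e0.trans θ, hT, hna, hm, Or.inr ⟨k, c, hk, hfib, fun n => ?_⟩⟩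
    rw [hmemD n, hD]
    rfl

end Cfsg.Agent.S0723
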