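import Cfsg.Statements.S0724
import Mathlib

set_option autoImplicit false
open Cfsg

namespace Cfsg.Agent.S0724

open Polynomial

theorem card_fixedBy_pow {G X : Type*} [Group G] [MulAction G X] [Finite X] (g : G) (j : ℕ) :
    Nat.card (MulAction.fixedBy (Fin j → X) g) = Nat.card (MulAction.fixedBy X g) ^ j := by
  have e : MulAction.fixedBy (Fin j → X) g ≃ (Fin j → MulAction.fixedBy X g) :=
    { toFun := fun f i => ⟨f.1 i, congrFun f.2 i⟩
      invFun := fun f => ⟨fun i => (f i).1, funext fun i => (f i).2⟩
      left_inv := fun f => rfl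
      right_inv := fun f => rfl }
  rw [Nat.card_congr e, Nat.card_fun, Nat.card_eq_fintype_card (α := Fin j), Fintype.card_fin]

theorem dvd_sum_pow {G X : Type*} [Group G] [Fintype G] [MulAction G X] [Finite X] (j : ℕ) :
    (Nat.card G : ℤ) ∣ ∑ g : G, (Nat.card (MulAction.fixedBy X g) : ℤ) ^ j := by
  classical
  have := Fintype.ofFinite X
  have h := MulAction.sum_card_fixedBy_eq_card_orbits_mul_card_group G (Fin j → X)
  have h2 : ∑ g : G, (Nat.card (MulAction.fixedBy X g) : ℤ) ^ j
      = ((∑ g : G, Fintype.card (MulAction.fixedBy (Fin j → X) g) : ℕ) : ℤ) := by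
    push_cast
    apply Finset.sum_congr rfl
    intro g _
    rw [← Nat.card_eq_fintype_card, card_fixedBy_pow]
    push_cast
    rfl
  rw [h2, h, Nat.card_eq_fintype_card]
  push_cast
  exact Dvd.intro_left _ rfl

theorem dvd_sum_eval {G X : Type*} [Group G] [Fintype G] [MulAction G X] [Finite X] (P : ℤ[X]) :
    (Nat.card G : ℤ) ∣ ∑ g : G, P.eval (Nat.card (MulAction.fixedBy X g) : ℤ) := by
  induction P using Polynomial.induction_on' with
  | add p q hp hq =>
    simp only [eval_add, Finset.sum_add_distrib]
    exact dvd_add hp hq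
  | monomial n a =>
    simp only [eval_monomial, ← Finset.mul_sum]
    exact Dvd.dvd.mul_left (dvd_sum_pow n) a

/-- Blichfeldt's Theorem: if a finite set `L` of natural numbers contains the number of fixed points of every non-identity element of a permutation group `G` of degree `n`, then the order of `G` divides `∏ (n - l)` over `l ∈ L`. -/
theorem result {α : Type*} [Fintype α] [DecidableEq α] (G : Subgroup (Equiv.Perm α)) (L : Finset ℕ) (hL : ∀ g ∈ G, g ≠ 1 → Nat.card (MulAction.fixedBy α g) ∈ L) : Nat.card G ∣ ∏ l ∈ L, (Fintype.card α - l) := by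
  classical
  by_cases hbig : ∃ l ∈ L, Fintype.card α ≤ l
  · obtain ⟨l, hl, hle⟩ := hbig
    rw [Finset.prod_eq_zero hl (Nat.sub_eq_zero_of_le hle)]
    exact dvd_zero _
  · push Not at hbig
    have := Fintype.ofFinite G
    have h := dvd_sum_eval (G := G) (X := α) (∏ l ∈ L, (X - C (l : ℤ)))
    have h1 : ∑ g : G, (∏ l ∈ L, (X - C (l : ℤ))).eval (Nat.card (MulAction.fixedBy α g) : ℤ)
        = (∏ l ∈ L, (X - C (l : ℤ))).eval (Nat.card (MulAction.fixedBy α (1 : G)) : ℤ) := by
      apply Finset.sum_eq_single
      · intro g _ hg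
        rw [eval_prod]
        have hg' : (g : Equiv.Perm α) ≠ 1 := fun h => hg (Subtype.ext h)
        have hmem := hL g g.2 hg'
        apply Finset.prod_eq_zero hmem
        simp only [eval_sub, eval_X, eval_C]
        have : MulAction.fixedBy α g = MulAction.fixedBy α (g : Equiv.Perm α) := rfl
        rw [this, sub_self]
      · intro h; exact absurd (Finset.mem_univ _) h
    rw [h1, eval_prod] at h
    have h2 : Nat.card (MulAction.fixedBy α (1 : G)) = Fintype.card α := by
      rw [MulAction.fixedBy_one_eq_univ, Nat.card_coe_set_eq, Set.ncard_univ, Nat.card_eq_fintype_card]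
    rw [h2] at h
    have h3 : ∏ l ∈ L, eval (Fintype.card α : ℤ) (X - C (l : ℤ))
        = ((∏ l ∈ L, (Fintype.card α - l) : ℕ) : ℤ) := by
      push_cast
      apply Finset.prod_congr rfl
      intro l hl
      rw [Nat.cast_sub (hbig l hl).le]
      simp
    rw [h3] at h
    exact_mod_cast h

end Cfsg.Agent.S0724
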