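import Cfsg.Statements.S0726
import Mathlib

set_option autoImplicit false
open Cfsg

namespace Cfsg.Agent.S0726

theorem mem_cent_iff {G : Type*} [Group G] (σ : Equiv.Perm G) :
    σ ∈ Subgroup.centralizer ((MulAction.toPermHom G G).range : Set (Equiv.Perm G)) ↔
      σ = MulAction.toPermHom Gᵐᵒᵖ G (MulOpposite.op (σ 1)) := by
  constructor
  · intro h
    ext x
    have := h (MulAction.toPermHom G G x) ⟨x, rfl⟩
    have h2 := congrArg (fun τ : Equiv.Perm G => τ 1) this
    simp at h2
    simp [h2]
  · intro h
    rw [Subgroup.mem_centralizer_iff]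
    rintro _ ⟨g, rfl⟩
    rw [h]
    ext x
    simp [mul_assoc]

/-- The left and right regular permutation representations of a group are each other's centralisers in the symmetric group: the centraliser of the left regular image is the right regular image, and a transitive subgroup centralising the left regular image is the whole right regular image. -/
theorem result {G : Type*} [Group G] : Subgroup.centralizer ((MulAction.toPermHom G G).range : Set (Equiv.Perm G)) = (MulAction.toPermHom Gᵐᵒᵖ G).range ∧ ∀ H : Subgroup (Equiv.Perm G), H ≤ Subgroup.centralizer ((MulAction.toPermHom G G).range : Set (Equiv.Perm G)) → MulAction.IsPretransitive H G → H = (MulAction.toPermHom Gᵐᵒᵖ G).range := by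
  have key : Subgroup.centralizer ((MulAction.toPermHom G G).range : Set (Equiv.Perm G)) = (MulAction.toPermHom Gᵐᵒᵖ G).range := by
    ext σ
    rw [mem_cent_iff]
    constructor
    · intro h
      exact ⟨_, h.symm⟩
    · rintro ⟨a, rfl⟩
      simp
  refine ⟨key, ?_⟩
  intro H hH ht
  apply le_antisymm
  · rw [← key]; exact hH
  · rintro _ ⟨a, rfl⟩
    obtain ⟨h, hh⟩ := ht.exists_smul_eq (1 : G) (MulOpposite.unop a)
    have h1 := (mem_cent_iff (h : Equiv.Perm G)).1 (hH h.2)
    have h2 : (h : Equiv.Perm G) 1 = MulOpposite.unop a := hh
    rw [h2] at h1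
    rw [MulOpposite.op_unop] at h1
    rw [← h1]
    exact h.2

end Cfsg.Agent.S0726
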