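import Cfsg.Statements.S0728
import Cfsg.Agent.Lib.Helper16Sharp3
import Mathlib

set_option autoImplicit false
open Cfsg

namespace Cfsg.Agent.S0728

open MulAction Cfsg.Agent.Lib.Helper10Sharp Cfsg.Agent.Lib.Helper16Sharp3

section Core

variable {G α : Type*} [Group G] [MulAction G α]

theorem sub (h : Sharp G α 3) {a b c : α} (hab : a ≠ b) (hac : a ≠ c) (hbc : b ≠ c) (x y : G)
    (hxa : x • a = a) (hxb : x • b = b) (hx1 : x ≠ 1) (hx3 : x * x * x = 1)
    (hya : y • a = a) (hyb : y • b = b) (hy1 : y ≠ 1) (hy3 : y * y * y = 1) :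
    ∃ g : G, g • c = c ∧ g * x * g⁻¹ = y ∧ ((g • a = a ∧ g • b = b) ∨ (g • a = b ∧ g • b = a)) := by
  have key : ∀ w : G, w • a = a → w • b = b → w ≠ 1 → w * w * w = 1 →
      c ≠ w • c ∧ c ≠ w • w • c ∧ w • c ≠ w • w • c := by
    intro w hwa hwb hw1 hw3
    have h1 : c ≠ w • c := fun hc => hw1 (eq_one3 h hab hac hbc w hwa hwb hc.symm)
    refine ⟨h1, ?_, fun hc => h1 (smul_left_cancel w hc)⟩
    intro hc
    have h2 : w * w = 1 := eq_one3 h hab hac hbc (w * w) (by rw [mul_smul, hwa, hwa])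
      (by rw [mul_smul, hwb, hwb]) (by rw [mul_smul]; exact hc.symm)
    rw [h2, one_mul] at hw3
    exact hw1 hw3
  obtain ⟨hx1', hx2', hx3'⟩ := key x hxa hxb hx1 hx3
  obtain ⟨hy1', hy2', hy3'⟩ := key y hya hyb hy1 hy3
  obtain ⟨g, hg1, hg2, hg3⟩ := exists3 h hx1' hx2' hx3' hy1' hy2' hy3'
  have hconj : g * x * g⁻¹ = y := by
    apply eq3 h hy1' hy2' hy3'
    · rw [mul_smul, mul_smul]
      nth_rewrite 1 [← hg1]
      rw [inv_smul_smul, hg2]
    · rw [mul_smul, mul_smul, ← hg2, inv_smul_smul, hg3, hg2]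
    · have e1 : x • x • x • c = c := by rw [← mul_smul, ← mul_smul, hx3, one_smul]
      have e2 : y • y • y • c = c := by rw [← mul_smul, ← mul_smul, hy3, one_smul]
      rw [mul_smul, mul_smul, ← hg3, inv_smul_smul, e1, hg1, hg3, e2]
  refine ⟨g, hg1, hconj, ?_⟩
  have hfix : ∀ w : α, y • w = w → w = a ∨ w = b := by
    intro w hw
    by_contra hcon
    push Not at hcon
    exact hy1 (eq_one3 h hab hcon.1.symm hcon.2.symm y hya hyb hw)
  have hga : y • g • a = g • a := by
    rw [← hconj, mul_smul, mul_smul, inv_smul_smul, hxa]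
  have hgb : y • g • b = g • b := by
    rw [← hconj, mul_smul, mul_smul, inv_smul_smul, hxb]
  have hne : g • a ≠ g • b := fun hc => hab (smul_left_cancel g hc)
  rcases hfix _ hga with h4 | h4 <;> rcases hfix _ hgb with h5 | h5
  · exact absurd (h4.trans h5.symm) hne
  · exact Or.inl ⟨h4, h5⟩
  · exact Or.inr ⟨h4, h5⟩
  · exact absurd (h4.trans h5.symm) hne

theorem core (h : Sharp G α 3) {a b c : α} (hab : a ≠ b) (hac : a ≠ c) (hbc : b ≠ c) (x y : G)
    (hxa : x • a = a) (hxb : x • b = b) (hx1 : x ≠ 1) (hx3 : x * x * x = 1)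
    (hya : y • a = a) (hyb : y • b = b) (hy1 : y ≠ 1) (hy3 : y * y * y = 1) :
    x = y ∨ x = y * y := by
  have hyy1 : y * y ≠ 1 := by
    intro hc
    rw [hc, one_mul] at hy3
    exact hy1 hy3
  have hyy3 : (y * y) * (y * y) * (y * y) = 1 := by
    calc (y * y) * (y * y) * (y * y) = (y * y * y) * (y * y * y) := by group
      _ = 1 := by rw [hy3, one_mul]
  obtain ⟨g, hgc, hg, hg'⟩ := sub h hab hac hbc x y hxa hxb hx1 hx3 hya hyb hy1 hy3
  obtain ⟨k, hkc, hk, hk'⟩ := sub h hab hac hbc x (y * y) hxa hxb hx1 hx3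
    (by rw [mul_smul, hya, hya]) (by rw [mul_smul, hyb, hyb]) hyy1 hyy3
  rcases hg' with ⟨h1, h2⟩ | ⟨h1, h2⟩
  · left
    have := eq_one3 h hab hac hbc g h1 h2 hgc
    rw [this] at hg
    simpa using hg
  · rcases hk' with ⟨h3, h4⟩ | ⟨h3, h4⟩
    · right
      have := eq_one3 h hab hac hbc k h3 h4 hkc
      rw [this] at hk
      simpa using hk
    · exfalso
      have : g = k := eq3 h hab hac hbc g k (h1.trans h3.symm) (h2.trans h4.symm)
        (hgc.trans hkc.symm)
      rw [← this, hg] at hk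
      apply hy1
      have h5 : y * 1 = y * y := by rw [mul_one]; exact hk
      exact (mul_left_cancel h5).symm

end Core

/-- In a sharply triply transitive group of even degree at least 6 (degree `q + 1`, `q` odd), a two-point stabiliser has at most one subgroup of order 3. -/
theorem result {α : Type*} [Fintype α] [DecidableEq α] (heven : Even (Fintype.card α)) (h6 : 6 ≤ Fintype.card α) (G : Subgroup (Equiv.Perm α)) (h3 : MulAction.IsMultiplyPretransitive G α 3) (hsharp : ∀ x : Fin 3 ↪ α, MulAction.stabilizer G x = ⊥) {a b : α} (hab : a ≠ b) (A B : Subgroup G) (hA : A ≤ MulAction.stabilizer G a ⊓ MulAction.stabilizer G b) (hB : B ≤ MulAction.stabilizer G a ⊓ MulAction.stabilizer G b) (hA3 : Nat.card A = 3) (hB3 : Nat.card B = 3) : A = B := by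
  have h : Sharp G α 3 := ⟨h3, hsharp⟩
  have gen : ∀ C : Subgroup G, Nat.card C = 3 → ∃ x ∈ C, x ≠ 1 ∧ x * x * x = 1 ∧
      C = Subgroup.zpowers x := by
    intro C hC
    have hnt : Nontrivial C := by
      rw [← Finite.one_lt_card_iff_nontrivial, hC]; norm_num
    obtain ⟨x, hx⟩ := exists_ne (1 : C)
    have hx1 : (x : G) ≠ 1 := fun hc => hx (Subtype.ext hc)
    have hpow : x ^ 3 = 1 := by rw [← hC]; exact pow_card_eq_one'
    have hpow' : (x : G) ^ 3 = 1 := by
      have := congrArg Subtype.val hpow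
      simpa using this
    have ho : orderOf (x : G) = 3 := orderOf_eq_prime hpow' hx1
    refine ⟨x, x.2, hx1, ?_, ?_⟩
    · rw [← hpow', pow_succ, pow_succ, pow_one]
    · symm
      apply Subgroup.eq_of_le_of_card_ge (Subgroup.zpowers_le.mpr x.2)
      rw [Nat.card_zpowers, ho, hC]
  obtain ⟨x, hxA, hx1, hx3, hAx⟩ := gen A hA3
  obtain ⟨y, hyB, hy1, hy3, hBy⟩ := gen B hB3
  have hx' := Subgroup.mem_inf.mp (hA hxA)
  have hy' := Subgroup.mem_inf.mp (hB hyB)
  obtain ⟨c, hc⟩ : ∃ c : α, x • c ≠ c := by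
    by_contra hcon
    push Not at hcon
    apply hx1
    apply Subtype.ext
    ext w
    exact hcon w
  have hac : a ≠ c := by rintro rfl; exact hc hx'.1
  have hbc : b ≠ c := by rintro rfl; exact hc hx'.2
  have hle : A ≤ B := by
    rw [hAx, Subgroup.zpowers_le]
    rcases core h hab hac hbc x y hx'.1 hx'.2 hx1 hx3 hy'.1 hy'.2 hy1 hy3 with h1 | h1
    · rw [h1]; exact hyB
    · rw [h1]; exact B.mul_mem hyB hyB
  exact Subgroup.eq_of_le_of_card_ge hle (by rw [hA3, hB3])

end Cfsg.Agent.S0728
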