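import Cfsg.Statements.S0733
import Mathlib

set_option autoImplicit false
open Cfsg

namespace Cfsg.Agent.S0733

open MulAction
open scoped Pointwise

/-- A permutation group of affine type — generated by the translations of a finite vector space `V` over `ZMod p` together with a group `G₀` of linear automorphisms — is primitive on `V` if and only if `G₀` is irreducible on `V`. -/
theorem result {p : ℕ} [Fact p.Prime] {V : Type*} [AddCommGroup V] [Module (ZMod p) V] [Finite V] [Nontrivial V] (G₀ : Subgroup (V ≃ₗ[ZMod p] V)) (G : Subgroup (Equiv.Perm V)) (hG : ∀ σ : Equiv.Perm V, σ ∈ G ↔ ∃ g ∈ G₀, ∃ b : V, ∀ x : V, σ x = (g : V ≃ₗ[ZMod p] V) x + b) : MulAction.IsPreprimitive G V ↔ ∀ W : Submodule (ZMod p) V, (∀ g ∈ G₀, ∀ v ∈ W, (g : V ≃ₗ[ZMod p] V) v ∈ W) → W = ⊥ ∨ W = ⊤ := by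
  have htrans : ∀ u : V, Equiv.addRight u ∈ G := fun u =>
    (hG _).2 ⟨1, G₀.one_mem, u, fun x => by simp⟩
  constructor
  · intro hprim W hW
    have hblock : IsBlock G (W : Set V) := by
      rw [isBlock_iff_smul_eq_of_mem]
      rintro ⟨σ, hσ⟩ x hx hσx
      obtain ⟨g, hg, b, hgb⟩ := (hG σ).1 hσ
      have hσx' : σ x ∈ W := hσx
      have hb : b ∈ W := by
        rw [hgb] at hσx'
        exact (W.add_mem_iff_right (hW g hg x hx)).1 hσx'
      ext y
      constructor
      · rintro ⟨z, hz, rfl⟩
        show σ z ∈ W
        rw [hgb]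
        exact W.add_mem (hW g hg z hz) hb
      · intro hy
        refine ⟨(g⁻¹ : V ≃ₗ[ZMod p] V) (y - b), hW _ (G₀.inv_mem hg) _ (W.sub_mem hy hb), ?_⟩
        show σ _ = y
        rw [hgb]
        have : g ((g⁻¹ : V ≃ₗ[ZMod p] V) (y - b)) = y - b := by
          have h1 : (g * g⁻¹ : V ≃ₗ[ZMod p] V) (y - b) = y - b := by
            rw [mul_inv_cancel]; rfl
          exact h1
        rw [this]
        abel
    rcases hprim.isTrivialBlock_of_isBlock hblock with h | h
    · left
      rw [Submodule.eq_bot_iff]
      intro x hx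
      exact h hx W.zero_mem
    · right
      rw [Submodule.eq_top_iff']
      intro x
      have : x ∈ (W : Set V) := by rw [h]; exact Set.mem_univ _
      exact this
  · intro hirr
    have hpre : IsPretransitive G V := by
      constructor
      intro x y
      refine ⟨⟨Equiv.addRight (y - x), htrans _⟩, ?_⟩
      show x + (y - x) = y
      abel
    apply IsPreprimitive.mk
    intro B hB
    rcases B.eq_empty_or_nonempty with h | ⟨a, ha⟩
    · left; rw [h]; exact Set.subsingleton_empty
    rw [isBlock_iff_smul_eq_of_mem] at hB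
    have hstab : ∀ σ ∈ G, ∀ x ∈ B, σ x ∈ B → (∀ y ∈ B, σ y ∈ B) ∧ ∀ y ∈ B, ∃ z ∈ B, σ z = y := by
      intro σ hσ x hx hσx
      have h1 : (⟨σ, hσ⟩ : G) • B = B := hB (g := ⟨σ, hσ⟩) hx hσx
      constructor
      · intro y hy
        have h2 : (⟨σ, hσ⟩ : G) • y ∈ (⟨σ, hσ⟩ : G) • B := Set.smul_mem_smul_set hy
        rw [h1] at h2
        exact h2
      · intro y hy
        rw [← h1] at hy
        obtain ⟨z, hz, hzy⟩ := hy
        exact ⟨z, hz, hzy⟩
    let W₀ : AddSubgroup V :=
      { carrier := {v | a + v ∈ B}
        zero_mem' := by simpa using ha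
        add_mem' := by
          intro u v hu hv
          have hu' : a + u ∈ B := hu
          have hv' : a + v ∈ B := hv
          have := (hstab _ (htrans v) a ha hv').1 _ hu'
          show a + (u + v) ∈ B
          rw [← add_assoc]
          exact this
        neg_mem' := by
          intro u hu
          have hu' : a + u ∈ B := hu
          obtain ⟨z, hz, hza⟩ := (hstab _ (htrans u) a ha hu').2 a ha
          have hza' : z + u = a := hza
          show a + -u ∈ B
          have : a + -u = z := by rw [← hza']; abel
          rw [this]; exact hz }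
    have hW₀ : ∀ v, v ∈ W₀ ↔ a + v ∈ B := fun v => Iff.rfl
    rcases hirr (AddSubgroup.toZModSubmodule p W₀) (by
      intro g hg v hv
      rw [AddSubgroup.mem_toZModSubmodule, hW₀] at hv ⊢
      have hσ : g.toEquiv.trans (Equiv.addRight (a - g a)) ∈ G :=
        (hG _).2 ⟨g, hg, a - g a, fun x => rfl⟩
      have h1 : (g.toEquiv.trans (Equiv.addRight (a - g a))) a = a := by
        show g a + (a - g a) = a
        abel
      have := (hstab _ hσ a ha (by rw [h1]; exact ha)).1 _ hv
      have h2 : (g.toEquiv.trans (Equiv.addRight (a - g a))) (a + v) = a + g v := by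
        show g (a + v) + (a - g a) = a + g v
        rw [map_add]; abel
      rw [h2] at this
      exact this) with h | h
    · left
      have key : ∀ x ∈ B, x = a := by
        intro x hx
        have : x - a ∈ AddSubgroup.toZModSubmodule p W₀ := by
          rw [AddSubgroup.mem_toZModSubmodule, hW₀]
          simpa using hx
        rw [h, Submodule.mem_bot, sub_eq_zero] at this
        exact this
      intro x hx y hy
      rw [key x hx, key y hy]
    · right
      rw [Set.eq_univ_iff_forall]
      intro y
      have : y - a ∈ AddSubgroup.toZModSubmodule p W₀ := by rw [h]; exact Submodule.mem_top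
      rw [AddSubgroup.mem_toZModSubmodule, hW₀] at this
      simpa using this

end Cfsg.Agent.S0733
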