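import Cfsg.Statements.S0734
import Mathlib

set_option autoImplicit false
open Cfsg

namespace Cfsg.Agent.S0734

open MulAction

theorem adj_smul {G : Type*} [Group G] {Ω : Type*} [MulAction G Ω] (a b : Ω) (g : G) {x y : Ω}
    (h : (SimpleGraph.fromRel fun x y : Ω => ∃ g : G, g • a = x ∧ g • b = y).Adj x y) :
    (SimpleGraph.fromRel fun x y : Ω => ∃ g : G, g • a = x ∧ g • b = y).Adj (g • x) (g • y) := by
  rw [SimpleGraph.fromRel_adj] at h ⊢
  refine ⟨fun hc => h.1 (smul_left_cancel g hc), ?_⟩
  rcases h.2 with ⟨k, hk1, hk2⟩ | ⟨k, hk1, hk2⟩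
  · left; exact ⟨g * k, by rw [mul_smul, hk1], by rw [mul_smul, hk2]⟩
  · right; exact ⟨g * k, by rw [mul_smul, hk1], by rw [mul_smul, hk2]⟩

theorem reach_smul {G : Type*} [Group G] {Ω : Type*} [MulAction G Ω] (a b : Ω) (g : G) {x y : Ω}
    (h : (SimpleGraph.fromRel fun x y : Ω => ∃ g : G, g • a = x ∧ g • b = y).Reachable x y) :
    (SimpleGraph.fromRel fun x y : Ω => ∃ g : G, g • a = x ∧ g • b = y).Reachable
      (g • x) (g • y) := by
  obtain ⟨w⟩ := h
  induction w with
  | nil => exact SimpleGraph.Reachable.refl _
  | cons hadj _ ih => exact (adj_smul a b g hadj).reachable.trans ih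

/-- Higman's criterion for primitivity: a transitive action on a finite set is primitive if and only if every non-trivial orbital graph (edges = images of a fixed pair of distinct points) is connected. -/
theorem result {G : Type*} [Group G] {Ω : Type*} [Finite Ω] [MulAction G Ω] [MulAction.IsPretransitive G Ω] [Nontrivial Ω] : MulAction.IsPreprimitive G Ω ↔ ∀ a b : Ω, a ≠ b → (SimpleGraph.fromRel fun x y : Ω => ∃ g : G, g • a = x ∧ g • b = y).Connected := by
  constructor
  · intro hprim a b hab
    set Γ := (SimpleGraph.fromRel fun x y : Ω => ∃ g : G, g • a = x ∧ g • b = y) with hΓ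
    have hblock : IsBlock G {x | Γ.Reachable a x} := by
      rw [isBlock_iff_smul_eq_of_mem]
      intro g x hx hgx
      have hx' : Γ.Reachable a x := hx
      have hgx' : Γ.Reachable a (g • x) := hgx
      have h1 : Γ.Reachable a (g • a) := hgx'.trans (reach_smul a b g hx').symm
      ext y
      rw [Set.mem_smul_set_iff_inv_smul_mem]
      constructor
      · intro hy
        have hy' : Γ.Reachable a (g⁻¹ • y) := hy
        have := reach_smul a b g hy'
        rw [smul_inv_smul] at this
        exact h1.trans this
      · intro hy
        have hy' : Γ.Reachable a y := hy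
        have h2 := reach_smul a b g⁻¹ h1.symm
        rw [inv_smul_smul] at h2
        exact h2.trans (reach_smul a b g⁻¹ hy')
    rcases hprim.isTrivialBlock_of_isBlock hblock with h | h
    · exfalso
      apply hab
      apply h
      · exact SimpleGraph.Reachable.refl _
      · have : Γ.Adj a b := by
          rw [hΓ, SimpleGraph.fromRel_adj]
          exact ⟨hab, Or.inl ⟨1, one_smul _ _, one_smul _ _⟩⟩
        exact this.reachable
    · rw [SimpleGraph.connected_iff_exists_forall_reachable]
      refine ⟨a, fun w => ?_⟩
      have : w ∈ {x | Γ.Reachable a x} := by rw [h]; exact Set.mem_univ _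
      exact this
  · intro hconn
    apply IsPreprimitive.mk
    intro B hB
    rcases B.subsingleton_or_nontrivial with h | h
    · left; exact h
    · right
      obtain ⟨a, ha, b, hb, hab⟩ := h
      have hc := hconn a b hab
      rw [isBlock_iff_smul_eq_of_mem] at hB
      have closed : ∀ x y, (SimpleGraph.fromRel fun x y : Ω => ∃ g : G, g • a = x ∧ g • b = y).Adj
          x y → x ∈ B → y ∈ B := by
        intro x y hadj hx
        rw [SimpleGraph.fromRel_adj] at hadj
        rcases hadj.2 with ⟨k, hk1, hk2⟩ | ⟨k, hk1, hk2⟩
        · have := hB ha (by rw [hk1]; exact hx : k • a ∈ B)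
          rw [← this, ← hk2]
          exact Set.smul_mem_smul_set hb
        · have := hB hb (by rw [hk2]; exact hx : k • b ∈ B)
          rw [← this, ← hk1]
          exact Set.smul_mem_smul_set ha
      have walk : ∀ x y, (SimpleGraph.fromRel fun x y : Ω => ∃ g : G, g • a = x ∧ g • b = y).Walk
          x y → x ∈ B → y ∈ B := by
        intro x y w
        induction w with
        | nil => exact id
        | cons hadj _ ih => exact fun hx => ih (closed _ _ hadj hx)
      rw [Set.eq_univ_iff_forall]
      intro y
      obtain ⟨w⟩ := hc.preconnected a y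
      exact walk a y w ha

end Cfsg.Agent.S0734
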