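import Cfsg.Statements.S0736
import Mathlib

set_option autoImplicit false
open Cfsg

namespace Cfsg.Agent.S0736

open scoped Pointwise
open Finset

/-- Lucas: `C(p^a j + p^a - 1, p^a j)` is prime to `p`. -/
theorem not_dvd_choose {p : ℕ} (hp : p.Prime) (a : ℕ) :
    ∀ j : ℕ, ¬ p ∣ Nat.choose (p ^ a * j + (p ^ a - 1)) (p ^ a * j) := by
  have : Fact p.Prime := ⟨hp⟩
  induction a with
  | zero =>
    intro j
    simp only [pow_zero, one_mul, Nat.sub_self, add_zero, Nat.choose_self, Nat.dvd_one]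
    exact hp.ne_one
  | succ a ih =>
    intro j h
    apply ih j
    have e1 : p ^ (a + 1) * j + (p ^ (a + 1) - 1) = p * (p ^ a * j + (p ^ a - 1)) + (p - 1) := by
      obtain ⟨c, hc⟩ : ∃ c, p ^ a = c + 1 := ⟨p ^ a - 1, by have := pow_pos hp.pos a; omega⟩
      obtain ⟨d, rfl⟩ : ∃ d, p = d + 1 := ⟨p - 1, by have := hp.pos; omega⟩
      rw [pow_succ, hc]
      have : (c + 1) * (d + 1) - 1 = (d + 1) * c + d := by
        have : (c + 1) * (d + 1) = (d + 1) * c + d + 1 := by ring
        omega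
      rw [this]
      simp only [Nat.add_sub_cancel]
      ring
    have e2 : p ^ (a + 1) * j = p * (p ^ a * j) := by ring
    have hlt : p - 1 < p := by have := hp.pos; omega
    have h1 := Choose.choose_modEq_choose_mod_mul_choose_div_nat
      (n := p ^ (a + 1) * j + (p ^ (a + 1) - 1)) (k := p ^ (a + 1) * j) (p := p)
    rw [e1, e2, Nat.mul_add_mod, Nat.mod_eq_of_lt hlt, Nat.mul_mod_right, Nat.choose_zero_right,
      one_mul, Nat.mul_add_div hp.pos, Nat.div_eq_of_lt hlt, add_zero,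
      Nat.mul_div_cancel_left _ hp.pos] at h1
    rw [e1, e2] at h
    exact (Nat.modEq_zero_iff_dvd.1 (h1.symm.trans (Nat.modEq_zero_iff_dvd.2 h)))

theorem choose_pred (k : ℕ) (hk : 1 ≤ k) : k.choose (k - 1) = k := by
  obtain ⟨c, rfl⟩ : ∃ c, k = c + 1 := ⟨k - 1, by omega⟩
  simp

variable {α : Type*} [DecidableEq α]

/-- number of `k`-subsets of `S` containing a given `(k-1)`-subset. -/
theorem card_above (S D : Finset α) (k : ℕ) (hD : D ⊆ S) (hDc : D.card + 1 = k) :
    ((S.powersetCard k).filter (fun Γ => D ⊆ Γ)).card = S.card - D.card := by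
  have : (S.powersetCard k).filter (fun Γ => D ⊆ Γ) = (S \ D).image (fun ω => insert ω D) := by
    ext Γ
    simp only [mem_filter, mem_powersetCard, mem_image, mem_sdiff]
    constructor
    · rintro ⟨⟨hΓS, hΓc⟩, hDΓ⟩
      have h1 : (Γ \ D).card = 1 := by
        rw [card_sdiff_of_subset hDΓ]; omega
      obtain ⟨ω, hω⟩ := card_eq_one.1 h1
      have hω' : ω ∈ Γ \ D := by rw [hω]; exact mem_singleton_self _
      refine ⟨ω, ⟨hΓS (mem_sdiff.1 hω').1, (mem_sdiff.1 hω').2⟩, ?_⟩
      rw [insert_eq, ← hω]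
      exact sdiff_union_of_subset hDΓ
    · rintro ⟨ω, ⟨hωS, hωD⟩, rfl⟩
      refine ⟨⟨insert_subset hωS hD, ?_⟩, subset_insert _ _⟩
      rw [card_insert_of_notMem hωD, hDc]
  rw [this, card_image_of_injOn, card_sdiff_of_subset hD]
  intro ω hω ω' hω' h
  simp only [coe_sdiff, Set.mem_sdiff, mem_coe] at hω hω'
  have h1 : ω ∈ insert ω' D := by
    have : ω ∈ insert ω D := mem_insert_self _ _
    rwa [show insert ω D = insert ω' D from h] at this
  rcases mem_insert.1 h1 with h2 | h2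
  · exact h2
  · exact absurd h2 hω.2

/-- A `k`-homogeneous permutation group of degree `n`, `k ≥ 2`, with `k + q - 1 ≤ n` for every prime power `q` dividing `k`, is `(k-1)`-homogeneous. -/
theorem result {α : Type*} [Fintype α] [DecidableEq α] (G : Subgroup (Equiv.Perm α)) {k : ℕ} (hk : 2 ≤ k) (hG : MulAction.IsPretransitive G (Set.powersetCard α k)) (hq : ∀ q : ℕ, IsPrimePow q → q ∣ k → k + q - 1 ≤ Fintype.card α) : MulAction.IsPretransitive G (Set.powersetCard α (k - 1)) := by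
  classical
  have hhom : ∀ s t : Finset α, s.card = k → t.card = k → ∃ g ∈ G, g • s = t := by
    intro s t hs ht
    obtain ⟨g, hg⟩ := hG.exists_smul_eq (⟨s, hs⟩ : Set.powersetCard α k) ⟨t, ht⟩
    refine ⟨g, g.2, ?_⟩
    rw [Subgroup.smul_def] at hg
    have := congrArg Subtype.val hg
    rw [Set.powersetCard.coe_smul] at this
    exact this
  -- degree at least k + 1
  obtain ⟨p0, hp0, hp0k⟩ := Nat.exists_prime_and_dvd (show k ≠ 1 by omega)
  have hkn : k + 1 ≤ Fintype.card α := by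
    have := hq p0 hp0.isPrimePow hp0k
    have := hp0.two_le
    omega
  constructor
  rintro ⟨Δ0, hΔ0⟩ ⟨Δ1, hΔ1⟩
  rw [Set.powersetCard.mem_iff] at hΔ0 hΔ1
  set InO : Finset α → Prop := fun Δ => ∃ g ∈ G, g • Δ0 = Δ with hInO
  have hInOsmul : ∀ g ∈ G, ∀ Δ, InO Δ → InO (g • Δ) := by
    rintro g hg Δ ⟨h, hh, rfl⟩
    exact ⟨g * h, G.mul_mem hg hh, by rw [mul_smul]⟩
  set m : Finset α → ℕ := fun Γ => ((Γ.powersetCard (k - 1)).filter InO).card with hm
  have hmle : ∀ g ∈ G, ∀ Γ, m Γ ≤ m (g • Γ) := by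
    intro g hgG Γ
    apply card_le_card_of_injOn (fun Δ => g • Δ)
    · intro Δ hΔ
      simp only [coe_filter, mem_powersetCard, Set.mem_ofPred_eq] at hΔ ⊢
      exact ⟨⟨smul_finset_subset_smul_finset hΔ.1.1, by rw [card_smul_finset]; exact hΔ.1.2⟩,
        hInOsmul g hgG Δ hΔ.2⟩
    · intro Δ _ Δ' _ h
      exact smul_left_cancel g h
  have hmconst : ∀ Γ Γ' : Finset α, Γ.card = k → Γ'.card = k → m Γ = m Γ' := by
    intro Γ Γ' h h'
    obtain ⟨g, hgG, rfl⟩ := hhom Γ Γ' h h'
    apply le_antisymm (hmle g hgG Γ)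
    have := hmle g⁻¹ (G.inv_mem hgG) (g • Γ)
    rwa [inv_smul_smul] at this
  -- a k-set containing Δ0
  obtain ⟨Γ0, hΓ0sub, -, hΓ0c⟩ := exists_subsuperset_card_eq (subset_univ Δ0)
    (show Δ0.card ≤ k by omega) (show k ≤ (univ : Finset α).card by rw [card_univ]; omega)
  have hm0pos : 0 < m Γ0 := by
    rw [hm]
    apply card_pos.2
    exact ⟨Δ0, by simp only [mem_filter, mem_powersetCard]; exact ⟨⟨hΓ0sub, hΔ0⟩, 1, G.one_mem, one_smul _ _⟩⟩
  have hm0le : m Γ0 ≤ k := by
    rw [hm]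
    refine (card_filter_le _ _).trans ?_
    rw [card_powersetCard, hΓ0c, choose_pred k (by omega)]
  -- divisibility
  have hdvd : k ∣ m Γ0 := by
    rw [← Nat.factorization_prime_le_iff_dvd (by omega) hm0pos.ne']
    intro p hp
    rw [← hp.pow_dvd_iff_le_factorization hm0pos.ne']
    by_cases hpk : p ∣ k
    · set a := k.factorization p with ha
      have ha0 : a ≠ 0 := by
        rw [ha]
        exact (hp.factorization_pos_of_dvd (by omega) hpk).ne'
      have hqk : p ^ a ∣ k := Nat.ordProj_dvd k p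
      obtain ⟨j, hj⟩ := hqk
      have hqpos : 0 < p ^ a := pow_pos hp.pos a
      have hn := hq (p ^ a) (hp.isPrimePow.pow ha0) ⟨j, hj⟩
      obtain ⟨S, -, hSc⟩ := exists_subset_card_eq
        (show k + p ^ a - 1 ≤ (univ : Finset α).card by rw [card_univ]; exact hn)
      have hcount := card_mul_eq_card_mul (s := (S.powersetCard (k - 1)).filter InO)
        (t := S.powersetCard k) (fun Δ Γ => Δ ⊆ Γ) (m := p ^ a) (n := m Γ0) ?_ ?_
      · rw [card_powersetCard, hSc] at hcount
        have hcop : Nat.Coprime (p ^ a) ((k + p ^ a - 1).choose k) := by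
          apply Nat.Coprime.pow_left
          rw [hp.coprime_iff_not_dvd]
          have := not_dvd_choose hp a j
          rw [← hj] at this
          rwa [Nat.add_sub_assoc hqpos]
        exact hcop.dvd_of_dvd_mul_left (Dvd.intro_left _ hcount)
      · intro Δ hΔ
        simp only [mem_filter, mem_powersetCard] at hΔ
        unfold bipartiteAbove
        rw [card_above S Δ k hΔ.1.1 (by omega), hSc, hΔ.1.2]
        omega
      · intro Γ hΓ
        simp only [mem_powersetCard] at hΓ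
        rw [hmconst Γ0 Γ hΓ0c hΓ.2]
        unfold bipartiteBelow
        rw [hm]
        congr 1
        ext Δ
        simp only [mem_filter, mem_powersetCard]
        constructor
        · rintro ⟨⟨⟨_, h2⟩, h3⟩, h4⟩
          exact ⟨⟨h4, h2⟩, h3⟩
        · rintro ⟨⟨h1, h2⟩, h3⟩
          exact ⟨⟨⟨h1.trans hΓ.1, h2⟩, h3⟩, h1⟩
    · rw [Nat.factorization_eq_zero_of_not_dvd hpk, pow_zero]
      exact one_dvd _
  have hm0 : m Γ0 = k := le_antisymm hm0le (Nat.le_of_dvd hm0pos hdvd)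
  -- conclude
  obtain ⟨Γ1, hΓ1sub, -, hΓ1c⟩ := exists_subsuperset_card_eq (subset_univ Δ1)
    (show Δ1.card ≤ k by omega) (show k ≤ (univ : Finset α).card by rw [card_univ]; omega)
  have hm1 : m Γ1 = k := by rw [← hmconst Γ0 Γ1 hΓ0c hΓ1c, hm0]
  have hfull : (Γ1.powersetCard (k - 1)).filter InO = Γ1.powersetCard (k - 1) := by
    apply eq_of_subset_of_card_le (filter_subset _ _)
    rw [card_powersetCard, hΓ1c, choose_pred k (by omega)]
    exact hm1.ge
  have hΔ1mem : Δ1 ∈ (Γ1.powersetCard (k - 1)).filter InO := by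
    rw [hfull, mem_powersetCard]
    exact ⟨hΓ1sub, hΔ1⟩
  obtain ⟨g, hgG, hg⟩ := (mem_filter.1 hΔ1mem).2
  refine ⟨⟨g, hgG⟩, ?_⟩
  rw [Subgroup.smul_def]
  apply Subtype.ext
  rw [Set.powersetCard.coe_smul]
  exact hg

end Cfsg.Agent.S0736
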