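import Cfsg.Statements.S0735
import Cfsg.Agent.S0736
import Mathlib

set_option autoImplicit false
open Cfsg

namespace Cfsg.Agent.S0735

open scoped Pointwise
open MulAction

theorem pair_cases {α : Type*} [DecidableEq α] (g : Equiv.Perm α) {a b c d : α} (hab : a ≠ b)
    (h : g • ({a, b} : Finset α) = {c, d}) : (g a = c ∧ g b = d) ∨ (g a = d ∧ g b = c) := by
  have ha : g a ∈ ({c, d} : Finset α) := by
    rw [← h]
    exact Finset.smul_mem_smul_finset (a := g) (by simp : a ∈ ({a, b} : Finset α))
  have hb : g b ∈ ({c, d} : Finset α) := by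
    rw [← h]
    exact Finset.smul_mem_smul_finset (a := g) (by simp : b ∈ ({a, b} : Finset α))
  have hne : g a ≠ g b := fun h => hab (g.injective h)
  simp only [Finset.mem_insert, Finset.mem_singleton] at ha hb
  rcases ha with ha | ha <;> rcases hb with hb | hb
  · exact absurd (ha.trans hb.symm) hne
  · exact Or.inl ⟨ha, hb⟩
  · exact Or.inr ⟨ha, hb⟩
  · exact absurd (ha.trans hb.symm) hne

/-- A 2-homogeneous permutation group (transitive on 2-subsets) of even order is doubly transitive; a non-trivial 2-homogeneous group is primitive. -/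
theorem result {α : Type*} [Fintype α] [DecidableEq α] (G : Subgroup (Equiv.Perm α)) (h2 : MulAction.IsPretransitive G (Set.powersetCard α 2)) (hα : 3 ≤ Fintype.card α) : (Even (Nat.card G) → MulAction.IsMultiplyPretransitive G α 2) ∧ (G ≠ ⊥ → MulAction.IsPreprimitive G α) := by
  have hhom : ∀ a b c d : α, a ≠ b → c ≠ d → ∃ g ∈ G, (g a = c ∧ g b = d) ∨ (g a = d ∧ g b = c) := by
    intro a b c d hab hcd
    obtain ⟨g, hg⟩ := h2.exists_smul_eq
      (⟨{a, b}, Finset.card_pair hab⟩ : Set.powersetCard α 2) ⟨{c, d}, Finset.card_pair hcd⟩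
    refine ⟨g, g.2, ?_⟩
    rw [Subgroup.smul_def] at hg
    have := congrArg Subtype.val hg
    rw [Set.powersetCard.coe_smul] at this
    exact pair_cases _ hab this
  constructor
  · intro heven
    have : Fact (Nat.Prime 2) := ⟨Nat.prime_two⟩
    obtain ⟨t, ht⟩ := exists_prime_orderOf_dvd_card' (G := G) 2 heven.two_dvd
    have ht1 : (t : Equiv.Perm α) ≠ 1 := by
      intro h
      have : t = 1 := Subtype.ext h
      rw [this, orderOf_one] at ht
      norm_num at ht
    obtain ⟨a, ha⟩ : ∃ a, (t : Equiv.Perm α) a ≠ a := by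
      by_contra hcon
      push Not at hcon
      exact ht1 (Equiv.ext hcon)
    have ht2 : (t : Equiv.Perm α) ((t : Equiv.Perm α) a) = a := by
      have h1 : t ^ 2 = 1 := by rw [← ht]; exact pow_orderOf_eq_one t
      have h3 : ((t : Equiv.Perm α)) ^ 2 = 1 := by
        have := congrArg Subtype.val h1
        simpa using this
      have := congrArg (fun σ : Equiv.Perm α => σ a) h3
      simpa [pow_two] using this
    set b := (t : Equiv.Perm α) a with hb
    have key : ∀ c d : α, c ≠ d → ∃ g ∈ G, g a = c ∧ g b = d := by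
      intro c d hcd
      obtain ⟨g, hg, h | h⟩ := hhom a b c d (Ne.symm ha) hcd
      · exact ⟨g, hg, h⟩
      · refine ⟨g * t, G.mul_mem hg t.2, ?_, ?_⟩
        · rw [Equiv.Perm.mul_apply, ← hb, h.2]
        · rw [Equiv.Perm.mul_apply, ht2, h.1]
    rw [is_two_pretransitive_iff]
    intro x y c d hxy hcd
    obtain ⟨g1, hg1, h1a, h1b⟩ := key x y hxy
    obtain ⟨g2, hg2, h2a, h2b⟩ := key c d hcd
    refine ⟨⟨g2 * g1⁻¹, G.mul_mem hg2 (G.inv_mem hg1)⟩, ?_, ?_⟩
    · change (g2 * g1⁻¹) x = c
      rw [Equiv.Perm.mul_apply, ← h1a]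
      simpa using h2a
    · change (g2 * g1⁻¹) y = d
      rw [Equiv.Perm.mul_apply, ← h1b]
      simpa using h2b
  · intro _
    have h1 : IsPretransitive G (Set.powersetCard α (2 - 1)) := by
      apply Cfsg.Agent.S0736.result G le_rfl h2
      intro q _ hq
      have := Nat.le_of_dvd (by norm_num) hq
      omega
    have htr : IsPretransitive G α := by
      constructor
      intro x y
      obtain ⟨g, hg⟩ := h1.exists_smul_eq
        (⟨{x}, Finset.card_singleton x⟩ : Set.powersetCard α (2 - 1)) ⟨{y}, Finset.card_singleton y⟩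
      refine ⟨g, ?_⟩
      rw [Subgroup.smul_def] at hg
      have := congrArg Subtype.val hg
      rw [Set.powersetCard.coe_smul] at this
      have h5 : (g : Equiv.Perm α) x = y := by simpa using this
      exact h5
    apply IsPreprimitive.mk
    intro B hB
    rcases B.subsingleton_or_nontrivial with h | h
    · left; exact h
    · right
      obtain ⟨a, ha, b, hb, hab⟩ := h
      rw [← Set.top_eq_univ, eq_top_iff]
      intro c _
      by_cases hac : a = c
      · rw [← hac]; exact ha
      · rw [MulAction.isBlock_iff_smul_eq_of_mem] at hB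
        obtain ⟨g, hg, h | h⟩ := hhom a b a c hab hac
        · have h3 := hB (g := ⟨g, hg⟩) ha (by change g a ∈ B; rw [h.1]; exact ha)
          rw [← h3, ← h.2]
          exact Set.smul_mem_smul_set (a := (⟨g, hg⟩ : G)) hb
        · have h3 := hB (g := ⟨g, hg⟩) hb (by change g b ∈ B; rw [h.2]; exact ha)
          rw [← h3, ← h.1]
          exact Set.smul_mem_smul_set (a := (⟨g, hg⟩ : G)) ha

end Cfsg.Agent.S0735
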