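import Cfsg.Statements.S0738
import Cfsg.Agent.Lib.Helper16Trans
import Mathlib

set_option autoImplicit false
open Cfsg

namespace Cfsg.Agent.S0738

open MulAction Cfsg.Agent.Lib.Helper16Trans

variable {G Ω : Type*} [Group G] [Finite G] [MulAction G Ω] [Fintype Ω]

theorem dvd_ncard
    (h3 : ∀ g : G, ∀ a b c : Ω, a ≠ b → b ≠ c → a ≠ c → g • a = a → g • b = b → g • c = c → g = 1)
    {a b : Ω} (hab : a ≠ b) (F : Subgroup G) (hFa : ∀ u ∈ F, u • a = a)
    (hinj : ∀ u ∈ F, ∀ v ∈ F, u • b = v • b → u = v) (S : Set G) (hSF : S ⊆ F) (h1 : (1 : G) ∉ S)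
    (hinv : ∀ h ∈ stabilizer G a ⊓ stabilizer G b, ∀ u ∈ S, h * u * h⁻¹ ∈ S) :
    Nat.card ↥(stabilizer G a ⊓ stabilizer G b) ∣ S.ncard := by
  have e : ((fun u : G => u • b) '' S).ncard = S.ncard := by
    apply Set.ncard_image_of_injOn
    intro u hu v hv huv
    exact hinj u (hSF hu) v (hSF hv) huv
  rw [← e]
  apply dvd_ncard_of_invariant (H := ↥(stabilizer G a ⊓ stabilizer G b))
  · rintro h _ ⟨u, hu, rfl⟩
    refine ⟨h * u * (h : G)⁻¹, hinv h h.2 u hu, ?_⟩
    have hb : (h : G) • b = b := (Subgroup.mem_inf.1 h.2).2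
    have hb' : (h : G)⁻¹ • b = b := by rw [inv_smul_eq_iff, hb]
    show ((h : G) * u * (h : G)⁻¹) • b = (h : G) • u • b
    rw [mul_smul, mul_smul, hb']
  · rintro _ ⟨u, hu, rfl⟩
    have hst : stabilizer ↥(stabilizer G a ⊓ stabilizer G b) (u • b) = ⊥ := by
      rw [Subgroup.eq_bot_iff_forall]
      intro h hh
      have hh' : (h : G) • u • b = u • b := hh
      have ha : (h : G) • a = a := (Subgroup.mem_inf.1 h.2).1
      have hb : (h : G) • b = b := (Subgroup.mem_inf.1 h.2).2
      apply Subtype.ext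
      refine h3 h a b (u • b) hab ?_ ?_ ha hb hh'
      · intro hc
        apply h1
        have := hinj 1 F.one_mem u (hSF hu) (by rw [one_smul]; exact hc)
        rw [this]; exact hu
      · intro hc
        apply hab
        have h2 := hFa u (hSF hu)
        rw [← h2] at hc
        exact smul_left_cancel u hc
    rw [← index_stabilizer, hst, Subgroup.index_bot]

theorem orderOf_conj' (h u : G) : orderOf (h * u * h⁻¹) = orderOf u := by
  have := (MulAut.conj h).orderOf_eq u
  rwa [MulAut.conj_apply] at this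

/-- Let a finite Zassenhaus group of degree `n + 1` have two-point stabilisers of order `d` with `2d ≥ n - 1`. Then a normal subgroup of a point stabiliser acting regularly on the remaining points is elementary abelian, and the degree is a prime power plus one. -/
theorem result {G Ω : Type*} [Group G] [Finite G] [MulAction G Ω] [Fintype Ω] (hZ : Cfsg.IsZassenhausGroup G Ω) {a b : Ω} (hab : a ≠ b) (hd : Fintype.card Ω - 2 ≤ 2 * Nat.card ↥(MulAction.stabilizer G a ⊓ MulAction.stabilizer G b)) (F : Subgroup G) (hFle : F ≤ MulAction.stabilizer G a) (hFn : (F.subgroupOf (MulAction.stabilizer G a)).Normal) (hreg : ∀ y z : Ω, y ≠ a → z ≠ a → ∃! u : F, (u : G) • y = z) : IsMulCommutative F ∧ ∃ p f : ℕ, p.Prime ∧ (∀ u ∈ F, u ^ p = 1) ∧ Fintype.card Ω = p ^ f + 1 := by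
  classical
  obtain ⟨hf, h2, h3, ⟨g₀, hg₀, x₀, y₀, hxy₀, hgx₀, hgy₀⟩, -⟩ := hZ
  set H := stabilizer G a ⊓ stabilizer G b with hH
  set d := Nat.card H with hdd
  have hdpos : 0 < d := Nat.card_pos
  have hFa : ∀ u ∈ F, u • a = a := fun u hu => hFle hu
  have hinj : ∀ u ∈ F, ∀ v ∈ F, u • b = v • b → u = v := by
    intro u hu v hv huv
    have hne : v • b ≠ a := by
      intro hc
      rw [← hFa v hv] at hc
      exact hab (smul_left_cancel v hc).symm
    obtain ⟨w, -, hw⟩ := hreg b (v • b) hab.symm hne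
    have e1 := hw ⟨u, hu⟩ huv
    have e2 := hw ⟨v, hv⟩ rfl
    have := e1.trans e2.symm
    exact congrArg Subtype.val this
  have hconj : ∀ h ∈ H, ∀ u ∈ F, h * u * h⁻¹ ∈ F := by
    intro h hh u hu
    have hha : h ∈ stabilizer G a := (Subgroup.mem_inf.1 hh).1
    have := hFn.conj_mem ⟨u, hFle hu⟩ (Subgroup.mem_subgroupOf.2 hu) ⟨h, hha⟩
    rw [Subgroup.mem_subgroupOf] at this
    exact this
  have K0 := fun S hSF h1 hinv => dvd_ncard h3 hab F hFa hinj S hSF h1 hinv
  set n := Nat.card F with hn
  -- the degree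
  have hcard : n + 1 = Fintype.card Ω := by
    have e1 : ((fun u : G => u • b) '' (F : Set G)).ncard = n := by
      rw [Set.ncard_image_of_injOn (fun u hu v hv huv => hinj u hu v hv huv)]
      rfl
    have e2 : (fun u : G => u • b) '' (F : Set G) = {a}ᶜ := by
      ext y
      constructor
      · rintro ⟨u, hu, rfl⟩ hc
        have hc' : u • b = a := hc
        rw [← hFa u hu] at hc'
        exact hab (smul_left_cancel u hc').symm
      · intro hy
        obtain ⟨w, hw, -⟩ := hreg b y hab.symm hy
        exact ⟨w, w.2, hw⟩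
    have e3 := Set.ncard_add_ncard_compl ({a} : Set Ω)
    rw [← e2, e1, Set.ncard_singleton, Nat.card_eq_fintype_card] at e3
    omega
  have hΩ3 : 3 ≤ Fintype.card Ω := by
    obtain ⟨c, hc⟩ : ∃ c : Ω, g₀ • c ≠ c := by
      by_contra hcon
      push Not at hcon
      apply hg₀
      apply hf.eq_of_smul_eq_smul
      intro x
      rw [hcon x, one_smul]
    have h1 : ({x₀, y₀, c} : Finset Ω).card = 3 := by
      rw [Finset.card_eq_three]
      exact ⟨x₀, y₀, c, hxy₀, fun h => hc (h ▸ hgx₀), fun h => hc (h ▸ hgy₀), rfl⟩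
    rw [← h1]
    exact Finset.card_le_univ _
  have hn2 : 2 ≤ n := by omega
  have hnd : n - 1 ≤ 2 * d := by omega
  have hcardF1 : ((F : Set G) \ {1}).ncard = n - 1 := by
    rw [Set.ncard_diff_singleton_of_mem F.one_mem]
    rfl
  have hdn : d ∣ n - 1 := by
    rw [← hcardF1]
    apply K0 _ Set.diff_subset (by simp)
    rintro h hh u ⟨hu, hu1⟩
    refine ⟨hconj h hh u hu, fun hc => hu1 ?_⟩
    have hc' : h * u * h⁻¹ = 1 := hc
    have : u = 1 := by
      have e : u = h⁻¹ * (h * u * h⁻¹) * h := by group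
      rw [e, hc']; group
    exact this
  have hnd' : n - 1 = d ∨ n - 1 = 2 * d := by
    obtain ⟨j, hj⟩ := hdn
    have hj2 : j ≤ 2 := by
      have : d * j ≤ d * 2 := by rw [← hj]; omega
      exact Nat.le_of_mul_le_mul_left this hdpos
    interval_cases j
    · omega
    · left; omega
    · right; omega
  -- invariant subgroups
  have K : ∀ M : Subgroup G, M ≤ F → M ≠ ⊥ → (∀ h ∈ H, ∀ u ∈ M, h * u * h⁻¹ ∈ M) → M = F := by
    intro M hMF hM hMinv
    have hc1 : ((M : Set G) \ {1}).ncard = Nat.card M - 1 := by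
      rw [Set.ncard_diff_singleton_of_mem M.one_mem]
      rfl
    have hdM : d ∣ Nat.card M - 1 := by
      rw [← hc1]
      apply K0 _ (Set.diff_subset.trans hMF) (by simp)
      rintro h hh u ⟨hu, hu1⟩
      refine ⟨hMinv h hh u hu, fun hc => hu1 ?_⟩
      have hc' : h * u * h⁻¹ = 1 := hc
      have : u = 1 := by
        have e : u = h⁻¹ * (h * u * h⁻¹) * h := by group
        rw [e, hc']; group
      exact this
    have hM1 : 1 < Nat.card M := by
      rw [Finite.one_lt_card_iff_nontrivial]
      exact (Subgroup.nontrivial_iff_ne_bot M).2 hM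
    have hMdvd : Nat.card M ∣ n := Subgroup.card_dvd_of_le hMF
    have hMle : Nat.card M ≤ n := Nat.le_of_dvd (by omega) hMdvd
    apply Subgroup.eq_of_le_of_card_ge hMF
    obtain ⟨i, hi⟩ := hdM
    have hi0 : i ≠ 0 := by
      rintro rfl
      omega
    have hdi : d ≤ d * i := Nat.le_mul_of_pos_right d (Nat.pos_of_ne_zero hi0)
    rcases hnd' with h | h
    · show n ≤ Nat.card M
      omega
    · show n ≤ Nat.card M
      by_contra hlt
      have hi1 : i = 1 := by
        have : d * i < d * 2 := by omega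
        have := Nat.lt_of_mul_lt_mul_left this
        omega
      subst hi1
      have e1 : Nat.card M = d + 1 := by omega
      have e2 : n = 2 * d + 1 := by omega
      rw [e1, e2] at hMdvd
      have h5 : d + 1 ∣ 2 * (d + 1) := Dvd.intro_left 2 rfl
      have h6 := (Nat.dvd_sub h5 hMdvd)
      have e3 : 2 * (d + 1) - (2 * d + 1) = 1 := by omega
      rw [e3] at h6
      have := Nat.le_of_dvd one_pos h6
      omega
  -- `F` is a `p`-group
  obtain ⟨p, hp, hpn⟩ := Nat.exists_prime_and_dvd (show n ≠ 1 by omega)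
  have hE : ∀ r : ℕ, r.Prime → r ∣ n → d ∣ {u : G | u ∈ F ∧ orderOf u = r}.ncard ∧
      0 < {u : G | u ∈ F ∧ orderOf u = r}.ncard := by
    intro r hr hrn
    constructor
    · apply K0 _ (fun u hu => hu.1)
      · rintro ⟨-, h⟩
        rw [orderOf_one] at h
        exact hr.one_lt.ne h
      · rintro h hh u ⟨hu, hur⟩
        exact ⟨hconj h hh u hu, by rw [orderOf_conj', hur]⟩
    · have : Fact r.Prime := ⟨hr⟩
      obtain ⟨x, hx⟩ := exists_prime_orderOf_dvd_card' (G := ↥F) r hrn
      rw [Set.ncard_pos (Set.toFinite _)]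
      exact ⟨x, x.2, by rw [Subgroup.orderOf_coe, hx]⟩
  have huniq : ∀ q : ℕ, q.Prime → q ∣ n → q = p := by
    intro q hq hqn
    by_contra hqp
    obtain ⟨hp1, hp2⟩ := hE p hp hpn
    obtain ⟨hq1, hq2⟩ := hE q hq hqn
    have hp3 := Nat.le_of_dvd hp2 hp1
    have hq3 := Nat.le_of_dvd hq2 hq1
    have hdisj : Disjoint {u : G | u ∈ F ∧ orderOf u = p} {u : G | u ∈ F ∧ orderOf u = q} := by
      rw [Set.disjoint_left]
      rintro u ⟨-, h1⟩ ⟨-, h2⟩
      exact hqp (h2.symm.trans h1)
    have hun := Set.ncard_union_eq hdisj (Set.toFinite _) (Set.toFinite _)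
    have hsub : {u : G | u ∈ F ∧ orderOf u = p} ∪ {u : G | u ∈ F ∧ orderOf u = q}
        ⊆ (F : Set G) \ {1} := by
      rintro u (⟨hu, h1⟩ | ⟨hu, h1⟩)
      · refine ⟨hu, fun hc => ?_⟩
        have hc' : u = 1 := hc
        rw [hc', orderOf_one] at h1
        exact hp.one_lt.ne h1
      · refine ⟨hu, fun hc => ?_⟩
        have hc' : u = 1 := hc
        rw [hc', orderOf_one] at h1
        exact hq.one_lt.ne h1
    have hle := Set.ncard_le_ncard hsub (Set.toFinite _)
    rw [hcardF1] at hle
    have heq := Set.eq_of_subset_of_ncard_le hsub (by rw [hcardF1]; omega) (Set.toFinite _)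
    have hpd : {u : G | u ∈ F ∧ orderOf u = p}.ncard = d := by omega
    have hall : ∀ u ∈ F, u ≠ 1 → orderOf u = p ∨ orderOf u = q := by
      intro u hu hu1
      have : u ∈ (F : Set G) \ {1} := ⟨hu, hu1⟩
      rw [← heq] at this
      rcases this with h | h
      · left; exact h.2
      · right; exact h.2
    -- an element of order q acting by conjugation
    have : Fact q.Prime := ⟨hq⟩
    obtain ⟨y', hy'⟩ := exists_prime_orderOf_dvd_card' (G := ↥F) q hqn
    obtain ⟨y, hyF, hy⟩ : ∃ y : G, y ∈ F ∧ orderOf y = q :=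
      ⟨y', y'.2, by rw [Subgroup.orderOf_coe, hy']⟩
    have hKp : IsPGroup q (Subgroup.zpowers (ConjAct.toConjAct y)) := by
      apply IsPGroup.of_card (n := 1)
      rw [Nat.card_zpowers, pow_one]
      exact ((ConjAct.toConjAct (G := G)).orderOf_eq y).trans hy
    have hqd : q ∣ {u : G | u ∈ F ∧ orderOf u = p}.ncard := by
      apply dvd_ncard_of_invariant (H := ↥(Subgroup.zpowers (ConjAct.toConjAct y)))
      · rintro ⟨c, hc⟩ u ⟨hu, hup⟩
        obtain ⟨k, rfl⟩ := Subgroup.mem_zpowers_iff.1 hc
        show (ConjAct.toConjAct y ^ k) • u ∈ _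
        rw [← map_zpow, ConjAct.toConjAct_smul]
        exact ⟨F.mul_mem (F.mul_mem (F.zpow_mem hyF k) hu) (F.inv_mem (F.zpow_mem hyF k)),
          by rw [orderOf_conj', hup]⟩
      · rintro x ⟨hx, hxp⟩
        obtain ⟨k, hk⟩ := hKp.card_orbit x
        rw [← Nat.card_coe_set_eq, hk]
        rcases Nat.eq_zero_or_pos k with rfl | hpos
        · exfalso
          have hfix : x ∈ fixedPoints (Subgroup.zpowers (ConjAct.toConjAct y)) G := by
            have : Fintype (orbit (↥(Subgroup.zpowers (ConjAct.toConjAct y))) x) :=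
              Fintype.ofFinite _
            rw [mem_fixedPoints_iff_card_orbit_eq_one, ← Nat.card_eq_fintype_card, hk, pow_zero]
          have h1 := hfix ⟨ConjAct.toConjAct y, Subgroup.mem_zpowers _⟩
          have h2 : ConjAct.toConjAct y • x = x := h1
          rw [ConjAct.toConjAct_smul] at h2
          have hcomm : Commute x y := by
            have : y * x = x * y := by
              calc y * x = (y * x * y⁻¹) * y := by group
                _ = x * y := by rw [h2]
            exact this.symm
          have hord := hcomm.orderOf_mul_eq_mul_orderOf_of_coprime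
            (by rw [hxp, hy]; exact (Nat.coprime_primes hp hq).2 (Ne.symm hqp))
          rw [hxp, hy] at hord
          have hne1 : x * y ≠ 1 := by
            intro hc
            rw [hc, orderOf_one] at hord
            have := Nat.mul_le_mul hp.two_le hq.two_le
            omega
          rcases hall _ (F.mul_mem hx hyF) hne1 with h | h
          · rw [h] at hord
            have := hq.one_lt
            have h9 : p * 1 = p * q := by rw [mul_one]; exact hord
            have := Nat.eq_of_mul_eq_mul_left hp.pos h9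
            omega
          · rw [h] at hord
            have := hp.one_lt
            have h9 : 1 * q = p * q := by rw [one_mul]; exact hord
            have := Nat.eq_of_mul_eq_mul_right hq.pos h9
            omega
        · exact dvd_pow_self q hpos.ne'
    rw [hpd] at hqd
    have h7 : q ∣ n - 1 := hqd.trans hdn
    have h8 := Nat.dvd_sub hqn h7
    have e3 : n - (n - 1) = 1 := by omega
    rw [e3] at h8
    exact hq.one_lt.ne' (Nat.dvd_one.1 h8)
  have hnpow : n = p ^ n.primeFactorsList.length :=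
    Nat.eq_prime_pow_of_unique_prime_dvd (by omega) (fun {q} hq hqn => huniq q hq hqn)
  have : Fact p.Prime := ⟨hp⟩
  have hFp : IsPGroup p F := IsPGroup.of_card hnpow
  have hFnt : Nontrivial F := by
    rw [← Finite.one_lt_card_iff_nontrivial]
    omega
  -- commutativity
  have hcomm : ∀ u ∈ F, ∀ v ∈ F, u * v = v * u := by
    have hZnt := hFp.center_nontrivial
    have hM := K ((Subgroup.center F).map F.subtype) (Subgroup.map_subtype_le _) (by
      intro hc
      rw [Subgroup.map_eq_bot_iff_of_injective _ F.subtype_injective] at hc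
      rw [Subgroup.nontrivial_iff_ne_bot] at hZnt
      exact hZnt hc) (by
      rintro h hh _ ⟨u, hu, rfl⟩
      refine ⟨⟨h * u * h⁻¹, hconj h hh u u.2⟩, ?_, rfl⟩
      have hu' : u ∈ Subgroup.center F := hu
      show _ ∈ Subgroup.center F
      rw [Subgroup.mem_center_iff] at hu' ⊢
      intro v
      have hv' : h⁻¹ * v * h ∈ F := by
        have := hconj h⁻¹ (H.inv_mem hh) v v.2
        rwa [inv_inv] at this
      have h1 := hu' ⟨h⁻¹ * v * h, hv'⟩
      have h2 : (h⁻¹ * v * h) * (u : G) = u * (h⁻¹ * v * h) := congrArg Subtype.val h1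
      apply Subtype.ext
      show (v : G) * (h * u * h⁻¹) = (h * u * h⁻¹) * v
      calc (v : G) * (h * u * h⁻¹) = h * ((h⁻¹ * v * h) * (u : G)) * h⁻¹ := by group
        _ = h * (u * (h⁻¹ * v * h)) * h⁻¹ := by rw [h2]
        _ = (h * u * h⁻¹) * v := by group)
    intro u hu v hv
    rw [← hM] at hu
    obtain ⟨u', hu', rfl⟩ := hu
    have hu'' : u' ∈ Subgroup.center F := hu'
    rw [Subgroup.mem_center_iff] at hu''
    exact (congrArg Subtype.val (hu'' ⟨v, hv⟩)).symm
  refine ⟨⟨⟨fun u v => Subtype.ext (hcomm u u.2 v v.2)⟩⟩, p, n.primeFactorsList.length, hp, ?_, ?_⟩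
  · -- exponent p
    let M : Subgroup G :=
      { carrier := {u | u ∈ F ∧ u ^ p = 1}
        one_mem' := ⟨F.one_mem, one_pow _⟩
        mul_mem' := by
          rintro u v ⟨hu, hup⟩ ⟨hv, hvp⟩
          refine ⟨F.mul_mem hu hv, ?_⟩
          rw [(show Commute u v from hcomm u hu v hv).mul_pow, hup, hvp, one_mul]
        inv_mem' := by
          rintro u ⟨hu, hup⟩
          exact ⟨F.inv_mem hu, by rw [inv_pow, hup, inv_one]⟩ }
    have hM := K M (fun u hu => hu.1) (by
      intro hc
      obtain ⟨x, hx⟩ := exists_prime_orderOf_dvd_card' (G := ↥F) p hpn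
      have hxM : (x : G) ∈ M := ⟨x.2, by
        rw [← hx, ← Subgroup.orderOf_coe]; exact pow_orderOf_eq_one _⟩
      rw [hc, Subgroup.mem_bot] at hxM
      rw [← Subgroup.orderOf_coe, hxM, orderOf_one] at hx
      exact hp.one_lt.ne hx) (by
      rintro h hh u ⟨hu, hup⟩
      refine ⟨hconj h hh u hu, ?_⟩
      rw [conj_pow, hup]; group)
    intro u hu
    rw [← hM] at hu
    exact hu.2
  · rw [← hcard, ← hnpow]

end Cfsg.Agent.S0738
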