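import Cfsg.Statements.S0739
import Cfsg.Agent.S0740
import Cfsg.Agent.Lib.Helper16Sylow
import Cfsg.Agent.Lib.Helper1FrobConj
import Cfsg.Agent.Lib.Helper1FpfSylow
import Cfsg.Agent.Lib.Helper1UniqInv
import Cfsg.Agent.Lib.Helper29Basic
import Cfsg.Agent.Lib.Helper92Basic
import Mathlib

set_option autoImplicit false
open Cfsg

namespace Cfsg.Agent.S0739

open Cfsg.Agent.Lib.Helper16Sylow

section Abstract

variable {G : Type*} [Group G] [Finite G]

/-- Burnside's transfer theorem in the relative Sylow language. -/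
theorem burnside {q : ℕ} [Fact q.Prime] {Q : Subgroup G} (hQ : IsSylowIn q Q ⊤)
    (h : Subgroup.normalizer (Q : Set G) ≤ Subgroup.centralizer (Q : Set G)) :
    ∃ N : Subgroup G, N.Normal ∧ N.index = q ^ (Nat.card G).factorization q := by
  let P : Sylow q G := IsPGroup.toSylow hQ.2.1 (by
    have := hQ.2.2
    rwa [Subgroup.relIndex_top_right] at this)
  have hP : Subgroup.normalizer ((P : Subgroup G) : Set G) ≤ Subgroup.centralizer ((P : Subgroup G) : Set G) := h
  refine ⟨(MonoidHom.transferSylow P hP).ker, inferInstance, ?_⟩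
  have := (MonoidHom.ker_transferSylow_isComplement' P hP).symm.index_eq_card
  rw [this]
  exact P.card_eq_multiplicity

theorem conj_pow' (t v : G) (m : ℕ) : t * v ^ m * t⁻¹ = (t * v * t⁻¹) ^ m := by
  rw [conj_pow]

theorem conj_zpow' (t v : G) (m : ℤ) : t * v ^ m * t⁻¹ = (t * v * t⁻¹) ^ m := by
  rw [conj_zpow]

/-- an involution normalising a cyclic `q`-group (`q` odd) and centralising an element of order `q`
centralises it -/
theorem centralizes_of_cyclic {q : ℕ} [hq : Fact q.Prime] (hq2 : q ≠ 2) {Q : Subgroup G}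
    (hQ : IsPGroup q Q) (hcyc : IsCyclic Q) {t c : G} (ht : t * t = 1)
    (htQ : ∀ u ∈ Q, t * u * t⁻¹ ∈ Q) (hc : c ∈ Q) (hco : orderOf c = q) (htc : t * c * t⁻¹ = c) :
    ∀ u ∈ Q, t * u * t⁻¹ = u := by
  intro u hu
  have htinv : t⁻¹ = t := inv_eq_of_mul_eq_one_left ht
  set v := u⁻¹ * (t * u * t⁻¹) with hv
  have hvQ : v ∈ Q := Q.mul_mem (Q.inv_mem hu) (htQ u hu)
  have hvinv : t * v * t⁻¹ = v⁻¹ := by
    have h5 : v⁻¹ = (t * u * t⁻¹)⁻¹ * u := by rw [hv, mul_inv_rev, inv_inv]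
    rw [h5, hv, htinv, mul_inv_rev, mul_inv_rev, htinv]
    calc t * (u⁻¹ * (t * u * t)) * t = t * u⁻¹ * t * u * (t * t) := by group
      _ = t * (u⁻¹ * t) * u := by rw [ht, mul_one]; group
  by_contra hne
  have hv1 : v ≠ 1 := by
    intro h
    apply hne
    rw [hv, inv_mul_eq_one] at h
    exact h.symm
  obtain ⟨k, hk⟩ := (IsPGroup.iff_orderOf.mp hQ) ⟨v, hvQ⟩
  rw [Subgroup.orderOf_mk] at hk
  have hk0 : k ≠ 0 := by
    rintro rfl
    rw [pow_zero, orderOf_eq_one_iff] at hk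
    exact hv1 hk
  obtain ⟨j, rfl⟩ := Nat.exists_eq_succ_of_ne_zero hk0
  have ho : orderOf (v ^ (q ^ j)) = q := by
    rw [orderOf_pow_of_dvd (pow_ne_zero _ hq.out.ne_zero) (by rw [hk]; exact pow_dvd_pow _ (Nat.le_succ j)), hk,
      pow_succ, Nat.mul_div_cancel_left _ (pow_pos hq.out.pos _)]
  have heq : Subgroup.zpowers (v ^ (q ^ j)) = Subgroup.zpowers c := by
    apply Cfsg.Agent.Lib.Helper29Basic.eq_of_card_eq_of_le_cyclic hcyc
    · exact Subgroup.zpowers_le.mpr (Q.pow_mem hvQ _)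
    · exact Subgroup.zpowers_le.mpr hc
    · rw [Nat.card_zpowers, Nat.card_zpowers, ho, hco]
  have hcm : c ∈ Subgroup.zpowers (v ^ (q ^ j)) := by
    rw [heq]; exact Subgroup.mem_zpowers c
  obtain ⟨m, hm⟩ := Subgroup.mem_zpowers_iff.mp hcm
  have hcinv : t * c * t⁻¹ = c⁻¹ := by
    rw [← hm, conj_zpow', conj_pow', hvinv, inv_pow, inv_zpow]
  rw [htc] at hcinv
  have hcc : c ^ 2 = 1 := by
    rw [sq]
    nth_rewrite 1 [hcinv]
    exact inv_mul_cancel c
  have := orderOf_dvd_of_pow_eq_one hcc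
  rw [hco] at this
  exact hq2 ((Nat.prime_dvd_prime_iff_eq hq.out Nat.prime_two).mp this)

/-- coprime lifting of fixed points, elementary version -/
theorem exists_fixed_mul {t y : G} (ht : t * t = 1)
    (hodd : Odd (orderOf (y⁻¹ * (t * y * t⁻¹)))) :
    ∃ k : ℕ, t * (y * (y⁻¹ * (t * y * t⁻¹)) ^ k) * t⁻¹ = y * (y⁻¹ * (t * y * t⁻¹)) ^ k := by
  have htinv : t⁻¹ = t := inv_eq_of_mul_eq_one_left ht
  set w := y⁻¹ * (t * y * t⁻¹) with hw
  obtain ⟨k, hk⟩ := hodd
  refine ⟨k + 1, ?_⟩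
  have hwinv : t * w * t⁻¹ = w⁻¹ := by
    rw [hw, htinv, mul_inv_rev, inv_inv, mul_inv_rev, mul_inv_rev, htinv]
    calc t * (y⁻¹ * (t * y * t)) * t = t * y⁻¹ * t * y * (t * t) := by group
      _ = t * (y⁻¹ * t) * y := by rw [ht, mul_one]; group
  have h2 : w ^ (k + 1) * w ^ (k + 1) = w := by
    rw [← pow_add]
    have : k + 1 + (k + 1) = orderOf w + 1 := by omega
    rw [this, pow_succ, pow_orderOf_eq_one, one_mul]
  have h3 : t * (y * w ^ (k + 1)) * t⁻¹ = (t * y * t⁻¹) * (t * w ^ (k + 1) * t⁻¹) := by group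
  have h4 : t * y * t⁻¹ = y * w := by rw [hw]; group
  rw [h3, conj_pow', hwinv, h4, inv_pow]
  nth_rewrite 1 [← h2]
  group

/-- the abstract situation: `H` of odd order and index at most two in `M`. -/
structure Setup (H M : Subgroup G) : Prop where
  le : H ≤ M
  norm : ∀ m ∈ M, ∀ h ∈ H, m * h * m⁻¹ ∈ H
  idx : ∀ x ∈ M, ∀ y ∈ M, x ∉ H → y ∉ H → x * y ∈ H
  odd : Odd (Nat.card H)
  nz : ∀ Q : Subgroup G, Q ≤ H → Q ≠ ⊥ → Subgroup.normalizer (Q : Set G) ≤ M
  cyc : ∀ E : Subgroup G, E ≤ H → IsMulCommutative E → IsCyclic E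
  nil : ∀ q : ℕ, q.Prime → q ∣ Nat.card H →
    ¬ ∃ N : Subgroup G, N.Normal ∧ N.index = q ^ (Nat.card G).factorization q

variable {H M : Subgroup G}

theorem Setup.odd_pow_not_mem (hS : Setup H M) {x : G} (hx : x ∈ M) (hxH : x ∉ H) {m : ℕ}
    (hm : Odd m) : x ^ m ∉ H := by
  obtain ⟨k, rfl⟩ := hm
  intro h
  apply hxH
  have h1 : x ^ (2 * k + 1) = (x * x) ^ k * x := by
    rw [pow_succ, pow_mul, sq]
  rw [h1] at h
  have h2 : (x * x) ^ k ∈ H := H.pow_mem (hS.idx x hx x hx hxH hxH) k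
  exact (Subgroup.mul_mem_cancel_left H h2).mp h

theorem Setup.mem_of_odd (hS : Setup H M) {x : G} (hx : x ∈ M) (ho : Odd (orderOf x)) : x ∈ H := by
  by_contra hxH
  apply hS.odd_pow_not_mem hx hxH ho
  rw [pow_orderOf_eq_one]
  exact H.one_mem

theorem Setup.orderOf_odd (hS : Setup H M) {x : G} (hx : x ∈ H) : Odd (orderOf x) := by
  have h1 : orderOf x ∣ Nat.card H := by
    have := orderOf_dvd_natCard (⟨x, hx⟩ : H)
    rwa [Subgroup.orderOf_mk] at this
  exact Odd.of_dvd_nat hS.odd h1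

theorem Setup.cyclic_of_pgroup (hS : Setup H M) {q : ℕ} [hq : Fact q.Prime] (hq2 : q ≠ 2)
    {Q : Subgroup G} (hQH : Q ≤ H) (hQ : IsPGroup q Q) : IsCyclic Q := by
  have huniq := Cfsg.Agent.Lib.Helper1FpfSylow.unique_of_abelian_cyclic (P := Q) hQ (by
    intro E hE
    have h1 : IsCyclic (E.map Q.subtype) := by
      apply hS.cyc
      · exact (Subgroup.map_subtype_le E).trans hQH
      · infer_instance
    exact (E.equivMapOfInjective Q.subtype Q.subtype_injective).isCyclic.mpr h1)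
  rcases Cfsg.Agent.Lib.Helper1UniqInv.main q hQ huniq with h | ⟨h, -⟩
  · exact h
  · exact absurd h hq2

theorem Setup.sylow_top (hS : Setup H M) {q : ℕ} [hq : Fact q.Prime] (hq2 : q ≠ 2)
    {Q : Subgroup G} (hQ : IsSylowIn q Q H) (hQ1 : Q ≠ ⊥) : IsSylowIn q Q ⊤ := by
  obtain ⟨P, hP, hQP⟩ := exists_isSylowIn_ge (p := q) (Q := Q) (H := ⊤) hQ.2.1 le_top
  suffices h : Q = P by rw [h]; exact hP
  by_contra hne
  have hlt : Q.subgroupOf P < ⊤ := by
    rw [lt_top_iff_ne_top]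
    intro h
    rw [Subgroup.subgroupOf_eq_top] at h
    exact hne (le_antisymm hQP h)
  have hnil : Group.IsNilpotent P := hP.2.1.isNilpotent
  have hnc := Group.normalizerCondition_of_isNilpotent (G := P) (Q.subgroupOf P) hlt
  obtain ⟨x, hxn, hxQ⟩ := SetLike.exists_of_lt hnc
  have hxQ' : (x : G) ∉ Q := fun h => hxQ (Subgroup.mem_subgroupOf.mpr h)
  have hxN : (x : G) ∈ Subgroup.normalizer (Q : Set G) := by
    rw [Subgroup.mem_normalizer_iff] at hxn ⊢
    intro u
    constructor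
    · intro hu
      have := (hxn ⟨u, hQP hu⟩).mp (Subgroup.mem_subgroupOf.mpr hu)
      exact Subgroup.mem_subgroupOf.mp this
    · intro hu
      have huP : u ∈ P := by
        have h1 := hQP hu
        have h2 : u = (x : G)⁻¹ * ((x : G) * u * (x : G)⁻¹) * (x : G) := by group
        rw [h2]
        exact P.mul_mem (P.mul_mem (P.inv_mem x.2) h1) x.2
      have := (hxn ⟨u, huP⟩).mpr (Subgroup.mem_subgroupOf.mpr hu)
      exact Subgroup.mem_subgroupOf.mp this
  have hxM : (x : G) ∈ M := hS.nz Q hQ.1 hQ1 hxN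
  have hxo : Odd (orderOf (x : G)) := by
    obtain ⟨k, hk⟩ := (IsPGroup.iff_orderOf.mp hP.2.1) x
    rw [Subgroup.orderOf_coe, hk]
    exact (hq.out.odd_of_ne_two hq2).pow
  have hxH : (x : G) ∈ H := hS.mem_of_odd hxM hxo
  have hle : Q ⊔ Subgroup.zpowers (x : G) ≤ P := sup_le hQP (Subgroup.zpowers_le.mpr x.2)
  have := hQ.eq_of_le (hP.2.1.to_le hle) (sup_le hQ.1 (Subgroup.zpowers_le.mpr hxH)) le_sup_left
  apply hxQ'
  rw [this]
  exact (le_sup_right : Subgroup.zpowers (x : G) ≤ _) (Subgroup.mem_zpowers _)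

theorem commute_iff_conj {t c : G} : Commute t c ↔ t * c * t⁻¹ = c := by
  rw [mul_inv_eq_iff_eq_mul]; rfl

theorem cj_eq_of_commute {z : G} {Q : Subgroup G} (h : ∀ u ∈ Q, Commute z u) : cj z Q = Q := by
  apply cj_eq_of_le
  intro x hx
  rw [mem_cj] at hx
  have h1 := commute_iff_conj.mp (h _ hx)
  have h2 : z * (z⁻¹ * x * z) * z⁻¹ = x := by group
  rw [h2] at h1
  rw [h1]; exact hx

theorem mem_X {x c : G} : x ∈ H ⊓ Subgroup.centralizer {c} ↔ x ∈ H ∧ Commute x c := by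
  rw [Subgroup.mem_inf, Subgroup.mem_centralizer_singleton_iff]; rfl

theorem Setup.cj_X (hS : Setup H M) {m c : G} (hm : m ∈ M) (hmc : Commute m c) :
    cj m (H ⊓ Subgroup.centralizer {c}) = H ⊓ Subgroup.centralizer {c} := by
  apply cj_eq_of_le
  intro x hx
  rw [mem_cj, mem_X] at hx
  rw [mem_X]
  have e : m * (m⁻¹ * x * m) * m⁻¹ = x := by group
  constructor
  · have := hS.norm m hm _ hx.1
    rwa [e] at this
  · have h2 : Commute (m * (m⁻¹ * x * m) * m⁻¹) c :=
      (hmc.mul_left hx.2).mul_left hmc.inv_left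
    rw [e] at h2
    exact h2

/-- `q` is bad if some involution of `M` centralises an element of order `q` of `H`. -/
def Bad (H M : Subgroup G) (q : ℕ) : Prop :=
  q.Prime ∧ ∃ t ∈ M, orderOf t = 2 ∧ ∃ c ∈ H, orderOf c = q ∧ Commute t c

theorem Setup.exists_good (hS : Setup H M) {q : ℕ} (hq : Bad H M q) :
    q ≠ 2 ∧ ∃ t ∈ M, t ∉ H ∧ t * t = 1 ∧ ∃ Q : Subgroup G, IsSylowIn q Q H ∧ cj t Q = Q ∧
      ∃ c ∈ Q, orderOf c = q ∧ Commute t c := by
  obtain ⟨hqp, t, htM, hto, c, hcH, hco, htc⟩ := hq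
  have : Fact q.Prime := ⟨hqp⟩
  have hq2 : q ≠ 2 := by
    intro h
    have := hS.orderOf_odd hcH
    rw [hco, h] at this
    exact absurd this (by decide)
  refine ⟨hq2, ?_⟩
  have htH : t ∉ H := fun h => by
    have := hS.orderOf_odd h
    rw [hto] at this
    exact absurd this (by decide)
  have htX := hS.cj_X htM htc
  set X := H ⊓ Subgroup.centralizer {c} with hX
  have hcX : c ∈ X := mem_X.mpr ⟨hcH, Commute.refl c⟩
  obtain ⟨Q, hQX, hcQ⟩ := exists_isSylowIn_ge (p := q) (Q := Subgroup.zpowers c) (H := X)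
    (IsPGroup.of_card (n := 1) (by rw [Nat.card_zpowers, hco, pow_one]))
    (Subgroup.zpowers_le.mpr hcX)
  have hcQ' : c ∈ Q := hcQ (Subgroup.mem_zpowers c)
  have h1 : IsSylowIn q (cj t Q) X := by
    have := hQX.cj t
    rwa [htX] at this
  obtain ⟨x, hxX, hx⟩ := hQX.exists_conj_eq h1
  set y := x * t with hy
  have hyQ : cj y Q = Q := by rw [hy, cj_mul]; exact hx
  have hyM : y ∈ M := M.mul_mem (hS.le hxX.1) htM
  have hyH : y ∉ H := fun h => htH ((Subgroup.mul_mem_cancel_left H hxX.1).mp h)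
  have hxc : Commute x c := (mem_X.mp hxX).2
  have hyc : Commute y c := hxc.mul_left htc
  have hyy : y * y ∈ H := hS.idx y hyM y hyM hyH hyH
  have hm : Odd (orderOf (y * y)) := hS.orderOf_odd hyy
  set m := orderOf (y * y) with hmdef
  refine ⟨y ^ m, M.pow_mem hyM m, hS.odd_pow_not_mem hyM hyH hm, ?_, Q, ?_, ?_, c, hcQ', hco,
    hyc.pow_left m⟩
  · rw [← pow_add, ← two_mul, pow_mul, sq, hmdef, pow_orderOf_eq_one]
  · obtain ⟨Q₂, hQ₂, hQQ₂⟩ := exists_isSylowIn_ge (p := q) (Q := Q) (H := H) hQX.2.1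
      (hQX.1.trans inf_le_left)
    have hcyc₂ : IsCyclic Q₂ := hS.cyclic_of_pgroup hq2 hQ₂.1 hQ₂.2.1
    have hQ₂X : Q₂ ≤ X := by
      intro u hu
      refine mem_X.mpr ⟨hQ₂.1 hu, ?_⟩
      have := hcyc₂.commutative.is_comm.comm ⟨u, hu⟩ ⟨c, hQQ₂ hcQ'⟩
      exact congrArg Subtype.val this
    have hQeq : Q = Q₂ := hQX.eq_of_le hQ₂.2.1 hQ₂X hQQ₂
    rw [hQeq]; exact hQ₂
  · exact mem_normalizer_iff_cj.mp (Subgroup.pow_mem _ (mem_normalizer_iff_cj.mpr hyQ) m)

theorem Setup.false_of_good (hS : Setup H M) {q : ℕ} (hqp : q.Prime) (hq2 : q ≠ 2)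
    (hmin : ∀ r, r < q → ¬ Bad H M r) {t : G} (htM : t ∈ M) (htH : t ∉ H) (ht : t * t = 1)
    {Q : Subgroup G} (hQ : IsSylowIn q Q H) (htQ : cj t Q = Q) {c : G} (hcQ : c ∈ Q)
    (hco : orderOf c = q) (htc : Commute t c) : False := by
  have : Fact q.Prime := ⟨hqp⟩
  have hcyc : IsCyclic Q := hS.cyclic_of_pgroup hq2 hQ.1 hQ.2.1
  have hQ1 : Q ≠ ⊥ := by
    intro h
    rw [h, Subgroup.mem_bot] at hcQ
    rw [hcQ, orderOf_one] at hco
    exact hqp.one_lt.ne hco
  have hto : orderOf t = 2 :=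
    orderOf_eq_prime (by rw [sq]; exact ht) (fun h => htH (h ▸ H.one_mem))
  have htQ' : ∀ u ∈ Q, t * u * t⁻¹ ∈ Q := fun u hu => by
    have := conj_mem_cj (g := t) hu
    rwa [htQ] at this
  have hcent : ∀ u ∈ Q, Commute t u := fun u hu => commute_iff_conj.mpr
    (centralizes_of_cyclic hq2 hQ.2.1 hcyc ht htQ' hcQ hco (commute_iff_conj.mp htc) u hu)
  set W := H ⊓ Subgroup.centralizer {t} with hW
  have hQW : Q ≤ W := fun u hu => mem_X.mpr ⟨hQ.1 hu, (hcent u hu).symm⟩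
  have hQsW : IsSylowIn q Q W := hQ.of_le hQW inf_le_left
  have hqW : q ∣ Nat.card W := by
    have := orderOf_dvd_natCard (⟨c, hQW hcQ⟩ : W)
    rwa [Subgroup.orderOf_mk, hco] at this
  have hqH : q ∣ Nat.card H := by
    have := orderOf_dvd_natCard (⟨c, hQ.1 hcQ⟩ : H)
    rwa [Subgroup.orderOf_mk, hco] at this
  have hminfac : (Nat.card W).minFac = q := by
    have hW1 : Nat.card W ≠ 1 := by
      intro h
      rw [h] at hqW
      exact hqp.one_lt.ne' (Nat.dvd_one.mp hqW)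
    have hle : (Nat.card W).minFac ≤ q := Nat.minFac_le_of_dvd hqp.two_le hqW
    have hrp : (Nat.card W).minFac.Prime := Nat.minFac_prime hW1
    have : Fact (Nat.card W).minFac.Prime := ⟨hrp⟩
    obtain ⟨z, hz⟩ := exists_prime_orderOf_dvd_card' (G := W) (Nat.card W).minFac
      (Nat.minFac_dvd _)
    have hbad : Bad H M (Nat.card W).minFac :=
      ⟨hrp, t, htM, hto, z, (mem_X.mp z.2).1, by rw [Subgroup.orderOf_coe, hz], (mem_X.mp z.2).2.symm⟩
    by_contra hne
    exact hmin _ (lt_of_le_of_ne hle hne) hbad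
  have key : ∀ y ∈ W, cj y Q = Q → ∀ u ∈ Q, Commute y u := by
    intro y hy hyQ u hu
    have hcycP : IsCyclic (hQsW.toSylow : Subgroup W) :=
      (Subgroup.subgroupOfEquivOfLe hQW).isCyclic.mpr hcyc
    have hle := IsCyclic.normalizer_le_centralizer (G := W) hminfac (P := hQsW.toSylow) hcycP
    have hyn : (⟨y, hy⟩ : W) ∈ Subgroup.normalizer ((hQsW.toSylow : Subgroup W) : Set W) := by
      rw [Subgroup.mem_normalizer_iff]
      intro h
      have h1 := (Subgroup.mem_normalizer_iff.mp (mem_normalizer_iff_cj.mpr hyQ)) (h : G)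
      exact h1
    have h2 := Subgroup.mem_centralizer_iff.mp (hle hyn) ⟨u, hQW hu⟩ hu
    exact (congrArg Subtype.val h2).symm
  have claimH : ∀ y ∈ H, cj y Q = Q → ∀ u ∈ Q, Commute y u := by
    intro y hy hyQ
    have hwH : y⁻¹ * (t * y * t⁻¹) ∈ H := H.mul_mem (H.inv_mem hy) (hS.norm t htM y hy)
    obtain ⟨k, hk⟩ := exists_fixed_mul (t := t) (y := y) ht (hS.orderOf_odd hwH)
    set w := y⁻¹ * (t * y * t⁻¹) with hw
    have hwc : ∀ u ∈ Q, Commute w u := by
      intro u hu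
      have hu' : y * u * y⁻¹ ∈ Q := by
        have := conj_mem_cj (g := y) hu
        rwa [hyQ] at this
      have h1 : t * (y * u * y⁻¹) = (y * u * y⁻¹) * t := hcent _ hu'
      have h2 : t * u = u * t := hcent u hu
      have h3 : t⁻¹ * u = u * t⁻¹ := (hcent u hu).inv_left
      show w * u = u * w
      rw [hw]
      calc y⁻¹ * (t * y * t⁻¹) * u = y⁻¹ * (t * y) * (t⁻¹ * u) := by group
        _ = y⁻¹ * (t * y) * (u * t⁻¹) := by rw [h3]
        _ = y⁻¹ * (t * (y * u * y⁻¹)) * y * t⁻¹ := by group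
        _ = y⁻¹ * ((y * u * y⁻¹) * t) * y * t⁻¹ := by rw [h1]
        _ = u * (y⁻¹ * (t * y * t⁻¹)) := by group
    have hwkc : ∀ u ∈ Q, Commute (w ^ k) u := fun u hu => (hwc u hu).pow_left k
    have hy'W : y * w ^ k ∈ W :=
      mem_X.mpr ⟨H.mul_mem hy (H.pow_mem hwH k), (commute_iff_conj.mpr hk).symm⟩
    have hy'Q : cj (y * w ^ k) Q = Q := by
      rw [cj_mul, cj_eq_of_commute hwkc, hyQ]
    intro u hu
    have h1 := key _ hy'W hy'Q u hu
    have h2 : Commute (y * w ^ k * (w ^ k)⁻¹) u := h1.mul_left (hwkc u hu).inv_left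
    rwa [mul_inv_cancel_right] at h2
  have hNC : Subgroup.normalizer (Q : Set G) ≤ Subgroup.centralizer (Q : Set G) := by
    intro g hg
    have hgM : g ∈ M := hS.nz Q hQ.1 hQ1 hg
    have hgQ : cj g Q = Q := mem_normalizer_iff_cj.mp hg
    rw [Subgroup.mem_centralizer_iff]
    intro u hu
    by_cases hgH : g ∈ H
    · exact (claimH g hgH hgQ u hu).symm
    · have h1 : g * t ∈ H := hS.idx g hgM t htM hgH htH
      have h2 : cj (g * t) Q = Q := by rw [cj_mul, htQ, hgQ]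
      have h3 := claimH _ h1 h2 u hu
      have h4 : Commute (g * t * t⁻¹) u := h3.mul_left (hcent u hu).inv_left
      rw [mul_inv_cancel_right] at h4
      exact h4.symm
  exact hS.nil q hqp hqH (burnside (hS.sylow_top hq2 hQ hQ1) hNC)

theorem Setup.not_bad (hS : Setup H M) : ¬ ∃ q, Bad H M q := by
  classical
  intro hex
  have hq := Nat.find_spec hex
  have hmin : ∀ r, r < Nat.find hex → ¬ Bad H M r := fun r hr => Nat.find_min hex hr
  obtain ⟨hq2, t, htM, htH, ht, Q, hQ, htQ, c, hcQ, hco, htc⟩ := hS.exists_good hq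
  exact hS.false_of_good hq.1 hq2 hmin htM htH ht hQ htQ hcQ hco htc

/-- every involution of `M` acts fixed point freely on `H` -/
theorem Setup.fpf (hS : Setup H M) {t : G} (htM : t ∈ M) (hto : orderOf t = 2) :
    ∀ c ∈ H, t * c * t⁻¹ = c → c = 1 := by
  intro c hc htc
  by_contra hc1
  have ho : orderOf c ≠ 1 := fun h => hc1 (orderOf_eq_one_iff.mp h)
  set q := (orderOf c).minFac with hq
  have hqp : q.Prime := Nat.minFac_prime ho
  obtain ⟨m, hm⟩ := Nat.minFac_dvd (orderOf c)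
  apply hS.not_bad
  refine ⟨q, hqp, t, htM, hto, c ^ m, H.pow_mem hc m, ?_, (commute_iff_conj.mpr htc).pow_right m⟩
  have hm0 : m ≠ 0 := by
    rintro rfl
    rw [mul_zero] at hm
    exact (orderOf_pos c).ne' hm
  rw [orderOf_pow_of_dvd hm0 (Dvd.intro_left _ hm.symm), hm]
  exact Nat.mul_div_cancel _ (Nat.pos_of_ne_zero hm0)

theorem Setup.conclusion (hS : Setup H M) (hH : H ≠ ⊥) {t : G} (htM : t ∈ M) (hto : orderOf t = 2) :
    IsCyclic H ∧ Subgroup.centralizer (H : Set G) = H ∧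
      ∀ s ∈ M, s ∉ H → ∀ h ∈ H, s * h * s⁻¹ = h⁻¹ := by
  have ht : t * t = 1 := by rw [← sq, ← hto, pow_orderOf_eq_one]
  have htH : t ∉ H := fun h => by
    have := hS.orderOf_odd h
    rw [hto] at this
    exact absurd this (by decide)
  have hinv := Cfsg.Agent.Lib.Helper92Basic.inverts_of_fixedPointFree H t ht (hS.norm t htM)
    (hS.fpf htM hto)
  have hcomm : ∀ x ∈ H, ∀ y ∈ H, x * y = y * x := by
    intro x hx y hy
    have h1 := hinv (x * y) (H.mul_mem hx hy)
    have h2 : t * (x * y) * t⁻¹ = (t * x * t⁻¹) * (t * y * t⁻¹) := by group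
    rw [h2, hinv x hx, hinv y hy, mul_inv_rev] at h1
    have h3 := congrArg (·⁻¹) h1
    simp only [mul_inv_rev, inv_inv] at h3
    exact h3.symm
  have hsinv : ∀ s ∈ M, s ∉ H → ∀ h ∈ H, s * h * s⁻¹ = h⁻¹ := by
    intro s hsM hsH h hh
    have h1 : s * t ∈ H := hS.idx s hsM t htM hsH htH
    have htinv : t⁻¹ = t := inv_eq_of_mul_eq_one_left ht
    have h2 : s * h * s⁻¹ = (s * t) * (t * h * t⁻¹) * (s * t)⁻¹ := by
      rw [mul_inv_rev, htinv]
      calc s * h * s⁻¹ = s * (t * t) * h * (t * t) * s⁻¹ := by rw [ht]; group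
        _ = s * t * (t * h * t) * (t * s⁻¹) := by group
    rw [h2, hinv h hh, hcomm _ h1 _ (H.inv_mem hh), mul_inv_cancel_right]
  refine ⟨?_, ?_, hsinv⟩
  · apply hS.cyc H le_rfl
    exact ⟨⟨fun x y => Subtype.ext (hcomm x x.2 y y.2)⟩⟩
  · apply le_antisymm
    · intro g hg
      have hgM : g ∈ M := hS.nz H le_rfl hH (Subgroup.centralizer_le_normalizer _ hg)
      by_contra hgH
      apply hH
      rw [Subgroup.eq_bot_iff_forall]
      intro h hh
      have h1 := hsinv g hgM hgH h hh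
      have h2 : h * g = g * h := Subgroup.mem_centralizer_iff.mp hg h hh
      rw [← h2, mul_inv_cancel_right] at h1
      have h3 : h ^ 2 = 1 := by
        rw [sq]
        nth_rewrite 1 [h1]
        exact inv_mul_cancel h
      have h4 := orderOf_dvd_of_pow_eq_one h3
      have h5 := hS.orderOf_odd hh
      rcases (Nat.dvd_prime Nat.prime_two).mp h4 with h6 | h6
      · exact orderOf_eq_one_iff.mp h6
      · rw [h6] at h5
        exact absurd h5 (by decide)
    · intro g hg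
      rw [Subgroup.mem_centralizer_iff]
      intro h hh
      exact hcomm h hh g hg

end Abstract

section Perm

open MulAction

variable {G Ω : Type*} [Group G] [MulAction G Ω]

/-- the setwise stabiliser of the pair `{a, b}` -/
def pairStab (G : Type*) {Ω : Type*} [Group G] [MulAction G Ω] (a b : Ω) : Subgroup G where
  carrier := {g | (g • a = a ∧ g • b = b) ∨ (g • a = b ∧ g • b = a)}
  mul_mem' := by
    rintro x y (⟨h1, h2⟩ | ⟨h1, h2⟩) (⟨h3, h4⟩ | ⟨h3, h4⟩)
    · left; rw [mul_smul, mul_smul, h3, h4]; exact ⟨h1, h2⟩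
    · right; rw [mul_smul, mul_smul, h3, h4]; exact ⟨h2, h1⟩
    · right; rw [mul_smul, mul_smul, h3, h4]; exact ⟨h1, h2⟩
    · left; rw [mul_smul, mul_smul, h3, h4]; exact ⟨h2, h1⟩
  one_mem' := Or.inl ⟨one_smul _ _, one_smul _ _⟩
  inv_mem' := by
    rintro x (⟨h1, h2⟩ | ⟨h1, h2⟩)
    · left; rw [inv_smul_eq_iff, inv_smul_eq_iff]; exact ⟨h1.symm, h2.symm⟩
    · right; rw [inv_smul_eq_iff, inv_smul_eq_iff]; exact ⟨h2.symm, h1.symm⟩

theorem mem_pairStab {a b : Ω} {g : G} :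
    g ∈ pairStab G a b ↔ (g • a = a ∧ g • b = b) ∨ (g • a = b ∧ g • b = a) := Iff.rfl

theorem mem_H {a b : Ω} {g : G} :
    g ∈ stabilizer G a ⊓ stabilizer G b ↔ g • a = a ∧ g • b = b := by
  rw [Subgroup.mem_inf, mem_stabilizer_iff, mem_stabilizer_iff]

theorem swap_of_not_mem {a b : Ω} {g : G} (hg : g ∈ pairStab G a b)
    (hgH : g ∉ stabilizer G a ⊓ stabilizer G b) : g • a = b ∧ g • b = a := by
  rcases hg with h | h
  · exact absurd (mem_H.mpr h) hgH
  · exact h

variable [Finite G] [Fintype Ω]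

theorem H_ne_bot (hZ : Cfsg.IsZassenhausGroup G Ω) {a b : Ω} (hab : a ≠ b) :
    stabilizer G a ⊓ stabilizer G b ≠ ⊥ := by
  obtain ⟨-, h2, -, ⟨g, hg1, a', b', hab', hga, hgb⟩, -⟩ := hZ
  rw [is_two_pretransitive_iff] at h2
  obtain ⟨x, hx1, hx2⟩ := h2 hab' hab
  intro hbot
  have hmem : x * g * x⁻¹ ∈ stabilizer G a ⊓ stabilizer G b := by
    rw [mem_H]
    constructor
    · rw [mul_smul, mul_smul, ← hx1, inv_smul_smul, hga]
    · rw [mul_smul, mul_smul, ← hx2, inv_smul_smul, hgb]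
  rw [hbot, Subgroup.mem_bot] at hmem
  apply hg1
  have : g = x⁻¹ * (x * g * x⁻¹) * x := by group
  rw [this, hmem]; group

theorem frob (hZ : Cfsg.IsZassenhausGroup G Ω) {a b : Ω} (hab : a ≠ b) :
    IsFrobeniusComplement ((stabilizer G a ⊓ stabilizer G b).subgroupOf (stabilizer G a)) := by
  have hne := H_ne_bot hZ hab
  obtain ⟨hf, h2, h3, -, -⟩ := hZ
  rw [is_two_pretransitive_iff] at h2
  refine ⟨?_, ?_, ?_⟩
  · intro h
    rw [Subgroup.subgroupOf_eq_bot, disjoint_iff, inf_eq_left.mpr inf_le_left] at h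
    exact hne h
  · intro h
    rw [Subgroup.subgroupOf_eq_top] at h
    obtain ⟨u, hu, hu1⟩ : ∃ u ∈ stabilizer G a ⊓ stabilizer G b, u ≠ 1 := by
      by_contra hcon
      push Not at hcon
      exact hne ((Subgroup.eq_bot_iff_forall _).mpr hcon)
    obtain ⟨c, hc⟩ : ∃ c : Ω, (u : G) • c ≠ c := by
      by_contra hcon
      push Not at hcon
      apply hu1
      apply hf.eq_of_smul_eq_smul
      intro x
      rw [hcon x, one_smul]
    have hu' := mem_H.mp hu
    have hca : a ≠ c := by rintro rfl; exact hc hu'.1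
    have hcb : b ≠ c := by rintro rfl; exact hc hu'.2
    obtain ⟨g, hg1, hg2⟩ := h2 hab hca
    have := (mem_H.mp (h (mem_stabilizer_iff.mpr hg1))).2
    rw [hg2] at this
    exact hcb this.symm
  · intro g hg
    rw [Subgroup.eq_bot_iff_forall]
    intro x hx
    obtain ⟨hx1, hx2⟩ := Subgroup.mem_inf.mp hx
    rw [Subgroup.mem_pointwise_smul_iff_inv_smul_mem] at hx2
    have hx1' := mem_H.mp (Subgroup.mem_subgroupOf.mp hx1)
    have hx2' : (g : G)⁻¹ * (x : G) * (g : G) ∈ stabilizer G a ⊓ stabilizer G b := by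
      have := Subgroup.mem_subgroupOf.mp hx2
      simpa [MulAut.smul_def, MulAut.conj_apply] using this
    have hx3 := (mem_H.mp hx2').2
    rw [mul_smul, mul_smul, inv_smul_eq_iff] at hx3
    have hga : (g : G) • a = a := g.2
    have hgb : (g : G) • b ≠ b := by
      intro h
      exact hg (Subgroup.mem_subgroupOf.mpr (mem_H.mpr ⟨hga, h⟩))
    have hgba : a ≠ (g : G) • b := by
      intro h
      nth_rewrite 1 [← hga] at h
      exact hab (smul_left_cancel _ h)
    apply Subtype.ext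
    exact h3 x a b ((g : G) • b) hab hgb.symm hgba hx1'.1 hx1'.2 hx3

theorem setup (hZ : Cfsg.IsZassenhausGroup G Ω) {a b : Ω} (hab : a ≠ b)
    (hodd : Odd (Nat.card ↥(stabilizer G a ⊓ stabilizer G b)))
    (hnil : ∀ q : ℕ, q.Prime → q ∣ Nat.card ↥(stabilizer G a ⊓ stabilizer G b) →
      ¬ ∃ N : Subgroup G, N.Normal ∧ N.index = q ^ (Nat.card G).factorization q) :
    Setup (stabilizer G a ⊓ stabilizer G b) (pairStab G a b) where
  le := fun g hg => Or.inl (mem_H.mp hg)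
  norm := by
    intro m hm h hh
    have hh' := mem_H.mp hh
    have hm' := (pairStab G a b).inv_mem hm
    rw [mem_H, mul_smul, mul_smul, mul_smul, mul_smul]
    rcases hm' with ⟨h1, h2⟩ | ⟨h1, h2⟩
    · rw [h1, h2, hh'.1, hh'.2, ← h1, ← h2, smul_inv_smul, smul_inv_smul, h1, h2]
      exact ⟨rfl, rfl⟩
    · rw [h1, h2, hh'.1, hh'.2]
      constructor
      · nth_rewrite 1 [← h1]; rw [smul_inv_smul]
      · nth_rewrite 1 [← h2]; rw [smul_inv_smul]
  idx := by
    intro x hx y hy hxH hyH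
    have h1 := swap_of_not_mem hx hxH
    have h2 := swap_of_not_mem hy hyH
    rw [mem_H, mul_smul, mul_smul, h2.1, h2.2]
    exact ⟨h1.2, h1.1⟩
  odd := hodd
  nz := by
    intro Q hQ hQ1 g hg
    obtain ⟨u, hu, hu1⟩ : ∃ u ∈ Q, u ≠ 1 := by
      by_contra hcon
      push Not at hcon
      exact hQ1 ((Subgroup.eq_bot_iff_forall _).mpr hcon)
    have hu' := mem_H.mp (hQ hu)
    have hg' := Subgroup.inv_mem _ hg
    have h1 := (Subgroup.mem_normalizer_iff.mp hg' u).mp hu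
    rw [inv_inv] at h1
    have h2 := mem_H.mp (hQ h1)
    rw [mul_smul, mul_smul, mul_smul, mul_smul, inv_smul_eq_iff, inv_smul_eq_iff] at h2
    have h3 := hZ.2.2.1
    have key : ∀ x : Ω, u • x = x → x = a ∨ x = b := by
      intro x hx
      by_contra hcon
      push Not at hcon
      exact hu1 (h3 u a b x hab hcon.2.symm hcon.1.symm hu'.1 hu'.2 hx)
    have hne : g • a ≠ g • b := fun h => hab (smul_left_cancel g h)
    rcases key _ h2.1 with h4 | h4 <;> rcases key _ h2.2 with h5 | h5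
    · exact absurd (h4.trans h5.symm) hne
    · exact Or.inl ⟨h4, h5⟩
    · exact Or.inr ⟨h4, h5⟩
    · exact absurd (h4.trans h5.symm) hne
  cyc := by
    intro E hE hEc
    have hEa : E ≤ stabilizer G a := hE.trans inf_le_left
    have h1 : IsCyclic (E.subgroupOf (stabilizer G a)) :=
      Cfsg.Agent.Lib.Helper1FrobConj.isCyclic_of_abelian_of_le (frob hZ hab)
        (E.subgroupOf (stabilizer G a)) (by
          intro x hx
          exact Subgroup.mem_subgroupOf.mpr (hE (Subgroup.mem_subgroupOf.mp hx)))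
    exact (Subgroup.subgroupOfEquivOfLe hEa).isCyclic.mp h1
  nil := hnil

end Perm

/-- In a finite Zassenhaus group whose two-point stabiliser `H = G_{a,b}` has odd order `d`, and which has no normal `q`-complement for any prime `q ∣ d`, `H` is cyclic, `C_G(H) = H`, and every element swapping `a` and `b` inverts each element of `H`. -/
theorem result {G Ω : Type*} [Group G] [Finite G] [MulAction G Ω] [Fintype Ω] (hZ : Cfsg.IsZassenhausGroup G Ω) {a b : Ω} (hab : a ≠ b) (hodd : Odd (Nat.card ↥(MulAction.stabilizer G a ⊓ MulAction.stabilizer G b))) (hnil : ∀ q : ℕ, q.Prime → q ∣ Nat.card ↥(MulAction.stabilizer G a ⊓ MulAction.stabilizer G b) → ¬ ∃ N : Subgroup G, N.Normal ∧ N.index = q ^ (Nat.card G).factorization q) : IsCyclic ↥(MulAction.stabilizer G a ⊓ MulAction.stabilizer G b) ∧ Subgroup.centralizer ((MulAction.stabilizer G a ⊓ MulAction.stabilizer G b : Subgroup G) : Set G) = MulAction.stabilizer G a ⊓ MulAction.stabilizer G b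 ∧ ∀ s : G, s • a = b → s • b = a → ∀ h ∈ MulAction.stabilizer G a ⊓ MulAction.stabilizer G b, s * h * s⁻¹ = h⁻¹ := by
  have hS := setup hZ hab hodd hnil
  obtain ⟨⟨t, hto, hta, htb⟩, -, -⟩ := Cfsg.Agent.S0740.result hZ hab
  obtain ⟨h1, h2, h3⟩ := hS.conclusion (H_ne_bot hZ hab) (t := t) (Or.inr ⟨hta, htb⟩) hto
  refine ⟨h1, h2, ?_⟩
  intro s hsa hsb h hh
  refine h3 s (Or.inr ⟨hsa, hsb⟩) ?_ h hh
  intro hs
  exact hab ((mem_H.mp hs).1.symm.trans hsa)

end Cfsg.Agent.S0739
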