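import Cfsg.Statements.S0743
import Cfsg.Agent.Lib.Helper16Trans
import Mathlib

set_option autoImplicit false
open Cfsg

namespace Cfsg.Agent.S0743

open MulAction Cfsg.Agent.Lib.Helper16Trans

theorem aux {α : Type*} [Fintype α] [DecidableEq α] (G : Subgroup (Equiv.Perm α)) {p : ℕ}
    (hp : p.Prime) (Δ : Finset α) (a : α) (A : Subgroup G) (hA : IsPGroup p A)
    (hfix : fixedPoints A α = ((insert a Δ : Finset α) : Set α)) :
    A ≤ fixingSubgroup G (Δ : Set α) ∧ (∀ g ∈ A, g • a = a) ∧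
      ∀ x, x ∉ Δ → x ≠ a → p ∣ (orbit A x).ncard := by
  have hmem : ∀ x ∈ insert a Δ, ∀ g ∈ A, g • x = x := by
    intro x hx g hg
    have : x ∈ fixedPoints A α := by rw [hfix]; exact_mod_cast hx
    exact this ⟨g, hg⟩
  refine ⟨?_, ?_, ?_⟩
  · intro g hg
    rw [mem_fixingSubgroup_iff]
    intro y hy
    exact hmem y (Finset.mem_insert_of_mem (by exact_mod_cast hy)) g hg
  · exact hmem a (Finset.mem_insert_self _ _)
  · intro x hx hxa
    haveI : Fact p.Prime := ⟨hp⟩
    obtain ⟨n, hn⟩ := hA.card_orbit x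
    have hx' : x ∉ fixedPoints A α := by
      rw [hfix]
      intro hc
      rcases Finset.mem_insert.1 (by exact_mod_cast hc) with h | h
      · exact hxa h
      · exact hx h
    rw [← Nat.card_coe_set_eq, hn]
    rcases Nat.eq_zero_or_pos n with rfl | hpos
    · exfalso
      apply hx'
      classical
      rw [mem_fixedPoints_iff_card_orbit_eq_one, ← Nat.card_eq_fintype_card, hn, pow_zero]
    · exact dvd_pow_self p hpos.ne'

/-- Gleason's Lemma: let `p` be a prime and `1 ≤ k < n`; if every `k`-subset of the `n` points is exactly the fixed-point set of some `p`-subgroup of `G`, then `G` is `k`-transitive. -/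
theorem result {α : Type*} [Fintype α] [DecidableEq α] (G : Subgroup (Equiv.Perm α)) {p k : ℕ} (hp : p.Prime) (hk : 1 ≤ k) (hkn : k < Fintype.card α) (h : ∀ s : Finset α, s.card = k → ∃ P : Subgroup G, IsPGroup p P ∧ MulAction.fixedPoints P α = (s : Set α)) : MulAction.IsMultiplyPretransitive G α k := by
  apply mt_of_fixing G hkn
  intro Δ hΔ a b ha hb
  obtain ⟨A, hA, hAf⟩ := h (insert a Δ) (by rw [Finset.card_insert_of_notMem ha, hΔ])
  obtain ⟨B, hB, hBf⟩ := h (insert b Δ) (by rw [Finset.card_insert_of_notMem hb, hΔ])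
  obtain ⟨hA1, hA2, hA3⟩ := aux G hp Δ a A hA hAf
  obtain ⟨hB1, _, hB3⟩ := aux G hp Δ b B hB hBf
  have hnot : ∀ x ∈ orbit (fixingSubgroup G (Δ : Set α)) a, x ∉ Δ := by
    rintro _ ⟨⟨g, hg⟩, rfl⟩ hc
    rw [mem_fixingSubgroup_iff] at hg
    have h1 := hg _ (by exact_mod_cast hc)
    have h2 : g • (g • a) = g • a := h1
    have h3 : g • a = a := smul_left_cancel g h2
    apply ha
    have hc' : g • a ∈ Δ := hc
    rwa [h3] at hc'
  have := mem_orbit_of_mod p hp.one_lt (fixingSubgroup G (Δ : Set α)) A B hA1 hB1 a b hA2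
    (fun x hx hxa => hA3 x (hnot x hx) hxa) (fun x hx hxb => hB3 x (hnot x hx) hxb)
  obtain ⟨⟨g, hg⟩, hgb⟩ := this
  rw [mem_fixingSubgroup_iff] at hg
  refine ⟨g.1, g.2, fun x hx => hg x (by exact_mod_cast hx), hgb⟩

end Cfsg.Agent.S0743
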