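import Cfsg.Statements.S0744
import Cfsg.Agent.Lib.Helper16Trans
import Mathlib

set_option autoImplicit false
open Cfsg

namespace Cfsg.Agent.S0744

open MulAction Cfsg.Agent.Lib.Helper16Trans

theorem orbit_card {α : Type*} [Fintype α] [DecidableEq α] (G : Subgroup (Equiv.Perm α))
    (s : Set α) (x : α) :
    (orbit (fixingSubgroup G s) x).ncard * Nat.card (fixingSubgroup G (insert x s))
      = Nat.card (fixingSubgroup G s) := by
  have h1 := (stabilizer (fixingSubgroup G s) x).card_mul_index
  rw [index_stabilizer] at h1
  have h2 : Nat.card (stabilizer (fixingSubgroup G s) x)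
      = Nat.card (fixingSubgroup G (insert x s)) := by
    apply Nat.card_congr
    refine
      { toFun := fun g => ⟨g.1.1, ?_⟩
        invFun := fun g => ⟨⟨g.1, ?_⟩, ?_⟩
        left_inv := fun g => rfl
        right_inv := fun g => rfl }
    · rw [mem_fixingSubgroup_iff]
      intro y hy
      rcases hy with rfl | hy
      · exact g.2
      · exact (mem_fixingSubgroup_iff G).1 g.1.2 y hy
    · rw [mem_fixingSubgroup_iff]
      intro y hy
      exact (mem_fixingSubgroup_iff G).1 g.2 y (Set.mem_insert_of_mem _ hy)
    · exact (mem_fixingSubgroup_iff G).1 g.2 x (Set.mem_insert _ _)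
  rw [← h1, h2, mul_comm]

/-- If for some `k > 1` the pointwise stabilisers of all `(k-1)`-subsets have the same order `> 1` and those of all `k`-subsets have the same order, then the group is `(k-1)`-transitive. -/
theorem result {α : Type*} [Fintype α] [DecidableEq α] (G : Subgroup (Equiv.Perm α)) {k : ℕ} (hk : 1 < k) (hkn : k ≤ Fintype.card α) (l m : ℕ) (hl : 1 < l) (hkm1 : ∀ s : Finset α, s.card = k - 1 → Nat.card (fixingSubgroup G (s : Set α)) = l) (hkm : ∀ s : Finset α, s.card = k → Nat.card (fixingSubgroup G (s : Set α)) = m) : MulAction.IsMultiplyPretransitive G α (k - 1) := by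
  apply mt_of_fixing G (by omega : k - 1 < Fintype.card α)
  intro Δ hΔ a b ha hb
  -- orbit sizes
  have horb : ∀ s : Finset α, s.card = k - 1 → ∀ x, x ∉ s →
      (orbit (fixingSubgroup G (s : Set α)) x).ncard * m = l := by
    intro s hs x hx
    have h1 := orbit_card G (s : Set α) x
    rw [← Finset.coe_insert, hkm1 s hs,
      hkm (insert x s) (by rw [Finset.card_insert_of_notMem hx, hs]; omega)] at h1
    exact h1
  have hm : 0 < m := by
    rcases Nat.eq_zero_or_pos m with rfl | h
    · exfalso
      obtain ⟨s, hs⟩ := Finset.exists_subset_card_eq (s := (Finset.univ : Finset α)) (n := k)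
        (by rw [Finset.card_univ]; exact hkn)
      have := hkm s hs.2
      have h2 : 0 < Nat.card (fixingSubgroup G (s : Set α)) := Nat.card_pos
      omega
    · exact h
  have horb' : ∀ s : Finset α, s.card = k - 1 → ∀ x, x ∉ s →
      (orbit (fixingSubgroup G (s : Set α)) x).ncard = l / m := by
    intro s hs x hx
    exact (Nat.div_eq_of_eq_mul_left hm (horb s hs x hx).symm).symm
  have hca : (insert a Δ).card = k - 1 := by rw [Finset.card_insert_of_notMem ha, hΔ]
  have hcb : (insert b Δ).card = k - 1 := by rw [Finset.card_insert_of_notMem hb, hΔ]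
  have hc : 1 < l / m := by
    by_contra hcon
    have hle : l / m ≤ 1 := by omega
    have hbot : fixingSubgroup G ((insert a Δ : Finset α) : Set α) = ⊥ := by
      rw [Subgroup.eq_bot_iff_forall]
      intro g hg
      apply Subtype.ext
      apply Equiv.ext
      intro x
      by_cases hx : x ∈ insert a Δ
      · exact (mem_fixingSubgroup_iff G).1 hg x (by exact_mod_cast hx)
      · have h1 := horb' _ hca x hx
        have h2 : (orbit (fixingSubgroup G ((insert a Δ : Finset α) : Set α)) x).ncard ≤ 1 := by
          omega
        rw [Set.ncard_le_one (Set.toFinite _)] at h2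
        exact h2 _ ⟨⟨g, hg⟩, rfl⟩ _ (mem_orbit_self x)
    have := hkm1 _ hca
    rw [hbot] at this
    simp at this
    omega
  have hnot : ∀ x ∈ orbit (fixingSubgroup G (Δ : Set α)) a, x ∉ Δ := by
    rintro _ ⟨⟨g, hg⟩, rfl⟩ hc
    rw [mem_fixingSubgroup_iff] at hg
    have h1 := hg _ (by exact_mod_cast hc)
    have h2 : g • (g • a) = g • a := h1
    have h3 : g • a = a := smul_left_cancel g h2
    apply ha
    have hc' : g • a ∈ Δ := hc
    rwa [h3] at hc'
  have hmono : ∀ z : α, fixingSubgroup G ((insert z Δ : Finset α) : Set α)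
      ≤ fixingSubgroup G (Δ : Set α) := by
    intro z g hg
    rw [mem_fixingSubgroup_iff] at hg ⊢
    intro y hy
    exact hg y (by rw [Finset.coe_insert]; exact Set.mem_insert_of_mem _ hy)
  have := mem_orbit_of_mod (l / m) hc (fixingSubgroup G (Δ : Set α))
    (fixingSubgroup G ((insert a Δ : Finset α) : Set α))
    (fixingSubgroup G ((insert b Δ : Finset α) : Set α)) (hmono a) (hmono b) a b
    (fun g hg => (mem_fixingSubgroup_iff G).1 hg a (by simp))
    (fun x hx hxa => by
      rw [horb' _ hca x (by
        intro hc
        rcases Finset.mem_insert.1 hc with h | h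
        · exact hxa h
        · exact hnot x hx h)])
    (fun x hx hxb => by
      rw [horb' _ hcb x (by
        intro hc
        rcases Finset.mem_insert.1 hc with h | h
        · exact hxb h
        · exact hnot x hx h)])
  obtain ⟨⟨g, hg⟩, hgb⟩ := this
  rw [mem_fixingSubgroup_iff] at hg
  refine ⟨g.1, g.2, fun x hx => hg x (by exact_mod_cast hx), hgb⟩

end Cfsg.Agent.S0744
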