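import Cfsg.Statements.S0754
-- import your own Cfsg.Agent.* helpers here

set_option autoImplicit false
open Cfsg

namespace Cfsg.Agent.S0754

/-- In a field F with q^2 elements, every non-zero μ with μ^q = μ (that is, μ in the subfield of order q) has exactly q + 1 solutions λ of λ^(q+1) = μ. -/
theorem result {F : Type*} [Field F] [Fintype F] {q : ℕ} (hF : Fintype.card F = q ^ 2) (μ : F) (hμ : μ ≠ 0) (hμq : μ ^ q = μ) : Nat.card {x : F // x ^ (q + 1) = μ} = q + 1 := by
  classical
  have hq : 2 ≤ q := by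
    have h1 := Fintype.one_lt_card (α := F)
    rw [hF] at h1
    by_contra h
    have : q = 0 ∨ q = 1 := by omega
    rcases this with rfl | rfl <;> simp at h1
  have hcard : Nat.card Fˣ = q ^ 2 - 1 := by
    rw [Nat.card_eq_fintype_card, Fintype.card_units, hF]
  have hfac : q ^ 2 - 1 = (q - 1) * (q + 1) := by
    obtain ⟨k, rfl⟩ : ∃ k, q = k + 1 := ⟨q - 1, by omega⟩
    have : (k + 1) ^ 2 = k * (k + 1 + 1) + 1 := by ring
    rw [this]
    simp
  let u : Fˣ := Units.mk0 μ hμ
  have hu : u ∈ (powMonoidHom (q - 1) : Fˣ →* Fˣ).ker := by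
    rw [MonoidHom.mem_ker, powMonoidHom_apply]
    apply Units.ext
    simp only [Units.val_pow_eq_pow_val, Units.val_one, u, Units.val_mk0]
    have h1 : μ ^ (q - 1) * μ = 1 * μ := by
      rw [← pow_succ, one_mul]
      have : q - 1 + 1 = q := by omega
      rw [this, hμq]
    exact mul_right_cancel₀ hμ h1
  have hle : (powMonoidHom (q + 1) : Fˣ →* Fˣ).range ≤ (powMonoidHom (q - 1) : Fˣ →* Fˣ).ker := by
    rintro _ ⟨x, rfl⟩
    rw [MonoidHom.mem_ker, powMonoidHom_apply, powMonoidHom_apply, ← pow_mul, mul_comm, ← hfac,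
      ← hcard]
    exact pow_card_eq_one'
  have heq : (powMonoidHom (q + 1) : Fˣ →* Fˣ).range = (powMonoidHom (q - 1) : Fˣ →* Fˣ).ker := by
    apply Subgroup.eq_of_le_of_card_ge hle
    rw [IsCyclic.card_powMonoidHom_ker, IsCyclic.card_powMonoidHom_range, hcard, hfac,
      Nat.gcd_eq_right (Dvd.intro_left _ rfl), Nat.gcd_eq_right (Dvd.intro _ rfl),
      Nat.mul_div_cancel _ (by omega)]
  obtain ⟨x₀, hx₀⟩ : u ∈ (powMonoidHom (q + 1) : Fˣ →* Fˣ).range := heq ▸ hu
  rw [powMonoidHom_apply] at hx₀
  have hx₀' : (x₀ : F) ^ (q + 1) = μ := by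
    have := congrArg Units.val hx₀
    simpa [u] using this
  have hbij : Nat.card {x : F // x ^ (q + 1) = μ}
      = Nat.card (powMonoidHom (q + 1) : Fˣ →* Fˣ).ker := by
    apply Nat.card_congr
    refine
      { toFun := fun x => ⟨Units.mk0 x.1 (by
            intro h0
            have := x.2
            rw [h0, zero_pow (by omega)] at this
            exact hμ this.symm) / x₀, ?_⟩
        invFun := fun z => ⟨((z.1 * x₀ : Fˣ) : F), ?_⟩
        left_inv := ?_
        right_inv := ?_ }
    · rw [MonoidHom.mem_ker, powMonoidHom_apply, div_pow, hx₀]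
      apply Units.ext
      simp only [Units.val_div_eq_div_val, Units.val_pow_eq_pow_val, Units.val_mk0, u,
        Units.val_one, x.2]
      exact div_self hμ
    · have hz := z.2
      rw [MonoidHom.mem_ker, powMonoidHom_apply] at hz
      have hz' : ((z.1 : Fˣ) : F) ^ (q + 1) = 1 := by
        have := congrArg Units.val hz
        simpa using this
      rw [Units.val_mul, mul_pow, hz', hx₀', one_mul]
    · intro x
      apply Subtype.ext
      simp
    · intro z
      apply Subtype.ext
      apply Units.ext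
      simp
  rw [hbij, IsCyclic.card_powMonoidHom_ker, hcard, hfac, Nat.gcd_eq_right (Dvd.intro_left _ rfl)]

end Cfsg.Agent.S0754
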