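import Cfsg.Statements.S0757
-- import your own Cfsg.Agent.* helpers here

set_option autoImplicit false
open Cfsg

namespace Cfsg.Agent.S0757

theorem toMatrix'_wss {F : Type*} [Field F] [Invertible (2 : F)] {ι : Type*} [Fintype ι]
    [DecidableEq ι] (w : ι → F) :
    QuadraticForm.toMatrix' (QuadraticMap.weightedSumSquares F w) = Matrix.diagonal w := by
  ext i j
  rw [QuadraticForm.toMatrix', LinearMap.toMatrix₂'_apply, QuadraticMap.associated_apply]
  simp only [QuadraticMap.weightedSumSquares_apply, Pi.add_apply, smul_eq_mul]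
  rw [← Finset.sum_sub_distrib, ← Finset.sum_sub_distrib]
  have h : ∀ k : ι, w k * (((Pi.single i 1 : ι → F) k + (Pi.single j 1 : ι → F) k)
      * ((Pi.single i 1 : ι → F) k + (Pi.single j 1 : ι → F) k))
      - w k * ((Pi.single i 1 : ι → F) k * (Pi.single i 1 : ι → F) k)
      - w k * ((Pi.single j 1 : ι → F) k * (Pi.single j 1 : ι → F) k)
      = 2 * (w k * ((Pi.single i 1 : ι → F) k * (Pi.single j 1 : ι → F) k)) := by
    intro k; ring
  simp only [h]
  rw [← Finset.mul_sum]
  simp only [Pi.single_apply, mul_ite, mul_one, mul_zero, ite_mul, one_mul, zero_mul]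
  by_cases hij : i = j
  · subst hij
    have h2 : (2 : F) ≠ 0 := Invertible.ne_zero 2
    simp
    field_simp
  · simp [hij, Matrix.diagonal_apply_ne _ hij]
    intro h; exact absurd h.symm hij

/-- The two diagonal forms Σ x_i^2 and Σ_(i<n) x_i^2 + α x_n^2 on F^(n+1), with α a non-square and 2 ≠ 0 in F, are inequivalent quadratic forms (so over a finite field of odd order there are exactly two classes of non-singular symmetric bilinear forms in each dimension). -/
theorem result {F : Type*} [Field F] (h2 : (2 : F) ≠ 0) (n : ℕ) (α : F) (hα : ¬ IsSquare α) : ¬ (QuadraticMap.weightedSumSquares F (fun _ : Fin (n + 1) => (1 : F))).Equivalent (QuadraticMap.weightedSumSquares F (fun i : Fin (n + 1) => if i = Fin.last n then α else (1 : F))) := by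
  haveI : Invertible (2 : F) := invertibleOfNonzero h2
  rintro ⟨e⟩
  have hcomp : QuadraticMap.weightedSumSquares F (fun _ : Fin (n + 1) => (1 : F))
      = (QuadraticMap.weightedSumSquares F
          (fun i : Fin (n + 1) => if i = Fin.last n then α else (1 : F))).comp
          (e.toLinearEquiv : (Fin (n + 1) → F) →ₗ[F] (Fin (n + 1) → F)) := by
    ext x
    simp only [QuadraticMap.comp_apply]
    exact (e.map_app x).symm
  have hd := congrArg QuadraticForm.discr' hcomp
  rw [QuadraticForm.discr'_comp, QuadraticForm.discr', QuadraticForm.discr', toMatrix'_wss,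
    toMatrix'_wss, Matrix.det_diagonal, Matrix.det_diagonal] at hd
  have hprod : ∏ i : Fin (n + 1), (if i = Fin.last n then α else (1 : F)) = α := by
    rw [Finset.prod_ite_eq' Finset.univ (Fin.last n) (fun _ => α)] 
    simp
  rw [hprod] at hd
  simp only [Finset.prod_const_one] at hd
  set d := (LinearMap.toMatrix' (e.toLinearEquiv : (Fin (n + 1) → F) →ₗ[F] (Fin (n + 1) → F))).det
  have hd0 : d ≠ 0 := by
    rintro h0
    rw [h0] at hd
    simp at hd
  apply hα
  refine ⟨d⁻¹, ?_⟩
  field_simp
  linear_combination -hd

end Cfsg.Agent.S0757
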