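import Cfsg.Statements.S0759
import Cfsg.Agent.Lib.Helper17SymmForm

set_option autoImplicit false
open Cfsg Cfsg.Agent.Lib.Helper17SymmForm
open scoped Matrix

namespace Cfsg.Agent.S0759

theorem graph_lemma {F : Type*} [Field F] {ι κ : Type*} [Fintype ι] [Fintype κ] (e : ι ⊕ ι ≃ κ)
    (T : (ι → F) →ₗ[F] (ι → F)) (hT : ∀ x, ∑ j, (T x j) ^ 2 = - ∑ j, (x j) ^ 2) :
    ∃ W : Submodule F (κ → F), Module.finrank F W = Fintype.card ι ∧
      ∀ w ∈ W, ∑ k, w k ^ 2 = 0 := by
  let Φ : (ι → F) →ₗ[F] (κ → F) :=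
    { toFun := fun x k => Sum.elim x (T x) (e.symm k)
      map_add' := by
        intro x y; ext k
        simp only [Pi.add_apply]
        rcases e.symm k with j | j <;> simp
      map_smul' := by
        intro a x; ext k
        simp only [Pi.smul_apply, RingHom.id_apply]
        rcases e.symm k with j | j <;> simp }
  have hΦ : ∀ x k, Φ x k = Sum.elim x (T x) (e.symm k) := fun x k => rfl
  have hinj : Function.Injective Φ := by
    intro x y hxy
    funext j
    have := congrFun hxy (e (Sum.inl j))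
    simpa [hΦ] using this
  refine ⟨LinearMap.range Φ, ?_, ?_⟩
  · rw [LinearMap.finrank_range_of_inj hinj, Module.finrank_fintype_fun_eq_card]
  · rintro _ ⟨x, rfl⟩
    simp only [hΦ]
    rw [Equiv.sum_comp e.symm (fun s => (Sum.elim x (T x) s) ^ 2), Fintype.sum_sum_type]
    simp [hT]

theorem det_antiblock {F : Type*} [Field F] (m : ℕ) (A C D : Matrix (Fin m) (Fin m) F) :
    (Matrix.fromBlocks 0 A C D).det = (-1) ^ m * (A.det * C.det) := by
  have h1 : Matrix.fromBlocks 0 A C D * Matrix.J (Fin m) F = Matrix.fromBlocks A 0 D (-C) := by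
    rw [Matrix.J, Matrix.fromBlocks_multiply]
    simp
  have h2 := congrArg Matrix.det h1
  rw [Matrix.det_mul, SymplecticGroup.det_eq_one (SymplecticGroup.J_mem _ _), mul_one,
    Matrix.det_fromBlocks_zero₁₂, Matrix.det_neg] at h2
  rw [h2]
  simp
  ring

theorem isSquare_of_isotropic {F : Type*} [Field F] (h2 : (2 : F) ≠ 0) (m : ℕ)
    (W : Submodule F (Fin (2 * m) → F)) (hWm : Module.finrank F W = m)
    (hW : ∀ w ∈ W, ∑ i, w i ^ 2 = 0) : IsSquare ((-1 : F) ^ m) := by
  classical
  let B : LinearMap.BilinForm F (Fin (2 * m) → F) := Matrix.toBilin' 1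
  have hB : ∀ x y, B x y = ∑ i, x i * y i := by
    intro x y
    simp [B, Matrix.toBilin'_apply', dotProduct]
  have hBW : ∀ x ∈ W, ∀ y ∈ W, B x y = 0 := by
    intro x hx y hy
    have e1 := hW x hx
    have e2 := hW y hy
    have e3 := hW (x + y) (W.add_mem hx hy)
    have e4 : ∑ i, (x + y) i ^ 2 = ∑ i, x i ^ 2 + ∑ i, y i ^ 2 + 2 * ∑ i, x i * y i := by
      rw [Finset.mul_sum, ← Finset.sum_add_distrib, ← Finset.sum_add_distrib]
      apply Finset.sum_congr rfl
      intro i _
      simp only [Pi.add_apply]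
      ring
    rw [e4, e1, e2] at e3
    rw [hB]
    have : 2 * ∑ i, x i * y i = 0 := by linear_combination e3
    exact (mul_eq_zero.mp this).resolve_left h2
  obtain ⟨W', hW'⟩ := Submodule.exists_isCompl W
  have hW'm : Module.finrank F W' = m := by
    have := Submodule.finrank_add_eq_of_isCompl hW'
    rw [hWm, Module.finrank_fintype_fun_eq_card, Fintype.card_fin] at this
    omega
  let bW : Module.Basis (Fin m) F W := Module.finBasisOfFinrankEq F W hWm
  let bW' : Module.Basis (Fin m) F W' := Module.finBasisOfFinrankEq F W' hW'm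
  let c : Module.Basis (Fin m ⊕ Fin m) F (Fin (2 * m) → F) :=
    (bW.prod bW').map (Submodule.prodEquivOfIsCompl W W' hW')
  have hc : ∀ i, c (Sum.inl i) = (bW i : Fin (2 * m) → F) := by
    intro i
    simp [c]
  let e : Fin m ⊕ Fin m ≃ Fin (2 * m) := Fintype.equivOfCardEq (by simp; ring)
  let b : Module.Basis (Fin m ⊕ Fin m) F (Fin (2 * m) → F) :=
    (Pi.basisFun F (Fin (2 * m))).reindex e.symm
  have hb1 : LinearMap.BilinForm.toMatrix b B = 1 := by
    ext i j
    rw [LinearMap.BilinForm.toMatrix_apply, hB]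
    simp only [b, Module.Basis.reindex_apply, Equiv.symm_symm, Pi.basisFun_apply]
    simp only [Pi.single_apply, Matrix.one_apply, mul_ite, mul_one, mul_zero, Finset.sum_ite_eq',
      Finset.mem_univ, if_true, EmbeddingLike.apply_eq_iff_eq]
    by_cases hij : i = j
    · simp [hij]
    · simp [hij, Ne.symm hij]
  set G := LinearMap.BilinForm.toMatrix c B with hG
  set P := b.toMatrix c with hP
  have hGP : Pᵀ * P = G := by
    have := LinearMap.BilinForm.toMatrix_mul_basis_toMatrix b c B
    rw [hb1, Matrix.mul_one] at this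
    exact this
  have hPdet : P.det ≠ 0 := by
    have h1 : P * c.toMatrix b = 1 := Module.Basis.toMatrix_mul_toMatrix_flip b c
    have h3 := congrArg Matrix.det h1
    rw [Matrix.det_mul, Matrix.det_one] at h3
    intro h0
    rw [h0, zero_mul] at h3
    exact zero_ne_one h3
  have hG11 : G.toBlocks₁₁ = 0 := by
    ext i j
    simp only [Matrix.toBlocks₁₁, Matrix.of_apply, hG, LinearMap.BilinForm.toMatrix_apply, hc,
      Matrix.zero_apply]
    exact hBW _ (bW i).2 _ (bW j).2
  have hG21 : G.toBlocks₂₁ = G.toBlocks₁₂ᵀ := by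
    ext i j
    simp only [Matrix.toBlocks₂₁, Matrix.toBlocks₁₂, Matrix.of_apply, hG,
      LinearMap.BilinForm.toMatrix_apply, Matrix.transpose_apply, hB]
    apply Finset.sum_congr rfl
    intro k _
    ring
  have hdet : G.det = (-1) ^ m * (G.toBlocks₁₂.det * G.toBlocks₁₂.det) := by
    conv_lhs => rw [← Matrix.fromBlocks_toBlocks G, hG11, hG21]
    rw [det_antiblock, Matrix.det_transpose]
  have hdetG : G.det = P.det * P.det := by
    rw [← hGP, Matrix.det_mul, Matrix.det_transpose]
  rw [hdetG] at hdet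
  have hA : G.toBlocks₁₂.det ≠ 0 := by
    intro h0
    rw [h0] at hdet
    simp at hdet
    exact hPdet hdet
  refine ⟨P.det / G.toBlocks₁₂.det, ?_⟩
  field_simp
  linear_combination -hdet

/-- Type of the orthonormal form: over a finite field of odd order q and for m ≥ 1, the quadratic form Σ_(i<2m) x_i² on F^(2m) admits an m-dimensional subspace on which it vanishes identically if and only if it is not the case that q ≡ 3 (mod 4) and m is odd. -/
theorem result {F : Type*} [Field F] [Fintype F] (h2 : (2 : F) ≠ 0) (m : ℕ) (hm : 1 ≤ m) : (∃ W : Submodule F (Fin (2 * m) → F), Module.finrank F W = m ∧ ∀ w ∈ W, ∑ i, w i ^ 2 = 0) ↔ ¬ (Fintype.card F % 4 = 3 ∧ Odd m) := by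
  classical
  have hsq := FiniteField.isSquare_neg_one_iff (F := F)
  constructor
  · rintro ⟨W, hWm, hW⟩ ⟨h3, hodd⟩
    have h1 := isSquare_of_isotropic h2 m W hWm hW
    rw [hodd.neg_one_pow] at h1
    exact (hsq.1 h1) h3
  · intro h
    by_cases h3 : Fintype.card F % 4 = 3
    · have hev : Even m := by
        rw [← Nat.not_odd_iff_even]
        intro hodd
        exact h ⟨h3, hodd⟩
      obtain ⟨m', hm'⟩ := hev
      obtain ⟨a, b, hab⟩ := exists_sol h2 1 1 (-1) one_ne_zero one_ne_zero
      let T : (Fin m' ⊕ Fin m' → F) →ₗ[F] (Fin m' ⊕ Fin m' → F) :=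
        { toFun := fun x => Sum.elim (fun j => a * x (Sum.inl j) + b * x (Sum.inr j))
            (fun j => -b * x (Sum.inl j) + a * x (Sum.inr j))
          map_add' := by
            intro x y; ext (j | j) <;> simp <;> ring
          map_smul' := by
            intro r x; ext (j | j) <;> simp <;> ring }
      have hT : ∀ x, ∑ j, (T x j) ^ 2 = - ∑ j, (x j) ^ 2 := by
        intro x
        simp only [T, LinearMap.coe_mk, AddHom.coe_mk, Fintype.sum_sum_type, Sum.elim_inl,
          Sum.elim_inr]
        rw [← Finset.sum_add_distrib, ← Finset.sum_add_distrib, ← Finset.sum_neg_distrib]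
        apply Finset.sum_congr rfl
        intro j _
        linear_combination (x (Sum.inl j) ^ 2 + x (Sum.inr j) ^ 2) * hab
      obtain ⟨W, hW1, hW2⟩ := graph_lemma
        (Fintype.equivOfCardEq (by simp [hm']; ring) :
          (Fin m' ⊕ Fin m') ⊕ (Fin m' ⊕ Fin m') ≃ Fin (2 * m)) T hT
      exact ⟨W, by rw [hW1]; simp [hm'], hW2⟩
    · obtain ⟨i, hi⟩ := hsq.2 h3
      have hT : ∀ x : Fin m → F, ∑ j, ((i • LinearMap.id : (Fin m → F) →ₗ[F] (Fin m → F)) x j) ^ 2
          = - ∑ j, (x j) ^ 2 := by
        intro x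
        rw [← Finset.sum_neg_distrib]
        apply Finset.sum_congr rfl
        intro j _
        simp only [LinearMap.smul_apply, LinearMap.id_apply, Pi.smul_apply, smul_eq_mul]
        linear_combination (-(x j) ^ 2) * hi
      obtain ⟨W, hW1, hW2⟩ := graph_lemma
        (Fintype.equivOfCardEq (by simp; ring) : Fin m ⊕ Fin m ≃ Fin (2 * m)) _ hT
      exact ⟨W, by rw [hW1]; simp, hW2⟩

end Cfsg.Agent.S0759
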