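import Cfsg.Statements.S0761
-- import your own Cfsg.Agent.* helpers here

set_option autoImplicit false
open Cfsg

namespace Cfsg.Agent.S0761

/-- Hyperbolic partners: let B be a non-degenerate bilinear form on a finite-dimensional space, either alternating, or symmetric with 2 ≠ 0. If Z is a subspace on which B vanishes, x ∉ Z is isotropic and orthogonal to Z, then there is an isotropic y with B x y = 1 which is orthogonal to Z. -/
theorem result {F V : Type*} [Field F] [AddCommGroup V] [Module F V] [FiniteDimensional F V] (B : LinearMap.BilinForm F V) (hB : B.Nondegenerate) (hform : B.IsAlt ∨ (B.IsSymm ∧ (2 : F) ≠ 0)) (x : V) (Z : Submodule F V) (hxZ : x ∉ Z) (hx : B x x = 0) (hxz : ∀ z ∈ Z, B x z = 0) (hZ : ∀ z ∈ Z, ∀ z' ∈ Z, B z z' = 0) : ∃ y : V, B y y = 0 ∧ B x y = 1 ∧ ∀ z ∈ Z, B z y = 0 := by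
  obtain ⟨f, hfx, hfZ⟩ := Submodule.exists_le_ker_of_notMem hxZ
  have hy₁ : ∀ v, B ((B.toDual hB).symm f) v = f v :=
    fun v => LinearMap.BilinForm.apply_toDual_symm_apply f v
  generalize (B.toDual hB).symm f = y₁ at hy₁
  have hfz : ∀ z ∈ Z, f z = 0 := fun z hz => hfZ hz
  rcases hform with hA | ⟨hS, h2⟩
  · have hsw : ∀ v, B v y₁ = - f v := by
      intro v
      rw [← hy₁ v, hA.neg_eq]
    refine ⟨(-(f x)⁻¹) • y₁, hA _, ?_, ?_⟩
    · rw [map_smul, hsw, smul_eq_mul]
      field_simp
    · intro z hz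
      rw [map_smul, hsw, hfz z hz]
      simp
  · have hsw : ∀ v, B v y₁ = f v := by
      intro v
      rw [← hy₁ v, hS.eq]
    set y₀ := (f x)⁻¹ • y₁ with hy₀
    have h1 : B x y₀ = 1 := by
      rw [hy₀, map_smul, hsw, smul_eq_mul]
      field_simp
    have h1' : B y₀ x = 1 := by rw [hS.eq, h1]
    have h3 : ∀ z ∈ Z, B z y₀ = 0 := by
      intro z hz
      rw [hy₀, map_smul, hsw, hfz z hz]
      simp
    refine ⟨y₀ - (B y₀ y₀ / 2) • x, ?_, ?_, ?_⟩
    · simp only [map_sub, map_smul, LinearMap.sub_apply, LinearMap.smul_apply, smul_eq_mul, h1, h1',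
        hx]
      field_simp
      ring
    · simp only [map_sub, map_smul, smul_eq_mul, h1, hx]
      ring
    · intro z hz
      simp only [map_sub, map_smul, smul_eq_mul, h3 z hz, hS.eq z x, hxz z hz]
      ring

end Cfsg.Agent.S0761
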