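import Cfsg.Statements.S0763
-- import your own Cfsg.Agent.* helpers here

set_option autoImplicit false
open Cfsg

namespace Cfsg.Agent.S0763

/-- Binary quadratic forms in characteristic two over a finite field: if Q is a quadratic form on a 2-dimensional space whose polar form is non-degenerate, then either there are vectors v, w with Q v = Q w = 0 and polar value 1 (Q is xy in these coordinates), or there are v, w and μ with Q v = 1, Q w = μ, polar value 1 and x² + x + μ without roots in F (Q is x² + xy + μy²). -/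
theorem result {F V : Type*} [Field F] [Finite F] [CharP F 2] [AddCommGroup V] [Module F V] (Q : QuadraticForm F V) (h2 : Module.finrank F V = 2) (hQ : (QuadraticMap.polarBilin Q).Nondegenerate) : (∃ v w : V, LinearIndependent F ![v, w] ∧ Q v = 0 ∧ Q w = 0 ∧ QuadraticMap.polar Q v w = 1) ∨ (∃ (v w : V) (μ : F), LinearIndependent F ![v, w] ∧ (∀ x : F, x ^ 2 + x + μ ≠ 0) ∧ Q v = 1 ∧ Q w = μ ∧ QuadraticMap.polar Q v w = 1) := by
  have hnt : Nontrivial V := Module.nontrivial_of_finrank_pos (R := F) (by omega)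
  have hchar : ringChar F = 2 := ringChar.eq F 2
  have hself : ∀ v : V, QuadraticMap.polar (⇑Q) v v = 0 := by
    intro v
    rw [QuadraticMap.polar_self, two_nsmul]
    exact CharTwo.add_self_eq_zero _
  have hadd : ∀ x y : V, Q (x + y) = Q x + Q y + QuadraticMap.polar (⇑Q) x y := by
    intro x y
    simp [QuadraticMap.polar]
  have hA : ∀ v w : V, QuadraticMap.polar (⇑Q) v w = 1 → LinearIndependent F ![v, w] := by
    intro v w hvw
    rw [LinearIndependent.pair_iff]
    intro s t hst
    have h1 : QuadraticMap.polar (⇑Q) v (s • v + t • w) = 0 := by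
      rw [hst]; exact QuadraticMap.polar_zero_right Q v
    have h3 : QuadraticMap.polar (⇑Q) (s • v + t • w) w = 0 := by
      rw [hst]; exact QuadraticMap.polar_zero_left Q w
    rw [QuadraticMap.polar_add_right, QuadraticMap.polar_smul_right, QuadraticMap.polar_smul_right,
      hself, hvw] at h1
    rw [QuadraticMap.polar_add_left, QuadraticMap.polar_smul_left, QuadraticMap.polar_smul_left,
      hself, hvw] at h3
    simp only [smul_eq_mul, mul_zero, mul_one, zero_add, add_zero] at h1 h3
    exact ⟨h3, h1⟩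
  have hBx : ∀ v : V, v ≠ 0 → ∃ w : V, QuadraticMap.polar (⇑Q) v w = 1 := by
    intro v hv
    have : ∃ w₀, QuadraticMap.polar (⇑Q) v w₀ ≠ 0 := by
      by_contra hcon
      push Not at hcon
      exact hv (hQ.1 v hcon)
    obtain ⟨w₀, hw₀⟩ := this
    refine ⟨(QuadraticMap.polar (⇑Q) v w₀)⁻¹ • w₀, ?_⟩
    rw [QuadraticMap.polar_smul_right, smul_eq_mul, inv_mul_cancel₀ hw₀]
  by_cases hsing : ∃ v : V, v ≠ 0 ∧ Q v = 0
  · left
    obtain ⟨v, hv, hQv⟩ := hsing
    obtain ⟨w₀, hw₀⟩ := hBx v hv
    have hpol : QuadraticMap.polar (⇑Q) v (w₀ + Q w₀ • v) = 1 := by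
      rw [QuadraticMap.polar_add_right, QuadraticMap.polar_smul_right, hself, hw₀]
      simp
    refine ⟨v, w₀ + Q w₀ • v, hA _ _ hpol, hQv, ?_, hpol⟩
    rw [hadd, QuadraticMap.map_smul, hQv, QuadraticMap.polar_smul_right,
      QuadraticMap.polar_comm, hw₀]
    simp only [smul_eq_mul, mul_zero, add_zero, mul_one]
    exact CharTwo.add_self_eq_zero _
  · right
    push Not at hsing
    obtain ⟨v₀, hv₀⟩ := exists_ne (0 : V)
    have ha := hsing v₀ hv₀
    obtain ⟨s, hs⟩ := FiniteField.isSquare_of_char_two hchar (Q v₀)⁻¹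
    have hs0 : s ≠ 0 := by
      rintro rfl
      simp at hs
      exact ha hs
    have hv : s • v₀ ≠ 0 := smul_ne_zero hs0 hv₀
    obtain ⟨w, hw⟩ := hBx (s • v₀) hv
    have hQv : Q (s • v₀) = 1 := by
      rw [QuadraticMap.map_smul, ← hs, smul_eq_mul, inv_mul_cancel₀ ha]
    refine ⟨s • v₀, w, Q w, hA _ _ hw, ?_, hQv, rfl, hw⟩
    intro x
    have hne : x • (s • v₀) + w ≠ 0 := by
      intro h0
      have h1 : QuadraticMap.polar (⇑Q) (s • v₀) (x • (s • v₀) + w) = 0 := by
        rw [h0]; exact QuadraticMap.polar_zero_right Q _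
      rw [QuadraticMap.polar_add_right, QuadraticMap.polar_smul_right, hself, hw] at h1
      simp at h1
    have h1 := hsing _ hne
    rw [hadd, QuadraticMap.map_smul, hQv, QuadraticMap.polar_smul_left, hw] at h1
    simp only [smul_eq_mul, mul_one] at h1
    intro h0
    apply h1
    linear_combination h0

end Cfsg.Agent.S0763
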