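import Cfsg.Statements.S0769
-- import your own Cfsg.Agent.* helpers here

set_option autoImplicit false
open Cfsg

namespace Cfsg.Agent.S0769

theorem card_pairs (n : ℕ) : Fintype.card {p : Fin n × Fin n // p.2 < p.1} = n * (n - 1) / 2 := by
  rw [Fintype.card_congr (Equiv.subtypeProdEquivSigmaSubtype (fun a b : Fin n => b < a)),
    Fintype.card_sigma]
  have h : ∀ a : Fin n, Fintype.card {b : Fin n // b < a} = (a : ℕ) := by
    intro a
    rw [Fintype.card_subtype]
    have : (Finset.univ.filter (fun b : Fin n => b < a)) = Finset.Iio a := by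
      ext b; simp
    rw [this, Fin.card_Iio]
  simp only [h]
  rw [Fin.sum_univ_eq_sum_range (fun i => i) n, Finset.sum_range_id]

/-- The lower triangular matrix with given diagonal and strictly lower part. -/
def mat {F : Type*} [Field F] {n : ℕ} (d : Fin n → Fˣ) (s : {p : Fin n × Fin n // p.2 < p.1} → F) :
    Matrix (Fin n) (Fin n) F :=
  Matrix.of fun i j => if h : j < i then s ⟨(i, j), h⟩ else if i = j then (d i : F) else 0

theorem mat_lower {F : Type*} [Field F] {n : ℕ} (d : Fin n → Fˣ)
    (s : {p : Fin n × Fin n // p.2 < p.1} → F) (i j : Fin n) (hij : i < j) : mat d s i j = 0 := by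
  simp [mat, not_lt.mpr hij.le, hij.ne]

theorem det_lower {F : Type*} [Field F] {n : ℕ} (M : Matrix (Fin n) (Fin n) F)
    (h : ∀ i j, i < j → M i j = 0) : M.det = ∏ i, M i i :=
  Matrix.det_of_isLowerTriangular M (fun i j hij => h i j hij)

theorem mat_det {F : Type*} [Field F] {n : ℕ} (d : Fin n → Fˣ)
    (s : {p : Fin n × Fin n // p.2 < p.1} → F) : (mat d s).det ≠ 0 := by
  rw [det_lower _ (mat_lower d s), Finset.prod_ne_zero_iff]
  intro i _
  simp [mat]

/-- Order of the Borel subgroup of GL_n(q): the invertible lower-triangular n × n matrices over a field with q elements number q^(n(n-1)/2) (q-1)^n (unitriangular part times the diagonal torus). -/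
theorem result {F : Type*} [Field F] [Fintype F] {q : ℕ} (hF : Fintype.card F = q) (n : ℕ) : Nat.card {g : Matrix.GeneralLinearGroup (Fin n) F // ∀ i j : Fin n, i < j → (g : Matrix (Fin n) (Fin n) F) i j = 0} = q ^ (n * (n - 1) / 2) * (q - 1) ^ n := by
  classical
  have hdiag : ∀ (g : {g : Matrix.GeneralLinearGroup (Fin n) F //
      ∀ i j : Fin n, i < j → (g : Matrix (Fin n) (Fin n) F) i j = 0}) (i : Fin n),
      (g.1 : Matrix (Fin n) (Fin n) F) i i ≠ 0 := by
    intro g i
    have hdet : (g.1 : Matrix (Fin n) (Fin n) F).det ≠ 0 :=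
      (Matrix.GeneralLinearGroup.det g.1).ne_zero
    rw [det_lower _ g.2, Finset.prod_ne_zero_iff] at hdet
    exact hdet i (Finset.mem_univ i)
  let e : {g : Matrix.GeneralLinearGroup (Fin n) F //
      ∀ i j : Fin n, i < j → (g : Matrix (Fin n) (Fin n) F) i j = 0}
      ≃ (Fin n → Fˣ) × ({p : Fin n × Fin n // p.2 < p.1} → F) :=
    { toFun := fun g => (fun i => Units.mk0 _ (hdiag g i),
        fun p => (g.1 : Matrix (Fin n) (Fin n) F) p.1.1 p.1.2)
      invFun := fun ds => ⟨Matrix.GeneralLinearGroup.mkOfDetNeZero (mat ds.1 ds.2) (mat_det _ _),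
        mat_lower ds.1 ds.2⟩
      left_inv := by
        intro g
        apply Subtype.ext
        apply Units.ext
        ext i j
        change mat _ _ i j = _
        simp only [mat, Matrix.of_apply]
        split_ifs with h1 h2
        · rfl
        · subst h2; rfl
        · have : i < j := lt_of_le_of_ne (not_lt.mp h1) h2
          exact (g.2 i j this).symm
      right_inv := by
        rintro ⟨d, s⟩
        apply Prod.ext
        · funext i
          apply Units.ext
          change mat d s i i = _
          simp [mat]
        · funext p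
          change mat d s p.1.1 p.1.2 = _
          simp [mat, p.2] }
  rw [Nat.card_congr e, Nat.card_eq_fintype_card, Fintype.card_prod, Fintype.card_fun,
    Fintype.card_fun, Fintype.card_units, card_pairs, hF, Fintype.card_fin, mul_comm]

end Cfsg.Agent.S0769
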