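import Cfsg.Statements.S0770
-- import your own Cfsg.Agent.* helpers here

set_option autoImplicit false
open Cfsg

namespace Cfsg.Agent.S0770

theorem mem_T_iff {F : Type*} [Field F] (n : ℕ) (x : Matrix.GeneralLinearGroup (Fin n) F) :
    x ∈ ((Units.map (Matrix.diagonalRingHom (Fin n) F).toMonoidHom).range :
      Subgroup (Matrix.GeneralLinearGroup (Fin n) F)) ↔
      ∃ d : Fin n → F, (x : Matrix (Fin n) (Fin n) F) = Matrix.diagonal d := by
  constructor
  · rintro ⟨u, rfl⟩
    exact ⟨u.1, rfl⟩
  · rintro ⟨d, hd⟩
    have hdet : (x : Matrix (Fin n) (Fin n) F).det ≠ 0 := (Matrix.GeneralLinearGroup.det x).ne_zero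
    rw [hd, Matrix.det_diagonal] at hdet
    have hne : ∀ i, d i ≠ 0 := fun i => (Finset.prod_ne_zero_iff.mp hdet) i (Finset.mem_univ i)
    refine ⟨⟨d, fun i => (d i)⁻¹, ?_, ?_⟩, ?_⟩
    · funext i; simp [hne i]
    · funext i; simp [hne i]
    · apply Units.ext
      rw [hd]; rfl

/-- For a field with at least 3 elements, an invertible matrix normalises the subgroup of invertible diagonal matrices of GL_n if and only if it is monomial (exactly one non-zero entry in each row). -/
theorem result {F : Type*} [Field F] (hF : ∃ a : F, a ≠ 0 ∧ a ≠ 1) (n : ℕ) (g : Matrix.GeneralLinearGroup (Fin n) F) : g ∈ Subgroup.normalizer ((Units.map (Matrix.diagonalRingHom (Fin n) F).toMonoidHom).range : Subgroup (Matrix.GeneralLinearGroup (Fin n) F)) ↔ ∀ i : Fin n, ∃! j : Fin n, (g : Matrix (Fin n) (Fin n) F) i j ≠ 0 := by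
  have hdet : (g : Matrix (Fin n) (Fin n) F).det ≠ 0 := (Matrix.GeneralLinearGroup.det g).ne_zero
  rw [Subgroup.mem_normalizer_iff]
  constructor
  · intro hN i
    obtain ⟨a, ha0, ha1⟩ := hF
    obtain ⟨j, hj⟩ : ∃ j, (g : Matrix (Fin n) (Fin n) F) i j ≠ 0 := by
      by_contra hcon
      push Not at hcon
      exact hdet (Matrix.det_eq_zero_of_row_eq_zero i hcon)
    refine ⟨j, hj, ?_⟩
    intro l hl
    by_contra hlj
    let u : (Fin n → F)ˣ := ⟨Function.update 1 j a, Function.update 1 j a⁻¹, by
      funext k
      by_cases hk : k = j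
      · subst hk; simp [ha0]
      · simp [hk], by
      funext k
      by_cases hk : k = j
      · subst hk; simp [ha0]
      · simp [hk]⟩
    let t : Matrix.GeneralLinearGroup (Fin n) F :=
      Units.map (Matrix.diagonalRingHom (Fin n) F).toMonoidHom u
    have ht : (t : Matrix (Fin n) (Fin n) F) = Matrix.diagonal (Function.update 1 j a) := rfl
    have h1 := (hN t).1 ⟨u, rfl⟩
    rw [mem_T_iff] at h1
    obtain ⟨d', hd'⟩ := h1
    have h2 : (g : Matrix (Fin n) (Fin n) F) * Matrix.diagonal (Function.update 1 j a)
        = Matrix.diagonal d' * (g : Matrix (Fin n) (Fin n) F) := by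
      rw [← hd', ← ht]
      simp only [Units.val_mul]
      rw [mul_assoc, Units.inv_mul, mul_one]
    have e1 := congrFun (congrFun h2 i) j
    have e2 := congrFun (congrFun h2 i) l
    rw [Matrix.mul_diagonal, Matrix.diagonal_mul] at e1 e2
    simp only [Function.update_self] at e1
    rw [Function.update_of_ne hlj] at e2
    simp only [Pi.one_apply, mul_one] at e2
    have e3 : d' i = 1 := by
      have : (d' i - 1) * (g : Matrix (Fin n) (Fin n) F) i l = 0 := by linear_combination -e2
      rcases mul_eq_zero.mp this with h | h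
      · linear_combination h
      · exact absurd h hl
    rw [e3, one_mul] at e1
    apply ha1
    have : (a - 1) * (g : Matrix (Fin n) (Fin n) F) i j = 0 := by linear_combination e1
    rcases mul_eq_zero.mp this with h | h
    · linear_combination h
    · exact absurd h hj
  · intro hmono
    choose σ hσ huniq using hmono
    have hsurj : Function.Surjective σ := by
      intro j
      by_contra hcon
      push Not at hcon
      apply hdet
      apply Matrix.det_eq_zero_of_column_eq_zero j
      intro i
      by_contra hne
      exact hcon i (huniq i j hne).symm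
    have hbij : Function.Bijective σ := ⟨Finite.injective_iff_surjective.mpr hsurj, hsurj⟩
    have key : ∀ d : Fin n → F, (g : Matrix (Fin n) (Fin n) F) * Matrix.diagonal d
        = Matrix.diagonal (d ∘ σ) * (g : Matrix (Fin n) (Fin n) F) := by
      intro d
      ext i j
      rw [Matrix.mul_diagonal, Matrix.diagonal_mul]
      by_cases h0 : (g : Matrix (Fin n) (Fin n) F) i j = 0
      · rw [h0]; simp
      · rw [huniq i j h0]
        simp [mul_comm]
    intro h
    rw [mem_T_iff, mem_T_iff]
    constructor
    · rintro ⟨d, hd⟩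
      refine ⟨d ∘ σ, ?_⟩
      simp only [Units.val_mul]
      rw [hd, key, mul_assoc, Units.mul_inv, mul_one]
    · rintro ⟨d', hd'⟩
      let e := Equiv.ofBijective σ hbij
      refine ⟨d' ∘ e.symm, ?_⟩
      have h1 := key (d' ∘ e.symm)
      have h2 : (d' ∘ e.symm) ∘ σ = d' := by
        funext i
        simp only [Function.comp_apply]
        congr 1
        exact e.symm_apply_apply i
      rw [h2, ← hd'] at h1
      simp only [Units.val_mul] at h1
      rw [mul_assoc, Units.inv_mul, mul_one] at h1
      have h3 := congrArg (fun X => ((g⁻¹ : Matrix.GeneralLinearGroup (Fin n) F) :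
        Matrix (Fin n) (Fin n) F) * X) h1
      simp only [← mul_assoc, Units.inv_mul, one_mul] at h3
      exact h3.symm

end Cfsg.Agent.S0770
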