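import Cfsg.Statements.S0771
import Cfsg.Agent.Lib.Helper17Stab

set_option autoImplicit false
open Cfsg Cfsg.Agent.Lib.Helper17Stab

namespace Cfsg.Agent.S0771

/-- Maximal parabolic of GL_n(q): the stabiliser of the coordinate subspace spanned by the first k basis vectors has order q^(k(n-k)) · |GL_k(q)| · |GL_(n-k)(q)| (unipotent radical of order q^(k(n-k)) and Levi complement GL_k × GL_(n-k)). -/
theorem result {F : Type*} [Field F] [Fintype F] {q : ℕ} (hF : Fintype.card F = q) (n k : ℕ) (hk : k ≤ n) : Nat.card ↥(Cfsg.stabilizing (Cfsg.glToMat (Fin n) F) {v : Fin n → F | ∀ i : Fin n, k ≤ (i : ℕ) → v i = 0}) = q ^ (k * (n - k)) * (∏ i : Fin k, (q ^ k - q ^ (i : ℕ))) * ∏ i : Fin (n - k), (q ^ (n - k) - q ^ (i : ℕ)) := by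
  classical
  let e : Fin k ⊕ Fin (n - k) ≃ Fin n := finSumFinEquiv.trans (finCongr (by omega))
  have he_inl : ∀ i : Fin k, ((e (Sum.inl i) : Fin n) : ℕ) = i := by intro i; simp [e]
  have he_inr : ∀ j : Fin (n - k), ((e (Sum.inr j) : Fin n) : ℕ) = k + j := by intro j; simp [e]
  have hmem := mem_stab_Wk_iff (F := F) n k
  have hform : ∀ g : ↥(Cfsg.stabilizing (Cfsg.glToMat (Fin n) F)
      {v : Fin n → F | ∀ i : Fin n, k ≤ (i : ℕ) → v i = 0}),
      ((g.1 : Matrix (Fin n) (Fin n) F).submatrix e e)
        = Matrix.fromBlocks ((g.1 : Matrix (Fin n) (Fin n) F).submatrix e e).toBlocks₁₁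
          ((g.1 : Matrix (Fin n) (Fin n) F).submatrix e e).toBlocks₁₂ 0
          ((g.1 : Matrix (Fin n) (Fin n) F).submatrix e e).toBlocks₂₂ := by
    intro g
    conv_lhs => rw [← Matrix.fromBlocks_toBlocks ((g.1 : Matrix (Fin n) (Fin n) F).submatrix e e)]
    congr 1
    ext i j
    simp only [Matrix.toBlocks₂₁, Matrix.of_apply, Matrix.submatrix_apply, Matrix.zero_apply]
    exact (hmem g.1).1 g.2 _ _ (by rw [he_inr]; omega) (by rw [he_inl]; exact j.2)
  have hdet : ∀ g : ↥(Cfsg.stabilizing (Cfsg.glToMat (Fin n) F)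
      {v : Fin n → F | ∀ i : Fin n, k ≤ (i : ℕ) → v i = 0}),
      ((g.1 : Matrix (Fin n) (Fin n) F).submatrix e e).toBlocks₁₁.det *
        ((g.1 : Matrix (Fin n) (Fin n) F).submatrix e e).toBlocks₂₂.det ≠ 0 := by
    intro g
    rw [← Matrix.det_fromBlocks_zero₂₁, ← hform g, Matrix.det_submatrix_equiv_self]
    exact (Matrix.GeneralLinearGroup.det g.1).ne_zero
  let Φ : ↥(Cfsg.stabilizing (Cfsg.glToMat (Fin n) F)
      {v : Fin n → F | ∀ i : Fin n, k ≤ (i : ℕ) → v i = 0}) ≃
      Matrix.GeneralLinearGroup (Fin k) F × Matrix.GeneralLinearGroup (Fin (n - k)) F ×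
        Matrix (Fin k) (Fin (n - k)) F :=
    { toFun := fun g =>
        (Matrix.GeneralLinearGroup.mkOfDetNeZero _ (left_ne_zero_of_mul (hdet g)),
          Matrix.GeneralLinearGroup.mkOfDetNeZero _ (right_ne_zero_of_mul (hdet g)),
          ((g.1 : Matrix (Fin n) (Fin n) F).submatrix e e).toBlocks₁₂)
      invFun := fun x =>
        ⟨Matrix.GeneralLinearGroup.mkOfDetNeZero
          ((Matrix.fromBlocks (x.1 : Matrix (Fin k) (Fin k) F) x.2.2 0
            (x.2.1 : Matrix (Fin (n - k)) (Fin (n - k)) F)).submatrix e.symm e.symm) (by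
            rw [Matrix.det_submatrix_equiv_self, Matrix.det_fromBlocks_zero₂₁]
            exact mul_ne_zero (Matrix.GeneralLinearGroup.det x.1).ne_zero
              (Matrix.GeneralLinearGroup.det x.2.1).ne_zero), by
          rw [hmem]
          intro i j hi hj
          change (Matrix.fromBlocks (x.1 : Matrix (Fin k) (Fin k) F) x.2.2 0
            (x.2.1 : Matrix (Fin (n - k)) (Fin (n - k)) F)) (e.symm i) (e.symm j) = 0
          obtain ⟨i', rfl⟩ := e.surjective i
          obtain ⟨j', rfl⟩ := e.surjective j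
          rw [Equiv.symm_apply_apply, Equiv.symm_apply_apply]
          rcases i' with i' | i'
          · rw [he_inl] at hi
            exact absurd i'.2 (by omega)
          · rcases j' with j' | j'
            · rfl
            · rw [he_inr] at hj
              omega⟩
      left_inv := by
        intro g
        apply Subtype.ext
        apply Units.ext
        change (Matrix.fromBlocks _ _ 0 _).submatrix e.symm e.symm = _
        have h1 := hform g
        have h2 : ((Matrix.fromBlocks ((g.1 : Matrix (Fin n) (Fin n) F).submatrix e e).toBlocks₁₁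
          ((g.1 : Matrix (Fin n) (Fin n) F).submatrix e e).toBlocks₁₂ 0
          ((g.1 : Matrix (Fin n) (Fin n) F).submatrix e e).toBlocks₂₂).submatrix e.symm e.symm)
            = (g.1 : Matrix (Fin n) (Fin n) F) := by
          rw [← h1]
          simp
        exact h2
      right_inv := by
        rintro ⟨A, D, B⟩
        have h1 : ((Matrix.fromBlocks (A : Matrix (Fin k) (Fin k) F) B 0
            (D : Matrix (Fin (n - k)) (Fin (n - k)) F)).submatrix e.symm e.symm).submatrix e e
            = Matrix.fromBlocks (A : Matrix (Fin k) (Fin k) F) B 0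
              (D : Matrix (Fin (n - k)) (Fin (n - k)) F) := by
          simp
        refine Prod.ext ?_ (Prod.ext ?_ ?_)
        · apply Units.ext
          change (((Matrix.fromBlocks (A : Matrix (Fin k) (Fin k) F) B 0
            (D : Matrix (Fin (n - k)) (Fin (n - k)) F)).submatrix e.symm e.symm).submatrix
              e e).toBlocks₁₁ = _
          rw [h1, Matrix.toBlocks_fromBlocks₁₁]
        · apply Units.ext
          change (((Matrix.fromBlocks (A : Matrix (Fin k) (Fin k) F) B 0
            (D : Matrix (Fin (n - k)) (Fin (n - k)) F)).submatrix e.symm e.symm).submatrix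
              e e).toBlocks₂₂ = _
          rw [h1, Matrix.toBlocks_fromBlocks₂₂]
        · change (((Matrix.fromBlocks (A : Matrix (Fin k) (Fin k) F) B 0
            (D : Matrix (Fin (n - k)) (Fin (n - k)) F)).submatrix e.symm e.symm).submatrix
              e e).toBlocks₁₂ = _
          rw [h1, Matrix.toBlocks_fromBlocks₁₂] }
  rw [Nat.card_congr Φ, Nat.card_prod, Nat.card_prod, Matrix.card_GL_field, Matrix.card_GL_field, hF]
  have hM : Nat.card (Matrix (Fin k) (Fin (n - k)) F) = q ^ (k * (n - k)) := by
    rw [Nat.card_eq_fintype_card]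
    change Fintype.card (Fin k → Fin (n - k) → F) = _
    rw [Fintype.card_fun, Fintype.card_fun, hF, Fintype.card_fin, Fintype.card_fin, ← pow_mul,
      mul_comm]
  rw [hM]
  ring

end Cfsg.Agent.S0771
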