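import Cfsg.Statements.S0772
import Cfsg.Agent.Lib.Helper96Parabolic

set_option autoImplicit false
open Cfsg

namespace Cfsg.Agent.S0772

open Cfsg.Agent.Lib.Helper96Parabolic Cfsg.Agent.Lib.Helper95Basic

/-- Maximal parabolics are maximal: over a finite field, for 0 < k < n the stabiliser in GL_n of the span of the first k coordinate vectors is a maximal proper subgroup. -/
theorem result {F : Type*} [Field F] [Finite F] (n k : ℕ) (hk0 : 0 < k) (hkn : k < n) : IsCoatom (Cfsg.stabilizing (Cfsg.glToMat (Fin n) F) {v : Fin n → F | ∀ i : Fin n, k ≤ (i : ℕ) → v i = 0}) := by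
  have hnt : Nontrivial (Fin n) := Fin.nontrivial_iff_two_le.2 (by omega)
  let W : Submodule F (Fin n → F) :=
    { carrier := {v : Fin n → F | ∀ i : Fin n, k ≤ (i : ℕ) → v i = 0}
      add_mem' := fun {a b} ha hb i hi => by simp [ha i hi, hb i hi]
      zero_mem' := fun i _ => rfl
      smul_mem' := fun c x hx i hi => by simp [hx i hi] }
  have hWmem : ∀ v, v ∈ W ↔ ∀ i : Fin n, k ≤ (i : ℕ) → v i = 0 := fun v => Iff.rfl
  change IsCoatom (Cfsg.Geo.subspaceStabilizer W)
  have hW0 : W ≠ ⊥ := by
    intro h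
    have h1 : (Pi.single (⟨0, by omega⟩ : Fin n) (1 : F) : Fin n → F) ∈ W := by
      rw [hWmem]
      intro i hi
      rw [Pi.single_apply, if_neg]
      intro h2
      rw [h2] at hi
      simp at hi
      omega
    rw [h, Submodule.mem_bot] at h1
    have := congrFun h1 ⟨0, by omega⟩
    simp at this
  have hW1 : W ≠ ⊤ := by
    intro h
    have h1 : (Pi.single (⟨k, hkn⟩ : Fin n) (1 : F) : Fin n → F) ∈ W := by
      rw [h]; exact Submodule.mem_top
    have := (hWmem _).1 h1 ⟨k, hkn⟩ le_rfl
    simp at this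
  constructor
  · intro heq
    obtain ⟨g, -, hg2⟩ := exists_tv_not_stab W hW0 hW1
    apply hg2
    rw [heq]
    exact Subgroup.mem_top g
  · intro M hHM
    obtain ⟨g, hgM, hgH⟩ := SetLike.exists_of_lt hHM
    have hSL := specialLinear_le_of_stab W M (inf_le_left.trans hHM.le) g hgM hgH
    rw [eq_top_iff]
    intro x _
    set c : F := (x : Matrix (Fin n) (Fin n) F).det with hc
    have hc0 : c ≠ 0 := by
      have := Matrix.GeneralLinearGroup.det_ne_zero x
      exact this
    have hdet : (Matrix.diagonal (Function.update (1 : Fin n → F) ⟨0, by omega⟩ c)).det = c := by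
      rw [Matrix.det_diagonal, Finset.prod_update_of_mem (Finset.mem_univ _)]
      simp
    let d : Matrix.GeneralLinearGroup (Fin n) F :=
      Matrix.GeneralLinearGroup.mkOfDetNeZero
        (Matrix.diagonal (Function.update (1 : Fin n → F) ⟨0, by omega⟩ c)) (by rw [hdet]; exact hc0)
    have hdval : (d : Matrix (Fin n) (Fin n) F) =
        Matrix.diagonal (Function.update (1 : Fin n → F) ⟨0, by omega⟩ c) := rfl
    have hdH : d ∈ Cfsg.Geo.subspaceStabilizer W := by
      refine mem_subspaceStabilizer_of_le W _ ?_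
      intro v hv
      rw [hWmem]
      intro i hi
      rw [hdval, Matrix.mulVec_diagonal, (hWmem v).1 hv i hi, mul_zero]
    have h1 : d⁻¹ * x ∈ Cfsg.Geo.specialLinear (Fin n) F := by
      rw [mem_specialLinear_iff]
      have h2 : (d : Matrix (Fin n) (Fin n) F).det * ((d⁻¹ * x : Matrix.GeneralLinearGroup (Fin n) F) : Matrix (Fin n) (Fin n) F).det = c := by
        rw [← Matrix.det_mul, ← Units.val_mul, mul_inv_cancel_left]
      rw [hdval, hdet] at h2
      exact mul_left_cancel₀ hc0 (by rw [h2, mul_one])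
    have h3 : x = d * (d⁻¹ * x) := by rw [mul_inv_cancel_left]
    rw [h3]
    exact M.mul_mem (hHM.le hdH) (hSL h1)

end Cfsg.Agent.S0772
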