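import Cfsg.Statements.S0773
import Cfsg.Agent.Lib.Helper17GLTrans

set_option autoImplicit false
open Cfsg Cfsg.Agent.Lib.Helper17Stab Cfsg.Agent.Lib.Helper17GLTrans
open scoped Matrix

namespace Cfsg.Agent.S0773

section aux

variable {F : Type*} [Field F] {n : ℕ}

/-- Transpose followed by reversal of the indices: an anti-automorphism. -/
def psi (X : Matrix (Fin n) (Fin n) F) : Matrix (Fin n) (Fin n) F :=
  Xᵀ.submatrix (Fin.revPerm : Equiv.Perm (Fin n)) (Fin.revPerm : Equiv.Perm (Fin n))

theorem psi_mul (X Y : Matrix (Fin n) (Fin n) F) : psi (X * Y) = psi Y * psi X := by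
  simp only [psi, Matrix.transpose_mul]
  rw [Matrix.submatrix_mul_equiv]

theorem psi_one : psi (1 : Matrix (Fin n) (Fin n) F) = 1 := by
  simp [psi]

theorem psi_psi (X : Matrix (Fin n) (Fin n) F) : psi (psi X) = X := by
  ext i j
  simp [psi]

theorem psi_apply (X : Matrix (Fin n) (Fin n) F) (i j : Fin n) :
    psi X i j = X (Fin.rev j) (Fin.rev i) := by
  simp [psi]

/-- The inverse transpose automorphism twisted by the reversal. -/
def phi (g : Matrix.GeneralLinearGroup (Fin n) F) : Matrix.GeneralLinearGroup (Fin n) F :=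
  ⟨psi ((g⁻¹ : Matrix.GeneralLinearGroup (Fin n) F) : Matrix (Fin n) (Fin n) F),
    psi (g : Matrix (Fin n) (Fin n) F),
    by rw [← psi_mul, Units.mul_inv, psi_one], by rw [← psi_mul, Units.inv_mul, psi_one]⟩

theorem phi_phi (g : Matrix.GeneralLinearGroup (Fin n) F) : phi (phi g) = g := by
  apply Units.ext
  change psi (psi (g : Matrix (Fin n) (Fin n) F)) = _
  exact psi_psi _

theorem phi_mul (g h : Matrix.GeneralLinearGroup (Fin n) F) : phi (g * h) = phi g * phi h := by
  apply Units.ext
  change psi (((g * h)⁻¹ : Matrix.GeneralLinearGroup (Fin n) F) : Matrix (Fin n) (Fin n) F)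
    = psi _ * psi _
  rw [← psi_mul, mul_inv_rev]
  rfl

theorem phi_mem (k : ℕ) (hk : k ≤ n) (g : Matrix.GeneralLinearGroup (Fin n) F)
    (hg : g ∈ Stab F n k) : phi g ∈ Stab F n (n - k) := by
  have hg' := (Stab F n k).inv_mem hg
  rw [mem_stab_Wk_iff] at hg' ⊢
  intro i j hi hj
  change psi _ i j = 0
  rw [psi_apply]
  apply hg'
  · simp only [Fin.val_rev]; omega
  · simp only [Fin.val_rev]; omega

end aux

/-- The stabilisers in GL_n(F), F finite, of the coordinate subspaces of dimensions k and n − k are isomorphic groups, but when 2k ≠ n (and 0 < k < n) no element of GL_n conjugates one onto the other. -/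
theorem result {F : Type*} [Field F] [Finite F] (n k : ℕ) (hk0 : 0 < k) (hkn : k < n) (h2 : 2 * k ≠ n) : Nonempty (↥(Cfsg.stabilizing (Cfsg.glToMat (Fin n) F) {v : Fin n → F | ∀ i : Fin n, k ≤ (i : ℕ) → v i = 0}) ≃* ↥(Cfsg.stabilizing (Cfsg.glToMat (Fin n) F) {v : Fin n → F | ∀ i : Fin n, n - k ≤ (i : ℕ) → v i = 0})) ∧ ∀ g : Matrix.GeneralLinearGroup (Fin n) F, (Cfsg.stabilizing (Cfsg.glToMat (Fin n) F) {v : Fin n → F | ∀ i : Fin n, k ≤ (i : ℕ) → v i = 0}).map (MulAut.conj g).toMonoidHom ≠ Cfsg.stabilizing (Cfsg.glToMat (Fin n) F) {v : Fin n → F | ∀ i : Fin n, n - k ≤ (i : ℕ) → v i = 0} := by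
  constructor
  · have hnk : n - (n - k) = k := by omega
    refine ⟨{ toFun := fun g => ⟨phi g.1, phi_mem k hkn.le g.1 g.2⟩
              invFun := fun g => ⟨phi g.1, by
                have := phi_mem (n - k) (Nat.sub_le n k) g.1 g.2
                rw [hnk] at this
                exact this⟩
              left_inv := fun g => Subtype.ext (phi_phi g.1)
              right_inv := fun g => Subtype.ext (phi_phi g.1)
              map_mul' := fun g h => Subtype.ext (phi_mul g.1 h.1) }⟩
  · intro g heq
    let gl : (Fin n → F) ≃ₗ[F] (Fin n → F) :=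
      Matrix.toLin'OfInv (M' := (g : Matrix (Fin n) (Fin n) F))
        (M := ((g⁻¹ : Matrix.GeneralLinearGroup (Fin n) F) : Matrix (Fin n) (Fin n) F))
        (Units.inv_mul g) (Units.mul_inv g)
    have hgl : ∀ x, gl x = (g : Matrix (Fin n) (Fin n) F) *ᵥ x := fun x => by
      simp [gl, Matrix.toLin'OfInv]
    let U : Submodule F (Fin n → F) := (Wk F n k).map gl.toLinearMap
    have hfin : Module.finrank F U = Module.finrank F (Wk F n k) := LinearEquiv.finrank_map_eq gl _
    have hU : ∀ p ∈ Stab F n (n - k), ∀ u ∈ U, (p : Matrix (Fin n) (Fin n) F) *ᵥ u ∈ U := by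
      intro p hp u hu
      have hp2 : p ∈ Subgroup.map (MulEquiv.toMonoidHom (MulAut.conj g)) (Stab F n k) := by
        rw [heq]; exact hp
      obtain ⟨p', hp', rfl⟩ := hp2
      obtain ⟨w, hw, rfl⟩ := hu
      refine ⟨(p' : Matrix (Fin n) (Fin n) F) *ᵥ w, ?_, ?_⟩
      · exact ((mem_stabilizing_iff (Cfsg.glToMat (Fin n) F) (Wk F n k) p').1 hp') w hw
      · simp only [LinearEquiv.coe_coe, hgl, MulEquiv.coe_toMonoidHom, MulAut.conj_apply,
          Units.val_mul, Matrix.mulVec_mulVec]
        congr 1
        rw [mul_assoc, mul_assoc, Units.inv_mul, mul_one]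
    have h0mem : (Pi.single ⟨0, by omega⟩ 1 : Fin n → F) ∈ Wk F n k := by
      intro i hi
      have : i ≠ ⟨0, by omega⟩ := by
        intro h
        rw [h] at hi
        simp at hi
        omega
      simp [this]
    have hlast : (Pi.single ⟨n - 1, by omega⟩ 1 : Fin n → F) ∉ Wk F n k := by
      intro h
      have := h ⟨n - 1, by omega⟩ (by simp; omega)
      simp at this
    have hmono : ∀ a b : ℕ, a < b → b ≤ n → Wk F n a < Wk F n b := by
      intro a b hab hb
      apply lt_of_le_of_ne
      · intro v hv i hi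
        exact hv i (by omega)
      · intro h
        have h1 : (Pi.single ⟨a, by omega⟩ 1 : Fin n → F) ∈ Wk F n b := by
          intro i hi
          have : i ≠ ⟨a, by omega⟩ := by
            intro h
            rw [h] at hi
            simp at hi
            omega
          simp [this]
        rw [← h] at h1
        have := h1 ⟨a, by omega⟩ (by simp)
        simp at this
    rcases invariant_subspace (n - k) U hU with h | h | h
    · rw [h, finrank_bot] at hfin
      have : Wk F n k = ⊥ := Submodule.finrank_eq_zero.mp hfin.symm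
      rw [this] at h0mem
      have h1 := congrFun ((Submodule.mem_bot F).mp h0mem) ⟨0, by omega⟩
      simp at h1
    · rw [h] at hfin
      rcases lt_or_gt_of_ne (show k ≠ n - k by omega) with hlt | hlt
      · have := Submodule.finrank_lt_finrank_of_lt (hmono k (n - k) hlt (by omega))
        omega
      · have := Submodule.finrank_lt_finrank_of_lt (hmono (n - k) k hlt (by omega))
        omega
    · rw [h, finrank_top] at hfin
      have : Wk F n k = ⊤ := Submodule.eq_top_of_finrank_eq hfin.symm
      rw [this] at hlast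
      exact hlast trivial

end Cfsg.Agent.S0773
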