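import Cfsg.Statements.S0774
import Cfsg.Agent.S0245
import Cfsg.Agent.Lib.Helper17SpCount
import Cfsg.Agent.Lib.Helper17Stab

set_option autoImplicit false
open Cfsg

namespace Cfsg.Agent.S0774

open Matrix Cfsg.Agent.Lib.Helper17Symp Cfsg.Agent.Lib.Helper17Symp2 Cfsg.Agent.Lib.Helper17SpCount
  Cfsg.Agent.Lib.Helper17Stab

theorem card_supp {ι F : Type*} [Fintype ι] [DecidableEq ι] [Field F] [Fintype F] (S : Finset ι) :
    Nat.card {v : ι → F | ∀ l, l ∉ S → v l = 0} = Fintype.card F ^ S.card := by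
  have e : {v : ι → F | ∀ l, l ∉ S → v l = 0} ≃ (S → F) :=
    { toFun := fun v l => v.1 l
      invFun := fun w => ⟨fun l => if h : l ∈ S then w ⟨l, h⟩ else 0, by
        intro l hl
        simp [hl]⟩
      left_inv := by
        intro v
        apply Subtype.ext
        funext l
        by_cases h : l ∈ S
        · simp [h]
        · simp [h, v.2 l h]
      right_inv := by
        intro w
        funext l
        simp }
  rw [Nat.card_congr e, Nat.card_eq_fintype_card, Fintype.card_fun, Fintype.card_coe]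

variable {F : Type*} [Field F] {m : ℕ}

/-- The flag members as submodules. -/
def Wj (F : Type*) [Field F] {m : ℕ} (k : Fin m) : Submodule F (Fin m ⊕ Fin m → F) where
  carrier := {v | (∀ i : Fin m, (k : ℕ) < (i : ℕ) → v (Sum.inl i) = 0) ∧ ∀ i : Fin m, v (Sum.inr i) = 0}
  add_mem' := by
    intro a b ha hb
    refine ⟨fun i hi => ?_, fun i => ?_⟩
    · rw [Pi.add_apply, ha.1 i hi, hb.1 i hi, add_zero]
    · rw [Pi.add_apply, ha.2 i, hb.2 i, add_zero]
  zero_mem' := ⟨fun _ _ => rfl, fun _ => rfl⟩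
  smul_mem' := by
    intro c a ha
    refine ⟨fun i hi => ?_, fun i => ?_⟩
    · rw [Pi.smul_apply, ha.1 i hi, smul_zero]
    · rw [Pi.smul_apply, ha.2 i, smul_zero]

theorem Wj_mono {j k : Fin m} (h : (j : ℕ) ≤ k) : Wj F j ≤ Wj F k := by
  intro v hv
  exact ⟨fun i hi => hv.1 i (by omega), hv.2⟩

theorem eq_sum (v : Fin m ⊕ Fin m → F) (hv : ∀ i, v (Sum.inr i) = 0) :
    v = ∑ i : Fin m, v (Sum.inl i) • (Pi.single (Sum.inl i) 1 : Fin m ⊕ Fin m → F) := by
  funext l
  rw [Finset.sum_apply]
  rcases l with l | l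
  · simp [Pi.single_apply]
  · simp [hv l]

theorem mulVec_eq_sum (g : Matrix (Fin m ⊕ Fin m) (Fin m ⊕ Fin m) F) (v : Fin m ⊕ Fin m → F)
    (hv : ∀ i, v (Sum.inr i) = 0) :
    g *ᵥ v = ∑ i : Fin m, v (Sum.inl i) • (g *ᵥ (Pi.single (Sum.inl i) 1 : Fin m ⊕ Fin m → F)) := by
  conv_lhs => rw [eq_sum v hv]
  rw [Matrix.mulVec_sum]
  apply Finset.sum_congr rfl
  intro i _
  rw [Matrix.mulVec_smul]

theorem li_tri (x : Fin m → (Fin m ⊕ Fin m → F)) (hx : ∀ j, x j ∈ Wj F j ∧ x j (Sum.inl j) ≠ 0) :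
    LinearIndependent F x := by
  rw [Fintype.linearIndependent_iff]
  intro c hc
  have key : ∀ n : ℕ, ∀ j : Fin m, m - (j : ℕ) ≤ n → c j = 0 := by
    intro n
    induction n with
    | zero => intro j hj; have := j.2; omega
    | succ n ih =>
      intro j hj
      have h1 := congrFun hc (Sum.inl j)
      rw [Finset.sum_apply, Finset.sum_eq_single j] at h1
      · simp only [Pi.smul_apply, smul_eq_mul, Pi.zero_apply] at h1
        rcases mul_eq_zero.1 h1 with h2 | h2
        · exact h2
        · exact absurd h2 (hx j).2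
      · intro i _ hij
        rw [Pi.smul_apply]
        rcases lt_or_gt_of_ne (fun h => hij (Fin.ext h) : (i : ℕ) ≠ j) with h2 | h2
        · rw [(hx i).1.1 j h2, smul_zero]
        · rw [ih i (by omega), zero_smul]
      · intro h; exact absurd (Finset.mem_univ j) h
  intro j
  exact key m j (by omega)

theorem card_piece [Fintype F] (j : Fin m) :
    Nat.card {v : Fin m ⊕ Fin m → F // v ∈ Wj F j ∧ v (Sum.inl j) ≠ 0}
      = Fintype.card F ^ ((j : ℕ) + 1) - Fintype.card F ^ (j : ℕ) := by
  have e : {v : Fin m ⊕ Fin m → F | v ∈ Wj F j ∧ v (Sum.inl j) ≠ 0}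
      = {v : Fin m ⊕ Fin m → F | ∀ l, l ∉ (Finset.Iic j).image Sum.inl → v l = 0} \
        {v : Fin m ⊕ Fin m → F | ∀ l, l ∉ (Finset.Iio j).image Sum.inl → v l = 0} := by
    ext v
    simp only [Set.mem_ofPred_eq, Set.mem_sdiff, Finset.mem_image, Finset.mem_Iic, Finset.mem_Iio,
      not_exists, not_and]
    constructor
    · rintro ⟨h1, h2⟩
      refine ⟨?_, ?_⟩
      · rintro (l | l) hl
        · apply h1.1
          by_contra h3
          exact hl l (by rw [Fin.le_def]; omega) rfl
        · exact h1.2 l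
      · intro h3
        apply h2
        apply h3
        intro x hx hxj
        rw [Sum.inl.injEq] at hxj
        rw [hxj] at hx
        exact lt_irrefl _ hx
    · rintro ⟨h1, h2⟩
      refine ⟨⟨?_, ?_⟩, ?_⟩
      · intro i hi
        apply h1
        intro x hx hxi
        rw [Sum.inl.injEq] at hxi
        rw [hxi, Fin.le_def] at hx
        omega
      · intro i
        apply h1
        intro x _ hxi
        exact absurd hxi (by simp)
      · intro h3
        apply h2
        rintro (l | l) hl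
        · by_cases hlj : l = j
          · rw [hlj]; exact h3
          · apply h1
            intro x hx hxl
            rw [Sum.inl.injEq] at hxl
            rw [hxl] at hx
            exact hl l (lt_of_le_of_ne hx hlj) rfl
        · apply h1
          intro x _ hxi
          exact absurd hxi (by simp)
  change Nat.card ↥{v : Fin m ⊕ Fin m → F | v ∈ Wj F j ∧ v (Sum.inl j) ≠ 0} = _
  rw [e, Nat.card_coe_set_eq, Set.ncard_sdiff _ (Set.toFinite _), ← Nat.card_coe_set_eq,
    ← Nat.card_coe_set_eq, card_supp, card_supp, Finset.card_image_of_injective _ Sum.inl_injective,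
    Finset.card_image_of_injective _ Sum.inl_injective, Fin.card_Iic, Fin.card_Iio]
  intro v hv l hl
  apply hv
  intro h
  apply hl
  obtain ⟨x, hx, rfl⟩ := Finset.mem_image.1 h
  exact Finset.mem_image.2 ⟨x, Finset.mem_Iic.2 (le_of_lt (Finset.mem_Iio.1 hx)), rfl⟩

theorem arith2 (q m : ℕ) :
    q ^ (m * (m + 1) / 2) * ∏ j ∈ Finset.range m, (q ^ (j + 1) - q ^ j) = q ^ (m ^ 2) * (q - 1) ^ m := by
  induction m with
  | zero => simp
  | succ m ih =>
    have e : q ^ (m + 1) - q ^ m = q ^ m * (q - 1) := by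
      rw [Nat.mul_sub, mul_one, pow_succ]
    rw [tri_succ, Finset.prod_range_succ, e, pow_add, mul_assoc, mul_comm (q ^ (m + 1)), ← mul_assoc,
      ← mul_assoc, ih]
    ring

/-- Borel subgroup of the symplectic group: the elements of Sp_2m(q) stabilising each of the totally isotropic coordinate subspaces ⟨e_0, ..., e_k⟩ (k < m) form a subgroup of order q^(m²) (q − 1)^m. -/
theorem result {F : Type*} [Field F] [Fintype F] {q : ℕ} (hF : Fintype.card F = q) (m : ℕ) : Nat.card ↥(⨅ k : Fin m, Cfsg.stabilizing (Cfsg.spToMat m F) {v : Fin m ⊕ Fin m → F | (∀ i : Fin m, (k : ℕ) < (i : ℕ) → v (Sum.inl i) = 0) ∧ ∀ i : Fin m, v (Sum.inr i) = 0}) = q ^ (m ^ 2) * (q - 1) ^ m := by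
  change Nat.card ↥(⨅ k : Fin m, Cfsg.stabilizing (Cfsg.spToMat m F)
    ((Wj F k : Submodule F (Fin m ⊕ Fin m → F)) : Set (Fin m ⊕ Fin m → F))) = _
  set x0 : Fin m → (Fin m ⊕ Fin m → F) := fun i => Pi.single (Sum.inl i) 1 with hx0
  have hx0W : ∀ j, x0 j ∈ Wj F j ∧ x0 j (Sum.inl j) ≠ 0 := by
    intro j
    refine ⟨⟨fun i hi => ?_, fun i => ?_⟩, ?_⟩
    · simp only [hx0]
      rw [Pi.single_apply, if_neg]
      intro h
      rw [Sum.inl.injEq] at h
      rw [h] at hi
      exact lt_irrefl _ hi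
    · simp [hx0]
    · simp [hx0]
  have hiso : ∀ u v : Fin m ⊕ Fin m → F, (∀ i, u (Sum.inr i) = 0) → (∀ i, v (Sum.inr i) = 0) →
      sympForm m F u v = 0 := by
    intro u v hu hv
    rw [sympForm_eq_sum]
    apply Finset.sum_eq_zero
    intro i _
    rw [hu i, hv i]
    ring
  have hLI : LinearIndependent F x0 := li_tri x0 hx0W
  have hmem : x0 ∈ IsoFam (sB (F := F) m) m :=
    ⟨hLI, fun i j => by rw [sB_apply]; exact hiso _ _ (hx0W i).1.2 (hx0W j).1.2⟩
  have hstab : ∀ g : Matrix.symplecticGroup (Fin m) F,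
      (∀ i, (g : Matrix (Fin m ⊕ Fin m) (Fin m ⊕ Fin m) F) *ᵥ x0 i ∈ Wj F i) →
      g ∈ ⨅ k : Fin m, Cfsg.stabilizing (Cfsg.spToMat m F)
        ((Wj F k : Submodule F (Fin m ⊕ Fin m → F)) : Set (Fin m ⊕ Fin m → F)) := by
    intro g hg
    rw [Subgroup.mem_iInf]
    intro k
    rw [mem_stabilizing_iff]
    intro v hv
    change (g : Matrix (Fin m ⊕ Fin m) (Fin m ⊕ Fin m) F) *ᵥ v ∈ Wj F k
    rw [mulVec_eq_sum _ v hv.2]
    apply Submodule.sum_mem
    intro i _
    by_cases hik : (k : ℕ) < i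
    · rw [hv.1 i hik, zero_smul]; exact Submodule.zero_mem _
    · exact Submodule.smul_mem _ _ (Wj_mono (by omega) (hg i))
  have key := card_mul_prod m m (⨅ k : Fin m, Cfsg.stabilizing (Cfsg.spToMat m F)
      ((Wj F k : Submodule F (Fin m ⊕ Fin m → F)) : Set (Fin m ⊕ Fin m → F)))
    x0 hmem (fun g hg => hstab g (fun i => by rw [hg i]; exact (hx0W i).1))
    {x : Fin m → (Fin m ⊕ Fin m → F) | ∀ j, x j ∈ Wj F j ∧ x j (Sum.inl j) ≠ 0} (by
      intro x
      constructor
      · intro hx
        obtain ⟨g, hg⟩ := witt_fam m x0 x hLI (li_tri x hx) (by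
          intro i j
          rw [hiso _ _ (hx0W i).1.2 (hx0W j).1.2, hiso _ _ (hx i).1.2 (hx j).1.2])
        exact ⟨g, hstab g (fun i => by rw [hg i]; exact (hx i).1), hg⟩
      · rintro ⟨g, hg, hx⟩ j
        rw [Subgroup.mem_iInf] at hg
        have h1 : x j ∈ Wj F j := by
          rw [← hx j]
          exact ((mem_stabilizing_iff _ _ _).1 (hg j)) _ (hx0W j).1
        refine ⟨h1, ?_⟩
        intro h2
        by_cases hj : (j : ℕ) = 0
        · have h3 : x j = 0 := by
            funext l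
            rcases l with l | l
            · by_cases hl : l = j
              · rw [hl]; exact h2
              · apply h1.1
                have : (l : ℕ) ≠ j := fun h => hl (Fin.ext h)
                omega
            · exact h1.2 l
          rw [← hx j] at h3
          have h4 := coe_inv_mulVec' g (x0 j)
          rw [h3, Matrix.mulVec_zero] at h4
          exact (hx0W j).2 (by rw [← h4]; rfl)
        · have hj' : (j : ℕ) - 1 < m := by have := j.2; omega
          have h3 : x j ∈ Wj F (⟨(j : ℕ) - 1, hj'⟩ : Fin m) := by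
            refine ⟨?_, h1.2⟩
            intro i hi
            by_cases hl : i = j
            · rw [hl]; exact h2
            · apply h1.1
              have : (i : ℕ) ≠ j := fun h => hl (Fin.ext h)
              simp only at hi
              omega
          rw [← hx j] at h3
          have h4 := ((hg ⟨(j : ℕ) - 1, hj'⟩) (x0 j)).2 h3
          exact (hx0W j).2 (h4.1 j (by simp only; omega)))
  have hO : Set.ncard {x : Fin m → (Fin m ⊕ Fin m → F) | ∀ j, x j ∈ Wj F j ∧ x j (Sum.inl j) ≠ 0}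
      = ∏ j ∈ Finset.range m, (q ^ (j + 1) - q ^ j) := by
    rw [← Nat.card_coe_set_eq]
    change Nat.card {x : Fin m → (Fin m ⊕ Fin m → F) // ∀ j, x j ∈ Wj F j ∧ x j (Sum.inl j) ≠ 0} = _
    rw [Nat.card_congr (Equiv.subtypePiEquivPi (α := Fin m) (β := fun _ => Fin m ⊕ Fin m → F)
      (p := fun j v => v ∈ Wj F j ∧ v (Sum.inl j) ≠ 0)), Nat.card_pi, ← Fin.prod_univ_eq_prod_range
      (fun j => q ^ (j + 1) - q ^ j)]
    apply Finset.prod_congr rfl
    intro j _
    rw [card_piece, hF]
  rw [hO, Cfsg.Agent.S0245.result hF m, hF, arith q m m le_rfl] at key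
  have hpos : 0 < ∏ i ∈ Finset.range m, (q ^ (2 * m - i) - q ^ i) := by
    apply Finset.prod_pos
    intro i hi
    rw [Finset.mem_range] at hi
    have hq : 1 < q := by rw [← hF]; exact Fintype.one_lt_card
    have : q ^ i < q ^ (2 * m - i) := Nat.pow_lt_pow_right hq (by omega)
    omega
  apply Nat.eq_of_mul_eq_mul_left hpos
  rw [mul_comm, key, ← arith2]
  simp
  ring

end Cfsg.Agent.S0774
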