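import Cfsg.Statements.S0776
import Cfsg.Agent.S0752
import Cfsg.Agent.Lib.Helper17SpCount
import Cfsg.Agent.Lib.Helper17Block

set_option autoImplicit false
open Cfsg

namespace Cfsg.Agent.S0776

open Matrix Cfsg.Agent.Lib.Helper17Symp Cfsg.Agent.Lib.Helper17Symp2 Cfsg.Agent.Lib.Helper17SpCount
  Cfsg.Agent.Lib.Helper17Stab Cfsg.Agent.Lib.Helper17Block

variable {F : Type*} [Field F]

/-- The symplectic group inside the general linear group. -/
def rho (m : ℕ) (F : Type*) [Field F] :
    Matrix.symplecticGroup (Fin m) F →* GL (Fin m ⊕ Fin m) F := (spToMat m F).toHomUnits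

theorem coe_rho (m : ℕ) (g : Matrix.symplecticGroup (Fin m) F) :
    ((rho m F g : GL (Fin m ⊕ Fin m) F) : Matrix (Fin m ⊕ Fin m) (Fin m ⊕ Fin m) F) = g := rfl

theorem rho_injective (m : ℕ) : Function.Injective (rho m F) := by
  intro g h hgh
  apply Subtype.ext
  rw [← coe_rho, ← coe_rho, hgh]

theorem map_id' {ι κ : Type*} (A : Matrix ι κ F) : A.map (RingHom.id F) = A := by
  ext i j; rfl

theorem rho_range (m : ℕ) : (rho m F).range = UG (RingHom.id F) (Matrix.J (Fin m) F) := by
  ext g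
  rw [mem_UG, map_id']
  constructor
  · rintro ⟨a, rfl⟩
    rw [coe_rho]
    exact SymplecticGroup.mem_iff'.1 a.2
  · intro h
    exact ⟨⟨g, SymplecticGroup.mem_iff'.2 h⟩, Units.ext rfl⟩

/-- `Sp_2m` as a group of the form `UG`. -/
noncomputable def spEquiv (m : ℕ) (F : Type*) [Field F] :
    Matrix.symplecticGroup (Fin m) F ≃* ↥(UG (RingHom.id F) (Matrix.J (Fin m) F)) :=
  (MonoidHom.ofInjective (rho_injective m)).trans (MulEquiv.subgroupCongr (rho_range m))

theorem exists_symp_fam (m : ℕ) (U : Submodule F (Fin m ⊕ Fin m → F)) (r : ℕ)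
    (hfin : Module.finrank F U = 2 * r)
    (hnd : ∀ u ∈ U, (∀ v ∈ U, sympForm m F u v = 0) → u = 0) :
    ∃ x : Fin r ⊕ Fin r → (Fin m ⊕ Fin m → F), (∀ i, x i ∈ U) ∧
      U ≤ Submodule.span F (Set.range x) ∧
      ∀ i j, sympForm m F (x i) (x j) = Matrix.J (Fin r) F i j := by
  have hA : ((sB (F := F) m).restrict U).IsAlt := fun u => sB_isAlt m _
  obtain ⟨m', k', b, h1, h2, h3, h4⟩ := Cfsg.Agent.S0752.result ((sB (F := F) m).restrict U) hA
  have hB : ∀ u v : U, (sB (F := F) m).restrict U u v = sympForm m F (u : Fin m ⊕ Fin m → F) v := by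
    intro u v
    rw [← sB_apply]; rfl
  have hk' : k' = 0 := by
    by_contra hk
    have j : Fin k' := ⟨0, Nat.pos_of_ne_zero hk⟩
    apply b.ne_zero (Sum.inr j)
    apply Subtype.ext
    apply hnd _ (b (Sum.inr j)).2
    intro v hv
    rw [← hB _ ⟨v, hv⟩]
    exact h4 j ⟨v, hv⟩
  subst hk'
  have hm' : m' = r := by
    have := Module.finrank_eq_card_basis b
    rw [hfin] at this
    simp at this
    omega
  subst hm'
  refine ⟨fun i => (b (Sum.inl (Sum.swap i)) : Fin m ⊕ Fin m → F), fun i => (b _).2, ?_, ?_⟩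
  · intro u hu
    have h5 := b.sum_repr ⟨u, hu⟩
    have h6 := congrArg Subtype.val h5
    simp only [Submodule.coe_sum, Submodule.coe_smul] at h6
    rw [← h6]
    apply Submodule.sum_mem
    intro i _
    apply Submodule.smul_mem
    rcases i with a | j
    · exact Submodule.subset_span ⟨Sum.swap a, by simp⟩
    · exact j.elim0
  · intro i j
    rw [← hB]
    rcases i with a | a <;> rcases j with c | c
    · simp only [Sum.swap_inl, Matrix.J, fromBlocks_apply₁₁, Matrix.zero_apply]
      exact h3 a c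
    · simp only [Sum.swap_inl, Sum.swap_inr, Matrix.J, fromBlocks_apply₁₂, Matrix.neg_apply,
        Matrix.one_apply]
      rw [← hA.neg_eq, h1 c a]
      simp only [eq_comm]
    · simp only [Sum.swap_inl, Sum.swap_inr, Matrix.J, fromBlocks_apply₂₁, Matrix.one_apply]
      exact h1 a c
    · simp only [Sum.swap_inr, Matrix.J, fromBlocks_apply₂₂, Matrix.zero_apply]
      exact h2 a c

theorem gram_entry (m : ℕ) {κ : Type*} [Fintype κ] (P : Matrix (Fin m ⊕ Fin m) κ F) (a b : κ) :
    (Pᵀ * Matrix.J (Fin m) F * P) a b = sympForm m F (fun i => P i a) (fun i => P i b) := by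
  rw [Matrix.mul_assoc, Matrix.mul_apply]
  unfold sympForm dotProduct
  apply Finset.sum_congr rfl
  intro i _
  rw [transpose_apply, Matrix.mul_apply]
  rfl

theorem mulVec_eq_sum' {ι κ : Type*} [Fintype κ] (x : κ → ι → F) (c : κ → F) :
    (Matrix.of (fun i j => x j i) : Matrix ι κ F) *ᵥ c = ∑ a, c a • x a := by
  funext i
  rw [Finset.sum_apply]
  simp only [mulVec, dotProduct, Matrix.of_apply, Pi.smul_apply, smul_eq_mul]
  apply Finset.sum_congr rfl
  intro a _
  ring

/-- If W ≤ F^(2m) is a 2k-dimensional subspace on which the symplectic form is non-degenerate, then the stabiliser of W in Sp_2m(F) is isomorphic to Sp_2k(F) × Sp_(2m−2k)(F). -/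
theorem result {F : Type*} [Field F] (m k : ℕ) (hk : k ≤ m) (W : Submodule F (Fin m ⊕ Fin m → F)) (hWk : Module.finrank F W = 2 * k) (hW : ∀ u ∈ W, (∀ v ∈ W, Cfsg.sympForm m F u v = 0) → u = 0) : Nonempty (↥(Cfsg.stabilizing (Cfsg.spToMat m F) (W : Set (Fin m ⊕ Fin m → F))) ≃* Matrix.symplecticGroup (Fin k) F × Matrix.symplecticGroup (Fin (m - k)) F) := by
  set Wp := (sB (F := F) m).orthogonal W with hWp
  have hmemWp : ∀ v, v ∈ Wp ↔ ∀ w ∈ W, sympForm m F w v = 0 := by
    intro v
    rw [hWp, LinearMap.BilinForm.mem_orthogonal_iff]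
    simp only [sB_apply]
  have hres : ((sB (F := F) m).restrict W).Nondegenerate := by
    constructor
    · intro u hu
      apply Subtype.ext
      apply hW _ u.2
      intro v hv
      rw [← sB_apply]
      exact hu ⟨v, hv⟩
    · intro u hu
      apply Subtype.ext
      apply hW _ u.2
      intro v hv
      rw [sympForm_swap, ← sB_apply]
      have := hu ⟨v, hv⟩
      rw [neg_eq_zero]
      exact this
  have hcompl : IsCompl W Wp :=
    LinearMap.BilinForm.isCompl_orthogonal_of_restrict_nondegenerate (sB_isAlt m).isRefl hres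
  have hfinWp : Module.finrank F Wp = 2 * (m - k) := by
    rw [hWp, LinearMap.BilinForm.finrank_orthogonal (sB_nondeg m) W, hWk]
    simp
    omega
  have hndWp : ∀ u ∈ Wp, (∀ v ∈ Wp, sympForm m F u v = 0) → u = 0 := by
    intro u hu h
    apply sympForm_nondeg m u
    intro v
    have hv : v ∈ W ⊔ Wp := by rw [hcompl.sup_eq_top]; trivial
    obtain ⟨w, hw, w', hw', rfl⟩ := Submodule.mem_sup.1 hv
    rw [sympForm_add_right, h w' hw', sympForm_swap, (hmemWp u).1 hu w hw]
    simp
  obtain ⟨x₁, hx₁W, hx₁span, hx₁G⟩ := exists_symp_fam m W k hWk hW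
  obtain ⟨x₂, hx₂W, hx₂span, hx₂G⟩ := exists_symp_fam m Wp (m - k) hfinWp hndWp
  set x : (Fin k ⊕ Fin k) ⊕ (Fin (m - k) ⊕ Fin (m - k)) → (Fin m ⊕ Fin m → F) := Sum.elim x₁ x₂
    with hx
  set P : Matrix (Fin m ⊕ Fin m) ((Fin k ⊕ Fin k) ⊕ (Fin (m - k) ⊕ Fin (m - k))) F :=
    Matrix.of (fun i j => x j i) with hP
  set J' := fromBlocks (Matrix.J (Fin k) F) 0 0 (Matrix.J (Fin (m - k)) F) with hJ'
  have hG : Pᵀ * Matrix.J (Fin m) F * P = J' := by
    ext a b
    rw [gram_entry]
    change sympForm m F (x a) (x b) = _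
    rcases a with a | a <;> rcases b with b | b
    · exact hx₁G a b
    · exact (hmemWp _).1 (hx₂W b) _ (hx₁W a)
    · change sympForm m F (x₂ a) (x₁ b) = 0
      rw [sympForm_swap, (hmemWp _).1 (hx₂W a) _ (hx₁W b), neg_zero]
    · exact hx₂G a b
  have hJJ : (-J') * J' = 1 := by
    rw [hJ', Matrix.neg_mul, fromBlocks_multiply]
    simp only [Matrix.J_squared, Matrix.mul_zero, Matrix.zero_mul, add_zero, zero_add]
    rw [fromBlocks_neg]
    simp
  set Q := (-J') * Pᵀ * Matrix.J (Fin m) F with hQ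
  have hQP : Q * P = 1 := by
    rw [hQ, Matrix.mul_assoc, Matrix.mul_assoc, ← Matrix.mul_assoc Pᵀ, hG, hJJ]
  have hPQ : P * Q = 1 := by
    refine (Matrix.mul_eq_one_comm_of_equiv (Fintype.equivOfCardEq ?_)).2 hQP
    simp
    omega
  have hPx : ∀ a, P *ᵥ Pi.single a 1 = x a := by
    intro a
    rw [mulVec_single_one]
    rfl
  have hWQ : ∀ v, v ∈ W ↔ ∀ i, (Q *ᵥ v) (Sum.inr i) = 0 := by
    intro v
    constructor
    · intro hv
      have hv' := hx₁span hv
      clear hv
      induction hv' using Submodule.span_induction with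
      | mem y hy =>
        obtain ⟨a, rfl⟩ := hy
        intro i
        have : x₁ a = x (Sum.inl a) := rfl
        rw [this, ← hPx, mulVec_mulVec, hQP, one_mulVec]
        simp
      | zero => intro i; simp
      | add y z hy hz ihy ihz =>
        intro i
        rw [mulVec_add, Pi.add_apply, ihy, ihz, add_zero]
      | smul c y hy ihy =>
        intro i
        rw [mulVec_smul, Pi.smul_apply, ihy, smul_zero]
    · intro h
      have h1 : v = P *ᵥ (Q *ᵥ v) := by rw [mulVec_mulVec, hPQ, one_mulVec]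
      rw [h1, hP, mulVec_eq_sum', Fintype.sum_sum_type]
      apply W.add_mem
      · apply Submodule.sum_mem
        intro a _
        exact W.smul_mem _ (hx₁W a)
      · apply Submodule.sum_mem
        intro a _
        rw [h a, zero_smul]
        exact W.zero_mem
  obtain ⟨e⟩ := stab_equiv (RingHom.id F) (Matrix.J (Fin m) F) (Matrix.J (Fin k) F)
    (-Matrix.J (Fin k) F) (Matrix.J (Fin (m - k)) F) P Q hPQ hQP (by rw [map_id']; exact hG)
    (by rw [Matrix.mul_neg, Matrix.J_squared, neg_neg]) W hWQ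
  have hcomap : Cfsg.stabilizing (Cfsg.spToMat m F) (W : Set (Fin m ⊕ Fin m → F))
      = (Cfsg.stabilizing (Cfsg.glToMat (Fin m ⊕ Fin m) F) (W : Set (Fin m ⊕ Fin m → F))).comap
        (rho m F) := rfl
  have e1 : ↥(Cfsg.stabilizing (Cfsg.spToMat m F) (W : Set (Fin m ⊕ Fin m → F))) ≃*
      ↥(UG (RingHom.id F) (Matrix.J (Fin m) F) ⊓
        Cfsg.stabilizing (Cfsg.glToMat (Fin m ⊕ Fin m) F) (W : Set (Fin m ⊕ Fin m → F))) :=
    (Subgroup.equivMapOfInjective _ (rho m F) (rho_injective m)).trans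
      (MulEquiv.subgroupCongr (by rw [hcomap, Subgroup.map_comap_eq, rho_range]))
  exact ⟨e1.trans (e.trans (MulEquiv.prodCongr (spEquiv k F).symm (spEquiv (m - k) F).symm))⟩

end Cfsg.Agent.S0776
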