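import Cfsg.Statements.S0777
import Cfsg.Agent.Lib.Helper17Symp
import Cfsg.Agent.Lib.Helper17Symp2
import Cfsg.Agent.Lib.Helper17Stab
import Cfsg.Agent.Lib.Helper7SpFrame

set_option autoImplicit false
open Cfsg

namespace Cfsg.Agent.S0777

open Matrix Cfsg.Agent.Lib.Helper17Symp Cfsg.Agent.Lib.Helper17Symp2 Cfsg.Agent.Lib.Helper17Stab
  Cfsg.Agent.Lib.Helper7SpFrame

variable {F : Type*} [Field F] {m : ℕ}

/-- The torus. -/
def Tor (F : Type*) [Field F] (m : ℕ) : Subgroup (Matrix.symplecticGroup (Fin m) F) :=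
  ⨅ i : Fin m ⊕ Fin m, Cfsg.stabilizing (Cfsg.spToMat m F)
    ((Submodule.span F {(Pi.single i (1 : F) : Fin m ⊕ Fin m → F)} :
      Submodule F (Fin m ⊕ Fin m → F)) : Set (Fin m ⊕ Fin m → F))

theorem single_eq_smul (i : Fin m ⊕ Fin m) (c : F) :
    (Pi.single i c : Fin m ⊕ Fin m → F) = c • Pi.single i 1 := by
  rw [← Pi.single_smul, smul_eq_mul, mul_one]

theorem mem_Tor (g : Matrix.symplecticGroup (Fin m) F) :
    g ∈ Tor F m ↔ ∀ i, ∃ c : F,
      (g : Matrix (Fin m ⊕ Fin m) (Fin m ⊕ Fin m) F) *ᵥ Pi.single i 1 = Pi.single i c := by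
  unfold Tor
  rw [Subgroup.mem_iInf]
  apply forall_congr'
  intro i
  rw [mem_stabilizing_iff]
  constructor
  · intro h
    obtain ⟨c, hc⟩ := Submodule.mem_span_singleton.1 (h _ (Submodule.mem_span_singleton_self _))
    exact ⟨c, by rw [single_eq_smul i c, hc]; rfl⟩
  · rintro ⟨c, hc⟩ v hv
    obtain ⟨a, rfl⟩ := Submodule.mem_span_singleton.1 hv
    change (g : Matrix (Fin m ⊕ Fin m) (Fin m ⊕ Fin m) F) *ᵥ _ ∈ _
    rw [mulVec_smul, hc, single_eq_smul i c]
    exact Submodule.smul_mem _ _ (Submodule.smul_mem _ _ (Submodule.mem_span_singleton_self _))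

/-- Diagonal symplectic matrices. -/
def dg (δ : Fin m ⊕ Fin m → F) (h : ∀ a, δ (Sum.inl a) * δ (Sum.inr a) = 1) :
    Matrix.symplecticGroup (Fin m) F :=
  ⟨diagonal δ, by
    rw [mem_symplecticGroup_iff_preserves]
    intro u v
    rw [sympForm_eq_sum, sympForm_eq_sum]
    apply Finset.sum_congr rfl
    intro a _
    rw [mulVec_diagonal, mulVec_diagonal, mulVec_diagonal, mulVec_diagonal]
    linear_combination (u (Sum.inr a) * v (Sum.inl a) - u (Sum.inl a) * v (Sum.inr a)) * h a⟩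

theorem dg_mulVec (δ : Fin m ⊕ Fin m → F) (h : ∀ a, δ (Sum.inl a) * δ (Sum.inr a) = 1)
    (w : Fin m ⊕ Fin m → F) (x : Fin m ⊕ Fin m) :
    ((dg δ h : Matrix (Fin m ⊕ Fin m) (Fin m ⊕ Fin m) F) *ᵥ w) x = δ x * w x :=
  mulVec_diagonal _ _ _

theorem dg_mem (δ : Fin m ⊕ Fin m → F) (h : ∀ a, δ (Sum.inl a) * δ (Sum.inr a) = 1) :
    dg δ h ∈ Tor F m := by
  rw [mem_Tor]
  intro i
  refine ⟨δ i, ?_⟩
  funext x
  rw [dg_mulVec]
  by_cases hx : x = i
  · subst hx; simp
  · simp [Pi.single_eq_of_ne hx]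

/-- Separation of the characters of the torus. -/
theorem exists_sep (t : F) (ht0 : t ≠ 0) (ht : t * t ≠ 1) (j l : Fin m ⊕ Fin m) (hjl : j ≠ l) :
    ∃ (δ : Fin m ⊕ Fin m → F) (_ : ∀ a, δ (Sum.inl a) * δ (Sum.inr a) = 1), δ j ≠ δ l := by
  have ht1 : t ≠ 1 := by rintro rfl; exact ht (one_mul 1)
  have hti1 : t⁻¹ ≠ 1 := by
    intro h; exact ht1 (inv_eq_one.1 h)
  have htt : t ≠ t⁻¹ := by
    intro h
    apply ht
    nth_rewrite 2 [h]
    exact mul_inv_cancel₀ ht0
  rcases j with a | a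
  · refine ⟨Sum.elim (fun b => if b = a then t else 1) (fun b => if b = a then t⁻¹ else 1), ?_, ?_⟩
    · intro b
      by_cases hb : b = a <;> simp [hb, ht0]
    · rcases l with b | b
      · have hb : b ≠ a := fun h => hjl (by rw [h])
        simp [hb, ht1]
      · by_cases hb : b = a <;> simp [hb, ht1, htt]
  · refine ⟨Sum.elim (fun b => if b = a then t else 1) (fun b => if b = a then t⁻¹ else 1), ?_, ?_⟩
    · intro b
      by_cases hb : b = a <;> simp [hb, ht0]
    · rcases l with b | b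
      · by_cases hb : b = a <;> simp [hb, hti1, htt.symm]
      · have hb : b ≠ a := fun h => hjl (by rw [h])
        simp [hb, hti1]

/-- Monomial matrices. -/
def IsMon (g : Matrix.symplecticGroup (Fin m) F) : Prop :=
  ∀ i, ∃ (x : Fin m ⊕ Fin m) (c : F), c ≠ 0 ∧
    (g : Matrix (Fin m ⊕ Fin m) (Fin m ⊕ Fin m) F) *ᵥ Pi.single i 1 = Pi.single x c

theorem mulVec_inj (g : Matrix.symplecticGroup (Fin m) F) {u v : Fin m ⊕ Fin m → F}
    (h : (g : Matrix (Fin m ⊕ Fin m) (Fin m ⊕ Fin m) F) *ᵥ u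
      = (g : Matrix (Fin m ⊕ Fin m) (Fin m ⊕ Fin m) F) *ᵥ v) : u = v := by
  rw [← coe_inv_mulVec' g u, h, coe_inv_mulVec']

theorem isMon_of_mem (t : F) (ht0 : t ≠ 0) (ht : t * t ≠ 1) (g : Matrix.symplecticGroup (Fin m) F)
    (hg : g ∈ Subgroup.normalizer (Tor F m : Set (Matrix.symplecticGroup (Fin m) F))) : IsMon g := by
  intro i
  set w := (g : Matrix (Fin m ⊕ Fin m) (Fin m ⊕ Fin m) F) *ᵥ Pi.single i 1 with hw
  have hw0 : w ≠ 0 := by
    intro h
    have h1 : (Pi.single i 1 : Fin m ⊕ Fin m → F) = 0 := by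
      apply mulVec_inj g
      rw [← hw, h, mulVec_zero]
    have := congrFun h1 i
    simp at this
  obtain ⟨j, hj⟩ : ∃ j, w j ≠ 0 := by
    by_contra hcon
    push Not at hcon
    exact hw0 (funext hcon)
  refine ⟨j, w j, hj, ?_⟩
  funext l
  by_cases hl : l = j
  · subst hl; simp
  · rw [Pi.single_eq_of_ne hl]
    by_contra hwl
    obtain ⟨δ, hδ, hne⟩ := exists_sep t ht0 ht j l (Ne.symm hl)
    have h1 : g⁻¹ * dg δ hδ * g ∈ Tor F m := by
      have h2 := (Subgroup.mem_normalizer_iff.1 (Subgroup.inv_mem _ hg) (dg δ hδ)).1 (dg_mem δ hδ)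
      rwa [inv_inv] at h2
    obtain ⟨c, hc⟩ := (mem_Tor _).1 h1 i
    rw [coe_mul_mulVec, coe_mul_mulVec, ← hw] at hc
    have h3 : (dg δ hδ : Matrix (Fin m ⊕ Fin m) (Fin m ⊕ Fin m) F) *ᵥ w = c • w := by
      have h4 := congrArg (fun z => (g : Matrix (Fin m ⊕ Fin m) (Fin m ⊕ Fin m) F) *ᵥ z) hc
      rw [coe_inv_mulVec, single_eq_smul i c, mulVec_smul, ← hw] at h4
      exact h4
    have h5 := congrFun h3 j
    have h6 := congrFun h3 l
    rw [dg_mulVec, Pi.smul_apply, smul_eq_mul] at h5 h6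
    exact hne ((mul_right_cancel₀ hj h5).trans (mul_right_cancel₀ hwl h6).symm)

local notation "V" => (Fin m ⊕ Fin m → F)
local notation "MM" => Matrix (Fin m ⊕ Fin m) (Fin m ⊕ Fin m) F

theorem single_inj {x y : Fin m ⊕ Fin m} {c d : F} (hc : c ≠ 0)
    (h : (Pi.single x c : Fin m ⊕ Fin m → F) = Pi.single y d) : x = y ∧ c = d := by
  have h1 := congrFun h x
  rw [Pi.single_eq_same] at h1
  by_cases hxy : x = y
  · subst hxy
    rw [Pi.single_eq_same] at h1
    exact ⟨rfl, h1⟩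
  · rw [Pi.single_eq_of_ne hxy] at h1
    exact absurd h1 hc

theorem mulVec_single' (g : Matrix.symplecticGroup (Fin m) F) (i : Fin m ⊕ Fin m) (c : F) :
    (g : MM) *ᵥ Pi.single i c = c • ((g : MM) *ᵥ Pi.single i 1) := by
  rw [single_eq_smul i c, mulVec_smul]

theorem axis_inj (g : Matrix.symplecticGroup (Fin m) F) {i j x : Fin m ⊕ Fin m} {c d : F}
    (hd : d ≠ 0) (hi : (g : MM) *ᵥ Pi.single i 1 = Pi.single x c)
    (hj : (g : MM) *ᵥ Pi.single j 1 = Pi.single x d) : i = j := by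
  have h1 : (g : MM) *ᵥ (Pi.single i d) = (g : MM) *ᵥ (Pi.single j c) := by
    rw [mulVec_single' g i d, mulVec_single' g j c, hi, hj, ← Pi.single_smul, ← Pi.single_smul,
      smul_eq_mul, smul_eq_mul, mul_comm]
  exact (single_inj hd (mulVec_inj g h1)).1

theorem IsMon.exists_inv {g : Matrix.symplecticGroup (Fin m) F} (hg : IsMon g)
    (l : Fin m ⊕ Fin m) :
    ∃ (i : Fin m ⊕ Fin m) (c : F), (g : MM) *ᵥ Pi.single i c = Pi.single l 1 := by
  choose x c hc hx using hg
  have hinj : Function.Injective x := by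
    intro i j hij
    have h2 := hx j
    rw [← hij] at h2
    exact axis_inj g (hc j) (hx i) h2
  obtain ⟨i, rfl⟩ := (Finite.injective_iff_surjective.1 hinj) l
  refine ⟨i, (c i)⁻¹, ?_⟩
  rw [mulVec_single', hx, ← Pi.single_smul, smul_eq_mul, inv_mul_cancel₀ (hc i)]

theorem mem_of_isMon [Finite F] (g : Matrix.symplecticGroup (Fin m) F) (hg : IsMon g) :
    g ∈ Subgroup.normalizer (Tor F m : Set (Matrix.symplecticGroup (Fin m) F)) := by
  apply Subgroup.mem_normalizer_fintype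
  intro n hn
  rw [SetLike.mem_coe, mem_Tor] at hn ⊢
  intro l
  obtain ⟨i, c, hi⟩ := hg.exists_inv l
  obtain ⟨d, hd⟩ := hn i
  refine ⟨d, ?_⟩
  have h1 : (n : MM) *ᵥ Pi.single i c = d • Pi.single i c := by
    rw [mulVec_single', hd, ← Pi.single_smul, ← Pi.single_smul, smul_eq_mul, smul_eq_mul, mul_comm]
  rw [coe_mul_mulVec, coe_mul_mulVec, ← hi, coe_inv_mulVec', h1, mulVec_smul, hi,
    ← Pi.single_smul, smul_eq_mul, mul_one]

def side (b : Bool) (a : Fin m) : Fin m ⊕ Fin m := if b then Sum.inl a else Sum.inr a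

def sg (F : Type*) [Field F] (b : Bool) : F := if b then -1 else 1

theorem sg_mul_self (b : Bool) : sg F b * sg F b = 1 := by cases b <;> simp [sg]

theorem sg_ne_zero (b : Bool) : sg F b ≠ 0 := by cases b <;> simp [sg]

theorem side_inj {s t : Bool} {i j : Fin m} (h : side s i = side t j) : s = t ∧ i = j := by
  cases s <;> cases t <;> simp_all [side]

theorem exists_side (x : Fin m ⊕ Fin m) : ∃ (s : Bool) (i : Fin m), x = side s i := by
  rcases x with a | a
  · exact ⟨true, a, rfl⟩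
  · exact ⟨false, a, rfl⟩

theorem ff_side (s t : Bool) (i j : Fin m) (a b : F) :
    sympForm m F (Pi.single (side s i) a) (Pi.single (side t j) b)
      = if i = j ∧ t = !s then sg F s * a * b else 0 := by
  rw [single_eq_smul _ b, sympForm_smul_right]
  cases s <;> cases t <;>
    simp [side, sg, sympForm_single_inl, sympForm_single_inr, Pi.single_apply, eq_comm, mul_comm]
  split_ifs <;> simp

def fr (ρ : Fin m → Fin m) (s : Fin m → Bool) (c : Fin m → Fˣ) : Fin m → V × V :=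
  fun a => (Pi.single (side (s a) (ρ a)) (c a : F),
    Pi.single (side (!s a) (ρ a)) (sg F (s a) * (c a : F)⁻¹))

theorem isFrame_fr (ρ : Fin m → Fin m) (hρ : Function.Injective ρ) (s : Fin m → Bool)
    (c : Fin m → Fˣ) : IsFrame (fr ρ s c) := by
  constructor
  · intro a
    change sympForm m F _ _ = 1
    simp only [fr]
    rw [ff_side, if_pos ⟨rfl, rfl⟩]
    have h1 := sg_mul_self (F := F) (s a)
    have h2 : (c a : F) * (c a : F)⁻¹ = 1 := mul_inv_cancel₀ (c a).ne_zero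
    linear_combination (c a : F) * (c a : F)⁻¹ * h1 + h2
  · intro a b hab
    have hne : ρ a ≠ ρ b := fun h => hab (hρ h)
    refine ⟨⟨?_, ?_⟩, ⟨?_, ?_⟩⟩ <;> (change sympForm m F _ _ = 0) <;> simp only [fr] <;>
      rw [ff_side, if_neg (fun h => hne h.1)]

noncomputable def Psi (x : (Fin m ↪ Fin m) × (Fin m → Bool) × (Fin m → Fˣ)) :
    {g : Matrix.symplecticGroup (Fin m) F // IsMon g} :=
  ⟨frameEquivSp.symm ⟨fr x.1 x.2.1 x.2.2, isFrame_fr _ x.1.injective _ _⟩, by
    rintro (a | a)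
    · exact ⟨_, _, mul_ne_zero (sg_ne_zero _) (inv_ne_zero (x.2.2 a).ne_zero), matOf_inl _ a⟩
    · exact ⟨_, _, (x.2.2 a).ne_zero, matOf_inr _ a⟩⟩

theorem Psi_injective : Function.Injective (Psi (F := F) (m := m)) := by
  rintro ⟨ρ, s, c⟩ ⟨ρ', s', c'⟩ h
  have h0 := frameEquivSp.symm.injective (congrArg Subtype.val h)
  have h1 : fr ρ s c = fr ρ' s' c' := congrArg Subtype.val h0
  have h3 := fun a => single_inj (c a).ne_zero (congrArg Prod.fst (congrFun h1 a))
  have h4 := fun a => side_inj (h3 a).1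
  have e1 : ρ = ρ' := by
    ext a
    rw [(h4 a).2]
  have e2 : s = s' := funext fun a => (h4 a).1
  have e3 : c = c' := funext fun a => Units.ext (h3 a).2
  rw [e1, e2, e3]

theorem Psi_surjective : Function.Surjective (Psi (F := F) (m := m)) := by
  rintro ⟨g, hg⟩
  have h1 : ∀ a, ∃ (s : Bool) (i : Fin m) (c : Fˣ),
      (g : MM) *ᵥ Pi.single (Sum.inr a) 1 = Pi.single (side s i) (c : F) := by
    intro a
    obtain ⟨x, c, hc, hx⟩ := hg (Sum.inr a)
    obtain ⟨s, i, rfl⟩ := exists_side x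
    exact ⟨s, i, Units.mk0 c hc, hx⟩
  choose s ρ c h using h1
  have hρ : Function.Injective ρ := by
    intro a b hab
    by_contra hne
    by_cases hs : s b = !s a
    · have h2 := preserves g (Pi.single (Sum.inr a) 1) (Pi.single (Sum.inr b) 1)
      rw [h, h, ff_side, if_pos ⟨hab, hs⟩, sympForm_single_inr] at h2
      simp only [Pi.single_apply, reduceCtorEq, if_false, neg_zero] at h2
      exact mul_ne_zero (mul_ne_zero (sg_ne_zero _) (c a).ne_zero) (c b).ne_zero h2
    · have hs' : s b = s a := by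
        revert hs
        cases s b <;> cases s a <;> simp
      have h2 := h b
      rw [hs', ← hab] at h2
      exact hne (Sum.inr_injective (axis_inj g (c b).ne_zero (h a) h2))
  refine ⟨⟨⟨ρ, hρ⟩, s, c⟩, ?_⟩
  apply Subtype.ext
  change frameEquivSp.symm _ = g
  rw [Equiv.symm_apply_eq]
  apply Subtype.ext
  funext a
  apply Prod.ext
  · exact (h a).symm
  · change Pi.single (side (!s a) (ρ a)) (sg F (s a) * (c a : F)⁻¹)
      = (g : MM) *ᵥ Pi.single (Sum.inl a) 1
    obtain ⟨y, d, hd, hy⟩ := hg (Sum.inl a)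
    obtain ⟨t, j, rfl⟩ := exists_side y
    have h2 := preserves g (Pi.single (Sum.inr a) 1) (Pi.single (Sum.inl a) 1)
    rw [h, hy, ff_side, sympForm_single_inl, Pi.single_eq_same] at h2
    by_cases hc : ρ a = j ∧ t = !s a
    · rw [if_pos hc] at h2
      rw [hy, hc.1, hc.2]
      congr 1
      have h3 := sg_mul_self (F := F) (s a)
      have h4 : (c a : F) * (c a : F)⁻¹ = 1 := mul_inv_cancel₀ (c a).ne_zero
      linear_combination (- sg F (s a) * (c a : F)⁻¹) * h2 + d * (c a : F) * (c a : F)⁻¹ * h3 + d * h4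
    · rw [if_neg hc] at h2
      exact absurd h2 zero_ne_one

theorem exists_t [Fintype F] (hq : 4 ≤ Fintype.card F) : ∃ t : F, t ≠ 0 ∧ t * t ≠ 1 := by
  classical
  by_contra hcon
  push Not at hcon
  have h1 : (Finset.univ : Finset F) ⊆ {0, 1, -1} := by
    intro t _
    by_cases ht : t = 0
    · simp [ht]
    · rcases mul_self_eq_one_iff.1 (hcon t ht) with h | h <;> simp [h]
  have h2 := Finset.card_le_card h1
  have h3 : ({0, 1, -1} : Finset F).card ≤ 3 := Finset.card_le_three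
  rw [Finset.card_univ] at h2
  omega

/-- Weyl group of type C_m: for q ≥ 4 the diagonal matrices of Sp_2m(q) form a torus T ≅ (C_(q−1))^m (the elements stabilising every coordinate axis), and the normaliser of T in Sp_2m(q) has order 2^m · m! · (q − 1)^m. -/
theorem result {F : Type*} [Field F] [Fintype F] {q : ℕ} (hF : Fintype.card F = q) (hq : 4 ≤ q) (m : ℕ) : Nat.card ↥(Subgroup.normalizer (⨅ i : Fin m ⊕ Fin m, Cfsg.stabilizing (Cfsg.spToMat m F) ((Submodule.span F {(Pi.single i (1 : F) : Fin m ⊕ Fin m → F)} : Submodule F (Fin m ⊕ Fin m → F)) : Set (Fin m ⊕ Fin m → F)) : Set (Matrix.symplecticGroup (Fin m) F))) = 2 ^ m * Nat.factorial m * (q - 1) ^ m := by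
  classical
  rw [Set.iInf_eq_iInter, ← Subgroup.coe_iInf]
  change Nat.card ↥(Subgroup.normalizer (Tor F m : Set (Matrix.symplecticGroup (Fin m) F))) = _
  obtain ⟨t, ht0, ht⟩ := exists_t (F := F) (hF ▸ hq)
  have e1 : ↥(Subgroup.normalizer (Tor F m : Set (Matrix.symplecticGroup (Fin m) F)))
      ≃ {g : Matrix.symplecticGroup (Fin m) F // IsMon g} :=
    Equiv.subtypeEquivRight fun g => ⟨isMon_of_mem t ht0 ht g, mem_of_isMon g⟩
  rw [Nat.card_congr e1, ← Nat.card_congr (Equiv.ofBijective _ ⟨Psi_injective, Psi_surjective⟩),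
    Nat.card_eq_fintype_card, Fintype.card_prod, Fintype.card_prod, Fintype.card_embedding_eq,
    Fintype.card_fun, Fintype.card_fun, Fintype.card_units, Fintype.card_fin, Fintype.card_bool,
    Nat.descFactorial_self, hF]
  ring

end Cfsg.Agent.S0777
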