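import Cfsg.Statements.S0778
import Cfsg.Agent.Lib.Helper17Stab

set_option autoImplicit false
open Cfsg

namespace Cfsg.Agent.S0778

open Matrix Cfsg.Agent.Lib.Helper17Stab

variable {F : Type*} [Field F] {m : ℕ}

def We (F : Type*) [Field F] (m : ℕ) : Submodule F (Fin m ⊕ Fin m → F) where
  carrier := {v | ∀ i : Fin m, v (Sum.inr i) = 0}
  add_mem' := by
    intro a b ha hb i
    rw [Pi.add_apply, ha i, hb i, add_zero]
  zero_mem' := fun _ => rfl
  smul_mem' := by
    intro c a ha i
    rw [Pi.smul_apply, ha i, smul_zero]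

def Wf (F : Type*) [Field F] (m : ℕ) : Submodule F (Fin m ⊕ Fin m → F) where
  carrier := {v | ∀ i : Fin m, v (Sum.inl i) = 0}
  add_mem' := by
    intro a b ha hb i
    rw [Pi.add_apply, ha i, hb i, add_zero]
  zero_mem' := fun _ => rfl
  smul_mem' := by
    intro c a ha i
    rw [Pi.smul_apply, ha i, smul_zero]

theorem diag_mem (A D : Matrix (Fin m) (Fin m) F) (h : A * Dᵀ = 1) :
    fromBlocks A 0 0 D ∈ Matrix.symplecticGroup (Fin m) F := by
  rw [SymplecticGroup.mem_iff, Matrix.J, fromBlocks_multiply, fromBlocks_transpose,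
    fromBlocks_multiply]
  have h' : D * Aᵀ = 1 := by
    have := congrArg Matrix.transpose h
    rwa [transpose_mul, transpose_transpose, transpose_one] at this
  simp [h, h']

/-- The block-diagonal embedding. -/
def psi (F : Type*) [Field F] (m : ℕ) :
    Matrix.GeneralLinearGroup (Fin m) F →* Matrix.symplecticGroup (Fin m) F where
  toFun A := ⟨fromBlocks (A : Matrix (Fin m) (Fin m) F) 0 0
      ((A⁻¹ : Matrix.GeneralLinearGroup (Fin m) F) : Matrix (Fin m) (Fin m) F)ᵀ, diag_mem _ _ (by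
    rw [transpose_transpose, ← Units.val_mul, mul_inv_cancel, Units.val_one])⟩
  map_one' := by
    apply Subtype.ext
    simp
  map_mul' A B := by
    apply Subtype.ext
    change _ = fromBlocks _ _ _ _ * fromBlocks _ _ _ _
    rw [fromBlocks_multiply]
    simp [_root_.mul_inv_rev, transpose_mul]

/-- The elements of Sp_2m(F) stabilising both W = ⟨e_1..e_m⟩ and U = ⟨f_1..f_m⟩ form a subgroup isomorphic to GL_m(F) (block-diagonal matrices diag(X, X^(−ᵀ)) up to the sign convention of J), for m ≥ 1 or m = 0 alike. -/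
theorem result {F : Type*} [Field F] (m : ℕ) : Nonempty (↥(Cfsg.stabilizing (Cfsg.spToMat m F) {v : Fin m ⊕ Fin m → F | ∀ i : Fin m, v (Sum.inr i) = 0} ⊓ Cfsg.stabilizing (Cfsg.spToMat m F) {v : Fin m ⊕ Fin m → F | ∀ i : Fin m, v (Sum.inl i) = 0}) ≃* Matrix.GeneralLinearGroup (Fin m) F) := by
  change Nonempty (↥(Cfsg.stabilizing (Cfsg.spToMat m F) (We F m : Set (Fin m ⊕ Fin m → F)) ⊓
    Cfsg.stabilizing (Cfsg.spToMat m F) (Wf F m : Set (Fin m ⊕ Fin m → F))) ≃* _)
  have hinj : Function.Injective (psi F m) := by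
    intro A B hAB
    have h1 := congrArg Subtype.val hAB
    change fromBlocks _ _ _ _ = fromBlocks _ _ _ _ at h1
    rw [fromBlocks_inj] at h1
    exact Units.ext h1.1
  have hrange : (psi F m).range = Cfsg.stabilizing (Cfsg.spToMat m F) (We F m : Set (Fin m ⊕ Fin m → F)) ⊓
      Cfsg.stabilizing (Cfsg.spToMat m F) (Wf F m : Set (Fin m ⊕ Fin m → F)) := by
    ext g
    rw [Subgroup.mem_inf, mem_stabilizing_iff, mem_stabilizing_iff]
    constructor
    · rintro ⟨A, rfl⟩
      constructor
      · intro v hv i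
        change (fromBlocks _ _ _ _ *ᵥ v) (Sum.inr i) = 0
        rw [fromBlocks_mulVec]
        have : v ∘ Sum.inr = 0 := funext hv
        simp [this]
      · intro v hv i
        change (fromBlocks _ _ _ _ *ᵥ v) (Sum.inl i) = 0
        rw [fromBlocks_mulVec]
        have : v ∘ Sum.inl = 0 := funext hv
        simp [this]
    · rintro ⟨h1, h2⟩
      have hC : (g : Matrix (Fin m ⊕ Fin m) (Fin m ⊕ Fin m) F).toBlocks₂₁ = 0 := by
        ext i j
        have := h1 (Pi.single (Sum.inl j) 1) (by intro i; simp) i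
        change ((g : Matrix (Fin m ⊕ Fin m) (Fin m ⊕ Fin m) F) *ᵥ _) _ = 0 at this
        rw [mulVec_single_one] at this
        exact this
      have hB : (g : Matrix (Fin m ⊕ Fin m) (Fin m ⊕ Fin m) F).toBlocks₁₂ = 0 := by
        ext i j
        have := h2 (Pi.single (Sum.inr j) 1) (by intro i; simp) i
        change ((g : Matrix (Fin m ⊕ Fin m) (Fin m ⊕ Fin m) F) *ᵥ _) _ = 0 at this
        rw [mulVec_single_one] at this
        exact this
      have hg : (g : Matrix (Fin m ⊕ Fin m) (Fin m ⊕ Fin m) F)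
          = fromBlocks (g : Matrix (Fin m ⊕ Fin m) (Fin m ⊕ Fin m) F).toBlocks₁₁ 0 0
            (g : Matrix (Fin m ⊕ Fin m) (Fin m ⊕ Fin m) F).toBlocks₂₂ := by
        conv_lhs => rw [← fromBlocks_toBlocks (g : Matrix (Fin m ⊕ Fin m) (Fin m ⊕ Fin m) F), hB, hC]
      set A := (g : Matrix (Fin m ⊕ Fin m) (Fin m ⊕ Fin m) F).toBlocks₁₁ with hA
      set D := (g : Matrix (Fin m ⊕ Fin m) (Fin m ⊕ Fin m) F).toBlocks₂₂ with hD
      have hs := SymplecticGroup.mem_iff.1 g.2
      rw [hg, Matrix.J, fromBlocks_multiply, fromBlocks_transpose, fromBlocks_multiply,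
        fromBlocks_inj] at hs
      have hAD : A * Dᵀ = 1 := by
        have := hs.2.1
        simp only [zero_mul, mul_zero, zero_add, add_zero, mul_neg, mul_one, neg_mul, neg_inj,
          transpose_zero] at this
        exact this
      have hDA : Dᵀ * A = 1 := mul_eq_one_comm.1 hAD
      refine ⟨⟨A, Dᵀ, hAD, hDA⟩, ?_⟩
      apply Subtype.ext
      rw [hg]
      change fromBlocks A 0 0 (Dᵀ)ᵀ = _
      rw [transpose_transpose]
  exact ⟨((MonoidHom.ofInjective hinj).trans (MulEquiv.subgroupCongr hrange)).symm⟩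

end Cfsg.Agent.S0778
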