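import Cfsg.Statements.S0779
import Cfsg.Agent.Lib.Helper7GU

set_option autoImplicit false
open Cfsg Cfsg.Agent.Lib.Helper7Herm Cfsg.Agent.Lib.Helper7GU

namespace Cfsg.Agent.S0779

theorem ut_mulVec {F : Type*} [Field F] (n q : ℕ) (v : Fin n → F) (c : F) (x : Fin n → F) :
    (Cfsg.unitaryTransvection n q v c).mulVec x = x + (c * Cfsg.hermForm n F q x v) • v := by
  simp only [Cfsg.unitaryTransvection, Matrix.add_mulVec, Matrix.one_mulVec, Matrix.smul_mulVec,
    Matrix.vecMulVec_mulVec, Cfsg.hermForm]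
  congr 1
  funext i
  simp only [Pi.smul_apply, smul_eq_mul, MulOpposite.smul_eq_mul_unop, MulOpposite.unop_op,
    dotProduct]
  have : ∑ j, v j ^ q * x j = ∑ j, x j * v j ^ q := Finset.sum_congr rfl (fun j _ => mul_comm _ _)
  rw [this]
  ring

theorem ut_form {F : Type*} [Field F] [Fintype F] {q : ℕ} (hF : Fintype.card F = q ^ 2) (n : ℕ)
    (v : Fin n → F) (hv0 : Cfsg.hermForm n F q v v = 0) (c : F) (x y : Fin n → F) :
    Cfsg.hermForm n F q ((Cfsg.unitaryTransvection n q v c).mulVec x)
      ((Cfsg.unitaryTransvection n q v c).mulVec y)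
      = Cfsg.hermForm n F q x y
        + (c ^ q + c) * (Cfsg.hermForm n F q x v * Cfsg.hermForm n F q v y) := by
  rw [ut_mulVec, ut_mulVec, h_add_left, h_add_right hF, h_add_right hF, h_smul_left, h_smul_left,
    h_smul_right, h_smul_right, hv0, mul_pow, ← h_symm hF y v]
  ring

/-- Unitary transvections: let |F| = q², h the standard Hermitian form Σ x_i y_i^q and v ≠ 0 with h(v, v) = 0. The linear map x ↦ x + c h(x, v) v is an isometry of h if and only if c = 0 or c^(q−1) = −1. -/
theorem result {F : Type*} [Field F] [Fintype F] {q : ℕ} (hF : Fintype.card F = q ^ 2) (n : ℕ) (v : Fin n → F) (hv : v ≠ 0) (hv0 : Cfsg.hermForm n F q v v = 0) (c : F) : (∀ x y : Fin n → F, Cfsg.hermForm n F q ((Cfsg.unitaryTransvection n q v c).mulVec x) ((Cfsg.unitaryTransvection n q v c).mulVec y) = Cfsg.hermForm n F q x y) ↔ (c = 0 ∨ c ^ (q - 1) = -1) := by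
  have hq := two_le_q hF
  obtain ⟨i, hi⟩ : ∃ i, v i ≠ 0 := by
    by_contra hcon
    push Not at hcon
    exact hv (funext hcon)
  have h1 : Cfsg.hermForm n F q (Pi.single i 1) v = v i ^ q := by
    simp [Cfsg.hermForm, Pi.single_apply]
  have h2 : Cfsg.hermForm n F q v (Pi.single i 1) = v i := by
    rw [h_symm hF, h1, ← pow_mul, ← sq, pow_q_sq hF]
  have hiff : (c = 0 ∨ c ^ (q - 1) = -1) ↔ c ^ q + c = 0 := by
    have hqq : c ^ q = c ^ (q - 1) * c := by
      rw [← pow_succ]; congr 1; omega
    rw [hqq]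
    constructor
    · rintro (h | h)
      · rw [h]; simp
      · rw [h]; ring
    · intro h
      have : (c ^ (q - 1) + 1) * c = 0 := by linear_combination h
      rcases mul_eq_zero.mp this with h3 | h3
      · right; linear_combination h3
      · left; exact h3
  rw [hiff]
  constructor
  · intro h
    have h3 := h (Pi.single i 1) (Pi.single i 1)
    rw [ut_form hF n v hv0, h1, h2] at h3
    have h4 : (c ^ q + c) * (v i ^ q * v i) = 0 := by linear_combination h3
    rcases mul_eq_zero.mp h4 with h5 | h5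
    · exact h5
    · exact absurd h5 (mul_ne_zero (pow_ne_zero _ hi) hi)
  · intro h x y
    rw [ut_form hF n v hv0, h]
    ring

end Cfsg.Agent.S0779
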