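import Cfsg.Statements.S0782
import Cfsg.Agent.Lib.Helper48UParC
import Cfsg.Agent.Lib.Helper7SU
import Cfsg.Agent.S2581

set_option autoImplicit false
open Cfsg

namespace Cfsg.Agent.S0782

open Matrix Cfsg.Agent.Lib.Helper48GUCentA Cfsg.Agent.Lib.Helper48GUCentD
  Cfsg.Agent.Lib.Helper48UParA Cfsg.Agent.Lib.Helper48UParB Cfsg.Agent.Lib.Helper48UParC
  Cfsg.Agent.Lib.Helper48WallU Cfsg.Agent.Lib.Helper7Herm Cfsg.Agent.Lib.Helper7GU
  Cfsg.Agent.Lib.Helper7SU Cfsg.Agent.Lib.Helper48Norm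

section diag

variable {F : Type*} [Field F] {k r : ℕ}

/-- diagonal elements of the model parabolic -/
theorem exists_diag (φ : F →+* F) (hφ2 : ∀ x, φ (φ x) = x) (a : Fin k → F) (b : Fin r → F)
    (ha : ∀ i, a i ≠ 0) (hb : ∀ j, φ (b j) * b j = 1) :
    ∃ X : (Matrix (JJ k r) (JJ k r) F)ˣ, X.1.BlockTriangular lv ∧ dag k r φ X.1 * X.1 = 1 ∧
      X.1.det = (∏ i, a i) * ((∏ j, b j) * ∏ i, (φ (a i))⁻¹) := by
  set f : JJ k r → F := Sum.elim a (Sum.elim b (fun i => (φ (a i))⁻¹)) with hf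
  have hdag : dag k r φ (Matrix.diagonal f) = Matrix.diagonal (fun x => φ (f (sg x))) := by
    ext x y
    rw [dag_apply, Matrix.diagonal_apply, Matrix.diagonal_apply]
    by_cases h : x = y
    · subst h
      rw [if_pos rfl, if_pos rfl]
    · rw [if_neg h, if_neg, map_zero]
      intro h'
      apply h
      rw [← sg_sg x, ← sg_sg y, h']
  have h1 : dag k r φ (Matrix.diagonal f) * Matrix.diagonal f = 1 := by
    rw [hdag, Matrix.diagonal_mul_diagonal, ← Matrix.diagonal_one]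
    congr 1
    funext x
    rcases x with i | j | i
    · show φ ((φ (a i))⁻¹) * a i = 1
      rw [map_inv₀, hφ2, inv_mul_cancel₀ (ha i)]
    · exact hb j
    · show φ (a i) * (φ (a i))⁻¹ = 1
      rw [mul_inv_cancel₀ ((map_ne_zero φ).2 (ha i))]
  refine ⟨⟨Matrix.diagonal f, dag k r φ (Matrix.diagonal f), mul_eq_one_comm.1 h1, h1⟩,
    Matrix.blockTriangular_diagonal f, h1, ?_⟩
  show (Matrix.diagonal f).det = _
  rw [Matrix.det_diagonal, Fintype.prod_sum_type, Fintype.prod_sum_type]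
  rfl

end diag

/-- Maximal parabolics of SU_n(q): if W is a k-dimensional subspace of F^n (n ≥ 1, |F| = q²) on which the Hermitian form vanishes, then (q + 1) times the order of its stabiliser in SU_n(q) equals q^(k(2n−3k)) · |GL_k(q²)| · |GU_(n−2k)(q)|, where |GU_m(q)| = q^(m(m−1)/2) Π_(i=1..m) (q^i − (−1)^i). -/
theorem result {F : Type*} [Field F] [Fintype F] {q : ℕ} (hF : Fintype.card F = q ^ 2) (n k : ℕ) (hn : 1 ≤ n) (hk : 2 * k ≤ n) (W : Submodule F (Fin n → F)) (hWk : Module.finrank F W = k) (hW : ∀ u ∈ W, ∀ v ∈ W, Cfsg.hermForm n F q u v = 0) : (q + 1) * Nat.card ↥((Cfsg.stabilizing (Cfsg.slToMat n F) (W : Set (Fin n → F))).subgroupOf (Cfsg.SU n F q)) = q ^ (k * (2 * n - 3 * k)) * (∏ i : Fin k, ((q ^ 2) ^ k - (q ^ 2) ^ (i : ℕ))) * (q ^ ((n - 2 * k) * ((n - 2 * k) - 1) / 2) * ∏ i ∈ Finset.range (n - 2 * k), (if Even i then q ^ (i + 1) + 1 else q ^ (i + 1) - 1)) := by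
  classical
  obtain ⟨φ, hφq, hφ2, ω, hω⟩ := exists_frob hF
  have hq := two_le_q hF
  set r := n - 2 * k with hr
  have hcard : Fintype.card (JJ k r) = n := by
    simp only [Fintype.card_sum, Fintype.card_fin]
    omega
  let e : JJ k r ≃ Fin n := Fintype.equivFinOfCardEq hcard
  obtain ⟨Ψ, hΨ1, hΨ2, hΨ3⟩ := exists_model hF n k r e W hWk hW φ hφq hφ2 ω hω
  set St := Cfsg.stabilizing (Units.coeHom (Matrix (Fin n) (Fin n) F)) (W : Set (Fin n → F)) with hSt
  let PG : Subgroup (GL (Fin n) F) := Cfsg.GU n F q ⊓ St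
  let detP : ↥PG →* Fˣ := (Matrix.GeneralLinearGroup.det).comp PG.subtype
  have hPG : Nat.card ↥PG = Nat.card {X : (Matrix (JJ k r) (JJ k r) F)ˣ //
      X.1.BlockTriangular lv ∧ dag k r φ X.1 * X.1 = 1} := by
    apply Nat.card_congr
    refine (Equiv.subtypeEquiv Ψ.toEquiv (fun X => ?_)).symm
    show (X.1.BlockTriangular lv ∧ dag k r φ X.1 * X.1 = 1) ↔ (Ψ X ∈ Cfsg.GU n F q ∧ Ψ X ∈ St)
    constructor
    · rintro ⟨h1, h2⟩
      exact ⟨(hΨ1 X).2 h2, (hΨ2 X h2).2 h1⟩
    · rintro ⟨h1, h2⟩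
      exact ⟨(hΨ2 X ((hΨ1 X).1 h1)).1 h2, (hΨ1 X).1 h1⟩
  have hrange : detP.range = (powMonoidHom (q + 1) : Fˣ →* Fˣ).ker := by
    ext c
    constructor
    · rintro ⟨g, rfl⟩
      rw [MonoidHom.mem_ker]
      ext
      have := det_pow_of_isU hF g.1.1 ((mem_GU_iff hF g.1).mp g.2.1)
      simpa [detP] using this
    · intro hc
      rw [MonoidHom.mem_ker] at hc
      have hc' : (c : F) ^ (q + 1) = 1 := by
        have := congrArg Units.val hc
        simpa using this
      have hc'' : φ (c : F) * c = 1 := by rw [hφq, ← pow_succ, hc']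
      obtain ⟨X, hX1, hX2, hX3⟩ : ∃ X : (Matrix (JJ k r) (JJ k r) F)ˣ, X.1.BlockTriangular lv ∧
          dag k r φ X.1 * X.1 = 1 ∧ X.1.det = c := by
        rcases Nat.eq_zero_or_pos r with hr0 | hr0
        · have hk0 : 0 < k := by omega
          obtain ⟨t, htu, ht⟩ := hilbert90 φ hφ2 ω
            (by rw [isUnit_iff_ne_zero]; exact sub_ne_zero.2 hω.symm) (c : F) hc''
          have ht0 : t ≠ 0 := htu.ne_zero
          obtain ⟨X, h1, h2, h3⟩ := exists_diag (k := k) (r := r) φ hφ2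
            (fun i => if i = ⟨0, hk0⟩ then t else 1) (fun _ => 1)
            (by intro i; split_ifs; exact ht0; exact one_ne_zero) (by intro j; simp)
          refine ⟨X, h1, h2, ?_⟩
          rw [h3]
          have e1 : ∀ i : Fin k, (φ (if i = ⟨0, hk0⟩ then t else 1))⁻¹
              = if i = ⟨0, hk0⟩ then (φ t)⁻¹ else 1 := by
            intro i; split_ifs <;> simp
          simp only [e1, Finset.prod_ite_eq', Finset.mem_univ, if_true, Finset.prod_const_one,
            one_mul]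
          have hφt : φ t ≠ 0 := (map_ne_zero φ).2 ht0
          calc t * (φ t)⁻¹ = (c : F) * φ t * (φ t)⁻¹ := by rw [ht]
            _ = c := by rw [mul_assoc, mul_inv_cancel₀ hφt, mul_one]
        · obtain ⟨X, h1, h2, h3⟩ := exists_diag (k := k) (r := r) φ hφ2 (fun _ => 1)
            (fun j => if j = ⟨0, hr0⟩ then (c : F) else 1) (by intro i; exact one_ne_zero)
            (by intro j; split_ifs; exact hc''; simp)
          refine ⟨X, h1, h2, ?_⟩
          rw [h3]
          simp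
      refine ⟨⟨Ψ X, (hΨ1 X).2 hX2, (hΨ2 X hX2).2 hX1⟩, ?_⟩
      ext
      show (Ψ X).1.det = c
      rw [hΨ3, hX3]
  let eK : ↥((Cfsg.stabilizing (Cfsg.slToMat n F) (W : Set (Fin n → F))).subgroupOf (Cfsg.SU n F q))
      ≃ ↥detP.ker :=
    { toFun := fun s => ⟨⟨Matrix.SpecialLinearGroup.toGL s.1.1,
          (mem_GU_iff hF _).mpr ((mem_SU_iff hF s.1.1).mp s.1.2), fun v => s.2 v⟩, by
        rw [MonoidHom.mem_ker]
        ext
        simp [detP]⟩
      invFun := fun g => ⟨⟨⟨g.1.1.1, by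
          have h := g.2
          rw [MonoidHom.mem_ker] at h
          have := congrArg Units.val h
          simpa [detP] using this⟩,
          (mem_SU_iff hF _).mpr ((mem_GU_iff hF g.1.1).mp g.1.2.1)⟩, fun v => g.1.2.2 v⟩
      left_inv := fun s => by
        apply Subtype.ext
        apply Subtype.ext
        apply Subtype.ext
        rfl
      right_inv := fun g => by
        apply Subtype.ext
        apply Subtype.ext
        apply Units.ext
        rfl }
  have hmain : (q + 1) * Nat.card ↥((Cfsg.stabilizing (Cfsg.slToMat n F)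
      (W : Set (Fin n → F))).subgroupOf (Cfsg.SU n F q)) = Nat.card ↥PG := by
    rw [Nat.card_congr eK, ← Subgroup.card_mul_index detP.ker, Subgroup.index_ker, hrange,
      IsCyclic.card_powMonoidHom_ker, card_units hF, Nat.gcd_eq_right (Dvd.intro_left _ rfl),
      mul_comm]
  rw [hmain, hPG, card_par hF φ hφq hφ2 ω hω, card_GU hF,
    Cfsg.Agent.S2581.card_det_ne_zero' (Fin k) k (Fintype.card_fin k), hF]
  have e1 : 2 * n - 3 * k = k + 2 * r := by omega
  rw [e1]

end Cfsg.Agent.S0782
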