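import Cfsg.Statements.S0783
import Cfsg.Agent.Lib.Helper7SUCenter

set_option autoImplicit false
open Cfsg Cfsg.Agent.Lib.Helper7Herm Cfsg.Agent.Lib.Helper7GU Cfsg.Agent.Lib.Helper7SU Cfsg.Agent.Lib.Helper7SUCenter

namespace Cfsg.Agent.S0783

/-- PGU_n(q)/PSU_n(q) is cyclic of order (n, q+1): for n ≥ 2 and |F| = q² there is a surjective homomorphism from GU_n(q) onto the cyclic group of order gcd(n, q + 1) whose kernel is generated by the determinant-one elements together with the centre. -/
theorem result {F : Type*} [Field F] [Fintype F] {q : ℕ} (hF : Fintype.card F = q ^ 2) (n : ℕ) (hn : 2 ≤ n) : ∃ φ : ↥(Cfsg.GU n F q) →* Multiplicative (ZMod (Nat.gcd n (q + 1))), Function.Surjective φ ∧ φ.ker = (Matrix.GeneralLinearGroup.det : Matrix.GeneralLinearGroup (Fin n) F →* Fˣ).ker.subgroupOf (Cfsg.GU n F q) ⊔ Subgroup.center ↥(Cfsg.GU n F q) := by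
  classical
  have hq := two_le_q hF
  let C : Subgroup Fˣ := (powMonoidHom (q + 1) : Fˣ →* Fˣ).ker
  have hrange := range_detGU (n := n) hF (by omega)
  have hmemC : ∀ g, detGU n F q g ∈ C := by
    intro g
    have : detGU n F q g ∈ (detGU n F q).range := ⟨g, rfl⟩
    rw [hrange] at this
    exact this
  let D' : ↥(Cfsg.GU n F q) →* C := (detGU n F q).codRestrict C hmemC
  have hD'surj : Function.Surjective D' := by
    rintro ⟨c, hc⟩
    have : c ∈ (detGU n F q).range := by rw [hrange]; exact hc
    obtain ⟨g, hg⟩ := this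
    exact ⟨g, Subtype.ext hg⟩
  have hcardC : Nat.card C = q + 1 := by
    rw [IsCyclic.card_powMonoidHom_ker, card_units hF, Nat.gcd_eq_right (Dvd.intro_left _ rfl)]
  let P : Subgroup C := (powMonoidHom n : C →* C).range
  have hindex : P.index = Nat.gcd n (q + 1) := by
    rw [IsCyclic.index_powMonoidHom_range, hcardC, Nat.gcd_comm]
  have hdpos : 0 < Nat.gcd n (q + 1) := Nat.gcd_pos_of_pos_left _ (by omega)
  haveI : NeZero (Nat.gcd n (q + 1)) := ⟨by omega⟩
  have hcardQ : Nat.card (C ⧸ P) = Nat.card (Multiplicative (ZMod (Nat.gcd n (q + 1)))) := by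
    rw [← Subgroup.index, hindex, Nat.card_eq_fintype_card, Fintype.card_multiplicative, ZMod.card]
  haveI : IsCyclic (C ⧸ P) := isCyclic_of_surjective (QuotientGroup.mk' P)
    (QuotientGroup.mk'_surjective P)
  let e : C ⧸ P ≃* Multiplicative (ZMod (Nat.gcd n (q + 1))) := mulEquivOfCyclicCardEq hcardQ
  refine ⟨(e.toMonoidHom.comp (QuotientGroup.mk' P)).comp D', ?_, ?_⟩
  · exact (e.surjective.comp (QuotientGroup.mk'_surjective P)).comp hD'surj
  · have hker : ∀ g, g ∈ ((e.toMonoidHom.comp (QuotientGroup.mk' P)).comp D').ker ↔ D' g ∈ P := by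
      intro g
      rw [MonoidHom.mem_ker]
      simp only [MonoidHom.comp_apply, MulEquiv.coe_toMonoidHom, EmbeddingLike.map_eq_one_iff,
        QuotientGroup.mk'_apply, QuotientGroup.eq_one_iff]
    -- scalar elements
    have hscal : ∀ c : C, ∃ z : ↥(Cfsg.GU n F q), z ∈ Subgroup.center ↥(Cfsg.GU n F q) ∧
        D' z = c ^ n := by
      intro c
      have hc' : ((c : Fˣ) : F) ^ (q + 1) = 1 := by
        have := congrArg Units.val (MonoidHom.mem_ker.mp c.2)
        simpa using this
      refine ⟨(guEquivIsU hF).symm ⟨_, isU_scalar (n := n) (by omega) ((c : Fˣ) : F) hc'⟩, ?_, ?_⟩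
      · rw [Subgroup.mem_center_iff]
        intro g
        apply Subtype.ext
        apply Units.ext
        simp only [Subgroup.coe_mul, Units.val_mul, guEquivIsU, Equiv.coe_fn_symm_mk]
        exact (Matrix.scalar_commute _ (fun r => Commute.all _ _) _).symm.eq
      · apply Subtype.ext
        apply Units.ext
        simp [D', detGU, guEquivIsU]
    apply le_antisymm
    · intro g hg
      rw [hker] at hg
      obtain ⟨c, hc⟩ := hg
      rw [powMonoidHom_apply] at hc
      obtain ⟨z, hz, hDz⟩ := hscal c
      have hg' : g = (g * z⁻¹) * z := by group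
      rw [hg']
      apply Subgroup.mul_mem_sup _ hz
      rw [Subgroup.mem_subgroupOf, MonoidHom.mem_ker]
      have h1 : D' (g * z⁻¹) = 1 := by
        rw [map_mul, map_inv, hDz, ← hc, mul_inv_cancel]
      have h2 := congrArg Subtype.val h1
      exact h2
    · apply sup_le
      · intro g hg
        rw [hker]
        rw [Subgroup.mem_subgroupOf, MonoidHom.mem_ker] at hg
        have : D' g = 1 := Subtype.ext hg
        rw [this]
        exact P.one_mem
      · intro z hz
        rw [hker]
        have hcomm : ∀ M : Matrix (Fin n) (Fin n) F, M.det = 1 → IsU n F q M →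
            M * z.1.1 = z.1.1 * M := by
          intro M _ hU
          have h := Subgroup.mem_center_iff.mp hz ((guEquivIsU hF).symm ⟨M, hU⟩)
          have h2 := congrArg (fun x : ↥(Cfsg.GU n F q) => x.1.1) h
          exact h2
        have hsc := eq_scalar_of_commute hF z.1.1 hcomm ⟨0, by omega⟩
        set l := z.1.1 ⟨0, by omega⟩ ⟨0, by omega⟩ with hl
        have hzU : IsU n F q z.1.1 := (mem_GU_iff hF z.1).mp z.2
        have hl1 : l ^ (q + 1) = 1 := by
          have h1 : IsU n F q (Matrix.scalar (Fin n) l) := by rw [← hsc]; exact hzU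
          unfold IsU at h1
          rw [Matrix.scalar_apply, Matrix.diagonal_transpose,
            Matrix.diagonal_map (f := fun x : F => x ^ q) (zero_pow (by omega)),
            Matrix.diagonal_mul_diagonal] at h1
          have h3 := congrFun (congrFun h1 ⟨0, by omega⟩) ⟨0, by omega⟩
          rw [Matrix.diagonal_apply_eq, Matrix.one_apply_eq] at h3
          rw [pow_succ']
          exact h3
        have hl0 : l ≠ 0 := by
          intro h0
          rw [h0] at hl1
          simp at hl1
        let c : C := ⟨Units.mk0 l hl0, by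
          rw [MonoidHom.mem_ker, powMonoidHom_apply]
          apply Units.ext
          simpa using hl1⟩
        refine ⟨c, ?_⟩
        rw [powMonoidHom_apply]
        apply Subtype.ext
        apply Units.ext
        have hdet : z.1.1.det = l ^ n := by
          rw [hsc]; simp
        simp only [D', detGU, c]
        simpa using hdet.symm

end Cfsg.Agent.S0783
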