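import Cfsg.Statements.S0792
import Cfsg.Agent.Lib.Helper17Orth3

set_option autoImplicit false
open Cfsg Cfsg.Agent.Lib.Helper17Orth Cfsg.Agent.Lib.Helper17Orth2 Cfsg.Agent.Lib.Helper17Orth3

namespace Cfsg.Agent.S0792

/-- For q odd and Q with non-degenerate polar form on F^n, the determinant-one isometries form the subgroup generated by all products r_u r_v of two reflections (Q(u), Q(v) ≠ 0). -/
theorem result {F : Type*} [Field F] [Fintype F] (h2 : (2 : F) ≠ 0) {n : ℕ} (Q : QuadraticForm F (Fin n → F)) (hQ : (QuadraticMap.polarBilin Q).Nondegenerate) : Cfsg.specialIsometryGroup F ⇑Q = Subgroup.closure {g : ↥(Cfsg.isometryGroup F ⇑Q) | ∃ u v : Fin n → F, Q u ≠ 0 ∧ Q v ≠ 0 ∧ ((g : Matrix.GeneralLinearGroup (Fin n) F) : Matrix (Fin n) (Fin n) F) = Cfsg.reflectionMatrix ⇑Q u * Cfsg.reflectionMatrix ⇑Q v} := by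
  set R₂ := Subgroup.closure {g : ↥(Cfsg.isometryGroup F ⇑Q) | ∃ u v : Fin n → F, Q u ≠ 0 ∧ Q v ≠ 0 ∧
    ((g : Matrix.GeneralLinearGroup (Fin n) F) : Matrix (Fin n) (Fin n) F)
      = Cfsg.reflectionMatrix ⇑Q u * Cfsg.reflectionMatrix ⇑Q v} with hR₂
  have hmemSO : ∀ g : ↥(Cfsg.isometryGroup F ⇑Q), g ∈ Cfsg.specialIsometryGroup F ⇑Q ↔
      ((g : Matrix.GeneralLinearGroup (Fin n) F) : Matrix (Fin n) (Fin n) F).det = 1 := by
    intro g
    rw [Cfsg.specialIsometryGroup, MonoidHom.mem_ker]
    constructor
    · intro h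
      have := congrArg Units.val h
      simpa using this
    · intro h
      apply Units.ext
      simpa using h
  have hne : (1 : F) ≠ -1 := by
    intro h
    apply h2
    linear_combination h
  apply le_antisymm
  · intro g hg
    have hgR : g ∈ RR Q := by rw [cd_odd h2 hQ]; trivial
    have key : (((g : Matrix.GeneralLinearGroup (Fin n) F) : Matrix (Fin n) (Fin n) F).det = 1 →
        g ∈ R₂) ∧
        (((g : Matrix.GeneralLinearGroup (Fin n) F) : Matrix (Fin n) (Fin n) F).det = -1 →
          ∀ (v : Fin n → F) (hv : Q v ≠ 0), reflIso Q v hv * g ∈ R₂) := by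
      have hstep : ∀ x : ↥(Cfsg.isometryGroup F ⇑Q), (∃ v : Fin n → F, Q v ≠ 0 ∧
          ((x : Matrix.GeneralLinearGroup (Fin n) F) : Matrix (Fin n) (Fin n) F)
            = Cfsg.reflectionMatrix ⇑Q v) → ∀ y : ↥(Cfsg.isometryGroup F ⇑Q),
          ((((y : Matrix.GeneralLinearGroup (Fin n) F) : Matrix (Fin n) (Fin n) F).det = 1 →
            y ∈ R₂) ∧
          (((y : Matrix.GeneralLinearGroup (Fin n) F) : Matrix (Fin n) (Fin n) F).det = -1 →
            ∀ (v : Fin n → F) (hv : Q v ≠ 0), reflIso Q v hv * y ∈ R₂)) →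
          ((((x * y : ↥(Cfsg.isometryGroup F ⇑Q)) : Matrix.GeneralLinearGroup (Fin n) F) :
            Matrix (Fin n) (Fin n) F).det = 1 → x * y ∈ R₂) ∧
          ((((x * y : ↥(Cfsg.isometryGroup F ⇑Q)) : Matrix.GeneralLinearGroup (Fin n) F) :
            Matrix (Fin n) (Fin n) F).det = -1 →
            ∀ (v : Fin n → F) (hv : Q v ≠ 0), reflIso Q v hv * (x * y) ∈ R₂) := by
        rintro x ⟨u, hu, hx⟩ y ⟨hy1, hy2⟩
        have hxu : x = reflIso Q u hu := by
          apply Subtype.ext
          apply Units.ext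
          exact hx
        have hdet : (((x * y : ↥(Cfsg.isometryGroup F ⇑Q)) : Matrix.GeneralLinearGroup (Fin n) F) :
            Matrix (Fin n) (Fin n) F).det
            = - ((y : Matrix.GeneralLinearGroup (Fin n) F) : Matrix (Fin n) (Fin n) F).det := by
          simp only [Subgroup.coe_mul, Units.val_mul, Matrix.det_mul, hx,
            reflectionMatrix_det Q u hu]
          ring
        rw [hdet]
        constructor
        · intro h
          rw [hxu]
          exact hy2 (by linear_combination -h) u hu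
        · intro h v hv
          rw [← mul_assoc]
          apply R₂.mul_mem _ (hy1 (by linear_combination -h))
          apply Subgroup.subset_closure
          exact ⟨v, u, hv, hu, by rw [hxu]; rfl⟩
      clear hg
      induction hgR using Subgroup.closure_induction_left with
      | one =>
        refine ⟨fun _ => R₂.one_mem, fun h => ?_⟩
        simp at h
        exact absurd h hne
      | mul_left x hx y _ ih => exact hstep x hx y ih
      | inv_mul_cancel x hx y _ ih =>
        obtain ⟨u, hu, hxu⟩ := hx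
        have hinv : x⁻¹ = x := by
          rw [inv_eq_iff_mul_eq_one]
          apply Subtype.ext
          apply Units.ext
          simp only [Subgroup.coe_mul, Units.val_mul, hxu]
          exact reflectionMatrix_mul_self Q u hu
        rw [hinv]
        exact hstep x ⟨u, hu, hxu⟩ y ih
    exact key.1 ((hmemSO g).1 hg)
  · rw [hR₂, Subgroup.closure_le]
    rintro g ⟨u, v, hu, hv, hg⟩
    rw [SetLike.mem_coe, hmemSO, hg, Matrix.det_mul, reflectionMatrix_det Q u hu,
      reflectionMatrix_det Q v hv]
    ring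

end Cfsg.Agent.S0792
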