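import Cfsg.Statements.S0787
import Cfsg.Agent.S0786
import Cfsg.Agent.S0788
import Cfsg.Agent.S0789
import Cfsg.Agent.S0792
import Cfsg.Agent.Lib.Helper17Orth2
import Cfsg.Agent.Lib.Helper49All

set_option autoImplicit false
open Cfsg

namespace Cfsg.Agent.S0787

theorem unique_of {G : Type*} [Group G] (S : Subgroup G) (hS : commutator G ≤ S)
    (hidx : (commutator G).index = 2 * S.index) (hS0 : S.index ≠ 0)
    (hK : ∀ K : Subgroup S, K.index = 2 → commutator G ≤ K.map S.subtype) :
    ∃! H : Subgroup S, H.index = 2 := by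
  refine ⟨(commutator G).subgroupOf S, ?_, ?_⟩
  · have h1 := Subgroup.relIndex_mul_index hS
    rw [hidx] at h1
    exact Nat.eq_of_mul_eq_mul_right (Nat.pos_of_ne_zero hS0) h1
  · intro K hK2
    have h1 := hK K hK2
    have h2 := Subgroup.relIndex_mul_index h1
    rw [Subgroup.index_map_subtype, hK2, hidx] at h2
    have h3 : (commutator G).relIndex (K.map S.subtype) = 1 := by
      have h4 : 0 < 2 * S.index := by positivity
      exact Nat.eq_of_mul_eq_mul_right h4 (by rw [h2, one_mul])
    rw [Subgroup.relIndex_eq_one] at h3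
    have h5 : K.map S.subtype = commutator G := le_antisymm h3 h1
    rw [← h5]
    exact (Subgroup.comap_map_eq_self_of_injective S.subtype_injective K).symm

theorem comm_le_of_index_four {G : Type*} [Group G] (N : Subgroup G) [N.Normal]
    (h : N.index = 4) : commutator G ≤ N := by
  rw [← Subgroup.Normal.quotient_commutative_iff_commutator_le]
  have : Fact (Nat.Prime 2) := ⟨Nat.prime_two⟩
  apply IsPGroup.isMulCommutative_of_card_eq_prime_sq (p := 2)
  rw [← Subgroup.index_eq_card, h]; norm_num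

theorem comm_le_of_index_two {G : Type*} [Group G] (N : Subgroup G)
    (h : N.index = 2) : commutator G ≤ N := by
  have := Subgroup.normal_of_index_eq_two h
  rw [← Subgroup.Normal.quotient_commutative_iff_commutator_le]
  have : Fact (Nat.Prime 2) := ⟨Nat.prime_two⟩
  have : IsCyclic (G ⧸ N) := isCyclic_of_prime_card (p := 2) (by rw [← Subgroup.index_eq_card, h])
  exact ⟨⟨fun a b => IsCyclic.commGroup.mul_comm a b⟩⟩

theorem normal_of_invol {G : Type*} [Group G] (S : Subgroup G) (T : Set G)
    (hT : ∀ t ∈ T, t * t = 1) (hTtop : Subgroup.closure T = ⊤)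
    (hS : S = Subgroup.closure {g | ∃ r ∈ T, ∃ s ∈ T, g = r * s})
    (K : Subgroup S) (hK : K.index = 2) : (K.map S.subtype).Normal := by
  have hmem : ∀ a (ha : a ∈ S), a ∈ K.map S.subtype ↔ (⟨a, ha⟩ : S) ∈ K := by
    intro a ha
    constructor
    · rintro ⟨x, hx, rfl⟩
      exact hx
    · intro h
      exact ⟨⟨a, ha⟩, h, rfl⟩
  have hle : K.map S.subtype ≤ S := by
    rintro _ ⟨x, _, rfl⟩
    exact x.2
  have key : ∀ a b, a ∈ S → b ∈ S →
      (a * b ∈ K.map S.subtype ↔ (a ∈ K.map S.subtype ↔ b ∈ K.map S.subtype)) := by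
    intro a b ha hb
    rw [hmem a ha, hmem b hb, hmem _ (S.mul_mem ha hb)]
    exact Subgroup.mul_mem_iff_of_index_two hK (a := ⟨a, ha⟩) (b := ⟨b, hb⟩)
  have hTS : ∀ r ∈ T, ∀ s ∈ T, r * s ∈ S := by
    intro r hr s hs
    rw [hS]
    exact Subgroup.subset_closure ⟨r, hr, s, hs, rfl⟩
  have hinv : ∀ t ∈ T, t⁻¹ = t := fun t ht => inv_eq_of_mul_eq_one_left (hT t ht)
  have conj : ∀ t ∈ T, ∀ x ∈ S, t * x * t ∈ S ∧
      (x ∈ K.map S.subtype ↔ t * x * t ∈ K.map S.subtype) := by
    intro t ht x hx
    rw [hS] at hx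
    induction hx using Subgroup.closure_induction with
    | mem x hx =>
      obtain ⟨r, hr, s, hs, rfl⟩ := hx
      have e1 : t * (r * s) * t = (t * r) * (s * t) := by group
      have e2 : r * s = (r * t) * (t * s) := by
        rw [mul_assoc, ← mul_assoc t t s, hT t ht, one_mul]
      have e3 : r * t = (t * r)⁻¹ := by rw [mul_inv_rev, hinv t ht, hinv r hr]
      have e4 : t * s = (s * t)⁻¹ := by rw [mul_inv_rev, hinv t ht, hinv s hs]
      refine ⟨?_, ?_⟩
      · rw [e1]; exact S.mul_mem (hTS t ht r hr) (hTS s hs t ht)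
      · rw [e1, key _ _ (hTS t ht r hr) (hTS s hs t ht), e2,
          key _ _ (hTS r hr t ht) (hTS t ht s hs), e3, e4, inv_mem_iff, inv_mem_iff]
    | one =>
      rw [mul_one, hT t ht]
      exact ⟨S.one_mem, Iff.rfl⟩
    | mul x y hx hy ihx ihy =>
      have hx' : x ∈ S := by rw [hS]; exact hx
      have hy' : y ∈ S := by rw [hS]; exact hy
      have e1 : t * (x * y) * t = (t * x * t) * (t * y * t) := by
        have : t * x * t * (t * y * t) = t * x * (t * t) * y * t := by group
        rw [this, hT t ht]; group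
      refine ⟨?_, ?_⟩
      · rw [e1]; exact S.mul_mem ihx.1 ihy.1
      · rw [e1, key _ _ ihx.1 ihy.1, key _ _ hx' hy', ihx.2, ihy.2]
    | inv x hx ihx =>
      have e1 : t * x⁻¹ * t = (t * x * t)⁻¹ := by
        rw [mul_inv_rev, mul_inv_rev, hinv t ht, mul_assoc]
      rw [e1, inv_mem_iff, inv_mem_iff, inv_mem_iff]
      exact ihx
  rw [← Subgroup.normalizer_eq_top_iff, eq_top_iff, ← hTtop, Subgroup.closure_le]
  intro t ht
  rw [SetLike.mem_coe, Subgroup.mem_normalizer_iff]
  intro h
  rw [hinv t ht]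
  by_cases hh : h ∈ S
  · exact (conj t ht h hh).2
  · constructor
    · intro h1; exact absurd (hle h1) hh
    · intro h1
      exfalso
      apply hh
      have h2 := (conj t ht _ (hle h1)).1
      have e : t * (t * h * t) * t = (t * t) * h * (t * t) := by group
      rw [e, hT t ht, one_mul, mul_one] at h2
      exact h2

/-- Existence and uniqueness of Ω: if F is finite, n ≥ 2, Q is a quadratic form on F^n with non-degenerate polar form and (|F|, n) ≠ (2, 4), then the group of isometries of determinant one has a unique subgroup of index 2. -/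
theorem result {F : Type*} [Field F] [Fintype F] {n : ℕ} (hn : 2 ≤ n) (Q : QuadraticForm F (Fin n → F)) (hQ : (QuadraticMap.polarBilin Q).Nondegenerate) (h : Fintype.card F ≠ 2 ∨ n ≠ 4) : ∃! H : Subgroup ↥(Cfsg.specialIsometryGroup F ⇑Q), H.index = 2 := by
  have hmemSO : ∀ g : ↥(Cfsg.isometryGroup F ⇑Q), g ∈ Cfsg.specialIsometryGroup F ⇑Q ↔
      ((g : Matrix.GeneralLinearGroup (Fin n) F) : Matrix (Fin n) (Fin n) F).det = 1 := by
    intro g
    unfold Cfsg.specialIsometryGroup
    rw [MonoidHom.mem_ker]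
    constructor
    · intro h1
      have := congrArg Units.val h1
      simpa using this
    · intro h1
      apply Units.ext
      simpa using h1
  have hcomm : commutator ↥(Cfsg.isometryGroup F ⇑Q) ≤ Cfsg.specialIsometryGroup F ⇑Q :=
    Abelianization.commutator_subset_ker _
  have hdet : ∀ g : ↥(Cfsg.isometryGroup F ⇑Q),
      ((g : Matrix.GeneralLinearGroup (Fin n) F) : Matrix (Fin n) (Fin n) F).det = 1 ∨
      ((g : Matrix.GeneralLinearGroup (Fin n) F) : Matrix (Fin n) (Fin n) F).det = -1 := by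
    intro g
    exact Cfsg.Agent.Lib.Helper17Orth2.isometry_det Q hQ _
      ((Cfsg.Agent.Lib.Helper17Orth2.mem_isometryGroup_iff _ _).1 g.2)
  by_cases h2 : (2 : F) = 0
  · have : CharP F 2 := CharTwo.of_one_ne_zero_of_two_eq_zero one_ne_zero h2
    have htop : Cfsg.specialIsometryGroup F ⇑Q = ⊤ := by
      rw [eq_top_iff]
      intro g _
      rw [hmemSO]
      rcases hdet g with h3 | h3
      · exact h3
      · rw [h3]; linear_combination -h2
    have hi := Cfsg.Agent.S0789.result hn Q hQ h
    apply unique_of _ hcomm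
    · rw [htop, Subgroup.index_top, hi]
    · rw [htop, Subgroup.index_top]; exact one_ne_zero
    · intro K hK
      apply comm_le_of_index_two
      rw [Subgroup.index_map_subtype, hK, htop, Subgroup.index_top]
  · have hi := Cfsg.Agent.S0788.result h2 hn Q hQ
    obtain ⟨v, hv⟩ := Cfsg.Agent.Lib.Helper49All.exists_nonsingular Q hQ
      (by rw [Fintype.card_fin]; omega)
    have h11 : (1 : F) ≠ -1 := by
      intro h3
      apply h2
      linear_combination h3
    have hSO : (Cfsg.specialIsometryGroup F ⇑Q).index = 2 := by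
      rw [Subgroup.index_eq_two_iff]
      refine ⟨Cfsg.Agent.Lib.Helper49Orth.reflO Q hv, ?_⟩
      intro b
      rw [hmemSO, hmemSO]
      have e : (((b * Cfsg.Agent.Lib.Helper49Orth.reflO Q hv : ↥(Cfsg.isometryGroup F ⇑Q)) :
          Matrix.GeneralLinearGroup (Fin n) F) : Matrix (Fin n) (Fin n) F).det
          = -((b : Matrix.GeneralLinearGroup (Fin n) F) : Matrix (Fin n) (Fin n) F).det := by
        rw [Subgroup.coe_mul, Units.val_mul, Matrix.det_mul,
          Cfsg.Agent.Lib.Helper49Orth.coe_reflO, Cfsg.Agent.Lib.Helper49Orth.det_refl Q hv]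
        ring
      rw [e]
      rcases hdet b with h3 | h3
      · rw [h3]
        right
        exact ⟨rfl, fun h4 => h11 h4.symm⟩
      · rw [h3]
        left
        exact ⟨by ring, fun h4 => h11 h4.symm⟩
    apply unique_of _ hcomm
    · rw [hSO]; exact hi
    · rw [hSO]; norm_num
    · intro K hK
      have : (K.map (Cfsg.specialIsometryGroup F ⇑Q).subtype).Normal := by
        apply normal_of_invol _ {g : ↥(Cfsg.isometryGroup F ⇑Q) | ∃ v : Fin n → F, Q v ≠ 0 ∧ ((g : Matrix.GeneralLinearGroup (Fin n) F) : Matrix (Fin n) (Fin n) F) = Cfsg.reflectionMatrix ⇑Q v} _ (Cfsg.Agent.S0786.result Q hQ h) _ K hK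
        · rintro t ⟨v, hv, ht⟩
          apply Cfsg.Agent.Lib.Helper49Orth.iso_ext
          rw [Subgroup.coe_mul, Units.val_mul, ht]
          exact Cfsg.Agent.Lib.Helper49Orth.refl_mul_self Q hv
        · rw [Cfsg.Agent.S0792.result h2 Q hQ]
          congr 1
          ext g
          constructor
          · rintro ⟨u, v, hu, hv, hg⟩
            refine ⟨Cfsg.Agent.Lib.Helper49Orth.reflO Q hu, ⟨u, hu, rfl⟩,
              Cfsg.Agent.Lib.Helper49Orth.reflO Q hv, ⟨v, hv, rfl⟩, ?_⟩
            exact Cfsg.Agent.Lib.Helper49Orth.iso_ext hg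
          · rintro ⟨r, ⟨u, hu, hr⟩, s, ⟨v, hv, hs⟩, rfl⟩
            refine ⟨u, v, hu, hv, ?_⟩
            rw [Subgroup.coe_mul, Units.val_mul, hr, hs]
      apply comm_le_of_index_four
      rw [Subgroup.index_map_subtype, hK, hSO]

end Cfsg.Agent.S0787
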