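import Cfsg.Statements.S0794
import Mathlib

set_option autoImplicit false
open Cfsg

namespace Cfsg.Agent.S0794

open scoped commutatorElement Matrix

variable {F : Type*} [Field F] {n : ℕ}

theorem polarVec_dot (Q : QuadraticForm F (Fin n → F)) (u x : Fin n → F) :
    Cfsg.polarVec ⇑Q u ⬝ᵥ x = QuadraticMap.polar ⇑Q u x := by
  have h := LinearMap.pi_apply_eq_sum_univ (QuadraticMap.polarBilin Q u) x
  rw [QuadraticMap.polarBilin_apply_apply] at h
  rw [h, dotProduct]
  refine Finset.sum_congr rfl fun i _ => ?_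
  have : (fun j => if i = j then (1 : F) else 0) = Pi.single i 1 := by
    ext j; simp [Pi.single_apply, eq_comm]
  rw [this, QuadraticMap.polarBilin_apply_apply, smul_eq_mul, mul_comm]
  rfl

theorem mkIso (Q : QuadraticForm F (Fin n → F)) (f f' : (Fin n → F) →ₗ[F] (Fin n → F))
    (h1 : ∀ x, f (f' x) = x) (h2 : ∀ x, f' (f x) = x) (hQ : ∀ x, Q (f x) = Q x) :
    ∃ g : ↥(Cfsg.isometryGroup F ⇑Q), ∀ x,
      ((g : Matrix.GeneralLinearGroup (Fin n) F) : Matrix (Fin n) (Fin n) F) *ᵥ x = f x := by
  refine ⟨⟨⟨LinearMap.toMatrix' f, LinearMap.toMatrix' f', ?_, ?_⟩, ?_⟩, ?_⟩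
  · rw [← LinearMap.toMatrix'_comp, ← LinearMap.toMatrix'_id]
    congr 1
    exact LinearMap.ext fun x => by simp [h1]
  · rw [← LinearMap.toMatrix'_comp, ← LinearMap.toMatrix'_id]
    congr 1
    exact LinearMap.ext fun x => by simp [h2]
  · intro x _
    show Q (LinearMap.toMatrix' f *ᵥ x) = Q x
    rw [LinearMap.toMatrix'_mulVec, hQ]
  · intro x
    show LinearMap.toMatrix' f *ᵥ x = f x
    rw [LinearMap.toMatrix'_mulVec]

theorem ext_iso (Q : QuadraticForm F (Fin n → F)) (g g' : ↥(Cfsg.isometryGroup F ⇑Q))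
    (h : ∀ x, ((g : Matrix.GeneralLinearGroup (Fin n) F) : Matrix (Fin n) (Fin n) F) *ᵥ x =
      ((g' : Matrix.GeneralLinearGroup (Fin n) F) : Matrix (Fin n) (Fin n) F) *ᵥ x) : g = g' := by
  apply Subtype.ext
  apply Units.ext
  apply Matrix.toLin'.injective
  exact LinearMap.ext fun x => by simp only [Matrix.toLin'_apply, h]

theorem siegel_mulVec (Q : QuadraticForm F (Fin n → F)) (u v : Fin n → F) (c : F) (x : Fin n → F) :
    Cfsg.siegelMatrix ⇑Q u v c *ᵥ x =
      x + c • (QuadraticMap.polar ⇑Q u x • v - QuadraticMap.polar ⇑Q v x • u) := by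
  rw [Cfsg.siegelMatrix, Matrix.add_mulVec, Matrix.one_mulVec, Matrix.smul_mulVec,
    Matrix.sub_mulVec, Matrix.vecMulVec_mulVec, Matrix.vecMulVec_mulVec, polarVec_dot, polarVec_dot]
  simp only [op_smul_eq_smul]


theorem Q_comb (Q : QuadraticForm F (Fin n → F)) (x y z : Fin n → F) (a b : F) :
    Q (x + a • y + b • z) = Q x + a * a * Q y + b * b * Q z + a * QuadraticMap.polar ⇑Q x y
      + b * QuadraticMap.polar ⇑Q x z + a * b * QuadraticMap.polar ⇑Q y z := by
  rw [QuadraticMap.map_add (⇑Q) (x + a • y) (b • z), QuadraticMap.map_add (⇑Q) x (a • y)]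
  simp only [QuadraticMap.map_smul, QuadraticMap.polar_add_left,
    QuadraticMap.polar_smul_left, QuadraticMap.polar_smul_right, smul_eq_mul]
  ring

theorem P_comb (Q : QuadraticForm F (Fin n → F)) (w x y z : Fin n → F) (a b : F) :
    QuadraticMap.polar ⇑Q w (x + a • y + b • z) = QuadraticMap.polar ⇑Q w x
      + a * QuadraticMap.polar ⇑Q w y + b * QuadraticMap.polar ⇑Q w z := by
  simp only [QuadraticMap.polar_add_right, QuadraticMap.polar_smul_right, smul_eq_mul]

/-- the map `x ↦ x + (a * f(p,x)) y + (b * f(r,x)) z`. -/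
noncomputable def comb (Q : QuadraticForm F (Fin n → F)) (p r y z : Fin n → F) (a b : F) :
    (Fin n → F) →ₗ[F] (Fin n → F) :=
  LinearMap.id + a • (QuadraticMap.polarBilin Q p).smulRight y
    + b • (QuadraticMap.polarBilin Q r).smulRight z

theorem comb_apply (Q : QuadraticForm F (Fin n → F)) (p r y z : Fin n → F) (a b : F)
    (x : Fin n → F) : comb Q p r y z a b x =
      x + (a * QuadraticMap.polar ⇑Q p x) • y + (b * QuadraticMap.polar ⇑Q r x) • z := by
  simp [comb, smul_smul]

theorem main_case (h2 : (2 : F) ≠ 0) (Q : QuadraticForm F (Fin n → F)) (u v u' : Fin n → F)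
    (hu : Q u = 0) (hv : Q v = 0) (huv : QuadraticMap.polar ⇑Q u v = 0)
    (hu' : Q u' = 0) (huu' : QuadraticMap.polar ⇑Q u u' = 1) (hvu' : QuadraticMap.polar ⇑Q v u' = 0)
    (c : F) (g : ↥(Cfsg.isometryGroup F ⇑Q))
    (hg : ((g : Matrix.GeneralLinearGroup (Fin n) F) : Matrix (Fin n) (Fin n) F)
      = Cfsg.siegelMatrix ⇑Q u v c) : g ∈ commutatorSet ↥(Cfsg.isometryGroup F ⇑Q) := by
  have hvu : QuadraticMap.polar ⇑Q v u = 0 := by rw [QuadraticMap.polar_comm, huv]
  have hu'u : QuadraticMap.polar ⇑Q u' u = 1 := by rw [QuadraticMap.polar_comm, huu']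
  have hu'v : QuadraticMap.polar ⇑Q u' v = 0 := by rw [QuadraticMap.polar_comm, hvu']
  have huu : QuadraticMap.polar ⇑Q u u = 0 := by rw [QuadraticMap.polar_self, hu, smul_zero]
  have hvv : QuadraticMap.polar ⇑Q v v = 0 := by rw [QuadraticMap.polar_self, hv, smul_zero]
  have hu'u' : QuadraticMap.polar ⇑Q u' u' = 0 := by rw [QuadraticMap.polar_self, hu', smul_zero]
  have hsieg : ∀ d : F, ∃ t : ↥(Cfsg.isometryGroup F ⇑Q), ∀ x,
      ((t : Matrix.GeneralLinearGroup (Fin n) F) : Matrix (Fin n) (Fin n) F) *ᵥ x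
        = comb Q u v v u d (-d) x := by
    intro d
    apply mkIso Q (comb Q u v v u d (-d)) (comb Q u v v u (-d) d)
    · intro x
      simp only [comb_apply, P_comb, huu, hvv, huv, hvu]
      module
    · intro x
      simp only [comb_apply, P_comb, huu, hvv, huv, hvu]
      module
    · intro x
      simp only [comb_apply, Q_comb, hu, hv, hvu, QuadraticMap.polar_comm (⇑Q) x]
      ring
  obtain ⟨h, hh⟩ : ∃ t : ↥(Cfsg.isometryGroup F ⇑Q), ∀ x,
      ((t : Matrix.GeneralLinearGroup (Fin n) F) : Matrix (Fin n) (Fin n) F) *ᵥ x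
        = comb Q u' u u u' (-2) (-2) x := by
    apply mkIso Q (comb Q u' u u u' (-2) (-2)) (comb Q u' u u u' (-2) (-2))
    · intro x
      simp only [comb_apply, P_comb, huu, hu'u', huu', hu'u]
      module
    · intro x
      simp only [comb_apply, P_comb, huu, hu'u', huu', hu'u]
      module
    · intro x
      simp only [comb_apply, Q_comb, hu, hu', huu', QuadraticMap.polar_comm (⇑Q) x]
      ring
  obtain ⟨t, ht⟩ := hsieg (-c / 2)
  have key : g * t * h = h * t := by
    apply ext_iso
    intro x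
    simp only [Subgroup.coe_mul, Units.val_mul, ← Matrix.mulVec_mulVec, hh, ht, hg, siegel_mulVec]
    simp only [comb_apply, P_comb, huu, hvv, huv, hvu, huu', hu'u, hvu', hu'v]
    have : c = 2 * (c / 2) := by field_simp
    set e := c / 2
    rw [this, neg_div, mul_div_cancel_left₀ _ h2]
    module
  refine ⟨h, t, ?_⟩
  rw [commutatorElement_def, ← key]
  group

/-- For q odd, n ≥ 5 and Q with non-degenerate polar form: an isometry whose matrix is a Siegel transformation T_(u,v)(c) (u, v singular and orthogonal) is a commutator in the isometry group, so lies in Ω. -/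
theorem result {F : Type*} [Field F] [Fintype F] (h2 : (2 : F) ≠ 0) {n : ℕ} (hn : 5 ≤ n) (Q : QuadraticForm F (Fin n → F)) (hQ : (QuadraticMap.polarBilin Q).Nondegenerate) (u v : Fin n → F) (hu : Q u = 0) (hv : Q v = 0) (huv : QuadraticMap.polar ⇑Q u v = 0) (c : F) (g : ↥(Cfsg.isometryGroup F ⇑Q)) (hg : ((g : Matrix.GeneralLinearGroup (Fin n) F) : Matrix (Fin n) (Fin n) F) = Cfsg.siegelMatrix ⇑Q u v c) : g ∈ commutatorSet ↥(Cfsg.isometryGroup F ⇑Q) ∧ g ∈ Cfsg.Omega F ⇑Q := by
  have hmem : g ∈ commutatorSet ↥(Cfsg.isometryGroup F ⇑Q) := by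
    by_cases hex : ∃ w, QuadraticMap.polar ⇑Q v w = 0 ∧ QuadraticMap.polar ⇑Q u w ≠ 0
    · obtain ⟨w0, hw0v, hw0u⟩ := hex
      set w := (QuadraticMap.polar ⇑Q u w0)⁻¹ • w0 with hw
      have hwu : QuadraticMap.polar ⇑Q u w = 1 := by
        rw [hw, QuadraticMap.polar_smul_right, smul_eq_mul, inv_mul_cancel₀ hw0u]
      have hwv : QuadraticMap.polar ⇑Q v w = 0 := by
        rw [hw, QuadraticMap.polar_smul_right, hw0v, smul_zero]
      have huu : QuadraticMap.polar ⇑Q u u = 0 := by rw [QuadraticMap.polar_self, hu, smul_zero]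
      have hvu : QuadraticMap.polar ⇑Q v u = 0 := by rw [QuadraticMap.polar_comm, huv]
      refine main_case h2 Q u v (w + (-(Q w)) • u + (0 : F) • u) hu hv huv ?_ ?_ ?_ c g hg
      · rw [Q_comb, hu, QuadraticMap.polar_comm (⇑Q) w u, hwu]
        ring
      · rw [P_comb, huu, hwu]
        ring
      · rw [P_comb, hvu, hwv]
        ring
    · push Not at hex
      have hone : g = 1 := by
        apply ext_iso
        intro x
        rw [hg, siegel_mulVec]
        simp only [OneMemClass.coe_one, Units.val_one, Matrix.one_mulVec]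
        by_cases hv0 : ∀ y, QuadraticMap.polar ⇑Q v y = 0
        · have hv00 : v = 0 := hQ.1 v hv0
          have hu00 : u = 0 := hQ.1 u fun y => hex y (hv0 y)
          simp [hv00, hu00]
        · push Not at hv0
          obtain ⟨w0, hw0⟩ := hv0
          set a := QuadraticMap.polar ⇑Q u w0 / QuadraticMap.polar ⇑Q v w0 with ha
          have h1 : ∀ y, QuadraticMap.polar ⇑Q u y = a * QuadraticMap.polar ⇑Q v y := by
            intro y
            have h3 := hex (y + (-(QuadraticMap.polar ⇑Q v y / QuadraticMap.polar ⇑Q v w0)) • w0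
              + (0 : F) • w0) (by rw [P_comb]; field_simp; ring)
            rw [P_comb] at h3
            rw [ha]
            field_simp
            field_simp at h3
            linear_combination h3
          have h4 : u + (-a) • v = 0 := by
            apply hQ.1
            intro y
            rw [QuadraticMap.polarBilin_apply_apply, QuadraticMap.polar_add_left,
              QuadraticMap.polar_smul_left, h1 y, smul_eq_mul]
            ring
          have h5 : u = a • v := by
            have : u = (u + (-a) • v) + a • v := by module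
            rw [this, h4, zero_add]
          rw [h1 x, h5]
          module
      rw [hone]
      exact one_mem_commutatorSet _
  refine ⟨hmem, ?_⟩
  rw [Cfsg.Omega, commutator_eq_closure]
  exact Subgroup.subset_closure hmem

end Cfsg.Agent.S0794
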