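import Cfsg.Statements.S0797
import Cfsg.Agent.Lib.Helper49Idx

set_option autoImplicit false
open Cfsg

namespace Cfsg.Agent.S0797

theorem commutator_le_of_index_two {G : Type*} [Group G] (H : Subgroup G) (h : H.index = 2) :
    commutator G ≤ H := by
  rw [commutator_def, Subgroup.commutator_le]
  intro a _ b _
  rw [commutatorElement_def]
  simp only [Subgroup.mul_mem_iff_of_index_two h, inv_mem_iff]
  tauto

/-- Subgroups of index two correspond along a surjection whose kernel is the commutator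
subgroup. -/
noncomputable def idxEquiv {G A : Type*} [Group G] [Group A] (φ : G →* A)
    (hφ : Function.Surjective φ) (hker : φ.ker = commutator G) :
    {H : Subgroup G // H.index = 2} ≃ {K : Subgroup A // K.index = 2} where
  toFun H := ⟨H.1.map φ, by
    have h1 : (H.1.map φ).comap φ = H.1 :=
      Subgroup.comap_map_eq_self (hker ▸ commutator_le_of_index_two H.1 H.2)
    rw [← Subgroup.index_comap_of_surjective _ hφ, h1]
    exact H.2⟩
  invFun K := ⟨K.1.comap φ, by
    rw [Subgroup.index_comap_of_surjective _ hφ]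
    exact K.2⟩
  left_inv H := Subtype.ext
    (Subgroup.comap_map_eq_self (hker ▸ commutator_le_of_index_two H.1 H.2))
  right_inv K := Subtype.ext (Subgroup.map_comap_eq_self_of_surjective hφ K.1)

theorem card_A : Nat.card (ℤˣ × ℤˣ) = 4 := by
  rw [Nat.card_eq_fintype_card]; rfl

theorem orderOf_A (a : ℤˣ × ℤˣ) (ha : a ≠ 1) : orderOf a = 2 := by
  apply orderOf_eq_prime _ ha
  revert a
  decide

theorem index_zpowers (a : ℤˣ × ℤˣ) (ha : a ≠ 1) : (Subgroup.zpowers a).index = 2 := by
  have h1 := (Subgroup.zpowers a).card_mul_index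
  rw [Nat.card_zpowers, orderOf_A a ha, card_A] at h1
  omega

theorem mem_zpowers_A (a b : ℤˣ × ℤˣ) (hb : b ∈ Subgroup.zpowers a) : b = 1 ∨ b = a := by
  have h2 : a ^ 2 = 1 := by
    clear hb
    revert a
    decide
  obtain ⟨k, rfl⟩ := Subgroup.mem_zpowers_iff.1 hb
  rcases Int.even_or_odd' k with ⟨j, rfl | rfl⟩
  · left
    rw [zpow_mul, zpow_ofNat, h2, one_zpow]
  · right
    rw [zpow_add, zpow_mul, zpow_ofNat, h2, one_zpow, one_mul, zpow_one]

theorem card_idx_A : Nat.card {K : Subgroup (ℤˣ × ℤˣ) // K.index = 2} = 3 := by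
  have e : {a : ℤˣ × ℤˣ // a ≠ 1} ≃ {K : Subgroup (ℤˣ × ℤˣ) // K.index = 2} := by
    refine Equiv.ofBijective (fun a => ⟨Subgroup.zpowers a.1, index_zpowers a.1 a.2⟩) ⟨?_, ?_⟩
    · rintro ⟨a, ha⟩ ⟨b, hb⟩ h
      have h1 : Subgroup.zpowers a = Subgroup.zpowers b := congrArg Subtype.val h
      have h2 : a ∈ Subgroup.zpowers b := h1 ▸ Subgroup.mem_zpowers a
      rcases mem_zpowers_A b a h2 with h3 | h3
      · exact absurd h3 ha
      · exact Subtype.ext h3
    · rintro ⟨K, hK⟩
      have h1 := K.card_mul_index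
      rw [hK, card_A] at h1
      have h2 : Nat.card K = 2 := by omega
      have h3 : K ≠ ⊥ := by
        intro h
        rw [h, Subgroup.card_bot] at h2
        omega
      obtain ⟨⟨a, haK⟩, ha⟩ := (Subgroup.ne_bot_iff_exists_ne_one).1 h3
      have ha1 : a ≠ 1 := fun h => ha (Subtype.ext h)
      refine ⟨⟨a, ha1⟩, Subtype.ext ?_⟩
      change Subgroup.zpowers a = K
      have hle : Subgroup.zpowers a ≤ K := (Subgroup.zpowers_le).2 haK
      apply Subgroup.eq_of_le_of_card_ge hle
      rw [h2, Nat.card_zpowers, orderOf_A a ha1]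
  rw [← Nat.card_congr e, Nat.card_eq_fintype_card]
  rfl

/-- O = Ω.2² has three subgroups of index 2: if F is finite of odd characteristic, n ≥ 2 is even and Q is a quadratic form on F^n with non-degenerate polar form, then the isometry group of Q has exactly three subgroups of index 2. -/
theorem result {F : Type*} [Field F] [Fintype F] (h2 : (2 : F) ≠ 0) {n : ℕ} (hn : 2 ≤ n) (heven : Even n) (Q : QuadraticForm F (Fin n → F)) (hQ : (QuadraticMap.polarBilin Q).Nondegenerate) : Nat.card {H : Subgroup ↥(Cfsg.isometryGroup F ⇑Q) // H.index = 2} = 3 := by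
  obtain ⟨c, hc⟩ := FiniteField.exists_nonsquare (Cfsg.Agent.Lib.Helper49Idx.ringChar_ne_two h2)
  rw [Nat.card_congr (idxEquiv (Cfsg.Agent.Lib.Helper49Idx.Phi Q c)
    (Cfsg.Agent.Lib.Helper49Idx.Phi_surjective Q h2 hQ (by rw [Fintype.card_fin]; exact hn) hc)
    (Cfsg.Agent.Lib.Helper49Idx.ker_Phi Q h2 hQ hc))]
  exact card_idx_A

end Cfsg.Agent.S0797
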