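import Cfsg.Statements.S0798
import Cfsg.Agent.Lib.Helper49Idx

set_option autoImplicit false
open Cfsg

namespace Cfsg.Agent.S0798

open scoped Matrix
open Cfsg.Agent.Lib.Helper49Orth Cfsg.Agent.Lib.Helper49Gram Cfsg.Agent.Lib.Helper49CD
  Cfsg.Agent.Lib.Helper49Idx

variable {F : Type*} [Field F]
variable {ι : Type} [Fintype ι] [DecidableEq ι] (Q : QuadraticForm F (ι → F))

local notation "B" => QuadraticMap.polar (Q : (ι → F) → F)

theorem Q_comb (u w : ι → F) (x y : F) :
    Q (x • u + y • w) = x ^ 2 * Q u + y ^ 2 * Q w + x * y * B u w := by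
  rw [Q_add, QuadraticMap.map_smul, QuadraticMap.map_smul, QuadraticMap.polar_smul_left,
    QuadraticMap.polar_smul_right]
  simp only [smul_eq_mul]
  ring

theorem plane_identity {u w : ι → F} {k : F} (hk : k ≠ 0) (hu : Q u = k) (hw : Q w = k)
    (x y : F) (hN : Q (x • u + y • w) ≠ 0) :
    Q ((-y) • u + (x + y * B u w / k) • w) = Q (x • u + y • w) ∧
    Cfsg.reflectionMatrix ⇑Q u * Cfsg.reflectionMatrix ⇑Q w
      = Cfsg.reflectionMatrix ⇑Q (x • u + y • w)
        * Cfsg.reflectionMatrix ⇑Q ((-y) • u + (x + y * B u w / k) • w) := by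
  have hQb : Q ((-y) • u + (x + y * B u w / k) • w) = Q (x • u + y • w) := by
    rw [Q_comb, Q_comb, hu, hw]
    field_simp
    ring
  refine ⟨hQb, ?_⟩
  apply Matrix.mulVec_injective
  funext z
  rw [← Matrix.mulVec_mulVec, ← Matrix.mulVec_mulVec]
  simp only [refl_mulVec, hQb]
  rw [Q_comb, hu, hw] at hN ⊢
  simp only [QuadraticMap.polar_add_left, QuadraticMap.polar_smul_left,
    QuadraticMap.polar_sub_right, QuadraticMap.polar_add_right, QuadraticMap.polar_smul_right,
    QuadraticMap.polar_self, hu, hw, QuadraticMap.polar_comm ⇑Q w u, smul_eq_mul]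
  generalize B u w = β at *
  generalize B u z = s at *
  generalize B w z = t at *
  obtain ⟨N, hNdef⟩ : ∃ N, N = x ^ 2 * k + y ^ 2 * k + x * y * β := ⟨_, rfl⟩
  rw [← hNdef] at hN ⊢
  funext i
  simp only [Pi.sub_apply, Pi.smul_apply, Pi.add_apply, smul_eq_mul, nsmul_eq_mul]
  field_simp
  rw [hNdef]
  ring

theorem exists_pair_ne (hQ : (QuadraticMap.polarBilin Q).Nondegenerate) {e : ι → F} (he : e ≠ 0) :
    ∃ x, B e x ≠ 0 := by
  by_contra h
  push Not at h
  exact he (hQ.1 e (fun y => by rw [QuadraticMap.polarBilin_apply_apply]; exact h y))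

theorem exists_hyp (h2 : (2 : F) ≠ 0) (hQ : (QuadraticMap.polarBilin Q).Nondegenerate)
    {u e : ι → F} {k : F} (hk : k ≠ 0) (hu : Q u = k) (he : e ≠ 0) (hQe : Q e = 0)
    (hue : B u e = 0) : ∃ f, Q f = 0 ∧ B u f = 0 ∧ B e f = 1 := by
  obtain ⟨f0, hf0⟩ := exists_pair_ne Q hQ he
  have heu : B e u = 0 := by rw [QuadraticMap.polar_comm]; exact hue
  have hee : B e e = 0 := by rw [QuadraticMap.polar_self, hQe]; simp
  obtain ⟨f1, h1, h1'⟩ : ∃ f1, B e f1 ≠ 0 ∧ B u f1 = 0 := by
    refine ⟨f0 - (B u f0 / (2 * k)) • u, ?_, ?_⟩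
    · rw [QuadraticMap.polar_sub_right, QuadraticMap.polar_smul_right, heu]
      simpa using hf0
    · rw [QuadraticMap.polar_sub_right, QuadraticMap.polar_smul_right, QuadraticMap.polar_self, hu]
      simp only [smul_eq_mul, nsmul_eq_mul]
      field_simp
      ring
  obtain ⟨f2, h3, h3', h3''⟩ : ∃ f2, B e f2 ≠ 0 ∧ B u f2 = 0 ∧ Q f2 = 0 := by
    refine ⟨f1 - (Q f1 / B e f1) • e, ?_, ?_, ?_⟩
    · rw [QuadraticMap.polar_sub_right, QuadraticMap.polar_smul_right, hee]
      simpa using h1
    · rw [QuadraticMap.polar_sub_right, QuadraticMap.polar_smul_right, hue, h1']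
      simp
    · rw [Q_sub, QuadraticMap.map_smul, hQe, QuadraticMap.polar_smul_right,
        QuadraticMap.polar_comm ⇑Q f1 e]
      simp only [smul_eq_mul]
      field_simp
      ring
  refine ⟨(B e f2)⁻¹ • f2, ?_, ?_, ?_⟩
  · rw [QuadraticMap.map_smul, h3'']; simp
  · rw [QuadraticMap.polar_smul_right, h3']; simp
  · rw [QuadraticMap.polar_smul_right]
    simp only [smul_eq_mul]
    field_simp

theorem exists_aniso (hQ : (QuadraticMap.polarBilin Q).Nondegenerate) {j : ℕ}
    (s : Fin j → ι → F) (hj : j < Fintype.card ι) (π : (ι → F) → (ι → F))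
    (hπ1 : ∀ x i, B (s i) (π x) = 0)
    (hπ2 : ∀ m, (∀ i, B (s i) m = 0) → ∀ x, B m (π x) = B m x) :
    ∃ m, (∀ i, B (s i) m = 0) ∧ Q m ≠ 0 := by
  let T : (ι → F) →ₗ[F] (Fin j → F) := LinearMap.pi (fun i => QuadraticMap.polarBilin Q (s i))
  have hker : LinearMap.ker T ≠ ⊥ := by
    apply LinearMap.ker_ne_bot_of_finrank_lt
    rw [Module.finrank_fintype_fun_eq_card, Module.finrank_fintype_fun_eq_card, Fintype.card_fin]
    exact hj
  obtain ⟨m0, hm0, hm0'⟩ := Submodule.exists_mem_ne_zero_of_ne_bot hker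
  have hm0s : ∀ i, B (s i) m0 = 0 := by
    intro i
    have := congrFun (LinearMap.mem_ker.1 hm0) i
    simpa [T] using this
  obtain ⟨x, hx⟩ := exists_pair_ne Q hQ hm0'
  by_cases h1 : Q m0 = 0
  · by_cases h3 : Q (π x) = 0
    · refine ⟨m0 + π x, fun i => ?_, ?_⟩
      · rw [QuadraticMap.polar_add_right, hm0s i, hπ1 x i, add_zero]
      · rw [Q_add, h1, h3, hπ2 m0 hm0s x]
        simpa using hx
    · exact ⟨π x, fun i => hπ1 x i, h3⟩
  · exact ⟨m0, hm0s, h1⟩

theorem three_le_card (h2 : (2 : F) ≠ 0) {u e f : ι → F} {k : F} (hk : k ≠ 0) (hu : Q u = k)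
    (hQe : Q e = 0) (hQf : Q f = 0) (hue : B u e = 0) (huf : B u f = 0) (hef : B e f = 1) :
    3 ≤ Fintype.card ι := by
  by_contra hlt
  push Not at hlt
  let T : (Fin 3 → F) →ₗ[F] (ι → F) := Fintype.linearCombination F ![u, e, f]
  have hker : LinearMap.ker T ≠ ⊥ := by
    apply LinearMap.ker_ne_bot_of_finrank_lt
    rw [Module.finrank_fintype_fun_eq_card, Module.finrank_fintype_fun_eq_card, Fintype.card_fin]
    exact hlt
  obtain ⟨a, ha, ha'⟩ := Submodule.exists_mem_ne_zero_of_ne_bot hker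
  have h0 : a 0 • u + a 1 • e + a 2 • f = 0 := by
    have := LinearMap.mem_ker.1 ha
    simpa [T, Fintype.linearCombination_apply, Fin.sum_univ_three] using this
  have hee : B e e = 0 := by rw [QuadraticMap.polar_self, hQe]; simp
  have hff : B f f = 0 := by rw [QuadraticMap.polar_self, hQf]; simp
  have heu : B e u = 0 := by rw [QuadraticMap.polar_comm]; exact hue
  have hfu : B f u = 0 := by rw [QuadraticMap.polar_comm]; exact huf
  have hfe : B f e = 1 := by rw [QuadraticMap.polar_comm]; exact hef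
  have e0 : a 0 = 0 := by
    have := congrArg (fun v => B u v) h0
    simp only [QuadraticMap.polar_add_right, QuadraticMap.polar_smul_right, hue, huf,
      QuadraticMap.polar_self, hu, QuadraticMap.polar_zero_right, smul_eq_mul, nsmul_eq_mul] at this
    have h3 : a 0 * (2 * k) = 0 := by simpa using this
    rcases mul_eq_zero.1 h3 with h | h
    · exact h
    · exact absurd h (mul_ne_zero h2 hk)
  have e1 : a 1 = 0 := by
    have := congrArg (fun v => B f v) h0
    simp only [QuadraticMap.polar_add_right, QuadraticMap.polar_smul_right, hfu, hfe, hff,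
      QuadraticMap.polar_zero_right, smul_eq_mul] at this
    simpa using this
  have e2 : a 2 = 0 := by
    have := congrArg (fun v => B e v) h0
    simp only [QuadraticMap.polar_add_right, QuadraticMap.polar_smul_right, heu, hef, hee,
      QuadraticMap.polar_zero_right, smul_eq_mul] at this
    simpa using this
  apply ha'
  funext i
  fin_cases i
  · exact e0
  · exact e1
  · exact e2

/-- the generating set -/
def gens (c : F) : Set ↥(Cfsg.isometryGroup F ⇑Q) :=
  {g | ∃ (v : ι → F) (t : F), t ≠ 0 ∧ Q v = c * t ^ 2 ∧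
    ((g : Matrix.GeneralLinearGroup ι F) : Matrix ι ι F) = Cfsg.reflectionMatrix ⇑Q v}

theorem refl_mem {c : F} {v : ι → F} (hv : Q v ≠ 0) {t : F} (ht : t ≠ 0) (h : Q v = c * t ^ 2) :
    reflO Q hv ∈ Subgroup.closure (gens Q c) :=
  Subgroup.subset_closure ⟨v, t, ht, h, rfl⟩

section Fin

variable [Fintype F]

theorem exists_binary (h2 : (2 : F) ≠ 0) {k β : F} (hk : k ≠ 0) (hβ : β ^ 2 ≠ 4 * k ^ 2) (c : F) :
    ∃ x y : F, x ^ 2 * k + y ^ 2 * k + x * y * β = c := by
  have h4 : (4 : F) ≠ 0 := by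
    have : (4 : F) = 2 * 2 := by norm_num
    rw [this]; exact mul_ne_zero h2 h2
  have hδ : (4 * k ^ 2 - β ^ 2) / (4 * k) ≠ 0 := by
    apply div_ne_zero
    · intro h
      apply hβ
      linear_combination -h
    · exact mul_ne_zero h4 hk
  have hf : (Polynomial.C k * Polynomial.X ^ 2).degree = 2 :=
    Polynomial.degree_C_mul_X_pow 2 hk
  have hg : (Polynomial.C ((4 * k ^ 2 - β ^ 2) / (4 * k)) * Polynomial.X ^ 2
      - Polynomial.C c).degree = 2 := by
    rw [Polynomial.degree_sub_eq_left_of_degree_lt]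
    · exact Polynomial.degree_C_mul_X_pow 2 hδ
    · rw [Polynomial.degree_C_mul_X_pow 2 hδ]
      exact lt_of_le_of_lt Polynomial.degree_C_le (by norm_num)
  obtain ⟨s, t, hst⟩ := FiniteField.exists_root_sum_quadratic hf hg
    (FiniteField.odd_card_of_char_ne_two (ringChar_ne_two h2))
  simp only [Polynomial.eval_mul, Polynomial.eval_C, Polynomial.eval_pow, Polynomial.eval_X,
    Polynomial.eval_sub] at hst
  refine ⟨s - β * t / (2 * k), t, ?_⟩
  have h3 : k * s ^ 2 + (4 * k ^ 2 - β ^ 2) / (4 * k) * t ^ 2 = c := by linear_combination hst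
  rw [← h3]
  field_simp
  ring

theorem mem_of_nondeg (h2 : (2 : F) ≠ 0) {c : F} (hc : c ≠ 0) {u w : ι → F} {k : F} (hk : k ≠ 0)
    (hu : Q u = k) (hw : Q w = k) (hβ : (B u w) ^ 2 ≠ 4 * k ^ 2)
    (hu' : Q u ≠ 0) (hw' : Q w ≠ 0) :
    reflO Q hu' * reflO Q hw' ∈ Subgroup.closure (gens Q c) := by
  obtain ⟨x, y, hxy⟩ := exists_binary h2 hk hβ c
  have hQa : Q (x • u + y • w) = c := by
    rw [Q_comb, hu, hw]; exact hxy
  have hN : Q (x • u + y • w) ≠ 0 := by rw [hQa]; exact hc
  obtain ⟨hQb, hmul⟩ := plane_identity Q hk hu hw x y hN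
  have hN' : Q ((-y) • u + (x + y * B u w / k) • w) ≠ 0 := by rw [hQb]; exact hN
  have : reflO Q hu' * reflO Q hw' = reflO Q hN * reflO Q hN' := by
    apply iso_ext
    simp only [Subgroup.coe_mul, Units.val_mul, coe_reflO]
    exact hmul
  rw [this]
  exact Subgroup.mul_mem _ (refl_mem Q hN one_ne_zero (by rw [hQa]; ring))
    (refl_mem Q hN' one_ne_zero (by rw [hQb, hQa]; ring))

theorem exists_mid_three (h2 : (2 : F) ≠ 0) (hQ : (QuadraticMap.polarBilin Q).Nondegenerate)
    (hq : Fintype.card F = 3) (h5 : 5 ≤ Fintype.card ι)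
    {u e f : ι → F} {k : F} (hk : k ≠ 0) (hu : Q u = k)
    (hQe : Q e = 0) (hQf : Q f = 0) (hue : B u e = 0) (huf : B u f = 0) (hef : B e f = 1) :
    ∃ z, Q z = k ∧ B u z = 0 ∧ B e z = 0 := by
  have h30 : (3 : F) = 0 := by
    have := Nat.cast_card_eq_zero F
    rw [hq] at this
    exact_mod_cast this
  have hpm : ∀ a : F, a ≠ 0 → a = k ∨ a = -k := by
    intro a ha
    have h1 := FiniteField.pow_card_sub_one_eq_one (a / k) (div_ne_zero ha hk)
    rw [hq] at h1
    have h3 : (a - k) * (a + k) = 0 := by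
      have h4 : (a / k) ^ 2 = 1 := h1
      field_simp at h4
      linear_combination h4
    rcases mul_eq_zero.1 h3 with h | h
    · left; linear_combination h
    · right; linear_combination h
  have hee : B e e = 0 := by rw [QuadraticMap.polar_self, hQe]; simp
  have hff : B f f = 0 := by rw [QuadraticMap.polar_self, hQf]; simp
  have heu : B e u = 0 := by rw [QuadraticMap.polar_comm]; exact hue
  have hfu : B f u = 0 := by rw [QuadraticMap.polar_comm]; exact huf
  have hfe : B f e = 1 := by rw [QuadraticMap.polar_comm]; exact hef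
  have huu : B u u = 2 * k := by rw [QuadraticMap.polar_self, hu]; simp
  let π : (ι → F) → (ι → F) := fun x => x - (B u x / (2 * k)) • u - (B f x) • e - (B e x) • f
  have hπu : ∀ x, B u (π x) = 0 := by
    intro x
    simp only [π, QuadraticMap.polar_sub_right, QuadraticMap.polar_smul_right, huu, hue, huf,
      smul_eq_mul]
    field_simp
    ring
  have hπe : ∀ x, B e (π x) = 0 := by
    intro x
    simp only [π, QuadraticMap.polar_sub_right, QuadraticMap.polar_smul_right, heu, hee, hef,
      smul_eq_mul]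
    ring
  have hπf : ∀ x, B f (π x) = 0 := by
    intro x
    simp only [π, QuadraticMap.polar_sub_right, QuadraticMap.polar_smul_right, hfu, hfe, hff,
      smul_eq_mul]
    ring
  have hπm : ∀ m, B u m = 0 → B e m = 0 → B f m = 0 → ∀ x, B m (π x) = B m x := by
    intro m h1 h3 h4 x
    simp only [π, QuadraticMap.polar_sub_right, QuadraticMap.polar_smul_right,
      QuadraticMap.polar_comm ⇑Q m u, QuadraticMap.polar_comm ⇑Q m e,
      QuadraticMap.polar_comm ⇑Q m f, h1, h3, h4, smul_eq_mul]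
    ring
  obtain ⟨m1, hm1, hQm1⟩ := exists_aniso Q hQ ![u, e, f] (by omega) π
    (by
      intro x i
      fin_cases i
      · exact hπu x
      · exact hπe x
      · exact hπf x)
    (by
      intro m hm x
      exact hπm m (hm 0) (hm 1) (hm 2) x)
  have hm1u : B u m1 = 0 := hm1 0
  have hm1e : B e m1 = 0 := hm1 1
  have hm1f : B f m1 = 0 := hm1 2
  rcases hpm _ hQm1 with h | hneg1
  · exact ⟨m1, h, hm1u, hm1e⟩
  have hmm : B m1 m1 = 2 * Q m1 := by rw [QuadraticMap.polar_self]; simp
  let π' : (ι → F) → (ι → F) := fun x => π x - (B m1 (π x) / (2 * Q m1)) • m1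
  obtain ⟨m2, hm2, hQm2⟩ := exists_aniso Q hQ ![u, e, f, m1] (by omega) π'
    (by
      intro x i
      fin_cases i
      · show B u (π' x) = 0
        simp only [π', QuadraticMap.polar_sub_right, QuadraticMap.polar_smul_right, hπu, hm1u]
        simp
      · show B e (π' x) = 0
        simp only [π', QuadraticMap.polar_sub_right, QuadraticMap.polar_smul_right, hπe, hm1e]
        simp
      · show B f (π' x) = 0
        simp only [π', QuadraticMap.polar_sub_right, QuadraticMap.polar_smul_right, hπf, hm1f]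
        simp
      · show B m1 (π' x) = 0
        simp only [π', QuadraticMap.polar_sub_right, QuadraticMap.polar_smul_right, hmm,
          smul_eq_mul]
        field_simp
        ring)
    (by
      intro m hm x
      have h1 : B u m = 0 := hm 0
      have h3 : B e m = 0 := hm 1
      have h4 : B f m = 0 := hm 2
      have h5 : B m1 m = 0 := hm 3
      simp only [π', QuadraticMap.polar_sub_right, QuadraticMap.polar_smul_right,
        QuadraticMap.polar_comm ⇑Q m m1, h5, hπm m h1 h3 h4 x]
      simp)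
  have hm2u : B u m2 = 0 := hm2 0
  have hm2e : B e m2 = 0 := hm2 1
  have hm2m : B m1 m2 = 0 := hm2 3
  rcases hpm _ hQm2 with h | hneg2
  · exact ⟨m2, h, hm2u, hm2e⟩
  refine ⟨m1 + m2, ?_, ?_, ?_⟩
  · rw [Q_add, hneg1, hneg2, hm2m]
    linear_combination (-k) * h30
  · rw [QuadraticMap.polar_add_right, hm1u, hm2u, add_zero]
  · rw [QuadraticMap.polar_add_right, hm1e, hm2e, add_zero]

theorem exists_mid (h2 : (2 : F) ≠ 0) (hQ : (QuadraticMap.polarBilin Q).Nondegenerate)
    (hex : ¬ (Fintype.card ι = 4 ∧ Fintype.card F = 3)) (heven : Even (Fintype.card ι))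
    {u e : ι → F} {k : F} (hk : k ≠ 0) (hu : Q u = k) (he : e ≠ 0) (hQe : Q e = 0)
    (hue : B u e = 0) :
    ∃ z, Q z = k ∧ B u z = 0 ∧ (B e z) ^ 2 ≠ 4 * k ^ 2 := by
  have h4 : (4 : F) ≠ 0 := by
    have : (4 : F) = 2 * 2 := by norm_num
    rw [this]; exact mul_ne_zero h2 h2
  obtain ⟨f, hQf, huf, hef⟩ := exists_hyp Q h2 hQ hk hu he hQe hue
  by_cases hq : Fintype.card F = 3
  · have h3 := three_le_card Q h2 hk hu hQe hQf hue huf hef
    have h5 : 5 ≤ Fintype.card ι := by
      obtain ⟨r, hr⟩ := heven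
      have : Fintype.card ι ≠ 4 := fun h => hex ⟨h, hq⟩
      omega
    obtain ⟨z, hz1, hz2, hz3⟩ := exists_mid_three Q h2 hQ hq h5 hk hu hQe hQf hue huf hef
    refine ⟨z, hz1, hz2, ?_⟩
    rw [hz3]
    intro h
    have : (4 : F) * k ^ 2 ≠ 0 := mul_ne_zero h4 (pow_ne_zero 2 hk)
    apply this
    rw [← h]; ring
  · have hodd := FiniteField.odd_card_of_char_ne_two (ringChar_ne_two h2)
    have h1 : 1 < Fintype.card F := Fintype.one_lt_card
    have hgt : 3 < Fintype.card F := by omega
    classical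
    obtain ⟨γ, -, hγ⟩ : ∃ γ ∈ (Finset.univ : Finset F), γ ∉ ({0, 2 * k, -(2 * k)} : Finset F) := by
      apply Finset.exists_mem_notMem_of_card_lt_card
      refine lt_of_le_of_lt Finset.card_le_three ?_
      rw [Finset.card_univ]; exact hgt
    simp only [Finset.mem_insert, Finset.mem_singleton, not_or] at hγ
    obtain ⟨hγ0, hγ1, hγ2⟩ := hγ
    have hee : B e e = 0 := by rw [QuadraticMap.polar_self, hQe]; simp
    refine ⟨(k / γ) • e + γ • f, ?_, ?_, ?_⟩
    · rw [Q_comb, hQe, hQf, hef]
      field_simp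
      ring
    · rw [QuadraticMap.polar_add_right, QuadraticMap.polar_smul_right,
        QuadraticMap.polar_smul_right, hue, huf]
      simp
    · rw [QuadraticMap.polar_add_right, QuadraticMap.polar_smul_right,
        QuadraticMap.polar_smul_right, hee, hef]
      intro h
      simp only [smul_eq_mul, mul_zero, mul_one, zero_add] at h
      have : (γ - 2 * k) * (γ + 2 * k) = 0 := by linear_combination h
      rcases mul_eq_zero.1 this with h' | h'
      · exact hγ1 (by linear_combination h')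
      · exact hγ2 (by linear_combination h')

theorem mem_of_deg (h2 : (2 : F) ≠ 0) (hQ : (QuadraticMap.polarBilin Q).Nondegenerate)
    (hex : ¬ (Fintype.card ι = 4 ∧ Fintype.card F = 3)) (heven : Even (Fintype.card ι))
    {c : F} (hc : c ≠ 0) {u w : ι → F} {k : F} (hk : k ≠ 0)
    (hu : Q u = k) (hw : Q w = k) (hβ : B u w = 2 * k) (hu' : Q u ≠ 0) (hw' : Q w ≠ 0) :
    reflO Q hu' * reflO Q hw' ∈ Subgroup.closure (gens Q c) := by
  have h4 : (4 : F) ≠ 0 := by
    have : (4 : F) = 2 * 2 := by norm_num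
    rw [this]; exact mul_ne_zero h2 h2
  by_cases he : w - u = 0
  · have hwu : w = u := sub_eq_zero.1 he
    subst hwu
    rw [reflO_mul_self]; exact one_mem _
  · have hQe : Q (w - u) = 0 := by
      rw [Q_sub, hu, hw, QuadraticMap.polar_comm, hβ]; ring
    have hue : B u (w - u) = 0 := by
      rw [QuadraticMap.polar_sub_right, hβ, QuadraticMap.polar_self, hu]
      simp
    obtain ⟨z, hz1, hz2, hz3⟩ := exists_mid Q h2 hQ hex heven hk hu he hQe hue
    have hz' : Q z ≠ 0 := by rw [hz1]; exact hk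
    have hsplit : reflO Q hu' * reflO Q hw'
        = (reflO Q hu' * reflO Q hz') * (reflO Q hz' * reflO Q hw') := by
      rw [mul_assoc, ← mul_assoc (reflO Q hz'), reflO_mul_self, one_mul]
    rw [hsplit]
    apply Subgroup.mul_mem
    · apply mem_of_nondeg Q h2 hc hk hu hz1
      rw [hz2]
      intro h
      have : (4 : F) * k ^ 2 ≠ 0 := mul_ne_zero h4 (pow_ne_zero 2 hk)
      apply this
      rw [← h]; ring
    · apply mem_of_nondeg Q h2 hc hk hz1 hw
      have : B z w = B (w - u) z := by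
        rw [QuadraticMap.polar_sub_left, hz2, QuadraticMap.polar_comm]; ring
      rw [this]; exact hz3

theorem mem_of_eq (h2 : (2 : F) ≠ 0) (hQ : (QuadraticMap.polarBilin Q).Nondegenerate)
    (hex : ¬ (Fintype.card ι = 4 ∧ Fintype.card F = 3)) (heven : Even (Fintype.card ι))
    {c : F} (hc : c ≠ 0) {u w : ι → F} {k : F} (hk : k ≠ 0)
    (hu : Q u = k) (hw : Q w = k) (hu' : Q u ≠ 0) (hw' : Q w ≠ 0) :
    reflO Q hu' * reflO Q hw' ∈ Subgroup.closure (gens Q c) := by
  by_cases hβ : (B u w) ^ 2 = 4 * k ^ 2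
  · have : (B u w - 2 * k) * (B u w + 2 * k) = 0 := by linear_combination hβ
    rcases mul_eq_zero.1 this with h | h
    · exact mem_of_deg Q h2 hQ hex heven hc hk hu hw (by linear_combination h) hu' hw'
    · have hw2 : Q (-w) = k := by rw [QuadraticMap.map_neg]; exact hw
      have hw2' : Q (-w) ≠ 0 := by rw [hw2]; exact hk
      have hrw : reflO Q hw' = reflO Q hw2' := by
        apply iso_ext
        simp only [coe_reflO]
        rw [refl_neg]
      rw [hrw]
      apply mem_of_deg Q h2 hQ hex heven hc hk hu hw2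
      rw [QuadraticMap.polar_neg_right]
      linear_combination -h
  · exact mem_of_nondeg Q h2 hc hk hu hw hβ hu' hw'

theorem main (h2 : (2 : F) ≠ 0) (hQ : (QuadraticMap.polarBilin Q).Nondegenerate)
    (hcard : 2 ≤ Fintype.card ι)
    (hex : ¬ (Fintype.card ι = 4 ∧ Fintype.card F = 3)) (heven : Even (Fintype.card ι))
    {c : F} (hc : c ≠ 0) : (Subgroup.closure (gens Q c)).index = 2 := by
  obtain ⟨ν, hν⟩ := FiniteField.exists_nonsquare (F := F) (ringChar_ne_two h2)
  have hν0 : ν ≠ 0 := by rintro rfl; exact hν IsSquare.zero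
  obtain ⟨u0, hu0⟩ := exists_Q_eq Q h2 hQ hcard (c * ν)
  have hk : c * ν ≠ 0 := mul_ne_zero hc hν0
  have hu0' : Q u0 ≠ 0 := by rw [hu0]; exact hk
  have hcls : ∀ v (hv : Q v ≠ 0), (∃ t : F, t ≠ 0 ∧ Q v = c * t ^ 2) ∨
      (reflO Q hv * reflO Q hu0' ∈ Subgroup.closure (gens Q c) ∧
        reflO Q hu0' * reflO Q hv ∈ Subgroup.closure (gens Q c)) := by
    intro v hv
    by_cases hsq : IsSquare (Q v / c)
    · left
      obtain ⟨t, ht⟩ := hsq
      refine ⟨t, ?_, ?_⟩
      · rintro rfl
        have : Q v / c ≠ 0 := div_ne_zero hv hc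
        apply this
        rw [ht]; ring
      · field_simp at ht
        linear_combination ht
    · right
      obtain ⟨t, ht⟩ := isSquare_mul_of_not hsq hν
      have ht0 : t ≠ 0 := by
        rintro rfl
        have : Q v / c * ν ≠ 0 := mul_ne_zero (div_ne_zero hv hc) hν0
        apply this
        rw [ht]; ring
      have ha : ν / t ≠ 0 := div_ne_zero hν0 ht0
      have hQv' : Q ((ν / t) • v) = c * ν := by
        rw [QuadraticMap.map_smul]
        simp only [smul_eq_mul]
        field_simp at ht ⊢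
        linear_combination ht
      have hv' : Q ((ν / t) • v) ≠ 0 := by rw [hQv']; exact hk
      have hrw : reflO Q hv = reflO Q hv' := by
        apply iso_ext
        simp only [coe_reflO]
        rw [refl_smul Q ha]
      rw [hrw]
      exact ⟨mem_of_eq Q h2 hQ hex heven hc hk hQv' hu0 hv' hu0',
        mem_of_eq Q h2 hQ hex heven hc hk hu0 hQv' hu0' hv'⟩
  have hker : Subgroup.closure (gens Q c) ≤ (chi Q (c * ν)).ker := by
    rw [Subgroup.closure_le]
    rintro g ⟨v, t, ht, hv, hg⟩
    have hv' : Q v ≠ 0 := by rw [hv]; exact mul_ne_zero hc (pow_ne_zero 2 ht)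
    have hg' : g = reflO Q hv' := iso_ext hg
    rw [hg']
    apply (chi_refl Q h2 hk hv').2
    have : c * ν * Q v = (c * t) * (c * t) * ν := by rw [hv]; ring
    rw [this]
    exact not_isSquare_mul (mul_ne_zero (mul_ne_zero hc ht) (mul_ne_zero hc ht)) ⟨_, rfl⟩ hν
  have hr0 : reflO Q hu0' ∉ Subgroup.closure (gens Q c) := by
    intro h
    have h1 : chi Q (c * ν) (reflO Q hu0') = 1 := hker h
    have h3 := (chi_refl Q h2 hk hu0').1 ⟨c * ν, by rw [hu0]⟩
    rw [h1] at h3
    exact absurd h3 (by decide)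
  have hP : ∀ vs : List (ι → F), (∀ v ∈ vs, Q v ≠ 0) →
      ((vs.map (reflO' Q)).prod ∈ Subgroup.closure (gens Q c) ∨
        reflO Q hu0' * (vs.map (reflO' Q)).prod ∈ Subgroup.closure (gens Q c)) := by
    intro vs
    induction vs with
    | nil => intro _; left; simp
    | cons v vs ih =>
      intro hvs
      have hv := hvs v List.mem_cons_self
      have ih' := ih (fun w hw => hvs w (List.mem_cons_of_mem _ hw))
      simp only [List.map_cons, List.prod_cons]
      rw [reflO'_eq Q hv]
      generalize (vs.map (reflO' Q)).prod = h at ih' ⊢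
      rcases hcls v hv with ⟨t, ht, hvt⟩ | ⟨h1, h3⟩
      · rcases ih' with ih' | ih'
        · left
          exact Subgroup.mul_mem _ (refl_mem Q hv ht hvt) ih'
        · right
          have hQ' : Q (Cfsg.reflectionMatrix ⇑Q u0 *ᵥ v) = Q v := Q_refl Q hu0' v
          have hv2 : Q (Cfsg.reflectionMatrix ⇑Q u0 *ᵥ v) ≠ 0 := by rw [hQ']; exact hv
          have hconj : reflO Q hu0' * reflO Q hv = reflO Q hv2 * reflO Q hu0' := by
            apply iso_ext
            simp only [Subgroup.coe_mul, Units.val_mul, coe_reflO]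
            have := conj_refl Q (reflO Q hu0') v
            simpa only [coe_reflO] using this
          rw [← mul_assoc, hconj, mul_assoc]
          exact Subgroup.mul_mem _ (refl_mem Q hv2 ht (by rw [hQ']; exact hvt)) ih'
      · rcases ih' with ih' | ih'
        · right
          rw [← mul_assoc]
          exact Subgroup.mul_mem _ h3 ih'
        · left
          have : reflO Q hv * h = (reflO Q hv * reflO Q hu0') * (reflO Q hu0' * h) := by
            rw [mul_assoc, ← mul_assoc (reflO Q hu0'), reflO_mul_self, one_mul]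
          rw [this]
          exact Subgroup.mul_mem _ h1 ih'
  rw [Subgroup.index_eq_two_iff]
  refine ⟨reflO Q hu0', fun b => ?_⟩
  obtain ⟨vs, hvs, hb⟩ := exists_list_refl Q h2 hQ b⁻¹
  have := hP vs hvs
  rw [← hb] at this
  rcases this with h | h
  · have hb' : b ∈ Subgroup.closure (gens Q c) := by simpa using Subgroup.inv_mem _ h
    refine Or.inr ⟨hb', fun h' => hr0 ?_⟩
    have := Subgroup.mul_mem _ (Subgroup.inv_mem _ hb') h'
    simpa using this
  · have hb' : b * reflO Q hu0' ∈ Subgroup.closure (gens Q c) := by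
      have := Subgroup.inv_mem _ h
      simpa [reflO_inv] using this
    refine Or.inl ⟨hb', fun h' => hr0 ?_⟩
    have := Subgroup.mul_mem _ (Subgroup.inv_mem _ h') hb'
    simpa using this

end Fin

/-- For q odd, n ≥ 2 even, Q with non-degenerate polar form (n, |F|) ≠ (4, 3), and a fixed c ≠ 0: the subgroup of the isometry group generated by the reflections r_v with Q(v) ∈ c·(F^×)² has index 2. -/
theorem result {F : Type*} [Field F] [Fintype F] (h2 : (2 : F) ≠ 0) {n : ℕ} (hn : 2 ≤ n) (heven : Even n) (Q : QuadraticForm F (Fin n → F)) (hQ : (QuadraticMap.polarBilin Q).Nondegenerate) (h43 : ¬ (n = 4 ∧ Fintype.card F = 3)) (c : F) (hc : c ≠ 0) : (Subgroup.closure {g : ↥(Cfsg.isometryGroup F ⇑Q) | ∃ (v : Fin n → F) (t : F), t ≠ 0 ∧ Q v = c * t ^ 2 ∧ ((g : Matrix.GeneralLinearGroup (Fin n) F) : Matrix (Fin n) (Fin n) F) = Cfsg.reflectionMatrix ⇑Q v}).index = 2 := by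
  exact main Q h2 hQ (by rw [Fintype.card_fin]; exact hn) (by rw [Fintype.card_fin]; exact h43)
    (by rw [Fintype.card_fin]; exact heven) hc

end Cfsg.Agent.S0798
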