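import Cfsg.Statements.S0806
import Cfsg.Agent.Lib.Helper46MinIndex
-- import your own Cfsg.Agent.* helpers here

set_option autoImplicit false
open Cfsg

namespace Cfsg.Agent.S0806

open Cfsg.Agent.Lib.Helper46SL2 Cfsg.Agent.Lib.Helper46Borel
open Cfsg.Agent.Lib.Helper46SL2CharA Cfsg.Agent.Lib.Helper46MinIndex

/-- Minimal index (Galois): if q ∉ {2, 3, 5, 7, 9, 11} then every proper subgroup of PSL_2(q) has index ≥ q + 1, and some subgroup has index exactly q + 1. -/
theorem result {F : Type*} [Field F] [Fintype F] {q : ℕ} (hF : Fintype.card F = q) (hq : q ∉ ({2, 3, 5, 7, 9, 11} : Finset ℕ)) : (∀ H : Subgroup (Matrix.ProjectiveSpecialLinearGroup (Fin 2) F), H ≠ ⊤ → q + 1 ≤ H.index) ∧ ∃ H : Subgroup (Matrix.ProjectiveSpecialLinearGroup (Fin 2) F), H.index = q + 1 := by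
  classical
  subst hF
  have hsurj : Function.Surjective (QuotientGroup.mk' (Subgroup.center (Matrix.SpecialLinearGroup (Fin 2) F))) :=
    QuotientGroup.mk'_surjective _
  constructor
  · intro H hH
    rw [← Subgroup.index_comap_of_surjective H hsurj]
    apply index_ge hq
    intro htop
    apply hH
    rw [← Subgroup.map_comap_eq_self_of_surjective hsurj H, htop, ← MonoidHom.range_eq_map,
      MonoidHom.range_eq_top.mpr hsurj]
  · refine ⟨(B F).map (QuotientGroup.mk' (Subgroup.center (Matrix.SpecialLinearGroup (Fin 2) F))), ?_⟩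
    rw [← Subgroup.index_comap_of_surjective _ hsurj, Subgroup.comap_map_eq, QuotientGroup.ker_mk']
    have hle : Subgroup.center (Matrix.SpecialLinearGroup (Fin 2) F) ≤ B F := by
      intro z hz
      rw [mem_B]
      exact (mem_center_iff.mp hz).2.1
    rw [sup_eq_left.mpr hle]
    have h1 := (B F).card_mul_index
    have h2 := card_G (F := F)
    have h3 := card_B (F := F)
    have hB : (Nat.card (B F) : ℂ) ≠ 0 := by exact_mod_cast Nat.card_pos.ne'
    have h4 : ((B F).index : ℂ) = ((Fintype.card F + 1 : ℕ) : ℂ) := by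
      have : (Nat.card (B F) : ℂ) * ((B F).index : ℂ) = (Nat.card (Matrix.SpecialLinearGroup (Fin 2) F) : ℂ) := by
        exact_mod_cast h1
      rw [h2, ← h3] at this
      push_cast
      apply mul_left_cancel₀ hB
      rw [this]; ring
    exact_mod_cast h4

end Cfsg.Agent.S0806
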