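import Cfsg.Statements.S0809
import Mathlib
import Cfsg.Agent.Lib.Helper41SL2Inv

set_option autoImplicit false
open Cfsg
open Cfsg.Agent.Lib.Helper41SL2 Cfsg.Agent.Lib.Helper46SL2

namespace Cfsg.Agent.S0809

/-- In SL_2(q), q odd: any two subgroups of order 4 are conjugate, and the normaliser of a subgroup of order 4 has order 2(q − 1) if q ≡ 1 (mod 4) and 2(q + 1) if q ≡ 3 (mod 4); consequently all involutions of PSL_2(q) are conjugate. -/
theorem result {F : Type*} [Field F] [Fintype F] {q : ℕ} (hF : Fintype.card F = q) (hodd : Odd q) (A : Subgroup (Matrix.SpecialLinearGroup (Fin 2) F)) (hA : Nat.card A = 4) : (∀ B : Subgroup (Matrix.SpecialLinearGroup (Fin 2) F), Nat.card B = 4 → ∃ g : Matrix.SpecialLinearGroup (Fin 2) F, B = A.map (MulAut.conj g).toMonoidHom) ∧ (q % 4 = 1 → Nat.card ↥(Subgroup.normalizer (A : Set (Matrix.SpecialLinearGroup (Fin 2) F))) = 2 * (q - 1)) ∧ (q % 4 = 3 → Nat.card ↥(Subgroup.normalizer (A : Set (Matrix.SpecialLinearGroup (Fin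 2) F))) = 2 * (q + 1)) ∧ (∀ x y : Matrix.ProjectiveSpecialLinearGroup (Fin 2) F, orderOf x = 2 → orderOf y = 2 → IsConj x y) := by
  subst hF
  have h2 : (2 : F) ≠ 0 := two_ne_zero_of_odd hodd
  obtain ⟨x, hx, rfl⟩ := exists_generator_of_card_four h2 A hA
  have ht : tr x ^ 2 ≠ 4 := by rw [hx]; exact zero_sq_ne_four h2
  refine ⟨?_, ?_, ?_, ?_⟩
  · intro B hB
    obtain ⟨y, hy, rfl⟩ := exists_generator_of_card_four h2 B hB
    obtain ⟨g, hg⟩ := isConj_iff.mp (isConj_of_tr_eq_zero h2 hx hy)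
    refine ⟨g, ?_⟩
    rw [MonoidHom.map_zpowers, ← hg]
    rfl
  · intro h
    rw [normalizer_zpowers_eq ht, card_normalizer_centralizer ht, card_centralizer_tr_zero_one h hx]
  · intro h
    rw [normalizer_zpowers_eq ht, card_normalizer_centralizer ht, card_centralizer_tr_zero_three h hx]
  · intro a b ha hb
    exact isConj_of_orderOf_two h2 ha hb

end Cfsg.Agent.S0809
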