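import Cfsg.Statements.S0811
import Cfsg.Agent.Lib.Helper6DkTorus

set_option autoImplicit false
open Cfsg

namespace Cfsg.Agent.S0811

open Cfsg.Agent.Lib.Helper6DkCor

/-- For q ∉ {2, 7, 9}, PSL_2(q) has a maximal subgroup isomorphic to the dihedral group of order 2(q + 1)/d, d = gcd(2, q − 1). -/
theorem result {F : Type*} [Field F] [Fintype F] {q : ℕ} (hF : Fintype.card F = q) (hq : q ∉ ({2, 7, 9} : Finset ℕ)) : ∃ H : Subgroup (Matrix.ProjectiveSpecialLinearGroup (Fin 2) F), IsCoatom H ∧ Nonempty (H ≃* DihedralGroup ((q + 1) / Nat.gcd 2 (q - 1))) := by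
  subst hF
  obtain ⟨p, hp⟩ := CharP.exists F
  obtain ⟨f, hp', hf⟩ := FiniteField.card F p
  have : Fact p.Prime := ⟨hp'⟩
  obtain ⟨x, hns, hord, -⟩ := Cfsg.Agent.Lib.Helper41SL2.exists_nonSplit_generator (F := F)
  have hq2 : 2 ≤ Fintype.card F := Fintype.one_lt_card
  have hq' := hq
  simp only [Finset.mem_insert, Finset.mem_singleton, not_or] at hq'
  have hpq : p ∣ Fintype.card F := by rw [hf]; exact dvd_pow_self p f.ne_zero
  have key := exists_dihedral_coatom p (x := x) hns.sq_ne_four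
    (by rw [Cfsg.Agent.Lib.Helper41SL2.card_centralizer_nonSplit hns, hord])
    (by
      rw [hord]
      apply Nat.Coprime.symm
      rw [hp'.coprime_iff_not_dvd]
      intro h
      have := (Nat.dvd_add_right hpq).1 h
      exact hp'.one_lt.ne' (Nat.dvd_one.1 this))
    (by
      rw [hord]
      have h3 : 3 ≤ Fintype.card F := by omega
      have h4 : Fintype.card F + 1 ≤ Fintype.card F ^ 2 - 1 := by
        have : Fintype.card F * 3 ≤ Fintype.card F ^ 2 := by nlinarith
        omega
      nlinarith)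
    (by
      intro g _ h2 h3 h4
      rw [hord] at h2 ⊢
      exact arith_plus hq2 Cfsg.Agent.Lib.Helper41Dk.ee_eq_gcd hq h2 h3 h4)
  rw [hord, Cfsg.Agent.Lib.Helper41Dk.ee_eq_gcd] at key
  exact key

end Cfsg.Agent.S0811
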