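import Cfsg.Statements.S0812
import Cfsg.Agent.Lib.Helper6DkTorus

set_option autoImplicit false
open Cfsg

namespace Cfsg.Agent.S0812

open Cfsg.Agent.Lib.Helper6DkCor

/-- For q ∉ {2, 3, 5, 7, 9, 11}, PSL_2(q) has a maximal subgroup isomorphic to the dihedral group of order 2(q − 1)/d, d = gcd(2, q − 1). -/
theorem result {F : Type*} [Field F] [Fintype F] {q : ℕ} (hF : Fintype.card F = q) (hq : q ∉ ({2, 3, 5, 7, 9, 11} : Finset ℕ)) : ∃ H : Subgroup (Matrix.ProjectiveSpecialLinearGroup (Fin 2) F), IsCoatom H ∧ Nonempty (H ≃* DihedralGroup ((q - 1) / Nat.gcd 2 (q - 1))) := by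
  subst hF
  obtain ⟨p, hp⟩ := CharP.exists F
  obtain ⟨f, hp', hf⟩ := FiniteField.card F p
  have : Fact p.Prime := ⟨hp'⟩
  have hq2 : 2 ≤ Fintype.card F := Fintype.one_lt_card
  have hq' := hq
  simp only [Finset.mem_insert, Finset.mem_singleton, not_or] at hq'
  have hpq : p ∣ Fintype.card F := by rw [hf]; exact dvd_pow_self p f.ne_zero
  obtain ⟨u, hu⟩ := IsCyclic.exists_generator (α := Fˣ)
  have hou : orderOf u = Fintype.card F - 1 := by
    rw [orderOf_eq_card_of_forall_mem_zpowers hu, Nat.card_units, Nat.card_eq_fintype_card]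
  have hord : orderOf (Cfsg.Agent.Lib.Helper41SL2.dgHom u) = Fintype.card F - 1 := by
    rw [orderOf_injective _ Cfsg.Agent.Lib.Helper41SL2.dgHom_injective, hou]
  have hu2 : (u : F) ^ 2 ≠ 1 := by
    intro h
    have h1 : u ^ 2 = 1 := Units.ext (by simpa using h)
    have h2 := Nat.le_of_dvd (by norm_num) (orderOf_dvd_of_pow_eq_one h1)
    omega
  have htr : Cfsg.Agent.Lib.Helper46SL2.tr (Cfsg.Agent.Lib.Helper41SL2.dgHom u) = (u : F) + (u : F)⁻¹ := rfl
  have key := exists_dihedral_coatom p (x := Cfsg.Agent.Lib.Helper41SL2.dgHom u)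
    (by rw [htr]; exact Cfsg.Agent.Lib.Helper46SL2.add_inv_sq_ne_four u.ne_zero hu2)
    (by rw [Cfsg.Agent.Lib.Helper41SL2.card_centralizer_split u.ne_zero hu2 htr, hord])
    (by
      rw [hord]
      apply Nat.Coprime.symm
      rw [hp'.coprime_iff_not_dvd]
      intro h
      have h1 : p ∣ (Fintype.card F - 1) + 1 := by
        rw [Nat.sub_add_cancel (by omega)]; exact hpq
      have := (Nat.dvd_add_right h).1 h1
      exact hp'.one_lt.ne' (Nat.dvd_one.1 this))
    (by
      rw [hord]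
      have h3 : 3 ≤ Fintype.card F := by omega
      have h4 : Fintype.card F + 1 ≤ Fintype.card F ^ 2 - 1 := by
        have : Fintype.card F * 3 ≤ Fintype.card F ^ 2 := by nlinarith
        omega
      have h5 : 2 * (Fintype.card F - 1) < 2 * (Fintype.card F + 1) := by omega
      nlinarith)
    (by
      intro g _ h2 h3 h4
      rw [hord] at h2 ⊢
      exact arith_minus hq2 Cfsg.Agent.Lib.Helper41Dk.ee_eq_gcd hq h2 h3 h4)
  rw [hord, Cfsg.Agent.Lib.Helper41Dk.ee_eq_gcd] at key
  exact key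

end Cfsg.Agent.S0812
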