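import Cfsg.Statements.S0813
import Cfsg.Agent.Lib.Helper50Out

set_option autoImplicit false
open Cfsg

namespace Cfsg.Agent.S0813

open Cfsg.Agent.Lib.Helper50Aut Cfsg.Agent.Lib.Helper50AutStr Cfsg.Agent.Lib.Helper50Out

/-- |Aut(PSL_n(q))|, q = p^f: for n ≥ 3 it is 2 f |PGL_n(q)|, and for n = 2 (q ≥ 4) it is f |PGL_2(q)|. -/
theorem result {F : Type*} [Field F] [Fintype F] (p f : ℕ) [Fact p.Prime] (hf : 1 ≤ f) (hF : Fintype.card F = p ^ f) (n : ℕ) (hn : 2 ≤ n) (h2 : n = 2 → 4 ≤ p ^ f) : Nat.card (MulAut (Matrix.ProjectiveSpecialLinearGroup (Fin n) F)) = (if n = 2 then 1 else 2) * f * Nat.card (Matrix.ProjGenLinGroup (Fin n) F) := by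
  obtain ⟨hcyc, hcard⟩ := ringAut_cyclic_card hF
  by_cases h : n = 2
  · subst h
    obtain ⟨r, hr, hs⟩ := exists_hom_two (F := F)
    rw [card_aut le_rfl r hr hs, hcard, if_pos rfl, one_mul]
  · obtain ⟨r, hr, hs⟩ := exists_hom_three (F := F) (n := n) (by omega)
    rw [card_aut hn r hr hs, Nat.card_prod, hcard, card_zpowers_iota (by omega), if_neg h, mul_comm f 2]

end Cfsg.Agent.S0813
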