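import Cfsg.Statements.S0815
import Cfsg.Agent.Lib.Helper50UOut

set_option autoImplicit false
open Cfsg

namespace Cfsg.Agent.S0815

open Cfsg.Agent.Lib.Helper50UOut Cfsg.Agent.Lib.Helper50Out

/-- |Aut(PSU_n(q))| = gcd(n, q+1) · 2f · |PSU_n(q)| for q = p^f, n ≥ 3, (n, q) ≠ (3, 2); the form is realised over F with |F| = q². -/
theorem result {F : Type*} [Field F] [Fintype F] (p f : ℕ) [Fact p.Prime] (hf : 1 ≤ f) {q : ℕ} (hq : q = p ^ f) (hF : Fintype.card F = q ^ 2) (n : ℕ) (hn : 3 ≤ n) (h32 : ¬ (n = 3 ∧ q = 2)) : Nat.card (MulAut (Cfsg.PSU n F q)) = Nat.gcd n (q + 1) * (2 * f) * Nat.card (Cfsg.PSU n F q) := by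
  have hF' : Fintype.card F = p ^ (2 * f) := by rw [hF, hq, ← pow_mul, mul_comm]
  rw [card_aut_U hF hn h32, (ringAut_cyclic_card hF').2]

end Cfsg.Agent.S0815
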