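import Cfsg.Statements.S0816
import Cfsg.Agent.S2694
import Cfsg.Agent.Lib.Helper18GamC
import Cfsg.Agent.Lib.Helper50Out

set_option autoImplicit false
open Cfsg

namespace Cfsg.Agent.S0816

/-- |Aut(PΩ_(2m+1)(q))| = 2 f · |PΩ_(2m+1)(q)| for q = p^f odd and m ≥ 3 (for the form quadFormOdd). -/
theorem result {F : Type*} [Field F] [Fintype F] (p f : ℕ) [Fact p.Prime] (hf : 1 ≤ f) (hF : Fintype.card F = p ^ f) (hodd : Odd p) (m : ℕ) (hm : 3 ≤ m) : Nat.card (MulAut (Cfsg.POmega F (Cfsg.quadFormOdd m F))) = 2 * f * Nat.card (Cfsg.POmega F (Cfsg.quadFormOdd m F)) := by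
  have hoddF : Odd (Fintype.card F) := by rw [hF]; exact hodd.pow
  have h2 : (2 : F) ≠ 0 := Cfsg.Agent.Lib.Helper49Forms.two_ne_zero_of_odd rfl hoddF
  have htop := Cfsg.Agent.S2694.result (F := F) hoddF hm
  rw [← Cfsg.Agent.Lib.Helper49Forms.coe_QOdd m] at htop ⊢
  have hQ := Cfsg.Agent.Lib.Helper49OddForm.QOdd_nondegenerate h2 m
  have hcard : Fintype.card (Unit ⊕ (Fin m ⊕ Fin m)) = 2 * m + 1 := by
    simp only [Fintype.card_sum, Fintype.card_fin, Fintype.card_unit]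
    omega
  have hx : ∃ x, Cfsg.Agent.Lib.Helper49Forms.QOdd m F x = 1 := by
    refine ⟨Pi.single (Sum.inl ()) 1, ?_⟩
    rw [Cfsg.Agent.Lib.Helper49Forms.coe_QOdd]
    simp [Cfsg.quadFormOdd]
  have hpr : Function.Surjective
      (Cfsg.Agent.Lib.Helper18GamA.prO ⇑(Cfsg.Agent.Lib.Helper49Forms.QOdd m F)) := by
    intro σ
    refine ⟨⟨SemidirectProduct.inr σ, 1, fun v => ?_⟩, rfl⟩
    rw [SemidirectProduct.left_inr, SemidirectProduct.right_inr, Units.val_one, Matrix.one_mulVec,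
      Units.val_one, one_mul, Cfsg.Agent.Lib.Helper49Forms.coe_QOdd]
    simp [Cfsg.quadFormOdd]
  rw [Cfsg.Agent.Lib.Helper18GamB.card_aut _ hQ (by omega)
    (Cfsg.Agent.Lib.Helper18GamB.sAut_surjective _ htop) hpr,
    Cfsg.Agent.Lib.Helper18GamC.index_K0_odd _ hQ hx hcard h2 (by omega),
    (Cfsg.Agent.Lib.Helper50Out.ringAut_cyclic_card hF).2]

end Cfsg.Agent.S0816
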