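import Cfsg.Statements.S0819
import Mathlib
import Cfsg.Agent.Lib.Helper18F4

set_option autoImplicit false
open Cfsg

namespace Cfsg.Agent.S0819

open Matrix Cfsg.Agent.Lib.Helper18F4

section generic
variable {R : Type*} [CommRing R]

/-- multiplication by `x` in `R[x]/(x³ - t x² - s x - 1)` in the basis `1, x, x²` -/
def stepR (t s : R) (v : R × R × R) : R × R × R :=
  (v.2.2, v.1 + s * v.2.2, v.2.1 + t * v.2.2)

def powR (t s : R) (k : ℕ) : R × R × R := (stepR t s)^[k] (1, 0, 0)

/-- the multiple `(v₀ + v₁ x + v₂ x²) r` -/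
def comb (t s : R) (v0 v1 v2 : R) (r : R × R × R) : R × R × R :=
  v0 • r + v1 • stepR t s r + v2 • stepR t s (stepR t s r)

def ev (A : Matrix (Fin 3) (Fin 3) R) (v : R × R × R) : Matrix (Fin 3) (Fin 3) R :=
  v.1 • 1 + v.2.1 • A + v.2.2 • A ^ 2

theorem ev_step (A : Matrix (Fin 3) (Fin 3) R) (t s : R) (hA : A ^ 3 = t • A ^ 2 + s • A + 1)
    (v : R × R × R) : ev A (stepR t s v) = A * ev A v := by
  unfold ev stepR
  simp only [Matrix.mul_add, Matrix.mul_smul, Matrix.mul_one, ← pow_succ', add_smul, mul_smul]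
  have : A ^ (2 + 1) = A ^ 3 := rfl
  rw [this, hA]
  simp only [smul_add, ← pow_two, smul_smul]
  have e1 : A * A = A ^ 2 := (pow_two A).symm
  simp only [mul_comm s, mul_comm t]
  abel

theorem ev_pow (A : Matrix (Fin 3) (Fin 3) R) (t s : R) (hA : A ^ 3 = t • A ^ 2 + s • A + 1)
    (k : ℕ) : ev A (powR t s k) = A ^ k := by
  induction k with
  | zero => simp [powR, ev]
  | succ k ih =>
    unfold powR at ih ⊢
    rw [Function.iterate_succ_apply', ev_step A t s hA, ih, pow_succ']

theorem ev_add (A : Matrix (Fin 3) (Fin 3) R) (u v : R × R × R) : ev A (u + v) = ev A u + ev A v := by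
  unfold ev
  simp only [Prod.fst_add, Prod.snd_add, add_smul]
  abel

theorem ev_smul (A : Matrix (Fin 3) (Fin 3) R) (c : R) (v : R × R × R) :
    ev A (c • v) = c • ev A v := by
  unfold ev
  simp only [Prod.smul_fst, Prod.smul_snd, smul_eq_mul, smul_add, smul_smul]

theorem ev_comb (A : Matrix (Fin 3) (Fin 3) R) (t s : R) (hA : A ^ 3 = t • A ^ 2 + s • A + 1)
    (v0 v1 v2 : R) (r : R × R × R) (hr : ev A r = 0) : ev A (comb t s v0 v1 v2 r) = 0 := by
  unfold comb
  rw [ev_add, ev_add, ev_smul, ev_smul, ev_smul, ev_step A t s hA, ev_step A t s hA,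
    ev_step A t s hA, hr]
  simp

end generic

set_option maxRecDepth 100000 in
theorem key4 : ∀ t s z : F4c, z ≠ 0 → ∃ v0 v1 v2 c : F4c,
    comb t s v0 v1 v2 (powR t s 15 + (z, 0, 0)) = powR t s 5 + (c, 0, 0) ∨
    comb t s v0 v1 v2 (powR t s 15 + (z, 0, 0)) = powR t s 3 + (c, 0, 0) ∨
    comb t s v0 v1 v2 (powR t s 15 + (z, 0, 0)) = (1, 0, 0) := by
  decide +kernel

section transfer
variable {R S : Type*} [CommRing R] [CommRing S]

def mp (e : R →+* S) (v : R × R × R) : S × S × S := (e v.1, e v.2.1, e v.2.2)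

theorem mp_step (e : R →+* S) (t s : R) (v : R × R × R) :
    mp e (stepR t s v) = stepR (e t) (e s) (mp e v) := by
  simp [mp, stepR]

theorem mp_pow (e : R →+* S) (t s : R) (k : ℕ) : mp e (powR t s k) = powR (e t) (e s) k := by
  induction k with
  | zero => simp [powR, mp]
  | succ k ih =>
    unfold powR at ih ⊢
    rw [Function.iterate_succ_apply', Function.iterate_succ_apply', mp_step, ih]

theorem mp_add (e : R →+* S) (u v : R × R × R) : mp e (u + v) = mp e u + mp e v := by
  simp [mp]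

theorem mp_smul (e : R →+* S) (c : R) (v : R × R × R) : mp e (c • v) = e c • mp e v := by
  simp [mp]

theorem mp_comb (e : R →+* S) (t s v0 v1 v2 : R) (r : R × R × R) :
    mp e (comb t s v0 v1 v2 r) = comb (e t) (e s) (e v0) (e v1) (e v2) (mp e r) := by
  unfold comb
  rw [mp_add, mp_add, mp_smul, mp_smul, mp_smul, mp_step, mp_step, mp_step]

theorem mp_injective (e : R →+* S) (he : Function.Injective e) : Function.Injective (mp e) := by
  rintro ⟨a, b, c⟩ ⟨a', b', c'⟩ h
  simp only [mp, Prod.mk.injEq] at h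
  rw [he h.1, he h.2.1, he h.2.2]

end transfer

theorem keyF {F : Type*} [Field F] [Fintype F] (hF : Fintype.card F = 4) :
    ∀ t s z : F, z ≠ 0 → ∃ v0 v1 v2 c : F,
    comb t s v0 v1 v2 (powR t s 15 + (z, 0, 0)) = powR t s 5 + (c, 0, 0) ∨
    comb t s v0 v1 v2 (powR t s 15 + (z, 0, 0)) = powR t s 3 + (c, 0, 0) ∨
    comb t s v0 v1 v2 (powR t s 15 + (z, 0, 0)) = (1, 0, 0) := by
  obtain ⟨e⟩ := exists_ringEquiv hF
  intro t s z hz
  obtain ⟨v0, v1, v2, c, h⟩ := key4 (e t) (e s) (e z) (by simpa using hz)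
  refine ⟨e.symm v0, e.symm v1, e.symm v2, e.symm c, ?_⟩
  have hinj := mp_injective (e : F →+* F4c) e.injective
  have h0 : mp (e : F →+* F4c) (comb t s (e.symm v0) (e.symm v1) (e.symm v2) (powR t s 15 + (z, 0, 0)))
      = comb (e t) (e s) v0 v1 v2 (powR (e t) (e s) 15 + (e z, 0, 0)) := by
    rw [mp_comb, mp_add, mp_pow]
    simp [mp]
  rcases h with h | h | h
  · left
    apply hinj
    rw [h0, h, mp_add, mp_pow]
    simp [mp]
  · right; left
    apply hinj
    rw [h0, h, mp_add, mp_pow]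
    simp [mp]
  · right; right
    apply hinj
    rw [h0, h]
    simp [mp]

theorem two_eq_zero {F : Type*} [Field F] [Fintype F] (hF : Fintype.card F = 4) : (2 : F) = 0 := by
  obtain ⟨e⟩ := exists_ringEquiv hF
  apply e.injective
  rw [map_ofNat, map_zero]
  decide

theorem cayley {F : Type*} [Field F] (A : Matrix (Fin 3) (Fin 3) F) (hdet : A.det = 1) :
    ∃ t s : F, A ^ 3 = t • A ^ 2 + s • A + 1 := by
  have hch := Matrix.aeval_self_charpoly A
  rw [Polynomial.aeval_eq_sum_range, Matrix.charpoly_natDegree_eq_dim] at hch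
  simp only [Fintype.card_fin, Finset.sum_range_succ, Finset.sum_range_zero, zero_add, pow_zero,
    pow_one] at hch
  have h3 : A.charpoly.coeff 3 = 1 := by
    have := (Matrix.charpoly_monic A).coeff_natDegree
    rwa [Matrix.charpoly_natDegree_eq_dim, Fintype.card_fin] at this
  have h0 : A.charpoly.coeff 0 = -1 := by
    have := Matrix.det_eq_sign_charpoly_coeff A
    rw [hdet, Fintype.card_fin] at this
    linear_combination this
  rw [h3, h0, one_smul] at hch
  refine ⟨-A.charpoly.coeff 2, -A.charpoly.coeff 1, ?_⟩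
  rw [neg_smul, neg_smul]
  have : A ^ 3 = -((-1 : F) • (1 : Matrix (Fin 3) (Fin 3) F) + A.charpoly.coeff 1 • A + A.charpoly.coeff 2 • A ^ 2) :=
    eq_neg_of_add_eq_zero_right hch
  rw [this, neg_smul, one_smul]
  abel

theorem main {F : Type*} [Field F] [Fintype F] (hF : Fintype.card F = 4)
    (A : Matrix (Fin 3) (Fin 3) F) (hdet : A.det = 1) (z : F) (hz : z ≠ 0)
    (h15 : A ^ 15 = z • 1) : (∃ c : F, A ^ 5 = c • 1) ∨ (∃ c : F, A ^ 3 = c • 1) := by
  obtain ⟨t, s, hA⟩ := cayley A hdet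
  have h2 := two_eq_zero hF
  have hneg : ∀ c : F, -c = c := by
    intro c
    linear_combination (-c) * h2
  have hev : ∀ c : F, ev A ((c, 0, 0) : F × F × F) = c • 1 := by
    intro c; simp [ev]
  have hr : ev A (powR t s 15 + (z, 0, 0)) = 0 := by
    rw [ev_add, ev_pow A t s hA, hev, h15, ← add_smul]
    have : z + z = 0 := by linear_combination z * h2
    rw [this, zero_smul]
  obtain ⟨v0, v1, v2, c, h⟩ := keyF hF t s z hz
  have h0 := ev_comb A t s hA v0 v1 v2 _ hr
  rcases h with h | h | h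
  · left
    rw [h, ev_add, ev_pow A t s hA, hev] at h0
    refine ⟨c, ?_⟩
    rw [eq_neg_of_add_eq_zero_left h0, ← neg_smul, hneg]
  · right
    rw [h, ev_add, ev_pow A t s hA, hev] at h0
    refine ⟨c, ?_⟩
    rw [eq_neg_of_add_eq_zero_left h0, ← neg_smul, hneg]
  · exfalso
    rw [h, hev, one_smul] at h0
    exact one_ne_zero h0

/-- No element of PSL_3(4) has order 15. -/
theorem result {F : Type*} [Field F] [Fintype F] (hF : Fintype.card F = 4) (g : Matrix.ProjectiveSpecialLinearGroup (Fin 3) F) : orderOf g ≠ 15 := by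
  intro hord
  obtain ⟨A, rfl⟩ := QuotientGroup.mk_surjective g
  have h1 : ((A : Matrix.ProjectiveSpecialLinearGroup (Fin 3) F)) ^ 15 = 1 := by
    rw [← hord]; exact pow_orderOf_eq_one _
  rw [← QuotientGroup.mk_pow, QuotientGroup.eq_one_iff, Matrix.SpecialLinearGroup.mem_center_iff] at h1
  obtain ⟨r, hr, hr2⟩ := h1
  have hr0 : r ≠ 0 := by
    rintro rfl
    simp at hr
  have h15 : (A : Matrix (Fin 3) (Fin 3) F) ^ 15 = r • 1 := by
    rw [← Matrix.SpecialLinearGroup.coe_pow, ← hr2]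
    ext i j
    simp [Matrix.one_apply, Matrix.diagonal_apply]
  have hcen : ∀ (k : ℕ) (c : F), (A : Matrix (Fin 3) (Fin 3) F) ^ k = c • 1 →
      ((A : Matrix.ProjectiveSpecialLinearGroup (Fin 3) F)) ^ k = 1 := by
    intro k c hc
    rw [← QuotientGroup.mk_pow, QuotientGroup.eq_one_iff, Matrix.SpecialLinearGroup.mem_center_iff]
    refine ⟨c, ?_, ?_⟩
    · have h3 := (A ^ k).2
      rw [Matrix.SpecialLinearGroup.coe_pow, hc, Matrix.det_smul, Matrix.det_one, mul_one] at h3
      exact h3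
    · rw [Matrix.SpecialLinearGroup.coe_pow, hc]
      ext i j
      simp [Matrix.one_apply, Matrix.diagonal_apply]
  rcases main hF A.1 A.2 r hr0 h15 with ⟨c, hc⟩ | ⟨c, hc⟩
  · have := orderOf_dvd_of_pow_eq_one (hcen 5 c hc)
    rw [hord] at this
    omega
  · have := orderOf_dvd_of_pow_eq_one (hcen 3 c hc)
    rw [hord] at this
    omega

end Cfsg.Agent.S0819
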