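import Cfsg.Statements.S0839
import Mathlib

set_option autoImplicit false
open Cfsg

namespace Cfsg.Agent.S0839

open scoped Matrix

theorem rank_one_decomp {F : Type*} [Field F] {m : ℕ} (N : Matrix (Fin m) (Fin m) F)
    (hrank : N.rank = 1) : ∃ u φ : Fin m → F, φ ≠ 0 ∧ N = Matrix.vecMulVec u φ := by
  rw [Matrix.rank, finrank_eq_one_iff'] at hrank
  obtain ⟨⟨u, hu⟩, hu0, hspan⟩ := hrank
  have h1 : ∀ j : Fin m, ∃ c : F, c • u = N *ᵥ (Pi.single j 1) := by
    intro j
    obtain ⟨c, hc⟩ := hspan ⟨N *ᵥ (Pi.single j 1), ⟨Pi.single j 1, rfl⟩⟩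
    exact ⟨c, congrArg Subtype.val hc⟩
  choose φ hφ using h1
  have hN : N = Matrix.vecMulVec u φ := by
    ext i j
    have := congrFun (hφ j) i
    simp only [Pi.smul_apply, smul_eq_mul, Matrix.mulVec_single, MulOpposite.op_one, one_smul,
      Matrix.col_apply] at this
    rw [Matrix.vecMulVec_apply, ← this, mul_comm]
  refine ⟨u, φ, ?_, hN⟩
  rintro rfl
  apply hu0
  obtain ⟨x, hx⟩ := hu
  apply Subtype.ext
  show u = 0
  rw [← hx, hN]
  simp

/-- Every transvection t ∈ SL_(n+2)(F) (rank(t − 1) = 1, (t − 1)² = 0) is conjugate in SL_(n+2)(F) to 1 + v·e_0ᵀ for some column vector v with v_0 = 0 (the group A of matrices that are the identity except in the first column below the diagonal); the dimension is written n + 2 ≥ 2. -/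
theorem result {F : Type*} [Field F] (n : ℕ) (t : Matrix.SpecialLinearGroup (Fin (n + 2)) F) (ht : Cfsg.IsTransvection (t : Matrix (Fin (n + 2)) (Fin (n + 2)) F)) : ∃ (g : Matrix.SpecialLinearGroup (Fin (n + 2)) F) (v : Fin (n + 2) → F), v 0 = 0 ∧ ((g⁻¹ * t * g : Matrix.SpecialLinearGroup (Fin (n + 2)) F) : Matrix (Fin (n + 2)) (Fin (n + 2)) F) = 1 + Matrix.vecMulVec v (Pi.single 0 1) := by
  obtain ⟨hrank, hsq⟩ := ht
  set N := (t : Matrix (Fin (n + 2)) (Fin (n + 2)) F) - 1 with hN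
  obtain ⟨u, φ, hφ0, hNuφ⟩ := rank_one_decomp N hrank
  obtain ⟨h, hh⟩ := MulAction.exists_smul_eq (Matrix.SpecialLinearGroup (Fin (n + 2)) F)
    (Projectivization.mk F φ hφ0)
    (Projectivization.mk F (Pi.single 0 1 : Fin (n + 2) → F) (by simp))
  rw [Projectivization.smul_mk, Projectivization.mk_eq_mk_iff'] at hh
  obtain ⟨a, ha⟩ := hh
  replace ha : a • (Pi.single 0 1 : Fin (n + 2) → F) = (h : Matrix (Fin (n + 2)) (Fin (n + 2)) F) *ᵥ φ := ha
  set g := h.transpose with hg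
  have hgcoe : (g : Matrix (Fin (n + 2)) (Fin (n + 2)) F) = (h : Matrix (Fin (n + 2)) (Fin (n + 2)) F)ᵀ := rfl
  set gi : Matrix (Fin (n + 2)) (Fin (n + 2)) F := ((g⁻¹ : Matrix.SpecialLinearGroup (Fin (n + 2)) F) : Matrix (Fin (n + 2)) (Fin (n + 2)) F) with hgi
  have hgig : gi * (g : Matrix (Fin (n + 2)) (Fin (n + 2)) F) = 1 := by
    rw [hgi, ← Matrix.SpecialLinearGroup.coe_mul, inv_mul_cancel, Matrix.SpecialLinearGroup.coe_one]
  have hggi : (g : Matrix (Fin (n + 2)) (Fin (n + 2)) F) * gi = 1 := by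
    rw [hgi, ← Matrix.SpecialLinearGroup.coe_mul, mul_inv_cancel, Matrix.SpecialLinearGroup.coe_one]
  set v : Fin (n + 2) → F := a • (gi *ᵥ u) with hv
  have hconj : gi * N * (g : Matrix (Fin (n + 2)) (Fin (n + 2)) F) = Matrix.vecMulVec v (Pi.single 0 1) := by
    rw [hNuφ, Matrix.mul_vecMulVec, Matrix.vecMulVec_mul, hgcoe, Matrix.vecMul_transpose, ← ha,
      Matrix.vecMulVec_smul, hv, Matrix.smul_vecMulVec]
  refine ⟨g, v, ?_, ?_⟩
  · have hMM : Matrix.vecMulVec v (Pi.single 0 1) * Matrix.vecMulVec v (Pi.single 0 1)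
        = (0 : Matrix (Fin (n + 2)) (Fin (n + 2)) F) := by
      rw [← hconj]
      calc gi * N * g * (gi * N * g) = gi * (N * ((g : Matrix (Fin (n + 2)) (Fin (n + 2)) F) * gi) * N) * g := by
            simp only [mul_assoc]
        _ = 0 := by rw [hggi, mul_one, hsq, mul_zero, zero_mul]
    have h00 := congrFun (congrFun hMM 0) 0
    rw [Matrix.vecMulVec_mul_vecMulVec] at h00
    simp [Matrix.vecMulVec_apply] at h00
    exact h00
  · rw [Matrix.SpecialLinearGroup.coe_mul, Matrix.SpecialLinearGroup.coe_mul, ← hgi, ← hconj]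
    have : (t : Matrix (Fin (n + 2)) (Fin (n + 2)) F) = 1 + N := by rw [hN]; abel
    rw [this, mul_add, add_mul, mul_one, hgig]

end Cfsg.Agent.S0839
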