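import Cfsg.Statements.S0820
import Mathlib
import Cfsg.Agent.S0839

set_option autoImplicit false
open Cfsg

namespace Cfsg.Agent.S0820

open scoped Matrix

variable {F : Type*} [Field F]

/-- the standard transvection. -/
def stdE (F : Type*) [Field F] : Matrix.SpecialLinearGroup (Fin 3) F :=
  ⟨Matrix.transvection 1 0 1, Matrix.det_transvection_of_ne _ _ (by decide) 1⟩

theorem conj_std (X : Matrix.SpecialLinearGroup (Fin 3) F)
    (hX : Cfsg.IsTransvection (X : Matrix (Fin 3) (Fin 3) F)) : IsConj X (stdE F) := by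
  obtain ⟨g, v, hv0, hg⟩ := Cfsg.Agent.S0839.result (n := 1) X hX
  change Matrix.SpecialLinearGroup (Fin 3) F at g
  change Fin 3 → F at v
  change ((g⁻¹ * X * g : Matrix.SpecialLinearGroup (Fin 3) F) : Matrix (Fin 3) (Fin 3) F)
    = 1 + Matrix.vecMulVec v (Pi.single 0 1) at hg
  change v 0 = 0 at hv0
  have key : ∀ g2 : Matrix.SpecialLinearGroup (Fin 3) F,
      (1 + Matrix.vecMulVec v (Pi.single 0 1)) * (g2 : Matrix (Fin 3) (Fin 3) F)
        = (g2 : Matrix (Fin 3) (Fin 3) F) * Matrix.transvection 1 0 1 → IsConj X (stdE F) := by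
    intro g2 h
    have h' : (g⁻¹ * X * g) * g2 = g2 * stdE F := by
      apply Subtype.ext
      rw [Matrix.SpecialLinearGroup.coe_mul (g⁻¹ * X * g) g2, Matrix.SpecialLinearGroup.coe_mul g2, hg, h]
      rfl
    rw [isConj_iff]
    refine ⟨(g * g2)⁻¹, ?_⟩
    have : stdE F = g2⁻¹ * ((g⁻¹ * X * g) * g2) := by rw [h']; group
    rw [this]; group
  have mk : ∀ M : Matrix (Fin 3) (Fin 3) F, M.det = 1 →
      ∃ a : Matrix.SpecialLinearGroup (Fin 3) F, (a : Matrix (Fin 3) (Fin 3) F) = M :=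
    fun M hM => ⟨⟨M, hM⟩, rfl⟩
  by_cases h1 : v 1 = 0
  · have h2 : v 2 ≠ 0 := by
      intro h2
      have hv : v = 0 := by
        ext i; fin_cases i <;> simp [hv0, h1, h2]
      rw [hv] at hg
      have hX1 : g⁻¹ * X * g = 1 := by
        apply Subtype.ext
        rw [hg]; simp
      have hX2 : X = 1 := by
        have : X = g * (g⁻¹ * X * g) * g⁻¹ := by group
        rw [this, hX1]; group
      have := hX.1
      rw [hX2] at this
      simp at this
    obtain ⟨g2, hg2⟩ := mk !![1, 0, 0; 0, 0, -(v 2)⁻¹; 0, v 2, 0]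
      (by simp [Matrix.det_fin_three, h2])
    apply key g2
    rw [hg2]
    ext i j
    fin_cases i <;> fin_cases j <;>
      simp [Matrix.transvection, Matrix.mul_apply, Fin.sum_univ_three, Matrix.single_apply,
        Matrix.vecMulVec_apply, Matrix.one_apply, hv0, h1]
  · obtain ⟨g2, hg2⟩ := mk !![1, 0, 0; 0, v 1, 0; 0, v 2, (v 1)⁻¹]
      (by simp [Matrix.det_fin_three, h1])
    apply key g2
    rw [hg2]
    ext i j
    fin_cases i <;> fin_cases j <;>
      simp [Matrix.transvection, Matrix.mul_apply, Fin.sum_univ_three, Matrix.single_apply,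
        Matrix.vecMulVec_apply, Matrix.one_apply, hv0]

theorem lift_invol (h2 : (2 : F) = 0) (x : Matrix.ProjectiveSpecialLinearGroup (Fin 3) F)
    (hx : orderOf x = 2) : ∃ X : Matrix.SpecialLinearGroup (Fin 3) F,
      (QuotientGroup.mk X : Matrix.ProjectiveSpecialLinearGroup (Fin 3) F) = x ∧
      Cfsg.IsTransvection (X : Matrix (Fin 3) (Fin 3) F) := by
  obtain ⟨X0, rfl⟩ := QuotientGroup.mk_surjective x
  have hsq : X0 ^ 2 ∈ Subgroup.center (Matrix.SpecialLinearGroup (Fin 3) F) := by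
    rw [← QuotientGroup.eq_one_iff, QuotientGroup.mk_pow, ← hx, pow_orderOf_eq_one]
  obtain ⟨z, hz3, hz⟩ := Matrix.SpecialLinearGroup.mem_center_iff.mp hsq
  simp only [Fintype.card_fin] at hz3
  have hZc : ∃ Z : Matrix.SpecialLinearGroup (Fin 3) F, (Z : Matrix (Fin 3) (Fin 3) F) = Matrix.scalar (Fin 3) z :=
    ⟨⟨Matrix.scalar (Fin 3) z, by simp [hz3]⟩, rfl⟩
  obtain ⟨Z, hZ⟩ := hZc
  have hZcen : Z ∈ Subgroup.center (Matrix.SpecialLinearGroup (Fin 3) F) :=
    Matrix.SpecialLinearGroup.mem_center_iff.mpr ⟨z, by simpa using hz3, hZ.symm⟩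
  have hmk : (QuotientGroup.mk (Z * X0) : Matrix.ProjectiveSpecialLinearGroup (Fin 3) F) = QuotientGroup.mk X0 := by
    rw [QuotientGroup.mk_mul, (QuotientGroup.eq_one_iff Z).mpr hZcen, one_mul]
  refine ⟨Z * X0, hmk, ?_⟩
  set X := Z * X0 with hXdef
  have hXX : X * X = 1 := by
    have hcomm : X0 * Z = Z * X0 := (Subgroup.mem_center_iff.mp hZcen X0)
    have e1 : X * X = Z * Z * X0 ^ 2 := by
      rw [hXdef, pow_two]
      calc Z * X0 * (Z * X0) = Z * (X0 * Z) * X0 := by group
        _ = Z * (Z * X0) * X0 := by rw [hcomm]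
        _ = Z * Z * (X0 * X0) := by group
    rw [e1]
    apply Subtype.ext
    rw [Matrix.SpecialLinearGroup.coe_mul, Matrix.SpecialLinearGroup.coe_mul, ← hz, hZ,
      ← map_mul, ← map_mul, Matrix.SpecialLinearGroup.coe_one, ← pow_two, ← pow_succ, hz3, map_one]
  have hX1 : X ≠ 1 := by
    intro h
    rw [h] at hmk
    have : orderOf (QuotientGroup.mk X0 : Matrix.ProjectiveSpecialLinearGroup (Fin 3) F) = 1 := by
      rw [← hmk]; simp
    omega
  set M : Matrix (Fin 3) (Fin 3) F := (X : Matrix (Fin 3) (Fin 3) F) with hM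
  have hMM : M * M = 1 := by
    rw [hM, ← Matrix.SpecialLinearGroup.coe_mul, hXX, Matrix.SpecialLinearGroup.coe_one]
  have hNN : (M - 1) * (M - 1) = 0 := by
    have : (M - 1) * (M - 1) = M * M - (2 : F) • M + 1 := by
      rw [two_smul]; noncomm_ring
    rw [this, hMM, h2, zero_smul, sub_zero, ← two_smul F (1 : Matrix (Fin 3) (Fin 3) F), h2, zero_smul]
  refine ⟨?_, hNN⟩
  have hle := Matrix.rank_add_rank_le_card_of_mul_eq_zero hNN
  simp only [Fintype.card_fin] at hle
  have hne : (M - 1).rank ≠ 0 := by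
    intro h0
    apply hX1
    apply Subtype.ext
    have hlin : (M - 1).mulVecLin = 0 :=
      LinearMap.range_eq_bot.mp (Submodule.finrank_eq_zero.mp h0)
    have : M - 1 = 0 :=
      (LinearEquiv.map_eq_zero_iff Matrix.toLin').mp (by rw [Matrix.toLin'_apply']; exact hlin)
    rw [Matrix.SpecialLinearGroup.coe_one]
    exact sub_eq_zero.mp this
  omega

/-- Any two elements of order 2 of PSL_3(4) are conjugate. -/
theorem result {F : Type*} [Field F] [Fintype F] (hF : Fintype.card F = 4) (x y : Matrix.ProjectiveSpecialLinearGroup (Fin 3) F) (hx : orderOf x = 2) (hy : orderOf y = 2) : IsConj x y := by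
  have h2 : (2 : F) = 0 := by
    have h4 : ((Fintype.card F : ℕ) : F) = 0 := Nat.cast_card_eq_zero F
    rw [hF] at h4
    have : (2 : F) * 2 = 0 := by
      have e : ((4 : ℕ) : F) = 2 * 2 := by norm_num
      rw [← e, h4]
    exact mul_self_eq_zero.mp this
  obtain ⟨X, rfl, hX⟩ := lift_invol h2 x hx
  obtain ⟨Y, rfl, hY⟩ := lift_invol h2 y hy
  have h : IsConj X Y := (conj_std X hX).trans (conj_std Y hY).symm
  exact (QuotientGroup.mk' _).map_isConj h

end Cfsg.Agent.S0820
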