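import Cfsg.Statements.S0822
import Cfsg.Agent.Lib.Helper18SU32b
import Cfsg.Agent.Lib.Helper17Heis
import Cfsg.Agent.Lib.Helper17UWitt
import Cfsg.Agent.Lib.Helper6Transport
import Cfsg.Agent.S0245
import Cfsg.Agent.S0246
import Cfsg.Agent.S0270
import Cfsg.Agent.S0280
import Cfsg.Agent.S0283
import Cfsg.Agent.S0779
import Cfsg.Agent.S0780
import Cfsg.Agent.Lib.Helper34U42

set_option autoImplicit false
open Cfsg

namespace Cfsg.Agent.S0822

open Matrix Cfsg.Agent.Lib.Helper18F4 Cfsg.Agent.Lib.Helper34U42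

/-! ### the two actions -/

theorem SU_pres (A : SUg) (u v : W1) : H (A.1.1 *ᵥ u) (A.1.1 *ᵥ v) = H u v := A.2 u v

theorem act1_one (x : Om) : act1 1 x = x := by
  unfold act1
  rw [Matrix.one_mulVec]; exact (U3 x).1

theorem act1_mul (A B : SUg) (x : Om) : act1 (A * B).1.1 x = act1 A.1.1 (act1 B.1.1 x) := by
  have hw : H (B.1.1 *ᵥ vecAt1 x) (B.1.1 *ᵥ vecAt1 x) ≠ 0 := by
    rw [SU_pres]; exact (U3 x).2
  obtain ⟨c, hc, hcw⟩ := U2 _ hw
  unfold act1
  rw [hcw, Matrix.mulVec_smul, U1 _ _ hc, Matrix.mulVec_mulVec]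
  rfl

def actEnd1 : SUg →* Function.End Om where
  toFun A := act1 A.1.1
  map_one' := funext act1_one
  map_mul' A B := funext (act1_mul A B)

def phi1 : SUg →* Equiv.Perm Om := MonoidHom.toHomPerm actEnd1

theorem phi1_apply (A : SUg) (x : Om) : phi1 A x = act1 A.1.1 x := rfl

theorem act2_one (x : Om) : act2 1 x = x := by
  unfold act2
  rw [Matrix.one_mulVec]; exact (S3 x).1

theorem mulVec_ne_zero (B : Spg) {v : W2} (hv : v ≠ 0) : B.1 *ᵥ v ≠ 0 := by
  intro h
  apply hv
  have h1 : (B⁻¹ * B : Spg).1 *ᵥ v = v := by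
    rw [inv_mul_cancel]; exact Matrix.one_mulVec v
  have h2 : (B⁻¹ * B : Spg).1 = (B⁻¹ : Spg).1 * B.1 := rfl
  rw [h2, ← Matrix.mulVec_mulVec, h, Matrix.mulVec_zero] at h1
  exact h1.symm

theorem act2_mul (A B : Spg) (x : Om) : act2 (A * B).1 x = act2 A.1 (act2 B.1 x) := by
  obtain ⟨c, hc, hcw⟩ := S2 _ (mulVec_ne_zero B (S3 x).2)
  unfold act2
  rw [hcw, Matrix.mulVec_smul, S1 _ _ hc, Matrix.mulVec_mulVec]
  rfl

def actEnd2 : Spg →* Function.End Om where
  toFun A := act2 A.1
  map_one' := funext act2_one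
  map_mul' A B := funext (act2_mul A B)

def phi2 : Spg →* Equiv.Perm Om := MonoidHom.toHomPerm actEnd2

theorem phi2_apply (A : Spg) (x : Om) : phi2 A x = act2 A.1 x := rfl

theorem hF4 : Fintype.card K4 = 2 ^ 2 := by rw [F4c.card]; norm_num

theorem c_cases : ∀ c : K4, (c = 0 ∨ c ^ (2 - 1) = -1) → c = 0 ∨ c = 1 := by decide

theorem gen_mem (A : SUg) (v : W1) (c : K4) (hv : H v v = 0)
    (hA : A.1.1 = Cfsg.unitaryTransvection 4 2 v c) : phi1 A ∈ phi2.range := by
  have key : ∀ v : W1, H v v = 0 → A.1.1 = Cfsg.unitaryTransvection 4 2 v 1 → phi1 A ∈ phi2.range := by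
    intro v hv hA
    obtain ⟨h1, h2⟩ := T_ok v hv
    refine ⟨⟨matOf (tabW.getD (code1 v) 0), ?_⟩, ?_⟩
    · rw [SymplecticGroup.mem_iff]; exact h1
    · ext1 x
      rw [phi2_apply, phi1_apply, ← h2 x]
      unfold act1
      rw [hA, Cfsg.Agent.Lib.Helper17Heis.unitaryTransvection_mulVec]
  have h0 : H (0 : W1) 0 = 0 := by decide +kernel
  by_cases hv0 : v = 0
  · apply key 0 h0
    rw [hA, hv0]
    simp [Cfsg.unitaryTransvection]
  · have hiso : ∀ x y : W1, H ((Cfsg.unitaryTransvection 4 2 v c).mulVec x)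
        ((Cfsg.unitaryTransvection 4 2 v c).mulVec y) = H x y := by
      intro x y
      rw [← hA]; exact SU_pres A x y
    rcases c_cases c ((Cfsg.Agent.S0779.result hF4 4 v hv0 hv c).1 hiso) with rfl | rfl
    · apply key 0 h0
      rw [hA]
      simp [Cfsg.unitaryTransvection]
    · exact key v hv hA

theorem range_le : phi1.range ≤ phi2.range := by
  rintro _ ⟨A, rfl⟩
  have hA : A ∈ Subgroup.closure {A : SUg | ∃ (v : W1) (c : K4), Cfsg.hermForm 4 K4 2 v v = 0 ∧
      ((A : Matrix.SpecialLinearGroup (Fin 4) K4) : Matrix (Fin 4) (Fin 4) K4) =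
        Cfsg.unitaryTransvection 4 2 v c} := by
    rw [Cfsg.Agent.S0780.result hF4 4 (by norm_num) (by norm_num)]; trivial
  induction hA using Subgroup.closure_induction with
  | mem A h =>
    obtain ⟨v, c, hv, hA⟩ := h
    exact gen_mem A v c hv hA
  | one => rw [map_one]; exact one_mem _
  | mul A B _ _ hA hB => rw [map_mul]; exact mul_mem hA hB
  | inv A _ hA => rw [map_inv]; exact inv_mem hA

/-- a transvection as an element of the special unitary group -/
def mkT (v : W1) (hv0 : v ≠ 0) (hv : H v v = 0) : SUg :=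
  ⟨⟨Cfsg.unitaryTransvection 4 2 v 1, by
    have hv' : Cfsg.hermForm 4 K4 2 v v = 0 := hv
    rw [Cfsg.Agent.Lib.Helper17UWitt.unitaryTransvection_det, hv', mul_zero, add_zero]⟩,
    (Cfsg.Agent.S0779.result hF4 4 v hv0 hv 1).2 (Or.inr (by decide))⟩

theorem ker_le_center {G G' : Type*} [Group G] [Group G'] (φ : G →* G')
    (hs : IsSimpleGroup (G ⧸ Subgroup.center G)) (a b : G) (hab : φ a * φ b ≠ φ b * φ a) :
    φ.ker ≤ Subgroup.center G := by
  have hn : (φ.ker.map (QuotientGroup.mk' (Subgroup.center G))).Normal :=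
    Subgroup.Normal.map inferInstance _ (QuotientGroup.mk'_surjective _)
  rcases hs.eq_bot_or_eq_top_of_normal _ hn with h | h
  · intro n hnk
    have h1 : QuotientGroup.mk' (Subgroup.center G) n ∈
        φ.ker.map (QuotientGroup.mk' (Subgroup.center G)) := Subgroup.mem_map_of_mem _ hnk
    rw [h, Subgroup.mem_bot] at h1
    exact (QuotientGroup.eq_one_iff n).1 h1
  · exfalso
    apply hab
    have h1 : QuotientGroup.mk' (Subgroup.center G) a ∈
        φ.ker.map (QuotientGroup.mk' (Subgroup.center G)) := by rw [h]; trivial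
    obtain ⟨n, hnk, hna⟩ := Subgroup.mem_map.1 h1
    have h2 : n⁻¹ * a ∈ Subgroup.center G := QuotientGroup.eq.1 hna
    have h3 : φ (n⁻¹ * a) = φ a := by
      rw [map_mul, map_inv, MonoidHom.mem_ker.1 hnk, inv_one, one_mul]
    rw [← h3, ← map_mul, ← map_mul, Subgroup.mem_center_iff.1 h2 b]

def v1 : W1 := vec1 80
def v2 : W1 := vec1 144

theorem v1_ok : v1 ≠ 0 ∧ H v1 v1 = 0 := by decide +kernel
theorem v2_ok : v2 ≠ 0 ∧ H v2 v2 = 0 := by decide +kernel

theorem noncomm : phi1 (mkT v1 v1_ok.1 v1_ok.2) * phi1 (mkT v2 v2_ok.1 v2_ok.2) ≠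
    phi1 (mkT v2 v2_ok.1 v2_ok.2) * phi1 (mkT v1 v1_ok.1 v1_ok.2) := by
  intro h
  have h1 := congrArg (fun f : Equiv.Perm Om => f 4) h
  simp only [Equiv.Perm.mul_apply, phi1_apply, mkT] at h1
  revert h1
  decide +kernel

theorem simple1 : IsSimpleGroup (Cfsg.PSU 4 K4 2) :=
  Cfsg.Agent.S0283.result hF4 4 (by norm_num) (by norm_num)

theorem simple2 : IsSimpleGroup (Cfsg.PSp 2 K3) :=
  Cfsg.Agent.S0270.result 2 le_rfl (fun _ => by rw [ZMod.card])

theorem ker1_le : phi1.ker ≤ Subgroup.center SUg := ker_le_center phi1 simple1 _ _ noncomm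

theorem ker2_le : phi2.ker ≤ Subgroup.center Spg := by
  obtain ⟨a, ha⟩ := range_le ⟨mkT v1 v1_ok.1 v1_ok.2, rfl⟩
  obtain ⟨b, hb⟩ := range_le ⟨mkT v2 v2_ok.1 v2_ok.2, rfl⟩
  exact ker_le_center phi2 simple2 a b (by rw [ha, hb]; exact noncomm)

def negOne : Spg := ⟨-1, SymplecticGroup.neg_mem (one_mem _)⟩

theorem negOne_mem : negOne ∈ phi2.ker := by
  rw [MonoidHom.mem_ker]
  ext1 x
  rw [phi2_apply]
  unfold act2 negOne
  rw [Matrix.neg_mulVec, Matrix.one_mulVec, ← neg_one_smul K3, S1 _ _ (by decide)]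
  exact (S3 x).1

theorem negOne_ne : negOne ≠ 1 := by
  intro h
  have h1 := congrArg (fun A : Spg => A.1 (.inl 0) (.inl 0)) h
  revert h1
  decide +kernel

theorem card_Sp : Nat.card Spg = 51840 := by
  rw [Cfsg.Agent.S0245.result (F := K3) (q := 3) (ZMod.card 3) 2]
  decide

theorem card_Z2 : Nat.card (Subgroup.center Spg) = 2 := by
  rw [Cfsg.Agent.S0246.result (F := K3) (q := 3) (ZMod.card 3) 2 (by norm_num)]
  decide

theorem ker2_eq : phi2.ker = Subgroup.center Spg := by
  have : Finite (Subgroup.center Spg) := Nat.finite_of_card_ne_zero (by rw [card_Z2]; norm_num)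
  apply Subgroup.eq_of_le_of_card_ge ker2_le
  rw [card_Z2]
  have h1 : phi2.ker ≠ ⊥ := by
    intro h
    have := negOne_mem
    rw [h, Subgroup.mem_bot] at this
    exact negOne_ne this
  have : Finite phi2.ker := Finite.of_injective (Subgroup.inclusion ker2_le)
    (Subgroup.inclusion_injective _)
  exact (Subgroup.one_lt_card_iff_ne_bot _).2 h1

theorem card_R2 : Nat.card phi2.range = 25920 := by
  have h := Subgroup.card_mul_index phi2.ker
  rw [Subgroup.index_ker, ker2_eq, card_Z2, card_Sp] at h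
  omega

theorem card_PSU : Nat.card (Cfsg.PSU 4 K4 2) = 25920 := by
  have h := Cfsg.Agent.S0280.result hF4 4 (by norm_num)
  have h1 : Nat.gcd 4 (2 + 1) = 1 := by decide
  have h2 : 2 ^ (4 * (4 - 1) / 2) * ∏ i ∈ Finset.range 4,
      (if Even i then 2 ^ (i + 1) + 1 else 2 ^ (i + 1) - 1) = 77760 := by decide
  rw [h1, h2] at h
  omega

theorem facts1 : phi1.ker = Subgroup.center SUg ∧ phi1.range = phi2.range := by
  have hfin : Finite SUg := inferInstance
  have h1 := Subgroup.card_mul_index phi1.ker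
  rw [Subgroup.index_ker] at h1
  have h2 := Subgroup.card_eq_card_quotient_mul_card_subgroup (Subgroup.center SUg)
  rw [card_PSU] at h2
  have h3 := Subgroup.card_le_of_le ker1_le
  have hfin2 : Finite phi2.range := Nat.finite_of_card_ne_zero (by rw [card_R2]; norm_num)
  have h4 := Subgroup.card_le_of_le range_le
  rw [card_R2] at h4
  have hpos : 0 < Nat.card phi1.ker := Nat.card_pos
  have h5 : Nat.card phi1.ker * Nat.card phi1.range ≤ Nat.card phi1.ker * 25920 :=
    Nat.mul_le_mul_left _ h4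
  have h6 : Nat.card (Subgroup.center SUg) ≤ Nat.card phi1.ker := by
    rw [h1, h2] at h5
    generalize Nat.card (Subgroup.center SUg) = z at *
    generalize Nat.card phi1.ker = k at *
    omega
  have h7 : phi1.ker = Subgroup.center SUg := Subgroup.eq_of_le_of_card_ge ker1_le h6
  refine ⟨h7, ?_⟩
  apply Subgroup.eq_of_le_of_card_ge range_le
  rw [card_R2]
  rw [h7, h2] at h1
  have hz : 0 < Nat.card (Subgroup.center SUg) := Nat.card_pos
  have h8 : Nat.card (Subgroup.center SUg) * Nat.card phi1.range =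
      Nat.card (Subgroup.center SUg) * 25920 := by rw [h1, mul_comm]
  exact (Nat.eq_of_mul_eq_mul_left hz h8).ge

theorem main : Nonempty (Cfsg.PSU 4 K4 2 ≃* Cfsg.PSp 2 K3) :=
  ⟨((QuotientGroup.quotientMulEquivOfEq facts1.1.symm).trans
    (QuotientGroup.quotientKerEquivRange phi1)).trans
    ((MulEquiv.subgroupCongr facts1.2).trans
    ((QuotientGroup.quotientKerEquivRange phi2).symm.trans
      (QuotientGroup.quotientMulEquivOfEq ker2_eq)))⟩

/-- a ring isomorphism induces an isomorphism of symplectic groups -/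
def spEq {l R S : Type*} [DecidableEq l] [Fintype l] [CommRing R] [CommRing S] (e : R ≃+* S) :
    Matrix.symplecticGroup l R ≃* Matrix.symplecticGroup l S where
  toFun A := ⟨A.1.map e, SymplecticGroup.map_mem A.2 e⟩
  invFun A := ⟨A.1.map e.symm, SymplecticGroup.map_mem A.2 e.symm⟩
  left_inv A := by
    apply Subtype.ext
    ext i j
    simp
  right_inv A := by
    apply Subtype.ext
    ext i j
    simp
  map_mul' A B := by
    apply Subtype.ext
    simp [Matrix.map_mul]

/-- PSU_4(2) ≅ PSp_4(3): with |F| = 4 and |K| = 3, the projective special unitary group of the standard Hermitian form on F^4 is isomorphic to PSp_4(K). -/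
theorem result {F K : Type*} [Field F] [Fintype F] [Field K] [Fintype K] (hF : Fintype.card F = 4) (hK : Fintype.card K = 3) : Nonempty (Cfsg.PSU 4 F 2 ≃* Cfsg.PSp 2 K) := by
  obtain ⟨e1⟩ := exists_ringEquiv hF
  have e2 : K ≃+* K3 := FiniteField.ringEquivOfCardEq (by rw [hK, ZMod.card])
  obtain ⟨f⟩ := main
  exact ⟨((Cfsg.Agent.Lib.Helper18SU32b.psuEquiv (by rw [hF]; norm_num) hF4 e1).trans f).trans
    (QuotientGroup.congr _ _ (spEq e2)
      (Cfsg.Agent.Lib.Helper6Transport.map_center_of_mulEquiv (spEq e2))).symm⟩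

end Cfsg.Agent.S0822
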