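import Cfsg.Statements.S0823
import Mathlib
import Cfsg.Agent.Lib.Helper18Transfer
import Cfsg.Agent.Lib.Helper7OOdd

set_option autoImplicit false
open Cfsg

namespace Cfsg.Agent.S0823

open Matrix

abbrev I := Unit ⊕ (Fin 1 ⊕ Fin 1)

abbrev V := I → ZMod 3

abbrev q0 : V → ZMod 3 := Cfsg.quadFormOdd 1 (ZMod 3)

abbrev G := ↥(Cfsg.isometryGroup (ZMod 3) q0)

def idx : I → Fin 3
  | Sum.inl _ => 0
  | Sum.inr (Sum.inl _) => 1
  | Sum.inr (Sum.inr _) => 2

def A : Matrix (Fin 4) I (ZMod 3) :=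
  Matrix.of fun i j => (![![0, 0, 1, 2], ![0, 1, 1, 1], ![2, 0, 2, 2]] : Fin 3 → Fin 4 → ZMod 3) (idx j) i

def C : Matrix I (Fin 4) (ZMod 3) :=
  Matrix.of fun j i => (![![0, 0, 2, 1], ![2, 0, 2, 2], ![0, 1, 1, 1]] : Fin 3 → Fin 4 → ZMod 3) (idx j) i

/-- the matrix of a permutation, twisted by the sign -/
def M (σ : Equiv.Perm (Fin 4)) : Matrix I I (ZMod 3) :=
  ((Equiv.Perm.sign σ : ℤ) : ZMod 3) • (C * (σ⁻¹).permMatrix (ZMod 3) * A)

set_option maxRecDepth 100000 in
theorem M_one : M 1 = 1 := by decide +kernel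

set_option maxRecDepth 100000 in
theorem M_mul : ∀ σ τ, M (σ * τ) = M σ * M τ := by decide +kernel

set_option maxRecDepth 100000 in
theorem M_pres : ∀ σ (v : V), q0 (M σ *ᵥ v) = q0 v := by decide +kernel

set_option maxRecDepth 100000 in
theorem M_det : ∀ σ, (M σ).det = 1 := by decide +kernel

set_option maxRecDepth 100000 in
theorem M_inj : ∀ σ, M σ = 1 → σ = 1 := by decide +kernel

set_option maxRecDepth 100000 in
theorem neg_pres : ∀ v : V, q0 ((-1 : Matrix I I (ZMod 3)) *ᵥ v) = q0 v := by decide +kernel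

set_option maxRecDepth 100000 in
theorem neg_det : (-1 : Matrix I I (ZMod 3)).det = -1 := by decide +kernel

def Mhom : Equiv.Perm (Fin 4) →* Matrix I I (ZMod 3) where
  toFun := M
  map_one' := M_one
  map_mul' := M_mul

def phi0 : Equiv.Perm (Fin 4) →* G :=
  (MonoidHom.toHomUnits Mhom).codRestrict _ (fun σ =>
    Cfsg.Agent.Lib.Helper18Transfer.mem_iso.2 (fun v => M_pres σ v))

def phi : Equiv.Perm (Fin 4) →* ↥(Cfsg.specialIsometryGroup (ZMod 3) q0) :=
  phi0.codRestrict _ (fun σ => by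
    unfold Cfsg.specialIsometryGroup
    rw [MonoidHom.mem_ker]
    apply Units.ext
    exact M_det σ)

theorem phi_injective : Function.Injective phi := by
  rw [injective_iff_map_eq_one]
  intro σ h
  apply M_inj
  have := congrArg (fun g : ↥(Cfsg.specialIsometryGroup (ZMod 3) q0) =>
    (((g : G) : Matrix.GeneralLinearGroup I (ZMod 3)) : Matrix I I (ZMod 3))) h
  exact this

def negG : G := ⟨⟨-1, -1, by simp, by simp⟩, Cfsg.Agent.Lib.Helper18Transfer.mem_iso.2 neg_pres⟩

theorem card_SO : Nat.card ↥(Cfsg.specialIsometryGroup (ZMod 3) q0) = 24 := by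
  have h1 := Cfsg.Agent.Lib.Helper7OOdd.card_isometryGroup_odd (F := ZMod 3) 1 (by
    rw [ZMod.card]; decide)
  simp only [ZMod.card, Finset.prod_range_succ, Finset.prod_range_zero] at h1
  norm_num at h1
  have h2 := Subgroup.card_mul_index (Cfsg.specialIsometryGroup (ZMod 3) q0)
  have h3 : (Cfsg.specialIsometryGroup (ZMod 3) q0).index = 2 := by
    unfold Cfsg.specialIsometryGroup
    rw [Subgroup.index_ker]
    have hs : Function.Surjective (Matrix.GeneralLinearGroup.det.comp
        (Cfsg.isometryGroup (ZMod 3) q0).subtype) := by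
      have hu : ∀ u : (ZMod 3)ˣ, u = 1 ∨ u = -1 := by decide
      intro u
      rcases hu u with rfl | rfl
      · exact ⟨1, map_one _⟩
      · refine ⟨negG, Units.ext ?_⟩
        exact neg_det
    rw [MonoidHom.range_eq_top.2 hs, Nat.card_congr (Subgroup.topEquiv).toEquiv,
      Nat.card_eq_fintype_card]
    rfl
  rw [h3] at h2
  have h4 : Nat.card ↥(Cfsg.specialIsometryGroup (ZMod 3) q0) * 2 = 48 := h2.trans h1
  omega

/-- SO_3(3) ≅ S_4: the determinant-one isometries of the form x_0² + x_1y_1 over the field with 3 elements form a group isomorphic to the symmetric group on 4 letters. -/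
theorem result {F : Type*} [Field F] [Fintype F] (hF : Fintype.card F = 3) : Nonempty (↥(Cfsg.specialIsometryGroup F (Cfsg.quadFormOdd 1 F)) ≃* Equiv.Perm (Fin 4)) := by
  obtain ⟨e⟩ := Cfsg.Agent.Lib.Helper18Transfer.exists_ringEquiv_zmod (F := F) 3 hF
  have E1 := Cfsg.Agent.Lib.Helper18Transfer.specialIsoEquiv e (Cfsg.quadFormOdd 1 F) q0 (by
    intro v
    simp [Cfsg.quadFormOdd])
  have hbij : Function.Bijective phi := by
    have : Finite ↥(Cfsg.specialIsometryGroup (ZMod 3) q0) := inferInstance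
    rw [Nat.bijective_iff_injective_and_card]
    refine ⟨phi_injective, ?_⟩
    rw [card_SO, Nat.card_eq_fintype_card, Fintype.card_perm]
    rfl
  exact ⟨E1.trans (MulEquiv.ofBijective phi hbij).symm⟩

end Cfsg.Agent.S0823
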