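import Cfsg.Statements.S0825
import Mathlib
import Cfsg.Agent.Lib.Helper18Transfer
import Cfsg.Agent.Lib.Helper7OPlus

set_option autoImplicit false
open Cfsg

namespace Cfsg.Agent.S0825

open Matrix

abbrev I := Fin 3 ⊕ Fin 3

abbrev V := I → ZMod 2

abbrev W := Fin 8 → ZMod 2

abbrev q0 : V → ZMod 2 := Cfsg.quadFormPlus 3 (ZMod 2)

def av : Fin 3 → W := ![![1, 1, 1, 1, 0, 0, 0, 0], ![1, 1, 0, 0, 0, 1, 1, 0], ![1, 0, 1, 0, 0, 0, 1, 1]]

def bv : Fin 3 → W := ![![1, 1, 1, 0, 1, 0, 0, 0], ![1, 1, 0, 0, 0, 1, 0, 1], ![1, 0, 0, 1, 1, 1, 0, 0]]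

def A : Matrix (Fin 8) I (ZMod 2) := Matrix.of fun i j => Sum.elim (fun k => av k i) (fun k => bv k i) j

def C : Matrix I (Fin 8) (ZMod 2) := Matrix.of fun j i => Sum.elim (fun k => bv k i) (fun k => av k i) j

def wt (y : W) : ℕ := (Finset.univ.filter (fun i => y i = 1)).card

set_option maxRecDepth 100000 in
theorem f1 : C * A = 1 := by decide +kernel

set_option maxRecDepth 100000 in
theorem f3 : C *ᵥ (1 : W) = 0 := by decide +kernel

set_option maxRecDepth 100000 in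
theorem f2 : ∀ y : W, ∑ i, y i = 0 → A *ᵥ (C *ᵥ y) = y ∨ A *ᵥ (C *ᵥ y) = y + 1 := by decide +kernel

set_option maxRecDepth 100000 in
theorem f4 : ∀ x : V, ∑ i, (A *ᵥ x) i = 0 ∧ (q0 x = 0 ↔ 4 ∣ wt (A *ᵥ x)) := by decide +kernel

set_option maxRecDepth 100000 in
theorem f5 : ∀ y : W, 4 ∣ wt (y + 1) ↔ 4 ∣ wt y := by decide +kernel

theorem wt_comp (y : W) (σ : Equiv.Perm (Fin 8)) : wt (y ∘ σ) = wt y := by
  unfold wt
  exact Finset.card_equiv σ (by intro i; simp)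

theorem sum_comp (y : W) (σ : Equiv.Perm (Fin 8)) : ∑ i, (y ∘ σ) i = ∑ i, y i :=
  Equiv.sum_comp σ y

/-- the matrix of a permutation on the six-dimensional space -/
def M (σ : Equiv.Perm (Fin 8)) : Matrix I I (ZMod 2) := C * (σ⁻¹).permMatrix (ZMod 2) * A

theorem M_mulVec (σ : Equiv.Perm (Fin 8)) (x : V) : M σ *ᵥ x = C *ᵥ ((A *ᵥ x) ∘ ⇑σ⁻¹) := by
  unfold M
  rw [← Matrix.mulVec_mulVec, ← Matrix.mulVec_mulVec, Matrix.permMatrix_mulVec]

theorem C_AC (y : W) (hy : ∑ i, y i = 0) (σ : Equiv.Perm (Fin 8)) :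
    C *ᵥ ((A *ᵥ (C *ᵥ y)) ∘ ⇑σ) = C *ᵥ (y ∘ ⇑σ) := by
  rcases f2 y hy with h | h
  · rw [h]
  · rw [h]
    have : (y + 1) ∘ ⇑σ = y ∘ ⇑σ + 1 := by funext i; simp
    rw [this, Matrix.mulVec_add, f3, add_zero]

theorem M_one : M 1 = 1 := by
  unfold M
  rw [inv_one, Matrix.permMatrix_one, Matrix.mul_one, f1]

theorem M_mul (σ τ : Equiv.Perm (Fin 8)) : M (σ * τ) = M σ * M τ := by
  apply Matrix.mulVec_injective
  funext x
  rw [← Matrix.mulVec_mulVec, M_mulVec, M_mulVec, M_mulVec,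
    C_AC _ (by rw [sum_comp]; exact (f4 x).1)]
  congr 1

/-- as a monoid homomorphism -/
def Mhom : Equiv.Perm (Fin 8) →* Matrix I I (ZMod 2) where
  toFun := M
  map_one' := M_one
  map_mul' := M_mul

theorem M_pres (σ : Equiv.Perm (Fin 8)) (x : V) : q0 (M σ *ᵥ x) = q0 x := by
  have key : q0 (M σ *ᵥ x) = 0 ↔ q0 x = 0 := by
    rw [(f4 x).2, (f4 _).2, M_mulVec]
    have hy : ∑ i, ((A *ᵥ x) ∘ ⇑σ⁻¹) i = 0 := by rw [sum_comp]; exact (f4 x).1
    rcases f2 _ hy with h | h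
    · rw [h, wt_comp]
    · rw [h, f5, wt_comp]
  have h2 : ∀ a b : ZMod 2, (a = 0 ↔ b = 0) → a = b := by decide
  exact h2 _ _ key

/-- the homomorphism into the isometry group -/
def Phi : Equiv.Perm (Fin 8) →* ↥(Cfsg.isometryGroup (ZMod 2) q0) :=
  (MonoidHom.toHomUnits Mhom).codRestrict _ (fun σ =>
    Cfsg.Agent.Lib.Helper18Transfer.mem_iso.2 (fun v => M_pres σ v))

set_option maxRecDepth 100000 in
theorem M_cycle : M (Equiv.swap 0 1 * Equiv.swap 1 2) ≠ 1 := by decide +kernel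

theorem Phi_injective : Function.Injective Phi := by
  rw [← MonoidHom.ker_eq_bot_iff]
  by_contra hne
  have hnt : Nontrivial Phi.ker := (Subgroup.nontrivial_iff_ne_bot _).2 hne
  have hle := Equiv.Perm.alternatingGroup_le_of_normal (α := Fin 8) (by simp) hnt
  have hc : (Equiv.swap 0 1 * Equiv.swap 1 2 : Equiv.Perm (Fin 8)) ∈ alternatingGroup (Fin 8) := by
    rw [Equiv.Perm.mem_alternatingGroup]
    decide
  have h1 := hle hc
  rw [MonoidHom.mem_ker] at h1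
  apply M_cycle
  have h2 := congrArg (fun g : ↥(Cfsg.isometryGroup (ZMod 2) q0) =>
    ((g : Matrix.GeneralLinearGroup I (ZMod 2)) : Matrix I I (ZMod 2))) h1
  exact h2

theorem Phi_bijective : Function.Bijective Phi := by
  have : Finite ↥(Cfsg.isometryGroup (ZMod 2) q0) := inferInstance
  rw [Nat.bijective_iff_injective_and_card]
  refine ⟨Phi_injective, ?_⟩
  rw [Cfsg.Agent.Lib.Helper7OPlus.card_isometryGroup_plus 3 (by norm_num)]
  simp [Finset.prod_range_succ, Nat.card_eq_fintype_card, Fintype.card_perm, ZMod.card]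
  decide

/-- O⁺_6(2) ≅ S_8: the isometry group of the hyperbolic form x_1y_1 + x_2y_2 + x_3y_3 over the field with 2 elements is isomorphic to the symmetric group on 8 letters. -/
theorem result {F : Type*} [Field F] [Fintype F] (hF : Fintype.card F = 2) : Nonempty (↥(Cfsg.isometryGroup F (Cfsg.quadFormPlus 3 F)) ≃* Equiv.Perm (Fin 8)) := by
  have : Fact (Nat.Prime 2) := ⟨Nat.prime_two⟩
  obtain ⟨e⟩ := Cfsg.Agent.Lib.Helper18Transfer.exists_ringEquiv_zmod (F := F) 2 hF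
  have E1 := Cfsg.Agent.Lib.Helper18Transfer.isoEquiv e (Cfsg.quadFormPlus 3 F) q0 (by
    intro v
    simp [Cfsg.quadFormPlus])
  exact ⟨E1.trans (MulEquiv.ofBijective Phi Phi_bijective).symm⟩

end Cfsg.Agent.S0825
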