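import Cfsg.Statements.S0826
import Mathlib

set_option autoImplicit false
open Cfsg

namespace Cfsg.Agent.S0826

open Matrix

variable {r : ℕ}

/-- the permuted points -/
abbrev X (r : ℕ) := (Fin r ⊕ Fin r) ⊕ Fin 2

def a (k : Fin r) : X r → ZMod 2
  | Sum.inl (Sum.inl m) => if m = k then 1 else 0
  | Sum.inl (Sum.inr m) => if m = k then 1 else 0
  | Sum.inr _ => 0

def b (k : Fin r) : X r → ZMod 2
  | Sum.inl (Sum.inl m) => if k < m then 1 else 0
  | Sum.inl (Sum.inr m) => if k ≤ m then 1 else 0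
  | Sum.inr i => if i = 0 then 1 else 0

theorem a_ll (k m : Fin r) : a k (Sum.inl (Sum.inl m)) = if m = k then 1 else 0 := rfl
theorem a_lr (k m : Fin r) : a k (Sum.inl (Sum.inr m)) = if m = k then 1 else 0 := rfl
theorem a_r (k : Fin r) (i : Fin 2) : a k (Sum.inr i) = 0 := rfl
theorem b_ll (k m : Fin r) : b k (Sum.inl (Sum.inl m)) = if k < m then 1 else 0 := rfl
theorem b_lr (k m : Fin r) : b k (Sum.inl (Sum.inr m)) = if k ≤ m then 1 else 0 := rfl
theorem b_r0 (k : Fin r) : b k (Sum.inr 0) = 1 := rfl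
theorem b_r1 (k : Fin r) : b k (Sum.inr 1) = 0 := rfl

def A (r : ℕ) : Matrix (X r) (Fin r ⊕ Fin r) (ZMod 2) :=
  Matrix.of fun x j => Sum.elim (fun k => a k x) (fun k => b k x) j

theorem two_add (s : ZMod 2) : s + s = 0 := CharTwo.add_self_eq_zero s

theorem ind_add (k m : Fin r) :
    ((if k < m then 1 else 0 : ZMod 2) + (if k ≤ m then 1 else 0)) = if m = k then 1 else 0 := by
  rcases lt_trichotomy k m with h | h | h
  · rw [if_pos h, if_pos h.le, if_neg h.ne']; decide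
  · subst h; simp
  · rw [if_neg h.not_gt, if_neg h.not_ge, if_neg h.ne]; decide

theorem sum_b (k : Fin r) (z : Fin r → ZMod 2) :
    (∑ m, (if k < m then 1 else 0 : ZMod 2) * z m) + (∑ m, (if k ≤ m then 1 else 0 : ZMod 2) * z m)
      = z k := by
  rw [← Finset.sum_add_distrib]
  simp_rw [← add_mul, ind_add]
  simp

theorem sumX (f : X r → ZMod 2) : ∑ x, f x = (∑ m, f (Sum.inl (Sum.inl m)))
    + (∑ m, f (Sum.inl (Sum.inr m))) + f (Sum.inr 0) + f (Sum.inr 1) := by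
  simp [Fintype.sum_sum_type, add_assoc]

theorem dot_a (k : Fin r) (z : X r → ZMod 2) :
    ∑ x, a k x * z x = z (Sum.inl (Sum.inl k)) + z (Sum.inl (Sum.inr k)) := by
  rw [sumX]
  simp only [a_ll, a_lr, a_r, ite_mul, one_mul, zero_mul, Finset.sum_ite_eq', Finset.mem_univ,
    if_true, add_zero]

theorem dot_b (k : Fin r) (z : X r → ZMod 2) :
    ∑ x, b k x * z x = (∑ m, (if k < m then 1 else 0 : ZMod 2) * z (Sum.inl (Sum.inl m)))
      + (∑ m, (if k ≤ m then 1 else 0 : ZMod 2) * z (Sum.inl (Sum.inr m))) + z (Sum.inr 0) := by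
  rw [sumX]
  simp only [b_ll, b_lr, b_r0, b_r1, one_mul, zero_mul, add_zero]

theorem dot_aa (k j : Fin r) : ∑ x, a k x * a j x = 0 := by
  rw [dot_a, a_ll, a_lr, two_add]

theorem dot_ab (k j : Fin r) : ∑ x, a k x * b j x = if k = j then 1 else 0 := by
  rw [dot_a, b_ll, b_lr, ind_add]

theorem dot_ba (k j : Fin r) : ∑ x, b k x * a j x = if k = j then 1 else 0 := by
  simp_rw [mul_comm (b k _)]
  rw [dot_ab]
  simp only [eq_comm]

theorem dot_bb (k j : Fin r) : ∑ x, b k x * b j x = 0 := by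
  rw [dot_b, b_r0]
  simp only [b_ll, b_lr]
  have h1 : ∀ m : Fin r, (if j ≤ m then 1 else 0 : ZMod 2)
      = (if j < m then 1 else 0) + (if m = j then 1 else 0) := by
    intro m
    rw [← ind_add j m, ← add_assoc, two_add, zero_add]
  simp_rw [h1, mul_add, Finset.sum_add_distrib]
  rw [← add_assoc, sum_b k (fun m => if j < m then 1 else 0)]
  simp only [mul_ite, mul_one, mul_zero, Finset.sum_ite_eq', Finset.mem_univ, if_true]
  rcases lt_or_ge j k with h | h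
  · rw [if_pos h, if_neg h.not_ge]; decide
  · rw [if_neg h.not_gt, if_pos h]; decide

theorem g1 : (A r)ᵀ * A r = J (Fin r) (ZMod 2) := by
  ext i j
  rw [Matrix.mul_apply]
  rcases i with k | k <;> rcases j with j | j
  · simp only [Matrix.transpose_apply, A, Matrix.of_apply, Sum.elim_inl]
    rw [dot_aa]; simp [Matrix.J]
  · simp only [Matrix.transpose_apply, A, Matrix.of_apply, Sum.elim_inl, Sum.elim_inr]
    rw [dot_ab]; simp [Matrix.J, Matrix.one_apply]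
  · simp only [Matrix.transpose_apply, A, Matrix.of_apply, Sum.elim_inl, Sum.elim_inr]
    rw [dot_ba]; simp [Matrix.J, Matrix.one_apply]
  · simp only [Matrix.transpose_apply, A, Matrix.of_apply, Sum.elim_inr]
    rw [dot_bb]; simp [Matrix.J]

theorem At_mulVec_inl (z : X r → ZMod 2) (k : Fin r) :
    ((A r)ᵀ *ᵥ z) (Sum.inl k) = ∑ x, a k x * z x := rfl

theorem At_mulVec_inr (z : X r → ZMod 2) (k : Fin r) :
    ((A r)ᵀ *ᵥ z) (Sum.inr k) = ∑ x, b k x * z x := rfl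

theorem g2 : (A r)ᵀ *ᵥ (1 : X r → ZMod 2) = 0 := by
  funext i
  rcases i with k | k
  · rw [At_mulVec_inl, dot_a]; simp [two_add]
  · rw [At_mulVec_inr, dot_b]
    have := sum_b k (fun _ => 1)
    simp only [Pi.one_apply, Pi.zero_apply]
    rw [this]; decide

theorem g3 (z : X r → ZMod 2) (h1 : (A r)ᵀ *ᵥ z = 0) (h2 : ∑ x, z x = 0) : z = 0 ∨ z = 1 := by
  have e : ∀ s t : ZMod 2, s + t = 0 → s = t := by decide
  have ha : ∀ k, z (Sum.inl (Sum.inl k)) = z (Sum.inl (Sum.inr k)) := by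
    intro k
    have := congrFun h1 (Sum.inl k)
    rw [At_mulVec_inl, dot_a] at this
    exact e _ _ this
  have hb : ∀ k, z (Sum.inl (Sum.inr k)) = z (Sum.inr 0) := by
    intro k
    have := congrFun h1 (Sum.inr k)
    rw [At_mulVec_inr, dot_b] at this
    simp_rw [ha] at this
    rw [sum_b k (fun m => z (Sum.inl (Sum.inr m)))] at this
    exact e _ _ this
  have hc : z (Sum.inr 0) = z (Sum.inr 1) := by
    rw [sumX] at h2
    simp_rw [ha] at h2
    rw [two_add, zero_add] at h2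
    exact e _ _ h2
  have hall : ∀ x, z x = z (Sum.inr 0) := by
    rintro ((k | k) | i)
    · rw [ha, hb]
    · rw [hb]
    · fin_cases i
      · rfl
      · exact hc.symm
  have e2 : ∀ s : ZMod 2, s = 0 ∨ s = 1 := by decide
  rcases e2 (z (Sum.inr 0)) with h | h
  · left; funext x; rw [hall, h]; rfl
  · right; funext x; rw [hall, h]; rfl

def C (r : ℕ) : Matrix (Fin r ⊕ Fin r) (X r) (ZMod 2) := (J (Fin r) (ZMod 2))ᵀ * (A r)ᵀ

theorem JtJ : (J (Fin r) (ZMod 2))ᵀ * J (Fin r) (ZMod 2) = 1 := by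
  rw [J_transpose, Matrix.neg_mul, J_squared, neg_neg]

theorem JJt : J (Fin r) (ZMod 2) * (J (Fin r) (ZMod 2))ᵀ = 1 := by
  rw [J_transpose, Matrix.mul_neg, J_squared, neg_neg]

theorem f1 : C r * A r = 1 := by
  unfold C
  rw [Matrix.mul_assoc, g1, JtJ]

theorem f3 : C r *ᵥ (1 : X r → ZMod 2) = 0 := by
  unfold C
  rw [← Matrix.mulVec_mulVec, g2, Matrix.mulVec_zero]

theorem sum_eq_dot (y : X r → ZMod 2) : ∑ i, y i = (1 : X r → ZMod 2) ⬝ᵥ y := by
  simp [dotProduct]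

theorem sum_A (x : Fin r ⊕ Fin r → ZMod 2) : ∑ i, (A r *ᵥ x) i = 0 := by
  rw [sum_eq_dot, Matrix.dotProduct_mulVec, ← Matrix.mulVec_transpose, g2, zero_dotProduct]

theorem f2 (y : X r → ZMod 2) (hy : ∑ i, y i = 0) :
    A r *ᵥ (C r *ᵥ y) = y ∨ A r *ᵥ (C r *ᵥ y) = y + 1 := by
  have h := g3 (A r *ᵥ (C r *ᵥ y) - y) (by
    rw [Matrix.mulVec_sub, Matrix.mulVec_mulVec, g1]
    unfold C
    rw [Matrix.mulVec_mulVec, ← Matrix.mul_assoc, JJt, Matrix.one_mul, sub_self]) (by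
    simp only [Pi.sub_apply, Finset.sum_sub_distrib]
    rw [sum_A, hy, sub_zero])
  rcases h with h | h
  · left; exact sub_eq_zero.1 h
  · right; rw [← h]; abel

theorem form_A (x x' : Fin r ⊕ Fin r → ZMod 2) :
    (A r *ᵥ x) ⬝ᵥ (A r *ᵥ x') = x ⬝ᵥ (J (Fin r) (ZMod 2) *ᵥ x') := by
  rw [Matrix.dotProduct_mulVec, Matrix.vecMul_mulVec, ← Matrix.dotProduct_mulVec, g1]

theorem sum_comp (y : X r → ZMod 2) (σ : Equiv.Perm (X r)) : ∑ i, (y ∘ σ) i = ∑ i, y i :=
  Equiv.sum_comp σ y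

theorem dot_comp (y y' : X r → ZMod 2) (σ : Equiv.Perm (X r)) :
    (y ∘ σ) ⬝ᵥ (y' ∘ σ) = y ⬝ᵥ y' :=
  Equiv.sum_comp σ (fun i => y i * y' i)

/-- the matrix of a permutation -/
def M (σ : Equiv.Perm (X r)) : Matrix (Fin r ⊕ Fin r) (Fin r ⊕ Fin r) (ZMod 2) :=
  C r * (σ⁻¹).permMatrix (ZMod 2) * A r

theorem M_mulVec (σ : Equiv.Perm (X r)) (x : Fin r ⊕ Fin r → ZMod 2) :
    M σ *ᵥ x = C r *ᵥ ((A r *ᵥ x) ∘ ⇑σ⁻¹) := by
  unfold M
  rw [← Matrix.mulVec_mulVec, ← Matrix.mulVec_mulVec, Matrix.permMatrix_mulVec]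

theorem C_AC (y : X r → ZMod 2) (hy : ∑ i, y i = 0) (σ : Equiv.Perm (X r)) :
    C r *ᵥ ((A r *ᵥ (C r *ᵥ y)) ∘ ⇑σ) = C r *ᵥ (y ∘ ⇑σ) := by
  rcases f2 y hy with h | h
  · rw [h]
  · rw [h]
    have : (y + 1) ∘ ⇑σ = y ∘ ⇑σ + 1 := by funext i; simp
    rw [this, Matrix.mulVec_add, f3, add_zero]

theorem M_one : M (1 : Equiv.Perm (X r)) = 1 := by
  unfold M
  rw [inv_one, Matrix.permMatrix_one, Matrix.mul_one, f1]

theorem M_mul (σ τ : Equiv.Perm (X r)) : M (σ * τ) = M σ * M τ := by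
  apply Matrix.mulVec_injective
  funext x
  rw [← Matrix.mulVec_mulVec, M_mulVec, M_mulVec, M_mulVec,
    C_AC _ (by rw [sum_comp]; exact sum_A x)]
  congr 1

/-- as a monoid homomorphism -/
def Mhom : Equiv.Perm (X r) →* Matrix (Fin r ⊕ Fin r) (Fin r ⊕ Fin r) (ZMod 2) where
  toFun := M
  map_one' := M_one
  map_mul' := M_mul

theorem one_dot_one : (1 : X r → ZMod 2) ⬝ᵥ 1 = 0 := by
  rw [← sum_eq_dot, sumX]
  simp only [Pi.one_apply]
  rw [two_add]; decide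

theorem dot_AC (y y' : X r → ZMod 2) (hy : ∑ i, y i = 0) (hy' : ∑ i, y' i = 0) :
    (A r *ᵥ (C r *ᵥ y)) ⬝ᵥ (A r *ᵥ (C r *ᵥ y')) = y ⬝ᵥ y' := by
  have h1 : (1 : X r → ZMod 2) ⬝ᵥ y' = 0 := by rw [← sum_eq_dot, hy']
  have h2 : y ⬝ᵥ (1 : X r → ZMod 2) = 0 := by rw [dotProduct_comm, ← sum_eq_dot, hy]
  rcases f2 y hy with h | h <;> rcases f2 y' hy' with h' | h' <;> rw [h, h'] <;>
    simp only [add_dotProduct, dotProduct_add, h1, h2, one_dot_one, add_zero]

theorem M_form (σ : Equiv.Perm (X r)) (x x' : Fin r ⊕ Fin r → ZMod 2) :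
    (M σ *ᵥ x) ⬝ᵥ (J (Fin r) (ZMod 2) *ᵥ (M σ *ᵥ x')) = x ⬝ᵥ (J (Fin r) (ZMod 2) *ᵥ x') := by
  rw [← form_A, M_mulVec, M_mulVec, dot_AC _ _ (by rw [sum_comp]; exact sum_A x)
    (by rw [sum_comp]; exact sum_A x'), dot_comp, form_A]

theorem M_mem (σ : Equiv.Perm (X r)) : M σ ∈ Matrix.symplecticGroup (Fin r) (ZMod 2) := by
  rw [SymplecticGroup.mem_iff']
  apply Matrix.toBilin'.injective
  apply LinearMap.ext₂
  intro x x'
  rw [Matrix.toBilin'_apply', Matrix.toBilin'_apply', ← M_form σ x x', ← Matrix.mulVec_mulVec,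
    ← Matrix.mulVec_mulVec, Matrix.dotProduct_mulVec x, Matrix.vecMul_transpose]

/-- the homomorphism to the symplectic group -/
def Phi : Equiv.Perm (X r) →* Matrix.symplecticGroup (Fin r) (ZMod 2) :=
  Mhom.codRestrict _ M_mem

theorem Jt_inr (w : Fin r ⊕ Fin r → ZMod 2) (k : Fin r) :
    ((J (Fin r) (ZMod 2))ᵀ *ᵥ w) (Sum.inr k) = - w (Sum.inl k) := by
  simp [Matrix.J, Matrix.mulVec, dotProduct, Fintype.sum_sum_type, Matrix.one_apply]

theorem Phi_injective (hr : 2 ≤ r) : Function.Injective (Phi (r := r)) := by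
  rw [← MonoidHom.ker_eq_bot_iff]
  by_contra hne
  have hnt : Nontrivial (Phi (r := r)).ker := (Subgroup.nontrivial_iff_ne_bot _).2 hne
  have hle := Equiv.Perm.alternatingGroup_le_of_normal (α := X r) (by
    rw [Nat.card_eq_fintype_card]; simp; omega) hnt
  let k0 : Fin r := ⟨0, by omega⟩
  let p : X r := Sum.inl (Sum.inl k0)
  let c : Equiv.Perm (X r) := Equiv.swap p (Sum.inr 1) * Equiv.swap (Sum.inr 1) (Sum.inr 0)
  have hc : c ∈ alternatingGroup (X r) := by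
    rw [Equiv.Perm.mem_alternatingGroup, map_mul, Equiv.Perm.sign_swap (by simp [p]),
      Equiv.Perm.sign_swap (by simp)]
    rfl
  have h1 := hle hc
  rw [MonoidHom.mem_ker] at h1
  have h2 : M c = 1 := congrArg Subtype.val h1
  have h3 := congrFun (congrArg (fun N => N *ᵥ (Pi.single (Sum.inl k0) 1 : Fin r ⊕ Fin r → ZMod 2)) h2)
    (Sum.inr k0)
  simp only [Matrix.one_mulVec] at h3
  rw [M_mulVec] at h3
  have h4 : A r *ᵥ (Pi.single (Sum.inl k0) 1 : Fin r ⊕ Fin r → ZMod 2) = a k0 := by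
    funext x
    simp [A]
  rw [h4] at h3
  unfold C at h3
  rw [← Matrix.mulVec_mulVec, Jt_inr, At_mulVec_inl, dot_a] at h3
  have hci : c⁻¹ = Equiv.swap (Sum.inr 1) (Sum.inr 0) * Equiv.swap p (Sum.inr 1) := by
    simp only [c, _root_.mul_inv_rev, Equiv.swap_inv]
  have e1 : c⁻¹ (Sum.inl (Sum.inl k0)) = Sum.inr 0 := by
    rw [hci, Equiv.Perm.mul_apply, Equiv.swap_apply_left, Equiv.swap_apply_left]
  have e2 : c⁻¹ (Sum.inl (Sum.inr k0)) = Sum.inl (Sum.inr k0) := by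
    have e3 : Equiv.swap p (Sum.inr 1) (Sum.inl (Sum.inr k0)) = Sum.inl (Sum.inr k0) :=
      Equiv.swap_apply_of_ne_of_ne (by simp [p]) (by simp)
    rw [hci, Equiv.Perm.mul_apply, e3, Equiv.swap_apply_of_ne_of_ne (by simp) (by simp)]
  simp only [Function.comp_apply, e1, e2, a_r, a_lr, if_true, zero_add] at h3
  simp at h3

/-- S_2n ≤ Sp_(2n−2)(2) for n ≥ 3: there is an injective homomorphism from the symmetric group on 2n letters into the symplectic group of degree 2n − 2 over the field with two elements. -/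
theorem result (n : ℕ) (hn : 3 ≤ n) : ∃ f : Equiv.Perm (Fin (2 * n)) →* Matrix.symplecticGroup (Fin (n - 1)) (ZMod 2), Function.Injective f := by
  obtain ⟨r, rfl⟩ : ∃ r, n = r + 1 := ⟨n - 1, by omega⟩
  have e : Fin (2 * (r + 1)) ≃ X r := Fintype.equivOfCardEq (by simp; omega)
  refine ⟨(Phi (r := r)).comp e.permCongrHom.toMonoidHom, ?_⟩
  exact (Phi_injective (by omega)).comp e.permCongrHom.injective

end Cfsg.Agent.S0826
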