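import Cfsg.Statements.S0828
import Mathlib
import Cfsg.Agent.Lib.Helper18Count

set_option autoImplicit false
open Cfsg

namespace Cfsg.Agent.S0828

theorem arith1 (q : ℕ) (hq : 2 ≤ q) : q ^ 3 - q = (q + 1) * (q ^ 2 - q) := by
  obtain ⟨k, rfl⟩ : ∃ k, q = k + 2 := ⟨q - 2, by omega⟩
  have e1 : (k + 2) ^ 3 = (k+2) + (k + 2 + 1) * ((k+2) * (k+1)) := by ring
  have e2 : (k + 2) ^ 2 = (k+2) + ((k+2) * (k+1)) := by ring
  rw [e1, e2, Nat.add_sub_cancel_left, Nat.add_sub_cancel_left]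

theorem arith2 (q : ℕ) (hq : 2 ≤ q) :
    (q ^ 4 - 1) * (q + 1) = ((q + 1) * (q ^ 2 + 1)) * (q ^ 2 - 1) := by
  obtain ⟨k, rfl⟩ : ∃ k, q = k + 2 := ⟨q - 2, by omega⟩
  have e1 : (k + 2) ^ 4 = 1 + ((k + 2)^2 + 1) * ((k+3) * (k+1)) := by ring
  have e2 : (k + 2) ^ 2 = 1 + ((k+3) * (k+1)) := by ring
  rw [e1, Nat.add_sub_cancel_left]
  conv_rhs => rw [e2, Nat.add_sub_cancel_left]
  ring

open Cfsg.Agent.Lib.Helper18Count in
theorem aux {F : Type*} [Field F] [Fintype F] :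
    let q := Fintype.card F
    (∀ v : Fin 2 ⊕ Fin 2 → F, v ≠ 0 → Nat.card {W : Submodule F (Fin 2 ⊕ Fin 2 → F) // Module.finrank F W = 2 ∧ v ∈ W ∧ TI (Cfsg.sympForm 2 F) W} = q + 1) := by
  classical
  intro q v hv
  set B : LinearMap.BilinForm F (Fin 2 ⊕ Fin 2 → F) := Matrix.toBilin' (Matrix.J (Fin 2) F) with hB
  have hfB : ∀ u w, Cfsg.sympForm 2 F u w = B u w := by
    intro u w
    rw [hB, Matrix.toBilin'_apply']
    rfl
  have hq : 2 ≤ q := Fintype.one_lt_card
  have halt : ∀ u, Cfsg.sympForm 2 F u u = 0 := by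
    intro u
    simp [Cfsg.sympForm, Matrix.J, dotProduct, Matrix.mulVec, Fintype.sum_sum_type, Matrix.fromBlocks, Matrix.one_apply]
    ring
  have hskew : ∀ u w, Cfsg.sympForm 2 F u w = - Cfsg.sympForm 2 F w u := by
    intro u w
    simp [Cfsg.sympForm, Matrix.J, dotProduct, Matrix.mulVec, Fintype.sum_sum_type, Matrix.fromBlocks, Matrix.one_apply]
    ring
  have hne : B v ≠ 0 := by
    intro h0
    apply hv
    have h1 : ∀ w, Cfsg.sympForm 2 F v w = 0 := by
      intro w; rw [hfB, h0]; rfl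
    funext i
    have a1 := h1 (Pi.single (Sum.inl 0) 1)
    have a2 := h1 (Pi.single (Sum.inl 1) 1)
    have a3 := h1 (Pi.single (Sum.inr 0) 1)
    have a4 := h1 (Pi.single (Sum.inr 1) 1)
    simp [Cfsg.sympForm, Matrix.J, dotProduct, Matrix.mulVec, Fintype.sum_sum_type, Matrix.fromBlocks, Matrix.one_apply, Pi.single_apply] at a1 a2 a3 a4
    rcases i with i | i <;> fin_cases i <;> simp [*]
  have key := card_through (Cfsg.sympForm 2 F) (fun v w => ti_span_pair _ id
    (by intro u u' v; simp [hfB]) (by intro u u' v; simp [hfB]) (by intro u u' v; simp [hfB])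
    (by intro u u' v; simp [hfB]) v w) v hv (halt v)
  have hker := Module.Dual.finrank_ker_add_one_of_ne_zero hne
  have hdim : Module.finrank F (Fin 2 ⊕ Fin 2 → F) = 4 := by simp
  have hle : Submodule.span F {v} ≤ LinearMap.ker (B v) := by
    rw [Submodule.span_le]
    intro x hx
    simp only [Set.mem_singleton_iff] at hx
    subst hx
    simp only [SetLike.mem_coe, LinearMap.mem_ker]
    rw [← hfB]; exact halt x
  have hcnt := card_filter_diff (LinearMap.ker (B v)) (Submodule.span F {v}) hle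
  rw [finrank_span_singleton hv, show Module.finrank F (LinearMap.ker (B v)) = 3 by omega, pow_one] at hcnt
  have hcnt2 : Nat.card {w : Fin 2 ⊕ Fin 2 → F // w ∉ Submodule.span F {v} ∧ Cfsg.sympForm 2 F v w = 0 ∧ Cfsg.sympForm 2 F w v = 0 ∧ Cfsg.sympForm 2 F w w = 0} = q ^ 3 - q := by
    rw [← hcnt, Nat.card_eq_fintype_card, Fintype.card_subtype]
    congr 1
    ext w
    simp only [Finset.mem_filter, Finset.mem_univ, true_and, LinearMap.mem_ker, ← hfB]
    constructor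
    · rintro ⟨h1, h2, -⟩; exact ⟨h2, h1⟩
    · rintro ⟨h1, h2⟩; exact ⟨h2, h1, by rw [hskew, h1, neg_zero], halt w⟩
  rw [hcnt2] at key
  have h3 : q ^ 3 - q = (q + 1) * (q ^ 2 - q) := arith1 q hq
  rw [h3] at key
  have hpos : 0 < q ^ 2 - q := by
    have : q < q ^ 2 := by nlinarith
    omega
  exact Nat.eq_of_mul_eq_mul_right hpos key

/-- The symplectic generalised quadrangle over a field with q elements: the number of 2-dimensional subspaces of F^4 on which the symplectic form vanishes is (q + 1)(q² + 1), and every non-zero vector lies in exactly q + 1 of them. -/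
theorem result {F : Type*} [Field F] [Fintype F] {q : ℕ} (hF : Fintype.card F = q) : Nat.card {W : Submodule F (Fin 2 ⊕ Fin 2 → F) // Module.finrank F W = 2 ∧ ∀ u ∈ W, ∀ v ∈ W, Cfsg.sympForm 2 F u v = 0} = (q + 1) * (q ^ 2 + 1) ∧ ∀ v : Fin 2 ⊕ Fin 2 → F, v ≠ 0 → Nat.card {W : Submodule F (Fin 2 ⊕ Fin 2 → F) // Module.finrank F W = 2 ∧ v ∈ W ∧ ∀ u ∈ W, ∀ w ∈ W, Cfsg.sympForm 2 F u w = 0} = q + 1 := by
  classical
  subst hF
  have h2 := aux (F := F)
  refine ⟨?_, h2⟩
  have halt : ∀ u, Cfsg.sympForm 2 F u u = 0 := by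
    intro u
    simp [Cfsg.sympForm, Matrix.J, dotProduct, Matrix.mulVec, Fintype.sum_sum_type, Matrix.fromBlocks, Matrix.one_apply]
    ring
  have key := Cfsg.Agent.Lib.Helper18Count.card_total (Cfsg.sympForm 2 F) _ (fun v hv _ => h2 v hv)
  set q := Fintype.card F with hq
  have hq2 : 2 ≤ q := Fintype.one_lt_card
  have hcnt : Nat.card {v : Fin 2 ⊕ Fin 2 → F // v ≠ 0 ∧ Cfsg.sympForm 2 F v v = 0} = q ^ 4 - 1 := by
    have := Cfsg.Agent.Lib.Helper18Count.card_filter_diff (⊤ : Submodule F (Fin 2 ⊕ Fin 2 → F)) ⊥ bot_le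
    rw [finrank_top, finrank_bot, pow_zero, show Module.finrank F (Fin 2 ⊕ Fin 2 → F) = 4 by simp] at this
    rw [hq, ← this, Nat.card_eq_fintype_card, Fintype.card_subtype]
    congr 1
    ext w
    simp [halt]
  rw [hcnt] at key
  have h3 : (q ^ 4 - 1) * (q + 1) = ((q + 1) * (q ^ 2 + 1)) * (q ^ 2 - 1) := arith2 q hq2
  rw [h3] at key
  have hpos : 0 < q ^ 2 - 1 := by
    have : 1 < q ^ 2 := by nlinarith
    omega
  exact Nat.eq_of_mul_eq_mul_right hpos key

end Cfsg.Agent.S0828
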