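import Cfsg.Statements.S0830
import Mathlib
import Cfsg.Agent.Lib.Helper18Herm

set_option autoImplicit false
open Cfsg

namespace Cfsg.Agent.S0830

/-- The unitary quadrangle of PSU_5(q): with |F| = q², the number of 2-dimensional subspaces of F^5 on which the Hermitian form vanishes is (q³ + 1)(q⁵ + 1). -/
theorem result {F : Type*} [Field F] [Fintype F] {q : ℕ} (hF : Fintype.card F = q ^ 2) : Nat.card {W : Submodule F (Fin 5 → F) // Module.finrank F W = 2 ∧ ∀ u ∈ W, ∀ v ∈ W, Cfsg.hermForm 5 F q u v = 0} = (q ^ 3 + 1) * (q ^ 5 + 1) := by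
  classical
  have hq := Cfsg.Agent.Lib.Helper18Herm.one_lt_q hF
  have hqZ : (2 : ℤ) ≤ q := by exact_mod_cast hq
  have hI5 : (Cfsg.Agent.Lib.Helper18Herm.I F q 5 : ℤ) = q ^ 9 - q ^ 5 + q ^ 4 := by
    rw [Cfsg.Agent.Lib.Helper18Herm.I_succ_int hF, Cfsg.Agent.Lib.Helper18Herm.I_succ_int hF,
      Cfsg.Agent.Lib.Helper18Herm.I_succ_int hF,
      Cfsg.Agent.Lib.Helper18Herm.I_succ_int hF, Cfsg.Agent.Lib.Helper18Herm.I_succ_int hF,
      Cfsg.Agent.Lib.Helper18Herm.I_zero]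
    push_cast
    ring
  have hle1 : q ^ 2 ≤ (q ^ 2) ^ 2 := by nlinarith [Nat.pos_of_ne_zero (by omega : q ≠ 0)]
  have hle2 : 1 ≤ q ^ 2 := by nlinarith
  have hle3 : 1 ≤ (q ^ 2) ^ 2 := le_trans hle2 hle1
  have hN : ∀ v : Fin 5 → F, v ≠ 0 → Cfsg.hermForm 5 F q v v = 0 →
      Nat.card {W : Submodule F (Fin 5 → F) // Module.finrank F W = 2 ∧ v ∈ W ∧
        Cfsg.Agent.Lib.Helper18Count.TI (Cfsg.hermForm 5 F q) W} = q ^ 3 + 1 := by
    intro v hv hvv
    have a := Cfsg.Agent.Lib.Helper18Herm.card_through_herm hF v hv hvv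
    have b := Cfsg.Agent.Lib.Helper18Herm.card_K0 hF (n := 4) v hv hvv
    rw [← a] at b
    generalize Nat.card {W : Submodule F (Fin 5 → F) // Module.finrank F W = 2 ∧ v ∈ W ∧
        Cfsg.Agent.Lib.Helper18Count.TI (Cfsg.hermForm 5 F q) W} = L at b ⊢
    zify [hle1, hle2] at b
    rw [hI5] at b
    have hne : (q : ℤ) * ((q ^ 2) ^ 2 - q ^ 2) ≠ 0 := by
      have : (0 : ℤ) < (q ^ 2) ^ 2 - q ^ 2 := by nlinarith [sq_nonneg ((q : ℤ) ^ 2)]
      positivity
    have : (L : ℤ) = ((q ^ 3 + 1 : ℕ) : ℤ) := by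
      apply mul_left_cancel₀ hne
      push_cast
      linear_combination b
    exact_mod_cast this
  have c := Cfsg.Agent.Lib.Helper18Herm.card_total_herm hF _ hN
  change Nat.card {W : Submodule F (Fin 5 → F) // Module.finrank F W = 2 ∧
      Cfsg.Agent.Lib.Helper18Count.TI (Cfsg.hermForm 5 F q) W} = _
  generalize Nat.card {W : Submodule F (Fin 5 → F) // Module.finrank F W = 2 ∧
      Cfsg.Agent.Lib.Helper18Count.TI (Cfsg.hermForm 5 F q) W} = T at c ⊢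
  zify [hle3] at c
  rw [hI5] at c
  have hne : ((q : ℤ) ^ 2) ^ 2 - 1 ≠ 0 := by
    have : (0 : ℤ) < (q ^ 2) ^ 2 - 1 := by nlinarith [sq_nonneg ((q : ℤ) ^ 2)]
    positivity
  have : (T : ℤ) = (((q ^ 3 + 1) * (q ^ 5 + 1) : ℕ) : ℤ) := by
    apply mul_right_cancel₀ hne
    push_cast
    linear_combination c
  exact_mod_cast this

end Cfsg.Agent.S0830
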