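import Cfsg.Statements.S0831
import Mathlib
import Cfsg.Agent.Lib.Helper18Hyp2

set_option autoImplicit false
open Cfsg

namespace Cfsg.Agent.S0831

open Cfsg.Agent.Lib.Helper18Hyp Cfsg.Agent.Lib.Helper18Hyp2

/-- The two families of maximal totally singular subspaces of the hyperbolic quadric: for the form Σ x_i y_i on F^(2m), m ≥ 1, and m-dimensional subspaces U, W, X on which it vanishes, the parities of m − dim(U ∩ W), m − dim(W ∩ X) and m − dim(U ∩ X) sum to an even number (so 'even codimension of the intersection' is an equivalence relation), and there exist two such subspaces meeting in codimension 1 (so there are exactly two classes). -/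
theorem result {F : Type*} [Field F] (m : ℕ) (hm : 1 ≤ m) : (∀ U W X : Submodule F (Fin m ⊕ Fin m → F), (Module.finrank F U = m ∧ ∀ w ∈ U, Cfsg.quadFormPlus m F w = 0) → (Module.finrank F W = m ∧ ∀ w ∈ W, Cfsg.quadFormPlus m F w = 0) → (Module.finrank F X = m ∧ ∀ w ∈ X, Cfsg.quadFormPlus m F w = 0) → Even ((m - Module.finrank F ↥(U ⊓ W)) + (m - Module.finrank F ↥(W ⊓ X)) + (m - Module.finrank F ↥(U ⊓ X)))) ∧ ∃ U W : Submodule F (Fin m ⊕ Fin m → F), (Module.finrank F U = m ∧ ∀ w ∈ U, Cfsg.quadFormPlus m F w = 0) ∧ (Module.finrank F W = m ∧ ∀ w ∈ W, Cfsg.quadFormPlus m F w = 0) ∧ Module.finrank F ↥(U ⊓ W) + 1 = m := by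
  have toTS : ∀ U : Submodule F (Fin m ⊕ Fin m → F), (∀ w ∈ U, Cfsg.quadFormPlus m F w = 0) →
      TS (Qp m F) U := fun U h u hu => by rw [Qp_apply]; exact h u hu
  constructor
  · rintro U W X ⟨hUm, hU⟩ ⟨hWm, hW⟩ ⟨hXm, hX⟩
    have := parity (Qp_nondeg m F) (finrank_V m F) _ U W (toTS U hU) hUm (toTS W hW) hWm rfl X
      (toTS X hX) hXm
    rw [Nat.even_iff] at this ⊢
    omega
  · set w : Fin m ⊕ Fin m → F := Pi.single (Sum.inr ⟨0, hm⟩) 1 with hw
    have hQw : Qp m F w = 0 := by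
      rw [Qp_apply, Cfsg.quadFormPlus]
      apply Finset.sum_eq_zero
      intro i _
      simp [hw]
    have hwX0 : w ∉ LinearMap.range (X0map m F) := by
      rintro ⟨t, ht⟩
      have := congrFun ht (Sum.inr ⟨0, hm⟩)
      rw [X0map_inr, hw] at this
      simp at this
    obtain ⟨U', hU', hU'm, hadj, -, -⟩ :=
      neighbor (Qp_nondeg m F) (finrank_V m F) (X0_ts m F) (X0_finrank m F) hQw hwX0
    refine ⟨LinearMap.range (X0map m F), U', ⟨X0_finrank m F, ?_⟩, ⟨hU'm, ?_⟩, hadj⟩
    · intro v hv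
      rw [← Qp_apply]; exact X0_ts m F v hv
    · intro v hv
      rw [← Qp_apply]; exact hU' v hv

end Cfsg.Agent.S0831
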