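import Cfsg.Statements.S0832
import Mathlib
import Cfsg.Agent.Lib.Helper18Hyp

set_option autoImplicit false
open Cfsg

namespace Cfsg.Agent.S0832

open Cfsg.Agent.Lib.Helper18Hyp

/-- For the form Σ x_i y_i on F^(2m) over a finite field, m ≥ 1: an (m−1)-dimensional subspace on which the form vanishes is contained in exactly two m-dimensional subspaces on which it vanishes. -/
theorem result {F : Type*} [Field F] [Finite F] (m : ℕ) (hm : 1 ≤ m) (U : Submodule F (Fin m ⊕ Fin m → F)) (hU : Module.finrank F U + 1 = m ∧ ∀ u ∈ U, Cfsg.quadFormPlus m F u = 0) : Nat.card {W : Submodule F (Fin m ⊕ Fin m → F) // Module.finrank F W = m ∧ (∀ w ∈ W, Cfsg.quadFormPlus m F w = 0) ∧ U ≤ W} = 2 := by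
  obtain ⟨hUm, hU0⟩ := hU
  have hUts : TS (Qp m F) U := fun u hu => by rw [Qp_apply]; exact hU0 u hu
  obtain ⟨W₁, W₂, hne, ⟨h1ts, h1m, h1U⟩, ⟨h2ts, h2m, h2U⟩, huniq⟩ :=
    two_max (Qp_nondeg m F) (finrank_V m F) (X0_ts m F) (X0_finrank m F) hUts hUm
  rw [Nat.card_eq_two_iff]
  refine ⟨⟨W₁, h1m, fun w hw => by rw [← Qp_apply]; exact h1ts w hw, h1U⟩,
    ⟨W₂, h2m, fun w hw => by rw [← Qp_apply]; exact h2ts w hw, h2U⟩, ?_, ?_⟩
  · intro h
    exact hne (congrArg Subtype.val h)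
  · ext ⟨W, hWm, hW0, hUW⟩
    simp only [Set.mem_insert_iff, Set.mem_singleton_iff, Set.mem_univ, iff_true, Subtype.mk.injEq]
    exact huniq W (fun w hw => by rw [Qp_apply]; exact hW0 w hw) hWm hUW

end Cfsg.Agent.S0832
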