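import Cfsg.Statements.S0833
import Mathlib

set_option autoImplicit false
open Cfsg

namespace Cfsg.Agent.S0833

open TensorProduct Module

variable {F U W : Type*} [Field F] [AddCommGroup U] [Module F U] [FiniteDimensional F U]
  [AddCommGroup W] [Module F W] [FiniteDimensional F W]

theorem tmul_sepLeft (B₁ : LinearMap.BilinForm F U) (B₂ : LinearMap.BilinForm F W)
    (h₁ : B₁.Nondegenerate) (h₂ : B₂.Nondegenerate) : (B₁.tmul B₂).SeparatingLeft := by
  let e : U ⊗[F] W ≃ₗ[F] Dual F (U ⊗[F] W) :=
    (TensorProduct.congr (B₁.toDual h₁) (B₂.toDual h₂)) ≪≫ₗ TensorProduct.dualDistribEquiv F U W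
  have he : e.toLinearMap = B₁.tmul B₂ := by
    apply TensorProduct.ext'
    intro u w
    apply TensorProduct.ext'
    intro u' w'
    simp [e, LinearMap.BilinForm.toDual_def, mul_comm]
  intro x hx
  have : e x = 0 := by
    apply LinearMap.ext
    intro y
    have := hx y
    rw [← he] at this
    simpa using this
  simpa using this

theorem exists_lagrangian (B : LinearMap.BilinForm F U) (h : B.Nondegenerate) (hA : B.IsAlt)
    (k : ℕ) (hU : finrank F U = 2 * k) :
    ∃ L : Submodule F U, finrank F L = k ∧ ∀ x ∈ L, ∀ y ∈ L, B x y = 0 := by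
  obtain ⟨L, hL⟩ := exists_maximal_of_wellFoundedGT
    (fun L : Submodule F U => ∀ x ∈ L, ∀ y ∈ L, B x y = 0) ⟨⊥, by simp⟩
  refine ⟨L, ?_, hL.prop⟩
  have hle : L ≤ B.orthogonal L := by
    intro x hx
    rw [LinearMap.BilinForm.mem_orthogonal_iff]
    intro y hy
    exact hL.prop y hy x hx
  have hge : B.orthogonal L ≤ L := by
    intro x hx
    rw [LinearMap.BilinForm.mem_orthogonal_iff] at hx
    have hti : ∀ a ∈ L ⊔ Submodule.span F {x}, ∀ b ∈ L ⊔ Submodule.span F {x}, B a b = 0 := by
      intro a ha b hb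
      obtain ⟨a1, ha1, a2, ha2, rfl⟩ := Submodule.mem_sup.mp ha
      obtain ⟨b1, hb1, b2, hb2, rfl⟩ := Submodule.mem_sup.mp hb
      obtain ⟨r, rfl⟩ := Submodule.mem_span_singleton.mp ha2
      obtain ⟨s, rfl⟩ := Submodule.mem_span_singleton.mp hb2
      have e1 : B a1 b1 = 0 := hL.prop a1 ha1 b1 hb1
      have e2 : B a1 x = 0 := hx a1 ha1
      have e3 : B x b1 = 0 := by
        have := hA.neg_eq x b1
        rw [← neg_eq_zero, this]
        exact hx b1 hb1
      have e4 : B x x = 0 := hA x
      simp [e1, e2, e3, e4]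
    have := hL.le_of_ge hti le_sup_left
    exact this (Submodule.mem_sup_right (Submodule.mem_span_singleton_self x))
  have heq : B.orthogonal L = L := le_antisymm hge hle
  have hfin := LinearMap.BilinForm.finrank_orthogonal h L
  rw [heq, hU] at hfin
  have : finrank F L ≤ finrank F U := Submodule.finrank_le L
  omega

/-- If B₁, B₂ are non-degenerate alternating forms on U (dim 2k) and W (dim 2l), then B₁ ⊗ B₂ on U ⊗ W is symmetric, non-degenerate, and vanishes identically on some subspace of dimension 2kl (half of dim U ⊗ W). -/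
theorem result {F U W : Type*} [Field F] [Fintype F] [AddCommGroup U] [Module F U] [FiniteDimensional F U] [AddCommGroup W] [Module F W] [FiniteDimensional F W] (B₁ : LinearMap.BilinForm F U) (B₂ : LinearMap.BilinForm F W) (h₁ : B₁.Nondegenerate) (h₂ : B₂.Nondegenerate) (hA₁ : B₁.IsAlt) (hA₂ : B₂.IsAlt) (k l : ℕ) (hU : Module.finrank F U = 2 * k) (hW : Module.finrank F W = 2 * l) : (B₁.tmul B₂).IsSymm ∧ (B₁.tmul B₂).Nondegenerate ∧ (∃ X : Submodule F (TensorProduct F U W), Module.finrank F X = 2 * k * l ∧ ∀ x ∈ X, ∀ y ∈ X, (B₁.tmul B₂) x y = 0) := by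
  have hsymm : (B₁.tmul B₂).IsSymm := by
    rw [LinearMap.isSymm_iff_eq_flip]
    apply TensorProduct.ext'
    intro u w
    apply TensorProduct.ext'
    intro u' w'
    have e1 := hA₁.neg_eq u u'
    have e2 := hA₂.neg_eq w w'
    simp only [LinearMap.BilinForm.tensorDistrib_tmul, LinearMap.flip_apply, smul_eq_mul]
    rw [← e1, ← e2]
    ring
  have hleft := tmul_sepLeft B₁ B₂ h₁ h₂
  refine ⟨hsymm, ⟨hleft, ?_⟩, ?_⟩
  · intro y hy
    apply hleft
    intro x
    rw [← hsymm.eq]
    exact hy x
  · obtain ⟨L, hLk, hL⟩ := exists_lagrangian B₁ h₁ hA₁ k hU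
    refine ⟨LinearMap.range (LinearMap.rTensor W L.subtype), ?_, ?_⟩
    · rw [LinearMap.finrank_range_of_inj
        (Module.Flat.rTensor_preserves_injective_linearMap _ L.injective_subtype),
        Module.finrank_tensorProduct, hLk, hW]
      ring
    · rintro _ ⟨a, rfl⟩ _ ⟨b, rfl⟩
      induction a using TensorProduct.induction_on with
      | zero => simp
      | add a a' iha iha' => rw [map_add, map_add, LinearMap.add_apply, iha, iha', add_zero]
      | tmul l w =>
        induction b using TensorProduct.induction_on with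
        | zero => simp
        | add b b' ihb ihb' => rw [map_add, map_add, ihb, ihb', add_zero]
        | tmul l' w' =>
          simp [hL l l.2 l' l'.2]

end Cfsg.Agent.S0833
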