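import Cfsg.Statements.S0835
import Mathlib
import Cfsg.Agent.Lib.Helper18Quad2

set_option autoImplicit false
open Cfsg

namespace Cfsg.Agent.S0835

/-- Over a finite field with 2 ≠ 0: if B₁ on U (dim 2k, k ≥ 1) is non-degenerate symmetric of minus type (no totally isotropic k-subspace) and B₂ on W (dim 2l + 1) is non-degenerate symmetric, then B₁ ⊗ B₂ (dimension 2k(2l+1)) admits no totally isotropic subspace of dimension k(2l+1) (minus type). -/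
theorem result {F U W : Type*} [Field F] [Fintype F] [AddCommGroup U] [Module F U] [FiniteDimensional F U] [AddCommGroup W] [Module F W] [FiniteDimensional F W] (h2 : (2 : F) ≠ 0) (B₁ : LinearMap.BilinForm F U) (B₂ : LinearMap.BilinForm F W) (h₁ : B₁.Nondegenerate) (h₂ : B₂.Nondegenerate) (hS₁ : B₁.IsSymm) (hS₂ : B₂.IsSymm) (k l : ℕ) (hk : 1 ≤ k) (hU : Module.finrank F U = 2 * k) (hW : Module.finrank F W = 2 * l + 1) (hm₁ : ¬ (∃ X : Submodule F (U), Module.finrank F X = k ∧ ∀ x ∈ X, ∀ y ∈ X, (B₁) x y = 0)) : ¬ (∃ X : Submodule F (TensorProduct F U W), Module.finrank F X = k * (2 * l + 1) ∧ ∀ x ∈ X, ∀ y ∈ X, (B₁.tmul B₂) x y = 0) := by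
  rintro ⟨X, hXdim, hX0⟩
  have : Invertible (2 : F) := invertibleOfNonzero h2
  obtain ⟨v₁, hv₁⟩ := LinearMap.BilinForm.exists_orthogonal_basis (LinearMap.BilinForm.isSymm_iff.mp hS₁)
  obtain ⟨v₂, hv₂⟩ := LinearMap.BilinForm.exists_orthogonal_basis (LinearMap.BilinForm.isSymm_iff.mp hS₂)
  have ha : ∀ i, B₁ (v₁ i) (v₁ i) ≠ 0 := hv₁.not_isOrtho_basis_self_of_separatingLeft h₁.1
  have hb : ∀ i, B₂ (v₂ i) (v₂ i) ≠ 0 := hv₂.not_isOrtho_basis_self_of_separatingLeft h₂.1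
  let b := v₁.tensorProduct v₂
  have hval : ∀ p q, (B₁.tmul B₂) (b p) (b q) = B₂ (v₂ p.2) (v₂ q.2) * B₁ (v₁ p.1) (v₁ q.1) := by
    rintro ⟨i, j⟩ ⟨i', j'⟩
    simp only [b, Module.Basis.tensorProduct_apply, LinearMap.BilinForm.tensorDistrib_tmul, smul_eq_mul]
  have hbO : (B₁.tmul B₂).IsOrthoᵢ b := by
    rintro ⟨i, j⟩ ⟨i', j'⟩ hne
    show (B₁.tmul B₂) (b (i, j)) (b (i', j')) = 0
    rw [hval]
    by_cases h : i = i'
    · have hj : j ≠ j' := by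
        rintro rfl
        exact hne (by rw [h])
      have : B₂ (v₂ j) (v₂ j') = 0 := hv₂ hj
      simp [this]
    · have : B₁ (v₁ i) (v₁ i') = 0 := hv₁ h
      simp [this]
  obtain ⟨s, hs⟩ := Cfsg.Agent.Lib.Helper18Quad2.sq_of_ti (B₁.tmul B₂)
    (LinearMap.BilinForm.isSymm_iff.mpr (LinearMap.IsSymm.tmul (LinearMap.BilinForm.isSymm_iff.mp hS₁)
      (LinearMap.BilinForm.isSymm_iff.mp hS₂))) b hbO (k * (2 * l + 1))
    (by rw [Fintype.card_prod, Fintype.card_fin, Fintype.card_fin, hU, hW]; ring) X hXdim hX0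
  simp only [hval] at hs
  rw [Fintype.prod_prod_type] at hs
  simp only [Finset.prod_mul_distrib, Finset.prod_const, Finset.card_univ, Fintype.card_fin,
    Finset.prod_pow] at hs
  have hα0 : (∏ x, (B₁ (v₁ x)) (v₁ x)) ≠ 0 := Finset.prod_ne_zero_iff.mpr fun i _ => ha i
  have hβ0 : (∏ x, (B₂ (v₂ x)) (v₂ x)) ≠ 0 := Finset.prod_ne_zero_iff.mpr fun i _ => hb i
  apply hm₁
  refine Cfsg.Agent.Lib.Helper18Quad.ti_of_sq h2 B₁ hS₁ v₁ hv₁ ha k (by rw [Fintype.card_fin, hU])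
    (s / ((-1) ^ (k * l) * (∏ x, (B₂ (v₂ x)) (v₂ x)) ^ k * (∏ x, (B₁ (v₁ x)) (v₁ x)) ^ l)) ?_
  revert hs hα0 hβ0
  generalize (∏ x, (B₂ (v₂ x)) (v₂ x)) = β
  generalize (∏ x, (B₁ (v₁ x)) (v₁ x)) = α
  intro hs hα0 hβ0
  rw [hU, hW] at hs
  have ht : ((-1 : F) ^ (k * l) * β ^ k * α ^ l) ≠ 0 :=
    mul_ne_zero (mul_ne_zero (pow_ne_zero _ (by norm_num)) (pow_ne_zero _ hβ0)) (pow_ne_zero _ hα0)
  rw [div_pow, ← hs, eq_div_iff (pow_ne_zero _ ht)]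
  ring

end Cfsg.Agent.S0835
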