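import Cfsg.Statements.S0836
import Mathlib

set_option autoImplicit false
open Cfsg

namespace Cfsg.Agent.S0836

open scoped commutatorElement

/-- For i ≠ j and any scalar c, the elementary transvection 1 + c E_ij is a commutator ⁅g, h⁆ of two elements of SL_n(F) provided n ≥ 3, or n = 2 and F contains x ≠ 0 with x² ≠ 1. -/
theorem result {F : Type*} [Field F] (n : ℕ) (hn : 3 ≤ n ∨ (n = 2 ∧ ∃ x : F, x ≠ 0 ∧ x ^ 2 ≠ 1)) (i j : Fin n) (hij : i ≠ j) (c : F) (t : Matrix.SpecialLinearGroup (Fin n) F) (ht : (t : Matrix (Fin n) (Fin n) F) = Matrix.transvection i j c) : t ∈ commutatorSet (Matrix.SpecialLinearGroup (Fin n) F) := by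
  have key : ∀ a b : Matrix.SpecialLinearGroup (Fin n) F,
      (t : Matrix (Fin n) (Fin n) F) * b * a = a * b →
      t ∈ commutatorSet (Matrix.SpecialLinearGroup (Fin n) F) := by
    intro a b h
    have h' : t * b * a = a * b := by
      apply Subtype.ext
      simpa only [Matrix.SpecialLinearGroup.coe_mul] using h
    refine ⟨a, b, ?_⟩
    rw [commutatorElement_def, ← h']
    group
  have mk : ∀ M : Matrix (Fin n) (Fin n) F, M.det = 1 →
      ∃ a : Matrix.SpecialLinearGroup (Fin n) F, (a : Matrix (Fin n) (Fin n) F) = M :=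
    fun M hM => ⟨⟨M, hM⟩, rfl⟩
  rcases hn with hn | ⟨rfl, x, hx0, hx1⟩
  · obtain ⟨k, hki, hkj⟩ : ∃ k : Fin n, k ≠ i ∧ k ≠ j := by
      by_contra hcon
      push Not at hcon
      have hsub : (Finset.univ : Finset (Fin n)) ⊆ {i, j} := by
        intro k _
        by_cases hk : k = i
        · simp [hk]
        · simp [hcon k hk]
      have := Finset.card_le_card hsub
      have h2 : ({i, j} : Finset (Fin n)).card ≤ 2 := Finset.card_le_two
      simp at this
      omega
    obtain ⟨a, ha⟩ := mk (Matrix.transvection i k c) (Matrix.det_transvection_of_ne _ _ hki.symm c)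
    obtain ⟨b, hb⟩ := mk (Matrix.transvection k j 1) (Matrix.det_transvection_of_ne _ _ hkj 1)
    refine key a b ?_
    rw [ht, ha, hb]
    have e1 : ∀ (x y : F) (r s : Fin n), Matrix.single r j x * Matrix.single i s y = 0 :=
      fun x y r s => Matrix.single_mul_single_of_ne x r j i hij.symm y
    have e2 : ∀ (x y : F) (r s : Fin n), Matrix.single r j x * Matrix.single k s y = 0 :=
      fun x y r s => Matrix.single_mul_single_of_ne x r j k hkj.symm y
    simp only [Matrix.transvection, add_mul, mul_add, one_mul, mul_one,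
      Matrix.single_mul_single_same, e1, e2, add_zero, mul_one, zero_mul]
    abel
  · have hx2 : x ^ 2 - 1 ≠ 0 := sub_ne_zero.mpr hx1
    set d : F := c / (x ^ 2 - 1) with hd
    have hcd : c + d = d * x ^ 2 := by
      rw [hd]; field_simp; ring
    have hcd' : (c + d) * x⁻¹ = d * x := by
      rw [hcd]; field_simp
    have hcases : (i = 0 ∧ j = 1) ∨ (i = 1 ∧ j = 0) := by
      fin_cases i <;> fin_cases j <;> simp_all
    rcases hcases with ⟨rfl, rfl⟩ | ⟨rfl, rfl⟩
    · obtain ⟨a, ha⟩ := mk !![x, 0; 0, x⁻¹] (by simp [Matrix.det_fin_two, hx0])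
      obtain ⟨b, hb⟩ := mk (Matrix.transvection 0 1 d) (Matrix.det_transvection_of_ne _ _ hij d)
      refine key a b ?_
      rw [ht, ha, hb, Matrix.transvection_mul_transvection_same _ _ hij]
      ext r s
      fin_cases r <;> fin_cases s <;>
        simp [Matrix.transvection, Matrix.mul_apply, Fin.sum_univ_two, Matrix.single_apply, hcd', mul_comm]
    · obtain ⟨a, ha⟩ := mk !![x⁻¹, 0; 0, x] (by simp [Matrix.det_fin_two, hx0])
      obtain ⟨b, hb⟩ := mk (Matrix.transvection 1 0 d) (Matrix.det_transvection_of_ne _ _ hij d)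
      refine key a b ?_
      rw [ht, ha, hb, Matrix.transvection_mul_transvection_same _ _ hij]
      ext r s
      fin_cases r <;> fin_cases s <;>
        simp [Matrix.transvection, Matrix.mul_apply, Fin.sum_univ_two, Matrix.single_apply, hcd', mul_comm]

end Cfsg.Agent.S0836
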