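import Cfsg.Statements.S0837
import Cfsg.Agent.Lib.Helper17HermC

set_option autoImplicit false
open Cfsg

namespace Cfsg.Agent.S0837

open Matrix Cfsg.Agent.Lib.Helper7Herm Cfsg.Agent.Lib.Helper7GU Cfsg.Agent.Lib.Helper17Block
  Cfsg.Agent.Lib.Helper17HermC

theorem mulVec_eq_sum' {F : Type*} [Field F] {ι κ : Type*} [Fintype κ] (x : κ → ι → F) (c : κ → F) :
    (Matrix.of (fun i j => x j i) : Matrix ι κ F) *ᵥ c = ∑ a, c a • x a := by
  funext i
  rw [Finset.sum_apply]
  simp only [mulVec, dotProduct, Matrix.of_apply, Pi.smul_apply, smul_eq_mul]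
  apply Finset.sum_congr rfl
  intro a _
  ring

/-- Membership in the span of the first block of a basis, via coordinates. -/
theorem mem_iff_coord {F : Type*} [Field F] {ι κ₁ κ₂ : Type*} [Fintype ι] [DecidableEq ι]
    [Fintype κ₁] [DecidableEq κ₁] [Fintype κ₂] [DecidableEq κ₂] (x : κ₁ ⊕ κ₂ → ι → F)
    (Q : Matrix (κ₁ ⊕ κ₂) ι F)
    (hPQ : (Matrix.of (fun i j => x j i) : Matrix ι (κ₁ ⊕ κ₂) F) * Q = 1)
    (hQP : Q * (Matrix.of (fun i j => x j i) : Matrix ι (κ₁ ⊕ κ₂) F) = 1)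
    (W : Submodule F (ι → F)) (h₁ : ∀ a, x (Sum.inl a) ∈ W)
    (h₂ : W ≤ Submodule.span F (Set.range (fun a => x (Sum.inl a)))) :
    ∀ v, v ∈ W ↔ ∀ i, (Q *ᵥ v) (Sum.inr i) = 0 := by
  have hPx : ∀ a, (Matrix.of (fun i j => x j i) : Matrix ι (κ₁ ⊕ κ₂) F) *ᵥ Pi.single a 1 = x a := by
    intro a
    rw [mulVec_single_one]
    rfl
  intro v
  constructor
  · intro hv
    have hv' := h₂ hv
    clear hv
    induction hv' using Submodule.span_induction with
    | mem y hy =>
      obtain ⟨a, rfl⟩ := hy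
      intro i
      simp only
      rw [← hPx, mulVec_mulVec, hQP, one_mulVec]
      simp
    | zero => intro i; simp
    | add y z hy hz ihy ihz =>
      intro i
      rw [mulVec_add, Pi.add_apply, ihy, ihz, add_zero]
    | smul c y hy ihy =>
      intro i
      rw [mulVec_smul, Pi.smul_apply, ihy, smul_zero]
  · intro h
    have h1 : v = (Matrix.of (fun i j => x j i) : Matrix ι (κ₁ ⊕ κ₂) F) *ᵥ (Q *ᵥ v) := by
      rw [mulVec_mulVec, hPQ, one_mulVec]
    rw [h1, mulVec_eq_sum', Fintype.sum_sum_type]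
    apply W.add_mem
    · apply Submodule.sum_mem
      intro a _
      exact W.smul_mem _ (h₁ a)
    · apply Submodule.sum_mem
      intro a _
      rw [h a, zero_smul]
      exact W.zero_mem

/-- If W ≤ F^n (|F| = q²) is a k-dimensional subspace on which the Hermitian form Σ x_i y_i^q is non-degenerate, then the stabiliser of W in GU_n(q) is isomorphic to GU_k(q) × GU_(n−k)(q). -/
theorem result {F : Type*} [Field F] [Fintype F] {q : ℕ} (hF : Fintype.card F = q ^ 2) (n k : ℕ) (hk : k ≤ n) (W : Submodule F (Fin n → F)) (hWk : Module.finrank F W = k) (hW : ∀ u ∈ W, (∀ v ∈ W, Cfsg.hermForm n F q u v = 0) → u = 0) : Nonempty (↥((Cfsg.stabilizing (Cfsg.glToMat (Fin n) F) (W : Set (Fin n → F))).subgroupOf (Cfsg.GU n F q)) ≃* ↥(Cfsg.GU k F q) × ↥(Cfsg.GU (n - k) F q)) := by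
  have hcompl := isCompl_perp hF n W hW
  have hfinWp : Module.finrank F (perp hF n W) = n - k := by
    have := Submodule.finrank_add_eq_of_isCompl hcompl
    rw [hWk] at this
    simp at this
    omega
  obtain ⟨x₁, hx₁W, hx₁span, hx₁G⟩ := exists_on_fam hF n W k hWk hW
  obtain ⟨x₂, hx₂W, hx₂span, hx₂G⟩ := exists_on_fam hF n (perp hF n W) (n - k) hfinWp
    (perp_nondeg hF n W hW)
  set x : Fin k ⊕ Fin (n - k) → (Fin n → F) := Sum.elim x₁ x₂ with hx
  have hxG : ∀ a b, Cfsg.hermForm n F q (x a) (x b) = if a = b then 1 else 0 := by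
    intro a b
    rcases a with a | a <;> rcases b with b | b
    · simp only [hx, Sum.elim_inl, hx₁G, Sum.inl.injEq]
    · simp only [hx, Sum.elim_inl, Sum.elim_inr, reduceCtorEq, if_false]
      exact hx₂W b _ (hx₁W a)
    · simp only [hx, Sum.elim_inl, Sum.elim_inr, reduceCtorEq, if_false]
      exact h_eq_zero_symm hF _ _ (hx₂W a _ (hx₁W b))
    · simp only [hx, Sum.elim_inr, hx₂G, Sum.inr.injEq]
  set P : Matrix (Fin n) (Fin k ⊕ Fin (n - k)) F := Matrix.of (fun i j => x j i) with hP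
  have hG : Pᵀ * (1 : Matrix (Fin n) (Fin n) F) * P.map (sig hF) = fromBlocks 1 0 0 1 := by
    rw [fromBlocks_one, Matrix.mul_one]
    ext a b
    rw [Matrix.mul_apply, Matrix.one_apply, ← hxG a b]
    unfold Cfsg.hermForm
    apply Finset.sum_congr rfl
    intro i _
    simp [hP, sig_apply]
  set Q := (P.map (sig hF))ᵀ with hQ
  have hQP : Q * P = 1 := by
    ext a b
    have h1 : (if a = b then (1 : F) else 0) = if b = a then 1 else 0 := by
      simp only [eq_comm]
    rw [Matrix.mul_apply, Matrix.one_apply, h1, ← hxG b a]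
    unfold Cfsg.hermForm
    apply Finset.sum_congr rfl
    intro i _
    simp [hQ, hP, sig_apply, mul_comm]
  have hPQ : P * Q = 1 := by
    refine (Matrix.mul_eq_one_comm_of_equiv (Fintype.equivOfCardEq ?_)).2 hQP
    simp
    omega
  have hWQ := mem_iff_coord x Q hPQ hQP W hx₁W hx₁span
  obtain ⟨e⟩ := stab_equiv (sig hF) (1 : Matrix (Fin n) (Fin n) F) 1 1 1 P Q hPQ hQP hG
    (Matrix.one_mul 1) W hWQ
  rw [← GU_eq_UG, ← GU_eq_UG, ← GU_eq_UG] at e
  have e1 : ↥((Cfsg.stabilizing (Cfsg.glToMat (Fin n) F) (W : Set (Fin n → F))).subgroupOf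
      (Cfsg.GU n F q)) ≃* ↥(Cfsg.GU n F q ⊓
        Cfsg.stabilizing (Cfsg.glToMat (Fin n) F) (W : Set (Fin n → F))) := by
    rw [← Subgroup.inf_subgroupOf_right, inf_comm]
    exact Subgroup.subgroupOfEquivOfLe inf_le_left
  exact ⟨e1.trans e⟩

end Cfsg.Agent.S0837
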