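import Cfsg.Statements.S0841
import Mathlib

set_option autoImplicit false
open Cfsg

namespace Cfsg.Agent.S0841

open scoped commutatorElement

/-- If the commutator subgroup of G lies in the centre, then for all x, y in G and every natural number n one has (x * y) ^ n = x ^ n * y ^ n * c ^ (n * (n - 1) / 2) with c = y⁻¹ * x⁻¹ * y * x. -/
theorem result {G : Type*} [Group G] (hG : commutator G ≤ Subgroup.center G) (x y : G) (n : ℕ) : (x * y) ^ n = x ^ n * y ^ n * (y⁻¹ * x⁻¹ * y * x) ^ (n * (n - 1) / 2) := by
  set c := y⁻¹ * x⁻¹ * y * x with hc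
  have hcc : c ∈ Subgroup.center G := by
    apply hG
    have : c = ⁅y⁻¹, x⁻¹⁆ := by
      rw [commutatorElement_def, hc]; simp
    rw [this]
    exact Subgroup.commutator_mem_commutator (Subgroup.mem_top _) (Subgroup.mem_top _)
  have hcomm : ∀ g : G, g * c = c * g := fun g => Subgroup.mem_center_iff.mp hcc g
  have hcpow : ∀ (k : ℕ) (g : G), g * c ^ k = c ^ k * g := by
    intro k g
    exact ((Commute.pow_right (show Commute g c from hcomm g) k)).eq
  have hyx : y * x = x * y * c := by
    rw [hc]; group
  have hynx : ∀ k : ℕ, y ^ k * x = x * y ^ k * c ^ k := by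
    intro k
    induction k with
    | zero => simp
    | succ k ih =>
      calc y ^ (k + 1) * x = y ^ k * (y * x) := by rw [pow_succ, mul_assoc]
        _ = y ^ k * (x * y * c) := by rw [hyx]
        _ = (y ^ k * x) * y * c := by simp only [mul_assoc]
        _ = x * y ^ k * c ^ k * y * c := by rw [ih]
        _ = x * y ^ k * (c ^ k * y) * c := by simp only [mul_assoc]
        _ = x * y ^ k * (y * c ^ k) * c := by rw [hcpow k y]
        _ = x * y ^ (k + 1) * c ^ (k + 1) := by simp only [pow_succ, mul_assoc]
  induction n with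
  | zero => simp
  | succ n ih =>
    have hT : (n + 1) * (n + 1 - 1) / 2 = n * (n - 1) / 2 + n := by
      have h1 : (n + 1) * (n + 1 - 1) = n * (n - 1) + 2 * n := by
        cases n with
        | zero => simp
        | succ m => simp only [Nat.add_sub_cancel]; ring
      rw [h1, Nat.add_mul_div_left _ _ (by norm_num : 0 < 2)]
    rw [hT]
    set T := n * (n - 1) / 2
    calc (x * y) ^ (n + 1) = (x * y) ^ n * (x * y) := pow_succ _ _
      _ = x ^ n * y ^ n * c ^ T * (x * y) := by rw [ih]
      _ = x ^ n * y ^ n * (c ^ T * (x * y)) := by simp only [mul_assoc]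
      _ = x ^ n * y ^ n * ((x * y) * c ^ T) := by rw [hcpow T (x * y)]
      _ = x ^ n * (y ^ n * x) * y * c ^ T := by simp only [mul_assoc]
      _ = x ^ n * (x * y ^ n * c ^ n) * y * c ^ T := by rw [hynx n]
      _ = x ^ n * x * y ^ n * (c ^ n * y) * c ^ T := by simp only [mul_assoc]
      _ = x ^ n * x * y ^ n * (y * c ^ n) * c ^ T := by rw [hcpow n y]
      _ = x ^ (n + 1) * y ^ (n + 1) * (c ^ n * c ^ T) := by simp only [pow_succ, mul_assoc]
      _ = x ^ (n + 1) * y ^ (n + 1) * c ^ (T + n) := by rw [← pow_add, add_comm n T]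

end Cfsg.Agent.S0841
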