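import Cfsg.Statements.S0845
-- import your own Cfsg.Agent.* helpers here
import Cfsg.Agent.Lib.Helper29BSd
import Cfsg.Agent.Lib.Helper83Extra
import Cfsg.Agent.Lib.Helper82Quot

set_option autoImplicit false
open Cfsg

namespace Cfsg.Agent.S0845


/-- Suppose a Sylow 2-subgroup S of the finite group G is generalized quaternion of order at least 16. Then G has a normal subgroup M of even order such that G / M is non-abelian, that is, M does not contain the commutator subgroup of G. -/
theorem result {G : Type*} [Group G] [Finite G] (S : Sylow 2 G) (n : ℕ) (e : (S : Subgroup G) ≃* QuaternionGroup (2 ^ (n + 2))) : ∃ M : Subgroup G, M.Normal ∧ Even (Nat.card M) ∧ ¬ commutator G ≤ M := by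
  have : Fact (Nat.Prime 2) := ⟨Nat.prime_two⟩
  obtain ⟨χ₁, χ₂, h1, h2, h3, h4, h5⟩ := Cfsg.Agent.Lib.Helper29BSd.pair16 S n e
  have hchar := Cfsg.Agent.Lib.Helper4Char.IsIrrCharacter.isCharacter χ₁.2
  refine ⟨Cfsg.Agent.Lib.Helper82Quot.charKer hchar, inferInstance, ?_, ?_⟩
  · -- an involution lies in the kernel
    have hS : 2 ∣ Nat.card G := by
      have h6 : Nat.card (S : Subgroup G) = 4 * 2 ^ (n + 2) := by
        have : NeZero (2 ^ (n + 2)) := ⟨by positivity⟩
        rw [Nat.card_congr e.toEquiv, Nat.card_eq_fintype_card, QuaternionGroup.card]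
      have h7 : 2 ∣ Nat.card (S : Subgroup G) := by rw [h6]; exact ⟨2 * 2 ^ (n + 2), by ring⟩
      exact h7.trans (Subgroup.card_subgroup_dvd_card _)
    obtain ⟨z, hz⟩ := exists_prime_orderOf_dvd_card' 2 hS
    have hzM : z ∈ Cfsg.Agent.Lib.Helper82Quot.charKer hchar := h5 z hz
    rw [even_iff_two_dvd, ← hz]
    have := orderOf_dvd_natCard (⟨z, hzM⟩ : Cfsg.Agent.Lib.Helper82Quot.charKer hchar)
    rwa [Subgroup.orderOf_mk] at this
  · intro hle
    have h6 := Cfsg.Agent.Lib.Helper83Extra.linear_of_commutator χ₁.2 (fun m hm => hle hm)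
    rw [h3] at h6
    have h7 : (χ₂ : G → ℂ) 1 = 0 := by linear_combination h6
    exact Cfsg.Agent.Lib.Helper81Base.irr_one_ne_zero χ₂ h7

end Cfsg.Agent.S0845
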