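import Cfsg.Statements.S0849
import Cfsg.Agent.Lib.Helper19Ind

set_option autoImplicit false
open Cfsg

namespace Cfsg.Agent.S0849

/-- Let H be a subgroup of a finite group G and S a subset of H that is mapped to itself under conjugation by H, is disjoint from its conjugate by any element outside H, and is closed under inverses. Let φ be a class function of H vanishing on H away from S, and let u, v be involutions of G. Then the sum of the induced function of φ over all products a * b with a conjugate to u and b conjugate to v equals the index of H times the sum of φ (a * b) over such pairs with a and b in H. -/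
theorem result {G : Type*} [Group G] [Fintype G] (H : Subgroup G) (S : Set G) (hSH : S ⊆ H) (hHS : ∀ h ∈ H, ∀ s ∈ S, h * s * h⁻¹ ∈ S) (hTI : ∀ g : G, g ∉ H → ∀ s ∈ S, g * s * g⁻¹ ∉ S) (hinv : ∀ s ∈ S, s⁻¹ ∈ S) (φ : H → ℂ) (hφ : Cfsg.IsClassFunction H φ) (hφS : ∀ x : H, (x : G) ∉ S → φ x = 0) (u v : G) (hu : orderOf u = 2) (hv : orderOf v = 2) : ∑ᶠ p ∈ {p : G × G | IsConj u p.1 ∧ IsConj v p.2}, Cfsg.indFun H φ (p.1 * p.2) = (H.index : ℂ) * ∑ᶠ p ∈ {p : H × H | IsConj u (p.1 : G) ∧ IsConj v (p.2 : G)}, φ (p.1 * p.2) := by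
  classical
  haveI : Fintype H := Fintype.ofFinite H
  set P : G × G → Prop := fun p => IsConj u p.1 ∧ IsConj v p.2 with hP
  -- involutions
  have hinvol : ∀ {w a : G}, orderOf w = 2 → IsConj w a → a * a = 1 := by
    intro w a hw hwa
    obtain ⟨c, hc⟩ := isConj_iff.mp hwa
    have hw2 : w * w = 1 := by
      have := pow_orderOf_eq_one w
      rw [hw, pow_two] at this
      exact this
    rw [← hc]
    calc c * w * c⁻¹ * (c * w * c⁻¹) = c * (w * w) * c⁻¹ := by group
      _ = 1 := by rw [hw2]; group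
  set A : ℂ := ∑ p : G × G, if P p then extendByZero H φ (p.1 * p.2) else 0 with hA
  have hL : ∑ᶠ p ∈ {p : G × G | IsConj u p.1 ∧ IsConj v p.2}, Cfsg.indFun H φ (p.1 * p.2)
      = ∑ p : G × G, if P p then Cfsg.indFun H φ (p.1 * p.2) else 0 := by
    rw [finsum_mem_def, finsum_eq_sum_of_fintype]
    refine Finset.sum_congr rfl fun p _ => ?_
    simp only [Set.indicator_apply, Set.mem_setOf_eq, hP]
  have hR : ∑ᶠ p ∈ {p : H × H | IsConj u (p.1 : G) ∧ IsConj v (p.2 : G)}, φ (p.1 * p.2)
      = ∑ p : H × H, if P ((p.1 : G), (p.2 : G)) then φ (p.1 * p.2) else 0 := by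
    rw [finsum_mem_def, finsum_eq_sum_of_fintype]
    refine Finset.sum_congr rfl fun p _ => ?_
    simp only [Set.indicator_apply, Set.mem_setOf_eq, hP]
  rw [hL, hR]
  have h1 : ∀ x : G, (∑ p : G × G, if P p then extendByZero H φ (x⁻¹ * (p.1 * p.2) * x) else 0) = A := by
    intro x
    rw [hA]
    refine Fintype.sum_equiv ((MulAut.conj x⁻¹).toEquiv.prodCongr (MulAut.conj x⁻¹).toEquiv) _ _ ?_
    intro p
    have e1 : P (((MulAut.conj x⁻¹).toEquiv.prodCongr (MulAut.conj x⁻¹).toEquiv) p) ↔ P p := by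
      simp only [hP, Equiv.prodCongr_apply, Prod.map_fst, Prod.map_snd, MulEquiv.toEquiv_eq_coe,
        EquivLike.coe_coe, MulAut.conj_apply, inv_inv]
      constructor
      · rintro ⟨h1, h2⟩
        refine ⟨h1.trans (isConj_iff.mpr ⟨x, by group⟩), h2.trans (isConj_iff.mpr ⟨x, by group⟩)⟩
      · rintro ⟨h1, h2⟩
        refine ⟨h1.trans (isConj_iff.mpr ⟨x⁻¹, by group⟩), h2.trans (isConj_iff.mpr ⟨x⁻¹, by group⟩)⟩
    simp only [e1]
    congr 2
    simp only [Equiv.prodCongr_apply, Prod.map_fst, Prod.map_snd, MulEquiv.toEquiv_eq_coe,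
        EquivLike.coe_coe, MulAut.conj_apply, inv_inv]
    group
  have h2 : (∑ p : G × G, if P p then Cfsg.indFun H φ (p.1 * p.2) else 0) = (H.index : ℂ) * A := by
    have : ∀ p : G × G, (if P p then Cfsg.indFun H φ (p.1 * p.2) else 0)
        = (Nat.card H : ℂ)⁻¹ * ∑ x : G, (if P p then extendByZero H φ (x⁻¹ * (p.1 * p.2) * x) else 0) := by
      intro p
      by_cases hp : P p
      · simp only [hp, if_true, Lib.Helper19Ind.indFun_apply]
      · simp only [hp, if_false, Finset.sum_const_zero, mul_zero]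
    simp only [this]
    rw [← Finset.mul_sum, Finset.sum_comm]
    simp only [h1]
    rw [Finset.sum_const, Finset.card_univ, nsmul_eq_mul, ← mul_assoc, ← Nat.card_eq_fintype_card,
      Lib.Helper19Ind.card_div_card_eq_index]
  rw [h2]
  congr 1
  rw [hA]
  symm
  refine Fintype.sum_of_injective (fun p : H × H => ((p.1 : G), (p.2 : G))) ?_ _ _ ?_ ?_
  · intro p q hpq
    simp only [Prod.mk.injEq] at hpq
    exact Prod.ext (Subtype.ext hpq.1) (Subtype.ext hpq.2)
  · intro p hp
    by_cases hPp : P p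
    · simp only [hPp, if_true]
      by_cases hS : p.1 * p.2 ∈ S
      · exfalso
        apply hp
        have ha : p.1 * p.1 = 1 := hinvol hu hPp.1
        have hb : p.2 * p.2 = 1 := hinvol hv hPp.2
        have hainv : p.1⁻¹ = p.1 := inv_eq_of_mul_eq_one_left ha
        have hbinv : p.2⁻¹ = p.2 := inv_eq_of_mul_eq_one_left hb
        have hconj : p.1 * (p.1 * p.2) * p.1⁻¹ = (p.1 * p.2)⁻¹ := by
          rw [mul_inv_rev, hainv, hbinv, ← mul_assoc, ha, one_mul]
        have haH : p.1 ∈ H := by
          by_contra hnot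
          apply hTI p.1 hnot _ hS
          rw [hconj]
          exact hinv _ hS
        have hbH : p.2 ∈ H := by
          have : p.2 = p.1⁻¹ * (p.1 * p.2) := by group
          rw [this]
          exact H.mul_mem (H.inv_mem haH) (hSH hS)
        exact ⟨(⟨p.1, haH⟩, ⟨p.2, hbH⟩), rfl⟩
      · by_cases hH : p.1 * p.2 ∈ H
        · rw [Lib.Helper19Ind.extendByZero_of_mem H φ hH]
          exact hφS _ hS
        · exact Lib.Helper19Ind.extendByZero_of_not_mem H φ hH
    · simp only [hPp, if_false]
  · intro p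
    have : ((p.1 : G) * (p.2 : G)) = ((p.1 * p.2 : H) : G) := rfl
    simp only [this, Lib.Helper19Ind.extendByZero_coe]

end Cfsg.Agent.S0849
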