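import Cfsg.Statements.S0860
import Cfsg.Agent.Lib.Helper4Char2

set_option autoImplicit false
open Cfsg

namespace Cfsg.Agent.S0860

/-- Let a group A act on the set of irreducible characters and on the set of conjugacy classes of a finite group G in such a way that (a • χ) evaluated on the class a • C equals χ evaluated on C, for all a, χ and C. Then every element of A fixes exactly as many irreducible characters as it fixes conjugacy classes. -/
theorem result {G : Type*} [Group G] [Finite G] {A : Type*} [Group A] [MulAction A (Cfsg.IrrCharacter G)] [MulAction A (ConjClasses G)] (hcompat : ∀ (a : A) (χ : Cfsg.IrrCharacter G) (g g' : G), ConjClasses.mk g' = a • ConjClasses.mk g → ((a • χ : Cfsg.IrrCharacter G) : G → ℂ) g' = (χ : G → ℂ) g) (a : A) : Nat.card {χ : Cfsg.IrrCharacter G // a • χ = χ} = Nat.card {C : ConjClasses G // a • C = C} := by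
  classical
  cases nonempty_fintype G
  have hX : ∀ (χ : Cfsg.IrrCharacter G) (C : ConjClasses G),
      Lib.Helper4Char2.table G (a • χ) (a • C) = Lib.Helper4Char2.table G χ C := by
    intro χ C
    simp only [Lib.Helper4Char2.table]
    exact hcompat a χ (Lib.Helper4Char2.rep C) (Lib.Helper4Char2.rep (a • C))
      (by rw [Lib.Helper4Char2.mk_rep, Lib.Helper4Char2.mk_rep])
  have h1 : (Nat.card {χ : Cfsg.IrrCharacter G // a • χ = χ} : ℂ)
      = ∑ χ : Cfsg.IrrCharacter G, (1 : Matrix (Cfsg.IrrCharacter G) (Cfsg.IrrCharacter G) ℂ) (a • χ) χ := by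
    rw [Nat.card_eq_fintype_card, Fintype.card_subtype]
    simp only [Matrix.one_apply, Finset.sum_boole]
  have h2 : (Nat.card {C : ConjClasses G // a • C = C} : ℂ)
      = ∑ C : ConjClasses G, (1 : Matrix (ConjClasses G) (ConjClasses G) ℂ) (a • C) C := by
    rw [Nat.card_eq_fintype_card, Fintype.card_subtype]
    simp only [Matrix.one_apply, Finset.sum_boole]
  have h3 : (Nat.card {χ : Cfsg.IrrCharacter G // a • χ = χ} : ℂ)
      = (Nat.card {C : ConjClasses G // a • C = C} : ℂ) := by
    rw [h1, h2, ← Lib.Helper4Char2.table_mul_tableInv, ← Lib.Helper4Char2.tableInv_mul_table]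
    simp only [Matrix.mul_apply]
    have h4 : ∀ χ : Cfsg.IrrCharacter G,
        ∑ C : ConjClasses G, Lib.Helper4Char2.table G (a • χ) C * Lib.Helper4Char2.tableInv G C χ
        = ∑ C : ConjClasses G, Lib.Helper4Char2.table G χ C * Lib.Helper4Char2.tableInv G (a • C) χ := by
      intro χ
      rw [← Equiv.sum_comp (MulAction.toPerm a)]
      refine Finset.sum_congr rfl fun C _ => ?_
      simp only [MulAction.toPerm_apply, hX]
    simp only [h4]
    rw [Finset.sum_comm]
    refine Finset.sum_congr rfl fun C _ => ?_
    refine Finset.sum_congr rfl fun χ _ => ?_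
    ring
  exact_mod_cast h3

end Cfsg.Agent.S0860
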