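import Cfsg.Statements.S0861
import Cfsg.Agent.S0191
import Cfsg.Agent.S0187
import Cfsg.Agent.S0169
import Cfsg.Agent.Lib.Helper82Quot
import Cfsg.Agent.Lib.Helper4Char3

set_option autoImplicit false
open Cfsg

namespace Cfsg.Agent.S0861

open Module Lib.Helper5Galois Cfsg.Agent.Lib.Helper4Char Cfsg.Agent.Lib.Helper4Char2

theorem sum_pow_prime_pow {R : Type*} [CommRing R] (p : ℕ) (hp : p.Prime) (n : ℕ) {ι : Type*}
    (s : Finset ι) (f : ι → R) :
    ∃ r : R, (∑ i ∈ s, f i) ^ (p ^ n) = ∑ i ∈ s, f i ^ (p ^ n) + p * r := by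
  classical
  induction s using Finset.induction_on with
  | empty => exact ⟨0, by simp [hp.pos.ne']⟩
  | insert a s ha ih =>
    obtain ⟨r, hr⟩ := ih
    obtain ⟨r', hr'⟩ := exists_add_pow_prime_pow_eq hp (f a) (∑ i ∈ s, f i) n
    refine ⟨r + f a * (∑ i ∈ s, f i) * r', ?_⟩
    rw [Finset.sum_insert ha, Finset.sum_insert ha, hr', hr]
    ring

theorem dvd_degree_of_char_eq_zero {G : Type*} [Group G] [Finite G] {V : Type*} [AddCommGroup V]
    [Module ℂ V] [FiniteDimensional ℂ V] (ρ : Representation ℂ G V) (x : G) (p a : ℕ)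
    (hp : p.Prime) (hx : x ^ (p ^ a) = 1) (h0 : ρ.character x = 0) : p ∣ finrank ℂ V := by
  obtain ⟨μ, h1, -, h3, h4, -⟩ := Lib.Helper4Eigen.exists_eigenvalues ρ x
  have hint : ∀ i, IsIntegral ℤ (μ i) := by
    intro i
    have hpos : 0 < orderOf x := orderOf_pos x
    exact IsIntegral.of_pow hpos (by rw [h1]; exact isIntegral_one)
  obtain ⟨r, hr⟩ := sum_pow_prime_pow (R := integralClosure ℤ ℂ) p hp a Finset.univ
    (fun i => ⟨μ i, hint i⟩)
  have hr' := congrArg (fun z : integralClosure ℤ ℂ => (z : ℂ)) hr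
  push_cast at hr'
  rw [← h4, h0, zero_pow (pow_pos hp.pos a).ne', ← h3, hx, Representation.char_one] at hr'
  apply Lib.Helper4Char3.dvd_of_isIntegral_div _ _ hp.pos.ne'
  have hp0 : (p : ℂ) ≠ 0 := by exact_mod_cast hp.pos.ne'
  have h5 : (finrank ℂ V : ℂ) / (p : ℂ) = -(r : ℂ) := by
    field_simp
    linear_combination -hr'
  rw [h5]
  exact r.2.neg

theorem one_le_norm_prod' {G : Type*} [Group G] [Finite G] {V : Type*} [AddCommGroup V] [Module ℂ V]
    [FiniteDimensional ℂ V] (ρ : Representation ℂ G V) (g : G) [Fintype (ZMod (Nat.card G))ˣ]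
    (hne : ∀ u : (ZMod (Nat.card G))ˣ, ρ.character (g ^ (u : ZMod (Nat.card G)).val) ≠ 0) :
    1 ≤ ‖∏ u : (ZMod (Nat.card G))ˣ, ρ.character (g ^ (u : ZMod (Nat.card G)).val)‖ := by
  have hn : 0 < Nat.card G := Nat.card_pos
  have hG : ∀ g : G, g ^ Nat.card G = 1 := fun g => pow_card_eq_one'
  set x : K := ∏ u : (ZMod (Nat.card G))ˣ, charK ρ (g ^ (u : ZMod (Nat.card G)).val) with hx
  have hxc : (x : ℂ) = ∏ u : (ZMod (Nat.card G))ˣ, ρ.character (g ^ (u : ZMod (Nat.card G)).val) := by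
    rw [hx]
    push_cast
    rfl
  have hfix : ∀ ψ : K →+* ℂ, ψ x = (x : ℂ) := by
    intro ψ
    obtain ⟨m, hm, hψ⟩ := exists_pow_of_ringHom (Nat.card G) hn ψ
    rw [hxc, hx, map_prod]
    simp only [apply_charK ρ (Nat.card G) hn hG ψ m hψ, Cfsg.Agent.S0191.pow_val_mul g _ m hm]
    exact Equiv.prod_comp (Equiv.mulRight (ZMod.unitOfCoprime m hm))
      (fun u : (ZMod (Nat.card G))ˣ => ρ.character (g ^ (u : ZMod (Nat.card G)).val))
  obtain ⟨q, hq⟩ := exists_rat_of_fixed x hfix
  have hint : IsIntegral ℤ (x : ℂ) := by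
    rw [hxc]
    exact IsIntegral.prod _ (fun u _ => Lib.Helper4Eigen.char_isIntegral ρ _)
  rw [hq] at hint
  obtain ⟨y, hy⟩ := Lib.Helper4Char3.exists_int_of_isIntegral_rat q hint
  rw [← hxc, hq, ← hy]
  have hy0 : y ≠ 0 := by
    rintro rfl
    have h0 : (x : ℂ) = 0 := by rw [hq, ← hy]; simp
    rw [hxc, Finset.prod_eq_zero_iff] at h0
    obtain ⟨u, -, hu⟩ := h0
    exact hne _ hu
  have : ((y : ℚ) : ℂ) = ((y : ℤ) : ℂ) := by push_cast; rfl
  rw [this, Complex.norm_intCast]
  exact_mod_cast Int.one_le_abs hy0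

/-- Let P be a normal abelian Sylow p-subgroup of the finite group G and suppose some element g of P has centralizer exactly P. Then the number of irreducible characters of G is at most the order of P, and if equality holds then G / P is abelian (the commutator subgroup lies in P). -/
theorem result {G : Type*} [Group G] [Finite G] (p : ℕ) [Fact p.Prime] (P : Sylow p G) [(P : Subgroup G).Normal] (hab : ∀ a ∈ P, ∀ b ∈ P, a * b = b * a) (g : G) (hg : g ∈ P) (hC : Subgroup.centralizer ({g} : Set G) = P) : Nat.card (Cfsg.IrrCharacter G) ≤ Nat.card P ∧ (Nat.card (Cfsg.IrrCharacter G) = Nat.card P → commutator G ≤ P) := by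
  classical
  letI : Fintype G := Fintype.ofFinite G
  haveI : NeZero (Nat.card G) := ⟨Nat.card_pos.ne'⟩
  have hp : p.Prime := Fact.out
  obtain ⟨a, ha⟩ := P.2 ⟨g, hg⟩
  have ha' : g ^ (p ^ a) = 1 := congrArg Subtype.val ha
  set U := (ZMod (Nat.card G))ˣ with hU
  set F : IrrCharacter G → U → ℝ := fun χ u => ‖(χ : G → ℂ) (g ^ (u : ZMod (Nat.card G)).val)‖ ^ 2 with hF
  have hne : ∀ (χ : IrrCharacter G) (u : U), (χ : G → ℂ) (g ^ (u : ZMod (Nat.card G)).val) ≠ 0 := by
    intro χ u h0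
    obtain ⟨n, ρ, hρ, hρχ⟩ := χ.2
    haveI := hρ
    rw [← hρχ] at h0
    have h1 := dvd_degree_of_char_eq_zero ρ _ p a hp (by rw [← pow_mul, mul_comm, pow_mul, ha', one_pow]) h0
    have h2 := Cfsg.Agent.S0169.result ρ (P : Subgroup G) hab
    exact Sylow.not_dvd_index P (h1.trans h2)
  have horb : ∀ χ : IrrCharacter G, (Fintype.card U : ℝ) ≤ ∑ u : U, F χ u := by
    intro χ
    obtain ⟨n, ρ, hρ, hρχ⟩ := χ.2
    rw [← Finset.card_univ]
    apply Cfsg.Agent.S0191.card_le_sum_of_one_le_prod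
    · intro u _
      simp only [hF]
      have := norm_pos_iff.mpr (hne χ u)
      positivity
    · have h1 := one_le_norm_prod' ρ g (by rw [hρχ]; exact hne χ)
      rw [norm_prod, hρχ] at h1
      simp only [hF]
      rw [Finset.prod_pow]
      exact one_le_pow₀ h1
  have hcent : ∀ u : U, Subgroup.centralizer ({g ^ (u : ZMod (Nat.card G)).val} : Set G)
      = Subgroup.centralizer ({g} : Set G) := by
    intro u
    have hpow : ∀ (x : G) (k : ℕ), Subgroup.centralizer ({x} : Set G) ≤ Subgroup.centralizer ({x ^ k} : Set G) := by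
      intro x k y hy
      rw [Subgroup.mem_centralizer_singleton_iff] at hy ⊢
      exact ((Commute.pow_right (show Commute y x from hy) k)).eq
    apply le_antisymm _ (hpow g _)
    have h1 := Cfsg.Agent.S0191.pow_val_mul g u _ (ZMod.val_coe_unit_coprime u⁻¹)
    have h2 : (u * ZMod.unitOfCoprime _ (ZMod.val_coe_unit_coprime u⁻¹) : U) = 1 := by
      have : ZMod.unitOfCoprime _ (ZMod.val_coe_unit_coprime u⁻¹) = u⁻¹ := by
        apply Units.ext
        simp
      rw [this, mul_inv_cancel]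
    rw [h2] at h1
    have h3 : g ^ ((1 : U) : ZMod (Nat.card G)).val = g := by
      rw [Units.val_one]
      have h4 : g ^ (1 : ZMod (Nat.card G)).val = g ^ 1 := by
        apply (pow_eq_pow_iff_modEq).mpr
        apply Nat.ModEq.of_dvd (orderOf_dvd_natCard g)
        rw [← ZMod.natCast_eq_natCast_iff]
        simp
      rw [h4, pow_one]
    rw [h3] at h1
    have h5 := hpow (g ^ (u : ZMod (Nat.card G)).val) ((u⁻¹ : U) : ZMod (Nat.card G)).val
    rwa [h1] at h5
  have hcol : ∀ u : U, ∑ χ : IrrCharacter G, F χ u = (Nat.card P : ℝ) := by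
    intro u
    have h1 := col_orth (g ^ (u : ZMod (Nat.card G)).val) (g ^ (u : ZMod (Nat.card G)).val)
    rw [if_pos (IsConj.refl _), hcent, hC] at h1
    have h2 : ∀ χ : IrrCharacter G, (χ : G → ℂ) (g ^ (u : ZMod (Nat.card G)).val) *
        (starRingEnd ℂ) ((χ : G → ℂ) (g ^ (u : ZMod (Nat.card G)).val)) = ((F χ u : ℝ) : ℂ) := by
      intro χ
      rw [Complex.mul_conj, Complex.normSq_eq_norm_sq]
    rw [Finset.sum_congr rfl (fun χ _ => h2 χ)] at h1
    have h3 : ((∑ χ : IrrCharacter G, F χ u : ℝ) : ℂ) = ((Nat.card P : ℝ) : ℂ) := by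
      push_cast
      exact h1
    exact_mod_cast h3
  have htot : ∑ χ : IrrCharacter G, ∑ u : U, F χ u = (Fintype.card U : ℝ) * (Nat.card P : ℝ) := by
    rw [Finset.sum_comm, Finset.sum_congr rfl (fun u _ => hcol u), Finset.sum_const,
      Finset.card_univ, nsmul_eq_mul]
  have hUpos : (0 : ℝ) < Fintype.card U := by exact_mod_cast Fintype.card_pos
  have hle : (Fintype.card (IrrCharacter G) : ℝ) * (Fintype.card U : ℝ) ≤ (Fintype.card U : ℝ) * (Nat.card P : ℝ) := by
    rw [← htot]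
    calc (Fintype.card (IrrCharacter G) : ℝ) * (Fintype.card U : ℝ)
        = ∑ χ : IrrCharacter G, (Fintype.card U : ℝ) := by
          rw [Finset.sum_const, Finset.card_univ, nsmul_eq_mul]
      _ ≤ _ := Finset.sum_le_sum (fun χ _ => horb χ)
  rw [Nat.card_eq_fintype_card (α := IrrCharacter G)]
  constructor
  · have h1 : (Fintype.card (IrrCharacter G) : ℝ) ≤ (Nat.card P : ℝ) := by
      by_contra hcon
      push Not at hcon
      nlinarith
    exact_mod_cast h1
  · intro heq
    have heq' : ∑ χ : IrrCharacter G, (Fintype.card U : ℝ) = ∑ χ : IrrCharacter G, ∑ u : U, F χ u := by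
      rw [htot, Finset.sum_const, Finset.card_univ, nsmul_eq_mul, heq, mul_comm]
    have hall := (Finset.sum_eq_sum_iff_of_le (fun χ _ => horb χ)).1 heq'
    have hlin : ∀ ψ : IrrCharacter (G ⧸ (P : Subgroup G)), (ψ : G ⧸ (P : Subgroup G) → ℂ) 1 = 1 := by
      intro ψ
      have h1 := hall (Lib.Helper82Quot.inflate _ ψ) (Finset.mem_univ _)
      obtain ⟨d, hd0, hd⟩ := IsIrrCharacter.exists_degree ψ.2
      have h2 : ∀ u : U, F (Lib.Helper82Quot.inflate _ ψ) u = (d : ℝ) ^ 2 := by
        intro u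
        simp only [hF]
        rw [Lib.Helper82Quot.inflate_apply,
          (QuotientGroup.eq_one_iff _).2 ((P : Subgroup G).pow_mem hg _), hd]
        simp
      rw [Finset.sum_congr rfl (fun u _ => h2 u), Finset.sum_const, Finset.card_univ,
        nsmul_eq_mul] at h1
      have h3 : (d : ℝ) ^ 2 = 1 := by
        have := mul_left_cancel₀ hUpos.ne' (show (Fintype.card U : ℝ) * 1 = (Fintype.card U : ℝ) * (d : ℝ) ^ 2 by rw [mul_one]; exact h1)
        exact this.symm
      have h4 : d ^ 2 = 1 := by exact_mod_cast h3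
      have h5 : d = 1 := by
        rcases Nat.lt_or_ge d 2 with h | h
        · omega
        · nlinarith
      rw [hd, h5]; simp
    have hcomm := (Cfsg.Agent.S0187.result (G := G ⧸ (P : Subgroup G))).2 hlin
    rw [commutator_def, Subgroup.commutator_le]
    intro x _ y _
    rw [← QuotientGroup.eq_one_iff, commutatorElement_def]
    simp only [QuotientGroup.mk_mul, QuotientGroup.mk_inv]
    rw [hcomm (x : G ⧸ (P : Subgroup G)) y]
    group

end Cfsg.Agent.S0861
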