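import Cfsg.Statements.S0863
import Cfsg.Agent.Lib.Helper19Det2

set_option autoImplicit false
open Cfsg

namespace Cfsg.Agent.S0863

/-- Let N be a normal subgroup of the finite group G with G / N solvable, and ϑ an irreducible character of N, invariant under conjugation by G, of degree d coprime to the index of N. Then ϑ is the restriction of an irreducible character of G if and only if the determinantal character of ϑ is the restriction of a character of G of degree 1. -/
theorem result {G : Type*} [Group G] [Finite G] (N : Subgroup G) [hN : N.Normal] (hsolv : Group.IsSolvable (G ⧸ N)) (ϑ : N → ℂ) (hϑ : Cfsg.IsIrrCharacter N ϑ) (hinv : ∀ (g : G) (n : N), ϑ ⟨g * n * g⁻¹, hN.conj_mem (n : G) n.2 g⟩ = ϑ n) (d : ℕ) (hd : ϑ 1 = d) (hcop : Nat.Coprime N.index d) : (∃ χ : G → ℂ, Cfsg.IsIrrCharacter G χ ∧ (∀ n : N, χ n = ϑ n)) ↔ ∃ μ : G → ℂ, Cfsg.IsCharacter G μ ∧ μ 1 = 1 ∧ ∀ n : N, μ n = Cfsg.detChar ϑ n := by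
  classical
  have hc : ∀ (g : G) (n : N), N.subtype (MulAut.conjNormal g n) = g * N.subtype n * g⁻¹ :=
    fun g n => MulAut.conjNormal_apply g n
  constructor
  · rintro ⟨χ, hχ, hχN⟩
    have hχc := Lib.Helper4Char.IsIrrCharacter.isCharacter hχ
    obtain ⟨f, hf⟩ := Lib.Helper19Det.exists_detHom hχc
    refine ⟨Lib.Helper19Lin.homFun f, Lib.Helper19Lin.isCharacter_homFun f,
      Lib.Helper19Lin.homFun_one f, fun n => ?_⟩
    have h1 := congrFun (Lib.Helper19Det.detChar_comp N.subtype hχc) n
    have h2 : (fun n => χ (N.subtype n)) = ϑ := funext hχN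
    rw [h2, hf] at h1
    exact h1.symm
  · rintro ⟨μ, hμ, hμ1, hμN⟩
    obtain ⟨f, rfl⟩ := Lib.Helper19Lin.exists_hom_of_linear hμ hμ1
    exact Lib.Helper19Det2.ext_of_det_solvable hϑ d hd _ G N.subtype N.subtype_injective
      MulAut.conjNormal hc (by
        rw [Subgroup.range_subtype]
        exact Lib.Helper19Solv.derivedSeries_le_of_solvable_quotient N hsolv)
      (fun g n => hinv g n) (by rw [Subgroup.range_subtype]; exact hcop) f hμN rfl

end Cfsg.Agent.S0863
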