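import Cfsg.Statements.S0864
import Cfsg.Agent.Lib.Helper19Lin

set_option autoImplicit false
open Cfsg

namespace Cfsg.Agent.S0864

theorem abstract_mem {B : Type*} [CommGroup B] (E : Subgroup B) (f : B)
    (h : ∀ p : ℕ, p.Prime → p ∣ orderOf f → ∃ m : ℕ, Nat.Coprime m p ∧ f ^ m ∈ E) : f ∈ E := by
  set d := orderOf (QuotientGroup.mk f : B ⧸ E) with hd
  have hd1 : d = 1 := by
    by_contra hne
    obtain ⟨p, hp, hpd⟩ := Nat.exists_prime_and_dvd hne
    have hdo : d ∣ orderOf f := by
      apply orderOf_dvd_of_pow_eq_one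
      rw [← QuotientGroup.mk_pow, pow_orderOf_eq_one]; rfl
    obtain ⟨m, hcop, hm⟩ := h p hp (hpd.trans hdo)
    have h2 : d ∣ m := by
      apply orderOf_dvd_of_pow_eq_one
      rw [← QuotientGroup.mk_pow, QuotientGroup.eq_one_iff]
      exact hm
    have h3 := Nat.Coprime.eq_one_of_dvd hcop.symm (hpd.trans h2)
    exact hp.one_lt.ne' h3
  rw [hd, orderOf_eq_one_iff, QuotientGroup.eq_one_iff] at hd1
  exact hd1

/-- Let N be a normal subgroup of the finite group G and λ a character of N of degree 1 invariant under conjugation by G. Suppose that for every prime p dividing the order of λ (in the group of functions under pointwise multiplication) there is a subgroup H containing N, of index prime to p and with the index of N in H a power of p, together with a character of H of degree 1 restricting to λ. Then λ is the restriction of a character of G of degree 1. -/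
theorem result {G : Type*} [Group G] [Finite G] (N : Subgroup G) [hN : N.Normal] (lam : N → ℂ) (hlam : Cfsg.IsCharacter N lam ∧ lam 1 = 1) (hinv : ∀ (g : G) (n : N), lam ⟨g * n * g⁻¹, hN.conj_mem (n : G) n.2 g⟩ = lam n) (hsyl : ∀ p : ℕ, p.Prime → p ∣ orderOf lam → ∃ (H : Subgroup G) (hNH : N ≤ H) (ν : H → ℂ), Nat.Coprime H.index p ∧ (∃ k : ℕ, N.relIndex H = p ^ k) ∧ Cfsg.IsCharacter H ν ∧ ν 1 = 1 ∧ ∀ n : N, ν ⟨(n : G), hNH n.2⟩ = lam n) : ∃ μ : G → ℂ, Cfsg.IsCharacter G μ ∧ μ 1 = 1 ∧ ∀ n : N, μ n = lam n := by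
  classical
  obtain ⟨f, rfl⟩ := Lib.Helper19Lin.exists_hom_of_linear hlam.1 hlam.2
  have hinv' : ∀ (g : G) (d : N), f ⟨g * d * g⁻¹, hN.conj_mem (d : G) d.2 g⟩ = f d := by
    intro g d
    exact Units.ext (hinv g d)
  have hfE : f ∈ (Lib.Helper19Lin.res N).range := by
    apply abstract_mem
    intro p hp hpd
    obtain ⟨H, hNH, ν, hcop, _, hν, hν1, hνN⟩ :=
      hsyl p hp (by rw [Lib.Helper19Lin.orderOf_homFun]; exact hpd)
    obtain ⟨ν', rfl⟩ := Lib.Helper19Lin.exists_hom_of_linear hν hν1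
    exact ⟨H.index, hcop, MonoidHom.transfer ν',
      Lib.Helper19Lin.res_transfer_of_invariant N H hNH f hinv' ν' (fun n => Units.ext (hνN n))⟩
  obtain ⟨μ, hμ⟩ := hfE
  refine ⟨Lib.Helper19Lin.homFun μ, Lib.Helper19Lin.isCharacter_homFun μ, Lib.Helper19Lin.homFun_one μ, ?_⟩
  intro x
  have := DFunLike.congr_fun hμ x
  rw [Lib.Helper19Lin.homFun_apply, Lib.Helper19Lin.homFun_apply, ← this]
  rfl

end Cfsg.Agent.S0864
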