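import Cfsg.Statements.S0869
import Mathlib

set_option autoImplicit false
open Cfsg

namespace Cfsg.Agent.S0869

/-- Let S be a nonempty finite type and R an additive subgroup of the integer-valued functions on S that is closed under pointwise multiplication. If the constant function 1 is not in R, then there exist a point x of S and a prime p such that p divides f x for every f in R. -/
theorem result {S : Type*} [Finite S] [Nonempty S] (R : AddSubgroup (S → ℤ)) (hmul : ∀ f ∈ R, ∀ g ∈ R, f * g ∈ R) (h1 : (1 : S → ℤ) ∉ R) : ∃ (x : S) (p : ℕ), p.Prime ∧ ∀ f ∈ R, (p : ℤ) ∣ f x := by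
  classical
  by_contra hcon
  push_neg at hcon
  apply h1
  have key : ∀ x : S, ∃ f ∈ R, f x = 1 := by
    intro x
    let I : AddSubgroup ℤ := R.map (Pi.evalAddMonoidHom (fun _ : S => ℤ) x)
    obtain ⟨a, ha⟩ := Int.subgroup_cyclic I
    have hmem : ∀ f ∈ R, a ∣ f x := by
      intro f hf
      have : f x ∈ I := ⟨f, hf, rfl⟩
      rw [ha, AddSubgroup.mem_closure_singleton] at this
      obtain ⟨n, hn⟩ := this
      exact ⟨n, by rw [← hn]; simp [mul_comm]⟩
    by_cases h : a.natAbs = 1
    · have haI : a ∈ I := by rw [ha]; exact AddSubgroup.subset_closure rfl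
      obtain ⟨f, hf, hfx⟩ := haI
      rcases Int.natAbs_eq a with h' | h'
      · exact ⟨f, hf, by
          have : f x = a := hfx
          rw [this, h', h]; rfl⟩
      · refine ⟨-f, R.neg_mem hf, ?_⟩
        have : f x = a := hfx
        simp only [Pi.neg_apply, this]
        rw [h', h]; rfl
    · obtain ⟨p, hp, hpa⟩ := Nat.exists_prime_and_dvd h
      obtain ⟨f, hf, hfx⟩ := hcon x p hp
      exact absurd ((Int.natCast_dvd.mpr hpa).trans (hmem f hf)) hfx
  choose f hfR hfx using key
  haveI := Fintype.ofFinite S
  have step : ∀ T : Finset S, ∃ g ∈ R, ∏ x ∈ T, (1 - f x) = 1 - g := by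
    intro T
    induction T using Finset.induction_on with
    | empty => exact ⟨0, R.zero_mem, by simp⟩
    | insert a T ha ih =>
      obtain ⟨g, hg, hgT⟩ := ih
      refine ⟨f a + g - f a * g, R.sub_mem (R.add_mem (hfR a) hg) (hmul _ (hfR a) _ hg), ?_⟩
      rw [Finset.prod_insert ha, hgT]; ring
  obtain ⟨g, hg, hgT⟩ := step Finset.univ
  have hz : ∏ x : S, (1 - f x) = 0 := by
    funext y
    rw [Finset.prod_apply]
    exact Finset.prod_eq_zero (Finset.mem_univ y) (by simp [hfx])
  rw [hz] at hgT
  have : g = 1 := by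
    have := sub_eq_zero.mp hgT.symm
    exact this.symm
  rw [← this]; exact hg

end Cfsg.Agent.S0869
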