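import Cfsg.Statements.S0875
import Cfsg.Agent.Lib.Helper19Section
import Cfsg.Agent.S0163

set_option autoImplicit false
open Cfsg

namespace Cfsg.Agent.S0875

open Lib.Helper4Char Lib.Helper4Char4 Lib.Helper19Cliff Lib.Helper19Section
open scoped ComplexConjugate

theorem inner_list_mem {G : Type*} [Group G] [Fintype G] (ϑ : G → ℂ)
    (h : ∀ (E : Subgroup G) (lam : E →* ℂˣ), (∃ p : ℕ, p.Prime ∧ Cfsg.IsElementary p E) →
      Cfsg.classInner ϑ (Cfsg.indFun E (fun e => (lam e : ℂ))) ∈ Cfsg.AlgInt)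
    (l : List ((E : Subgroup G) × ((E →* ℂˣ) × ℤ)))
    (hl : ∀ t ∈ l, ∃ p : ℕ, p.Prime ∧ Cfsg.IsElementary p t.1) :
    Cfsg.classInner ϑ (l.map fun t => (t.2.2 : ℂ) • Cfsg.indFun t.1 (fun e => (t.2.1 e : ℂ))).sum
      ∈ Cfsg.AlgInt := by
  induction l with
  | nil =>
    simp only [List.map_nil, List.sum_nil, classInner_zero_right]
    exact Subalgebra.zero_mem _
  | cons t l ih =>
    simp only [List.map_cons, List.sum_cons, classInner_add_right, classInner_smul_right]
    apply Subalgebra.add_mem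
    · apply Subalgebra.mul_mem
      · rw [map_intCast]
        exact Subalgebra.intCast_mem _ _
      · exact h t.1 t.2.1 (hl t (List.mem_cons_self))
    · exact ih fun s hs => hl s (List.mem_cons_of_mem _ hs)

/-- Let G be a finite group of order m * n with m and n coprime, and g an element whose order is coprime to m. Every x in G factors uniquely as x = u * v with u, v commuting, the order of u coprime to n and the order of v coprime to m; let ϑ be the function on G equal to n at those x whose factor v is conjugate to g and equal to 0 elsewhere. Then ϑ is a linear combination of the irreducible characters of G with algebraic-integer coefficients. -/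
theorem result {G : Type*} [Group G] [Fintype G] (m n : ℕ) (hmn : Nat.card G = m * n) (hcop : Nat.Coprime m n) (g : G) (hg : Nat.Coprime (orderOf g) m) (ϑ : G → ℂ) (hϑ1 : ∀ x : G, (∃ v : G, IsConj v g ∧ (∃ u : G, x = u * v ∧ Commute u v ∧ Nat.Coprime (orderOf u) n ∧ Nat.Coprime (orderOf v) m)) → ϑ x = n) (hϑ0 : ∀ x : G, (¬ ∃ v : G, IsConj v g ∧ (∃ u : G, x = u * v ∧ Commute u v ∧ Nat.Coprime (orderOf u) n ∧ Nat.Coprime (orderOf v) m)) → ϑ x = 0) : ∃ c : Cfsg.IrrCharacter G → ℂ, (∀ χ, c χ ∈ Cfsg.AlgInt) ∧ ϑ = ∑ᶠ χ : Cfsg.IrrCharacter G, c χ • (χ : G → ℂ) := by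
  classical
  obtain ⟨k, k', hk1, hk2, hk1', hk2'⟩ := exists_exponents m n hcop
  have hexp : ∀ x : G, x ^ (m * n) = 1 := by
    intro x
    rw [← hmn, pow_card_eq_one']
  have hϑ : ∀ x, ϑ x = if IsConj (x ^ k) g then (n : ℂ) else 0 := by
    intro x
    split_ifs with h
    · exact hϑ1 x ((section_iff hexp hcop hk1 hk2 hk1' hk2' x g).2 h)
    · exact hϑ0 x (fun h' => h ((section_iff hexp hcop hk1 hk2 hk1' hk2' x g).1 h'))
  have hclass : Cfsg.IsClassFunction G ϑ := by
    intro x y
    rw [hϑ, hϑ, conj_pow]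
    have : IsConj (y * x ^ k * y⁻¹) g ↔ IsConj (x ^ k) g := by
      constructor
      · intro h
        exact (isConj_iff.2 ⟨y, rfl⟩ : IsConj (x ^ k) (y * x ^ k * y⁻¹)).trans h
      · intro h
        exact (isConj_iff.2 ⟨y, rfl⟩ : IsConj (x ^ k) (y * x ^ k * y⁻¹)).symm.trans h
    simp only [this]
  refine ⟨fun χ => Cfsg.classInner ϑ χ, ?_, ?_⟩
  · intro χ
    obtain ⟨l, hl, hsum⟩ := S0163.result (χ : G → ℂ) (IsIrrCharacter.isCharacter χ.2)
    show Cfsg.classInner ϑ (χ : G → ℂ) ∈ Cfsg.AlgInt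
    rw [hsum]
    apply inner_list_mem ϑ _ l hl
    rintro E lam ⟨p, hp, hE⟩
    rw [← ind_subtype, ← classInner_conj_symm, frobenius E.subtype _ _ hclass, classInner_conj_symm]
    have h1 : (fun n_1 : E => ϑ (E.subtype n_1))
        = fun e : E => if e ^ k ∈ {y : E | IsConj (y : G) g} then (n : ℂ) else 0 := by
      funext e
      rw [hϑ]
      rfl
    rw [h1]
    exact isIntegral_inner_section hp hE (hmn ▸ Subgroup.card_subgroup_dvd_card E) hcop hk1 hk2 hk1'
      hk2' _ lam
  · rw [finsum_eq_sum_of_fintype]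
    exact classFunction_eq_sum ϑ hclass

end Cfsg.Agent.S0875
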