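import Cfsg.Statements.S0876
import Cfsg.Agent.Lib.Helper19Section
import Cfsg.Agent.S0875
import Cfsg.Agent.Lib.Helper20Avg
import Cfsg.Agent.Lib.Helper20Local

set_option autoImplicit false
open Cfsg

namespace Cfsg.Agent.S0876

/-- Let G be a finite group, p a prime and M a maximal ideal of the ring of algebraic integers containing p. Let x, y be elements with p-parts a and b (so a⁻¹ * x and b⁻¹ * y are their p-regular parts). Then a⁻¹ * x and b⁻¹ * y are conjugate in G if and only if, for every irreducible character χ, the difference χ x - χ y lies in the local ideal at M. -/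
theorem result {G : Type*} [Group G] [Finite G] (p : ℕ) (M : Ideal Cfsg.AlgInt) (hM : Cfsg.IsPModular p M) (x y a b : G) (ha : Cfsg.IsPPart p x a) (hb : Cfsg.IsPPart p y b) : IsConj (a⁻¹ * x) (b⁻¹ * y) ↔ ∀ χ : Cfsg.IrrCharacter G, Cfsg.MemLocalIdeal M ((χ : G → ℂ) x - (χ : G → ℂ) y) := by
  classical
  letI : Fintype G := Fintype.ofFinite G
  have hp : p.Prime := hM.1
  haveI : Fact p.Prime := ⟨hp⟩
  have hPr := Lib.Helper20Local.IsPModular.isPrime hM
  obtain ⟨x', hx1, hx2, ⟨kx, hx3⟩, hx4⟩ := ha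
  obtain ⟨y', hy1, hy2, ⟨ky, hy3⟩, hy4⟩ := hb
  have ex : a⁻¹ * x = x' := by rw [← hx1]; group
  have ey : b⁻¹ * y = y' := by rw [← hy1]; group
  rw [ex, ey]
  have hax : ∀ χ : Cfsg.IrrCharacter G, Cfsg.MemLocalIdeal M ((χ : G → ℂ) x - (χ : G → ℂ) x') := by
    intro χ
    rw [← hx1]
    exact Lib.Helper20Avg.char_mul_sub_mem hM (Lib.Helper4Char.IsIrrCharacter.isCharacter χ.2) hx2
      (k := kx) (by rw [← hx3, pow_orderOf_eq_one])
  have hby : ∀ χ : Cfsg.IrrCharacter G, Cfsg.MemLocalIdeal M ((χ : G → ℂ) y - (χ : G → ℂ) y') := by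
    intro χ
    rw [← hy1]
    exact Lib.Helper20Avg.char_mul_sub_mem hM (Lib.Helper4Char.IsIrrCharacter.isCharacter χ.2) hy2
      (k := ky) (by rw [← hy3, pow_orderOf_eq_one])
  constructor
  · intro hconj χ
    obtain ⟨t, ht⟩ := isConj_iff.1 hconj
    have h1 : (χ : G → ℂ) y' = (χ : G → ℂ) x' := by
      rw [← ht]
      exact Lib.Helper4Char.IsIrrCharacter.isClassFunction χ.2 x' t
    have h2 := Lib.Helper20Local.liSub hPr (hax χ) (hby χ)
    have h3 : (χ : G → ℂ) x - (χ : G → ℂ) x' - ((χ : G → ℂ) y - (χ : G → ℂ) y')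
        = (χ : G → ℂ) x - (χ : G → ℂ) y := by rw [h1]; ring
    rwa [h3] at h2
  · intro hall
    obtain ⟨e, n, hn, hcard⟩ := Nat.exists_eq_pow_mul_and_not_dvd (Nat.card_pos (α := G)).ne' p
      hp.ne_one
    have hcop : Nat.Coprime (p ^ e) n := Nat.Coprime.pow_left e ((Nat.Prime.coprime_iff_not_dvd hp).2 hn)
    have hx'cop : Nat.Coprime (orderOf x') (p ^ e) :=
      (Nat.Coprime.pow_left e ((Nat.Prime.coprime_iff_not_dvd hp).2 hx4)).symm
    have hy'cop : Nat.Coprime (orderOf y') (p ^ e) :=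
      (Nat.Coprime.pow_left e ((Nat.Prime.coprime_iff_not_dvd hp).2 hy4)).symm
    obtain ⟨ϑ, hϑ⟩ : ∃ ϑ : G → ℂ, ϑ = fun w => if (∃ v : G, IsConj v x' ∧ (∃ u : G, w = u * v ∧
        Commute u v ∧ Nat.Coprime (orderOf u) n ∧ Nat.Coprime (orderOf v) (p ^ e)))
        then (n : ℂ) else 0 := ⟨_, rfl⟩
    obtain ⟨c, hc, hsum⟩ := S0875.result (p ^ e) n hcard hcop x' hx'cop ϑ
      (fun w hw => by rw [hϑ]; exact if_pos hw) (fun w hw => by rw [hϑ]; exact if_neg hw)
    rw [finsum_eq_sum_of_fintype] at hsum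
    have hϑx : ϑ x = n := by
      rw [hϑ]
      apply if_pos
      refine ⟨x', IsConj.refl _, a, hx1.symm, hx2, ?_, hx'cop⟩
      rw [hx3]
      exact Nat.Coprime.pow_left kx ((Nat.Prime.coprime_iff_not_dvd hp).2 hn)
    have hdiff : Cfsg.MemLocalIdeal M (ϑ x - ϑ y) := by
      rw [hsum]
      simp only [Finset.sum_apply, Pi.smul_apply, smul_eq_mul]
      rw [← Finset.sum_sub_distrib]
      apply Lib.Helper20Local.liSum hPr
      intro χ _
      rw [← mul_sub]
      exact Lib.Helper20Local.liMulLeft hPr (Lib.Helper20Local.memLocalRing_coe hPr ⟨c χ, hc χ⟩)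
        (hall χ)
    have hy : ∃ v : G, IsConj v x' ∧ (∃ u : G, y = u * v ∧
        Commute u v ∧ Nat.Coprime (orderOf u) n ∧ Nat.Coprime (orderOf v) (p ^ e)) := by
      by_contra hcon
      have hϑy : ϑ y = 0 := by rw [hϑ]; exact if_neg hcon
      rw [hϑx, hϑy, sub_zero] at hdiff
      exact hn ((Lib.Helper20Local.memLocalIdeal_natCast_iff hM n).1 hdiff)
    obtain ⟨k, k', hk1, hk2, hk1', hk2'⟩ := Lib.Helper19Section.exists_exponents (p ^ e) n hcop
    have hexp : ∀ w : G, w ^ (p ^ e * n) = 1 := by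
      intro w
      rw [← hcard, pow_card_eq_one']
    have h1 := (Lib.Helper19Section.section_iff hexp hcop hk1 hk2 hk1' hk2' y x').1 hy
    have h2 := (Lib.Helper19Section.section_iff hexp hcop hk1 hk2 hk1' hk2' y y').1
      ⟨y', IsConj.refl _, b, hy1.symm, hy2, by
        rw [hy3]
        exact Nat.Coprime.pow_left ky ((Nat.Prime.coprime_iff_not_dvd hp).2 hn), hy'cop⟩
    exact h1.symm.trans h2

end Cfsg.Agent.S0876
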