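import Cfsg.Statements.S0877
import Cfsg.Agent.Lib.Helper32Virt
import Cfsg.Agent.Lib.Helper82Quot
import Cfsg.Agent.Lib.Helper82Linear
import Cfsg.Agent.Lib.Helper4Char3
import Cfsg.Agent.Lib.Helper19Section
import Cfsg.Agent.Lib.Helper19Brauer
import Cfsg.Agent.S0164

set_option autoImplicit false
open Cfsg

namespace Cfsg.Agent.S0877

open Cfsg.Agent.Lib.Helper4Char Cfsg.Agent.Lib.Helper4Char2 Cfsg.Agent.Lib.Helper4Char3
  Cfsg.Agent.Lib.Helper4Char4 Cfsg.Agent.Lib.Helper32Virt Cfsg.Agent.Lib.Helper82Quot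
  Cfsg.Agent.Lib.Helper82Linear Cfsg.Agent.Lib.Helper19Section Cfsg.Agent.Lib.Helper19Brauer
open scoped ComplexConjugate

theorem avg {G H : Type*} [Group G] [Group H] [Fintype G] [Fintype H] (r : G → H)
    (hgen : ∀ θ : H → ℂ, IsIrrCharacter H θ → IsGeneralizedCharacter G (fun x => θ (r x)))
    (hsurj : ∀ h : H, ∃ x : G, IsConj (r x) h) (φ : H → ℂ) (hφ : IsClassFunction H φ) :
    (Nat.card G : ℂ)⁻¹ * ∑ x : G, φ (r x) = (Nat.card H : ℂ)⁻¹ * ∑ h : H, φ h := by
  classical
  have hG0 : (Nat.card G : ℂ) ≠ 0 := Nat.cast_ne_zero.2 Nat.card_pos.ne'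
  have hH0 : (Nat.card H : ℂ) ≠ 0 := Nat.cast_ne_zero.2 Nat.card_pos.ne'
  set lam : IrrCharacter H → ℂ := fun θ => (Nat.card G : ℂ)⁻¹ * ∑ x : G, (θ : H → ℂ) (r x) with hlam
  have hlamZ : ∀ θ, ∃ z : ℤ, lam θ = z := by
    intro θ
    obtain ⟨z, hz⟩ := gen_inner_int (hgen θ θ.2) (gen_of_irr (isIrrCharacter_one (G := G)))
    refine ⟨z, ?_⟩
    rw [← hz]; simp [classInner, hlam]
  set N : H → ℕ := fun h => ∑ x : G,
    if IsConj (r x) h then Nat.card (Subgroup.centralizer ({r x} : Set H)) else 0 with hN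
  have ha : ∀ h, ∑ θ : IrrCharacter H, lam θ * conj ((θ : H → ℂ) h)
      = (N h : ℂ) / (Nat.card G : ℂ) := by
    intro h
    simp only [hlam, hN]
    have : ∀ θ : IrrCharacter H, (Nat.card G : ℂ)⁻¹ * (∑ x : G, (θ : H → ℂ) (r x)) * conj ((θ : H → ℂ) h)
        = (Nat.card G : ℂ)⁻¹ * ∑ x : G, (θ : H → ℂ) (r x) * conj ((θ : H → ℂ) h) := by
      intro θ
      rw [mul_assoc, Finset.sum_mul]
    rw [Finset.sum_congr rfl (fun θ _ => this θ), ← Finset.mul_sum, Finset.sum_comm,
      Finset.sum_congr rfl (fun x _ => col_orth (r x) h)]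
    push_cast
    rw [div_eq_inv_mul]
  have hNpos : ∀ h, 0 < N h := by
    intro h
    obtain ⟨x, hx⟩ := hsurj h
    apply Finset.sum_pos'
    · intro _ _; exact Nat.zero_le _
    · exact ⟨x, Finset.mem_univ _, by rw [if_pos hx]; exact Nat.card_pos⟩
  have hNdvd : ∀ h, Nat.card G ∣ N h := by
    intro h
    apply dvd_of_isIntegral_div _ _ Nat.card_pos.ne'
    rw [← ha]
    apply IsIntegral.sum
    intro θ _
    obtain ⟨z, hz⟩ := hlamZ θ
    rw [hz]
    apply IsIntegral.mul isIntegral_algebraMap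
    have h2 := IsCharacter.isIntegral (IsIrrCharacter.isCharacter (IsIrrCharacter.conj θ.2)) h
    exact h2
  have hNle : ∀ h, Nat.card G ≤ N h := fun h => Nat.le_of_dvd (hNpos h) (hNdvd h)
  have hsumθ : ∀ θ : IrrCharacter H, ∑ h : H, conj ((θ : H → ℂ) h)
      = if (fun _ => 1 : H → ℂ) = (θ : H → ℂ) then (Nat.card H : ℂ) else 0 := by
    intro θ
    have h1 := classInner_irr (isIrrCharacter_one (G := H)) θ.2
    unfold classInner at h1
    simp only [one_mul] at h1
    rw [inv_mul_eq_iff_eq_mul₀ hH0] at h1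
    rw [h1]
    split_ifs <;> simp
  have hsum : ∑ h : H, (N h : ℂ) / (Nat.card G : ℂ) = (Nat.card H : ℂ) := by
    rw [← Finset.sum_congr rfl (fun h _ => ha h), Finset.sum_comm]
    simp only [← Finset.mul_sum, hsumθ]
    rw [Finset.sum_eq_single (⟨fun _ => 1, isIrrCharacter_one⟩ : IrrCharacter H)]
    · rw [if_pos rfl]
      simp only [hlam, Finset.sum_const, Finset.card_univ, nsmul_eq_mul, mul_one]
      rw [← Nat.card_eq_fintype_card, inv_mul_cancel₀ hG0, one_mul]
    · intro θ _ hθ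
      rw [if_neg, mul_zero]
      intro h
      exact hθ (Subtype.ext h.symm)
    · intro h; exact absurd (Finset.mem_univ _) h
  have hsumN : ∑ h : H, N h = ∑ h : H, Nat.card G := by
    rw [← Finset.sum_div, div_eq_iff hG0] at hsum
    rw [Finset.sum_const, Finset.card_univ, smul_eq_mul, ← Nat.card_eq_fintype_card]
    exact_mod_cast hsum
  have hNeq : ∀ h, N h = Nat.card G := by
    intro h
    exact ((Finset.sum_eq_sum_iff_of_le (fun h _ => hNle h)).1 hsumN.symm h (Finset.mem_univ _)).symm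
  have ha1 : ∀ h, ∑ θ : IrrCharacter H, lam θ * conj ((θ : H → ℂ) h) = 1 := by
    intro h
    rw [ha, hNeq, div_self hG0]
  have hφx : ∀ y : H, φ y = ∑ θ : IrrCharacter H, classInner φ θ * (θ : H → ℂ) y := by
    intro y
    conv_lhs => rw [classFunction_eq_sum φ hφ]
    simp [Finset.sum_apply]
  calc (Nat.card G : ℂ)⁻¹ * ∑ x : G, φ (r x)
      = ∑ θ : IrrCharacter H, classInner φ θ * lam θ := by
        simp only [hlam]
        rw [Finset.sum_congr rfl (fun x _ => hφx (r x)), Finset.sum_comm, Finset.mul_sum]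
        apply Finset.sum_congr rfl
        intro θ _
        rw [← Finset.mul_sum]; ring
    _ = (Nat.card H : ℂ)⁻¹ * ∑ h : H, φ h * ∑ θ : IrrCharacter H, lam θ * conj ((θ : H → ℂ) h) := by
        unfold classInner
        simp only [Finset.mul_sum, Finset.sum_mul]
        rw [Finset.sum_comm]
        apply Finset.sum_congr rfl
        intro h _
        apply Finset.sum_congr rfl
        intro θ _
        ring
    _ = (Nat.card H : ℂ)⁻¹ * ∑ h : H, φ h := by
        simp only [ha1, mul_one]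

theorem exists_kernel {G H : Type*} [Group G] [Group H] [Fintype G] [Fintype H] (r : G → H)
    (hgen : ∀ θ : H → ℂ, IsIrrCharacter H θ → IsGeneralizedCharacter G (fun x => θ (r x)))
    (hsurj : ∀ h : H, ∃ x : G, IsConj (r x) h) (h1 : r 1 = 1) :
    ∃ K : Subgroup G, K.Normal ∧ (∀ x, x ∈ K ↔ r x = 1) ∧
      Nat.card K * Nat.card H = Nat.card G := by
  classical
  have hG0 : (Nat.card G : ℂ) ≠ 0 := Nat.cast_ne_zero.2 Nat.card_pos.ne'
  have hH0 : (Nat.card H : ℂ) ≠ 0 := Nat.cast_ne_zero.2 Nat.card_pos.ne'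
  have hirr : ∀ θ : H → ℂ, IsIrrCharacter H θ → IsIrrCharacter G (fun x => θ (r x)) := by
    intro θ hθ
    have hn : classInner (fun x => θ (r x)) (fun x => θ (r x)) = 1 := by
      have h3 := avg r hgen hsurj (fun h => θ h * conj (θ h))
        (IsClassFunction.mul (IsIrrCharacter.isClassFunction hθ)
          (IsClassFunction.conj (IsIrrCharacter.isClassFunction hθ)))
      have h2 := classInner_irr_self hθ
      unfold classInner at h2 ⊢
      rw [← h2]
      exact h3
    rcases gen_norm_one (hgen θ hθ) hn with h | h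
    · exact h
    · exfalso
      obtain ⟨d, hd⟩ := IsCharacter.exists_degree (IsIrrCharacter.isCharacter h)
      obtain ⟨e, he0, he⟩ := IsIrrCharacter.exists_degree hθ
      simp only [Pi.neg_apply, h1, he] at hd
      have h4 : ((e + d : ℕ) : ℂ) = 0 := by
        push_cast
        rw [← hd]; ring
      have h5 : e + d = 0 := by exact_mod_cast h4
      omega
  let K : Subgroup G := ⨅ θ : IrrCharacter H, charKer (IsIrrCharacter.isCharacter (hirr θ θ.2))
  have hK : ∀ x, x ∈ K ↔ r x = 1 := by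
    intro x
    simp only [K, Subgroup.mem_iInf, mem_charKer, h1]
    rw [← isConj_iff_irr]
    exact isConj_one_left
  refine ⟨K, Subgroup.normal_iInf_normal (fun θ => inferInstance), hK, ?_⟩
  have h3 := avg r hgen hsurj (fun h => if h = 1 then 1 else 0) (by
    intro g h
    have : h * g * h⁻¹ = 1 ↔ g = 1 := by
      constructor
      · intro e
        have : g = h⁻¹ * (h * g * h⁻¹) * h := by group
        rw [this, e]; group
      · rintro rfl; group
    simp only [this])
  simp only [Finset.sum_ite_eq', Finset.mem_univ, if_true] at h3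
  rw [Finset.sum_boole] at h3
  have h4 : (Finset.univ.filter (fun x : G => r x = 1)).card = Nat.card K := by
    rw [Nat.card_eq_fintype_card, Fintype.card_subtype]
    congr 1
    ext x
    simp [hK]
  rw [h4] at h3
  have h5 : (Nat.card K : ℂ) * (Nat.card H : ℂ) = (Nat.card G : ℂ) := by
    field_simp at h3
    rw [h3]
  exact_mod_cast h5

theorem cyclic_elementary {G : Type*} [Group G] [Finite G] (y : G) :
    ∃ p : ℕ, p.Prime ∧ IsElementary p (Subgroup.zpowers y) := by
  obtain ⟨p, hp1, hp⟩ := Nat.exists_infinite_primes (orderOf y + 1)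
  refine ⟨p, hp, ⟨y, Subgroup.mem_zpowers y⟩, ?_, ?_, 0, ?_⟩
  · rw [Subgroup.mem_center_iff]
    rintro ⟨g, hg⟩
    obtain ⟨i, rfl⟩ := Subgroup.mem_zpowers_iff.1 hg
    apply Subtype.ext
    show y ^ i * y = y * y ^ i
    exact ((Commute.refl y).zpow_left i).eq
  · rw [Nat.coprime_comm, Nat.Prime.coprime_iff_not_dvd hp]
    intro h
    have h2 := Nat.le_of_dvd (orderOf_pos _) h
    rw [Subgroup.orderOf_mk] at h2
    omega
  · rw [pow_zero, Subgroup.index_eq_one, eq_top_iff]
    rintro ⟨z, hz⟩ _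
    obtain ⟨i, rfl⟩ := Subgroup.mem_zpowers_iff.1 hz
    exact Subgroup.mem_zpowers_iff.2 ⟨i, Subtype.ext (by simp)⟩

/-- Let H be a subgroup of the finite group G whose order is coprime to its index. Suppose that elements of H conjugate in G are conjugate in H, and that every subgroup E of G that is elementary for some prime (in the sense used for Brauer's characterisation of characters) and whose order divides the order of H is conjugate to a subgroup of H. Then there is a normal subgroup K with K ⊔ H = ⊤ and K ⊓ H trivial. -/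
theorem result {G : Type*} [Group G] [Finite G] (H : Subgroup G) (hHall : Nat.Coprime (Nat.card H) H.index) (hfus : ∀ x ∈ H, ∀ y ∈ H, IsConj x y → ∃ h ∈ H, h * x * h⁻¹ = y) (helem : ∀ (E : Subgroup G) (p : ℕ), p.Prime → Cfsg.IsElementary p E → Nat.card E ∣ Nat.card H → ∃ g : G, E.map (MulAut.conj g).toMonoidHom ≤ H) : ∃ K : Subgroup G, K.Normal ∧ K ⊔ H = ⊤ ∧ K ⊓ H = ⊥ := by
  classical
  letI : Fintype G := Fintype.ofFinite G
  letI : Fintype H := Fintype.ofFinite H
  obtain ⟨k, k', hk1, hk2, hk1', hk2'⟩ := exists_exponents H.index (Nat.card H) hHall.symm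
  have hcard : Nat.card G = H.index * Nat.card H := (H.index_mul_card).symm
  have hexp : ∀ x : G, x ^ (H.index * Nat.card H) = 1 := by
    intro x; rw [← hcard]; exact pow_card_eq_one'
  have hA : ∀ x : G, ∃ h : H, IsConj (h : G) (x ^ k) := by
    intro x
    obtain ⟨p, hp, hE⟩ := cyclic_elementary (x ^ k)
    have hc : Nat.card (Subgroup.zpowers (x ^ k)) ∣ Nat.card H := by
      rw [Nat.card_zpowers]; exact orderOf_dvd_of_pow_eq_one (pow_pow_n hexp hk1 x)
    obtain ⟨g, hg⟩ := helem _ p hp hE hc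
    refine ⟨⟨g * x ^ k * g⁻¹, hg ⟨x ^ k, Subgroup.mem_zpowers _, rfl⟩⟩, ?_⟩
    exact (isConj_iff.2 ⟨g, rfl⟩).symm
  choose r hr using hA
  have L1 : ∀ (θ : H → ℂ), IsClassFunction H θ → ∀ (x : G) (h : H), IsConj (h : G) (x ^ k) →
      θ (r x) = θ h := by
    intro θ hθ x h hh
    obtain ⟨u, hu, e⟩ := hfus (r x) (r x).2 h h.2 ((hr x).trans hh.symm)
    have : h = ⟨u, hu⟩ * r x * ⟨u, hu⟩⁻¹ := Subtype.ext e.symm
    rw [this, hθ]
  have hHk : ∀ h : H, (h : G) ^ k = h := by
    intro h
    conv_rhs => rw [← pow_one (h : G)]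
    rw [pow_eq_pow_iff_modEq]
    apply Nat.ModEq.of_dvd _ hk2
    rw [Subgroup.orderOf_coe]
    exact orderOf_dvd_natCard h
  have hsurj : ∀ h : H, ∃ x : G, IsConj (r x) h := by
    intro h
    refine ⟨h, ?_⟩
    have h2 := hr (h : G)
    rw [hHk] at h2
    obtain ⟨u, hu, e⟩ := hfus _ (r h).2 h h.2 h2
    exact isConj_iff.2 ⟨⟨u, hu⟩, Subtype.ext e⟩
  have h1 : r 1 = 1 := by
    have h2 := hr 1
    rw [one_pow, isConj_one_left] at h2
    exact Subtype.ext h2
  have hgen : ∀ θ : H → ℂ, IsIrrCharacter H θ → IsGeneralizedCharacter G (fun x => θ (r x)) := by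
    intro θ hθ
    have hcl := IsIrrCharacter.isClassFunction hθ
    apply Cfsg.Agent.S0164.result
    · intro x g
      apply L1 θ hcl
      rw [conj_pow]
      exact (hr x).trans (isConj_iff.2 ⟨g, rfl⟩)
    · intro E p hp hE
      obtain ⟨β, hβ⟩ := exists_pow_hom hp hE (hcard ▸ Subgroup.card_subgroup_dvd_card E)
        hHall.symm hk1 hk2 hk1' hk2'
      have hR : IsElementary p (β.range.map E.subtype) :=
        isElementary_of_equiv (Subgroup.equivMapOfInjective _ _ E.subtype_injective)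
          (isElementary_subgroup hp hE β.range)
      have hRc : Nat.card (β.range.map E.subtype) ∣ Nat.card H := by
        apply card_dvd_of_exponent _ (hcard ▸ Subgroup.card_subgroup_dvd_card _) hHall.symm
        rintro ⟨_, _, ⟨e, rfl⟩, rfl⟩
        apply Subtype.ext
        simp only [Subgroup.coe_pow, Subgroup.coe_one, Subgroup.subtype_apply, hβ]
        exact pow_pow_n hexp hk1 (e : G)
      obtain ⟨g, hg⟩ := helem _ p hp hR hRc
      let f : E →* H := ((MulAut.conj g).toMonoidHom.comp (E.subtype.comp β)).codRestrict H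
        (fun e => hg ⟨_, ⟨β e, ⟨e, rfl⟩, rfl⟩, rfl⟩)
      have hf : (fun e : E => θ (r e)) = fun e => θ (f e) := by
        funext e
        apply L1 θ hcl
        have : ((f e : H) : G) = g * (e : G) ^ k * g⁻¹ := by
          simp [f, hβ]
        rw [this]
        exact (isConj_iff.2 ⟨g, rfl⟩).symm
      rw [hf]
      exact gen_of_char (IsCharacter.comp f (IsIrrCharacter.isCharacter hθ))
  obtain ⟨K, hKn, hK, hKc⟩ := exists_kernel r hgen hsurj h1
  have hdis : K ⊓ H = ⊥ := by
    rw [eq_bot_iff]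
    rintro x ⟨hx1, hx2⟩
    have h2 := hr x
    rw [(hK x).1 hx1, hHk ⟨x, hx2⟩] at h2
    exact (isConj_one_right.1 h2)
  refine ⟨K, hKn, ?_, hdis⟩
  exact (Subgroup.isComplement'_of_card_mul_and_disjoint hKc (disjoint_iff.2 hdis)).sup_eq_top

end Cfsg.Agent.S0877
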