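import Cfsg.Statements.S0880
import Cfsg.Agent.Lib.Helper61Feit

set_option autoImplicit false
open Cfsg

namespace Cfsg.Agent.S0880

open Cfsg.Agent.Lib.Helper61Feit Cfsg.Agent.Lib.Helper61Zass

/-- Let G be a finite simple Zassenhaus group on Ω with n points whose two-point stabilizer E has odd order less than n - 2. Then there are two elements of G, each fixing no point of Ω, that are not conjugate. -/
theorem result {G Ω : Type*} [Group G] [Finite G] [MulAction G Ω] [Fintype Ω] (hZ : Cfsg.IsZassenhausGroup G Ω) {a b : Ω} (hab : a ≠ b) [IsSimpleGroup G] (hodd : Odd (Nat.card ↥(MulAction.stabilizer G a ⊓ MulAction.stabilizer G b : Subgroup G))) (hlt : Nat.card ↥(MulAction.stabilizer G a ⊓ MulAction.stabilizer G b : Subgroup G) < Fintype.card Ω - 2) : ∃ x y : G, (∀ c : Ω, x • c ≠ c) ∧ (∀ c : Ω, y • c ≠ c) ∧ ¬ IsConj x y := by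
  classical
  obtain ⟨h, hh⟩ : ∃ h, Fintype.card Ω = h + 1 := ⟨Fintype.card Ω - 1, by omega⟩
  have hh' : Nat.card Ω = h + 1 := by rw [Nat.card_eq_fintype_card, hh]
  have D := tdata_of_zass hZ hh'
  have he2 := two_le_card_stab2 hZ hh' hab
  have hG := card_G D hab
  have hF := two_mul_card_fpf D (by omega)
  obtain ⟨e, he⟩ : ∃ e, e = Nat.card ↥(MulAction.stabilizer G a ⊓ MulAction.stabilizer G b : Subgroup G) :=
    ⟨_, rfl⟩
  have he' : Nat.card (stab2 G a b) = e := he.symm
  rw [← he] at hodd hlt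
  rw [he'] at he2 hG
  have he3 : 3 ≤ e := by
    rcases hodd with ⟨r, hr⟩
    omega
  have hh2 : 2 ≤ h := by omega
  obtain ⟨F, hFdef⟩ : ∃ F, F = Nat.card {g : G // Fpf Ω g} := ⟨_, rfl⟩
  rw [← hFdef, hG] at hF
  have hFpos : 0 < F := by
    by_contra h0
    have h0' : F = 0 := by omega
    rw [h0'] at hF
    have h1 : h * (h - 1) < (h + 1) * h * e := by
      calc h * (h - 1) < h * (h + 1) := by
            apply Nat.mul_lt_mul_of_pos_left (by omega) (by omega)
        _ = (h + 1) * h * 1 := by ring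
        _ ≤ (h + 1) * h * e := Nat.mul_le_mul_left _ (by omega)
    omega
  have hne : Nonempty {g : G // Fpf Ω g} := by
    rw [hFdef] at hFpos
    exact (Nat.card_pos_iff.1 hFpos).1
  obtain ⟨⟨x, hx⟩⟩ := hne
  by_contra hcon
  push Not at hcon
  have hset : MulAction.orbit (ConjAct G) x = {g : G | Fpf Ω g} := by
    ext g
    rw [ConjAct.mem_orbit_conjAct]
    constructor
    · intro hg
      obtain ⟨c, hc⟩ := isConj_iff.1 hg.symm
      rw [← hc]
      exact fpf_conj hx c
    · intro hg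
      exact (hcon x g hx hg).symm
  have horb := (MulAction.stabilizer (ConjAct G) x).index_mul_card
  rw [MulAction.index_stabilizer, ← Nat.card_coe_set_eq, hset] at horb
  have h1 : Nat.card ({g : G | Fpf Ω g} : Set G) = F := by
    rw [hFdef]
    rfl
  have h2 : Nat.card (ConjAct G) = Nat.card G := rfl
  rw [h1, h2, hG] at horb
  obtain ⟨c, hc⟩ : ∃ c, c = Nat.card (MulAction.stabilizer (ConjAct G) x) := ⟨_, rfl⟩
  rw [← hc] at horb
  obtain ⟨R, hR⟩ : ∃ R, R = (h + 1) * h * e := ⟨_, rfl⟩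
  obtain ⟨P, hP⟩ : ∃ P, P = h * (h - 1) := ⟨_, rfl⟩
  have hPR : 3 * P < R := by
    rw [hR, hP]
    calc 3 * (h * (h - 1)) < 3 * (h * (h + 1)) := by
          apply Nat.mul_lt_mul_of_pos_left _ (by omega)
          apply Nat.mul_lt_mul_of_pos_left (by omega) (by omega)
      _ = (h + 1) * h * 3 := by ring
      _ ≤ (h + 1) * h * e := Nat.mul_le_mul_left _ he3
  have hPpos : 0 < P := by
    rw [hP]
    exact Nat.mul_pos (by omega) (by omega)
  rw [← hR] at horb hF
  rw [← hP] at hF
  by_cases hc3 : 3 ≤ c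
  · have : F * 3 ≤ R := by
      rw [← horb]
      exact Nat.mul_le_mul_left _ hc3
    omega
  · have hc' : c = 0 ∨ c = 1 ∨ c = 2 := by omega
    rcases hc' with h0 | h0 | h0 <;> rw [h0] at horb <;> omega

end Cfsg.Agent.S0880
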