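import Cfsg.Statements.S0889
import Cfsg.Agent.Lib.Helper19Berger3

set_option autoImplicit false
open Cfsg

namespace Cfsg.Agent.S0889

open Cfsg.Agent.Lib.Helper4Char Cfsg.Agent.Lib.Helper4Char2 Cfsg.Agent.Lib.Helper4Char4
  Cfsg.Agent.Lib.Helper19Cliff Cfsg.Agent.Lib.Helper19Brauer Cfsg.Agent.Lib.Helper19Util
  Cfsg.Agent.Lib.Helper19Fact Cfsg.Agent.Lib.Helper19Berger2 Cfsg.Agent.Lib.Helper19Berger3

universe u

theorem berger_aux : ∀ (n : ℕ) (G : Type u) [Group G] [Fintype G] [Group.IsSolvable G] (χ : G → ℂ),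
    IsIrrCharacter G χ → QP G χ → χ 1 = n → ∀ (U : Subgroup G), U ≠ ⊤ → ∀ ψ : U → ℂ,
    IsCharacter U ψ → indFun U ψ ≠ χ := by
  intro n
  induction n using Nat.strong_induction_on with
  | _ n ih =>
  intro G _ _ _ χ hχ hqp hn U hU ψ hψ hind
  classical
  obtain ⟨H, hH, hUH⟩ : ∃ H, IsCoatom H ∧ U ≤ H := (eq_top_or_exists_le_coatom U).resolve_left hU
  obtain ⟨ϑ, hϑdef⟩ : ∃ ϑ, ϑ = ind (Subgroup.inclusion hUH) ψ := ⟨_, rfl⟩
  have hϑc : IsCharacter H ϑ := by rw [hϑdef]; exact ind_isCharacter _ hψ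
  have hindH : indFun H ϑ = χ := by
    rw [← ind_subtype, hϑdef, ind_comp, ← hind, ← ind_subtype]
    rfl
  have hϑ := irr_of_ind_irr H.subtype H.subtype_injective hϑc (by rw [ind_subtype, hindH]; exact hχ)
  obtain ⟨φ, e, hφ, he⟩ := hqp H.normalCore inferInstance
  by_cases hφ1 : φ 1 = 1
  · exact step2 hχ hqp H H.normalCore rfl hH hϑ hindH hφ hφ1 e he n hn
      (fun X _ _ _ β hβ hβqp m hm hmn => ih m hmn X β hβ hβqp hm)
  · obtain ⟨Γ, iG, iF, hsolv, β, J, γ, hβ, hβqp, hJ, hγ, hγind, hdeg⟩ :=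
      step1 hχ hqp H H.normalCore H.normalCore_le hH.1 hϑ hindH hφ e he
    obtain ⟨b, hbpos, hb⟩ := IsIrrCharacter.exists_degree hβ
    obtain ⟨f, hfpos, hf⟩ := IsIrrCharacter.exists_degree hφ
    have h1 : n = b * f := by
      have : (n : ℂ) = ((b * f : ℕ) : ℂ) := by rw [← hn, hdeg, hb, hf]; push_cast; rfl
      exact_mod_cast this
    have hf1 : f ≠ 1 := by
      rintro rfl
      exact hφ1 (by rw [hf]; simp)
    have hlt : b < n := by
      rw [h1]
      have : 2 ≤ f := by omega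
      nlinarith
    exact ih b hlt Γ β hβ hβqp hb J hJ γ hγ hγind

/-- Let G be a finite solvable group and χ an irreducible character of G such that for every normal subgroup N the restriction of χ to N is a natural-number multiple of one irreducible character of N. Then χ is not induced from a character of any proper subgroup. -/
theorem result {G : Type*} [Group G] [Fintype G] [Group.IsSolvable G] (χ : G → ℂ) (hχ : Cfsg.IsIrrCharacter G χ) (hqp : ∀ (N : Subgroup G), N.Normal → ∃ (ϑ : N → ℂ) (e : ℕ), Cfsg.IsIrrCharacter N ϑ ∧ (fun n : N => χ n) = (e : ℂ) • ϑ) (K : Subgroup G) (hK : K ≠ ⊤) (ψ : K → ℂ) (hψ : Cfsg.IsCharacter K ψ) : Cfsg.indFun K ψ ≠ χ := by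
  obtain ⟨n, -, hn⟩ := Lib.Helper4Char2.IsIrrCharacter.exists_degree hχ
  exact berger_aux n G χ hχ hqp hn K hK ψ hψ

end Cfsg.Agent.S0889
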