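import Cfsg.Statements.S0893
import Cfsg.Agent.Lib.Helper83Extra
import Cfsg.Agent.Lib.Helper82Mult
import Cfsg.Agent.Lib.Helper19Lin
import Cfsg.Agent.S0146
import Cfsg.Agent.S0148

set_option autoImplicit false
open Cfsg

namespace Cfsg.Agent.S0893

open scoped ComplexConjugate

open Cfsg.Agent.Lib.Helper4Char Cfsg.Agent.Lib.Helper4Char2 Cfsg.Agent.Lib.Helper4Char4
open Cfsg.Agent.Lib.Helper83Extra

theorem irr_of_linear {A : Type*} [Group A] {lam : A → ℂ} (h : Cfsg.IsCharacter A lam)
    (h1 : lam 1 = 1) : Cfsg.IsIrrCharacter A lam := by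
  obtain ⟨f, rfl⟩ := Cfsg.Agent.Lib.Helper19Lin.exists_hom_of_linear h h1
  exact Cfsg.Agent.Lib.Helper19Lin.isIrrCharacter_homFun f

theorem main {P : Type*} [Group P] [Fintype P] (p n : ℕ) [Fact p.Prime]
    (hP : Cfsg.IsExtraspecial p P) (hcard : Nat.card P = p ^ (2 * n + 1)) (A : Subgroup P)
    (hA : Nat.card A = p ^ (n + 1)) (lam : A → ℂ)
    (hlam : Cfsg.IsCharacter A lam ∧ lam 1 = 1)
    (hZ : ∃ a : A, (a : P) ∈ Subgroup.center P ∧ lam a ≠ 1) :
    Cfsg.IsIrrCharacter P (Cfsg.indFun A lam) ∧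
      ∀ x : P, x ∉ Subgroup.center P → Cfsg.indFun A lam x = 0 := by
  classical
  have : Fintype (Subgroup.center P) := Fintype.ofFinite _
  have : Fintype A := Fintype.ofFinite _
  have hp : 0 < p := (Fact.out : p.Prime).pos
  have hψ := Cfsg.Agent.S0148.result A lam hlam.1
  have hidx : A.index = p ^ n := by
    have h1 := A.card_mul_index
    rw [hA, hcard] at h1
    have hpp : 0 < p ^ (n + 1) := pow_pos hp _
    apply Nat.eq_of_mul_eq_mul_left hpp
    rw [h1]; ring
  have hψ1 : Cfsg.indFun A lam 1 = (p : ℂ) ^ n := by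
    rw [Cfsg.Agent.Lib.Helper82Mult.indFun_one, hlam.2, hidx]
    push_cast
    ring
  obtain ⟨m, hm, hsum⟩ := Cfsg.Agent.Lib.Helper82Mult.exists_mult hψ
  have hex : ∃ χ : Cfsg.IrrCharacter P, m χ ≠ 0 := by
    by_contra hno
    push Not at hno
    have h0 := congrFun hsum 1
    simp only [hno, Nat.cast_zero, zero_smul, Finset.sum_const_zero, Pi.zero_apply] at h0
    rw [hψ1] at h0
    exact (pow_ne_zero n (by exact_mod_cast hp.ne')) h0
  obtain ⟨χ, hχm⟩ := hex
  have hinner : Cfsg.classInner (Cfsg.indFun A lam) (χ : P → ℂ) ≠ 0 := by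
    rw [hm χ]; exact_mod_cast hχm
  have hB : ∀ g : P, ∑ z : Subgroup.center P, (χ : P → ℂ) (z * g) = 0 := by
    rcases Cfsg.Agent.Lib.Helper83Char.irr_normal_dichotomy χ.2 (Subgroup.center P) with h | h
    · exfalso
      have hχ1 := typeA_linear hP χ.2 h
      have hres : Cfsg.IsIrrCharacter A (fun a : A => (χ : P → ℂ) a) :=
        irr_of_linear (IsCharacter.restrict A (IsIrrCharacter.isCharacter χ.2)) hχ1
      have hl := irr_of_linear hlam.1 hlam.2
      rw [Cfsg.Agent.S0146.result A lam _ (IsIrrCharacter.isClassFunction χ.2),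
        classInner_irr hl hres] at hinner
      have heq : lam = fun a : A => (χ : P → ℂ) a := by
        by_contra hne
        exact hinner (if_neg hne)
      obtain ⟨a, haZ, ha1⟩ := hZ
      apply ha1
      rw [heq]
      have := h a haZ 1
      rw [mul_one] at this
      show (χ : P → ℂ) a = 1
      rw [this, hχ1]
    · exact h
  have hdeg := typeB_degree hP hcard χ.2 hB
  have heq : Cfsg.indFun A lam = (χ : P → ℂ) := by
    apply Cfsg.Agent.Lib.Helper82Mult.eq_of_degree_le hψ χ hinner
    apply le_of_eq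
    rw [Cfsg.charDegree, Cfsg.charDegree, hψ1, hdeg]
  rw [heq]
  exact ⟨χ.2, typeB_vanish hP χ.2 hB⟩


/-- Let P be an extraspecial p-group of order p ^ (2 * n + 1), A an abelian subgroup of order p ^ (n + 1), and λ a character of A of degree 1 that is not identically 1 on the elements of A lying in the centre of P. Then the function induced from λ to P is an irreducible character of P and vanishes at every element outside the centre. -/
theorem result {P : Type*} [Group P] [Fintype P] (p n : ℕ) [Fact p.Prime] (hP : Cfsg.IsExtraspecial p P) (hcard : Nat.card P = p ^ (2 * n + 1)) (A : Subgroup P) (hab : ∀ a ∈ A, ∀ b ∈ A, a * b = b * a) (hA : Nat.card A = p ^ (n + 1)) (lam : A → ℂ) (hlam : Cfsg.IsCharacter A lam ∧ lam 1 = 1) (hZ : ∃ a : A, (a : P) ∈ Subgroup.center P ∧ lam a ≠ 1) : Cfsg.IsIrrCharacter P (Cfsg.indFun A lam) ∧ ∀ x : P, x ∉ Subgroup.center P → Cfsg.indFun A lam x = 0 := by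
  exact main p n hP hcard A hA lam hlam hZ

end Cfsg.Agent.S0893
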