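import Cfsg.Statements.S0895
import Cfsg.Agent.Lib.Helper83FS

set_option autoImplicit false
open Cfsg

namespace Cfsg.Agent.S0895

open Representation Cfsg.Agent.Lib.Helper83Char Cfsg.Agent.Lib.Helper83FS
open scoped ComplexConjugate Matrix

theorem real_case' {G : Type*} [Group G] [Fintype G] {n : ℕ} (ρ : Representation ℂ G (Fin n → ℂ))
    [ρ.IsIrreducible] (hr : ∀ s : G, (ρ.character s).im = 0) :
    ∑ g : G, ρ.character (g * g) = (Nat.card G : ℂ) ∨ Even n := by
  classical
  have hG : (Nat.card G : ℂ) ≠ 0 := by exact_mod_cast Nat.card_pos.ne'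
  have : Invertible (Nat.card G : ℂ) := invertibleOfNonzero hG
  have hinv : ∀ g : G, ρ.character g⁻¹ = ρ.character g := by
    intro g
    rw [char_inv_eq_conj]
    exact Complex.conj_eq_iff_im.2 (hr g)
  -- the space of intertwiners is one-dimensional
  have hfr : Module.finrank ℂ (IntertwiningMap (contra ρ) ρ) = 1 := by
    have h := card_inv_mul_sum_char_mul_char_eq_finrank (contra ρ) ρ
    have h2 := char_orthonormal ρ ρ
    rw [if_pos ⟨Representation.Equiv.refl ρ⟩] at h2
    have h3 : ∑ g : G, ρ.character g * (contra ρ).character g⁻¹ =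
        ∑ g : G, ρ.character g * ρ.character g⁻¹ := by
      refine Finset.sum_congr rfl fun g _ => ?_
      rw [contra_character, inv_inv, hinv]
    rw [h3, h2] at h
    exact_mod_cast h.symm
  obtain ⟨f₀, hf₀, hspan⟩ := finrank_eq_one_iff'.1 hfr
  set B : Matrix (Fin n) (Fin n) ℂ := LinearMap.toMatrix' f₀.toLinearMap with hBdef
  have hBlin : Matrix.toLin' B = f₀.toLinearMap := by rw [hBdef, Matrix.toLin'_toMatrix']
  have hB : ∀ h : G, B * (M ρ h⁻¹)ᵀ = M ρ h * B := by
    intro h
    have h1 := f₀.isIntertwining' h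
    rw [contra_apply, ← hBlin, ← toLin'_M, ← Matrix.toLin'_mul, ← Matrix.toLin'_mul] at h1
    exact Matrix.toLin'.injective h1
  have hsurj : Function.Surjective f₀ :=
    (IsIrreducible.surjective_or_eq_zero f₀).resolve_right hf₀
  have hinj : Function.Injective f₀ :=
    (LinearMap.injective_iff_surjective (f := f₀.toLinearMap)).2 hsurj
  have hBunit : IsUnit B := by
    rw [← Matrix.mulVec_injective_iff_isUnit]
    intro v w hvw
    apply hinj
    have e : ∀ u, B.mulVec u = f₀ u := fun u => by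
      rw [← Matrix.toLin'_apply, hBlin]; rfl
    rw [← e, ← e]; exact hvw
  have hdet : IsUnit B.det := (Matrix.isUnit_iff_isUnit_det B).1 hBunit
  have hB0 : B ≠ 0 := by
    intro h
    apply hf₀
    have : f₀.toLinearMap = 0 := by rw [← hBlin, h, map_zero]
    exact IntertwiningMap.ext this
  have hmult : ∀ X : Matrix (Fin n) (Fin n) ℂ, (∀ h : G, X * (M ρ h⁻¹)ᵀ = M ρ h * X) →
      ∃ c : ℂ, X = c • B := by
    intro X hX
    obtain ⟨c, hc⟩ := hspan (ofMatrix ρ X hX)
    refine ⟨c, ?_⟩
    have h1 := congrArg IntertwiningMap.toLinearMap hc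
    have h2 : c • f₀.toLinearMap = Matrix.toLin' X := h1
    rw [← hBlin, ← map_smul] at h2
    exact (Matrix.toLin'.injective h2).symm
  -- symmetry type
  obtain ⟨ε, hε⟩ := hmult Bᵀ (by
    intro h
    have h1 := congrArg Matrix.transpose (hB h⁻¹)
    rw [Matrix.transpose_mul, Matrix.transpose_mul, Matrix.transpose_transpose, inv_inv] at h1
    exact h1.symm)
  have hε2 : ε * ε = 1 := by
    have h1 : B = (ε * ε) • B := by
      conv_lhs => rw [← Matrix.transpose_transpose B, hε, Matrix.transpose_smul, hε, smul_smul]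
    have h2 : (ε * ε - 1) • B = 0 := by
      rw [sub_smul, one_smul, ← h1, sub_self]
    rcases smul_eq_zero.1 h2 with h3 | h3
    · exact sub_eq_zero.1 h3
    · exact absurd h3 hB0
  have hn : (n : ℂ) ≠ 0 := by
    have := finrank_pos_of_irreducible ρ
    rw [Module.finrank_fin_fun] at this
    exact_mod_cast this.ne'
  have hMB : ∀ g : G, (M ρ g)ᵀ * B⁻¹ = B⁻¹ * M ρ g⁻¹ := by
    intro g
    have h1 := hB g⁻¹
    rw [inv_inv] at h1
    calc (M ρ g)ᵀ * B⁻¹ = B⁻¹ * (B * (M ρ g)ᵀ) * B⁻¹ := by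
          rw [← Matrix.mul_assoc, Matrix.nonsing_inv_mul _ hdet, Matrix.one_mul]
      _ = B⁻¹ * M ρ g⁻¹ := by
          rw [h1, Matrix.mul_assoc, Matrix.mul_assoc, Matrix.mul_nonsing_inv _ hdet, Matrix.mul_one]
  have hlam : ∀ A : Matrix (Fin n) (Fin n) ℂ, ∃ c : ℂ, T ρ A = c • B ∧
      c * (n : ℂ) = (Nat.card G : ℂ) * (A * B⁻¹).trace := by
    intro A
    obtain ⟨c, hc⟩ := hmult (T ρ A) (M_T' ρ · A)
    refine ⟨c, hc, ?_⟩
    have h1 : (T ρ A * B⁻¹).trace = c * (n : ℂ) := by
      rw [hc, Matrix.smul_mul, Matrix.mul_nonsing_inv _ hdet, Matrix.trace_smul, Matrix.trace_one]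
      simp
    rw [← h1, T, Finset.sum_mul, Matrix.trace_sum]
    rw [Finset.sum_congr rfl (g := fun _ => (A * B⁻¹).trace)]
    · rw [Finset.sum_const, Finset.card_univ, nsmul_eq_mul, Nat.card_eq_fintype_card]
    · intro g _
      rw [Matrix.mul_assoc, hMB, Matrix.mul_assoc, Matrix.trace_mul_comm, Matrix.mul_assoc,
        Matrix.mul_assoc, M_inv_mul, Matrix.mul_one]
  have hsum : (∑ g : G, ρ.character (g * g)) * (n : ℂ) = (Nat.card G : ℂ) * ε * (n : ℂ) := by
    rw [sum_char_sq, Finset.sum_mul]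
    have h1 : ∀ i j : Fin n, T ρ (Matrix.single j i (1 : ℂ)) i j * (n : ℂ) =
        (Nat.card G : ℂ) * (B⁻¹ i j * B i j) := by
      intro i j
      obtain ⟨c, hc, hc2⟩ := hlam (Matrix.single j i (1 : ℂ))
      rw [hc, Matrix.smul_apply, smul_eq_mul, mul_right_comm, hc2, trace_single_mul]
      ring
    simp_rw [Finset.sum_mul, h1, ← Finset.mul_sum]
    have h2 : ∑ i, ∑ j, B⁻¹ i j * B i j = (B⁻¹ * Bᵀ).trace := by
      rw [Matrix.trace]
      simp only [Matrix.diag_apply, Matrix.mul_apply, Matrix.transpose_apply]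
    rw [h2, hε, Matrix.mul_smul, Matrix.nonsing_inv_mul _ hdet, Matrix.trace_smul, Matrix.trace_one]
    simp
    ring
  have hfinal : ∑ g : G, ρ.character (g * g) = (Nat.card G : ℂ) * ε := mul_right_cancel₀ hn hsum
  have hε' : ε = 1 ∨ ε = -1 := by
    have : (ε - 1) * (ε + 1) = 0 := by linear_combination hε2
    rcases mul_eq_zero.1 this with h | h
    · left; exact sub_eq_zero.1 h
    · right; exact eq_neg_of_add_eq_zero_left h
  rcases hε' with h | h
  · left; rw [hfinal, h, mul_one]
  · right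
    have h1 : B.det = (-1) ^ n * B.det := by
      conv_lhs => rw [← Matrix.det_transpose, hε, h, Matrix.det_smul, Fintype.card_fin]
    have h2 : ((-1 : ℂ)) ^ n = 1 := by
      have h3 : ((-1 : ℂ) ^ n - 1) * B.det = 0 := by linear_combination -h1
      rcases mul_eq_zero.1 h3 with h4 | h4
      · exact sub_eq_zero.1 h4
      · exact absurd h4 hdet.ne_zero
    by_contra hne
    rw [Nat.not_even_iff_odd] at hne
    rw [hne.neg_one_pow] at h2
    norm_num at h2


/-- Let χ be a real-valued irreducible character of a finite group G whose degree is an odd natural number. Then the average over s in G of χ (s * s) equals 1. -/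
theorem result {G : Type*} [Group G] [Fintype G] (χ : G → ℂ) (hχ : Cfsg.IsIrrCharacter G χ) (hreal : ∀ g : G, (χ g).im = 0) (d : ℕ) (hd : χ 1 = d) (hodd : Odd d) : (Nat.card G : ℂ)⁻¹ * ∑ s : G, χ (s * s) = 1 := by
  have hG : (Nat.card G : ℂ) ≠ 0 := by exact_mod_cast Nat.card_pos.ne'
  obtain ⟨n, ρ, hρ, rfl⟩ := hχ
  have := hρ
  rcases real_case' ρ hreal with h | h
  · rw [h, inv_mul_cancel₀ hG]
  · exfalso
    have h1 : ρ.character 1 = (n : ℂ) := by
      rw [Representation.char_one, Module.finrank_fin_fun]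
    rw [h1] at hd
    have h2 : n = d := by exact_mod_cast hd
    rw [h2] at h
    exact (Nat.not_even_iff_odd.2 hodd) h

end Cfsg.Agent.S0895
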