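import Cfsg.Statements.S0896
import Mathlib
import Cfsg.Agent.Lib.Helper77Glaub2
import Cfsg.Agent.Lib.Helper77Glaub4
import Cfsg.Agent.Lib.Helper19Brauer2
import Cfsg.Agent.Lib.Helper32Ind

set_option autoImplicit false
open scoped ComplexConjugate
open Cfsg

namespace Cfsg.Agent.S0896

open Lib.Helper4Char Lib.Helper4Char2 Lib.Helper4Char4 Lib.Helper77Glaub Lib.Helper77Glaub2
  Lib.Helper19Ind Lib.Helper19Brauer Lib.Helper19Brauer2
open scoped ComplexConjugate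

theorem sum_sub {G : Type*} [Group G] [Fintype G] (N : Subgroup G) [Fintype N] (F : G → ℂ)
    (hF : ∀ g, g ∉ N → F g = 0) : ∑ g : G, F g = ∑ n : N, F n := by
  classical
  rw [← Finset.sum_subtype (Finset.univ.filter (fun g : G => g ∈ N)) (by simp) F]
  symm
  apply Finset.sum_subset (Finset.subset_univ _)
  intro g _ hg
  apply hF
  simpa using hg

theorem sum_inf {G : Type*} [Group G] [Fintype G] (E N : Subgroup G) [Fintype E]
    [Fintype ↥(E ⊓ N)] (F : G → ℂ) (hF : ∀ g, g ∉ N → F g = 0) :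
    ∑ e : E, F e = ∑ d : ↥(E ⊓ N), F d := by
  classical
  rw [← Finset.sum_subtype (Finset.univ.filter (fun g : G => g ∈ E)) (by simp) F,
    ← Finset.sum_subtype (Finset.univ.filter (fun g : G => g ∈ E ⊓ N)) (by simp) F]
  symm
  apply Finset.sum_subset
  · intro g hg
    simp only [Finset.mem_filter, Finset.mem_univ, true_and] at hg ⊢
    exact hg.1
  · intro g hg1 hg2
    simp only [Finset.mem_filter, Finset.mem_univ, true_and] at hg1 hg2
    apply hF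
    intro hgN
    exact hg2 ⟨hg1, hgN⟩

theorem key_formula {G : Type*} [Group G] [Fintype G] (N : Subgroup G) [hN : N.Normal] [Fintype N]
    (ϑ : N → ℂ)
    (hinv : ∀ (g : G) (n : N), ϑ ⟨g * n * g⁻¹, hN.conj_mem (n : G) n.2 g⟩ = ϑ n)
    (E : Subgroup G) [Fintype E] [Fintype ↥(E ⊓ N)] (ψ : E → ℂ) :
    Cfsg.classInner (fun n : N => Cfsg.indFun E ψ n * ϑ n) ϑ = ((N ⊔ E).index : ℂ) *
      Cfsg.classInner (fun d : ↥(E ⊓ N) => ψ ⟨d, d.2.1⟩ * ϑ ⟨d, d.2.2⟩)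
        (fun d : ↥(E ⊓ N) => ϑ ⟨d, d.2.2⟩) := by
  classical
  set Θ : G → ℂ := Cfsg.extendByZero N (fun n => conj (ϑ n) * ϑ n) with hΘ
  have hΘ0 : ∀ g, g ∉ N → Θ g = 0 := fun g hg => extendByZero_of_not_mem N _ hg
  have hΘ1 : ∀ g (hg : g ∈ N), Θ g = conj (ϑ ⟨g, hg⟩) * ϑ ⟨g, hg⟩ :=
    fun g hg => extendByZero_of_mem N _ hg
  have hΘcl : Cfsg.IsClassFunction G Θ := by
    intro g h
    by_cases hg : g ∈ N
    · rw [hΘ1 g hg, hΘ1 _ (hN.conj_mem g hg h)]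
      rw [hinv h ⟨g, hg⟩]
    · rw [hΘ0 g hg, hΘ0]
      intro hc
      apply hg
      have := hN.conj_mem _ hc h⁻¹
      have e : h⁻¹ * (h * g * h⁻¹) * h⁻¹⁻¹ = g := by group
      rwa [e] at this
  have hfrob := Lib.Helper32Ind.frobenius E ψ Θ hΘcl
  unfold Cfsg.classInner at hfrob ⊢
  have s1 : ∑ g : G, Cfsg.indFun E ψ g * conj (Θ g) =
      ∑ n : N, Cfsg.indFun E ψ n * ϑ n * conj (ϑ n) := by
    rw [sum_sub N (fun g => Cfsg.indFun E ψ g * conj (Θ g)) (by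
      intro g hg; rw [hΘ0 g hg]; simp)]
    apply Finset.sum_congr rfl
    intro n _
    rw [hΘ1 n n.2, map_mul, Complex.conj_conj]
    ring
  have s2 : ∑ e : E, ψ e * conj (Θ e) =
      ∑ d : ↥(E ⊓ N), ψ ⟨d, d.2.1⟩ * ϑ ⟨d, d.2.2⟩ * conj (ϑ ⟨d, d.2.2⟩) := by
    have e1 : ∑ e : E, ψ e * conj (Θ e) =
        ∑ e : E, (fun g => Cfsg.extendByZero E ψ g * conj (Θ g)) e := by
      apply Finset.sum_congr rfl
      intro e _
      simp only [extendByZero_coe]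
    rw [e1, sum_inf E N (fun g => Cfsg.extendByZero E ψ g * conj (Θ g)) (by
      intro g hg; rw [hΘ0 g hg]; simp)]
    apply Finset.sum_congr rfl
    intro d _
    rw [hΘ1 d d.2.2, extendByZero_of_mem E ψ d.2.1, map_mul, Complex.conj_conj]
    ring
  rw [s1, s2] at hfrob
  -- cardinalities
  have c1 : Nat.card N * N.relIndex E = Nat.card ↥(N ⊔ E) := by
    have := Subgroup.relIndex_mul_relIndex ⊥ N (N ⊔ E) bot_le le_sup_left
    rwa [Subgroup.relIndex_bot_left, Subgroup.relIndex_bot_left, Subgroup.relIndex_sup_left] at this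
  have c2 : Nat.card ↥(E ⊓ N) * N.relIndex E = Nat.card E := by
    have := Subgroup.relIndex_mul_relIndex ⊥ (E ⊓ N) E bot_le inf_le_left
    rwa [Subgroup.relIndex_bot_left, Subgroup.relIndex_bot_left, Subgroup.inf_relIndex_left] at this
  have c3 := (N ⊔ E).card_mul_index
  have hN0 : (Nat.card N : ℂ) ≠ 0 := Nat.cast_ne_zero.mpr Nat.card_pos.ne'
  have hD0 : (Nat.card ↥(E ⊓ N) : ℂ) ≠ 0 := Nat.cast_ne_zero.mpr Nat.card_pos.ne'
  have hE0 : (Nat.card E : ℂ) ≠ 0 := Nat.cast_ne_zero.mpr Nat.card_pos.ne'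
  have hG0 : (Nat.card G : ℂ) ≠ 0 := Nat.cast_ne_zero.mpr Nat.card_pos.ne'
  have hr0 : (N.relIndex E : ℂ) ≠ 0 := by
    intro h0
    apply hE0
    rw [← c2]; push_cast; rw [h0, mul_zero]
  have c1' : (Nat.card N : ℂ) * (N.relIndex E : ℂ) * ((N ⊔ E).index : ℂ) = (Nat.card G : ℂ) := by
    rw [← c3, ← c1]; push_cast; ring
  have c2' : (Nat.card ↥(E ⊓ N) : ℂ) * (N.relIndex E : ℂ) = (Nat.card E : ℂ) := by
    rw [← c2]; push_cast; ring
  set SN := ∑ n : N, Cfsg.indFun E ψ n * ϑ n * conj (ϑ n) with hSN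
  set SD := ∑ d : ↥(E ⊓ N), ψ ⟨d, d.2.1⟩ * ϑ ⟨d, d.2.2⟩ * conj (ϑ ⟨d, d.2.2⟩) with hSD
  have h5 : SN = (Nat.card G : ℂ) * ((Nat.card E : ℂ)⁻¹ * SD) := by
    rw [← hfrob, ← mul_assoc, mul_inv_cancel₀ hG0, one_mul]
  rw [h5, ← c1', ← c2']
  field_simp

theorem fixed_step {G : Type*} [Group G] [Fintype G] (p : ℕ) [hpf : Fact p.Prime] (N : Subgroup G)
    [hN : N.Normal] (hind : ∃ k : ℕ, N.index = p ^ k) (ϑ : N → ℂ) (hϑ : Cfsg.IsCharacter N ϑ)
    (hinv : ∀ (g : G) (n : N), ϑ ⟨g * n * g⁻¹, hN.conj_mem (n : G) n.2 g⟩ = ϑ n)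
    (E : Subgroup G) [Fintype ↥(E ⊓ N)] (ψ : E → ℂ) (hψ : Cfsg.IsCharacter E ψ) (X : ℕ)
    (hX : ¬ p ∣ X)
    (hXeq : Cfsg.classInner (fun d : ↥(E ⊓ N) => ψ ⟨d, d.2.1⟩ * ϑ ⟨d, d.2.2⟩)
        (fun d : ↥(E ⊓ N) => ϑ ⟨d, d.2.2⟩) = X) :
    ∃ φ : ↥(E ⊓ N) → ℂ, Cfsg.IsIrrCharacter ↥(E ⊓ N) φ ∧
      (∀ (g : G) (hg : g ∈ E) (x : ↥(E ⊓ N)), φ ⟨g * x * g⁻¹,
        ⟨(E.mul_mem (E.mul_mem hg x.2.1) (E.inv_mem hg)), hN.conj_mem (x : G) x.2.2 g⟩⟩ = φ x) ∧
      ∃ m : ℕ, ¬ p ∣ m ∧ Cfsg.classInner (fun d : ↥(E ⊓ N) => ϑ ⟨d, d.2.2⟩) φ = m := by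
  classical
  have hp : p.Prime := hpf.out
  obtain ⟨P₀⟩ : Nonempty (Sylow p E) := inferInstance
  set Q : Subgroup G := (P₀ : Subgroup E).map E.subtype with hQ
  have hQp : IsPGroup p Q := P₀.2.map _
  have hQE : Q ≤ E := by
    rintro _ ⟨e, -, rfl⟩
    exact e.2
  have hnormE : ∀ s ∈ E, ∀ d ∈ E ⊓ N, s * d * s⁻¹ ∈ E ⊓ N := fun s hs d hd =>
    ⟨E.mul_mem (E.mul_mem hs hd.1) (E.inv_mem hs), hN.conj_mem d hd.2 s⟩
  have hnormQ : ∀ s ∈ Q, ∀ d ∈ E ⊓ N, s * d * s⁻¹ ∈ E ⊓ N := fun s hs => hnormE s (hQE hs)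
  -- decomposition of `E`
  have hdecomp : ∀ e ∈ E, ∃ d ∈ E ⊓ N, ∃ q ∈ Q, d * q = e := by
    have hnE : (N.subgroupOf E).Normal := inferInstance
    have htop : N.subgroupOf E ⊔ (P₀ : Subgroup E) = ⊤ := by
      rw [← Subgroup.index_eq_one]
      obtain ⟨k, hk⟩ := hind
      have h1 : (N.subgroupOf E ⊔ (P₀ : Subgroup E)).index ∣ p ^ k := by
        rw [← hk]
        exact (Subgroup.index_dvd_of_le le_sup_left).trans
          (Subgroup.relIndex_dvd_index_of_normal N E)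
      obtain ⟨i, -, hi⟩ := (Nat.dvd_prime_pow hp).mp h1
      have h2 : (N.subgroupOf E ⊔ (P₀ : Subgroup E)).index ∣ (P₀ : Subgroup E).index :=
        Subgroup.index_dvd_of_le le_sup_right
      rcases i with _ | i
      · simpa using hi
      · exfalso
        apply P₀.not_dvd_index
        refine Dvd.dvd.trans ?_ h2
        rw [hi]
        exact dvd_pow_self p (Nat.succ_ne_zero i)
    intro e he
    obtain ⟨d, hd, q, hq, hdq⟩ := Lib.Helper77Glaub4.exists_mul_of_sup_eq_top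
      (N.subgroupOf E) (P₀ : Subgroup E) htop ⟨e, he⟩
    refine ⟨d, ⟨d.2, hd⟩, q, ⟨q, hq, rfl⟩, ?_⟩
    exact congrArg Subtype.val hdq
  set act := conjAct (E ⊓ N) Q hnormQ with hact
  let _ : MulAction Q (Cfsg.IrrCharacter ↥(E ⊓ N)) := irrAct act
  set α : ↥(E ⊓ N) → ℂ := fun d => ψ ⟨d, d.2.1⟩ * ϑ ⟨d, d.2.2⟩ with hα
  set β : ↥(E ⊓ N) → ℂ := fun d => ϑ ⟨d, d.2.2⟩ with hβ
  have hβc : Cfsg.IsCharacter ↥(E ⊓ N) β :=
    IsCharacter.comp (Subgroup.inclusion (inf_le_right : E ⊓ N ≤ N)) hϑ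
  have hαc : Cfsg.IsCharacter ↥(E ⊓ N) α :=
    IsCharacter.mul (IsCharacter.comp (Subgroup.inclusion (inf_le_left : E ⊓ N ≤ E)) hψ) hβc
  have hβinv : ∀ (s : Q) (d : ↥(E ⊓ N)), β (act s d) = β d := by
    intro s d
    exact hinv s ⟨d, d.2.2⟩
  have hαinv : ∀ (s : Q) (d : ↥(E ⊓ N)), α (act s d) = α d := by
    intro s d
    simp only [hα]
    have h1 := hβinv s d
    simp only [hβ] at h1
    rw [h1]
    congr 1
    exact IsCharacter.isClassFunction hψ ⟨d, d.2.1⟩ ⟨s, hQE s.2⟩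
  have hinner_inv : ∀ (f : ↥(E ⊓ N) → ℂ), (∀ (s : Q) d, f (act s d) = f d) →
      ∀ (s : Q) (φ : Cfsg.IrrCharacter ↥(E ⊓ N)),
      Cfsg.classInner f ((s • φ : Cfsg.IrrCharacter ↥(E ⊓ N)) : ↥(E ⊓ N) → ℂ) =
        Cfsg.classInner f φ := by
    intro f hf s φ
    rw [← classInner_comp_mulEquiv (act s⁻¹) f φ]
    have : (fun c => f ((act s⁻¹) c)) = f := funext (hf s⁻¹)
    rw [this]
    rfl
  have s1 := sum_fixed p hQp
    (fun φ : Cfsg.IrrCharacter ↥(E ⊓ N) => Cfsg.classInner α φ * conj (Cfsg.classInner β φ))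
    (fun s φ => by
      rw [hinner_inv α hαinv, hinner_inv β hβinv])
    (fun φ => by
      obtain ⟨a, ha⟩ := IsCharacter.classInner_nat hαc (IsIrrCharacter.isCharacter φ.2)
      obtain ⟨b, hb⟩ := IsCharacter.classInner_nat hβc (IsIrrCharacter.isCharacter φ.2)
      simp only [ha, hb, map_natCast]
      exact (isIntegral_natCast a).mul (isIntegral_natCast b))
    (fun φ => Inv act φ.1) (fun φ => irrAct_fixed act φ)
  have hpars : ∑ φ : Cfsg.IrrCharacter ↥(E ⊓ N),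
      Cfsg.classInner α φ * conj (Cfsg.classInner β φ) = (X : ℂ) := by
    rw [← hXeq, classInner_eq_sum α β (IsCharacter.isClassFunction hαc)]
    apply Finset.sum_congr rfl
    intro φ _
    rw [classInner_conj_symm]
  rw [hpars] at s1
  by_contra hcon
  push Not at hcon
  apply hX
  apply PDvd.nat_dvd hp.ne_zero
  have s2 : PDvd p (∑ φ : Cfsg.IrrCharacter ↥(E ⊓ N) with Inv act φ.1,
      Cfsg.classInner α φ * conj (Cfsg.classInner β φ)) := by
    apply PDvd.sum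
    intro φ hφ
    have hφinv : Inv act φ.1 := (Finset.mem_filter.mp hφ).2
    obtain ⟨a, ha⟩ := IsCharacter.classInner_nat hαc (IsIrrCharacter.isCharacter φ.2)
    obtain ⟨b, hb⟩ := IsCharacter.classInner_nat hβc (IsIrrCharacter.isCharacter φ.2)
    have hpb : p ∣ b := by
      by_contra hpb
      refine hcon φ.1 φ.2 ?_ b hpb hb
      intro g hg x
      obtain ⟨d, hd, q, hq, rfl⟩ := hdecomp g hg
      have e1 := (inv_conjAct_iff (E ⊓ N) Q hnormQ φ.1).mp hφinv q hq x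
        ⟨q * x * q⁻¹, hnormQ q hq x x.2⟩ rfl
      have e2 := IsIrrCharacter.isClassFunction φ.2 ⟨q * x * q⁻¹, hnormQ q hq x x.2⟩ ⟨d, hd⟩
      rw [← e1, ← e2]
      apply congrArg
      apply Subtype.ext
      simp only [Subgroup.coe_mul, Subgroup.coe_inv]
      group
    rw [ha, hb, map_natCast]
    exact (PDvd.of_nat hpb).mul_left (isIntegral_natCast a)
  have := s1.add s2
  simpa using this

/-- Let N be a normal subgroup of the finite group G with the index of N a power of the prime p, and ϑ an irreducible character of N invariant under conjugation by G. Then there are a p-elementary subgroup E of G with E ⊔ N = ⊤ and an irreducible character φ of the subgroup E ⊓ N, invariant under conjugation by E, such that the inner product of the restriction of ϑ to E ⊓ N with φ is an integer not divisible by p. -/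
theorem result {G : Type*} [Group G] [Fintype G] (p : ℕ) (hp : p.Prime) (N : Subgroup G) [hN : N.Normal] (hind : ∃ k : ℕ, N.index = p ^ k) (ϑ : N → ℂ) (hϑ : Cfsg.IsIrrCharacter N ϑ) (hinv : ∀ (g : G) (n : N), ϑ ⟨g * n * g⁻¹, hN.conj_mem (n : G) n.2 g⟩ = ϑ n) : ∃ (E : Subgroup G) (φ : ↥(E ⊓ N) → ℂ), Cfsg.IsElementary p E ∧ E ⊔ N = ⊤ ∧ Cfsg.IsIrrCharacter ↥(E ⊓ N) φ ∧ (∀ (g : G) (hg : g ∈ E) (x : ↥(E ⊓ N)), φ ⟨g * x * g⁻¹, ⟨(E.mul_mem (E.mul_mem hg x.2.1) (E.inv_mem hg)), hN.conj_mem (x : G) x.2.2 g⟩⟩ = φ x) ∧ ∃ m : ℕ, ¬ p ∣ m ∧ (Nat.card ↥(E ⊓ N) : ℂ)⁻¹ * ∑ᶠ x : ↥(E ⊓ N), ϑ ⟨(x : G), x.2.2⟩ * conj (φ x) = (m : ℂ) := by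
  classical
  haveI : Fact p.Prime := ⟨hp⟩
  have hϑc := IsIrrCharacter.isCharacter hϑ
  obtain ⟨m, hm, hmem⟩ := exists_int_mem_VV (G := G) p hp
  obtain ⟨l, hl, hsum⟩ := exists_list_of_mem_VV hmem
  set L : (G → ℂ) → ℂ := fun f => Cfsg.classInner (fun n : N => f n * ϑ n) ϑ with hL
  have hLm : L (fun _ => (m : ℂ)) = m := by
    simp only [hL]
    have : (fun n : N => (m : ℂ) * ϑ n) = (m : ℂ) • ϑ := rfl
    rw [this, classInner_smul_left, classInner_irr_self hϑ, mul_one]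
  have hLadd : ∀ f g : G → ℂ, L (f + g) = L f + L g := by
    intro f g
    simp only [hL]
    rw [← classInner_add_left]
    congr 1
    funext n
    simp [add_mul]
  have hLsmul : ∀ (c : ℂ) (f : G → ℂ), L (c • f) = c * L f := by
    intro c f
    simp only [hL]
    rw [← classInner_smul_left]
    congr 1
    funext n
    simp [mul_assoc]
  have hL0 : L 0 = 0 := by
    simp only [hL]
    have : (fun n : N => (0 : G → ℂ) n * ϑ n) = 0 := by funext n; simp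
    rw [this, classInner_zero_left]
  -- the natural numbers attached to the terms
  have hX : ∀ t : (E : Subgroup G) × ((E → ℂ) × ℤ), Cfsg.IsCharacter t.1 t.2.1 →
      ∃ X : ℕ, Cfsg.classInner (fun d : ↥(t.1 ⊓ N) => t.2.1 ⟨d, d.2.1⟩ * ϑ ⟨d, d.2.2⟩)
        (fun d : ↥(t.1 ⊓ N) => ϑ ⟨d, d.2.2⟩) = X := by
    intro t ht
    have hβc : Cfsg.IsCharacter ↥(t.1 ⊓ N) (fun d : ↥(t.1 ⊓ N) => ϑ ⟨d, d.2.2⟩) :=
      IsCharacter.comp (Subgroup.inclusion (inf_le_right : t.1 ⊓ N ≤ N)) hϑc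
    exact IsCharacter.classInner_nat
      (IsCharacter.mul (IsCharacter.comp (Subgroup.inclusion (inf_le_left : t.1 ⊓ N ≤ t.1)) ht) hβc)
      hβc
  have hex : ∃ t ∈ l, ∃ X : ℕ, ¬ p ∣ (N ⊔ t.1).index * X ∧
      Cfsg.classInner (fun d : ↥(t.1 ⊓ N) => t.2.1 ⟨d, d.2.1⟩ * ϑ ⟨d, d.2.2⟩)
        (fun d : ↥(t.1 ⊓ N) => ϑ ⟨d, d.2.2⟩) = X := by
    by_contra hcon
    push Not at hcon
    apply hm
    have hgen : ∀ l' : List ((E : Subgroup G) × ((E → ℂ) × ℤ)), (∀ t ∈ l', t ∈ l) →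
        ∃ z : ℤ, (p : ℤ) ∣ z ∧
          L ((l'.map fun t => (t.2.2 : ℂ) • Cfsg.indFun t.1 t.2.1).sum) = z := by
      intro l'
      induction l' with
      | nil => intro _; exact ⟨0, dvd_zero _, by simpa using hL0⟩
      | cons t l' ih =>
        intro hmem'
        obtain ⟨z, hz, hzL⟩ := ih (fun s hs => hmem' s (List.mem_cons_of_mem _ hs))
        have htl : t ∈ l := hmem' t List.mem_cons_self
        obtain ⟨X, hXt⟩ := hX t (hl t htl).2
        have hdvd : p ∣ (N ⊔ t.1).index * X := by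
          by_contra hnd
          exact hcon t htl X hnd hXt
        refine ⟨t.2.2 * (((N ⊔ t.1).index * X : ℕ) : ℤ) + z,
          dvd_add (Dvd.dvd.mul_left (Int.natCast_dvd_natCast.mpr hdvd) _) hz, ?_⟩
        rw [List.map_cons, List.sum_cons, hLadd, hLsmul, hzL]
        have := key_formula N ϑ hinv t.1 t.2.1
        simp only [hL]
        rw [this, hXt]
        push_cast
        ring
    obtain ⟨z, hz, hzL⟩ := hgen l (fun t ht => ht)
    rw [← hsum, hLm] at hzL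
    have : m = z := by exact_mod_cast hzL
    rw [this]; exact hz
  obtain ⟨t, htl, X, hnd, hXt⟩ := hex
  have hnd1 : ¬ p ∣ (N ⊔ t.1).index := fun h => hnd (Dvd.dvd.mul_right h _)
  have hnd2 : ¬ p ∣ X := fun h => hnd (Dvd.dvd.mul_left h _)
  have htop : t.1 ⊔ N = ⊤ := by
    rw [sup_comm, ← Subgroup.index_eq_one]
    obtain ⟨k, hk⟩ := hind
    have h1 : (N ⊔ t.1).index ∣ p ^ k := hk ▸ Subgroup.index_dvd_of_le le_sup_left
    obtain ⟨i, -, hi⟩ := (Nat.dvd_prime_pow hp).mp h1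
    rcases i with _ | i
    · simpa using hi
    · exfalso
      apply hnd1
      rw [hi]
      exact dvd_pow_self p (Nat.succ_ne_zero i)
  obtain ⟨φ, hφ, hφinv, b, hb, hbeq⟩ := fixed_step p N hind ϑ hϑc hinv t.1 t.2.1 (hl t htl).2 X
    hnd2 hXt
  refine ⟨t.1, φ, (hl t htl).1, htop, hφ, hφinv, b, hb, ?_⟩
  rw [finsum_eq_sum_of_fintype]
  exact hbeq

end Cfsg.Agent.S0896
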