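import Cfsg.Statements.S0897
import Mathlib
import Cfsg.Agent.S0896
import Cfsg.Agent.S0887
import Cfsg.Agent.S0148
import Cfsg.Agent.Lib.Helper19Cliff
import Cfsg.Agent.Lib.Helper19Lin
import Cfsg.Agent.Lib.Helper5Abel

set_option autoImplicit false
open Cfsg

namespace Cfsg.Agent.S0897


open Lib.Helper4Char Lib.Helper4Char2 Lib.Helper4Char4 Lib.Helper19Ind Lib.Helper19Lin
open scoped ComplexConjugate

theorem key_formula2 {G : Type*} [Group G] [Fintype G] (N : Subgroup G) [hN : N.Normal] [Fintype N]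
    (ϑ : N → ℂ)
    (hinv : ∀ (g : G) (n : N), ϑ ⟨g * n * g⁻¹, hN.conj_mem (n : G) n.2 g⟩ = ϑ n)
    (E : Subgroup G) [Fintype E] [Fintype ↥(E ⊓ N)] (ψ : E → ℂ) :
    Cfsg.classInner (fun n : N => Cfsg.indFun E ψ n) ϑ = ((N ⊔ E).index : ℂ) *
      Cfsg.classInner (fun d : ↥(E ⊓ N) => ψ ⟨d, d.2.1⟩)
        (fun d : ↥(E ⊓ N) => ϑ ⟨d, d.2.2⟩) := by
  classical
  set Θ : G → ℂ := Cfsg.extendByZero N ϑ with hΘ
  have hΘ0 : ∀ g, g ∉ N → Θ g = 0 := fun g hg => extendByZero_of_not_mem N _ hg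
  have hΘ1 : ∀ g (hg : g ∈ N), Θ g = ϑ ⟨g, hg⟩ :=
    fun g hg => extendByZero_of_mem N _ hg
  have hΘcl : Cfsg.IsClassFunction G Θ := by
    intro g h
    by_cases hg : g ∈ N
    · rw [hΘ1 g hg, hΘ1 _ (hN.conj_mem g hg h)]
      rw [hinv h ⟨g, hg⟩]
    · rw [hΘ0 g hg, hΘ0]
      intro hc
      apply hg
      have := hN.conj_mem _ hc h⁻¹
      have e : h⁻¹ * (h * g * h⁻¹) * h⁻¹⁻¹ = g := by group
      rwa [e] at this
  have hfrob := Lib.Helper32Ind.frobenius E ψ Θ hΘcl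
  unfold Cfsg.classInner at hfrob ⊢
  have s1 : ∑ g : G, Cfsg.indFun E ψ g * conj (Θ g) =
      ∑ n : N, Cfsg.indFun E ψ n * conj (ϑ n) := by
    rw [S0896.sum_sub N (fun g => Cfsg.indFun E ψ g * conj (Θ g)) (by
      intro g hg; rw [hΘ0 g hg]; simp)]
    apply Finset.sum_congr rfl
    intro n _
    rw [hΘ1 n n.2]
  have s2 : ∑ e : E, ψ e * conj (Θ e) =
      ∑ d : ↥(E ⊓ N), ψ ⟨d, d.2.1⟩ * conj (ϑ ⟨d, d.2.2⟩) := by
    have e1 : ∑ e : E, ψ e * conj (Θ e) =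
        ∑ e : E, (fun g => Cfsg.extendByZero E ψ g * conj (Θ g)) e := by
      apply Finset.sum_congr rfl
      intro e _
      simp only [extendByZero_coe]
    rw [e1, S0896.sum_inf E N (fun g => Cfsg.extendByZero E ψ g * conj (Θ g)) (by
      intro g hg; rw [hΘ0 g hg]; simp)]
    apply Finset.sum_congr rfl
    intro d _
    rw [hΘ1 d d.2.2, extendByZero_of_mem E ψ d.2.1]
  rw [s1, s2] at hfrob
  -- cardinalities
  have c1 : Nat.card N * N.relIndex E = Nat.card ↥(N ⊔ E) := by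
    have := Subgroup.relIndex_mul_relIndex ⊥ N (N ⊔ E) bot_le le_sup_left
    rwa [Subgroup.relIndex_bot_left, Subgroup.relIndex_bot_left, Subgroup.relIndex_sup_left] at this
  have c2 : Nat.card ↥(E ⊓ N) * N.relIndex E = Nat.card E := by
    have := Subgroup.relIndex_mul_relIndex ⊥ (E ⊓ N) E bot_le inf_le_left
    rwa [Subgroup.relIndex_bot_left, Subgroup.relIndex_bot_left, Subgroup.inf_relIndex_left] at this
  have c3 := (N ⊔ E).card_mul_index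
  have hN0 : (Nat.card N : ℂ) ≠ 0 := Nat.cast_ne_zero.mpr Nat.card_pos.ne'
  have hD0 : (Nat.card ↥(E ⊓ N) : ℂ) ≠ 0 := Nat.cast_ne_zero.mpr Nat.card_pos.ne'
  have hE0 : (Nat.card E : ℂ) ≠ 0 := Nat.cast_ne_zero.mpr Nat.card_pos.ne'
  have hG0 : (Nat.card G : ℂ) ≠ 0 := Nat.cast_ne_zero.mpr Nat.card_pos.ne'
  have hr0 : (N.relIndex E : ℂ) ≠ 0 := by
    intro h0
    apply hE0
    rw [← c2]; push_cast; rw [h0, mul_zero]
  have c1' : (Nat.card N : ℂ) * (N.relIndex E : ℂ) * ((N ⊔ E).index : ℂ) = (Nat.card G : ℂ) := by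
    rw [← c3, ← c1]; push_cast; ring
  have c2' : (Nat.card ↥(E ⊓ N) : ℂ) * (N.relIndex E : ℂ) = (Nat.card E : ℂ) := by
    rw [← c2]; push_cast; ring
  set SN := ∑ n : N, Cfsg.indFun E ψ n * conj (ϑ n) with hSN
  set SD := ∑ d : ↥(E ⊓ N), ψ ⟨d, d.2.1⟩ * conj (ϑ ⟨d, d.2.2⟩) with hSD
  have h5 : SN = (Nat.card G : ℂ) * ((Nat.card E : ℂ)⁻¹ * SD) := by
    rw [← hfrob, ← mul_assoc, mul_inv_cancel₀ hG0, one_mul]
  rw [h5, ← c1', ← c2']
  field_simp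

theorem core_ext {G : Type*} [Group G] [Fintype G] (p : ℕ) [hpf : Fact p.Prime] (N : Subgroup G)
    [hN : N.Normal] (hind : ∃ k : ℕ, N.index = p ^ k) (ϑ : N → ℂ) (hϑ : Cfsg.IsIrrCharacter N ϑ)
    (hinv : ∀ (g : G) (n : N), ϑ ⟨g * n * g⁻¹, hN.conj_mem (n : G) n.2 g⟩ = ϑ n)
    (E : Subgroup G) (htop : E ⊔ N = ⊤) (ψ : E → ℂ) (hψ : Cfsg.IsCharacter E ψ) (m : ℕ)
    (hm : ¬ p ∣ m) [Fintype ↥(E ⊓ N)]
    (hmeq : Cfsg.classInner (fun d : ↥(E ⊓ N) => ψ ⟨d, d.2.1⟩)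
      (fun d : ↥(E ⊓ N) => ϑ ⟨d, d.2.2⟩) = m) :
    ∃ χ : G → ℂ, Cfsg.IsIrrCharacter G χ ∧ ∀ n : N, χ n = ϑ n := by
  classical
  have hp : p.Prime := hpf.out
  have hϑc := IsIrrCharacter.isCharacter hϑ
  have h1 : Cfsg.classInner (fun n : N => Cfsg.indFun E ψ n) ϑ = m := by
    rw [key_formula2 N ϑ hinv E ψ, hmeq, sup_comm, htop, Subgroup.index_top]
    simp
  have hindc : Cfsg.IsCharacter G (Cfsg.indFun E ψ) := Cfsg.Agent.S0148.result E _ hψ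
  obtain ⟨a, ha, -⟩ := IsCharacter.eq_sum_nat hindc
  have he : ∀ χ : Cfsg.IrrCharacter G, ∃ e : ℕ,
      Cfsg.classInner (fun n : N => (χ : G → ℂ) n) ϑ = e := fun χ =>
    IsCharacter.classInner_nat (IsCharacter.comp N.subtype (IsIrrCharacter.isCharacter χ.2)) hϑc
  choose e he using he
  have h2 : (m : ℂ) = ((∑ χ : Cfsg.IrrCharacter G, a χ * e χ : ℕ) : ℂ) := by
    rw [← h1]
    have : (fun n : N => Cfsg.indFun E ψ n) =
        ∑ χ : Cfsg.IrrCharacter G, (a χ : ℂ) • (fun n : N => (χ : G → ℂ) n) := by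
      funext n
      rw [ha]
      simp
    rw [this, classInner_sum_left]
    push_cast
    apply Finset.sum_congr rfl
    intro χ _
    rw [classInner_smul_left, he]
  have h3 : m = ∑ χ : Cfsg.IrrCharacter G, a χ * e χ := by exact_mod_cast h2
  have hex : ∃ χ : Cfsg.IrrCharacter G, ¬ p ∣ e χ := by
    by_contra hcon
    push Not at hcon
    apply hm
    rw [h3]
    exact Finset.dvd_sum (fun χ _ => Dvd.dvd.mul_left (hcon χ) _)
  obtain ⟨χ, hχ⟩ := hex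
  have hne : Cfsg.classInner (fun n : N => (χ : G → ℂ) n) ϑ ≠ 0 := by
    rw [he]
    intro h0
    apply hχ
    have : e χ = 0 := by exact_mod_cast h0
    rw [this]; exact dvd_zero _
  have hres := Lib.Helper19Cliff.clifford_invariant N.subtype N.subtype_injective
    (MulAut.conjNormal) (fun g n => by simp [MulAut.conjNormal_apply]) χ.2 hϑ
    (fun g n => by
      have := hinv g n
      rw [← this]
      congr 1) hne
  obtain ⟨d, hd0, hd⟩ := IsIrrCharacter.exists_degree hϑ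
  have hc : (χ : G → ℂ) 1 = ((e χ * d : ℕ) : ℂ) := by
    have := congrFun hres 1
    simp only [Subgroup.subtype_apply, Pi.smul_apply, smul_eq_mul, OneMemClass.coe_one] at this
    rw [this, hd, he χ]
    push_cast; ring
  have h5 := (Cfsg.Agent.S0887.result N χ χ.2 ϑ hϑ hne (e χ * d) d hc hd).2
  rw [Nat.mul_div_cancel _ hd0] at h5
  obtain ⟨k, hk⟩ := hind
  rw [hk] at h5
  obtain ⟨i, -, hi⟩ := (Nat.dvd_prime_pow hp).mp h5
  have hi0 : i = 0 := by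
    rcases i with _ | i
    · rfl
    · exfalso
      apply hχ
      rw [hi]
      exact dvd_pow_self p (Nat.succ_ne_zero i)
  rw [hi0, pow_zero] at hi
  refine ⟨χ, χ.2, ?_⟩
  intro n
  have := congrFun hres n
  simp only [Subgroup.subtype_apply, Pi.smul_apply, smul_eq_mul] at this
  rw [this, he χ, hi]
  simp

theorem ext_comm {A : Type*} [Group A] [Finite A] (hA : ∀ a b : A, a * b = b * a) (B : Subgroup A)
    (f : B →* ℂˣ) : ∃ F : A →* ℂˣ, ∀ b : B, F b = f b := by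
  let _ : CommGroup A := { (inferInstance : Group A) with mul_comm := hA }
  have : NeZero (Monoid.exponent A : ℂ) := ⟨Nat.cast_ne_zero.mpr Monoid.exponent_ne_zero_of_finite⟩
  obtain ⟨F, hF⟩ := MonoidHom.domRestrict_surjective (M := ℂ) B f
  refine ⟨F, fun b => ?_⟩
  rw [← hF]
  rfl

theorem glue {G : Type*} [Group G] (E D Q : Subgroup G) (hD : D ≤ E) (hQ : Q ≤ E)
    (hcomm : ∀ d ∈ D, ∀ q ∈ Q, d * q = q * d)
    (hsurj : ∀ e ∈ E, ∃ d ∈ D, ∃ q ∈ Q, d * q = e) (f : D →* ℂˣ) (g : Q →* ℂˣ)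
    (hagree : ∀ (x : G) (h1 : x ∈ D) (h2 : x ∈ Q), f ⟨x, h1⟩ = g ⟨x, h2⟩) :
    ∃ F : E →* ℂˣ, ∀ d : D, F ⟨d, hD d.2⟩ = f d := by
  let κ : D × Q →* E := MonoidHom.noncommCoprod (Subgroup.inclusion hD) (Subgroup.inclusion hQ)
    (fun d q => Subtype.ext (hcomm d d.2 q q.2))
  have hκ : Function.Surjective κ := by
    rintro ⟨e, he⟩
    obtain ⟨d, hd, q, hq, rfl⟩ := hsurj e he
    exact ⟨(⟨d, hd⟩, ⟨q, hq⟩), rfl⟩
  let h : D × Q →* ℂˣ := f.coprod g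
  have hker : κ.ker ≤ h.ker := by
    rintro ⟨d, q⟩ hdq
    rw [MonoidHom.mem_ker] at hdq ⊢
    have e1 : (d : G) * q = 1 := congrArg Subtype.val hdq
    have e2 : (q : G) = (d : G)⁻¹ := (inv_eq_of_mul_eq_one_right e1).symm
    have e3 : (q : G) ∈ D := by rw [e2]; exact D.inv_mem d.2
    have e4 := hagree q e3 q.2
    show f d * g q = 1
    have e5 : g q = g ⟨q, q.2⟩ := rfl
    rw [e5, ← e4, ← map_mul]
    have : d * ⟨q, e3⟩ = 1 := Subtype.ext e1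
    rw [this, map_one]
  refine ⟨MonoidHom.liftOfSurjective κ hκ ⟨h, hker⟩, ?_⟩
  intro d
  have := MonoidHom.liftOfRightInverse_comp_apply κ _ (Function.rightInverse_surjInv hκ) ⟨h, hker⟩
    (d, 1)
  have e1 : κ (d, 1) = ⟨d, hD d.2⟩ := by
    apply Subtype.ext
    show (d : G) * ((1 : Q) : G) = d
    simp
  have e2 : h (d, 1) = f d := by simp [h]
  rw [e1] at this
  rw [← e2]
  exact this

theorem transport {G : Type*} [Group G] (N : Subgroup G) [hN : N.Normal] (P : Subgroup G)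
    (hcent : ∀ x ∈ P ⊓ N, ∀ y ∈ P, x * y = y * x)
    (hlin : ∀ lam : ↥(P ⊓ N) → ℂ, Cfsg.IsCharacter ↥(P ⊓ N) lam → lam 1 = 1 →
      ∃ μ : ↥P → ℂ, Cfsg.IsCharacter ↥P μ ∧ μ 1 = 1 ∧
        ∀ x : ↥(P ⊓ N), μ ⟨(x : G), x.2.1⟩ = lam x)
    (g : G) (P' : Subgroup G) (hP' : ∀ y, y ∈ P' ↔ g⁻¹ * y * g ∈ P) :
    (∀ x ∈ P' ⊓ N, ∀ y ∈ P', x * y = y * x) ∧
    (∀ f : ↥(P' ⊓ N) →* ℂˣ, ∃ F : ↥P' →* ℂˣ, ∀ x : ↥(P' ⊓ N), F ⟨(x : G), x.2.1⟩ = f x) := by
  have hNg : ∀ x ∈ N, g⁻¹ * x * g ∈ N := fun x hx => by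
    have := hN.conj_mem x hx g⁻¹
    rwa [inv_inv] at this
  constructor
  · intro x hx y hy
    have h1 := hcent (g⁻¹ * x * g) ⟨(hP' x).mp hx.1, hNg x hx.2⟩ (g⁻¹ * y * g) ((hP' y).mp hy)
    have h2 : x * y = g * ((g⁻¹ * x * g) * (g⁻¹ * y * g)) * g⁻¹ := by group
    rw [h2, h1]
    group
  · intro f
    have ha : ∀ x ∈ P ⊓ N, g * x * g⁻¹ ∈ P' ⊓ N := fun x hx => by
      refine ⟨(hP' _).mpr ?_, hN.conj_mem x hx.2 g⟩
      have : g⁻¹ * (g * x * g⁻¹) * g = x := by group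
      rw [this]; exact hx.1
    let a : ↥(P ⊓ N) →* ↥(P' ⊓ N) := MonoidHom.mk' (fun x => ⟨g * x * g⁻¹, ha x x.2⟩)
      (fun x y => Subtype.ext (by simp only [Subgroup.coe_mul]; group))
    let b : ↥P' →* ↥P := MonoidHom.mk' (fun y => ⟨g⁻¹ * y * g, (hP' y).mp y.2⟩)
      (fun x y => Subtype.ext (by simp only [Subgroup.coe_mul]; group))
    obtain ⟨μ, hμ, hμ1, hμe⟩ := hlin (homFun (f.comp a)) (isCharacter_homFun _) (homFun_one _)
    obtain ⟨F₀, hF₀⟩ := exists_hom_of_linear hμ hμ1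
    refine ⟨F₀.comp b, ?_⟩
    intro x
    apply Units.ext
    have h1 : ((F₀.comp b) ⟨(x : G), x.2.1⟩ : ℂ) = μ ⟨g⁻¹ * x * g, (hP' x).mp x.2.1⟩ := by
      rw [← hF₀]; rfl
    rw [h1]
    have h2 := hμe ⟨g⁻¹ * x * g, ⟨(hP' x).mp x.2.1, hNg x x.2.2⟩⟩
    rw [h2, homFun_apply, MonoidHom.comp_apply]
    have h3 : a ⟨g⁻¹ * x * g, ⟨(hP' x).mp x.2.1, hNg x x.2.2⟩⟩ = x := by
      apply Subtype.ext
      show g * (g⁻¹ * x * g) * g⁻¹ = x
      group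
    rw [h3]

/-- Let N be a normal subgroup of the finite group G with the index of N a power of the prime p, and P a Sylow p-subgroup of G such that P ⊓ N lies in the centre of P and every character of degree 1 of P ⊓ N is the restriction of a character of degree 1 of P. Then every irreducible character of N invariant under conjugation by G is the restriction of an irreducible character of G. -/
theorem result {G : Type*} [Group G] [Fintype G] (p : ℕ) [Fact p.Prime] (N : Subgroup G) [hN : N.Normal] (hind : ∃ k : ℕ, N.index = p ^ k) (P : Sylow p G) (hcent : ∀ x ∈ (P : Subgroup G) ⊓ N, ∀ y ∈ (P : Subgroup G), x * y = y * x) (hlin : ∀ lam : ↥((P : Subgroup G) ⊓ N) → ℂ, Cfsg.IsCharacter ↥((P : Subgroup G) ⊓ N) lam → lam 1 = 1 → ∃ μ : ↥(P : Subgroup G) → ℂ, Cfsg.IsCharacter ↥(P : Subgroup G) μ ∧ μ 1 = 1 ∧ ∀ x : ↥((P : Subgroup G) ⊓ N), μ ⟨(x : G), x.2.1⟩ = lam x) (ϑ : N → ℂ) (hϑ :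 Cfsg.IsIrrCharacter N ϑ) (hinv : ∀ (g : G) (n : N), ϑ ⟨g * n * g⁻¹, hN.conj_mem (n : G) n.2 g⟩ = ϑ n) : ∃ χ : G → ℂ, Cfsg.IsIrrCharacter G χ ∧ ∀ n : N, χ n = ϑ n := by
  classical
  have hp : p.Prime := Fact.out
  obtain ⟨E, φ, hE, htop, hφ, -, m, hm, hmeq⟩ := S0896.result p hp N hind ϑ hϑ hinv
  obtain ⟨x, hxc, hxcop, k', hk'⟩ := hE
  obtain ⟨P₀⟩ : Nonempty (Sylow p E) := inferInstance
  set Q : Subgroup G := (P₀ : Subgroup E).map E.subtype with hQ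
  have hQp : IsPGroup p Q := P₀.2.map _
  have hQE : Q ≤ E := by
    rintro _ ⟨e, -, rfl⟩
    exact e.2
  obtain ⟨P', hQP'⟩ := hQp.exists_le_sylow
  obtain ⟨g, hg⟩ := MulAction.exists_smul_eq G P P'
  have hP' : ∀ y, y ∈ (P' : Subgroup G) ↔ g⁻¹ * y * g ∈ (P : Subgroup G) := by
    intro y
    rw [← hg, Sylow.coe_subgroup_smul, Subgroup.mem_pointwise_smul_iff_inv_smul_mem]
    simp [MulAut.smul_def]
  obtain ⟨hcent', hlin'⟩ := transport N P hcent hlin g P' hP'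
  have hxN : (x : G) ∈ N := by
    obtain ⟨k, hk⟩ := hind
    have h1 : (x : G) ^ (p ^ k) ∈ N := hk ▸ N.pow_index_mem (x : G)
    have h2 : (p ^ k).Coprime (orderOf (x : G)) := by
      rw [Subgroup.orderOf_coe]
      exact (Nat.Coprime.pow_right k hxcop).symm
    obtain ⟨j, hj⟩ := exists_pow_eq_self_of_coprime h2
    rw [← hj]
    exact N.pow_mem h1 j
  have hxE : ∀ e ∈ E, Commute (x : G) e := by
    intro e he
    have := Subgroup.mem_center_iff.mp hxc ⟨e, he⟩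
    exact (congrArg Subtype.val this).symm
  have hdec : ∀ e ∈ E, ∃ i : ℤ, ∃ q ∈ Q, (x : G) ^ i * q = e := by
    have hnorm : (Subgroup.zpowers x).Normal := by
      constructor
      intro z hz e
      have hzc : z ∈ Subgroup.center E := (Subgroup.zpowers_le.mpr hxc) hz
      have := Subgroup.mem_center_iff.mp hzc e
      rw [this, mul_inv_cancel_right]
      exact hz
    have hsup := Lib.Helper19Brauer2.sup_sylow_eq_top (Subgroup.zpowers x) k' hk' P₀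
    intro e he
    obtain ⟨z, hz, q, hq, hzq⟩ := Lib.Helper77Glaub4.exists_mul_of_sup_eq_top _ _ hsup ⟨e, he⟩
    obtain ⟨i, rfl⟩ := Subgroup.mem_zpowers_iff.mp hz
    refine ⟨i, q, ⟨q, hq, rfl⟩, ?_⟩
    have := congrArg Subtype.val hzq
    simpa using this
  have hdecD : ∀ d ∈ E ⊓ N, ∃ i : ℤ, ∃ q ∈ Q ⊓ N, (x : G) ^ i * q = d := by
    intro d hd
    obtain ⟨i, q, hq, rfl⟩ := hdec d hd.1
    refine ⟨i, q, ⟨hq, ?_⟩, rfl⟩
    have := N.mul_mem (N.zpow_mem hxN (-i)) hd.2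
    simpa [← mul_assoc] using this
  have hDE : ∀ d ∈ E ⊓ N, ∀ e ∈ E, d * e = e * d := by
    intro d hd e he
    obtain ⟨i, q, hq, rfl⟩ := hdecD d hd
    obtain ⟨j, q', hq', rfl⟩ := hdec e he
    have c1 : Commute ((x : G) ^ i) ((x : G) ^ j) := (Commute.refl _).zpow_zpow i j
    have c2 : Commute ((x : G) ^ i) q' := (hxE q' (hQE hq')).zpow_left i
    have c3 : Commute q ((x : G) ^ j) := ((hxE q (hQE hq.1)).zpow_left j).symm
    have c4 : Commute q q' := hcent' q ⟨hQP' hq.1, hq.2⟩ q' (hQP' hq')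
    exact (c1.mul_right c2).mul_left (c3.mul_right c4)
  have : IsMulCommutative ↥(E ⊓ N) := ⟨⟨fun a b => Subtype.ext (hDE a a.2 b b.2.1)⟩⟩
  have hφ1 : φ 1 = 1 := Lib.Helper5Abel.irr_one_of_comm ⟨φ, hφ⟩
  obtain ⟨fφ, hfφ⟩ := exists_hom_of_linear (IsIrrCharacter.isCharacter hφ) hφ1
  let B : Subgroup ↥((P' : Subgroup G) ⊓ N) := Q.subgroupOf ((P' : Subgroup G) ⊓ N)
  let iB : B →* ↥(E ⊓ N) := MonoidHom.mk'
    (fun b => ⟨((b : ↥((P' : Subgroup G) ⊓ N)) : G), ⟨hQE b.2, b.1.2.2⟩⟩) (fun a b => rfl)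
  obtain ⟨fA, hfA⟩ := ext_comm (fun a b => Subtype.ext (hcent' a a.2 b b.2.1)) B (fφ.comp iB)
  obtain ⟨F, hF⟩ := hlin' fA
  let gQ : Q →* ℂˣ := F.comp (Subgroup.inclusion hQP')
  obtain ⟨Ψ, hΨ⟩ := glue E (E ⊓ N) Q inf_le_left hQE (fun d hd q hq => hDE d hd q (hQE hq)) (by
      intro e he
      obtain ⟨i, q, hq, rfl⟩ := hdec e he
      exact ⟨_, ⟨E.zpow_mem x.2 i, N.zpow_mem hxN i⟩, q, hq, rfl⟩) fφ gQ (by
      intro y h1 h2
      have e1 := hF ⟨y, ⟨hQP' h2, h1.2⟩⟩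
      have e2 := hfA ⟨⟨y, ⟨hQP' h2, h1.2⟩⟩, h2⟩
      show _ = F ⟨y, hQP' h2⟩
      rw [e1, e2]; rfl)
  apply core_ext p N hind ϑ hϑ hinv E htop (homFun Ψ) (isCharacter_homFun Ψ) m hm
  have e1 : (fun d : ↥(E ⊓ N) => homFun Ψ ⟨d, d.2.1⟩) = φ := by
    funext d
    rw [homFun_apply, hΨ d, ← hfφ]; rfl
  rw [e1, ← classInner_conj_symm]
  rw [finsum_eq_sum_of_fintype] at hmeq
  unfold Cfsg.classInner
  rw [hmeq]
  simp

end Cfsg.Agent.S0897
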