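import Cfsg.Statements.S0900
import Cfsg.Agent.Lib.Helper4Char4
import Cfsg.Agent.Lib.Helper19Cliff
import Cfsg.Agent.Lib.Helper19Ind
import Cfsg.Agent.Lib.Helper83Char
import Cfsg.Agent.S0146
import Cfsg.Agent.S0148

set_option autoImplicit false
open Cfsg

namespace Cfsg.Agent.S0900

open scoped ComplexConjugate

open Cfsg.Agent.Lib.Helper4Char Cfsg.Agent.Lib.Helper4Char2 Cfsg.Agent.Lib.Helper4Char4

variable {G : Type*} [Group G] [Fintype G] (N : Subgroup G) [hN : N.Normal] [Fintype N]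

theorem indFun_one_val (ϑ : N → ℂ) : Cfsg.indFun N ϑ 1 = (N.index : ℂ) * ϑ 1 := by
  rw [Cfsg.Agent.Lib.Helper19Ind.indFun_apply]
  have : ∀ x : G, Cfsg.extendByZero N ϑ (x⁻¹ * 1 * x) = ϑ 1 := by
    intro x
    have e : x⁻¹ * 1 * x = ((1 : N) : G) := by simp
    rw [e, Cfsg.Agent.Lib.Helper19Ind.extendByZero_coe]
  simp_rw [this]
  rw [Finset.sum_const, Finset.card_univ, nsmul_eq_mul, ← Nat.card_eq_fintype_card, ← mul_assoc,
    Cfsg.Agent.Lib.Helper19Ind.card_div_card_eq_index]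

variable {N}
variable {χ : G → ℂ} (hχ : Cfsg.IsIrrCharacter G χ) {ϑ : N → ℂ} (hϑ : Cfsg.IsIrrCharacter N ϑ)

include hχ in
theorem inv_of_mul (e : ℕ) (he : e ≠ 0) (h : (fun n : N => χ n) = (e : ℂ) • ϑ) (g : G) (n : N) :
    ϑ ⟨g * n * g⁻¹, hN.conj_mem (n : G) n.2 g⟩ = ϑ n := by
  have h1 := congrFun h n
  have h2 := congrFun h ⟨g * n * g⁻¹, hN.conj_mem (n : G) n.2 g⟩
  simp only [Pi.smul_apply, smul_eq_mul] at h1 h2
  rw [Cfsg.Agent.Lib.Helper83Char.irr_class hχ, h1] at h2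
  exact (mul_left_cancel₀ (Nat.cast_ne_zero.2 he) h2).symm

include hχ hϑ in
theorem mul_of_inv (hcon : Cfsg.classInner (fun n : N => χ n) ϑ ≠ 0)
    (hinv : ∀ (g : G) (n : N), ϑ ⟨g * n * g⁻¹, hN.conj_mem (n : G) n.2 g⟩ = ϑ n) :
    ∃ e : ℕ, (fun n : N => χ n) = (e : ℂ) • ϑ := by
  have h := Cfsg.Agent.Lib.Helper19Cliff.clifford_invariant N.subtype N.subtype_injective
    (MulAut.conjNormal) (fun g n => by simp [MulAut.conjNormal_apply]) hχ hϑ
    (fun g n => by
      have := hinv g n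
      rw [← this]
      congr 1) hcon
  obtain ⟨e, he⟩ := IsCharacter.classInner_nat
    (IsCharacter.restrict N (IsIrrCharacter.isCharacter hχ)) (IsIrrCharacter.isCharacter hϑ)
  refine ⟨e, ?_⟩
  rw [← he]
  exact h

include hχ hϑ in
/-- the norm identity -/
theorem norm_id (e : ℕ) (h : (fun n : N => χ n) = (e : ℂ) • ϑ) [DecidablePred (· ∈ N)] :
    (Nat.card N : ℂ) * (e : ℂ) ^ 2 + ∑ g : G, (if g ∈ N then 0 else χ g * conj (χ g)) =
      (Nat.card G : ℂ) := by
  have hG : (Nat.card G : ℂ) ≠ 0 := by exact_mod_cast Nat.card_pos.ne'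
  have hNc : (Nat.card N : ℂ) ≠ 0 := by exact_mod_cast Nat.card_pos.ne'
  have h1 : Cfsg.classInner (fun n : N => χ n) (fun n : N => χ n) = (e : ℂ) ^ 2 := by
    rw [h, classInner_smul_left, classInner_smul_right, classInner_irr_self hϑ,
      Complex.conj_natCast]
    ring
  have h2 := classInner_irr_self hχ
  rw [Cfsg.classInner] at h1 h2
  rw [Cfsg.Agent.Lib.Helper83Char.sum_subgroup N (fun g => χ g * conj (χ g))] at h1
  have h3 : ∑ g : G, χ g * conj (χ g) = (Nat.card G : ℂ) := by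
    field_simp at h2
    exact h2
  have h4 : ∑ g : G, (if g ∈ N then χ g * conj (χ g) else 0) = (Nat.card N : ℂ) * (e : ℂ) ^ 2 := by
    field_simp at h1
    linear_combination h1
  rw [← h4, ← h3, ← Finset.sum_add_distrib]
  refine Finset.sum_congr rfl fun g _ => ?_
  split_ifs <;> simp

include hχ hϑ in
theorem vanish_iff (e : ℕ) (h : (fun n : N => χ n) = (e : ℂ) • ϑ) :
    e ^ 2 = N.index ↔ ∀ g : G, g ∉ N → χ g = 0 := by
  classical
  have hid := norm_id hχ hϑ e h
  have hNc : (Nat.card N : ℂ) ≠ 0 := by exact_mod_cast Nat.card_pos.ne'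
  have hci : (Nat.card N : ℂ) * (N.index : ℂ) = (Nat.card G : ℂ) := by
    exact_mod_cast N.card_mul_index
  constructor
  · intro he
    have he' : (e : ℂ) ^ 2 = (N.index : ℂ) := by exact_mod_cast he
    rw [he', hci] at hid
    have h0 : ∑ g : G, (if g ∈ N then 0 else χ g * conj (χ g)) = 0 := by
      linear_combination hid
    have h1 : ∑ g : G, (if g ∈ N then 0 else Complex.normSq (χ g)) = 0 := by
      have : ((∑ g : G, (if g ∈ N then 0 else Complex.normSq (χ g)) : ℝ) : ℂ) = 0 := by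
        rw [← h0]
        push_cast
        refine Finset.sum_congr rfl fun g _ => ?_
        split_ifs
        · rfl
        · rw [Complex.mul_conj]
      exact_mod_cast this
    rw [Finset.sum_eq_zero_iff_of_nonneg (fun g _ => by
      split_ifs
      · exact le_rfl
      · exact Complex.normSq_nonneg _)] at h1
    intro g hg
    have := h1 g (Finset.mem_univ _)
    rw [if_neg hg] at this
    exact Complex.normSq_eq_zero.1 this
  · intro hv
    have h0 : ∑ g : G, (if g ∈ N then 0 else χ g * conj (χ g)) = 0 := by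
      refine Finset.sum_eq_zero fun g _ => ?_
      split_ifs with hg
      · rfl
      · rw [hv g hg, zero_mul]
    rw [h0, add_zero, ← hci] at hid
    have := mul_left_cancel₀ hNc hid
    exact_mod_cast this

include hχ hϑ in
theorem inner_ind (e : ℕ) (h : (fun n : N => χ n) = (e : ℂ) • ϑ) :
    Cfsg.classInner (Cfsg.indFun N ϑ) χ = e := by
  rw [Cfsg.Agent.S0146.result N ϑ χ (IsIrrCharacter.isClassFunction hχ), h, classInner_smul_right,
    classInner_irr_self hϑ, Complex.conj_natCast, mul_one]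

include hχ hϑ in
theorem unique_iff (e : ℕ) (h : (fun n : N => χ n) = (e : ℂ) • ϑ) :
    e ^ 2 = N.index ↔ ∀ ψ : G → ℂ, Cfsg.IsIrrCharacter G ψ →
      Cfsg.classInner (Cfsg.indFun N ϑ) ψ ≠ 0 → ψ = χ := by
  classical
  obtain ⟨m, hm, hm2⟩ := IsCharacter.eq_sum_nat
    (Cfsg.Agent.S0148.result N ϑ (IsIrrCharacter.isCharacter hϑ))
  have hdeg := congrFun hm 1
  rw [indFun_one_val] at hdeg
  simp only [Finset.sum_apply, Pi.smul_apply, smul_eq_mul] at hdeg
  have hχ1 : χ 1 = (e : ℂ) * ϑ 1 := by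
    have := congrFun h 1
    simpa using this
  have hme : m ⟨χ, hχ⟩ = e := by
    have := hm2 ⟨χ, hχ⟩
    rw [inner_ind hχ hϑ e h] at this
    exact_mod_cast this.symm
  have hϑ1 := Cfsg.Agent.Lib.Helper83Char.irr_one_ne_zero hϑ
  rw [← Finset.add_sum_erase _ _ (Finset.mem_univ (⟨χ, hχ⟩ : Cfsg.IrrCharacter G)), hme] at hdeg
  simp only [] at hdeg
  rw [hχ1] at hdeg
  constructor
  · intro he ψ hψ hne
    by_contra hψχ
    have he' : (e : ℂ) ^ 2 = (N.index : ℂ) := by exact_mod_cast he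
    have h0 : ∑ x ∈ Finset.univ.erase (⟨χ, hχ⟩ : Cfsg.IrrCharacter G),
        (m x : ℂ) * (x : G → ℂ) 1 = 0 := by
      rw [← he'] at hdeg
      linear_combination -hdeg
    have h1 : ∑ x ∈ Finset.univ.erase (⟨χ, hχ⟩ : Cfsg.IrrCharacter G),
        m x * Cfsg.charDegree (x : G → ℂ) = 0 := by
      have : ((∑ x ∈ Finset.univ.erase (⟨χ, hχ⟩ : Cfsg.IrrCharacter G),
        m x * Cfsg.charDegree (x : G → ℂ) : ℕ) : ℂ) = 0 := by
        rw [← h0]
        push_cast
        refine Finset.sum_congr rfl fun x _ => ?_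
        rw [Cfsg.Agent.Lib.Helper83Char.charDegree_cast x.2]
      exact_mod_cast this
    rw [Finset.sum_eq_zero_iff] at h1
    have h2 := h1 ⟨ψ, hψ⟩ (Finset.mem_erase.2 ⟨fun h => hψχ (congrArg Subtype.val h),
      Finset.mem_univ _⟩)
    rcases Nat.mul_eq_zero.1 h2 with h3 | h3
    · apply hne
      rw [hm2 ⟨ψ, hψ⟩, h3, Nat.cast_zero]
    · exact (Cfsg.Agent.Lib.Helper83Char.charDegree_pos hψ).ne' h3
  · intro hU
    have h0 : ∑ x ∈ Finset.univ.erase (⟨χ, hχ⟩ : Cfsg.IrrCharacter G),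
        (m x : ℂ) * (x : G → ℂ) 1 = 0 := by
      refine Finset.sum_eq_zero fun x hx => ?_
      have hx' : m x = 0 := by
        by_contra hmx
        have := hU x x.2 (by rw [hm2 x]; exact_mod_cast hmx)
        exact (Finset.mem_erase.1 hx).1 (Subtype.ext this)
      rw [hx', Nat.cast_zero, zero_mul]
    rw [h0, add_zero] at hdeg
    have : (N.index : ℂ) = (e : ℂ) ^ 2 := by
      apply mul_right_cancel₀ hϑ1
      rw [hdeg]; ring
    exact_mod_cast this.symm


/-- Let N be a normal subgroup of the finite group G, χ an irreducible character of G and ϑ an irreducible character of N having nonzero inner product with the restriction of χ. Consider: (a) the restriction of χ to N is e • ϑ for a natural number e with e ^ 2 equal to the index of N; (b) χ vanishes outside N and ϑ is invariant under conjugation by G; (c) ϑ is invariant and every irreducible character of G having nonzero inner product with the function induced from ϑ equals χ.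 Then (a) ↔ (b) and (a) ↔ (c). -/
theorem result {G : Type*} [Group G] [Fintype G] (N : Subgroup G) [hN : N.Normal] [Fintype N] (χ : G → ℂ) (hχ : Cfsg.IsIrrCharacter G χ) (ϑ : N → ℂ) (hϑ : Cfsg.IsIrrCharacter N ϑ) (hcon : Cfsg.classInner (fun n : N => χ n) ϑ ≠ 0) : ((∃ e : ℕ, (fun n : N => χ n) = (e : ℂ) • ϑ ∧ e ^ 2 = N.index) ↔ ((∀ g : G, g ∉ N → χ g = 0) ∧ ∀ (g : G) (n : N), ϑ ⟨g * n * g⁻¹, hN.conj_mem (n : G) n.2 g⟩ = ϑ n)) ∧ ((∃ e : ℕ, (fun n : N => χ n) = (e : ℂ) • ϑ ∧ e ^ 2 = N.index) ↔ (∀ (g : G) (n : N), ϑ ⟨g * n * g⁻¹, hN.conj_mem (n : G) n.2 g⟩ = ϑ n ∧ ∀ ψ : G → ℂ, Cfsg.IsIrrCharacter G ψ → Cfsg.classInner (Cfsg.indFun N ϑ) ψ ≠ 0 → ψ = χ)) := by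
  have hidx : N.index ≠ 0 := Subgroup.index_ne_zero_of_finite
  have hA_inv : (∃ e : ℕ, (fun n : N => χ n) = (e : ℂ) • ϑ ∧ e ^ 2 = N.index) →
      ∀ (g : G) (n : N), ϑ ⟨g * n * g⁻¹, hN.conj_mem (n : G) n.2 g⟩ = ϑ n := by
    rintro ⟨e, h, he⟩ g n
    refine inv_of_mul hχ e ?_ h g n
    rintro rfl
    exact hidx (by simpa using he.symm)
  constructor
  · constructor
    · intro hA
      obtain ⟨e, h, he⟩ := hA
      exact ⟨(vanish_iff hχ hϑ e h).1 he, hA_inv ⟨e, h, he⟩⟩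
    · rintro ⟨hv, hinv⟩
      obtain ⟨e, h⟩ := mul_of_inv hχ hϑ hcon hinv
      exact ⟨e, h, (vanish_iff hχ hϑ e h).2 hv⟩
  · constructor
    · intro hA g n
      obtain ⟨e, h, he⟩ := hA
      exact ⟨hA_inv ⟨e, h, he⟩ g n, (unique_iff hχ hϑ e h).1 he⟩
    · intro hc
      obtain ⟨e, h⟩ := mul_of_inv hχ hϑ hcon (fun g n => (hc g n).1)
      exact ⟨e, h, (unique_iff hχ hϑ e h).2 (hc 1 1).2⟩

end Cfsg.Agent.S0900
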