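import Cfsg.Statements.S0901
import Cfsg.Agent.Lib.Helper20Local
-- import your own Cfsg.Agent.* helpers here

set_option autoImplicit false
open Cfsg

namespace Cfsg.Agent.S0901

open Cfsg.Agent.Lib Polynomial

theorem natCast_not_mem {p : ℕ} {M : Ideal Cfsg.AlgInt} (hM : Cfsg.IsPModular p M) {m : ℕ}
    (hm : ¬ p ∣ m) : (m : Cfsg.AlgInt) ∉ M := by
  intro h
  apply hm
  have := (Helper20Local.intCast_mem_iff hM (m : ℤ)).mp (by simpa using h)
  exact_mod_cast this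

theorem inj_part {p : ℕ} {M : Ideal Cfsg.AlgInt} (hM : Cfsg.IsPModular p M)
    (ε₁ ε₂ : Cfsg.AlgInt) (m : ℕ) (hm : ¬ p ∣ m) (h1 : ε₁ ^ m = 1) (h2 : ε₂ ^ m = 1)
    (hmem : ε₁ - ε₂ ∈ M) : ε₁ = ε₂ := by
  by_contra hne
  have hm0 : m ≠ 0 := by rintro rfl; exact hm (dvd_zero p)
  obtain ⟨k, rfl⟩ : ∃ k, m = k + 1 := ⟨m - 1, by omega⟩
  set δ : Cfsg.AlgInt := ε₁ * ε₂ ^ k with hδ
  have hinv : ε₂ * ε₂ ^ k = 1 := by rw [← pow_succ', h2]
  have hδ1 : δ - 1 = (ε₁ - ε₂) * ε₂ ^ k := by rw [sub_mul, hinv]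
  have hδmem : δ - 1 ∈ M := by rw [hδ1]; exact M.mul_mem_right _ hmem
  have hδne : δ - 1 ≠ 0 := by
    rw [hδ1]
    apply mul_ne_zero (sub_ne_zero.mpr hne)
    intro h0
    rw [h0, mul_zero] at hinv
    exact zero_ne_one hinv
  have hδpow : δ ^ (k + 1) = 1 := by
    rw [hδ, mul_pow, h1, one_mul, ← pow_mul, mul_comm, pow_mul, h2, one_pow]
  have hsum : ∑ i ∈ Finset.range (k + 1), δ ^ i = 0 := by
    have := mul_geom_sum δ (k + 1)
    rw [hδpow, sub_self] at this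
    exact (mul_eq_zero.mp this).resolve_left hδne
  apply natCast_not_mem hM hm
  rw [← Ideal.Quotient.eq_zero_iff_mem]
  have hq : Ideal.Quotient.mk M δ = 1 := by
    rw [← map_one (Ideal.Quotient.mk M), Ideal.Quotient.eq]
    exact hδmem
  have := congrArg (Ideal.Quotient.mk M) hsum
  rw [map_sum, map_zero] at this
  simp only [map_pow, hq, one_pow, Finset.sum_const, Finset.card_range, nsmul_eq_mul, mul_one] at this
  rw [map_natCast]
  exact this

theorem exists_pow_sub_one_mem {p : ℕ} [Fact p.Prime] {M : Ideal Cfsg.AlgInt}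
    (hM : Cfsg.IsPModular p M) (a : Cfsg.AlgInt) (ha : a ∉ M) :
    ∃ N : ℕ, ¬ p ∣ N ∧ a ^ N - 1 ∈ M := by
  have hmax : M.IsMaximal := hM.2.1
  let _ : Field (Cfsg.AlgInt ⧸ M) := Ideal.Quotient.field M
  have hchar : CharP (Cfsg.AlgInt ⧸ M) p := by
    rw [CharP.charP_iff_prime_eq_zero hM.1, ← map_natCast (Ideal.Quotient.mk M),
      Ideal.Quotient.eq_zero_iff_mem]
    exact hM.2.2
  let _ : Algebra (ZMod p) (Cfsg.AlgInt ⧸ M) := ZMod.algebra _ p
  set b : Cfsg.AlgInt ⧸ M := Ideal.Quotient.mk M a with hb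
  have hb0 : b ≠ 0 := by
    rw [hb, Ne, Ideal.Quotient.eq_zero_iff_mem]; exact ha
  have hintZ : IsIntegral ℤ b := by
    have h1 : IsIntegral ℤ a := integralClosure.isIntegral a
    exact h1.map (Ideal.Quotient.mkₐ ℤ M)
  have hint : IsIntegral (ZMod p) b := hintZ.tower_top
  have hfg := hint.fg_adjoin_singleton
  have hfin : Module.Finite (ZMod p) (Algebra.adjoin (ZMod p) {b}) :=
    Module.Finite.iff_fg.mpr hfg
  have hfinite : Finite (Algebra.adjoin (ZMod p) {b}) := Module.finite_of_finite (ZMod p)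
  let bb : Algebra.adjoin (ZMod p) {b} := ⟨b, Algebra.self_mem_adjoin_singleton _ b⟩
  obtain ⟨i, j, hij, hpow⟩ := Finite.exists_ne_map_eq_of_infinite (fun i : ℕ => bb ^ i)
  have hpow' : b ^ i = b ^ j := by
    have := congrArg Subtype.val hpow
    simpa [bb] using this
  have key : ∃ N₀ : ℕ, N₀ ≠ 0 ∧ b ^ N₀ = 1 := by
    rcases lt_or_gt_of_ne hij with h | h
    · refine ⟨j - i, by omega, ?_⟩
      have e : b ^ j = b ^ i * b ^ (j - i) := by rw [← pow_add]; congr 1; omega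
      rw [e] at hpow'
      exact (mul_eq_left₀ (pow_ne_zero i hb0)).mp hpow'.symm
    · refine ⟨i - j, by omega, ?_⟩
      have e : b ^ i = b ^ j * b ^ (i - j) := by rw [← pow_add]; congr 1; omega
      rw [e] at hpow'
      exact (mul_eq_left₀ (pow_ne_zero j hb0)).mp hpow'
  obtain ⟨N₀, hN₀, hbN⟩ := key
  obtain ⟨s, N, hN, rfl⟩ := Nat.exists_eq_pow_mul_and_not_dvd hN₀ p hM.1.ne_one
  refine ⟨N, hN, ?_⟩
  rw [← Ideal.Quotient.eq_zero_iff_mem, map_sub, map_pow, map_one]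
  have h3 : (b ^ N - 1) ^ p ^ s = 0 := by
    rw [sub_pow_char_pow, one_pow, ← pow_mul, mul_comm N, hbN, sub_self]
  exact (pow_eq_zero_iff (pow_ne_zero s hM.1.ne_zero)).mp h3

/-- Let M be a maximal ideal of the ring of algebraic integers containing the prime p, and let U be the set of complex roots of unity of order prime to p. Then reduction modulo M is injective on U, and every algebraic integer not in M is congruent modulo M to an element of U (so U maps bijectively onto the nonzero residues). -/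
theorem result (p : ℕ) [Fact p.Prime] (M : Ideal Cfsg.AlgInt) (hM : Cfsg.IsPModular p M) : (∀ ε₁ ε₂ : Cfsg.AlgInt, (∃ m : ℕ, ¬ p ∣ m ∧ (ε₁ : ℂ) ^ m = 1) → (∃ m : ℕ, ¬ p ∣ m ∧ (ε₂ : ℂ) ^ m = 1) → ε₁ - ε₂ ∈ M → ε₁ = ε₂) ∧ (∀ a : Cfsg.AlgInt, a ∉ M → ∃ ε : Cfsg.AlgInt, (∃ m : ℕ, ¬ p ∣ m ∧ (ε : ℂ) ^ m = 1) ∧ a - ε ∈ M) := by
  constructor
  · rintro ε₁ ε₂ ⟨m₁, hm₁, h₁⟩ ⟨m₂, hm₂, h₂⟩ hmem
    have hp : p.Prime := Fact.out
    apply inj_part hM ε₁ ε₂ (m₁ * m₂) (fun h => (hp.dvd_mul.mp h).elim hm₁ hm₂) _ _ hmem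
    · apply Subtype.ext
      push_cast
      rw [pow_mul, h₁, one_pow]
    · apply Subtype.ext
      push_cast
      rw [mul_comm, pow_mul, h₂, one_pow]
  · intro a ha
    obtain ⟨N, hN, hmem⟩ := exists_pow_sub_one_mem hM a ha
    have hN0 : N ≠ 0 := by rintro rfl; exact hN (dvd_zero p)
    have hζ := Complex.isPrimitiveRoot_exp N hN0
    let ζ : Cfsg.AlgInt := ⟨Complex.exp (2 * Real.pi * Complex.I / N), hζ.isIntegral (Nat.pos_of_ne_zero hN0)⟩
    have hζ' : IsPrimitiveRoot ζ N :=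
      IsPrimitiveRoot.of_map_of_injective (f := (Cfsg.AlgInt).val) hζ Subtype.val_injective
    have hfac := X_pow_sub_one_eq_prod (Nat.pos_of_ne_zero hN0) hζ'
    have hev := congrArg (Polynomial.eval a) hfac
    rw [eval_sub, eval_pow, eval_X, eval_one, eval_prod] at hev
    simp only [eval_sub, eval_X, eval_C] at hev
    rw [hev] at hmem
    have hprime : M.IsPrime := hM.2.1.isPrime
    obtain ⟨ε, hε, hεM⟩ := Ideal.IsPrime.prod_mem_iff.mp hmem
    refine ⟨ε, ⟨N, hN, ?_⟩, hεM⟩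
    have := (mem_nthRootsFinset (Nat.pos_of_ne_zero hN0) 1).mp hε
    have h2 := congrArg Subtype.val this
    simpa using h2

end Cfsg.Agent.S0901
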