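import Cfsg.Statements.S0902
import Cfsg.Agent.Lib.Helper79Ideal
import Cfsg.Agent.Lib.Helper5Galois
import Cfsg.Agent.Lib.Helper20Center
-- import your own Cfsg.Agent.* helpers here

set_option autoImplicit false
open Cfsg

namespace Cfsg.Agent.S0902

open Cfsg.Agent.Lib

theorem centralizer_pow {G : Type*} [Group G] [Finite G] (k : ℕ) (hk : k.Coprime (Nat.card G))
    (g : G) : Subgroup.centralizer ({g ^ k} : Set G) = Subgroup.centralizer ({g} : Set G) := by
  have hko : k.Coprime (orderOf g) := hk.coprime_dvd_right (orderOf_dvd_natCard g)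
  obtain ⟨m, hm⟩ := exists_pow_eq_self_of_coprime hko
  ext x
  simp only [Subgroup.mem_centralizer_singleton_iff]
  constructor
  · intro h
    have : Commute x (g ^ k) := h
    have h2 := this.pow_right m
    rw [hm] at h2
    exact h2
  · intro h
    have : Commute x g := h
    exact this.pow_right k

/-- If two irreducible characters of a finite group lie in the same block relative to one maximal ideal M of the algebraic integers containing the prime p, then at every element the difference of their central characters is an algebraic integer lying in every maximal ideal containing p; in particular they lie in the same block relative to any such ideal. -/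
theorem result {G : Type*} [Group G] [Finite G] (p : ℕ) [Fact p.Prime] (M : Ideal Cfsg.AlgInt) (hM : Cfsg.IsPModular p M) (χ ψ : Cfsg.IrrCharacter G) (h : Cfsg.SameBlock M (χ : G → ℂ) (ψ : G → ℂ)) (M' : Ideal Cfsg.AlgInt) (hM' : Cfsg.IsPModular p M') (g : G) : ∃ r : Cfsg.AlgInt, r ∈ M' ∧ (r : ℂ) = Cfsg.centralChar (χ : G → ℂ) g - Cfsg.centralChar (ψ : G → ℂ) g := by
  have := Fintype.ofFinite G
  have hP := Helper20Local.IsPModular.isPrime hM
  have hint : ∀ x : G, IsIntegral ℤ (Cfsg.centralChar (χ : G → ℂ) x - Cfsg.centralChar (ψ : G → ℂ) x) :=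
    fun x => (Helper20Center.centralChar_isIntegral χ.2 x).sub
      (Helper20Center.centralChar_isIntegral ψ.2 x)
  have key := Helper79Ideal.mem_of_conjugates hM hM' _ (hint g) ?_
  · obtain ⟨r, hr, hr'⟩ := key
    exact ⟨r, hr, hr'⟩
  intro β hβ
  have halg : IsAlgebraic ℚ (Cfsg.centralChar (χ : G → ℂ) g - Cfsg.centralChar (ψ : G → ℂ) g) :=
    ((hint g).tower_top (A := ℚ)).isAlgebraic
  obtain ⟨σ, hσ⟩ := Helper4Galois.exists_embedding_of_conjugate _ β halg hβ
  have hn : 0 < Nat.card G := Nat.card_pos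
  obtain ⟨m, hm, hpow⟩ := Helper5Galois.exists_pow_of_ringHom (Nat.card G) hn σ
  have hG : ∀ x : G, x ^ Nat.card G = 1 := fun x => pow_card_eq_one'
  obtain ⟨n₁, ρ₁, -, h₁⟩ := χ.2
  obtain ⟨n₂, ρ₂, -, h₂⟩ := ψ.2
  have hβ' : β = Cfsg.centralChar (χ : G → ℂ) (g ^ m) - Cfsg.centralChar (ψ : G → ℂ) (g ^ m) := by
    rw [← hσ]
    have e : (⟨Cfsg.centralChar (χ : G → ℂ) g - Cfsg.centralChar (ψ : G → ℂ) g,
        mem_algebraicClosure_iff.mpr halg⟩ : Helper5Galois.K) =
        (((Subgroup.centralizer ({g} : Set G)).index : ℕ) : Helper5Galois.K) *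
          Helper5Galois.charK ρ₁ g / Helper5Galois.charK ρ₁ 1 -
        (((Subgroup.centralizer ({g} : Set G)).index : ℕ) : Helper5Galois.K) *
          Helper5Galois.charK ρ₂ g / Helper5Galois.charK ρ₂ 1 := by
      apply Subtype.ext
      simp only [Cfsg.centralChar, ← h₁, ← h₂]
      push_cast
      rfl
    rw [e, map_sub, map_div₀, map_div₀, map_mul, map_mul, map_natCast,
      Helper5Galois.apply_charK ρ₁ _ hn hG σ m hpow, Helper5Galois.apply_charK ρ₁ _ hn hG σ m hpow,
      Helper5Galois.apply_charK ρ₂ _ hn hG σ m hpow, Helper5Galois.apply_charK ρ₂ _ hn hG σ m hpow,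
      one_pow]
    simp only [Cfsg.centralChar, ← h₁, ← h₂, centralizer_pow m hm g]
  rw [hβ']
  have hmem := h (g ^ m)
  exact ⟨⟨_, hint (g ^ m)⟩, (Helper20Local.memLocalIdeal_coe_iff hP ⟨_, hint (g ^ m)⟩).mp hmem, rfl⟩

end Cfsg.Agent.S0902
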