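import Cfsg.Statements.S0903


set_option autoImplicit false
open Cfsg

namespace Cfsg.Agent.S0903

/-- Let P be a p-subgroup of the finite group G, let c centralize P and let g, h ∈ G. The number of pairs (x, y) with x conjugate to g, y conjugate to h and x * y = c is congruent modulo p to the number of such pairs in which x and y both centralize P. (This is why the Brauer map on class sums is multiplicative.) -/
theorem result {G : Type*} [Group G] [Finite G] (p : ℕ) [Fact p.Prime] (P : Subgroup G) (hP : IsPGroup p P) (c : G) (hc : c ∈ Subgroup.centralizer (P : Set G)) (g h : G) : Nat.card {xy : G × G // IsConj g xy.1 ∧ IsConj h xy.2 ∧ xy.1 * xy.2 = c} ≡ Nat.card {xy : G × G // IsConj g xy.1 ∧ IsConj h xy.2 ∧ xy.1 * xy.2 = c ∧ xy.1 ∈ Subgroup.centralizer (P : Set G) ∧ xy.2 ∈ Subgroup.centralizer (P : Set G)} [MOD p] := by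
  classical
  letI inst : MulAction P {xy : G × G // IsConj g xy.1 ∧ IsConj h xy.2 ∧ xy.1 * xy.2 = c} :=
    { smul := fun q xy => ⟨((q : G) * xy.1.1 * (q : G)⁻¹, (q : G) * xy.1.2 * (q : G)⁻¹),
        xy.2.1.trans (isConj_iff.mpr ⟨q, rfl⟩), xy.2.2.1.trans (isConj_iff.mpr ⟨q, rfl⟩), by
          have h1 := xy.2.2.2
          have h2 : (q : G) * c = c * q := (hc q q.2)
          calc (q : G) * xy.1.1 * (q : G)⁻¹ * ((q : G) * xy.1.2 * (q : G)⁻¹)
              = (q : G) * (xy.1.1 * xy.1.2) * (q : G)⁻¹ := by group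
            _ = c := by rw [h1, h2]; group⟩
      one_smul := by
        intro xy
        apply Subtype.ext
        apply Prod.ext
        · change ((1 : P) : G) * xy.1.1 * ((1 : P) : G)⁻¹ = xy.1.1
          simp
        · change ((1 : P) : G) * xy.1.2 * ((1 : P) : G)⁻¹ = xy.1.2
          simp
      mul_smul := by
        intro a b xy
        apply Subtype.ext
        apply Prod.ext
        · change ((a * b : P) : G) * xy.1.1 * ((a * b : P) : G)⁻¹ = (a : G) * ((b : G) * xy.1.1 * (b : G)⁻¹) * (a : G)⁻¹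
          simp only [Subgroup.coe_mul]; group
        · change ((a * b : P) : G) * xy.1.2 * ((a * b : P) : G)⁻¹ = (a : G) * ((b : G) * xy.1.2 * (b : G)⁻¹) * (a : G)⁻¹
          simp only [Subgroup.coe_mul]; group }
  have h1 := hP.card_modEq_card_fixedPoints {xy : G × G // IsConj g xy.1 ∧ IsConj h xy.2 ∧ xy.1 * xy.2 = c}
  refine h1.trans ?_
  have h2 : Nat.card (MulAction.fixedPoints P {xy : G × G // IsConj g xy.1 ∧ IsConj h xy.2 ∧ xy.1 * xy.2 = c})
      = Nat.card {xy : G × G // IsConj g xy.1 ∧ IsConj h xy.2 ∧ xy.1 * xy.2 = c ∧ xy.1 ∈ Subgroup.centralizer (P : Set G) ∧ xy.2 ∈ Subgroup.centralizer (P : Set G)} := by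
    apply Nat.card_congr
    refine ⟨fun z => ⟨z.1.1, z.1.2.1, z.1.2.2.1, z.1.2.2.2, ?_, ?_⟩,
      fun z => ⟨⟨z.1, z.2.1, z.2.2.1, z.2.2.2.1⟩, ?_⟩, ?_, ?_⟩
    · intro q hq
      have h3 := congrArg (fun w => w.1.1) (z.2 ⟨q, hq⟩)
      change q * z.1.1.1 * q⁻¹ = z.1.1.1 at h3
      rw [mul_inv_eq_iff_eq_mul] at h3
      exact h3
    · intro q hq
      have h3 := congrArg (fun w => w.1.2) (z.2 ⟨q, hq⟩)
      change q * z.1.1.2 * q⁻¹ = z.1.1.2 at h3
      rw [mul_inv_eq_iff_eq_mul] at h3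
      exact h3
    · intro q
      apply Subtype.ext
      apply Prod.ext
      · change (q : G) * z.1.1 * (q : G)⁻¹ = z.1.1
        rw [mul_inv_eq_iff_eq_mul]
        exact z.2.2.2.2.1 q q.2
      · change (q : G) * z.1.2 * (q : G)⁻¹ = z.1.2
        rw [mul_inv_eq_iff_eq_mul]
        exact z.2.2.2.2.2 q q.2
    · intro z; rfl
    · intro z; rfl
  rw [h2]

end Cfsg.Agent.S0903
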