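import Cfsg.Statements.S0905
import Cfsg.Agent.Lib.Helper20Nil

set_option autoImplicit false
open Cfsg

namespace Cfsg.Agent.S0905

open Cfsg.Agent.Lib.Helper20Nil

/-- Let F be a field of characteristic p and let g be an element of the finite group G no conjugate of which centralizes O_p(G). Then the class sum of g is a nilpotent element of the group algebra F[G]. -/
theorem result {G : Type*} [Group G] [Finite G] (p : ℕ) [Fact p.Prime] (F : Type*) [Field F] [CharP F p] (g : G) (hg : ∀ x : G, IsConj g x → x ∉ Subgroup.centralizer (Cfsg.pCore p G : Set G)) : IsNilpotent (∑ᶠ x ∈ ConjClasses.carrier (ConjClasses.mk g), MonoidAlgebra.single x (1 : F) : MonoidAlgebra F G) := by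
  classical
  cases nonempty_fintype G
  have hn : (Cfsg.pCore p G).Normal := Subgroup.sSup_normal _ (fun _ h => h.1)
  have hP : IsPGroup p (Cfsg.pCore p G) := Sylow.sSup_of_normal _ (fun _ h => h.2) (fun _ h => h.1)
  have h := isNilpotent_classSum p F (Cfsg.pCore p G) hP g hg
  convert h using 1
  rw [classSum, finsum_mem_eq_finite_toFinset_sum _ (Set.toFinite _)]
  apply Finset.sum_congr _ (fun _ _ => rfl)
  ext x
  simp only [Set.Finite.mem_toFinset, Finset.mem_filter, Finset.mem_univ, true_and]
  rw [ConjClasses.mem_carrier_iff_mk_eq, ConjClasses.mk_eq_mk_iff_isConj]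
  exact isConj_comm

end Cfsg.Agent.S0905
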