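import Cfsg.Statements.S0910
import Cfsg.Agent.Lib.Helper4Burnside
import Cfsg.Agent.Lib.Helper20Local
-- import your own Cfsg.Agent.* helpers here

set_option autoImplicit false
open Cfsg

namespace Cfsg.Agent.S0910

open Cfsg.Agent.Lib Module
open Cfsg.Agent.Lib.Helper4Char Cfsg.Agent.Lib.Helper4Eigen Cfsg.Agent.Lib.Helper4Burnside

theorem exists_elt {G : Type*} [Group G] [Finite G] [Nontrivial G] (p : ℕ) [Fact p.Prime] :
    ∃ g : G, g ≠ 1 ∧ ¬ p ∣ (Subgroup.centralizer ({g} : Set G)).index := by
  by_cases hdvd : p ∣ Nat.card G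
  · obtain ⟨Q⟩ : Nonempty (Sylow p G) := inferInstance
    have hQne : (Q : Subgroup G) ≠ ⊥ := Q.ne_bot_of_dvd_card hdvd
    have : Nontrivial (Q : Subgroup G) := (Subgroup.nontrivial_iff_ne_bot _).mpr hQne
    have hcn : Nontrivial (Subgroup.center (Q : Subgroup G)) := Q.isPGroup'.center_nontrivial
    obtain ⟨z, hz⟩ := exists_ne (1 : Subgroup.center (Q : Subgroup G))
    set g : G := ((z : (Q : Subgroup G)) : G) with hgdef
    have hg : g ≠ 1 := by
      intro h
      apply hz
      apply Subtype.ext
      apply Subtype.ext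
      exact h
    have hle : (Q : Subgroup G) ≤ Subgroup.centralizer ({g} : Set G) := by
      intro x hx
      rw [Subgroup.mem_centralizer_singleton_iff]
      have h1 := Subgroup.mem_center_iff.mp z.2 ⟨x, hx⟩
      have h2 := congrArg (Subtype.val) h1
      simpa [hgdef] using h2
    have h1 : (Subgroup.centralizer ({g} : Set G)).index ∣ (Q : Subgroup G).index :=
      Subgroup.index_dvd_of_le hle
    exact ⟨g, hg, fun h => Q.not_dvd_index (h.trans h1)⟩
  · obtain ⟨g, hg⟩ := exists_ne (1 : G)
    exact ⟨g, hg, fun h => hdvd (h.trans (Subgroup.index_dvd_card _))⟩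

/-- Let G be a non-abelian finite simple group and p a prime. If an irreducible character χ lies in the principal block (relative to a maximal ideal of the algebraic integers containing p) and χ 1 is a power of p, then χ is the principal character. -/
theorem result {G : Type*} [Group G] [Finite G] (p : ℕ) [Fact p.Prime] (M : Ideal Cfsg.AlgInt) (hM : Cfsg.IsPModular p M) [IsSimpleGroup G] (hna : ∃ a b : G, a * b ≠ b * a) (χ : Cfsg.IrrCharacter G) (hχ : χ ∈ Cfsg.principalBlock M G) (k : ℕ) (hdeg : (χ : G → ℂ) 1 = (p : ℂ) ^ k) : (χ : G → ℂ) = fun _ => 1 := by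
  classical
  cases nonempty_fintype G
  have hp : p.Prime := Fact.out
  by_contra hne
  have hχ' := hχ
  obtain ⟨n, ρ, hirr, hχ⟩ := χ.2
  have hfin : finrank ℂ (Fin n → ℂ) = n := by simp
  have hn : n = p ^ k := by
    have h1 : (χ : G → ℂ) 1 = n := by rw [← hχ]; simp
    rw [h1] at hdeg
    exact_mod_cast hdeg
  have hnp : ¬ (Nat.card G).Prime := by
    intro hpr
    obtain ⟨a, b, hab⟩ := hna
    have := Fact.mk hpr
    have hc : IsCyclic G := isCyclic_of_prime_card rfl
    exact hab (hc.isMulCommutative.is_comm.comm a b)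
  obtain ⟨g, hg, hidx⟩ := exists_elt (G := G) p
  have hcop : Nat.Coprime (finrank ℂ (Fin n → ℂ)) (Subgroup.centralizer ({g} : Set G)).index := by
    rw [hfin, hn]
    exact Nat.Coprime.pow_left k ((Nat.Prime.coprime_iff_not_dvd hp).mpr hidx)
  rcases char_eq_zero_or_norm_eq_of_coprime ρ g hcop with h0 | hnorm
  · rw [hχ] at h0
    have hb := hχ' g
    simp only [Cfsg.centralChar, h0] at hb
    simp only [mul_one, div_one, mul_zero, zero_div, sub_zero] at hb
    exact hidx ((Helper20Local.memLocalIdeal_natCast_iff hM _).mp hb)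
  · obtain ⟨ω, hω⟩ := (norm_char_eq_finrank_iff ρ g).mp hnorm
    rcases (MonoidHom.normal_ker ρ).eq_bot_or_eq_top with hker | hker
    · apply hnp
      apply prime_card_of_center_ne_bot g hg
      have hinj : Function.Injective ρ := (MonoidHom.ker_eq_bot_iff ρ).mp hker
      rw [Subgroup.mem_center_iff]
      intro h
      apply hinj
      rw [map_mul, map_mul, hω]
      ext v
      simp
    · have hall : ∀ h : G, ρ h = 1 := fun h => by
        have : h ∈ ρ.ker := by rw [hker]; exact Subgroup.mem_top h
        exact this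
      have hchar : ∀ h : G, (χ : G → ℂ) h = n := by
        intro h
        rw [← hχ, Representation.character, hall h]
        simp
      have hnorm1 := classInner_irr_self χ.2
      have h2 : Cfsg.classInner (χ : G → ℂ) (χ : G → ℂ) = (n : ℂ) * n := by
        simp only [Cfsg.classInner, hchar, Complex.conj_natCast, Finset.sum_const, Finset.card_univ,
          nsmul_eq_mul, Nat.card_eq_fintype_card]
        have : (Fintype.card G : ℂ) ≠ 0 := Nat.cast_ne_zero.mpr Fintype.card_ne_zero
        field_simp
      rw [h2] at hnorm1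
      have h3 : n * n = 1 := by exact_mod_cast hnorm1
      have h4 : n = 1 := Nat.eq_one_of_mul_eq_one_right h3
      apply hne
      ext h
      rw [hchar, h4, Nat.cast_one]

end Cfsg.Agent.S0910
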