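import Cfsg.Statements.S0921
import Cfsg.Agent.Lib.Helper21Cover2
import Cfsg.Agent.Lib.Helper1Fitting

set_option autoImplicit false
open Cfsg

namespace Cfsg.Agent.S0921

/-- Let N = O_p'(G) be the largest normal subgroup of the finite group G of order prime to p, and fix a maximal ideal M of the algebraic integers containing p. If two irreducible characters χ, ψ of G lie in the same block relative to M, then an irreducible character of N occurs in the restriction of χ exactly when it occurs in the restriction of ψ. -/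
theorem result {G : Type*} [Group G] [Finite G] (p : ℕ) [Fact p.Prime] (M : Ideal Cfsg.AlgInt) (hM : Cfsg.IsPModular p M) [Fintype G] (χ ψ : Cfsg.IrrCharacter G) (h : Cfsg.SameBlock M (χ : G → ℂ) (ψ : G → ℂ)) (θ : Cfsg.IrrCharacter (Cfsg.pPrimeCore p G)) [Fintype (Cfsg.pPrimeCore p G)] : Cfsg.classInner (fun n : Cfsg.pPrimeCore p G => (χ : G → ℂ) n) (θ : Cfsg.pPrimeCore p G → ℂ) ≠ 0 ↔ Cfsg.classInner (fun n : Cfsg.pPrimeCore p G => (ψ : G → ℂ) n) (θ : Cfsg.pPrimeCore p G → ℂ) ≠ 0 := by
  have hpr := Lib.Helper81Local.IsPModular.isPrime hM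
  have hn := Lib.Helper1Fitting.pPrimeCore_normal (G := G) p
  have hc : ¬ p ∣ Nat.card (Cfsg.pPrimeCore p G) := by
    have := Lib.Helper1Fitting.card_pPrimeCore_coprime (G := G) p
    exact fun hd => (Nat.Prime.coprime_iff_not_dvd hM.1).1 this.symm hd
  have key : ∀ χ ψ : Cfsg.IrrCharacter G, Cfsg.SameBlock M (χ : G → ℂ) (ψ : G → ℂ) →
      Lib.Helper21Cover.Over χ θ → Lib.Helper21Cover.Over ψ θ := by
    intro χ ψ h hθ
    obtain ⟨ψ', hψ'⟩ := Lib.Helper21Cover.exists_under (N := Cfsg.pPrimeCore p G) ψ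
    obtain ⟨g, θ', h1, h2⟩ := Lib.Helper21Cover.over_of_congr (M := M) hn
      (Lib.Helper81Block.osima (Lib.Helper81Block.isPBlock_blockOf θ))
      (Lib.Helper81Block.self_mem_blockOf θ) hθ hψ' (fun n => h n)
    have h3 : θ' = θ := Lib.Helper21Cover.eq_of_sameBlock_of_pprime hM hc h1
    subst h3
    have := Lib.Helper21Cover.over_cjI hn hψ' g⁻¹
    rw [h2, Lib.Helper21Cover.cjI_cjI, mul_inv_cancel, Lib.Helper21Cover.cjI_one] at this
    exact this
  exact ⟨key χ ψ h, key ψ χ (Lib.Helper81Block.sameBlock_symm h)⟩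

end Cfsg.Agent.S0921
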