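import Cfsg.Statements.S0926
import Cfsg.Agent.Lib.Helper20Conj
import Cfsg.Agent.S0924

set_option autoImplicit false
open Cfsg

namespace Cfsg.Agent.S0926

open Cfsg.Agent.Lib.Helper87Sylow Cfsg.Agent.Lib.Helper20Defect Cfsg.Agent.Lib.Helper20Height Cfsg.Agent.Lib.Helper20Conj
open Cfsg.Agent.Lib.Helper20Local Cfsg.Agent.Lib.Helper20Block Cfsg.Agent.Lib.Helper20DefCard

/-- Let B be a block of the finite group G with defect group D (relative to a maximal ideal M of the algebraic integers containing p), let χ ∈ B have height zero, and let x be a p-element. Then some conjugate of x lies in D if and only if χ does not vanish on the whole p-section of x (the elements whose p-part is conjugate to x). -/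
theorem result {G : Type*} [Group G] [Finite G] (p : ℕ) [Fact p.Prime] (M : Ideal Cfsg.AlgInt) (hM : Cfsg.IsPModular p M) (B : Set (Cfsg.IrrCharacter G)) (hB : Cfsg.IsPBlock M B) (D : Subgroup G) (hD : Cfsg.IsDefectGroup p M B D) (χ : Cfsg.IrrCharacter G) (hχ : χ ∈ B) (h0 : Cfsg.blockHeight p B (χ : G → ℂ) = 0) (x : G) (hx : ∃ k : ℕ, orderOf x = p ^ k) : (∃ g : G, g * x * g⁻¹ ∈ D) ↔ ∃ u : G, (∃ z : G, Cfsg.IsPPart p u z ∧ IsConj x z) ∧ (χ : G → ℂ) u ≠ 0 := by
  classical
  have := Fintype.ofFinite G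
  have hPr := IsPModular.isPrime hM
  constructor
  · rintro ⟨g, hg⟩
    obtain ⟨y, hy, hS⟩ := isDefectGroup_iff.mp hD
    have h1 := height_zero_not_mem hM hB hy hS hg hχ h0
    have hy0 : Cfsg.blockCoeff B y ≠ 0 := by
      intro h; apply hy.2.1; rw [h]; exact memLocalIdeal_zero hPr
    refine ⟨g * x * g⁻¹ * y, ⟨g * x * g⁻¹, ⟨y, rfl,
      Subgroup.mem_centralizer_singleton_iff.mp (hS.1 hg), ?_,
      not_dvd_orderOf_of_blockCoeff hM hB hy0⟩, isConj_iff.mpr ⟨g, rfl⟩⟩, ?_⟩
    · obtain ⟨k, hk⟩ := hx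
      refine ⟨k, ?_⟩
      rw [← hk]
      exact orderOf_injective (MulAut.conj g).toMonoidHom (MulAut.conj g).injective x
    · intro h; apply h1; rw [h]; exact memLocalIdeal_zero hPr
  · rintro ⟨u, ⟨z, hz, hxz⟩, hu⟩
    by_contra hcon
    push Not at hcon
    apply hu
    apply Cfsg.Agent.S0924.result p M hM χ u z hz
    intro D' hD' hzD'
    rw [← IsPBlock.eq_blockOf hPr hB hχ] at hD'
    obtain ⟨t, rfl⟩ := defectGroup_conj hM hB hD hD'
    rw [mem_cj] at hzD'
    obtain ⟨s, rfl⟩ := isConj_iff.mp hxz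
    apply hcon (t⁻¹ * s)
    convert hzD' using 1
    group

end Cfsg.Agent.S0926
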