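import Cfsg.Statements.S0927
import Cfsg.Agent.Lib.Helper20Height

set_option autoImplicit false
open Cfsg

namespace Cfsg.Agent.S0927

open Cfsg.Agent.Lib.Helper87Sylow Cfsg.Agent.Lib.Helper20Defect Cfsg.Agent.Lib.Helper20Height

/-- Let B be a block of the finite group G relative to a maximal ideal M of the algebraic integers containing p, let y represent a defect class of B and let P be a Sylow p-subgroup of the centralizer of y. (a) If x ∈ P and χ ∈ B has height zero, then χ (x * y) is not in the local ideal at M. (b) If x lies in the centre of P, then for every χ ∈ B the central character of χ at x * y is not in the local ideal at M. -/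
theorem result {G : Type*} [Group G] [Finite G] (p : ℕ) [Fact p.Prime] (M : Ideal Cfsg.AlgInt) (hM : Cfsg.IsPModular p M) (B : Set (Cfsg.IrrCharacter G)) (hB : Cfsg.IsPBlock M B) (y : G) (hy : Cfsg.IsDefectClass M B y) (P : Sylow p (Subgroup.centralizer ({y} : Set G))) (x : Subgroup.centralizer ({y} : Set G)) (hx : x ∈ (P : Subgroup (Subgroup.centralizer ({y} : Set G)))) : (∀ χ ∈ B, Cfsg.blockHeight p B (χ : G → ℂ) = 0 → ¬ Cfsg.MemLocalIdeal M ((χ : G → ℂ) ((x : G) * y))) ∧ ((∀ w ∈ (P : Subgroup (Subgroup.centralizer ({y} : Set G))), x * w = w * x) → ∀ χ ∈ B, ¬ Cfsg.MemLocalIdeal M (Cfsg.centralChar (χ : G → ℂ) ((x : G) * y))) := by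
  classical
  have := Fintype.ofFinite G
  have hD : SylIn p ((P : Subgroup (Subgroup.centralizer ({y} : Set G))).map
      (Subgroup.centralizer ({y} : Set G)).subtype) (Subgroup.centralizer ({y} : Set G)) :=
    sylIn_iff_map.mpr ⟨P, rfl⟩
  have hxD : (x : G) ∈ (P : Subgroup (Subgroup.centralizer ({y} : Set G))).map
      (Subgroup.centralizer ({y} : Set G)).subtype := ⟨x, hx, rfl⟩
  constructor
  · intro χ hχ h0
    exact height_zero_not_mem hM hB hy hD hxD hχ h0
  · intro hc χ hχ
    refine centralChar_not_mem_of_center hM hB hy hD hxD ?_ hχ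
    rintro _ ⟨w, hw, rfl⟩
    have := congrArg Subtype.val (hc w hw)
    simpa using this

end Cfsg.Agent.S0927
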