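import Cfsg.Statements.S0933
import Cfsg.Agent.Lib.Helper20IndBlock

set_option autoImplicit false
open Cfsg

namespace Cfsg.Agent.S0933

open Cfsg.Agent.Lib.Helper4Char Cfsg.Agent.Lib.Helper4Char2 Cfsg.Agent.Lib.Helper20Local
open Cfsg.Agent.Lib.Helper20Center Cfsg.Agent.Lib.Helper20Block
open Cfsg.Agent.Lib.Helper20Induced Cfsg.Agent.Lib.Helper20IndBlock
open scoped ComplexConjugate

/-- Let H be a subgroup of the finite group G and ξ an irreducible character of H such that the induced function ξ^G is an irreducible character of G. Then, relative to any maximal ideal M of the algebraic integers containing the prime p, the block of ξ induces the block of ξ^G. -/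
theorem result {G : Type*} [Group G] [Fintype G] (p : ℕ) [Fact p.Prime] (M : Ideal Cfsg.AlgInt) (hM : Cfsg.IsPModular p M) (H : Subgroup G) (ξ : Cfsg.IrrCharacter H) (hind : Cfsg.IsIrrCharacter G (Cfsg.indFun H (ξ : H → ℂ))) : Cfsg.IsInducedBlock M H (Cfsg.blockOf M (ξ : H → ℂ)) (Cfsg.blockOf M (Cfsg.indFun H (ξ : H → ℂ))) := by
  classical
  have hPr := IsPModular.isPrime hM
  refine ⟨isPBlock_blockOf ξ, isPBlock_blockOf (⟨_, hind⟩ : Cfsg.IrrCharacter G), ?_⟩
  intro ξ' hξ' χ hχ g
  have h1 : Cfsg.MemLocalIdeal M (om (ξ' : H → ℂ) (res H (classInd g)) - om (ξ : H → ℂ) (res H (classInd g))) :=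
    sameBlock_om hPr ξ'.2 ξ.2 (sameBlock_symm hξ') (res_isSC H (isSC_classInd hPr g))
  have h2 := hχ g
  rw [← inducedCentralChar_eq_centralChar, inducedCentralChar_eq] at h2
  rw [inducedCentralChar_eq]
  have := liAdd hPr h1 h2
  rwa [sub_add_sub_cancel] at this

end Cfsg.Agent.S0933
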