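import Cfsg.Statements.S0934
import Cfsg.Agent.Lib.Helper20IndBlock

set_option autoImplicit false
open Cfsg

namespace Cfsg.Agent.S0934

open Cfsg.Agent.Lib.Helper4Char Cfsg.Agent.Lib.Helper4Char2 Cfsg.Agent.Lib.Helper20Local
open Cfsg.Agent.Lib.Helper20Center Cfsg.Agent.Lib.Helper20Block
open Cfsg.Agent.Lib.Helper20Induced Cfsg.Agent.Lib.Helper20IndBlock
open scoped ComplexConjugate

/-- Let H be a subgroup of the finite group G and fix a maximal ideal M of the algebraic integers containing the prime p. If the block b of H induces the block B of G and ξ ∈ b, then there is χ ∈ B whose restriction to H has nonzero inner product with ξ. -/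
theorem result {G : Type*} [Group G] [Fintype G] (p : ℕ) [Fact p.Prime] (M : Ideal Cfsg.AlgInt) (hM : Cfsg.IsPModular p M) (H : Subgroup G) [Fintype H] (b : Set (Cfsg.IrrCharacter H)) (B : Set (Cfsg.IrrCharacter G)) (hind : Cfsg.IsInducedBlock M H b B) (ξ : Cfsg.IrrCharacter H) (hξ : ξ ∈ b) : ∃ χ ∈ B, Cfsg.classInner (fun h : H => (χ : G → ℂ) h) (ξ : H → ℂ) ≠ 0 := by
  classical
  have hPr := IsPModular.isPrime hM
  by_contra hcon
  push Not at hcon
  obtain ⟨χ0, hχ0⟩ := IsPBlock.nonempty hPr hind.2.1
  have h1 := isInducedBlock_om H hPr hind hξ hχ0 (isSC_blockCoeff hPr hind.2.1)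
  rw [om_blockCoeff, if_pos hχ0] at h1
  have h2 : om (ξ : H → ℂ) (res H (Cfsg.blockCoeff B)) = 0 := by
    have h3 : ∑ h : H, res H (Cfsg.blockCoeff B) h * (ξ : H → ℂ) h = 0 := by
      simp only [res, blockCoeff_eq_sum, Finset.mul_sum, Finset.sum_mul]
      rw [Finset.sum_comm]
      apply Finset.sum_eq_zero
      intro χ _
      by_cases hχ : χ ∈ B
      · have h4 := hcon χ hχ
        simp only [Cfsg.classInner] at h4
        have hH : (Nat.card H : ℂ)⁻¹ ≠ 0 := inv_ne_zero (by exact_mod_cast Nat.card_pos.ne')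
        have h5 := (mul_eq_zero.mp h4).resolve_left hH
        have h6 := congrArg conj h5
        rw [map_sum, map_zero] at h6
        simp only [if_pos hχ]
        calc ∑ h : H, (Nat.card G : ℂ)⁻¹ * ((χ : G → ℂ) 1 * conj ((χ : G → ℂ) h)) * (ξ : H → ℂ) h
            = (Nat.card G : ℂ)⁻¹ * (χ : G → ℂ) 1 * ∑ h : H, conj ((χ : G → ℂ) h * conj ((ξ : H → ℂ) h)) := by
              rw [Finset.mul_sum]
              apply Finset.sum_congr rfl
              intro h _
              rw [map_mul, Complex.conj_conj]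
              ring
          _ = 0 := by rw [h6, mul_zero]
      · simp [hχ]
    rw [om, h3, zero_div]
  rw [h2, zero_sub] at h1
  have := liNeg h1
  rw [neg_neg] at this
  exact not_memLocalIdeal_one hPr this

end Cfsg.Agent.S0934
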