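import Cfsg.Statements.S0937
import Cfsg.Agent.Lib.Helper81Reg2

set_option autoImplicit false
open Cfsg

namespace Cfsg.Agent.S0937

open Cfsg.Agent.Lib.Helper81Local Cfsg.Agent.Lib.Helper81Base Cfsg.Agent.Lib.Helper81Block
  Cfsg.Agent.Lib.Helper81Defect Cfsg.Agent.Lib.Helper81Reg Cfsg.Agent.Lib.Helper81Reg2
/-- Let H be a subgroup of the finite group G and fix a maximal ideal M of the algebraic integers containing the prime p. If the block b of H induces the block B of G and χ ∈ B has height zero, then there is ξ ∈ b of height zero whose multiplicity in the restriction of χ to H is a natural number not divisible by p. -/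
theorem result {G : Type*} [Group G] [Fintype G] (p : ℕ) [Fact p.Prime] (M : Ideal Cfsg.AlgInt) (hM : Cfsg.IsPModular p M) (H : Subgroup G) [Fintype H] (b : Set (Cfsg.IrrCharacter H)) (B : Set (Cfsg.IrrCharacter G)) (hind : Cfsg.IsInducedBlock M H b B) (χ : Cfsg.IrrCharacter G) (hχ : χ ∈ B) (h0 : Cfsg.blockHeight p B (χ : G → ℂ) = 0) : ∃ ξ ∈ b, Cfsg.blockHeight p b (ξ : H → ℂ) = 0 ∧ ∃ n : ℕ, Cfsg.classInner (fun h : H => (χ : G → ℂ) h) (ξ : H → ℂ) = (n : ℂ) ∧ ¬ p ∣ n := by
  classical
  have hMp := hM.2.1.isPrime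
  obtain ⟨ξ₀, hξ₀, hh0⟩ := exists_height_zero (p := p) (isPBlock_nonempty hind.1)
  have uG := creg_self_unit hM hind.2.1 hχ h0
  have h1 := creg_induced (p := p) H hind hξ₀ hχ χ
  have hu : ¬ MemLocalIdeal M (creg p (ξ₀ : H → ℂ) (fun h : H => (χ : G → ℂ) h)) := by
    intro h2
    apply uG
    have := memLocalIdeal_sub h2 h1
    simpa using this
  exact exists_height_zero_constituent hM hind.1 hξ₀ hh0
    (Cfsg.Agent.Lib.Helper4Char4.IsCharacter.restrict H
      (Cfsg.Agent.Lib.Helper4Char.IsIrrCharacter.isCharacter χ.2)) hu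

end Cfsg.Agent.S0937
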