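import Cfsg.Statements.S0944
import Cfsg.Agent.Lib.Helper4Eigen

set_option autoImplicit false
open Cfsg

namespace Cfsg.Agent.S0944

/-- Let χ be an irreducible character of the finite group G and u an involution. Then χ u is a rational integer n with n ≡ χ 1 (mod 2). -/
theorem result {G : Type*} [Group G] [Finite G] (χ : Cfsg.IrrCharacter G) (u : G) (hu : orderOf u = 2) : ∃ n : ℤ, (χ : G → ℂ) u = (n : ℂ) ∧ (2 : ℤ) ∣ (Cfsg.charDegree (χ : G → ℂ) : ℤ) - n := by
  classical
  obtain ⟨n, ρ, hρ, h⟩ := χ.2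
  obtain ⟨μ, h2, -, h3, h4, -⟩ := Cfsg.Agent.Lib.Helper4Eigen.exists_eigenvalues ρ u
  have h1 : (χ : G → ℂ) 1 = (Module.finrank ℂ (Fin n → ℂ) : ℂ) := by
    rw [← h]
    simp
  have hdeg : Cfsg.charDegree (χ : G → ℂ) = Module.finrank ℂ (Fin n → ℂ) := by
    unfold Cfsg.charDegree
    rw [h1]
    simp
  have hμ : ∀ i, μ i = 1 ∨ μ i = -1 := by
    intro i
    have := h2 i
    rw [hu] at this
    have h6 : (μ i - 1) * (μ i + 1) = 0 := by linear_combination this
    rcases mul_eq_zero.mp h6 with h7 | h7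
    · left; linear_combination h7
    · right; linear_combination h7
  refine ⟨∑ i, (if μ i = 1 then (1 : ℤ) else -1), ?_, ?_⟩
  · rw [← h, h4]
    push_cast
    apply Finset.sum_congr rfl
    intro i _
    rcases hμ i with h5 | h5
    · simp [h5]
    · have : (-1 : ℂ) ≠ 1 := by norm_num
      simp [h5, this]
  · rw [hdeg]
    have : ((Module.finrank ℂ (Fin n → ℂ) : ℕ) : ℤ) = ∑ i : Fin (Module.finrank ℂ (Fin n → ℂ)), (1 : ℤ) := by
      simp
    rw [this, ← Finset.sum_sub_distrib]
    apply Finset.dvd_sum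
    intro i _
    split_ifs <;> norm_num

end Cfsg.Agent.S0944
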