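import Cfsg.Statements.S0945
import Cfsg.Agent.Lib.Helper21Omega

set_option autoImplicit false
open Cfsg

namespace Cfsg.Agent.S0945

open Cfsg.Agent.Lib.Helper21Omega in
/-- Let P be a Sylow 2-subgroup of the finite group G isomorphic to Z/2^m × Z/2^m with m ≥ 1. Then (i) the index of C_G(P) in N_G(P) is 1 or 3, and (ii) if it is not 1, then for every z ≠ 1 in P, C_G(z) ∩ N_G(P) = C_G(P). -/
theorem result {G : Type*} [Group G] [Finite G] (P : Sylow 2 G) (m : ℕ) (hm : 1 ≤ m) (e : (P : Subgroup G) ≃* Multiplicative (ZMod (2 ^ m) × ZMod (2 ^ m))) : ((Subgroup.centralizer (P : Set G)).relIndex (Subgroup.normalizer (P : Set G)) = 1 ∨ (Subgroup.centralizer (P : Set G)).relIndex (Subgroup.normalizer (P : Set G)) = 3) ∧ ((Subgroup.centralizer (P : Set G)).relIndex (Subgroup.normalizer (P : Set G)) ≠ 1 → ∀ z ∈ (P : Subgroup G), z ≠ 1 → Subgroup.centralizer ({z} : Set G) ⊓ Subgroup.normalizer (P : Set G) = Subgroup.centralizer (P : Set G)) := by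
  have hc := comm_of_equiv (P : Subgroup G) m e
  have h3 := card_inv_of_equiv m hm e
  have h13 := relIndex_one_or_three P hc h3
  refine ⟨h13, ?_⟩
  intro hne z hz hz1
  have hr := h13.resolve_left hne
  apply le_antisymm
  · intro x hx
    rw [Subgroup.mem_inf] at hx
    refine mem_centralizer_of_fix P hc h3 hr x hx.2 z hz hz1 ?_
    have := (Subgroup.mem_centralizer_singleton_iff.mp hx.1)
    rw [this, mul_inv_cancel_right]
  · apply le_inf
    · exact Subgroup.centralizer_le (Set.singleton_subset_iff.mpr hz)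
    · exact Subgroup.centralizer_le_normalizer _

end Cfsg.Agent.S0945
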