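import Cfsg.Statements.S0946
import Cfsg.Agent.Lib.Helper21Omega

set_option autoImplicit false
open Cfsg

namespace Cfsg.Agent.S0946

theorem exists_conj_mem {G : Type*} [Group G] [Finite G] (P : Sylow 2 G) (s : G)
    (hs : orderOf s = 2) : ∃ g : G, g * s * g⁻¹ ∈ (P : Subgroup G) := by
  have hp : IsPGroup 2 (Subgroup.zpowers s) := by
    apply IsPGroup.of_card (n := 1)
    rw [Nat.card_zpowers, hs, pow_one]
  obtain ⟨Q, hQ⟩ := hp.exists_le_sylow
  obtain ⟨g, hg⟩ := MulAction.exists_smul_eq G Q P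
  refine ⟨g, ?_⟩
  rw [← hg]
  have hsQ : s ∈ (Q : Subgroup G) := hQ (Subgroup.mem_zpowers s)
  rw [Sylow.coe_subgroup_smul, Subgroup.mem_pointwise_smul_iff_inv_smul_mem]
  simpa [MulAut.smul_def, mul_assoc] using hsQ

open Cfsg.Agent.Lib.Helper21Omega in
/-- Let P be a Sylow 2-subgroup of the finite group G isomorphic to Z/2^m × Z/2^m with m ≥ 1. Then either P has a normal complement in G, or all involutions of G are conjugate. -/
theorem result {G : Type*} [Group G] [Finite G] (P : Sylow 2 G) (m : ℕ) (hm : 1 ≤ m) (e : (P : Subgroup G) ≃* Multiplicative (ZMod (2 ^ m) × ZMod (2 ^ m))) : (∃ N : Subgroup G, N.Normal ∧ Subgroup.IsComplement' N (P : Subgroup G)) ∨ ∀ s t : G, orderOf s = 2 → orderOf t = 2 → IsConj s t := by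
  have hc := comm_of_equiv (P : Subgroup G) m e
  have h3 := card_inv_of_equiv m hm e
  rcases relIndex_one_or_three P hc h3 with h1 | hr
  · left
    rw [Subgroup.relIndex_eq_one] at h1
    exact ⟨_, inferInstance, MonoidHom.ker_transferSylow_isComplement' P h1⟩
  · right
    intro s t hs ht
    obtain ⟨g, hg⟩ := exists_conj_mem P s hs
    obtain ⟨k, hk⟩ := exists_conj_mem P t ht
    have hs' : orderOf (g * s * g⁻¹) = 2 := by
      rw [← hs]; exact (MulAut.conj g).orderOf_eq s
    have ht' : orderOf (k * t * k⁻¹) = 2 := by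
      rw [← ht]; exact (MulAut.conj k).orderOf_eq t
    obtain ⟨x, -, hx⟩ := conj_involutions P hc h3 hr _ _ hg hk hs' ht'
    have c1 : IsConj s (g * s * g⁻¹) := isConj_iff.mpr ⟨g, rfl⟩
    have c2 : IsConj (g * s * g⁻¹) (k * t * k⁻¹) := isConj_iff.mpr ⟨x, hx⟩
    have c3 : IsConj t (k * t * k⁻¹) := isConj_iff.mpr ⟨k, rfl⟩
    exact (c1.trans c2).trans c3.symm

end Cfsg.Agent.S0946
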