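import Cfsg.Statements.S0948
import Cfsg.Agent.Lib.Helper78Klein

set_option autoImplicit false
open Cfsg

namespace Cfsg.Agent.S0948

open Cfsg.Agent.Lib Cfsg.Agent.Lib.Helper81Local Cfsg.Agent.Lib.Helper81Base
  Cfsg.Agent.Lib.Helper81BB Cfsg.Agent.Lib.Helper81Block Cfsg.Agent.Lib.Helper81Orth
  Cfsg.Agent.Lib.Helper78Klein
open scoped ComplexConjugate


/-- Let the finite group G have a Sylow 2-subgroup P that is a Klein four-group, suppose all involutions of G are conjugate, and fix a maximal ideal M of the algebraic integers containing 2. Then the principal block consists of exactly four irreducible characters, the principal character and ζ₂, ζ₃, ζ₄, and there is a sign ε such that for every involution z: ζ₂ z = 1, ζ₃ z = ε, ζ₄ z = -1; moreover ζ₂ 1 ≡ 1, ζ₃ 1 ≡ ε, ζ₄ 1 ≡ -1 (mod 4), and 1 + ζ₂ y + ε ζ₃ y - ζ₄ y = 0 for every y of odd order. -/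
theorem result {G : Type*} [Group G] [Finite G] (M : Ideal Cfsg.AlgInt) (hM : Cfsg.IsPModular 2 M) (P : Sylow 2 G) (hP : IsKleinFour (P : Subgroup G)) (hone : ∀ s t : G, orderOf s = 2 → orderOf t = 2 → IsConj s t) : ∃ ζ₂ ζ₃ ζ₄ : Cfsg.IrrCharacter G, ∃ ε : ℤ, (ε = 1 ∨ ε = -1) ∧ (ζ₂ : G → ℂ) ≠ (fun _ => 1) ∧ (ζ₃ : G → ℂ) ≠ (fun _ => 1) ∧ ζ₂ ≠ ζ₃ ∧ ζ₂ ≠ ζ₄ ∧ ζ₃ ≠ ζ₄ ∧ Cfsg.principalBlock M G = {χ : Cfsg.IrrCharacter G | (χ : G → ℂ) = (fun _ => 1) ∨ χ = ζ₂ ∨ χ = ζ₃ ∨ χ = ζ₄} ∧ (∀ z : G, orderOf z = 2 → (ζ₂ : G → ℂ) z = 1 ∧ (ζ₃ : G → ℂ) z = (ε : ℂ) ∧ (ζ₄ : G → ℂ) z = -1) ∧ (4 : ℤ) ∣ (Cfsg.charDegree (ζ₂ : G → ℂ) : ℤ) - 1 ∧ (4 : ℤ) ∣ (Cfsg.charDegree (ζ₃ : G → ℂ) : ℤ) - ε ∧ (4 : ℤ) ∣ (Cfsg.charDegree (ζ₄ : G → ℂ) : ℤ) + 1 ∧ ∀ y : G, Odd (orderOf y) → 1 + (ζ₂ : G → ℂ) y + (ε : ℂ) * (ζ₃ : G → ℂ) y - (ζ₄ : G → ℂ) y = 0 := by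
  classical
  have := Fintype.ofFinite G
  have hMp := hM.2.1.isPrime
  have hB0 : IsPBlock M (principalBlock M G) := ⟨Helper82Linear.irrOne G, rfl⟩
  -- an involution in P
  have h3 := Helper5Klein.card_inv_of_klein P hP
  have hne : Nonempty {z : (P : Subgroup G) // orderOf z = 2} :=
    (Nat.card_pos_iff.mp (by omega)).1
  obtain ⟨⟨⟨t, ht⟩, ht2'⟩⟩ := hne
  have ht2 : orderOf t = 2 := by rw [← ht2']; exact (Subgroup.orderOf_mk t ht).symm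
  obtain ⟨hcard, hval⟩ := klein_structure hM P hP ht ht2
  have hconj : ∀ s ∈ (P : Subgroup G), s ≠ 1 → IsConj s t := by
    intro s hs hs1
    apply hone s t _ ht2
    apply orderOf_eq_prime _ hs1
    have := IsKleinFour.mul_self (⟨s, hs⟩ : (P : Subgroup G))
    rw [pow_two]
    exact congrArg Subtype.val this
  -- the core
  have core : ∀ (ζ₂ ζ₃ ζ₄ : IrrCharacter G) (ε : ℤ), (ε = 1 ∨ ε = -1) →
      Helper82Linear.irrOne G ≠ ζ₂ → Helper82Linear.irrOne G ≠ ζ₃ →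
      Helper82Linear.irrOne G ≠ ζ₄ → ζ₂ ≠ ζ₃ → ζ₂ ≠ ζ₄ → ζ₃ ≠ ζ₄ →
      (∀ χ, χ ∈ principalBlock M G ↔ χ = Helper82Linear.irrOne G ∨ χ = ζ₂ ∨ χ = ζ₃ ∨ χ = ζ₄) →
      (ζ₂ : G → ℂ) t = 1 → (ζ₃ : G → ℂ) t = (ε : ℂ) → (ζ₄ : G → ℂ) t = -1 →
      ∃ ζ₂ ζ₃ ζ₄ : Cfsg.IrrCharacter G, ∃ ε : ℤ, (ε = 1 ∨ ε = -1) ∧ (ζ₂ : G → ℂ) ≠ (fun _ => 1) ∧ (ζ₃ : G → ℂ) ≠ (fun _ => 1) ∧ ζ₂ ≠ ζ₃ ∧ ζ₂ ≠ ζ₄ ∧ ζ₃ ≠ ζ₄ ∧ Cfsg.principalBlock M G = {χ : Cfsg.IrrCharacter G | (χ : G → ℂ) = (fun _ => 1) ∨ χ = ζ₂ ∨ χ = ζ₃ ∨ χ = ζ₄} ∧ (∀ z : G, orderOf z = 2 → (ζ₂ : G → ℂ) z = 1 ∧ (ζ₃ : G → ℂ) z = (ε : ℂ) ∧ (ζ₄ : G → ℂ) z = -1) ∧ (4 : ℤ) ∣ (Cfsg.charDegree (ζ₂ : G → ℂ) : ℤ) - 1 ∧ (4 : ℤ) ∣ (Cfsg.charDegree (ζ₃ : G → ℂ) : ℤ) - ε ∧ (4 : ℤ) ∣ (Cfsg.charDegree (ζ₄ : G → ℂ) : ℤ) + 1 ∧ ∀ y : G, Odd (orderOf y) → 1 + (ζ₂ : G → ℂ) y + (ε : ℂ) * (ζ₃ : G → ℂ) y - (ζ₄ : G → ℂ) y = 0 := by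
    intro ζ₂ ζ₃ ζ₄ ε hε h12 h13 h14 h23 h24 h34 hiff v2 v3 v4
    have hone' : ∀ χ : IrrCharacter G, χ = Helper82Linear.irrOne G ↔ (χ : G → ℂ) = fun _ => 1 :=
      fun χ => Subtype.ext_iff
    have hz : ∀ (χ : IrrCharacter G) (z : G), orderOf z = 2 → (χ : G → ℂ) z = (χ : G → ℂ) t := by
      intro χ z hz
      obtain ⟨c, hc⟩ := isConj_iff.1 (hone z t hz ht2)
      rw [← hc, irr_conj]
    have hdvd : ∀ (χ : IrrCharacter G) (e : ℤ), (χ : G → ℂ) t = (e : ℂ) →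
        (4 : ℤ) ∣ (Cfsg.charDegree (χ : G → ℂ) : ℤ) - e := by
      intro χ e he
      obtain ⟨n, hn⟩ := add_three_mul P hP hconj χ
      rw [he, ← charDegree_eq] at hn
      have : (Cfsg.charDegree (χ : G → ℂ) : ℤ) + 3 * e = 4 * n := by exact_mod_cast hn
      exact ⟨n - e, by linarith⟩
    refine ⟨ζ₂, ζ₃, ζ₄, ε, hε, fun h => h12 ((hone' _).2 h).symm, fun h => h13 ((hone' _).2 h).symm,
      h23, h24, h34, ?_, ?_, ?_, hdvd ζ₃ ε v3, ?_, ?_⟩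
    · ext χ
      rw [hiff χ, hone' χ]
      rfl
    · intro z hz2
      exact ⟨by rw [hz ζ₂ z hz2, v2], by rw [hz ζ₃ z hz2, v3], by rw [hz ζ₄ z hz2, v4]⟩
    · exact hdvd ζ₂ 1 (by rw [v2]; norm_num)
    · have := hdvd ζ₄ (-1) (by rw [v4]; norm_num)
      simpa using this
    · intro y hy
      have hy' : ¬ 2 ∣ orderOf y := by
        rw [← even_iff_two_dvd, Nat.not_even_iff_odd]; exact hy
      have h := weak_block_orth hM hB0 hy' (y := t) (by rw [ht2])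
      rw [sum_four (principalBlock M G) _ ζ₂ ζ₃ ζ₄ h12 h13 h14 h23 h24 h34 hiff, v2, v3, v4] at h
      simp only [map_one, map_neg, map_intCast, mul_one] at h
      have e1 : ∀ g, (Helper82Linear.irrOne G : G → ℂ) g = 1 := fun _ => rfl
      rw [e1, e1, map_one] at h
      linear_combination h
  -- the three other characters
  obtain ⟨S, hS⟩ : ∃ S : Finset (IrrCharacter G), S = Finset.univ.filter (· ∈ principalBlock M G) :=
    ⟨_, rfl⟩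
  rw [← hS] at hcard
  have hmem : ∀ χ, χ ∈ S ↔ χ ∈ principalBlock M G := by
    intro χ; rw [hS]; simp
  have h1S : Helper82Linear.irrOne G ∈ S := (hmem _).2 irrOne_mem_principal
  have hc3 : (S.erase (Helper82Linear.irrOne G)).card = 3 := by
    rw [Finset.card_erase_of_mem h1S, hcard]
  obtain ⟨a, b, c, hab, hac, hbc, habc⟩ := Finset.card_eq_three.1 hc3
  have hiff : ∀ χ, χ ∈ principalBlock M G ↔ χ = Helper82Linear.irrOne G ∨ χ = a ∨ χ = b ∨ χ = c := by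
    intro χ
    rw [← hmem]
    by_cases h1 : χ = Helper82Linear.irrOne G
    · simp [h1, h1S]
    · have : χ ∈ S ↔ χ ∈ S.erase (Helper82Linear.irrOne G) := by
        rw [Finset.mem_erase]; tauto
      rw [this, habc]
      simp [h1]
  have hmem' : ∀ χ, χ ∈ ({a, b, c} : Finset (IrrCharacter G)) → Helper82Linear.irrOne G ≠ χ := by
    intro χ hχ
    rw [← habc] at hχ
    exact (Finset.mem_erase.1 hχ).1.symm
  have h1a := hmem' a (by simp)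
  have h1b := hmem' b (by simp)
  have h1c := hmem' c (by simp)
  have horth := weak_block_orth hM hB0 (x := 1) (y := t)
    (by rw [orderOf_one]; norm_num) (by rw [ht2])
  rw [sum_four (principalBlock M G) _ a b c h1a h1b h1c hab hac hbc hiff] at horth
  have e1 : ∀ g, (Helper82Linear.irrOne G : G → ℂ) g = 1 := fun _ => rfl
  rw [e1, e1, ← charDegree_eq a, ← charDegree_eq b, ← charDegree_eq c] at horth
  have pa := charDegree_pos a
  have pb := charDegree_pos b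
  have pc := charDegree_pos c
  have va := hval a ((hiff a).2 (by simp))
  have vb := hval b ((hiff b).2 (by simp))
  have vc := hval c ((hiff c).2 (by simp))
  have cast1 : ((1 : ℤ) : ℂ) = 1 := by norm_num
  have castm1 : ((-1 : ℤ) : ℂ) = -1 := by norm_num
  rcases va with va | va <;> rcases vb with vb | vb <;> rcases vc with vc | vc
  · exfalso
    rw [va, vb, vc] at horth
    simp only [map_one, mul_one] at horth
    have : (1 + charDegree (a : G → ℂ) + charDegree (b : G → ℂ) + charDegree (c : G → ℂ) : ℕ) = 0 := by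
      exact_mod_cast horth
    omega
  · exact core a b c 1 (Or.inl rfl) h1a h1b h1c hab hac hbc hiff va (by rw [vb, cast1]) vc
  · exact core a c b 1 (Or.inl rfl) h1a h1c h1b hac hab hbc.symm
      (fun χ => by rw [hiff χ]; tauto) va (by rw [vc, cast1]) vb
  · exact core a b c (-1) (Or.inr rfl) h1a h1b h1c hab hac hbc hiff va (by rw [vb, castm1]) vc
  · exact core b c a 1 (Or.inl rfl) h1b h1c h1a hbc hab.symm hac.symm
      (fun χ => by rw [hiff χ]; tauto) vb (by rw [vc, cast1]) va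
  · exact core b a c (-1) (Or.inr rfl) h1b h1a h1c hab.symm hbc hac
      (fun χ => by rw [hiff χ]; tauto) vb (by rw [va, castm1]) vc
  · exact core c a b (-1) (Or.inr rfl) h1c h1a h1b hac.symm hbc.symm hab
      (fun χ => by rw [hiff χ]; tauto) vc (by rw [va, castm1]) vb
  · exfalso
    rw [va, vb, vc] at horth
    simp only [map_one, map_neg, mul_one, mul_neg] at horth
    have : ((charDegree (a : G → ℂ) + charDegree (b : G → ℂ) + charDegree (c : G → ℂ) : ℕ) : ℂ)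
        = ((1 : ℕ) : ℂ) := by
      push_cast
      linear_combination -horth
    have : (charDegree (a : G → ℂ) + charDegree (b : G → ℂ) + charDegree (c : G → ℂ) : ℕ) = 1 := by
      exact_mod_cast this
    omega

end Cfsg.Agent.S0948
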