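import Cfsg.Statements.S0949
import Mathlib
import Cfsg.Agent.Lib.Helper59BLTwo
import Cfsg.Agent.Lib.Helper14PConstr
import Cfsg.Agent.Lib.Helper81ClassMul
import Cfsg.Agent.S0945

set_option autoImplicit false
open Cfsg

namespace Cfsg.Agent.S0949

open Subgroup in
theorem core_bot {G : Type*} [Group G] [Finite G]
    (hO : ∀ N : Subgroup G, N.Normal → Odd (Nat.card N) → N = ⊥) (K : Subgroup G) [K.Normal] :
    Cfsg.pPrimeCore 2 ↥K = ⊥ := by
  have h1 : Cfsg.pPrimeCore 2 G = ⊥ := by
    apply hO _ (Cfsg.Agent.Lib.Helper1Fitting.pPrimeCore_normal 2)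
    have := Cfsg.Agent.Lib.Helper1Fitting.card_pPrimeCore_coprime (G := G) 2
    exact Nat.odd_iff.mpr (Nat.two_dvd_ne_zero.mp
      (fun hd => by
        have := Nat.Coprime.eq_one_of_dvd this.symm hd
        norm_num at this))
  have h2 := Cfsg.Agent.Lib.Helper14PConstr.pPrimeCore_subgroup_le (G := G) 2 K
  rw [h1, le_bot_iff] at h2
  exact (Subgroup.map_eq_bot_iff_of_injective _ K.subtype_injective).mp h2

open Subgroup in
theorem normal_aux : ∀ (n : ℕ) {G : Type*} [Group G] [Finite G], Nat.card G = n →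
    ∀ (P : Sylow 2 G) (m : ℕ) (_ : 2 ≤ m)
    (_ : (P : Subgroup G) ≃* Multiplicative (ZMod (2 ^ m) × ZMod (2 ^ m)))
    (_ : ∀ N : Subgroup G, N.Normal → Odd (Nat.card N) → N = ⊥), (P : Subgroup G).Normal := by
  intro n
  induction n using Nat.strong_induction_on with
  | _ n ih =>
  intro G _ _ hn P m hm e hO
  classical
  have hab : IsMulCommutative ↥(P : Subgroup G) := by
    refine ⟨⟨fun a b => ?_⟩⟩
    apply e.injective
    rw [map_mul, map_mul, mul_comm]
  obtain ⟨h1, h2⟩ := Cfsg.Agent.S0945.result P m (by omega) e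
  rcases h1 with h1 | h1
  · -- Burnside
    have hNC : normalizer ((P : Subgroup G) : Set G) ≤ centralizer ((P : Subgroup G) : Set G) :=
      Subgroup.relIndex_eq_one.mp h1
    have hc := MonoidHom.ker_transferSylow_isComplement' P hNC
    have hK : (MonoidHom.transferSylow P hNC).ker = ⊥ := by
      apply hO _ inferInstance
      rw [← hc.index_eq_card]
      exact Nat.odd_iff.mpr (Nat.two_dvd_ne_zero.mp P.not_dvd_index)
    rw [hK, Subgroup.isComplement'_bot_left] at hc
    rw [hc]
    infer_instance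
  · obtain ⟨M, hM⟩ := Cfsg.Agent.Lib.Helper81ClassMul.exists_modular Nat.prime_two
    let _ : Fintype G := Fintype.ofFinite G
    let _ : Fintype ↥(P : Subgroup G) := Fintype.ofFinite _
    let _ : Fintype (Subgroup.normalizer ((P : Subgroup G) : Set G)) := Fintype.ofFinite _
    have := Cfsg.Agent.Lib.Helper59BLDual.finite_hom ↥(P : Subgroup G) hab
    let _ : Fintype (↥(P : Subgroup G) →* ℂˣ) := Fintype.ofFinite _
    have h : Cfsg.Agent.Lib.Helper59BLGram.BL 2 M P :=
      ⟨hM, hab, h2 (by rw [h1]; norm_num)⟩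
    have hcard : Nat.card ↥(P : Subgroup G) = 2 ^ m * 2 ^ m := by
      rw [Nat.card_congr e.toEquiv]
      have : NeZero (2 ^ m) := ⟨by positivity⟩
      rw [Nat.card_eq_fintype_card]
      simp [Fintype.card_prod, ZMod.card]
    have hP4 : 4 < Nat.card ↥(P : Subgroup G) := by
      rw [hcard]
      have : 2 ^ 2 ≤ 2 ^ m := Nat.pow_le_pow_right (by norm_num) hm
      nlinarith
    obtain ⟨χ, hχ1, hχ2, hχ3⟩ := Cfsg.Agent.Lib.Helper59BLTwo.two_case h h1 hP4
    set K := Cfsg.Agent.Lib.Helper82Quot.charKer (Cfsg.Agent.Lib.Helper82Irr.irr_isCharacter χ)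
      with hKdef
    have hPK : (P : Subgroup G) ≤ K := by
      intro y hy
      rw [hKdef, Cfsg.Agent.Lib.Helper82Quot.mem_charKer, hχ3 y hy, hχ2]
    have hKtop : K ≠ ⊤ := by
      intro htop
      apply hχ1
      apply Subtype.ext
      funext g
      have : g ∈ K := by rw [htop]; exact Subgroup.mem_top g
      rw [hKdef, Cfsg.Agent.Lib.Helper82Quot.mem_charKer, hχ2] at this
      rw [this]; rfl
    have hKcard : Nat.card K < n := by
      rw [← hn]
      exact lt_of_le_of_ne (Subgroup.card_le_card_group K)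
        (fun hc => hKtop (Subgroup.eq_top_of_card_eq K hc))
    have hOK : ∀ N : Subgroup K, N.Normal → Odd (Nat.card N) → N = ⊥ := by
      intro N hN hodd
      have h3 := core_bot hO K
      have h4 : N ≤ Cfsg.pPrimeCore 2 ↥K :=
        Cfsg.Agent.Lib.Helper1Fitting.le_pPrimeCore hN (Nat.Coprime.symm
          (Nat.coprime_two_left.mpr hodd))
      rw [h3, le_bot_iff] at h4
      exact h4
    have e' : ((P.subtype hPK : Sylow 2 K) : Subgroup K) ≃*
        Multiplicative (ZMod (2 ^ m) × ZMod (2 ^ m)) :=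
      (Subgroup.subgroupOfEquivOfLe hPK).trans e
    have hnorm := ih (Nat.card K) hKcard rfl (P.subtype hPK) m hm e' hOK
    have hchar := Sylow.characteristic_of_normal (P.subtype hPK) hnorm
    have h5 : (((P.subtype hPK : Sylow 2 K) : Subgroup K).map K.subtype).Normal :=
      ConjAct.normal_of_characteristic_of_normal
    have h6 : ((P.subtype hPK : Sylow 2 K) : Subgroup K).map K.subtype = (P : Subgroup G) := by
      rw [Sylow.coe_subtype, Subgroup.subgroupOf_map_subtype, inf_eq_left.mpr hPK]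
    rwa [h6] at h5

/-- Let the finite group G have a Sylow 2-subgroup P isomorphic to Z/2^m × Z/2^m with m ≥ 2, and suppose G has no nontrivial normal subgroup of odd order. Then P is normal in G, C_G(P) = P, and the index of P is 1 or 3. -/
theorem result {G : Type*} [Group G] [Finite G] (P : Sylow 2 G) (m : ℕ) (hm : 2 ≤ m) (e : (P : Subgroup G) ≃* Multiplicative (ZMod (2 ^ m) × ZMod (2 ^ m))) (hO : ∀ N : Subgroup G, N.Normal → Odd (Nat.card N) → N = ⊥) : (P : Subgroup G).Normal ∧ Subgroup.centralizer (P : Set G) = (P : Subgroup G) ∧ ((P : Subgroup G).index = 1 ∨ (P : Subgroup G).index = 3) := by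
  classical
  have hnorm := normal_aux (Nat.card G) rfl P m hm e hO
  have hab : IsMulCommutative ↥(P : Subgroup G) := by
    refine ⟨⟨fun a b => ?_⟩⟩
    apply e.injective
    rw [map_mul, map_mul, mul_comm]
  obtain ⟨h1, -⟩ := Cfsg.Agent.S0945.result P m (by omega) e
  set C := Subgroup.centralizer ((P : Subgroup G) : Set G) with hC
  have hCn : C.Normal := Subgroup.normal_centralizer
  have hPC : (P : Subgroup G) ≤ C := by
    intro x hx
    rw [hC, Subgroup.mem_centralizer_iff]
    intro y hy
    exact congrArg Subtype.val (hab.is_comm.comm ⟨y, hy⟩ ⟨x, hx⟩)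
  have hcen : ((P.subtype hPC : Sylow 2 C) : Subgroup C) ≤ Subgroup.center C := by
    intro x hx
    rw [Sylow.coe_subtype, Subgroup.mem_subgroupOf] at hx
    rw [Subgroup.mem_center_iff]
    intro c
    apply Subtype.ext
    exact (Subgroup.mem_centralizer_iff.mp c.2 x hx).symm
  have hidx := Cfsg.Agent.Lib.Helper59BSGrp.index_pPrimeCore_of_central (P.subtype hPC) hcen
  rw [core_bot hO C, Subgroup.index_bot] at hidx
  have hcardQ : Nat.card ((P.subtype hPC : Sylow 2 C) : Subgroup C) = Nat.card (P : Subgroup G) :=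
    Nat.card_congr (Subgroup.subgroupOfEquivOfLe hPC).toEquiv
  have hCP : C = (P : Subgroup G) := by
    symm
    apply Subgroup.eq_of_le_of_card_ge hPC
    rw [hidx]
    exact hcardQ.le
  refine ⟨hnorm, hCP, ?_⟩
  have hN : Subgroup.normalizer ((P : Subgroup G) : Set G) = ⊤ := Subgroup.normalizer_eq_top _
  have h1' : C.relIndex (Subgroup.normalizer ((P : Subgroup G) : Set G)) = 1 ∨
      C.relIndex (Subgroup.normalizer ((P : Subgroup G) : Set G)) = 3 := h1
  rw [hN, Subgroup.relIndex_top_right, hCP] at h1'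
  exact h1'

end Cfsg.Agent.S0949
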