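import Cfsg.Statements.S0954
import Cfsg.Agent.Lib.Helper21Cover

set_option autoImplicit false
open Cfsg

namespace Cfsg.Agent.S0954

open Cfsg.Agent.Lib.Helper21Cover Cfsg.Agent.Lib.Helper81Block Cfsg.Agent.Lib.Helper81Local

/-- Let N be a normal subgroup of the finite group G of order prime to p and of p-power index (a normal p-complement), and fix a maximal ideal M of the algebraic integers containing p. Then two irreducible characters χ, ψ of G lie in the same block if and only if some irreducible character of N has nonzero inner product with both the restriction of χ and the restriction of ψ. -/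
theorem result {G : Type*} [Group G] [Fintype G] (p : ℕ) [Fact p.Prime] (M : Ideal Cfsg.AlgInt) (hM : Cfsg.IsPModular p M) (N : Subgroup G) [N.Normal] [Fintype N] (hN : ¬ p ∣ Nat.card N) (hidx : ∃ k : ℕ, N.index = p ^ k) (χ ψ : Cfsg.IrrCharacter G) : Cfsg.SameBlock M (χ : G → ℂ) (ψ : G → ℂ) ↔ ∃ θ : Cfsg.IrrCharacter N, Cfsg.classInner (fun n : N => (χ : G → ℂ) n) (θ : N → ℂ) ≠ 0 ∧ Cfsg.classInner (fun n : N => (ψ : G → ℂ) n) (θ : N → ℂ) ≠ 0 := by
  have := IsPModular.isPrime hM
  have hNn : N.Normal := inferInstance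
  constructor
  · intro h
    obtain ⟨θ, hθ⟩ := exists_under (N := N) χ
    obtain ⟨ψ', hψ'⟩ := exists_under (N := N) ψ
    obtain ⟨g, θ', h1, h2⟩ := over_of_congr (M := M) hNn (osima (isPBlock_blockOf θ))
      (self_mem_blockOf θ) hθ hψ' (fun n => h n)
    have h3 : θ' = θ := eq_of_sameBlock_of_pprime hM hN h1
    subst h3
    refine ⟨θ', hθ, ?_⟩
    have := over_cjI hNn hψ' g⁻¹
    rw [h2, cjI_cjI, mul_inv_cancel, cjI_one] at this
    exact this
  · rintro ⟨θ, h1, h2⟩
    obtain ⟨B, _, hu⟩ := unique_covering (G := G) hM hidx (isPBlock_blockOf (M := M) θ)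
    have e1 := hu (blockOf M (χ : G → ℂ)) ⟨isPBlock_blockOf χ, χ, self_mem_blockOf χ, θ,
      self_mem_blockOf θ, h1⟩
    have e2 := hu (blockOf M (ψ : G → ℂ)) ⟨isPBlock_blockOf ψ, ψ, self_mem_blockOf ψ, θ,
      self_mem_blockOf θ, h2⟩
    have : ψ ∈ blockOf M (χ : G → ℂ) := by
      rw [e1, ← e2]
      exact self_mem_blockOf ψ
    exact this

end Cfsg.Agent.S0954
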