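import Cfsg.Statements.S0957
import Cfsg.Agent.Lib.Helper21Action

set_option autoImplicit false
open Cfsg

namespace Cfsg.Agent.S0957

open Cfsg.Agent.Lib.Helper21Action

/-- The set of pairs. -/
abbrev Pairs {G : Type*} [Group G] (P : Subgroup G) (g h : G) :=
  {yz : G × G // IsConj g yz.1 ∧ IsConj h yz.2 ∧ yz.2 * yz.1⁻¹ ∈ P}

/-- `P` acts on the pairs by simultaneous conjugation. -/
instance pairsAction {G : Type*} [Group G] (P : Subgroup G) (g h : G) :
    MulAction P (Pairs P g h) where
  smul u x := ⟨((u : G) * x.1.1 * (u : G)⁻¹, (u : G) * x.1.2 * (u : G)⁻¹),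
    x.2.1.trans (isConj_iff.mpr ⟨u, rfl⟩), x.2.2.1.trans (isConj_iff.mpr ⟨u, rfl⟩), by
      have : (u : G) * x.1.2 * (u : G)⁻¹ * ((u : G) * x.1.1 * (u : G)⁻¹)⁻¹ =
          (u : G) * (x.1.2 * x.1.1⁻¹) * (u : G)⁻¹ := by group
      show (u : G) * x.1.2 * (u : G)⁻¹ * ((u : G) * x.1.1 * (u : G)⁻¹)⁻¹ ∈ P
      rw [this]
      exact P.mul_mem (P.mul_mem u.2 x.2.2.2) (P.inv_mem u.2)⟩
  one_smul x := by
    apply Subtype.ext
    show (((1 : P) : G) * x.1.1 * ((1 : P) : G)⁻¹, ((1 : P) : G) * x.1.2 * ((1 : P) : G)⁻¹) = x.1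
    simp
  mul_smul u v x := by
    apply Subtype.ext
    show (((u * v : P) : G) * x.1.1 * ((u * v : P) : G)⁻¹,
      ((u * v : P) : G) * x.1.2 * ((u * v : P) : G)⁻¹) =
      ((u : G) * ((v : G) * x.1.1 * (v : G)⁻¹) * (u : G)⁻¹,
        (u : G) * ((v : G) * x.1.2 * (v : G)⁻¹) * (u : G)⁻¹)
    simp [mul_assoc]

theorem smul_fst {G : Type*} [Group G] (P : Subgroup G) (g h : G) (u : P) (x : Pairs P g h) :
    (u • x).1.1 = (u : G) * x.1.1 * (u : G)⁻¹ := rfl

/-- Let P be a Sylow p-subgroup of the finite group G, let g, h ∈ G and let p ^ d be the order of a Sylow p-subgroup of the centralizer of g. Then the number of pairs (y, z) with y conjugate to g, z conjugate to h and z * y⁻¹ ∈ P is divisible by the order of P divided by p ^ d. -/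
theorem result {G : Type*} [Group G] [Finite G] (p : ℕ) [Fact p.Prime] (P : Sylow p G) (g h : G) (S : Sylow p (Subgroup.centralizer ({g} : Set G))) : Nat.card P / Nat.card S ∣ Nat.card {yz : G × G // IsConj g yz.1 ∧ IsConj h yz.2 ∧ yz.2 * yz.1⁻¹ ∈ (P : Subgroup G)} := by
  apply dvd_card_of_forall_dvd_index (A := (P : Subgroup G)) (X := Pairs (P : Subgroup G) g h)
  intro x
  set T := MulAction.stabilizer (P : Subgroup G) x with hT
  have hidx : T.index = Nat.card (P : Subgroup G) / Nat.card T := by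
    rw [← T.card_mul_index, Nat.mul_div_cancel_left _ Nat.card_pos]
  rw [hidx]
  have hSP : Nat.card S ∣ Nat.card (P : Subgroup G) := by
    obtain ⟨d, hd⟩ := S.2.exists_card_eq
    rw [hd]
    apply P.pow_dvd_card_of_pow_dvd_card
    rw [← hd]
    exact (Subgroup.card_subgroup_dvd_card _).trans (Subgroup.card_subgroup_dvd_card _)
  have hTS : Nat.card T ∣ Nat.card S := by
    obtain ⟨s, hs⟩ := (P.2.to_subgroup T).exists_card_eq
    rw [hs]
    apply S.pow_dvd_card_of_pow_dvd_card
    rw [← hs, ← card_centralizer_of_isConj x.2.1]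
    let f : T →* Subgroup.centralizer ({x.1.1} : Set G) :=
      { toFun := fun u => ⟨((u : (P : Subgroup G)) : G), by
          rw [Subgroup.mem_centralizer_singleton_iff]
          have h1 : (u : (P : Subgroup G)) • x = x := u.2
          have h2 := congrArg (fun w : Pairs (P : Subgroup G) g h => w.1.1) h1
          simp only [smul_fst] at h2
          exact mul_inv_eq_iff_eq_mul.mp h2⟩
        map_one' := rfl
        map_mul' := fun _ _ => rfl }
    apply Subgroup.card_dvd_of_injective f
    intro a b hab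
    apply Subtype.ext
    apply Subtype.ext
    exact congrArg (fun w : Subgroup.centralizer ({x.1.1} : Set G) => (w : G)) hab
  exact Nat.div_dvd_div_left hSP hTS

end Cfsg.Agent.S0957
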