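import Cfsg.Statements.S0958
import Cfsg.Agent.Lib.Helper20Sub

set_option autoImplicit false
open Cfsg

namespace Cfsg.Agent.S0958

open Cfsg.Agent.Lib.Helper20Local Cfsg.Agent.Lib.Helper20Block Cfsg.Agent.Lib.Helper20Induced
open Cfsg.Agent.Lib.Helper20Defect Cfsg.Agent.Lib.Helper87Sylow Cfsg.Agent.Lib.Helper20First
open Cfsg.Agent.Lib.Helper20Sub Cfsg.Agent.Lib.Helper20Brauer Cfsg.Agent.Lib.Helper20Conj

/-- Let P be a p-subgroup of the finite group G and H a subgroup with P ⊔ C_G(P) ≤ H ≤ N_G(P); fix a maximal ideal M of the algebraic integers containing p. Then a block B of G is induced by some block of H if and only if some conjugate of P is contained in a defect group of B. -/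
theorem result {G : Type*} [Group G] [Finite G] (p : ℕ) [Fact p.Prime] (M : Ideal Cfsg.AlgInt) (hM : Cfsg.IsPModular p M) (P H : Subgroup G) (hP : IsPGroup p P) (hPH : P ⊔ Subgroup.centralizer (P : Set G) ≤ H) (hHN : H ≤ Subgroup.normalizer (P : Set G)) (B : Set (Cfsg.IrrCharacter G)) (hB : Cfsg.IsPBlock M B) : (∃ b : Set (Cfsg.IrrCharacter H), Cfsg.IsInducedBlock M H b B) ↔ ∃ D : Subgroup G, Cfsg.IsDefectGroup p M B D ∧ ∃ x : G, P.map (MulAut.conj x).toMonoidHom ≤ D := by
  classical
  cases nonempty_fintype G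
  have hPr := IsPModular.isPrime hM
  have hPH' : P ≤ H := le_sup_left.trans hPH
  have hCH : Subgroup.centralizer (P : Set G) ≤ H := le_sup_right.trans hPH
  constructor
  · rintro ⟨b, hb⟩
    obtain ⟨Q, hQ⟩ := exists_defectGroup hM hb.1
    have hn : (P.subgroupOf H).Normal := (Subgroup.normal_subgroupOf_iff_le_normalizer hPH').mpr hHN
    have hPp : IsPGroup p (P.subgroupOf H) :=
      hP.of_equiv (Subgroup.subgroupOfEquivOfLe hPH').symm
    have h1 : P.subgroupOf H ≤ Q := le_defectGroup_of_normal hM _ hPp hb.1 hQ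
    obtain ⟨E, hE, hle⟩ := defectGroup_le_of_induced H hM hb hQ
    refine ⟨E, hE, 1, ?_⟩
    change cj 1 P ≤ E
    rw [cj_one, ← Subgroup.map_subgroupOf_eq_of_le hPH']
    exact (Subgroup.map_mono h1).trans hle
  · rintro ⟨D, hD, hx⟩
    obtain ⟨c, hc, hcP⟩ := (coeff_iff_le_defectGroup hM hB hD hP).mpr hx
    exact exists_block_induced_of_coeff hM hP hPH' hCH hHN hB hcP hc

end Cfsg.Agent.S0958
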