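import Cfsg.Statements.S0962
import Cfsg.Agent.Lib.Helper78BlockCount

set_option autoImplicit false
open Cfsg

namespace Cfsg.Agent.S0962

open Cfsg.Agent.Lib Cfsg.Agent.Lib.Helper81Local Cfsg.Agent.Lib.Helper81Base
  Cfsg.Agent.Lib.Helper81BB Cfsg.Agent.Lib.Helper81Block Cfsg.Agent.Lib.Helper81Orth
  Cfsg.Agent.Lib.Helper78BlockCount

/-- Fix a maximal ideal M of the algebraic integers containing the prime p and a natural number d. The number of blocks of the finite group G of defect at least d is at most the number of conjugacy classes of p-regular elements of G of defect at least d, where the defect of a class is the exponent of p in the order of the centralizer of any of its elements. -/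
theorem result {G : Type*} [Group G] [Finite G] (p : ℕ) [Fact p.Prime] (M : Ideal Cfsg.AlgInt) (hM : Cfsg.IsPModular p M) (d : ℕ) : Nat.card {B : Set (Cfsg.IrrCharacter G) // Cfsg.IsPBlock M B ∧ d ≤ Cfsg.blockDefect p B} ≤ Nat.card {C : ConjClasses G // ∃ g : G, ConjClasses.mk g = C ∧ Cfsg.IsPRegular p g ∧ d ≤ (Nat.card (Subgroup.centralizer ({g} : Set G))).factorization p} := by
  classical
  have := Fintype.ofFinite G
  have := hM.2.1.isPrime
  apply card_blocks_le hM (fun B => d ≤ Cfsg.blockDefect p B)
  intro B B' hB hBσ hB' hBσ' χ hχ C hC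
  by_cases hsing : p ∣ orderOf (Quotient.out C)
  · rw [blockCoeff_eq_zero_of_singular hM hB hsing, zero_mul]; exact memLocalIdeal_zero
  · by_contra hcon
    apply hC
    refine ⟨Quotient.out C, Quotient.out_eq C, hsing, ?_⟩
    have h2 : ¬ Cfsg.MemLocalIdeal M (Cfsg.centralChar (χ : G → ℂ) (Quotient.out C)) := fun h =>
      hcon (memLocalIdeal_mul (osima hB _) h)
    have h4 := defect_le_of_centralChar hM hB' hχ h2
    omega

end Cfsg.Agent.S0962
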