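import Cfsg.Statements.S0963
import Cfsg.Agent.Lib.Helper21Cover

set_option autoImplicit false
open Cfsg

namespace Cfsg.Agent.S0963

open Cfsg.Agent.Lib.Helper21Cover Cfsg.Agent.Lib.Helper81Block Cfsg.Agent.Lib.Helper19Ind

/-- Let N be a normal subgroup of the finite group G, χ an irreducible character of G and θ an irreducible character of N. Then θ occurs in the restriction of χ to N if and only if, for every n ∈ N, the central character of χ at n (class size in G times χ n over χ 1) equals the sum of θ m / θ 1 over the elements m of N conjugate in G to n. -/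
theorem result {G : Type*} [Group G] [Fintype G] (N : Subgroup G) [N.Normal] [Fintype N] (χ : Cfsg.IrrCharacter G) (θ : Cfsg.IrrCharacter N) : Cfsg.classInner (fun n : N => (χ : G → ℂ) n) (θ : N → ℂ) ≠ 0 ↔ ∀ n : N, Cfsg.centralChar (χ : G → ℂ) (n : G) = Cfsg.inducedCentralChar N (θ : N → ℂ) (n : G) := by
  classical
  have hN : N.Normal := inferInstance
  constructor
  · intro h n
    exact centralChar_eq_induced (χ := χ) (θ := θ) h n
  · intro h
    obtain ⟨χ', hχ'⟩ := exists_over (G := G) θ
    obtain ⟨θ₁, hθ₁⟩ := exists_under (N := N) χ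
    have hst := orb_stable hN ({θ} : Set (IrrCharacter N))
    have e : om (extendByZero N (blockCoeff (orb hN ({θ} : Set (IrrCharacter N))))) χ
        = om (extendByZero N (blockCoeff (orb hN ({θ} : Set (IrrCharacter N))))) χ' := by
      apply om_eq_of_centralChar_eq (N := N) (ext_blockCoeff_classfn hN hst)
        (fun g hg => extendByZero_of_not_mem N _ hg)
      intro n
      rw [h n, centralChar_eq_induced hχ' n]
    rw [om_ext_blockCoeff hN hst hθ₁, om_ext_blockCoeff hN hst hχ',
      if_pos (subset_orb hN _ (Set.mem_singleton θ))] at e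
    have hmem : θ₁ ∈ orb hN ({θ} : Set (IrrCharacter N)) := by
      by_contra hne
      rw [if_neg hne] at e
      exact zero_ne_one e
    obtain ⟨g, θ', hθ', rfl⟩ := (mem_orb hN _ _).1 hmem
    rw [Set.mem_singleton_iff] at hθ'
    subst hθ'
    have := over_cjI hN hθ₁ g⁻¹
    rw [cjI_cjI, mul_inv_cancel, cjI_one] at this
    exact this

end Cfsg.Agent.S0963
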