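import Cfsg.Statements.S0967
import Cfsg.Agent.Lib.Helper21CoverQ

set_option autoImplicit false
open Cfsg

namespace Cfsg.Agent.S0967

open Cfsg.Agent.Lib.Helper21CoverQ Cfsg.Agent.Lib.Helper82Quot

/-- Let N be a normal subgroup of the finite group G of order prime to p and fix a maximal ideal M of the algebraic integers containing p. If χ is an irreducible character of G ⧸ N and ψ lies in the block of its inflation χ ∘ (quotient map), then ψ is itself inflated from an irreducible character ψ' of G ⧸ N lying in the block of χ. (Over a normal p'-subgroup, blocks of the quotient are whole blocks of G.) -/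
theorem result {G : Type*} [Group G] [Finite G] (p : ℕ) [Fact p.Prime] (M : Ideal Cfsg.AlgInt) (hM : Cfsg.IsPModular p M) (N : Subgroup G) [N.Normal] (hN : ¬ p ∣ Nat.card N) (χ : Cfsg.IrrCharacter (G ⧸ N)) (ψ : Cfsg.IrrCharacter G) (hψ : ψ ∈ Cfsg.blockOf M ((χ : G ⧸ N → ℂ) ∘ QuotientGroup.mk)) : ∃ ψ' : Cfsg.IrrCharacter (G ⧸ N), (ψ : G → ℂ) = (ψ' : G ⧸ N → ℂ) ∘ QuotientGroup.mk ∧ Cfsg.SameBlock M (χ : G ⧸ N → ℂ) (ψ' : G ⧸ N → ℂ) := by
  letI := Fintype.ofFinite G
  letI := Fintype.ofFinite N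
  letI := Fintype.ofFinite (G ⧸ N)
  obtain ⟨ψ', h1, h2⟩ := block_of_inflate hM hN χ (ψ := ψ) hψ
  refine ⟨ψ', ?_, h2⟩
  rw [← h1]
  rfl

end Cfsg.Agent.S0967
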