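import Cfsg.Statements.S0972
import Cfsg.Agent.Lib.Helper21ND
import Cfsg.Agent.S0169
import Cfsg.Agent.S0187

set_option autoImplicit false
open Cfsg

namespace Cfsg.Agent.S0972

/-- Let B be a block of the finite group G (relative to a maximal ideal M of the algebraic integers containing the prime p) with a defect group P that is normal in G. Then P is commutative if and only if every member of B has height zero. -/
theorem result {G : Type*} [Group G] [Finite G] (p : ℕ) [Fact p.Prime] (M : Ideal Cfsg.AlgInt) (hM : Cfsg.IsPModular p M) (B : Set (Cfsg.IrrCharacter G)) (hB : Cfsg.IsPBlock M B) (P : Subgroup G) [P.Normal] (hP : Cfsg.IsDefectGroup p M B P) : (∀ a ∈ P, ∀ c ∈ P, a * c = c * a) ↔ ∀ χ ∈ B, Cfsg.blockHeight p B (χ : G → ℂ) = 0 := by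
  classical
  let _ := Fintype.ofFinite G
  have hp : p.Prime := hM.1
  have hPp := Lib.Helper21ND.isPGroup_of_defect hM hB hP
  constructor
  · intro hab χ hχ
    rw [Lib.Helper81Defect.blockHeight_def, Lib.Helper21ND.minVal_eq_index hM hB hP]
    obtain ⟨n, ρ, hirr, hρ⟩ := χ.2
    have h1 := S0169.result ρ P hab
    have h2 : charDegree (χ : G → ℂ) = Module.finrank ℂ (Fin n → ℂ) := by
      have h3 := Lib.Helper81Base.charDegree_eq χ
      have h5 : (χ : G → ℂ) 1 = (Module.finrank ℂ (Fin n → ℂ) : ℂ) := by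
        rw [← hρ, Representation.char_one]
      rw [h5] at h3
      exact_mod_cast h3
    rw [← h2] at h1
    have h4 := (Nat.factorization_le_iff_dvd (Lib.Helper81Base.charDegree_pos χ).ne'
      P.index_ne_zero_of_finite).2 h1 p
    omega
  · intro hh
    have hD : ∀ a b : P.subgroupOf (Lib.Helper21ND.PC P), a * b = b * a := by
      rw [S0187.result]
      intro ζ
      obtain ⟨χ, hχ, h1⟩ := Lib.Helper21ND.exists_height_ge hM hB hP ζ
      rw [hh χ hχ] at h1
      have h2 : charDegree (ζ : P.subgroupOf (Lib.Helper21ND.PC P) → ℂ)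
          ∣ Nat.card (P.subgroupOf (Lib.Helper21ND.PC P)) := Lib.Helper81BB.irr_deg_dvd ζ
      have hDp : IsPGroup p (P.subgroupOf (Lib.Helper21ND.PC P)) :=
        hPp.of_equiv (Subgroup.subgroupOfEquivOfLe (Lib.Helper21ND.le_PC P)).symm
      obtain ⟨k, hk⟩ := IsPGroup.iff_card.1 hDp
      rw [hk] at h2
      obtain ⟨j, _, hj⟩ := (Nat.dvd_prime_pow hp).1 h2
      rw [hj, hp.factorization_pow] at h1
      simp only [Finsupp.single_eq_same, Nat.le_zero_eq] at h1
      rw [h1, pow_zero] at hj
      rw [← Lib.Helper81Base.charDegree_eq, hj]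
      simp
    intro a ha c hc
    have := hD ⟨⟨a, Lib.Helper21ND.le_PC P ha⟩, Subgroup.mem_subgroupOf.2 ha⟩
      ⟨⟨c, Lib.Helper21ND.le_PC P hc⟩, Subgroup.mem_subgroupOf.2 hc⟩
    have h2 := congrArg (fun x : P.subgroupOf (Lib.Helper21ND.PC P) =>
      ((x : Lib.Helper21ND.PC P) : G)) this
    simpa using h2

end Cfsg.Agent.S0972
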