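import Cfsg.Statements.S0986
import Mathlib

set_option autoImplicit false
set_option linter.unusedSectionVars false
open Cfsg

namespace Cfsg.Agent.S0986

open Subgroup

theorem card_lt_of_lt' {G : Type*} [Group G] [Finite G] {H K : Subgroup G} (h : H < K) :
    Nat.card H < Nat.card K := by
  rcases (card_le_of_le h.le).lt_or_eq with h1 | h1
  · exact h1
  · exact absurd (eq_of_le_of_card_ge h.le h1.ge) h.ne

theorem grow {G : Type*} [Group G] [Finite G] {p : ℕ} [Fact p.Prime] (P D : Subgroup G)
    (hP : IsPGroup p P) (hDP : D ≤ P) (hne : D ≠ P) :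
    Nat.card D < Nat.card (P ⊓ normalizer (D : Set G) : Subgroup G) := by
  apply card_lt_of_lt'
  have hnil : Group.IsNilpotent P := hP.isNilpotent
  have hnc : NormalizerCondition P := Group.normalizerCondition_of_isNilpotent
  have hlt : D.subgroupOf P < ⊤ := by
    rw [lt_top_iff_ne_top, Ne, subgroupOf_eq_top]
    intro h
    exact hne (le_antisymm hDP h)
  have h1 := hnc _ hlt
  rw [← subgroupOf_normalizer_eq hDP] at h1
  obtain ⟨u, hu1, hu2⟩ := SetLike.exists_of_lt h1
  refine lt_of_le_of_ne (le_inf hDP le_normalizer) ?_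
  intro h
  apply hu2
  rw [mem_subgroupOf] at hu1 ⊢
  rw [h]
  exact ⟨u.2, hu1⟩

section
variable {G : Type*} [Group G] [Finite G] {p : ℕ} [Fact p.Prime] (D : Subgroup G)

/-- image in `G` of a Sylow subgroup of the normalizer -/
abbrev im (S : Sylow p (normalizer (D : Set G))) : Subgroup G :=
  (S : Subgroup (normalizer (D : Set G))).map (normalizer (D : Set G)).subtype

theorem im_pgroup (S : Sylow p (normalizer (D : Set G))) : IsPGroup p (im D S) :=
  S.2.map _

theorem im_le (S : Sylow p (normalizer (D : Set G))) : im D S ≤ normalizer (D : Set G) :=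
  map_subtype_le _

theorem le_im (hD : IsPGroup p D) (S : Sylow p (normalizer (D : Set G))) : D ≤ im D S := by
  have h1 : IsPGroup p (D.subgroupOf (normalizer (D : Set G))) :=
    hD.comap_of_injective _ (subtype_injective _)
  have h2 := h1.le_sylow_of_normal S
  have h3 := map_mono (f := (normalizer (D : Set G)).subtype) h2
  rwa [subgroupOf_map_subtype, inf_eq_left.mpr le_normalizer] at h3

theorem im_max (S : Sylow p (normalizer (D : Set G))) (H : Subgroup G) (hH : IsPGroup p H)
    (hHN : H ≤ normalizer (D : Set G)) (hS : im D S ≤ H) : H = im D S := by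
  have h1 : IsPGroup p (H.subgroupOf (normalizer (D : Set G))) :=
    hH.comap_of_injective _ (subtype_injective _)
  have h2 : (S : Subgroup (normalizer (D : Set G))) ≤ H.subgroupOf (normalizer (D : Set G)) := by
    intro x hx
    rw [mem_subgroupOf]
    exact hS (mem_map_of_mem _ hx)
  have h3 := S.3 h1 h2
  have h4 := congrArg (fun K => K.map (normalizer (D : Set G)).subtype) h3
  simp only [subgroupOf_map_subtype, inf_eq_left.mpr hHN] at h4
  exact h4

theorem card_le_im (S : Sylow p (normalizer (D : Set G))) (H : Subgroup G) (hH : IsPGroup p H)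
    (hHN : H ≤ normalizer (D : Set G)) : Nat.card H ≤ Nat.card (im D S) := by
  have h1 : IsPGroup p (H.subgroupOf (normalizer (D : Set G))) :=
    hH.comap_of_injective _ (subtype_injective _)
  obtain ⟨S0, hS0⟩ := h1.exists_le_sylow
  have h2 : Nat.card (S0 : Subgroup (normalizer (D : Set G))) =
      Nat.card (S : Subgroup (normalizer (D : Set G))) := by
    rw [S0.card_eq_multiplicity, S.card_eq_multiplicity]
  rw [card_map_of_injective (subtype_injective _), ← h2]
  have h3 := card_le_of_le hS0
  have h4 : Nat.card (H.subgroupOf (normalizer (D : Set G))) = Nat.card H :=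
    Nat.card_congr (subgroupOfEquivOfLe hHN).toEquiv
  omega

theorem im_inj {S T : Sylow p (normalizer (D : Set G))} (h : im D S = im D T) : S = T :=
  Sylow.ext (map_injective (subtype_injective _) h)

variable (hD : IsPGroup p D)
  (hmax : ∀ A B : Sylow p G, A ≠ B →
    Nat.card ((A : Subgroup G) ⊓ (B : Subgroup G) : Subgroup G) ≤ Nat.card D)
include hmax

theorem unique_of_big (H : Subgroup G) (hH : Nat.card D < Nat.card H) (A B : Sylow p G)
    (hA : H ≤ A) (hB : H ≤ B) : A = B := by
  by_contra hne
  have h1 := hmax A B hne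
  have h2 := card_le_of_le (le_inf hA hB)
  omega

variable (P : Sylow p G) (hDP : D ≤ P) (hne : D ≠ P)
include hDP hne

theorem big (S : Sylow p (normalizer (D : Set G))) : Nat.card D < Nat.card (im D S) :=
  lt_of_lt_of_le (grow (P : Subgroup G) D P.2 hDP hne)
    (card_le_im D S _ (P.2.to_le inf_le_left) inf_le_right)

include hD

theorem part2 (S T : Sylow p (normalizer (D : Set G))) (hST : S ≠ T) :
    (S : Subgroup _) ⊓ (T : Subgroup _) = D.subgroupOf (normalizer (D : Set G)) := by
  obtain ⟨A, hA⟩ := (im_pgroup D S).exists_le_sylow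
  obtain ⟨B, hB⟩ := (im_pgroup D T).exists_le_sylow
  have hAB : A ≠ B := by
    rintro rfl
    apply hST
    apply im_inj D
    have h1 := im_max D S ((A : Subgroup G) ⊓ normalizer (D : Set G)) (A.2.to_le inf_le_left)
      inf_le_right (le_inf hA (im_le D S))
    have h2 := im_max D T ((A : Subgroup G) ⊓ normalizer (D : Set G)) (A.2.to_le inf_le_left)
      inf_le_right (le_inf hB (im_le D T))
    rw [← h1, ← h2]
  have h1 := hmax A B hAB
  have h2 : D ≤ im D S ⊓ im D T := le_inf (le_im D hD S) (le_im D hD T)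
  have h3 : im D S ⊓ im D T ≤ (A : Subgroup G) ⊓ (B : Subgroup G) := inf_le_inf hA hB
  have h4 : D = im D S ⊓ im D T := eq_of_le_of_card_ge h2 ((card_le_of_le h3).trans h1)
  ext x
  have h5 : (x : G) ∈ D ↔ (x : G) ∈ im D S ⊓ im D T := by
    constructor
    · exact fun h => h2 h
    · exact fun h => h4.ge h
  rw [mem_subgroupOf, h5, mem_inf, mem_inf]
  have hinj := subtype_injective (normalizer (D : Set G))
  constructor
  · rintro ⟨h5, h6⟩
    exact ⟨mem_map_of_mem _ h5, mem_map_of_mem _ h6⟩
  · rintro ⟨h5, h6⟩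
    exact ⟨(mem_map_iff_mem hinj).mp h5, (mem_map_iff_mem hinj).mp h6⟩

omit hD in
theorem part3 (S : Sylow p (normalizer (D : Set G))) :
    ∃! T : Sylow p G, im D S ≤ (T : Subgroup G) := by
  obtain ⟨A, hA⟩ := (im_pgroup D S).exists_le_sylow
  refine ⟨A, hA, ?_⟩
  intro B hB
  exact unique_of_big D hmax (im D S) (big D hmax P hDP hne S) B A hB hA

omit hD in
theorem part1 (Q : Sylow p G) (hDQ : D ≤ Q) (hneQ : D ≠ Q) (hPQ : P ≠ Q) :
    1 < Nat.card (Sylow p (normalizer (D : Set G))) := by
  have hP1 : IsPGroup p (((P : Subgroup G) ⊓ normalizer (D : Set G) : Subgroup G).subgroupOf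
      (normalizer (D : Set G))) :=
    (P.2.to_le inf_le_left).comap_of_injective _ (subtype_injective _)
  have hQ1 : IsPGroup p (((Q : Subgroup G) ⊓ normalizer (D : Set G) : Subgroup G).subgroupOf
      (normalizer (D : Set G))) :=
    (Q.2.to_le inf_le_left).comap_of_injective _ (subtype_injective _)
  obtain ⟨S, hS⟩ := hP1.exists_le_sylow
  obtain ⟨T, hT⟩ := hQ1.exists_le_sylow
  have hS' : (P : Subgroup G) ⊓ normalizer (D : Set G) ≤ im D S := by
    have := map_mono (f := (normalizer (D : Set G)).subtype) hS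
    rwa [subgroupOf_map_subtype, inf_eq_left.mpr inf_le_right] at this
  have hT' : (Q : Subgroup G) ⊓ normalizer (D : Set G) ≤ im D T := by
    have := map_mono (f := (normalizer (D : Set G)).subtype) hT
    rwa [subgroupOf_map_subtype, inf_eq_left.mpr inf_le_right] at this
  have hST : S ≠ T := by
    rintro rfl
    obtain ⟨A, hA⟩ := (im_pgroup D S).exists_le_sylow
    have h1 : P = A := unique_of_big D hmax _ (grow (P : Subgroup G) D P.2 hDP hne) P A
      inf_le_left (hS'.trans hA)
    have h2 : Q = A := unique_of_big D hmax _ (grow (Q : Subgroup G) D Q.2 hDQ hneQ) Q A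
      inf_le_left (hT'.trans hA)
    exact hPQ (h1.trans h2.symm)
  have : Nontrivial (Sylow p (normalizer (D : Set G))) := ⟨S, T, hST⟩
  exact Finite.one_lt_card

end

/-- Let P and Q be distinct Sylow p-subgroups of a finite group G chosen so that the order of P ∩ Q is as large as possible among intersections of two distinct Sylow p-subgroups, and let N be the normalizer of P ∩ Q. Then N has more than one Sylow p-subgroup, any two distinct Sylow p-subgroups of N intersect exactly in P ∩ Q, and each Sylow p-subgroup of N lies in exactly one Sylow p-subgroup of G. -/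
theorem result {G : Type*} [Group G] [Finite G] (p : ℕ) [Fact p.Prime] (P Q : Sylow p G) (hPQ : P ≠ Q) (hmax : ∀ P' Q' : Sylow p G, P' ≠ Q' → Nat.card ↥((P' : Subgroup G) ⊓ (Q' : Subgroup G)) ≤ Nat.card ↥((P : Subgroup G) ⊓ (Q : Subgroup G))) : 1 < Nat.card (Sylow p ↥(Subgroup.normalizer (((P : Subgroup G) ⊓ (Q : Subgroup G) : Subgroup G) : Set G))) ∧ (∀ S T : Sylow p ↥(Subgroup.normalizer (((P : Subgroup G) ⊓ (Q : Subgroup G) : Subgroup G) : Set G)), S ≠ T → (S : Subgroup _) ⊓ (T : Subgroup _) = ((P : Subgroup G) ⊓ (Q : Subgroup G)).subgroupOf (Subgroup.normalizer (((P : Subgroup G) ⊓ (Q : Subgroup G) : Subgroup G) : Set G))) ∧ ∀ S : Sylow p ↥(Subgroup.normalizer (((P : Subgroup G) ⊓ (Q : Subgroup G) : Subgroup G) : Set G)), ∃! T : Sylow p G, (S : Subgroup _).map (Subgroup.normalizer (((P : Subgroup G) ⊓ (Q : Subgroup G) : Subgroup G) : Set G)).subtype ≤ (T : Subgroup G) := by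
  have hD : IsPGroup p ((P : Subgroup G) ⊓ (Q : Subgroup G) : Subgroup G) := P.2.to_le inf_le_left
  have hneP : (P : Subgroup G) ⊓ (Q : Subgroup G) ≠ P := by
    intro h
    apply hPQ
    have h1 : (P : Subgroup G) ≤ Q := inf_eq_left.mp h
    exact (Sylow.ext (P.3 Q.2 h1)).symm
  have hneQ : (P : Subgroup G) ⊓ (Q : Subgroup G) ≠ Q := by
    intro h
    apply hPQ
    have h1 : (Q : Subgroup G) ≤ P := inf_eq_right.mp h
    exact Sylow.ext (Q.3 P.2 h1)
  exact ⟨part1 _ hmax P inf_le_left hneP Q inf_le_right hneQ hPQ,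
    part2 _ hD hmax P inf_le_left hneP, part3 _ hmax P inf_le_left hneP⟩

end Cfsg.Agent.S0986
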