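import Cfsg.Statements.S0987
import Cfsg.Agent.Lib.Helper21Simple

set_option autoImplicit false
open Cfsg

namespace Cfsg.Agent.S0987

open Cfsg.Agent.Lib.Helper21Simple

theorem not_modEq_one {a b : ℕ} (h1 : 1 < a) (h2 : a < b) : ¬ a ≡ 1 [MOD b] := by
  unfold Nat.ModEq
  rw [Nat.mod_eq_of_lt h2, Nat.mod_eq_of_lt (by omega)]
  omega

/-- a group of order `q * p` with `p < q` has a unique Sylow `q`-subgroup -/
theorem card_sylow_eq_one {K : Type*} [Group K] [Finite K] {p q : ℕ} (hp : p.Prime)
    [Fact q.Prime] (hpq : p < q) (h : Nat.card K = q * p) : Nat.card (Sylow q K) = 1 := by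
  obtain ⟨Q⟩ : Nonempty (Sylow q K) := inferInstance
  have hq : q.Prime := Fact.out
  have hqp : ¬ q ∣ p := fun hd => by
    have := Nat.le_of_dvd hp.pos hd
    omega
  obtain ⟨hQ, hidx⟩ := sylow_card_index (p := q) (a := 1) (m := p) (by rw [h]; ring) hqp Q
  have h2 : Nat.card (Sylow q K) ∣ p := hidx ▸ Q.card_dvd_index
  have h1 : Nat.card (Sylow q K) ≡ 1 [MOD q] := card_sylow_modEq_one q K
  rcases (Nat.dvd_prime hp).mp h2 with h3 | h3
  · exact h3
  · rw [h3] at h1
    exact absurd h1 (not_modEq_one hp.one_lt hpq)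

/-- If a finite group has order pqr for primes p < q < r, then its Sylow r-subgroups are normal. -/
theorem result {G : Type*} [Group G] [Finite G] (p q r : ℕ) (hp : p.Prime) (hq : q.Prime) [Fact r.Prime] (hpq : p < q) (hqr : q < r) (hG : Nat.card G = p * q * r) (R : Sylow r G) : (R : Subgroup G).Normal := by
  have hr : r.Prime := Fact.out
  have : Fact q.Prime := ⟨hq⟩
  have hrpq : ¬ r ∣ p * q := by
    intro hd
    rcases (hr.dvd_mul).mp hd with h | h
    · have := Nat.le_of_dvd hp.pos h
      omega
    · have := Nat.le_of_dvd hq.pos h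
      omega
  obtain ⟨hR, hidx⟩ := sylow_card_index (p := r) (a := 1) (m := p * q) (by rw [hG]; ring) hrpq R
  have h2 : Nat.card (Sylow r G) ∣ p * q := hidx ▸ R.card_dvd_index
  have h1 : Nat.card (Sylow r G) ≡ 1 [MOD r] := card_sylow_modEq_one r G
  have h4 := card_normalizer_mul_card_sylow R
  by_cases hn1 : Nat.card (Sylow r G) = 1
  · have hs : Subsingleton (Sylow r G) := (Nat.card_eq_one_iff_unique.mp hn1).1
    exact R.normal_of_subsingleton
  exfalso
  have hn : Nat.card (Sylow r G) = p * q := by
    obtain ⟨a, b, ha, hb, hab⟩ := Nat.dvd_mul.mp h2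
    rcases (Nat.dvd_prime hp).mp ha with rfl | rfl <;>
    rcases (Nat.dvd_prime hq).mp hb with rfl | rfl
    · exact absurd (by simpa using hab.symm) hn1
    · rw [← hab, one_mul] at h1
      exact absurd h1 (not_modEq_one hq.one_lt hqr)
    · rw [← hab, mul_one] at h1
      exact absurd h1 (not_modEq_one hp.one_lt (hpq.trans hqr))
    · exact hab.symm
  rw [hn, hG, mul_comm] at h4
  have h6 : Nat.card (Subgroup.normalizer ((R : Subgroup G) : Set G)) = r :=
    Nat.eq_of_mul_eq_mul_left (Nat.mul_pos hp.pos hq.pos) h4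
  have hcyc : IsCyclic (R : Subgroup G) := isCyclic_of_prime_card (p := r) (by simpa using hR)
  have hcomm : IsMulCommutative (R : Subgroup G) := inferInstance
  have hNR : (R : Subgroup G) = Subgroup.normalizer ((R : Subgroup G) : Set G) :=
    Subgroup.eq_of_le_of_card_ge Subgroup.le_normalizer (by rw [h6, hR, pow_one])
  have hNC := normalizer_le_centralizer_of_card_eq (R : Subgroup G) hcomm
    (by rw [h6, hR, pow_one])
  have hcompl := MonoidHom.ker_transferSylow_isComplement' R hNC
  set K := (MonoidHom.transferSylow R hNC).ker with hK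
  have hKn : K.Normal := MonoidHom.normal_ker _
  have hKcard : Nat.card K = q * p := by
    rw [← hcompl.index_eq_card, hidx, mul_comm]
  have hnq := card_sylow_eq_one hp hpq hKcard
  obtain ⟨Q⟩ : Nonempty (Sylow q K) := inferInstance
  have hs : Subsingleton (Sylow q K) := (Nat.card_eq_one_iff_unique.mp hnq).1
  have hQn : (Q : Subgroup K).Normal := Q.normal_of_subsingleton
  have hQc : (Q : Subgroup K).Characteristic := Q.characteristic_of_normal hQn
  have hqp : ¬ q ∣ p := fun hd => by
    have := Nat.le_of_dvd hp.pos hd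
    omega
  obtain ⟨hQ, -⟩ := sylow_card_index (p := q) (a := 1) (m := p) (by rw [hKcard]; ring) hqp Q
  set Q' : Subgroup G := (Q : Subgroup K).map K.subtype with hQ'
  have hQ'n : Q'.Normal := ConjAct.normal_of_characteristic_of_normal
  have hQ'card : Nat.card Q' = q := by
    rw [hQ', Subgroup.card_map_of_injective K.subtype_injective, hQ, pow_one]
  have hQ'cyc : IsCyclic Q' := isCyclic_of_prime_card (p := q) hQ'card
  have h7 := relIndex_dvd_card_mulAut Q'
  rw [hQ'cyc.card_mulAut, hQ'card, Nat.totient_prime hq, Subgroup.normalizer_eq_top,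
    Subgroup.relIndex_top_right] at h7
  have hcop : Nat.Coprime r (Subgroup.centralizer (Q' : Set G)).index := by
    rw [Nat.Prime.coprime_iff_not_dvd hr]
    intro hd
    have := Nat.le_of_dvd (by have := hq.two_le; omega) (hd.trans h7)
    omega
  have hRC : (R : Subgroup G) ≤ Subgroup.centralizer (Q' : Set G) := by
    intro x hx
    have h8 : x ^ (Subgroup.centralizer (Q' : Set G)).index ∈ Subgroup.centralizer (Q' : Set G) :=
      Subgroup.pow_index_mem _ x
    have h9 : x ^ r = 1 := by
      have := pow_card_eq_one' (x := (⟨x, hx⟩ : (R : Subgroup G)))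
      rw [hR, pow_one] at this
      exact congrArg Subtype.val this
    have h10 : x ^ r ∈ Subgroup.centralizer (Q' : Set G) := by rw [h9]; exact one_mem _
    have := Nat.gcd_eq_gcd_ab r (Subgroup.centralizer (Q' : Set G)).index
    rw [hcop.gcd_eq_one] at this
    have hx1 : x = (x ^ r) ^ (r.gcdA (Subgroup.centralizer (Q' : Set G)).index) *
        (x ^ (Subgroup.centralizer (Q' : Set G)).index) ^
          (r.gcdB (Subgroup.centralizer (Q' : Set G)).index) := by
      rw [← zpow_natCast, ← zpow_natCast, ← zpow_mul, ← zpow_mul, ← zpow_add, ← this]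
      simp
    rw [hx1]
    exact mul_mem (zpow_mem h10 _) (zpow_mem h8 _)
  have hQR : Q' ≤ (R : Subgroup G) := by
    rw [hNR]
    refine le_trans ?_ (Subgroup.centralizer_le_normalizer _)
    exact Subgroup.le_centralizer_iff.mp hRC
  have := Subgroup.card_dvd_of_le hQR
  rw [hQ'card, hR, pow_one] at this
  have := (Nat.prime_dvd_prime_iff_eq hq hr).mp this
  omega

end Cfsg.Agent.S0987
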