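import Cfsg.Statements.S0988
import Cfsg.Agent.Lib.Helper21Simple

set_option autoImplicit false
open Cfsg

namespace Cfsg.Agent.S0988

open Cfsg.Agent.Lib.Helper21Simple

theorem consecutive_primes {l s : ℕ} (hl : l.Prime) (hs : s.Prime) (h : s = l + 1) :
    l = 2 ∧ s = 3 := by
  rcases hl.eq_two_or_odd with h2 | h2
  · omega
  · rcases hs.eq_two_or_odd with h3 | h3
    · have := hl.two_le
      omega
    · omega

/-- if `l < s` are primes with `s ∣ l^2 - 1` or `s ∣ l^2 - l` then `l = 2`, `s = 3`. -/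
theorem arith {l s : ℕ} (hl : l.Prime) (hs : s.Prime) (hls : l < s)
    (h : l ^ 2 ≡ 1 [MOD s] ∨ l ^ 2 ≡ l [MOD s]) : l = 2 ∧ s = 3 := by
  have hl2 := hl.two_le
  rcases h with h | h
  · have h1 : s ∣ l ^ 2 - 1 := (Nat.modEq_iff_dvd' (by nlinarith)).mp h.symm
    have h2 : l ^ 2 - 1 = (l - 1) * (l + 1) := by
      obtain ⟨k, rfl⟩ : ∃ k, l = k + 1 := ⟨l - 1, by omega⟩
      simp only [Nat.add_sub_cancel]
      have : (k + 1) ^ 2 = k * (k + 1 + 1) + 1 := by ring
      omega
    rw [h2] at h1
    rcases (hs.dvd_mul).mp h1 with h3 | h3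
    · have := Nat.le_of_dvd (by omega) h3
      omega
    · have := Nat.le_of_dvd (by omega) h3
      exact consecutive_primes hl hs (by omega)
  · have h1 : s ∣ l ^ 2 - l := (Nat.modEq_iff_dvd' (by nlinarith)).mp h.symm
    have h2 : l ^ 2 - l = l * (l - 1) := by
      obtain ⟨k, rfl⟩ : ∃ k, l = k + 1 := ⟨l - 1, by omega⟩
      simp only [Nat.add_sub_cancel]
      have : (k + 1) ^ 2 = (k + 1) * k + (k + 1) := by ring
      omega
    rw [h2] at h1
    rcases (hs.dvd_mul).mp h1 with h3 | h3
    · have := Nat.le_of_dvd (by omega) h3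
      omega
    · have := Nat.le_of_dvd (by omega) h3
      omega

section
variable {G : Type*} [Group G] [Finite G] [IsSimpleGroup G]

/-- order `l^2 * m` with all prime factors of `m` bigger than `l`. -/
theorem caseA2 (hG : ¬ IsMulCommutative G) {l m : ℕ} (hl : l.Prime)
    (h : Nat.card G = l ^ 2 * m) (hm : ∀ s : ℕ, s.Prime → s ∣ m → l < s) : l = 2 ∧ 3 ∣ m := by
  have : Fact l.Prime := ⟨hl⟩
  obtain ⟨P⟩ : Nonempty (Sylow l G) := inferInstance
  have hlm : ¬ l ∣ m := fun hd => lt_irrefl l (hm l hl hd)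
  obtain ⟨hP, hidx⟩ := sylow_card_index h hlm P
  obtain ⟨s, hs, hsd, hmod⟩ := exists_prime_of_sylow_sq hG P hP
  rw [hidx] at hsd
  obtain ⟨h2, h3⟩ := arith hl hs (hm s hs hsd) hmod
  exact ⟨h2, h3 ▸ hsd⟩

theorem caseB (hG : ¬ IsMulCommutative G) {r : ℕ} (hr : r.Prime) (hr3 : 3 ≤ r)
    (h : Nat.card G = 12 * r) : Nat.card G = 60 := by
  have : Fact r.Prime := ⟨hr⟩
  obtain ⟨P⟩ : Nonempty (Sylow r G) := inferInstance
  have hdvd : r ∣ Nat.card G := by rw [h]; exact Dvd.intro_left 12 rfl
  have h1 : Nat.card (Sylow r G) ≡ 1 [MOD r] := card_sylow_modEq_one r G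
  have h3 : Nat.card (Sylow r G) ≠ 1 := card_sylow_ne_one hG hdvd
  have h4 := card_normalizer_mul_card_sylow P
  rcases Nat.lt_or_ge 3 r with hr3' | hr3'
  · have hr12 : ¬ r ∣ 12 := by
      intro hd
      have hle := Nat.le_of_dvd (by norm_num) hd
      interval_cases r <;> simp_all (config := {decide := true})
    obtain ⟨hP, hidx⟩ := sylow_card_index (p := r) (a := 1) (m := 12) (by rw [h]; ring) hr12 P
    have h2 : Nat.card (Sylow r G) ∣ 12 := hidx ▸ P.card_dvd_index
    have h5 : r ∣ Nat.card (Sylow r G) - 1 :=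
      (Nat.modEq_iff_dvd' (Nat.one_le_iff_ne_zero.mpr Nat.card_pos.ne')).mp h1.symm
    have hn12 : Nat.card (Sylow r G) ≤ 12 := Nat.le_of_dvd (by norm_num) h2
    have hn0 : 0 < Nat.card (Sylow r G) := Nat.card_pos
    have hrle : r ≤ Nat.card (Sylow r G) - 1 := Nat.le_of_dvd (by omega) h5
    have key : (r = 5) ∨ (r = 11 ∧ Nat.card (Sylow r G) = 12) := by
      generalize Nat.card (Sylow r G) = n at *
      interval_cases n <;> first | omega | (exfalso; revert h2; decide) | skip
      · left
        have : r ∣ 5 := h5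
        exact (Nat.prime_dvd_prime_iff_eq hr (by norm_num)).mp this
      · right
        have : r ∣ 11 := h5
        exact ⟨(Nat.prime_dvd_prime_iff_eq hr (by norm_num)).mp this, rfl⟩
    rcases key with rfl | ⟨rfl, hn⟩
    · rw [h]
    · exfalso
      rw [hn, h] at h4
      have h6 : Nat.card (Subgroup.normalizer ((P : Subgroup G) : Set G)) = 11 := by omega
      have hcyc : IsCyclic (P : Subgroup G) :=
        isCyclic_of_prime_card (p := 11) (by simpa using hP)
      have hcomm : IsMulCommutative (P : Subgroup G) := inferInstance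
      exact not_normalizer_le_centralizer hG P hdvd
        (normalizer_le_centralizer_of_card_eq _ hcomm (by rw [h6, hP]; norm_num))
  · exfalso
    obtain rfl : r = 3 := by omega
    obtain ⟨hP, hidx⟩ := sylow_card_index (p := 3) (a := 2) (m := 4) (by rw [h]; norm_num)
      (by norm_num) P
    have h2 : Nat.card (Sylow 3 G) ∣ 4 := hidx ▸ P.card_dvd_index
    have hn : Nat.card (Sylow 3 G) = 4 := by
      generalize Nat.card (Sylow 3 G) = n at *
      have : n ≤ 4 := Nat.le_of_dvd (by norm_num) h2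
      unfold Nat.ModEq at h1
      interval_cases n <;> simp_all (config := {decide := true})
    have hidxN : (Subgroup.normalizer ((P : Subgroup G) : Set G)).index = 4 := by
      exact P.card_eq_index_normalizer.symm.trans hn
    have hne : Subgroup.normalizer ((P : Subgroup G) : Set G) ≠ ⊤ := by
      intro ht
      rw [ht, Subgroup.index_top] at hidxN
      omega
    have := two_mul_card_dvd_factorial hG _ hne
    rw [hidxN, h] at this
    revert this
    decide

theorem caseA3 (hG : ¬ IsMulCommutative G) {l s : ℕ} (hl : l.Prime) (hs : s.Prime) (hls : l < s)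
    (h : Nat.card G = l ^ 3 * s) : False := by
  have : Fact s.Prime := ⟨hs⟩
  obtain ⟨P⟩ : Nonempty (Sylow s G) := inferInstance
  have hdvd : s ∣ Nat.card G := by rw [h]; exact Dvd.intro_left _ rfl
  have h1 : Nat.card (Sylow s G) ≡ 1 [MOD s] := card_sylow_modEq_one s G
  have h3 : Nat.card (Sylow s G) ≠ 1 := card_sylow_ne_one hG hdvd
  have h4 := card_normalizer_mul_card_sylow P
  have hsl : ¬ s ∣ l ^ 3 := by
    intro hd
    have := (Nat.prime_dvd_prime_iff_eq hs hl).mp (hs.dvd_of_dvd_pow hd)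
    omega
  obtain ⟨hP, hidx⟩ := sylow_card_index (p := s) (a := 1) (m := l ^ 3) (by rw [h]; ring) hsl P
  have h2 : Nat.card (Sylow s G) ∣ l ^ 3 := hidx ▸ P.card_dvd_index
  obtain ⟨j, hj, hn⟩ := (Nat.dvd_prime_pow hl).mp h2
  have hl2 := hl.two_le
  interval_cases j
  · exact h3 (by simpa using hn)
  · rw [hn, pow_one] at h1
    unfold Nat.ModEq at h1
    rw [Nat.mod_eq_of_lt hls, Nat.mod_eq_of_lt (by omega)] at h1
    omega
  · rw [hn] at h1
    obtain ⟨rfl, rfl⟩ := arith hl hs hls (Or.inl h1)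
    have hidxN : (Subgroup.normalizer ((P : Subgroup G) : Set G)).index = 4 := by
      exact P.card_eq_index_normalizer.symm.trans (hn.trans (by norm_num))
    have hne : Subgroup.normalizer ((P : Subgroup G) : Set G) ≠ ⊤ := by
      intro ht
      rw [ht, Subgroup.index_top] at hidxN
      omega
    have := two_mul_card_dvd_factorial hG _ hne
    rw [hidxN, h] at this
    revert this
    decide
  · rw [hn, h, mul_comm] at h4
    have h6 : Nat.card (Subgroup.normalizer ((P : Subgroup G) : Set G)) = s :=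
      Nat.eq_of_mul_eq_mul_left (by positivity) h4
    have hcyc : IsCyclic (P : Subgroup G) :=
      isCyclic_of_prime_card (p := s) (by simpa using hP)
    have hcomm : IsMulCommutative (P : Subgroup G) := inferInstance
    exact not_normalizer_le_centralizer hG P hdvd
      (normalizer_le_centralizer_of_card_eq _ hcomm (by rw [h6, hP, pow_one]))

theorem caseA4 (hG : ¬ IsMulCommutative G) {l : ℕ} (hl : l.Prime)
    (h : Nat.card G = l ^ 4) : False := by
  have : Fact l.Prime := ⟨hl⟩
  obtain ⟨P⟩ : Nonempty (Sylow l G) := inferInstance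
  have hdvd : l ∣ Nat.card G := by rw [h]; exact Dvd.intro_left (l ^ 3) (by ring)
  have h3 : Nat.card (Sylow l G) ≠ 1 := card_sylow_ne_one hG hdvd
  obtain ⟨hP, hidx⟩ := sylow_card_index (p := l) (a := 4) (m := 1) (by rw [h]; ring)
    (by simpa using hl.one_lt.ne') P
  have h2 : Nat.card (Sylow l G) ∣ 1 := hidx ▸ P.card_dvd_index
  exact h3 (Nat.dvd_one.mp h2)

theorem caseA1 (hG : ¬ IsMulCommutative G) {l m : ℕ} (hl : l.Prime)
    (h : Nat.card G = l * m) (hm : ∀ s : ℕ, s.Prime → s ∣ m → l < s) : False := by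
  have : Fact l.Prime := ⟨hl⟩
  obtain ⟨P⟩ : Nonempty (Sylow l G) := inferInstance
  have hlm : ¬ l ∣ m := fun hd => lt_irrefl l (hm l hl hd)
  obtain ⟨hP, hidx⟩ := sylow_card_index (p := l) (a := 1) (m := m) (by rw [h]; ring) hlm P
  have hcyc : IsCyclic (P : Subgroup G) :=
    isCyclic_of_prime_card (p := l) (by simpa using hP)
  have hmin : (Nat.card G).minFac = l := by
    have hdvd : l ∣ Nat.card G := by rw [h]; exact Dvd.intro _ rfl
    apply le_antisymm (Nat.minFac_le_of_dvd hl.two_le hdvd)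
    have hne : Nat.card G ≠ 1 := by
      intro h1
      rw [h1] at hdvd
      exact hl.one_lt.ne' (Nat.dvd_one.mp hdvd)
    have hpr := Nat.minFac_prime hne
    have hd : (Nat.card G).minFac ∣ l * m := (Nat.minFac_dvd (Nat.card G)).trans (dvd_of_eq h)
    rcases (hpr.dvd_mul).mp hd with h5 | h5
    · exact ((Nat.prime_dvd_prime_iff_eq hpr hl).mp h5).ge
    · exact (hm _ hpr h5).le
  exact not_isCyclic_sylow_minFac hG hmin P hcyc

theorem main (hG : ¬ IsMulCommutative G) (p q r : ℕ) (hp : p.Prime) (hq : q.Prime) (hr : r.Prime)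
    (hqr : q ≤ r) (h : Nat.card G = p ^ 2 * q * r) : Nat.card G = 60 := by
  rcases lt_trichotomy p q with hpq | rfl | hpq
  · -- p < q ≤ r
    have hm : ∀ s : ℕ, s.Prime → s ∣ q * r → p < s := by
      intro s hs hd
      rcases (hs.dvd_mul).mp hd with h5 | h5
      · rw [(Nat.prime_dvd_prime_iff_eq hs hq).mp h5]; exact hpq
      · rw [(Nat.prime_dvd_prime_iff_eq hs hr).mp h5]; omega
    obtain ⟨rfl, h3⟩ := caseA2 hG hp (m := q * r) (by rw [h]; ring) hm
    have hq3 : q = 3 := by
      rcases (Nat.prime_three.dvd_mul).mp h3 with h5 | h5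
      · exact ((Nat.prime_dvd_prime_iff_eq Nat.prime_three hq).mp h5).symm
      · have := (Nat.prime_dvd_prime_iff_eq Nat.prime_three hr).mp h5
        omega
    subst hq3
    exact caseB hG hr hqr (by rw [h]; ring)
  · rcases hqr.lt_or_eq with hlt | rfl
    · exact (caseA3 hG hp hr hlt (by rw [h]; ring)).elim
    · exact (caseA4 hG hp (by rw [h]; ring)).elim
  · rcases hqr.lt_or_eq with hlt | rfl
    · exfalso
      refine caseA1 hG hq (m := p ^ 2 * r) (by rw [h]; ring) ?_
      intro s hs hd
      rcases (hs.dvd_mul).mp hd with h5 | h5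
      · rw [(Nat.prime_dvd_prime_iff_eq hs hp).mp (hs.dvd_of_dvd_pow h5)]; exact hpq
      · rw [(Nat.prime_dvd_prime_iff_eq hs hr).mp h5]; exact hlt
    · have hm : ∀ s : ℕ, s.Prime → s ∣ p ^ 2 → q < s := by
        intro s hs hd
        rw [(Nat.prime_dvd_prime_iff_eq hs hp).mp (hs.dvd_of_dvd_pow hd)]; exact hpq
      obtain ⟨rfl, h3⟩ := caseA2 hG hq (m := p ^ 2) (by rw [h]; ring) hm
      have hp3 : p = 3 :=
        ((Nat.prime_dvd_prime_iff_eq Nat.prime_three hp).mp
          (Nat.prime_three.dvd_of_dvd_pow h3)).symm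
      subst hp3
      exact caseB hG Nat.prime_three le_rfl (by rw [h]; norm_num)

end

/-- If a finite simple group has order p^2 * q * r with p, q and r prime, then its order is 60. -/
theorem result {G : Type*} [Group G] [Finite G] [IsSimpleGroup G] (p q r : ℕ) (hp : p.Prime) (hq : q.Prime) (hr : r.Prime) (hG : Nat.card G = p ^ 2 * q * r) : Nat.card G = 60 := by
  have hnc : ¬ IsMulCommutative G := by
    apply not_comm_of_not_prime
    rw [hG]
    apply Nat.not_prime_mul
    · have := hp.two_le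
      have := hq.two_le
      have : 2 * 2 ≤ p ^ 2 * q := by nlinarith
      omega
    · exact hr.one_lt.ne'
  rcases le_total q r with h | h
  · exact main hnc p q r hp hq hr h hG
  · exact main hnc p r q hp hr hq h (by rw [hG]; ring)

end Cfsg.Agent.S0988
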