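import Cfsg.Statements.S0989
-- import your own Cfsg.Agent.* helpers here
import Mathlib

set_option autoImplicit false
open Cfsg

namespace Cfsg.Agent.S0989

/-- In the symmetric group on p or p + 1 letters, p a prime, the normalizer of a Sylow p-subgroup has order p * (p - 1). -/
theorem result {α : Type*} [Fintype α] [DecidableEq α] (p : ℕ) [Fact p.Prime] (hα : Fintype.card α = p ∨ Fintype.card α = p + 1) (P : Sylow p (Equiv.Perm α)) : Nat.card ↥(Subgroup.normalizer ((P : Subgroup (Equiv.Perm α)) : Set (Equiv.Perm α))) = p * (p - 1) := by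
  classical
  have hp : p.Prime := Fact.out
  -- the order of the symmetric group
  obtain ⟨m, hm, hpm⟩ : ∃ m, Nat.card (Equiv.Perm α) = p * m ∧ ¬ p ∣ m := by
    rw [Nat.card_perm, Nat.card_eq_fintype_card]
    have h1 : ¬ p ∣ (p - 1).factorial := by
      rw [hp.dvd_factorial]; have := hp.two_le; omega
    have h2 : p.factorial = p * (p - 1).factorial := by
      conv_lhs => rw [show p = (p - 1) + 1 by have := hp.two_le; omega]
      rw [Nat.factorial_succ]
      congr 1
      have := hp.two_le; omega
    rcases hα with h | h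
    · exact ⟨(p - 1).factorial, by rw [h, h2], h1⟩
    · refine ⟨(p + 1) * (p - 1).factorial, by rw [h, Nat.factorial_succ, h2]; ring, ?_⟩
      intro hd
      rcases hp.dvd_mul.mp hd with h3 | h3
      · have : p ∣ 1 := (Nat.dvd_add_right (dvd_refl p)).mp h3
        exact hp.one_lt.ne' (Nat.dvd_one.mp this)
      · exact h1 h3
  have hcardP : Nat.card (P : Subgroup (Equiv.Perm α)) = p := by
    rw [P.card_eq_multiplicity, hm, Nat.factorization_mul hp.ne_zero (by rintro rfl; exact hpm (dvd_zero p))]
    simp [hp.factorization_self, Nat.factorization_eq_zero_of_not_dvd hpm]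
  haveI hcyc : IsCyclic (P : Subgroup (Equiv.Perm α)) := isCyclic_of_prime_card hcardP
  obtain ⟨g0, hg0⟩ := hcyc.exists_generator
  have hord0 : orderOf g0 = p := by
    rw [orderOf_eq_card_of_forall_mem_zpowers hg0, hcardP]
  set g : Equiv.Perm α := (g0 : Equiv.Perm α) with hg
  have hgP : g ∈ (P : Subgroup (Equiv.Perm α)) := g0.2
  have hord : orderOf g = p := by rw [hg, Subgroup.orderOf_coe, hord0]
  have hlt : Fintype.card α < 2 * p := by
    have := hp.two_le
    rcases hα with h | h <;> omega
  have cyc : ∀ h : Equiv.Perm α, orderOf h = p → h.cycleType = {p} := by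
    intro h hh
    have hc : h.IsCycle := Equiv.Perm.isCycle_of_prime_order' (by rw [hh]; exact hp) (by rw [hh]; exact hlt)
    rw [hc.cycleType, ← hc.orderOf, hh]
  have hPz : ∀ h ∈ (P : Subgroup (Equiv.Perm α)), orderOf h = p → (P : Subgroup (Equiv.Perm α)) = Subgroup.zpowers h := by
    intro h hh ho
    symm
    apply Subgroup.eq_of_le_of_card_ge (Subgroup.zpowers_le.mpr hh)
    rw [Nat.card_zpowers, ho, hcardP]
  -- centralizer
  have hcen : Nat.card (Subgroup.centralizer ({g} : Set (Equiv.Perm α))) = p := by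
    rw [Equiv.Perm.nat_card_centralizer, cyc g hord]
    have : (Fintype.card α - p).factorial = 1 := by
      rcases hα with h | h
      · rw [h]; simp
      · rw [h]; simp
    simp [this]
  have hcenP : Subgroup.centralizer ((P : Subgroup (Equiv.Perm α)) : Set (Equiv.Perm α)) = Subgroup.centralizer ({g} : Set (Equiv.Perm α)) := by
    rw [hPz g hgP hord, Subgroup.zpowers_eq_closure, Subgroup.centralizer_closure]
  have hker := (P : Subgroup (Equiv.Perm α)).normalizerMonoidHom_ker
  have hsurj : Function.Surjective (P : Subgroup (Equiv.Perm α)).normalizerMonoidHom := by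
    intro φ
    set h0 := φ g0 with hh0
    have hoh0 : orderOf h0 = p := by rw [hh0, MulEquiv.orderOf_eq, hord0]
    have hoh : orderOf (h0 : Equiv.Perm α) = p := by rw [Subgroup.orderOf_coe, hoh0]
    have hconj : IsConj g (h0 : Equiv.Perm α) := by
      rw [Equiv.Perm.isConj_iff_cycleType_eq, cyc g hord, cyc _ hoh]
    obtain ⟨c, hc⟩ := isConj_iff.mp hconj
    have hcN : c ∈ Subgroup.normalizer ((P : Subgroup (Equiv.Perm α)) : Set (Equiv.Perm α)) := by
      rw [Subgroup.mem_normalizer_iff_map_conj_eq]
      rw [hPz g hgP hord, MonoidHom.map_zpowers]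
      have : ((MulAut.conj c : MulAut (Equiv.Perm α)) : Equiv.Perm α →* Equiv.Perm α) g = (h0 : Equiv.Perm α) := by simpa using hc
      rw [this, ← hPz g hgP hord]
      exact (hPz _ h0.2 hoh).symm
    refine ⟨⟨c, hcN⟩, ?_⟩
    ext y
    obtain ⟨k, hk⟩ := Subgroup.mem_zpowers_iff.mp (hg0 y)
    have e1 : (P : Subgroup (Equiv.Perm α)).normalizerMonoidHom ⟨c, hcN⟩ g0 = φ g0 := by
      apply Subtype.ext
      exact hc
    rw [← hk, map_zpow, map_zpow, e1]
  have h1 := Subgroup.card_mul_index (P : Subgroup (Equiv.Perm α)).normalizerMonoidHom.ker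
  rw [Subgroup.index_ker, MonoidHom.range_eq_top.mpr hsurj, Subgroup.card_top, IsCyclic.card_mulAut, hcardP,
    Nat.totient_prime hp, hker] at h1
  have h2 : Nat.card ((Subgroup.centralizer ((P : Subgroup (Equiv.Perm α)) : Set (Equiv.Perm α))).subgroupOf (Subgroup.normalizer ((P : Subgroup (Equiv.Perm α)) : Set (Equiv.Perm α)))) = p := by
    refine Eq.trans ?_ hcen
    rw [← hcenP]
    exact Nat.card_congr (Subgroup.subgroupOfEquivOfLe (Subgroup.centralizer_le_normalizer _)).toEquiv
  rw [h2] at h1
  exact h1.symm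

end Cfsg.Agent.S0989
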