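import Cfsg.Statements.S0990
-- import your own Cfsg.Agent.* helpers here
import Mathlib
import Cfsg.Agent.Lib.Helper12Card

set_option autoImplicit false
open Cfsg

namespace Cfsg.Agent.S0990

/-- Let p be an odd prime and P a Sylow p-subgroup of the symmetric group on a finite set with at least two elements. Then P is contained in the alternating group, and twice the order of the normalizer of P inside the alternating group equals the order of the normalizer of P in the symmetric group. -/
theorem result {α : Type*} [Fintype α] [DecidableEq α] (hα : 2 ≤ Fintype.card α) (p : ℕ) [Fact p.Prime] (hp : p ≠ 2) (P : Sylow p (Equiv.Perm α)) : (P : Subgroup (Equiv.Perm α)) ≤ alternatingGroup α ∧ 2 * Nat.card ↥(Subgroup.normalizer ((((P : Subgroup (Equiv.Perm α)).subgroupOf (alternatingGroup α) : Subgroup ↥(alternatingGroup α)) : Set ↥(alternatingGroup α)))) = Nat.card ↥(Subgroup.normalizer ((P : Subgroup (Equiv.Perm α)) : Set (Equiv.Perm α))) := by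
  classical
  haveI : Nontrivial α := Fintype.one_lt_card_iff_nontrivial.mp (by omega)
  have hle : (P : Subgroup (Equiv.Perm α)) ≤ alternatingGroup α := by
    intro x hx
    rw [Equiv.Perm.mem_alternatingGroup]
    obtain ⟨k, hk⟩ := P.isPGroup' ⟨x, hx⟩
    have hk' : x ^ (p ^ k) = 1 := by
      have := congrArg Subtype.val hk
      simpa using this
    have hs : (Equiv.Perm.sign x) ^ (p ^ k) = 1 := by
      rw [← map_pow, hk', map_one]
    rcases Int.units_eq_one_or (Equiv.Perm.sign x) with h | h
    · exact h
    · exfalso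
      rw [h] at hs
      have hodd : Odd (p ^ k) := by
        apply Odd.pow
        exact (Fact.out : p.Prime).odd_of_ne_two hp
      rw [hodd.neg_one_pow] at hs
      exact absurd hs (by decide)
  refine ⟨hle, ?_⟩
  have hF : Subgroup.normalizer ((P : Subgroup (Equiv.Perm α)) : Set (Equiv.Perm α)) ⊔ alternatingGroup α = ⊤ := Sylow.normalizer_sup_eq_top' P hle
  have h1 := Cfsg.Agent.Lib.Helper12Card.card_sup_mul_card_inf_of_normal
    (Subgroup.normalizer ((P : Subgroup (Equiv.Perm α)) : Set (Equiv.Perm α))) (alternatingGroup α)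
  rw [hF] at h1
  have h2 : 2 * Nat.card (alternatingGroup α) = Nat.card (Equiv.Perm α) :=
    two_mul_nat_card_alternatingGroup
  rw [← Subgroup.subgroupOf_normalizer_eq hle]
  have e : Nat.card ((Subgroup.normalizer ((P : Subgroup (Equiv.Perm α)) : Set (Equiv.Perm α))).subgroupOf (alternatingGroup α))
      = Nat.card (Subgroup.normalizer ((P : Subgroup (Equiv.Perm α)) : Set (Equiv.Perm α)) ⊓ alternatingGroup α : Subgroup _) := by
    exact Nat.card_congr (Subgroup.subgroupOfEquivOfLe (inf_le_right : Subgroup.normalizer ((P : Subgroup (Equiv.Perm α)) : Set (Equiv.Perm α)) ⊓ alternatingGroup α ≤ alternatingGroup α)).toEquiv |>.symm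
      |>.trans (by rw [Subgroup.inf_subgroupOf_right]) |>.symm
  rw [e]
  have h3 : Nat.card (⊤ : Subgroup (Equiv.Perm α)) = Nat.card (Equiv.Perm α) := Subgroup.card_top
  rw [h3, ← h2] at h1
  have hpos : 0 < Nat.card (alternatingGroup α) := Nat.card_pos
  nlinarith [h1, hpos, Nat.eq_of_mul_eq_mul_right hpos (by
    calc (2 * Nat.card (Subgroup.normalizer ((P : Subgroup (Equiv.Perm α)) : Set (Equiv.Perm α)) ⊓ alternatingGroup α : Subgroup _)) * Nat.card (alternatingGroup α)
        = 2 * Nat.card (alternatingGroup α) * Nat.card (Subgroup.normalizer ((P : Subgroup (Equiv.Perm α)) : Set (Equiv.Perm α)) ⊓ alternatingGroup α : Subgroup _) := by ring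
      _ = Nat.card (Subgroup.normalizer ((P : Subgroup (Equiv.Perm α)) : Set (Equiv.Perm α))) * Nat.card (alternatingGroup α) := h1)]

end Cfsg.Agent.S0990
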