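import Cfsg.Statements.S0995
import Cfsg.Agent.Lib.Helper21Action

set_option autoImplicit false
open Cfsg

namespace Cfsg.Agent.S0995

open Cfsg.Agent.Lib.Helper21Action Subgroup

theorem centralizer_le_of_mem_zpowers {G : Type*} [Group G] {w z : G} (h : w ∈ zpowers z) :
    centralizer ({z} : Set G) ≤ centralizer ({w} : Set G) := by
  obtain ⟨k, rfl⟩ := h
  intro x hx
  rw [mem_centralizer_singleton_iff] at hx ⊢
  exact (Commute.zpow_right (show Commute x z from hx) k)

theorem zpowers_eq_of_mem {G : Type*} [Group G] [Finite G] {p : ℕ} {w z : G}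
    (hz : orderOf z = p) (hw : orderOf w = p) (h : w ∈ zpowers z) : zpowers w = zpowers z :=
  eq_of_le_of_card_ge (zpowers_le.mpr h) (by rw [Nat.card_zpowers, Nat.card_zpowers, hz, hw])

theorem exists_conj_mem {G : Type*} [Group G] [Finite G] {p : ℕ} [Fact p.Prime] (P : Sylow p G)
    (s : G) (hs : orderOf s = p) : ∃ g : G, g * s * g⁻¹ ∈ (P : Subgroup G) := by
  have hp : IsPGroup p (Subgroup.zpowers s) := by
    apply IsPGroup.of_card (n := 1)
    rw [Nat.card_zpowers, hs, pow_one]
  obtain ⟨Q, hQ⟩ := hp.exists_le_sylow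
  obtain ⟨g, hg⟩ := MulAction.exists_smul_eq G Q P
  refine ⟨g, ?_⟩
  rw [← hg]
  have hsQ : s ∈ (Q : Subgroup G) := hQ (Subgroup.mem_zpowers s)
  rw [Sylow.coe_subgroup_smul, Subgroup.mem_pointwise_smul_iff_inv_smul_mem]
  simpa [MulAut.smul_def, mul_assoc] using hsQ

section
variable {G : Type*} [Group G] [Finite G] {p : ℕ} [Fact p.Prime] {z : G}
  (hz : orderOf z = p) (hC : centralizer ({z} : Set G) = zpowers z)
include hz hC

theorem sylow_eq_zpowers (P : Sylow p G) (hzP : zpowers z ≤ P) :
    (P : Subgroup G) = zpowers z := by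
  have hp : p.Prime := Fact.out
  have hz1 : z ≠ 1 := by
    rintro rfl
    rw [orderOf_one] at hz
    exact hp.one_lt.ne hz
  have hzmem : z ∈ (P : Subgroup G) := hzP (mem_zpowers z)
  have hnt : Nontrivial (P : Subgroup G) :=
    ⟨⟨⟨z, hzmem⟩, 1, fun h => hz1 (congrArg Subtype.val h)⟩⟩
  have hcn : Nontrivial (center (P : Subgroup G)) := P.2.center_nontrivial
  obtain ⟨c, hc⟩ := exists_ne (1 : center (P : Subgroup G))
  have hc1 : ((c : (P : Subgroup G)) : G) ≠ 1 := by
    intro h
    apply hc
    apply Subtype.ext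
    apply Subtype.ext
    exact h
  have hcomm : ∀ x : (P : Subgroup G), (x : G) * ((c : (P : Subgroup G)) : G) =
      ((c : (P : Subgroup G)) : G) * x := by
    intro x
    have := mem_center_iff.mp c.2 x
    exact congrArg Subtype.val this
  have hcz : ((c : (P : Subgroup G)) : G) ∈ zpowers z := by
    rw [← hC, mem_centralizer_singleton_iff]
    exact (hcomm ⟨z, hzmem⟩).symm
  have hco : orderOf ((c : (P : Subgroup G)) : G) = p := by
    have h1 : orderOf ((c : (P : Subgroup G)) : G) ∣ p :=
      (orderOf_dvd_of_mem_zpowers hcz).trans (dvd_of_eq hz)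
    rcases (Nat.dvd_prime hp).mp h1 with h | h
    · exact absurd (orderOf_eq_one_iff.mp h) hc1
    · exact h
  have hzc : z ∈ zpowers ((c : (P : Subgroup G)) : G) := by
    rw [zpowers_eq_of_mem hz hco hcz]
    exact mem_zpowers z
  apply le_antisymm _ hzP
  intro x hx
  rw [← hC]
  apply centralizer_le_of_mem_zpowers hzc
  rw [mem_centralizer_singleton_iff]
  exact hcomm ⟨x, hx⟩

theorem card_centralizer_eq (g : G) (hg : orderOf g = p) :
    Nat.card (centralizer ({g} : Set G)) = p := by
  have hpz : IsPGroup p (zpowers z) := by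
    apply IsPGroup.of_card (n := 1)
    rw [Nat.card_zpowers, hz, pow_one]
  obtain ⟨P, hP⟩ := hpz.exists_le_sylow
  have hPz := sylow_eq_zpowers hz hC P hP
  obtain ⟨c, hc⟩ := exists_conj_mem P g hg
  rw [hPz] at hc
  have ho : orderOf (c * g * c⁻¹) = p := by
    rw [← hg]; exact (MulAut.conj c).orderOf_eq g
  have h1 := zpowers_eq_of_mem hz ho hc
  have h2 : centralizer ({c * g * c⁻¹} : Set G) = centralizer ({z} : Set G) :=
    le_antisymm (centralizer_le_of_mem_zpowers (h1 ▸ mem_zpowers z))
      (centralizer_le_of_mem_zpowers hc)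
  rw [← card_centralizer_conj c g, h2, hC, Nat.card_zpowers, hz]

end

/-- Let G be a finite perfect group containing an element z of prime order p whose centralizer is the cyclic group it generates. Let t be the number of conjugacy classes of elements of order p. Then t divides p - 1, the number of Sylow p-subgroups has the form 1 + n * p, and |G| * t = (p - 1) * p * (1 + n * p). -/
theorem result {G : Type*} [Group G] [Finite G] (hperf : commutator G = ⊤) (p : ℕ) [Fact p.Prime] (z : G) (hz : orderOf z = p) (hC : Subgroup.centralizer ({z} : Set G) = Subgroup.zpowers z) : ∃ n t : ℕ, t = Nat.card {c : ConjClasses G // ∃ g : G, ConjClasses.mk g = c ∧ orderOf g = p} ∧ t ∣ p - 1 ∧ Nat.card (Sylow p G) = 1 + n * p ∧ Nat.card G * t = (p - 1) * p * (1 + n * p) := by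
  classical
  have hp : p.Prime := Fact.out
  have hpz : IsPGroup p (zpowers z) := by
    apply IsPGroup.of_card (n := 1)
    rw [Nat.card_zpowers, hz, pow_one]
  obtain ⟨P, hP⟩ := hpz.exists_le_sylow
  have hPz := sylow_eq_zpowers hz hC P hP
  have hPcard : Nat.card (P : Subgroup G) = p := by rw [hPz, Nat.card_zpowers, hz]
  have hcardQ : ∀ Q : Sylow p G, Nat.card (Q : Subgroup G) = p := by
    intro Q
    rw [Q.card_eq_multiplicity, ← P.card_eq_multiplicity, hPcard]
  have hfact : p ^ (Nat.card G).factorization p = p := by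
    rw [← P.card_eq_multiplicity, hPcard]
  -- the set of elements of order p
  let X := {g : G // orderOf g = p}
  let Y := {c : ConjClasses G // ∃ g : G, ConjClasses.mk g = c ∧ orderOf g = p}
  obtain ⟨c, hc⟩ : p ∣ Nat.card G :=
    (dvd_of_eq hPcard.symm).trans (card_subgroup_dvd_card (P : Subgroup G))
  -- first count
  have count1 : Nat.card X = Nat.card Y * c := by
    let f : X → Y := fun x => ⟨ConjClasses.mk x.1, x.1, rfl, x.2⟩
    apply card_eq_mul_of_fibers f
    rintro ⟨_, g0, rfl, hg0⟩
    have h1 := card_conj_mul_card_centralizer g0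
    rw [card_centralizer_eq hz hC g0 hg0, hc, mul_comm] at h1
    have h2 : Nat.card {x : G // IsConj g0 x} = c := Nat.eq_of_mul_eq_mul_left hp.pos h1
    rw [← h2]
    refine Nat.card_congr ⟨fun x => ⟨x.1.1, ?_⟩, fun g => ⟨⟨g.1, ?_⟩, ?_⟩, ?_, ?_⟩
    · have := congrArg Subtype.val x.2
      exact (ConjClasses.mk_eq_mk_iff_isConj.mp this).symm
    · obtain ⟨d, hd⟩ := isConj_iff.mp g.2
      rw [← hd, ← hg0]
      exact (MulAut.conj d).orderOf_eq g0
    · apply Subtype.ext
      exact ConjClasses.mk_eq_mk_iff_isConj.mpr g.2.symm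
    · intro x; rfl
    · intro g; rfl
  -- second count
  have count2 : Nat.card X = Nat.card (Sylow p G) * (p - 1) := by
    let f : X → Sylow p G := fun x => Sylow.ofCard (zpowers x.1)
      (by rw [Nat.card_zpowers, x.2, hfact])
    apply card_eq_mul_of_fibers f
    intro Q
    have hQ1 : Nat.card {g : (Q : Subgroup G) // g ≠ 1} = p - 1 := by
      rw [card_ne_one, hcardQ Q]
    refine Eq.trans ?_ hQ1
    refine Nat.card_congr ⟨fun x => ⟨⟨x.1.1, ?_⟩, ?_⟩, fun g => ⟨⟨g.1.1, ?_⟩, ?_⟩, ?_, ?_⟩
    · have h1 : (f x.1 : Subgroup G) = Q := congrArg _ x.2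
      rw [← h1]
      exact mem_zpowers x.1.1
    · intro h
      have h1 : x.1.1 = 1 := congrArg Subtype.val h
      have h2 := x.1.2
      rw [h1, orderOf_one] at h2
      exact hp.one_lt.ne h2
    · have h1 : orderOf g.1 ∣ p := (orderOf_dvd_natCard g.1).trans (dvd_of_eq (hcardQ Q))
      rw [Subgroup.orderOf_coe]
      rcases (Nat.dvd_prime hp).mp h1 with h | h
      · exact absurd (orderOf_eq_one_iff.mp h) g.2
      · exact h
    · apply Sylow.ext
      show zpowers (g.1.1 : G) = Q
      apply eq_of_le_of_card_ge (zpowers_le.mpr g.1.2)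
      rw [hcardQ Q, Nat.card_zpowers]
      have h1 : orderOf g.1 ∣ p := (orderOf_dvd_natCard g.1).trans (dvd_of_eq (hcardQ Q))
      rw [Subgroup.orderOf_coe]
      rcases (Nat.dvd_prime hp).mp h1 with h | h
      · exact absurd (orderOf_eq_one_iff.mp h) g.2
      · exact h.ge
    · intro x; rfl
    · intro g; rfl
  -- the normalizer
  have hN : Nat.card (normalizer ((P : Subgroup G) : Set G)) * Nat.card (Sylow p G)
      = Nat.card G := by
    rw [P.card_eq_index_normalizer]
    exact Subgroup.card_mul_index _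
  obtain ⟨e, he⟩ : p ∣ Nat.card (normalizer ((P : Subgroup G) : Set G)) :=
    (dvd_of_eq hPcard.symm).trans (card_dvd_of_le le_normalizer)
  have hmod : Nat.card (Sylow p G) ≡ 1 [MOD p] := card_sylow_modEq_one p G
  have hpos : 0 < Nat.card (Sylow p G) := Nat.card_pos
  obtain ⟨n, hn⟩ : p ∣ Nat.card (Sylow p G) - 1 :=
    (Nat.modEq_iff_dvd' hpos).mp hmod.symm
  have hn' : Nat.card (Sylow p G) = 1 + n * p := by
    rw [mul_comm]; omega
  have hce : c = e * Nat.card (Sylow p G) := by
    rw [he, hc, mul_assoc] at hN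
    exact (Nat.eq_of_mul_eq_mul_left hp.pos hN).symm
  have hte : Nat.card Y * e = p - 1 := by
    have h1 : Nat.card Y * c = Nat.card (Sylow p G) * (p - 1) := count1.symm.trans count2
    rw [hce] at h1
    have h2 : Nat.card (Sylow p G) * (Nat.card Y * e) = Nat.card (Sylow p G) * (p - 1) := by
      rw [← h1]; ring
    exact Nat.eq_of_mul_eq_mul_left hpos h2
  refine ⟨n, Nat.card Y, rfl, Dvd.intro _ hte, hn', ?_⟩
  rw [← hn', ← hte, hc, hce]
  ring

end Cfsg.Agent.S0995
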