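import Cfsg.Statements.S1002
import Mathlib
import Cfsg.Agent.Lib.Helper5Exc

set_option autoImplicit false
open Cfsg

namespace Cfsg.Agent.S1002

/-- No finite simple group has order 1004913 = 3^3 * 7 * 13 * 409. -/
theorem result {G : Type*} [Group G] [Finite G] [IsSimpleGroup G] : Nat.card G ≠ 1004913 := by
  intro h
  classical
  let _ : Fintype G := Fintype.ofFinite G
  have hG : ¬ IsMulCommutative G :=
    Cfsg.Agent.Lib.Helper21Simple.not_comm_of_not_prime (by rw [h]; norm_num)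
  have : Fact (Nat.Prime 409) := ⟨by norm_num⟩
  obtain ⟨P⟩ : Nonempty (Sylow 409 G) := inferInstance
  obtain ⟨hP, n, m, hn1, hn2, hm1, hm2, hmn, -, hm⟩ :=
    Cfsg.Agent.Lib.Helper5Exc.sylow_setup hG 2457 (by rw [h]) (by norm_num) P
  have hm' : m = 3 := by
    have key : ∀ k ∈ Nat.divisors 2457, ∀ n ∈ Nat.divisors k, n % 409 = 1 → n ≠ 1 →
        ∀ m ∈ Nat.divisors 408, m ≠ 1 → m * n = k → m = 3 := by decide +kernel
    exact key (m * n) (Nat.mem_divisors.mpr ⟨hmn, by norm_num⟩) n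
      (Nat.mem_divisors.mpr ⟨dvd_mul_left _ _, fun h0 => by rw [h0] at hmn; omega⟩) hn1 hn2 m
      (Nat.mem_divisors.mpr ⟨hm2, by norm_num⟩) hm1 rfl
  subst hm'
  obtain ⟨x, y, f, s, t, δ, hs, ht, hδ, hx, hy, hf, hx1, hy1, hxs, hyt, -, heq⟩ :=
    Cfsg.Agent.Lib.Helper5Exc.deg_eq_three hG P hP hm (by norm_num)
  rw [h] at hx hy hf
  have red : ∀ (x : ℕ) (s : ℤ), (s = 1 ∨ s = -1) → x ∣ 1004913 → (x : ℤ) ≡ s [ZMOD (409 : ℕ)] →
      x ∣ 2457 := by
    intro x s hs hx hxs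
    have hc : Nat.Coprime x 409 := by
      apply Nat.Coprime.symm
      rw [Nat.Prime.coprime_iff_not_dvd (by norm_num)]
      intro hd
      obtain ⟨c, rfl⟩ := hd
      unfold Int.ModEq at hxs
      rcases hs with rfl | rfl <;> push_cast at hxs <;> omega
    exact hc.dvd_of_dvd_mul_left (by norm_num; exact hx)
  have hx' := red x s hs hx hxs
  have hy' := red y t ht hy hyt
  have key : ∀ x ∈ Nat.divisors 2457, x ≠ 1 → ∀ s ∈ ({1, -1} : Finset ℤ),
      ((x : ℤ) - s) % 409 = 0 → ∀ y ∈ Nat.divisors 2457, y ≠ 1 → ∀ t ∈ ({1, -1} : Finset ℤ),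
      ((y : ℤ) - t) % 409 = 0 → ¬ ((1 + s * x + t * y).natAbs ∣ 1004913) := by decide +kernel
  apply key x (Nat.mem_divisors.mpr ⟨hx', by norm_num⟩) hx1 s (by
    rcases hs with rfl | rfl <;> simp) (Int.emod_eq_zero_of_dvd (Int.ModEq.dvd hxs.symm))
    y (Nat.mem_divisors.mpr ⟨hy', by norm_num⟩) hy1 t (by
    rcases ht with rfl | rfl <;> simp) (Int.emod_eq_zero_of_dvd (Int.ModEq.dvd hyt.symm))
  rw [heq]
  rcases hδ with rfl | rfl <;> simpa using hf

end Cfsg.Agent.S1002
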