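import Cfsg.Statements.S1009
import Cfsg.Agent.Lib.Helper2Sylow
import Cfsg.Agent.Lib.Helper2Conj
import Mathlib.Data.Fintype.Lattice

set_option autoImplicit false
open Pointwise
open Cfsg

namespace Cfsg.Agent.S1009

open Cfsg.Agent.Lib.Helper2Conj Cfsg.Agent.Lib.Helper2Sylow

/-- Brodkey's Theorem: if a finite group has abelian Sylow p-subgroups, then there are two Sylow p-subgroups whose intersection equals the intersection of all Sylow p-subgroups. -/
theorem result {G : Type*} [Group G] [Finite G] (p : ℕ) [Fact p.Prime] (hab : ∀ P : Sylow p G, IsMulCommutative ↥(P : Subgroup G)) : ∃ P Q : Sylow p G, (P : Subgroup G) ⊓ (Q : Subgroup G) = ⨅ R : Sylow p G, (R : Subgroup G) := by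
  obtain ⟨S⟩ : Nonempty (Sylow p G) := inferInstance
  have hSc : IsMulCommutative (S : Subgroup G) := hab S
  obtain ⟨g, hg⟩ := Finite.exists_min
    (fun g : G => Nat.card ((S : Subgroup G) ⊓ MulAut.conj g • (S : Subgroup G) : Subgroup G))
  refine ⟨S, g • S, ?_⟩
  have hgS : ((g • S : Sylow p G) : Subgroup G) = MulAut.conj g • (S : Subgroup G) := rfl
  rw [hgS]
  set T : Subgroup G := MulAut.conj g • (S : Subgroup G) with hT
  set D : Subgroup G := (S : Subgroup G) ⊓ T with hD
  have hTc : IsMulCommutative T := isMulCommutative_conj_smul _ g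
  have hSN : (S : Subgroup G) ≤ Subgroup.normalizer (D : Set G) := by
    rw [Subgroup.le_normalizer_iff]
    intro h hh k hk
    rw [setLike_mul_comm hh hk.1, mul_inv_cancel_right]
    exact hk
  have hTN : T ≤ Subgroup.normalizer (D : Set G) := by
    rw [Subgroup.le_normalizer_iff]
    intro h hh k hk
    rw [setLike_mul_comm hh hk.2, mul_inv_cancel_right]
    exact hk
  have claim : ∀ b : G, D ≤ MulAut.conj b • (S : Subgroup G) := by
    intro b
    set P : Subgroup G := MulAut.conj b • (S : Subgroup G) with hP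
    have hPp : IsPGroup p P := (b • S).2
    obtain ⟨x, hxN, hx⟩ := exists_conj_le_of_le (S := S) (N := Subgroup.normalizer (D : Set G))
      (Q := P ⊓ Subgroup.normalizer (D : Set G)) hSN (hPp.to_le inf_le_left) inf_le_right
    have hle : MulAut.conj x • P ⊓ T ≤ D := by
      rintro z ⟨hz1, hz2⟩
      refine ⟨?_, hz2⟩
      have h1 : x⁻¹ * z * x ∈ P := mem_conj_smul.1 hz1
      have h2 : x⁻¹ * z * x ∈ Subgroup.normalizer (D : Set G) :=
        mul_mem (mul_mem (inv_mem hxN) (hTN hz2)) hxN
      have h3 := hx _ ⟨h1, h2⟩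
      simpa [mul_assoc] using h3
    have hcard : Nat.card D ≤ Nat.card (MulAut.conj x • P ⊓ T : Subgroup G) := by
      have h1 : MulAut.conj x • P ⊓ T
          = MulAut.conj g • ((S : Subgroup G) ⊓ MulAut.conj (g⁻¹ * (x * b)) • (S : Subgroup G)) := by
        rw [Subgroup.smul_inf, conj_smul_smul, conj_smul_smul, inf_comm, mul_inv_cancel_left]
      rw [h1, card_conj_smul]
      exact hg _
    have heq : MulAut.conj x • P ⊓ T = D := Subgroup.eq_of_le_of_card_ge hle hcard
    intro d hd
    have h1 : x * d * x⁻¹ ∈ D := (Subgroup.mem_normalizer_iff.1 hxN d).1 hd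
    rw [← heq] at h1
    have h2 := mem_conj_smul.1 h1.1
    simpa [mul_assoc] using h2
  apply le_antisymm
  · rw [le_iInf_iff]
    intro R
    obtain ⟨b, rfl⟩ := MulAction.exists_smul_eq G S R
    exact claim b
  · exact le_inf (iInf_le _ S) (iInf_le _ (g • S))

end Cfsg.Agent.S1009
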