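import Cfsg.Statements.S1013
import Cfsg.Agent.Lib.Helper10Simple

set_option autoImplicit false
open Cfsg

namespace Cfsg.Agent.S1013

open MulAction Subgroup Cfsg.Agent.Lib.Helper10Simple

theorem simple_of_sylow {G α : Type*} [Group G] [MulAction G α] [Finite α] [Finite G]
    (p r : ℕ) [hp : Fact p.Prime] (hα : Nat.card α = p)
    [IsPretransitive G α] (hfaith : ∀ g : G, (∀ y : α, g • y = y) → g = 1)
    (P : Sylow p G) (hPcard : Nat.card (P : Subgroup G) = p) (hr : r.Prime)
    (hr5 : (P : Subgroup G).relIndex (normalizer ((P : Subgroup G) : Set G)) = r)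
    (hi1 : (normalizer ((P : Subgroup G) : Set G)).index ≠ 1) : IsSimpleGroup G := by
  classical
  have hp0 : 0 < p := hp.out.pos
  have hne : Nonempty α := (Nat.card_pos_iff.mp (by omega)).1
  have hprimG : IsPreprimitive G α := IsPreprimitive.of_prime_card (hα ▸ hp.out)
  have hnt : Nontrivial G := by
    by_contra hcon
    rw [not_nontrivial_iff_subsingleton] at hcon
    apply hi1
    rw [Subgroup.index_eq_one]
    exact Subsingleton.elim _ _
  refine ⟨fun N hN => ?_⟩
  by_contra hcon
  rw [not_or] at hcon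
  obtain ⟨hNbot, hNtop⟩ := hcon
  have hNtr : IsPretransitive N α := pretransitive_of_normal hfaith N hNbot
  have hpN : p ∣ Nat.card N := hα ▸ card_dvd_of_pretransitive' (α := α) N
  obtain ⟨n, hn⟩ := exists_prime_orderOf_dvd_card' p hpN
  have hQcard : Nat.card (zpowers (n : G)) = p := by
    rw [Nat.card_zpowers, Subgroup.orderOf_coe, hn]
  have hPcyc : IsCyclic (P : Subgroup G) := isCyclic_of_prime_card hPcard
  have hPN : (P : Subgroup G) ≤ N := by
    obtain ⟨Q, hQ⟩ := (IsPGroup.of_card (n := 1) (by rw [hQcard, pow_one]) :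
      IsPGroup p (zpowers (n : G))).exists_le_sylow
    obtain ⟨g, hg⟩ := MulAction.exists_smul_eq G Q P
    have hQc : Nat.card (Q : Subgroup G) = p := (Nat.card_congr (Sylow.equiv Q P).toEquiv).trans hPcard
    have hQe : zpowers (n : G) = (Q : Subgroup G) :=
      Subgroup.eq_of_le_of_card_ge hQ (by rw [hQcard, hQc])
    have hQN : (Q : Subgroup G) ≤ N := by
      rw [← hQe, zpowers_le]; exact n.2
    rw [← hg, Sylow.coe_subgroup_smul]
    intro x hx
    rw [Subgroup.mem_pointwise_smul_iff_inv_smul_mem] at hx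
    have h1 := hQN hx
    have h2 := hN.conj_mem _ h1 g
    simpa [MulAut.conj_apply, MulAut.smul_def, mul_assoc] using h2
  obtain ⟨z, hz⟩ := hPcyc.exists_generator
  have hPcomm : ∀ x ∈ (P : Subgroup G), ∀ y ∈ (P : Subgroup G), x * y = y * x := by
    intro x hx y hy
    obtain ⟨i, hi⟩ := mem_zpowers_iff.mp (hz ⟨x, hx⟩)
    obtain ⟨j, hj⟩ := mem_zpowers_iff.mp (hz ⟨y, hy⟩)
    have : (⟨x, hx⟩ : (P : Subgroup G)) * ⟨y, hy⟩ = ⟨y, hy⟩ * ⟨x, hx⟩ := by
      rw [← hi, ← hj, ← zpow_add, ← zpow_add, add_comm]
    exact congrArg Subtype.val this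
  have hPR : (P : Subgroup G) ≤ N ⊓ normalizer ((P : Subgroup G) : Set G) :=
    le_inf hPN le_normalizer
  have hmul2 := relIndex_mul_relIndex (P : Subgroup G) (N ⊓ normalizer ((P : Subgroup G) : Set G))
    (normalizer ((P : Subgroup G) : Set G)) hPR inf_le_right
  rw [hr5] at hmul2
  have hfrat : normalizer ((P : Subgroup G) : Set G) ⊔ N = ⊤ := Sylow.normalizer_sup_eq_top' P hPN
  rcases (Nat.dvd_prime hr).mp ⟨_, hmul2.symm⟩ with h1 | h1
  · rw [relIndex_eq_one] at h1
    let P' : Sylow p N := P.subtype hPN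
    have hP'coe : (P' : Subgroup N) = (P : Subgroup G).subgroupOf N := Sylow.coe_subtype P hPN
    have hP' : normalizer ((P' : Subgroup N) : Set N) ≤ centralizer ((P' : Subgroup N) : Set N) := by
      rw [hP'coe, ← subgroupOf_normalizer_eq hPN]
      intro m hm
      rw [mem_subgroupOf] at hm
      have hmP : (m : G) ∈ (P : Subgroup G) := h1 ⟨m.2, hm⟩
      rw [mem_centralizer_iff]
      intro y hy
      apply Subtype.ext
      exact hPcomm y (mem_subgroupOf.mp hy) m hmP
    have hK1 := MonoidHom.not_dvd_card_ker_transferSylow P' hP'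
    have hK2 := (MonoidHom.ker_transferSylow_isComplement' P' hP').card_mul_card
    set K := (MonoidHom.transferSylow P' hP').ker with hK
    have hprim : IsPreprimitive N α := IsPreprimitive.of_prime_card (hα ▸ hp.out)
    have hKfix : fixedPoints K α = Set.univ := by
      by_contra hcon
      have : IsPretransitive K α := IsQuasiPreprimitive.isPretransitive_of_normal (G := N) hcon
      exact hK1 (hα ▸ card_dvd_of_pretransitive' (α := α) K)
    have hKbot : K = ⊥ := by
      rw [eq_bot_iff]
      intro m hm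
      rw [Subgroup.mem_bot]
      apply Subtype.ext
      apply hfaith
      intro y
      have : y ∈ fixedPoints K α := by rw [hKfix]; trivial
      exact this ⟨m, hm⟩
    rw [hKbot, Subgroup.card_bot, one_mul] at hK2
    have hP'card : Nat.card (P' : Subgroup N) = p := by
      rw [hP'coe]
      exact (Nat.card_congr (subgroupOfEquivOfLe hPN).toEquiv).trans hPcard
    have hNP : (P : Subgroup G) = N := by
      apply Subgroup.eq_of_le_of_card_ge hPN
      rw [hPcard, ← hK2, hP'card]
    have : (P : Subgroup G).Normal := hNP ▸ hN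
    apply hi1
    rw [normalizer_eq_top, index_top]
  · rw [h1] at hmul2
    have h2 : (N ⊓ normalizer ((P : Subgroup G) : Set G)).relIndex
        (normalizer ((P : Subgroup G) : Set G)) = 1 := by
      have hr0 : 0 < r := hr.pos
      exact Nat.eq_of_mul_eq_mul_left hr0 (by rw [hmul2, mul_one])
    rw [relIndex_eq_one] at h2
    apply hNtop
    rw [← hfrat]
    exact (sup_eq_right.mpr (h2.trans inf_le_left)).symm

/-- Let G be a transitive permutation group of prime degree p having more than one Sylow p-subgroup, and suppose a Sylow p-subgroup P has prime index in its normalizer. Then G is simple. -/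
theorem result {α : Type*} [Fintype α] [DecidableEq α] {p : ℕ} [Fact p.Prime] (hα : Fintype.card α = p) (G : Subgroup (Equiv.Perm α)) [MulAction.IsPretransitive ↥G α] (P : Sylow p ↥G) (hn : 1 < Nat.card (Sylow p ↥G)) (ht : (((P : Subgroup ↥G).subgroupOf (Subgroup.normalizer ((P : Subgroup ↥G) : Set ↥G))).index).Prime) : IsSimpleGroup ↥G := by
  have hp : p.Prime := Fact.out
  have hα' : Nat.card α = p := by rw [Nat.card_eq_fintype_card, hα]
  have hne : Nonempty α := (Nat.card_pos_iff.mp (by rw [hα']; exact hp.pos)).1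
  have hpG : p ∣ Nat.card G := hα' ▸ card_dvd_of_pretransitive' (α := α) G
  have hGd : Nat.card G ∣ p.factorial := by
    have := Subgroup.card_subgroup_dvd_card G
    rwa [Nat.card_eq_fintype_card (α := Equiv.Perm α), Fintype.card_perm, hα] at this
  have hPcard : Nat.card (P : Subgroup G) = p := by
    obtain ⟨k, hk⟩ := (IsPGroup.iff_card).mp P.isPGroup'
    have h1 : p ∣ Nat.card (P : Subgroup G) := P.dvd_card_of_dvd_card hpG
    have h2 : Nat.card (P : Subgroup G) ∣ p.factorial :=
      (Subgroup.card_subgroup_dvd_card _).trans hGd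
    rw [hk] at h1 h2 ⊢
    rcases k with _ | _ | k
    · rw [pow_zero] at h1
      exact absurd (Nat.dvd_one.mp h1) hp.one_lt.ne'
    · simp
    · exfalso
      have h3 : p * p ∣ p.factorial := by
        refine dvd_trans ?_ h2
        exact ⟨p ^ k, by ring⟩
      obtain ⟨m, rfl⟩ : ∃ m, p = m + 1 := ⟨p - 1, by have := hp.pos; omega⟩
      rw [Nat.factorial_succ] at h3
      have h4 := Nat.dvd_of_mul_dvd_mul_left (Nat.succ_pos m) h3
      have h5 := (hp.dvd_factorial).mp h4
      omega
  refine simple_of_sylow (α := α) p _ hα' ?_ P hPcard ht rfl ?_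
  · intro g hg
    apply Subtype.ext
    apply Equiv.ext
    intro y
    exact hg y
  · have h0 : Nat.card (Sylow p G) = (normalizer ((P : Subgroup G) : Set G)).index :=
      P.card_eq_index_normalizer
    rw [← h0]
    exact hn.ne'

end Cfsg.Agent.S1013
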