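import Cfsg.Statements.S1015
import Mathlib
import Cfsg.Agent.S0985
import Cfsg.Agent.Lib.Helper21Simple

set_option autoImplicit false
open Cfsg

namespace Cfsg.Agent.S1015

theorem n5_aux : ∀ n : ℕ, n ≤ 48 → n % 5 = 1 → 48 % n = 0 → 10 ≤ n → n = 16 := by decide

theorem rel_aux : ∀ r : ℕ, r ≤ 5 → ∀ d : ℕ, d ≤ 25 → r * d = 25 → r ≠ 1 → r = 5 ∧ d = 5 := by decide

/-- No finite simple group has order 1200 = 2^4 * 3 * 5^2. -/
theorem result {G : Type*} [Group G] [Finite G] [IsSimpleGroup G] : Nat.card G ≠ 1200 := by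
  intro h
  classical
  have : Fact (Nat.Prime 5) := ⟨by norm_num⟩
  have hnc : ¬ IsMulCommutative G :=
    Cfsg.Agent.Lib.Helper21Simple.not_comm_of_not_prime (by rw [h]; norm_num)
  -- every proper subgroup has index at least 10
  have key : ∀ H : Subgroup G, H ≠ ⊤ → 10 ≤ H.index := by
    intro H hH
    have h1 := Cfsg.Agent.Lib.Helper21Simple.two_mul_card_dvd_factorial hnc H hH
    rw [h] at h1
    by_contra hlt
    have h2 : (H.index).factorial ∣ (9 : ℕ).factorial := Nat.factorial_dvd_factorial (by omega)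
    have h3 : 2 * 1200 ∣ (9 : ℕ).factorial := h1.trans h2
    revert h3
    decide
  have hnorm : ∀ D : Subgroup G, D ≠ ⊥ → D ≠ ⊤ → Subgroup.normalizer (D : Set G) ≠ ⊤ := by
    intro D h1 h2 h3
    have hn : D.Normal := Subgroup.normalizer_eq_top_iff.mp h3
    rcases hn.eq_bot_or_eq_top with h4 | h4
    · exact h1 h4
    · exact h2 h4
  have hcardP : ∀ P : Sylow 5 G, Nat.card (P : Subgroup G) = 25 := by
    intro P
    have := (Cfsg.Agent.Lib.Helper21Simple.sylow_card_index (p := 5) (a := 2) (m := 48)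
      (by rw [h]; norm_num) (by norm_num) P).1
    simpa using this
  have hne_top : ∀ D : Subgroup G, Nat.card D ≤ 25 → D ≠ ⊤ := by
    intro D hD hT
    rw [hT, Subgroup.card_top, h] at hD
    omega
  have hne_bot : ∀ D : Subgroup G, 2 ≤ Nat.card D → D ≠ ⊥ := by
    intro D hD hT
    rw [hT, Subgroup.card_bot] at hD
    omega
  -- the number of Sylow 5-subgroups is 16
  obtain ⟨P0⟩ : Nonempty (Sylow 5 G) := inferInstance
  have hn5 : Nat.card (Sylow 5 G) = 16 := by
    have h1 : Nat.card (Sylow 5 G) ≡ 1 [MOD 5] := card_sylow_modEq_one 5 G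
    have h2 : Nat.card (Sylow 5 G) ∣ (P0 : Subgroup G).index := P0.card_dvd_index
    have h3 : (P0 : Subgroup G).index = 48 :=
      (Cfsg.Agent.Lib.Helper21Simple.sylow_card_index (p := 5) (a := 2) (m := 48)
        (by rw [h]; norm_num) (by norm_num) P0).2
    rw [h3] at h2
    have h4 : 10 ≤ Nat.card (Sylow 5 G) := by
      rw [P0.card_eq_index_normalizer]
      exact key _ (hnorm _ (hne_bot _ (by rw [hcardP]; norm_num)) (hne_top _ (by rw [hcardP])))
    have h5 : Nat.card (Sylow 5 G) ≤ 48 := Nat.le_of_dvd (by norm_num) h2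
    exact n5_aux _ h5 h1 (Nat.mod_eq_zero_of_dvd h2) h4
  have hcr : ∀ H K : Subgroup G, H ≤ K → Nat.card H * H.relIndex K = Nat.card K := by
    intro H K hHK
    have := Subgroup.relIndex_mul_relIndex ⊥ H K bot_le hHK
    rwa [Subgroup.relIndex_bot_left, Subgroup.relIndex_bot_left] at this
  obtain ⟨P, R, hPR, hidx⟩ := Cfsg.Agent.S0985.result (G := G) 5 2 (by
    rw [hn5]; decide)
  have hidx' : (R : Subgroup G).relIndex (P : Subgroup G) ≤ 5 := by simpa [Subgroup.relIndex] using hidx
  set D : Subgroup G := (R : Subgroup G) ⊓ (P : Subgroup G) with hD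
  have hrel : (R : Subgroup G).relIndex (P : Subgroup G) * Nat.card D = 25 := by
    have h1 := hcr D (P : Subgroup G) inf_le_right
    rw [hD, Subgroup.inf_relIndex_right, hcardP, ← hD] at h1
    rw [mul_comm]; exact h1
  have hrel1 : (R : Subgroup G).relIndex (P : Subgroup G) ≠ 1 := by
    intro h1
    have h2 : (P : Subgroup G) ≤ (R : Subgroup G) := Subgroup.relIndex_eq_one.mp h1
    apply hPR
    apply Sylow.ext
    exact Subgroup.eq_of_le_of_card_ge h2 (by rw [hcardP, hcardP])
  have hrel5 : (R : Subgroup G).relIndex (P : Subgroup G) = 5 ∧ Nat.card D = 5 := by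
    refine rel_aux _ hidx' _ ?_ hrel hrel1
    have h1 : Nat.card D ∣ 25 := Dvd.intro_left _ hrel
    exact Nat.le_of_dvd (by norm_num) h1
  -- P and R are commutative, hence normalize D
  have hcomm : ∀ Q : Sylow 5 G, ∀ a ∈ (Q : Subgroup G), ∀ b ∈ (Q : Subgroup G), a * b = b * a := by
    intro Q a ha b hb
    have h1 : IsMulCommutative (Q : Subgroup G) :=
      IsPGroup.isMulCommutative_of_card_eq_prime_sq (p := 5) (by rw [hcardP]; norm_num)
    have := h1.is_comm.comm ⟨a, ha⟩ ⟨b, hb⟩
    exact congrArg Subtype.val this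
  have hle : ∀ Q : Sylow 5 G, D ≤ (Q : Subgroup G) →
      (Q : Subgroup G) ≤ Subgroup.normalizer (D : Set G) := by
    intro Q hDQ g hg
    rw [Subgroup.mem_normalizer_iff]
    intro x
    constructor
    · intro hx
      have : g * x * g⁻¹ = x := by
        rw [hcomm Q g hg x (hDQ hx)]; group
      rw [this]; exact hx
    · intro hx
      have h1 : g * x * g⁻¹ ∈ (Q : Subgroup G) := hDQ hx
      have h2 : x ∈ (Q : Subgroup G) := by
        have := (Q : Subgroup G).mul_mem ((Q : Subgroup G).mul_mem ((Q : Subgroup G).inv_mem hg) h1) hg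
        simpa [mul_assoc] using this
      have : g * x * g⁻¹ = x := by
        rw [hcomm Q g hg x h2]; group
      rwa [this] at hx
  have hPN := hle P inf_le_right
  have hRN := hle R inf_le_left
  set N := Subgroup.normalizer (D : Set G) with hN
  have hNtop : N ≠ ⊤ := hnorm D (hne_bot _ (by rw [hrel5.2]; norm_num)) (hne_top _ (by rw [hrel5.2]; norm_num))
  have hNidx := key N hNtop
  have h1 : (R : Subgroup G).relIndex (P : Subgroup G) ≤ (R : Subgroup G).relIndex N :=
    Subgroup.relIndex_le_of_le_right hPN (by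
      intro h0
      have h5 := hcr (R : Subgroup G) N hRN
      rw [h0, mul_zero] at h5
      exact Nat.card_pos.ne h5)
  have h2 : 25 * (R : Subgroup G).relIndex N = Nat.card N := by
    have h5 := hcr (R : Subgroup G) N hRN
    rwa [hcardP] at h5
  have h3 := N.card_mul_index
  rw [h] at h3
  rw [hrel5.1] at h1
  nlinarith

end Cfsg.Agent.S1015
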