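import Cfsg.Statements.S1018
-- import your own Cfsg.Agent.* helpers here
import Mathlib

set_option autoImplicit false
open Cfsg

namespace Cfsg.Agent.S1018

theorem mem_smul {G : Type*} [Group G] {p : ℕ} (g x : G) (P : Sylow p G) :
    x ∈ ((g • P : Sylow p G) : Subgroup G) ↔ g⁻¹ * x * g ∈ (P : Subgroup G) := by
  rw [Sylow.coe_subgroup_smul, Subgroup.mem_pointwise_smul_iff_inv_smul_mem, MulAut.smul_def,
    MulAut.conj_inv_apply]

theorem zpowers_eq {G : Type*} [Group G] [Finite G] (p : ℕ) (P : Subgroup G) (hP : Nat.card P = p)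
    (a : G) (ha : a ∈ P) (hoa : orderOf a = p) : Subgroup.zpowers a = P := by
  apply Subgroup.eq_of_le_of_card_ge
  · rw [Subgroup.zpowers_le]; exact ha
  · rw [Nat.card_zpowers, hoa, hP]

theorem mem_zpowers_of_ne {G : Type*} [Group G] (p : ℕ) [Fact p.Prime] (P : Subgroup G)
    (hP : Nat.card P = p) (c u : G) (hc : c ∈ P) (hu : u ∈ P) (hc1 : c ≠ 1) :
    u ∈ Subgroup.zpowers c := by
  have h := mem_zpowers_of_prime_card (G := P) hP (g := ⟨c, hc⟩) (g' := ⟨u, hu⟩)
    (fun h => hc1 (congrArg Subtype.val h))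
  obtain ⟨k, hk⟩ := Subgroup.mem_zpowers_iff.1 h
  exact Subgroup.mem_zpowers_iff.2 ⟨k, by simpa using congrArg Subtype.val hk⟩


/-- Let P be a Sylow p-subgroup of order p of a finite group G, and consider the action of G on the left cosets of the normalizer N of P. Then every element of order p fixes exactly one coset, and an element of N that does not centralize P fixes at most as many cosets as there are orbits of P. -/
theorem result {G : Type*} [Group G] [Finite G] (p : ℕ) [Fact p.Prime] (P : Sylow p G) (hP : Nat.card ↥(P : Subgroup G) = p) : (∀ y : G, orderOf y = p → Nat.card (MulAction.fixedBy (G ⧸ Subgroup.normalizer ((P : Subgroup G) : Set G)) y) = 1) ∧ ∀ x : G, x ∈ Subgroup.normalizer ((P : Subgroup G) : Set G) → x ∉ Subgroup.centralizer ((P : Subgroup G) : Set G) → Nat.card (MulAction.fixedBy (G ⧸ Subgroup.normalizer ((P : Subgroup G) : Set G)) x) ≤ Nat.card (MulAction.orbitRel.Quotient ↥(P : Subgroup G) (G ⧸ Subgroup.normalizer ((P : Subgroup G) : Set G))) := by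
  set N := Subgroup.normalizer ((P : Subgroup G) : Set G) with hN
  have hfix : ∀ (y g : G), y • (g : G ⧸ N) = g ↔ g⁻¹ * y * g ∈ N := by
    intro y g
    rw [MulAction.Quotient.smul_coe, eq_comm, QuotientGroup.eq, smul_eq_mul, mul_assoc]
  constructor
  · intro y hy
    have hmem : ∀ g : G, g⁻¹ * y * g ∈ N → g⁻¹ * y * g ∈ (P : Subgroup G) := by
      intro g hg
      have hord : orderOf (g⁻¹ * y * g) = p := by
        have : g⁻¹ * y * g = MulAut.conj g⁻¹ y := by simp
        rw [this, MulEquiv.orderOf_eq, hy]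
      have hpg : IsPGroup p (Subgroup.zpowers (g⁻¹ * y * g)) := by
        apply IsPGroup.of_card (n := 1)
        rw [Nat.card_zpowers, hord, pow_one]
      have h1 := hpg.inf_normalizer_sylow P
      have h2 : g⁻¹ * y * g ∈ Subgroup.zpowers (g⁻¹ * y * g) ⊓ (P : Subgroup G) := by
        rw [← h1]
        exact ⟨Subgroup.mem_zpowers _, hg⟩
      exact h2.2
    rw [Nat.card_eq_one_iff_unique]
    constructor
    · constructor
      rintro ⟨q1, h1⟩ ⟨q2, h2⟩
      apply Subtype.ext
      show q1 = q2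
      obtain ⟨g, rfl⟩ := QuotientGroup.mk_surjective q1
      obtain ⟨h, rfl⟩ := QuotientGroup.mk_surjective q2
      have h1' := hmem g ((hfix y g).1 h1)
      have h2' := hmem h ((hfix y h).1 h2)
      have ho : ∀ g : G, orderOf (g⁻¹ * y * g) = p := by
        intro g
        have : g⁻¹ * y * g = MulAut.conj g⁻¹ y := by simp
        rw [this, MulEquiv.orderOf_eq, hy]
      have e1 := zpowers_eq p (P : Subgroup G) hP _ h1' (ho g)
      have e2 := zpowers_eq p (P : Subgroup G) hP _ h2' (ho h)
      rw [eq_comm, QuotientGroup.eq, hN, Subgroup.mem_normalizer_iff_map_conj_eq]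
      nth_rewrite 1 [← e1]
      rw [MonoidHom.map_zpowers, ← e2]
      congr 1
      show (h⁻¹ * g) * (g⁻¹ * y * g) * (h⁻¹ * g)⁻¹ = _
      group
    · have hpg : IsPGroup p (Subgroup.zpowers y) := by
        apply IsPGroup.of_card (n := 1)
        rw [Nat.card_zpowers, hy, pow_one]
      obtain ⟨Q, hQ⟩ := hpg.exists_le_sylow
      obtain ⟨g, rfl⟩ := MulAction.exists_smul_eq G P Q
      have h1 : g⁻¹ * y * g ∈ (P : Subgroup G) := by
        rw [← mem_smul]; exact hQ (Subgroup.mem_zpowers y)
      exact ⟨⟨(g : G ⧸ N), (hfix y g).2 (Subgroup.le_normalizer h1)⟩⟩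
  · intro x hxN hxC
    let f : MulAction.fixedBy (G ⧸ N) x → MulAction.orbitRel.Quotient ↥(P : Subgroup G) (G ⧸ N) :=
      fun q => Quotient.mk'' (q : G ⧸ N)
    apply Nat.card_le_card_of_injective f
    rintro ⟨q1, h1⟩ ⟨q2, h2⟩ hq
    apply Subtype.ext
    show q1 = q2
    have hq' : q1 ∈ MulAction.orbit ↥(P : Subgroup G) q2 := by
      have := Quotient.exact hq
      exact this
    obtain ⟨u, hu⟩ := hq'
    have hu' : (u : G) • q2 = q1 := hu
    by_contra hne
    have h1' : x • q1 = q1 := h1
    have h2' : x • q2 = q2 := h2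
    have hxu : x * (u : G) * x⁻¹ ∈ (P : Subgroup G) := (Subgroup.mem_normalizer_iff.1 hxN _).1 u.2
    have hc : ((u : G)⁻¹ * (x * (u : G) * x⁻¹)) • q2 = q2 := by
      have h3 : (x * (u : G) * x⁻¹) • q2 = (u : G) • q2 := by
        calc (x * (u : G) * x⁻¹) • q2 = (x * (u : G) * x⁻¹) • (x • q2) := by rw [h2']
          _ = x • ((u : G) • q2) := by
              rw [← mul_smul, ← mul_smul]; congr 1; group
          _ = (u : G) • q2 := by rw [hu', h1']
      rw [mul_smul, h3, inv_smul_smul]
    have hu1 : (u : G) ≠ 1 := by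
      intro h
      rw [h, one_smul] at hu'
      exact hne hu'.symm
    by_cases hc1 : (u : G)⁻¹ * (x * (u : G) * x⁻¹) = 1
    · apply hxC
      rw [Subgroup.mem_centralizer_iff]
      intro w hw
      have hcomm : x * (u : G) = (u : G) * x := by
        have h4 : x * (u : G) * x⁻¹ = u := by
          have := inv_mul_eq_one.1 hc1
          exact this.symm
        calc x * (u : G) = (x * (u : G) * x⁻¹) * x := by group
          _ = (u : G) * x := by rw [h4]
      obtain ⟨k, rfl⟩ := Subgroup.mem_zpowers_iff.1 (mem_zpowers_of_ne p (P : Subgroup G) hP u w u.2 hw hu1)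
      exact ((Commute.zpow_right (show Commute x (u : G) from hcomm) k).eq).symm
    · have hcP : (u : G)⁻¹ * (x * (u : G) * x⁻¹) ∈ (P : Subgroup G) :=
        Subgroup.mul_mem _ (Subgroup.inv_mem _ u.2) hxu
      obtain ⟨k, hk⟩ := Subgroup.mem_zpowers_iff.1
        (mem_zpowers_of_ne p (P : Subgroup G) hP _ u hcP u.2 hc1)
      apply hne
      rw [← hu', ← hk]
      have : ((u : G)⁻¹ * (x * (u : G) * x⁻¹)) ∈ MulAction.stabilizer G q2 := hc
      exact (Subgroup.zpow_mem _ this k)

end Cfsg.Agent.S1018
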