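import Cfsg.Statements.S1019
-- import your own Cfsg.Agent.* helpers here
import Mathlib
import Cfsg.Agent.Lib.Helper73Class

set_option autoImplicit false
open Cfsg

namespace Cfsg.Agent.S1019

/-- Let H be a subgroup of a finite group G and x an element of H. In the action of G on the left cosets of H, the number of cosets fixed by x, multiplied by the size of the conjugacy class of x, equals the index of H multiplied by the number of conjugates of x that lie in H. -/
theorem result {G : Type*} [Group G] [Finite G] (H : Subgroup G) (x : G) (hx : x ∈ H) : Nat.card (MulAction.fixedBy (G ⧸ H) x) * Nat.card {g : G // IsConj x g} = H.index * Nat.card {g : G // IsConj x g ∧ g ∈ H} := by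
  classical
  set C := Subgroup.centralizer ({x} : Set G) with hC
  let T : Set G := QuotientGroup.mk ⁻¹' (MulAction.fixedBy (G ⧸ H) x)
  have h1 : Nat.card T = Nat.card H * Nat.card (MulAction.fixedBy (G ⧸ H) x) := by
    rw [Nat.card_congr (QuotientGroup.preimageMkEquivSubgroupProdSet H _), Nat.card_prod]
  have hT : ∀ g : G, g ∈ T ↔ g⁻¹ * x * g ∈ H := by
    intro g
    show x • (g : G ⧸ H) = g ↔ _
    rw [MulAction.Quotient.smul_coe, eq_comm, QuotientGroup.eq, smul_eq_mul, mul_assoc]
  have h2 : Nat.card T = Nat.card {g : G // IsConj x g ∧ g ∈ H} * Nat.card C := by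
    let f : T → {g : G // IsConj x g ∧ g ∈ H} := fun g =>
      ⟨(g:G)⁻¹ * x * g, ⟨isConj_iff.2 ⟨(g:G)⁻¹, by simp⟩, (hT g).1 g.2⟩⟩
    have hfib : ∀ y : {g : G // IsConj x g ∧ g ∈ H}, Nat.card {t : T // f t = y} = Nat.card C := by
      intro y
      obtain ⟨c, hc⟩ := isConj_iff.1 y.2.1
      have hmemC : ∀ z : G, z ∈ C ↔ z * x = x * z := by
        intro z
        rw [hC, Subgroup.mem_centralizer_iff]
        constructor
        · intro h; exact (h x rfl).symm
        · intro h w hw
          rw [Set.mem_singleton_iff] at hw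
          subst hw
          exact h.symm
      refine Nat.card_congr ⟨fun t => ⟨(t.1 : G) * c, ?_⟩, fun z => ⟨⟨(z : G) * c⁻¹, ?_⟩, ?_⟩, ?_, ?_⟩
      · have h3 : ((t.1 : G))⁻¹ * x * (t.1 : G) = c * x * c⁻¹ := by
          have := congrArg Subtype.val t.2
          rw [hc]
          exact this
        rw [hmemC]
        calc (t.1 : G) * c * x = (t.1 : G) * (c * x * c⁻¹) * c := by group
          _ = (t.1 : G) * (((t.1 : G))⁻¹ * x * (t.1 : G)) * c := by rw [h3]
          _ = x * ((t.1 : G) * c) := by group
      · rw [hT]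
        have hz := (hmemC z).1 z.2
        have : ((z : G) * c⁻¹)⁻¹ * x * ((z : G) * c⁻¹) = c * x * c⁻¹ := by
          calc ((z : G) * c⁻¹)⁻¹ * x * ((z : G) * c⁻¹) = c * (z : G)⁻¹ * (x * z) * c⁻¹ := by group
            _ = c * (z : G)⁻¹ * (z * x) * c⁻¹ := by rw [hz]
            _ = c * x * c⁻¹ := by group
        rw [this, hc]
        exact y.2.2
      · apply Subtype.ext
        show ((z : G) * c⁻¹)⁻¹ * x * ((z : G) * c⁻¹) = y
        have hz := (hmemC z).1 z.2
        rw [← hc]
        calc ((z : G) * c⁻¹)⁻¹ * x * ((z : G) * c⁻¹) = c * (z : G)⁻¹ * (x * z) * c⁻¹ := by group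
          _ = c * (z : G)⁻¹ * (z * x) * c⁻¹ := by rw [hz]
          _ = c * x * c⁻¹ := by group
      · intro t
        apply Subtype.ext
        apply Subtype.ext
        simp
      · intro z
        apply Subtype.ext
        simp
    haveI := Fintype.ofFinite {g : G // IsConj x g ∧ g ∈ H}
    rw [← Nat.card_congr (Equiv.sigmaFiberEquiv f), Nat.card_sigma]
    simp only [hfib, Finset.sum_const, Finset.card_univ, smul_eq_mul, Nat.card_eq_fintype_card]
  rw [← Cfsg.Agent.Lib.Helper73Class.index_centralizer_eq_card x]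
  have h3 : C.index * Nat.card C = Nat.card G := C.index_mul_card
  have h4 : H.index * Nat.card H = Nat.card G := H.index_mul_card
  have hpos : 0 < Nat.card H := Nat.card_pos
  apply Nat.eq_of_mul_eq_mul_left hpos
  calc Nat.card H * (Nat.card (MulAction.fixedBy (G ⧸ H) x) * C.index)
      = (Nat.card H * Nat.card (MulAction.fixedBy (G ⧸ H) x)) * C.index := by ring
    _ = (Nat.card {g : G // IsConj x g ∧ g ∈ H} * Nat.card C) * C.index := by rw [← h1, h2]
    _ = Nat.card {g : G // IsConj x g ∧ g ∈ H} * (C.index * Nat.card C) := by ring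
    _ = Nat.card {g : G // IsConj x g ∧ g ∈ H} * (H.index * Nat.card H) := by rw [h3, h4]
    _ = Nat.card H * (H.index * Nat.card {g : G // IsConj x g ∧ g ∈ H}) := by ring

end Cfsg.Agent.S1019
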