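import Cfsg.Statements.S1039
import Cfsg.Agent.Lib.Helper22ChevRel
import Cfsg.Agent.Lib.Helper23NW
import Cfsg.Agent.Lib.Helper23CoxG2
import Cfsg.Agent.Lib.Helper23CoxB2
import Cfsg.Agent.Lib.Helper23CoxD4
import Cfsg.Agent.Lib.Helper23CoxF4
import Cfsg.Agent.Lib.Helper23CoxE6
import Cfsg.Agent.Lib.Helper23CoxE7
import Cfsg.Agent.Lib.Helper23CoxE8
import Cfsg.Agent.Lib.Helper23AgrG2
import Cfsg.Agent.Lib.Helper23AgrB2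
import Cfsg.Agent.Lib.Helper23AgrD4
import Cfsg.Agent.Lib.Helper23AgrF4
import Cfsg.Agent.Lib.Helper23AgrE6
import Cfsg.Agent.Lib.Helper23AgrE7
import Cfsg.Agent.Lib.Helper23AgrE8

set_option autoImplicit false
open Cfsg

namespace Cfsg.Agent.S1039

/-- `N/H ≅ W`: there is a surjective homomorphism from `N` onto the Coxeter group of the type (Mathlib's Coxeter matrix G₂, B₂, F₄, E₆, E₇, E₈, nodes numbered as the fundamental roots) with kernel `H`, mapping each `n_{p_i}` to the `i`-th simple reflection. -/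
theorem result {F : Type*} [Field F]
    (p : Cfsg.Lie.ChevalleyDatum × (Σ n : ℕ, CoxeterMatrix (Fin n)))
    (hp : p ∈ [(Cfsg.Lie.chevG2, ⟨2, CoxeterMatrix.G₂⟩), (Cfsg.Lie.chevB2, ⟨2, CoxeterMatrix.B 2⟩), (Cfsg.Lie.chevD4, ⟨4, Cfsg.Lie.coxeterD4⟩), (Cfsg.Lie.chevF4, ⟨4, CoxeterMatrix.F₄⟩),
      (Cfsg.Lie.chevE6, ⟨6, CoxeterMatrix.E₆⟩), (Cfsg.Lie.chevE7, ⟨7, CoxeterMatrix.E₇⟩), (Cfsg.Lie.chevE8, ⟨8, CoxeterMatrix.E₈⟩)]) :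
    ∃ φ : ↥(p.1.monomialSubgroup F) →* p.2.2.Group, Function.Surjective φ ∧
      φ.ker = (p.1.diagonalSubgroup F).subgroupOf (p.1.monomialSubgroup F) ∧
      ∀ (i : Fin p.2.1) (g : ↥(p.1.monomialSubgroup F)),
        ((g : GL p.1.Idx F) : Matrix p.1.Idx p.1.Idx F) = p.1.nMat F (p.1.simple i) 1 → φ g = p.2.2.simple i := by
  simp only [List.mem_cons, List.not_mem_nil, or_false] at hp
  rcases hp with rfl | rfl | rfl | rfl | rfl | rfl | rfl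
  · obtain ⟨φ, h1, h2, h3, _⟩ := Cfsg.Agent.Lib.Helper23CoxG2.main
    exact Cfsg.Agent.Lib.Helper23NW.s1039 Cfsg.Agent.Lib.Helper23TabG2.tableOK (Cfsg.Agent.Lib.Helper22ChevRel.rel_of_mem (by simp [Cfsg.Agent.Lib.Helper22ChevBasic.Std]))
      Cfsg.Agent.Lib.Helper23FastG2.valid Cfsg.Agent.Lib.Helper23AgrG2.agr Cfsg.Agent.Lib.Helper23CoxG2.M φ h1 h2 h3
  · obtain ⟨φ, h1, h2, h3, _⟩ := Cfsg.Agent.Lib.Helper23CoxB2.main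
    exact Cfsg.Agent.Lib.Helper23NW.s1039 Cfsg.Agent.Lib.Helper23TabB2.tableOK (Cfsg.Agent.Lib.Helper22ChevRel.rel_of_mem (by simp [Cfsg.Agent.Lib.Helper22ChevBasic.Std]))
      Cfsg.Agent.Lib.Helper23FastB2.valid Cfsg.Agent.Lib.Helper23AgrB2.agr Cfsg.Agent.Lib.Helper23CoxB2.M φ h1 h2 h3
  · obtain ⟨φ, h1, h2, h3, _⟩ := Cfsg.Agent.Lib.Helper23CoxD4.main
    exact Cfsg.Agent.Lib.Helper23NW.s1039 Cfsg.Agent.Lib.Helper23TabD4.tableOK (Cfsg.Agent.Lib.Helper22ChevRel.rel_of_mem (by simp [Cfsg.Agent.Lib.Helper22ChevBasic.Std]))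
      Cfsg.Agent.Lib.Helper23FastD4.valid Cfsg.Agent.Lib.Helper23AgrD4.agr Cfsg.Agent.Lib.Helper23CoxD4.M φ h1 h2 h3
  · obtain ⟨φ, h1, h2, h3, _⟩ := Cfsg.Agent.Lib.Helper23CoxF4.main
    exact Cfsg.Agent.Lib.Helper23NW.s1039 Cfsg.Agent.Lib.Helper23TabF4.tableOK (Cfsg.Agent.Lib.Helper22ChevRel.rel_of_mem (by simp [Cfsg.Agent.Lib.Helper22ChevBasic.Std]))
      Cfsg.Agent.Lib.Helper23FastF4.valid Cfsg.Agent.Lib.Helper23AgrF4.agr Cfsg.Agent.Lib.Helper23CoxF4.M φ h1 h2 h3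
  · obtain ⟨φ, h1, h2, h3, _⟩ := Cfsg.Agent.Lib.Helper23CoxE6.main
    exact Cfsg.Agent.Lib.Helper23NW.s1039 Cfsg.Agent.Lib.Helper23TabE6.tableOK (Cfsg.Agent.Lib.Helper22ChevRel.rel_of_mem (by simp [Cfsg.Agent.Lib.Helper22ChevBasic.Std]))
      Cfsg.Agent.Lib.Helper23FastE6.valid Cfsg.Agent.Lib.Helper23AgrE6.agr Cfsg.Agent.Lib.Helper23CoxE6.M φ h1 h2 h3
  · obtain ⟨φ, h1, h2, h3, _⟩ := Cfsg.Agent.Lib.Helper23CoxE7.main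
    exact Cfsg.Agent.Lib.Helper23NW.s1039 Cfsg.Agent.Lib.Helper23TabE7.tableOK (Cfsg.Agent.Lib.Helper22ChevRel.rel_of_mem (by simp [Cfsg.Agent.Lib.Helper22ChevBasic.Std]))
      Cfsg.Agent.Lib.Helper23FastE7.valid Cfsg.Agent.Lib.Helper23AgrE7.agr Cfsg.Agent.Lib.Helper23CoxE7.M φ h1 h2 h3
  · obtain ⟨φ, h1, h2, h3, _⟩ := Cfsg.Agent.Lib.Helper23CoxE8.main
    exact Cfsg.Agent.Lib.Helper23NW.s1039 Cfsg.Agent.Lib.Helper23TabE8.tableOK (Cfsg.Agent.Lib.Helper22ChevRel.rel_of_mem (by simp [Cfsg.Agent.Lib.Helper22ChevBasic.Std]))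
      Cfsg.Agent.Lib.Helper23FastE8.valid Cfsg.Agent.Lib.Helper23AgrE8.agr Cfsg.Agent.Lib.Helper23CoxE8.M φ h1 h2 h3

end Cfsg.Agent.S1039
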