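import Cfsg.Statements.S1041
import Cfsg.Agent.Lib.Helper23Tab
import Cfsg.Agent.Lib.Helper23Tri

set_option autoImplicit false
open Cfsg

namespace Cfsg.Agent.S1041

/-- `U` and `V` generate the whole Chevalley group. -/
theorem result {F : Type*} [Field F] (D : Cfsg.Lie.ChevalleyDatum) (hD : D ∈ [Cfsg.Lie.chevG2, Cfsg.Lie.chevB2, Cfsg.Lie.chevD4, Cfsg.Lie.chevF4, Cfsg.Lie.chevE6, Cfsg.Lie.chevE7, Cfsg.Lie.chevE8]) : D.posUnipotent F ⊔ D.negUnipotent F = D.group F := by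
  exact Cfsg.Agent.Lib.Helper23Tri.pos_sup_neg (Cfsg.Agent.Lib.Helper23Tab.tableOK_of_mem hD)

end Cfsg.Agent.S1041
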