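import Cfsg.Statements.S1046
import Cfsg.Agent.Lib.Helper22ChevInst
import Cfsg.Agent.Lib.Helper22ChevBruhat
-- import your own Cfsg.Agent.* helpers here

set_option autoImplicit false
open Cfsg

namespace Cfsg.Agent.S1046

/-- Two elements of `H` conjugate in the Chevalley group are conjugate by an element of `N`. -/
theorem result {F : Type*} [Field F] (D : Cfsg.Lie.ChevalleyDatum) (hD : D ∈ [Cfsg.Lie.chevG2, Cfsg.Lie.chevB2, Cfsg.Lie.chevD4, Cfsg.Lie.chevF4, Cfsg.Lie.chevE6, Cfsg.Lie.chevE7, Cfsg.Lie.chevE8]) (h₁ h₂ g : GL D.Idx F) (h1 : h₁ ∈ D.diagonalSubgroup F) (h2 : h₂ ∈ D.diagonalSubgroup F)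
    (hg : g ∈ D.group F) (hc : g * h₁ * g⁻¹ = h₂) :
    ∃ n ∈ D.monomialSubgroup F, n * h₁ * n⁻¹ = h₂ := by
  classical
  have hT := Cfsg.Agent.Lib.Helper23Tab.tableOK_of_mem hD
  have hR : Cfsg.Agent.Lib.Helper23Chev.Rel D F := Cfsg.Agent.Lib.Helper22ChevRel.rel_of_mem hD
  have ok := Cfsg.Agent.Lib.Helper23Chev.rg_ok hT hR
  have hBV := Cfsg.Agent.Lib.Helper23Chev.hBV hT hR
  have hUN := Cfsg.Agent.Lib.Helper23Chev.hUN hT hR
  obtain ⟨rf, pr, hW⟩ := Cfsg.Agent.Lib.Helper22ChevInst.exists_hW hD hT hR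
  rw [← Cfsg.Agent.Lib.Helper23Chev.H_eq hT hR] at h1 h2
  rw [← Cfsg.Agent.Lib.Helper23Chev.G_eq hT hR] at hg
  rw [← Cfsg.Agent.Lib.Helper23Chev.N_eq hT hR]
  exact Cfsg.Agent.Lib.Helper22ChevBruhat.conj_in_N ok hBV hUN hW h1 h2 hg hc

end Cfsg.Agent.S1046
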