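import Cfsg.Statements.S1047
import Cfsg.Agent.Lib.Helper22ChevPar
import Cfsg.Agent.Lib.Helper23Tab
import Cfsg.Agent.Lib.Helper22ChevRel
-- import your own Cfsg.Agent.* helpers here

set_option autoImplicit false
open Cfsg

namespace Cfsg.Agent.S1047

/-- `P_J = ⟨H, X_r : r ∈ Φ⁺ ∪ Φ_J⟩`. -/
theorem result {F : Type*} [Field F] (D : Cfsg.Lie.ChevalleyDatum) (hD : D ∈ [Cfsg.Lie.chevG2, Cfsg.Lie.chevB2, Cfsg.Lie.chevD4, Cfsg.Lie.chevF4, Cfsg.Lie.chevE6, Cfsg.Lie.chevE7, Cfsg.Lie.chevE8]) (J : Set ℕ) :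
    D.parabolicSubgroup F J = D.diagonalSubgroup F ⊔
      Subgroup.closure {g : GL D.Idx F | ∃ (r : ℕ) (t : F), (D.IsPosRoot r ∨ D.InRootSub J r) ∧ (g : Matrix D.Idx D.Idx F) = D.x F r t} := by
  have hT := Cfsg.Agent.Lib.Helper23Tab.tableOK_of_mem hD
  have hR : Cfsg.Agent.Lib.Helper23Chev.Rel D F := Cfsg.Agent.Lib.Helper22ChevRel.rel_of_mem hD
  obtain ⟨a, ha⟩ := Cfsg.Agent.Lib.Helper22ChevRC.exists_rc hD
  rw [Cfsg.Agent.Lib.Helper22ChevPar.gen_eq hT hR, Cfsg.Agent.Lib.Helper22ChevPar.parabolic_eq hT hR]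
  exact Cfsg.Agent.Lib.Helper22ChevPar.PJ_eq hT hR ha J

end Cfsg.Agent.S1047
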