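import Cfsg.Statements.S1048
import Cfsg.Agent.Lib.Helper22ChevPar
import Cfsg.Agent.Lib.Helper23Tab
import Cfsg.Agent.Lib.Helper22ChevRel
-- import your own Cfsg.Agent.* helpers here

set_option autoImplicit false
open Cfsg

namespace Cfsg.Agent.S1048

/-- `U_J ⊴ P_J`, `P_J = U_J L_J` and `U_J ∩ L_J = 1` (Levi decomposition of the standard parabolic subgroup). -/
theorem result {F : Type*} [Field F] (D : Cfsg.Lie.ChevalleyDatum) (hD : D ∈ [Cfsg.Lie.chevG2, Cfsg.Lie.chevB2, Cfsg.Lie.chevD4, Cfsg.Lie.chevF4, Cfsg.Lie.chevE6, Cfsg.Lie.chevE7, Cfsg.Lie.chevE8]) (J : Set ℕ) :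
    D.parabolicSubgroup F J ≤ Subgroup.normalizer (D.unipotentRadical F J : Set (GL D.Idx F)) ∧
      D.unipotentRadical F J ⊔ D.leviSubgroup F J = D.parabolicSubgroup F J ∧
      D.unipotentRadical F J ⊓ D.leviSubgroup F J = ⊥ := by
  have hT := Cfsg.Agent.Lib.Helper23Tab.tableOK_of_mem hD
  have hR : Cfsg.Agent.Lib.Helper23Chev.Rel D F := Cfsg.Agent.Lib.Helper22ChevRel.rel_of_mem hD
  obtain ⟨a, ha⟩ := Cfsg.Agent.Lib.Helper22ChevRC.exists_rc hD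
  rw [Cfsg.Agent.Lib.Helper22ChevPar.radical_eq hT hR, Cfsg.Agent.Lib.Helper22ChevPar.parabolic_eq hT hR,
    Cfsg.Agent.Lib.Helper22ChevPar.levi_eq hT hR]
  exact ⟨Cfsg.Agent.Lib.Helper22ChevPar.PJ_le_normalizer hT hR ha hD J,
    Cfsg.Agent.Lib.Helper22ChevPar.radical_sup_levi hT hR ha J,
    Cfsg.Agent.Lib.Helper22ChevPar.radical_inf_levi hT hR ha (Cfsg.Agent.Lib.Helper22ChevU.ordFacts hD) J⟩

end Cfsg.Agent.S1048
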