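import Cfsg.Statements.S1069
import Cfsg.Agent.Lib.Helper8Ree10

set_option autoImplicit false
open Cfsg

namespace Cfsg.Agent.S1069

open Cfsg.Lie Cfsg.Agent.Lib.Helper8Ree5 Cfsg.Agent.Lib.Helper8Ree8 Cfsg.Agent.Lib.Helper8Ree9 Cfsg.Agent.Lib.Helper8Ree10 Cfsg.Agent.Lib.Helper8Rank1

/-- `|²G₂(q)| = q³ (q - 1)(q³ + 1)` for `q = 3^(2m+1)` (θ = 3^m-th power map), every `m ≥ 0`. -/
theorem result {K : Type*} [Field K] [Fintype K] {m : ℕ} (hK : Fintype.card K = 3 ^ (2 * m + 1)) :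
    Nat.card ↥(Cfsg.Lie.twistedG2 K (3 ^ m)) = (3 ^ (2 * m + 1)) ^ 3 * (3 ^ (2 * m + 1) - 1) * ((3 ^ (2 * m + 1)) ^ 3 + 1) := by
  haveI := charP_three hK
  exact card_G1 hK

end Cfsg.Agent.S1069
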