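import Cfsg.Statements.S1073
import Cfsg.Agent.Lib.Helper8Ree11

set_option autoImplicit false
open Cfsg

namespace Cfsg.Agent.S1073

open Cfsg.Lie Cfsg.Agent.Lib.Helper8Ree5 Cfsg.Agent.Lib.Helper8Ree11

/-- ²G₂(3^(2m+1)) is simple for `m ≥ 1`. -/
theorem result {K : Type*} [Field K] [Fintype K] {m : ℕ} (hm : 1 ≤ m) (hK : Fintype.card K = 3 ^ (2 * m + 1)) :
    IsSimpleGroup ↥(Cfsg.Lie.twistedG2 K (3 ^ m)) ∧ ¬ IsMulCommutative ↥(Cfsg.Lie.twistedG2 K (3 ^ m)) := by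
  have := charP_three hK
  exact simple hK hm

end Cfsg.Agent.S1073
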