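import Cfsg.Statements.S1079
import Cfsg.Agent.Lib.Helper23EmE6
import Cfsg.Agent.Lib.Helper23EmE7
import Cfsg.Agent.S1078

set_option autoImplicit false
open Cfsg

namespace Cfsg.Agent.S1079

/-- `|Z(Ḡ)| = gcd(3, q-1)` for E₆ and `gcd(2, q-1)` for E₇ over a field with `q` elements (the centre is dual to the weight lattice modulo the root lattice). -/
theorem result {K : Type*} [Field K] [Fintype K] {q : ℕ} (hq : Fintype.card K = q)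
    (p : Cfsg.Lie.ChevalleyDatum × ℕ) (hp : p ∈ [(Cfsg.Lie.chevE6, 3), (Cfsg.Lie.chevE7, 2)]) :
    Nat.card (Subgroup.center (p.1.SteinbergGroup K)) = Nat.gcd p.2 (q - 1) := by
  have hD8 : Cfsg.Agent.Lib.Helper22ChevBasic.Std Cfsg.Lie.chevE8 := by simp [Cfsg.Agent.Lib.Helper22ChevBasic.Std]
  simp only [List.mem_cons, List.not_mem_nil, or_false] at hp
  rcases hp with rfl | rfl
  · have hD : Cfsg.Agent.Lib.Helper22ChevBasic.Std Cfsg.Lie.chevE6 := by simp [Cfsg.Agent.Lib.Helper22ChevBasic.Std]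
    show Nat.card (Subgroup.center (Cfsg.Lie.chevE6.SteinbergGroup K)) = _
    rw [Cfsg.Agent.Lib.Helper23Em.card_center_st Cfsg.Agent.Lib.Helper22ChevTabE6.agree Cfsg.Agent.Lib.Helper23UnE6.chk
      Cfsg.Agent.Lib.Helper22ChevTabE8.agree Cfsg.Agent.Lib.Helper23UnE8.chk Cfsg.Agent.Lib.Helper23EmE6.chk hD hD8
      (by decide) Cfsg.Agent.Lib.Helper23EmE6.hsim _ Cfsg.Agent.S1078.bE8
      Cfsg.Agent.Lib.Helper23AgrE6.U Cfsg.Agent.Lib.Helper23AgrE6.U' Cfsg.Agent.Lib.Helper23AgrE6.V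
      Cfsg.Agent.Lib.Helper23AgrE6.V' Cfsg.Agent.Lib.Helper23AgrE6.d Cfsg.Agent.Lib.Helper23AgrE6.hU
      Cfsg.Agent.Lib.Helper23AgrE6.hV Cfsg.Agent.Lib.Helper23AgrE6.hS, Cfsg.Agent.Lib.Helper23AgrE6.prod_d, hq]
  · have hD : Cfsg.Agent.Lib.Helper22ChevBasic.Std Cfsg.Lie.chevE7 := by simp [Cfsg.Agent.Lib.Helper22ChevBasic.Std]
    show Nat.card (Subgroup.center (Cfsg.Lie.chevE7.SteinbergGroup K)) = _
    rw [Cfsg.Agent.Lib.Helper23Em.card_center_st Cfsg.Agent.Lib.Helper22ChevTabE7.agree Cfsg.Agent.Lib.Helper23UnE7.chk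
      Cfsg.Agent.Lib.Helper22ChevTabE8.agree Cfsg.Agent.Lib.Helper23UnE8.chk Cfsg.Agent.Lib.Helper23EmE7.chk hD hD8
      (by decide) Cfsg.Agent.Lib.Helper23EmE7.hsim _ Cfsg.Agent.S1078.bE8
      Cfsg.Agent.Lib.Helper23AgrE7.U Cfsg.Agent.Lib.Helper23AgrE7.U' Cfsg.Agent.Lib.Helper23AgrE7.V
      Cfsg.Agent.Lib.Helper23AgrE7.V' Cfsg.Agent.Lib.Helper23AgrE7.d Cfsg.Agent.Lib.Helper23AgrE7.hU
      Cfsg.Agent.Lib.Helper23AgrE7.hV Cfsg.Agent.Lib.Helper23AgrE7.hS, Cfsg.Agent.Lib.Helper23AgrE7.prod_d, hq]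

end Cfsg.Agent.S1079
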