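import Cfsg.Statements.S1099
import Cfsg.Agent.Lib.Helper8Ree2

set_option autoImplicit false
open Cfsg

namespace Cfsg.Agent.S1099

open Cfsg.Agent.Lib.Helper8Ree2

/-- Graph automorphism of G₂ in characteristic 3 (K perfect): `x_a(t) ↦ x_b(t³)`, `x_b(t) ↦ x_a(t)`, `x_{-a}(t) ↦ x_{-b}(t³)`, `x_{-b}(t) ↦ x_{-a}(t)` extend to an automorphism of the group. -/
theorem result {K : Type*} [Field K] [CharP K 3] (hperf : ∀ x : K, ∃ y : K, y ^ 3 = x) :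
    ∃ α : ↥(Cfsg.Lie.chevG2.group K) ≃* ↥(Cfsg.Lie.chevG2.group K), ∀ (g : ↥(Cfsg.Lie.chevG2.group K)) (t : K),
      (((g : GL Cfsg.Lie.chevG2.Idx K) : Matrix _ _ K) = Cfsg.Lie.chevG2.x K Cfsg.Lie.g2a t →
        ((α g : GL Cfsg.Lie.chevG2.Idx K) : Matrix _ _ K) = Cfsg.Lie.chevG2.x K Cfsg.Lie.g2b (t ^ 3)) ∧
      (((g : GL Cfsg.Lie.chevG2.Idx K) : Matrix _ _ K) = Cfsg.Lie.chevG2.x K Cfsg.Lie.g2b t →
        ((α g : GL Cfsg.Lie.chevG2.Idx K) : Matrix _ _ K) = Cfsg.Lie.chevG2.x K Cfsg.Lie.g2a t) ∧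
      (((g : GL Cfsg.Lie.chevG2.Idx K) : Matrix _ _ K) = Cfsg.Lie.chevG2.x K Cfsg.Lie.g2ma t →
        ((α g : GL Cfsg.Lie.chevG2.Idx K) : Matrix _ _ K) = Cfsg.Lie.chevG2.x K Cfsg.Lie.g2mb (t ^ 3)) ∧
      (((g : GL Cfsg.Lie.chevG2.Idx K) : Matrix _ _ K) = Cfsg.Lie.chevG2.x K Cfsg.Lie.g2mb t →
        ((α g : GL Cfsg.Lie.chevG2.Idx K) : Matrix _ _ K) = Cfsg.Lie.chevG2.x K Cfsg.Lie.g2ma t) := by
  refine ⟨grE hperf, ?_⟩
  intro g t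
  have key : ∀ r, r < 12 → (((g : GL Cfsg.Lie.chevG2.Idx K) : Matrix _ _ K) = Cfsg.Lie.chevG2.x K r t →
      ((grE hperf g : GL Cfsg.Lie.chevG2.Idx K) : Matrix _ _ K) = Cfsg.Lie.chevG2.x K (barN r) (t ^ lamN r)) := by
    intro r hr h
    have e : g = xE r t := Subtype.ext (Units.ext h)
    rw [e, grE_xE hperf r hr]
    rfl
  refine ⟨key 7 (by decide), ?_, key 4 (by decide), ?_⟩
  · intro h
    have := key 6 (by decide) h
    rw [this]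
    show Cfsg.Lie.chevG2.x K 7 (t ^ 1) = _
    rw [pow_one]; rfl
  · intro h
    have := key 5 (by decide) h
    rw [this]
    show Cfsg.Lie.chevG2.x K 4 (t ^ 1) = _
    rw [pow_one]; rfl

end Cfsg.Agent.S1099
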