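import Cfsg.Statements.S1101
import Cfsg.Agent.Lib.Helper8Ree10

set_option autoImplicit false
open Cfsg

namespace Cfsg.Agent.S1101

open Cfsg.Lie Cfsg.Agent.Lib.Helper8Ree5 Cfsg.Agent.Lib.Helper8Ree8 Cfsg.Agent.Lib.Helper8Ree9 Cfsg.Agent.Lib.Helper8Ree10 Cfsg.Agent.Lib.Helper8Rank1

/-- For ²G₂ over `K` with `|K| = 3^(2m+1)`, `θ = 3^m`: `U¹ = G¹ ∩ U` consists exactly of the elements `x_a(t^θ) x_b(t) x_{a+b}(t^{θ+1}+u^θ) x_{2a+b}(t^{2θ+1}+v^θ) x_{3a+b}(u) x_{3a+2b}(v)`, `t, u, v ∈ K`, and it has `|K|³` elements. -/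
theorem result {K : Type*} [Field K] [Fintype K] {m : ℕ} (hK : Fintype.card K = 3 ^ (2 * m + 1)) :
    (∀ g : GL Cfsg.Lie.chevG2.Idx K, g ∈ Cfsg.Lie.chevG2.posUnipotent K ⊓ Cfsg.Lie.twistedG2 K (3 ^ m) ↔
      ∃ t u v : K, (g : Matrix Cfsg.Lie.chevG2.Idx Cfsg.Lie.chevG2.Idx K) = Cfsg.Lie.chevG2.wordMat K (Cfsg.Lie.reeWordU (3 ^ m) t u v)) ∧
    Nat.card ↥(Cfsg.Lie.chevG2.posUnipotent K ⊓ Cfsg.Lie.twistedG2 K (3 ^ m)) = (3 ^ (2 * m + 1)) ^ 3 := by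
  haveI := charP_three hK
  refine ⟨fun g => ?_, card_U1 hK⟩
  rw [mem_U1 hK]
  constructor
  · rintro ⟨t, u, v, rfl⟩
    exact ⟨t, u, v, Cfsg.Agent.Lib.Helper22ChevBasic.coe_wordG Cfsg.Agent.Lib.Helper8Ree2.hStd _⟩
  · rintro ⟨t, u, v, h⟩
    exact ⟨t, u, v, Units.ext (h.trans (Cfsg.Agent.Lib.Helper22ChevBasic.coe_wordG Cfsg.Agent.Lib.Helper8Ree2.hStd _).symm)⟩

end Cfsg.Agent.S1101
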