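import Cfsg.Statements.S1110
import Cfsg.Agent.Lib.Helper22F4T4
-- import your own Cfsg.Agent.* helpers here

set_option autoImplicit false
open Cfsg

namespace Cfsg.Agent.S1110

/-- `|H¹| = |G¹ ∩ H|`: `|H¹| = (2 ^ (2 * m + 1) - 1) ^ 2` for ²F₄(2^(2m+1)). -/
theorem result {K : Type*} [Field K] [Fintype K] {m : ℕ} (hK : Fintype.card K = 2 ^ (2 * m + 1)) :
    Nat.card ↥(Cfsg.Lie.chevF4.diagonalSubgroup K ⊓ Cfsg.Lie.twistedF4 K (2 ^ m)) = (2 ^ (2 * m + 1) - 1) ^ 2 := by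
  obtain ⟨θ, fs⟩ := Cfsg.Agent.Lib.Helper22F4.exists_fs hK
  have e : Cfsg.Lie.twistedF4 K (2 ^ m) = Cfsg.Agent.Lib.Helper22F4.G1 Cfsg.Lie.chevF4 θ :=
    (Cfsg.Agent.Lib.Helper22F4.G1_eq (Cfsg.Agent.Lib.Helper23All.rel (F := K) Cfsg.Agent.Lib.Helper22F4.stdF4) θ
      fs.h0 fs.h1).symm
  rw [e, ← Cfsg.Agent.Lib.Helper22F4.card_units hK,
    ← Cfsg.Agent.Lib.Helper23Chev.H_eq (Cfsg.Agent.Lib.Helper23All.tab Cfsg.Agent.Lib.Helper22F4.stdF4)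
      (Cfsg.Agent.Lib.Helper23All.rel (F := K) Cfsg.Agent.Lib.Helper22F4.stdF4)]
  exact Cfsg.Agent.Lib.Helper22F4.card_H1 Cfsg.Agent.Lib.Helper22F4.stdF4 Cfsg.Agent.Lib.Helper22ChevTabF4.agree
    Cfsg.Agent.Lib.Helper22F4.ptabF4 (Cfsg.Agent.Lib.Helper23All.tab Cfsg.Agent.Lib.Helper22F4.stdF4)
    (Cfsg.Agent.Lib.Helper23All.rel (F := K) Cfsg.Agent.Lib.Helper22F4.stdF4) fs.h2 θ
    Cfsg.Agent.Lib.Helper22F4.qfF4 fs.hθ fs.h10 fs.h01 (Cfsg.Agent.Lib.Helper22F4.sgF4_ok θ fs)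
    Cfsg.Agent.Lib.Helper22TwEnumF4.chk_eq
    (Cfsg.Agent.Lib.Helper23All.cartanRefl Cfsg.Agent.Lib.Helper22F4.stdF4) Cfsg.Agent.Lib.Helper22F4.qhF4

end Cfsg.Agent.S1110
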