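import Cfsg.Statements.S1115
import Cfsg.Agent.Lib.Helper8Ree10

set_option autoImplicit false
open Cfsg

namespace Cfsg.Agent.S1115

open Cfsg.Lie Cfsg.Agent.Lib.Helper8Ree5 Cfsg.Agent.Lib.Helper8Ree8 Cfsg.Agent.Lib.Helper8Ree9 Cfsg.Agent.Lib.Helper8Ree10 Cfsg.Agent.Lib.Helper8Rank1

/-- `N¹/H¹ ≅ W¹`: a surjective homomorphism from `N¹ = G¹ ∩ N` onto the group of order 2 with kernel `H¹`. -/
theorem result {K : Type*} [Field K] [Fintype K] {m : ℕ} (hK : Fintype.card K = 3 ^ (2 * m + 1)) :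
    ∃ φ : ↥(Cfsg.Lie.chevG2.monomialSubgroup K ⊓ Cfsg.Lie.twistedG2 K (3 ^ m)) →* Multiplicative (ZMod 2), Function.Surjective φ ∧
      φ.ker = (Cfsg.Lie.chevG2.diagonalSubgroup K ⊓ Cfsg.Lie.twistedG2 K (3 ^ m)).subgroupOf (Cfsg.Lie.chevG2.monomialSubgroup K ⊓ Cfsg.Lie.twistedG2 K (3 ^ m)) := by
  haveI := charP_three hK
  refine exists_sign _ _ (n1 m) ?_ ?_ ?_ ?_ ?_ ?_
  · intro g hg
    obtain ⟨μ, rfl⟩ := (mem_H1 hK).1 hg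
    exact (mem_N1 hK).2 (Or.inl ⟨μ, rfl⟩)
  · exact (mem_N1 hK).2 (Or.inr ⟨1, by rw [map_one, one_mul]⟩)
  · intro h
    apply n1_not_mem_B (K := K) m
    rw [Cfsg.Agent.Lib.Helper23Chev.B_eq]
    exact ((mem_B1 hK).2 (by
      obtain ⟨μ, hμ⟩ := (mem_H1 hK).1 h
      exact ⟨0, 0, 0, μ, by rw [wU_zero, one_mul, hμ]⟩)).1
  · intro g hg
    rcases (mem_N1 hK).1 hg with h | ⟨μ, rfl⟩
    · exact Or.inl ((mem_H1 hK).2 h)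
    · exact Or.inr ⟨_, (mem_H1 hK).2 ⟨μ, rfl⟩, rfl⟩
  · intro h hh'
    obtain ⟨μ, rfl⟩ := (mem_H1 hK).1 hh'
    exact (mem_H1 hK).2 (n1_conj_hh hK μ)
  · exact (mem_H1 hK).2 (n1_sq hK)

end Cfsg.Agent.S1115
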