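import Cfsg.Statements.S1119
import Cfsg.Agent.Lib.Helper24RankOne

set_option autoImplicit false
open Cfsg

namespace Cfsg.Agent.S1119

open Cfsg.Agent.Lib.Helper24RankOne MulAction

/-- In the rank-one set-up (`G` finite and doubly transitive on `Ω`, `t` an involution moving `a`, `Q` normal in `G_a` with `G_a = Q D`, `Q ⊓ D = 1` for the two-point stabiliser `D = G_a ⊓ G_{t • a}`, `|Q|` even, `|D|` odd): `Q` acts regularly on `Ω` minus `a`; hence `|Ω| = |Q| + 1`, `|G| = |Q| |D| (|Q| + 1)`, some Sylow 2-subgroup of `G` lies in `Q`, and each `g ∉ G_a` is uniquely `x t y` with `x ∈ G_a`, `y ∈ Q` (canonical form). -/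
theorem result {G Ω : Type*} [Group G] [Finite G] [MulAction G Ω] {a : Ω} {t : G} {Q : Subgroup G}
    (hS : Cfsg.IsRankOneSetup G Ω a t Q) :
    (∀ b c : Ω, b ≠ a → c ≠ a → ∃! x : Q, (x : G) • b = c) ∧
      Nat.card Ω = Nat.card Q + 1 ∧
      Nat.card G = Nat.card Q * Nat.card ↥(MulAction.stabilizer G a ⊓ MulAction.stabilizer G (t • a)) * (Nat.card Q + 1) ∧
      (∃ P : Sylow 2 G, (P : Subgroup G) ≤ Q) ∧
      ∀ g : G, g ∉ MulAction.stabilizer G a → ∃! p : G × G, p.1 ∈ MulAction.stabilizer G a ∧ p.2 ∈ Q ∧ g = p.1 * t * p.2 := by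
  refine ⟨?_, card_Omega hS, card_G hS, exists_sylow_le hS, ?_⟩
  · intro b c hb hc
    obtain ⟨x, hx, hxc⟩ := exists_Q_smul hS hb hc
    refine ⟨⟨x, hx⟩, hxc, ?_⟩
    rintro ⟨y, hy⟩ hyc
    exact Subtype.ext (Q_smul_inj hS hy hx hb (hyc.trans hxc.symm))
  · intro g hg
    have hga : g⁻¹ • a ≠ a := by
      intro h
      apply hg
      rw [mem_stabilizer_iff]
      exact (inv_smul_eq_iff.mp h).symm
    obtain ⟨y, hy, hyb⟩ := exists_Q_smul_b hS hga
    refine ⟨(g * y * t, y⁻¹), ⟨?_, Q.inv_mem hy, ?_⟩, ?_⟩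
    · rw [mem_stabilizer_iff, mul_smul, mul_smul, hyb, smul_inv_smul]
    · simp only
      rw [mul_assoc (g * y), hS.mul_self, mul_one, mul_inv_cancel_right]
    · rintro ⟨x, z⟩ ⟨hx, hz, hgxz⟩
      simp only at hx hz hgxz
      have h1 : z⁻¹ • t • a = g⁻¹ • a := by
        rw [hgxz]
        simp only [mul_inv_rev, mul_smul, t_inv hS]
        rw [inv_smul_eq_iff.mpr hx.symm]
      have h2 : z⁻¹ = y := Q_smul_inj hS (Q.inv_mem hz) hy (ta_ne hS) (h1.trans hyb.symm)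
      have h3 : z = y⁻¹ := by rw [← h2, inv_inv]
      refine Prod.ext ?_ h3
      simp only
      rw [hgxz, h3, inv_mul_cancel_right, mul_assoc, hS.mul_self, mul_one]

end Cfsg.Agent.S1119
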