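import Cfsg.Statements.S1120
import Cfsg.Agent.Lib.Helper24RankOne
import Cfsg.Agent.Lib.Helper24FourGroup

set_option autoImplicit false
open Cfsg

namespace Cfsg.Agent.S1120

open MulAction Cfsg.Agent.Lib.Helper24RankOne Cfsg.Agent.Lib.Helper24FourGroup

/-- In the rank-one set-up (`G` finite and doubly transitive on `Ω`, `t` an involution moving `a`, `Q` normal in `G_a` with `G_a = Q D`, `Q ⊓ D = 1` for the two-point stabiliser `D = G_a ⊓ G_{t • a}`, `|Q|` even, `|D|` odd), if `G` has 2-rank at least 2 then `O_{2'}(G)` equals the normal core of `G_a`. -/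
theorem result {G Ω : Type*} [Group G] [Finite G] [MulAction G Ω] {a : Ω} {t : G} {Q : Subgroup G}
    (hS : Cfsg.IsRankOneSetup G Ω a t Q)
    (h2 : ∃ x y : G, x ≠ 1 ∧ y ≠ 1 ∧ x ≠ y ∧ x * x = 1 ∧ y * y = 1 ∧ x * y = y * x) :
    Cfsg.pPrimeCore 2 G = (MulAction.stabilizer G a).normalCore := by
  obtain ⟨x, y, hx1, hy1, hxy, hx, hy, hc⟩ := h2
  apply le_antisymm
  · apply sSup_le
    rintro N ⟨hN, hcop⟩
    rw [Subgroup.normal_le_normalCore]
    obtain ⟨c, hxc⟩ := exists_fixed hS hx
    have hyc : y • c = c := commute_fixed hS hx1 hx hxc hc.symm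
    have hxy1 : x * y ≠ 1 := by
      intro h
      apply hxy
      have : x = y⁻¹ := eq_inv_of_mul_eq_one_left h
      rw [this, inv_eq_of_mul_eq_one_left hy]
    have hxy2 : (x * y) * (x * y) = 1 := by
      have : x * y * (x * y) = x * (y * x) * y := by group
      rw [this, ← hc, ← mul_assoc, hx, one_mul, hy]
    have hxyc : (x * y) • c = c := by rw [mul_smul, hyc, hxc]
    have hodd : ∀ n ∈ N, Odd (orderOf n) := by
      intro n hn
      have h1 : orderOf n ∣ Nat.card N := Subgroup.orderOf_dvd_natCard _ hn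
      have h2 : (orderOf n).Coprime 2 := Nat.Coprime.coprime_dvd_left h1 hcop
      exact Nat.Coprime.odd_of_left h2.symm
    have hle : N ≤ stabilizer G c := by
      apply four_group_le hx hy hc hodd (fun n hn => hN.conj_mem n hn x)
        (fun n hn => hN.conj_mem n hn y)
      · intro n _ h
        exact commute_fixed hS hx1 hx hxc (mul_inv_eq_iff_eq_mul.mp h).symm
      · intro n _ h
        exact commute_fixed hS hy1 hy hyc (mul_inv_eq_iff_eq_mul.mp h).symm
      · intro n _ h
        exact commute_fixed hS hxy1 hxy2 hxyc (mul_inv_eq_iff_eq_mul.mp h).symm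
    intro n hn
    obtain ⟨g, hg⟩ := exists_smul_a hS c
    have h1 : (g * n * g⁻¹) • c = c := hle (hN.conj_mem n hn g)
    rw [← hg, mul_smul, mul_smul, inv_smul_smul] at h1
    exact smul_left_cancel g h1
  · apply le_sSup
    refine ⟨Subgroup.normalCore_normal _, ?_⟩
    have hle : (stabilizer G a).normalCore ≤ DD G a t := by
      intro n hn
      rw [mem_DD]
      refine ⟨Subgroup.normalCore_le _ hn, ?_⟩
      have h1 : (t⁻¹ * n * t⁻¹⁻¹) • a = a :=
        Subgroup.normalCore_le _ ((Subgroup.normalCore_normal _).conj_mem n hn t⁻¹)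
      rw [inv_inv, mul_smul, mul_smul, inv_smul_eq_iff] at h1
      exact h1
    have h1 : Odd (Nat.card (stabilizer G a).normalCore) :=
      Odd.of_dvd_nat hS.odd_card (Subgroup.card_dvd_of_le hle)
    exact Nat.Coprime.symm (Nat.coprime_two_left.mpr h1)

end Cfsg.Agent.S1120
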