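import Cfsg.Statements.S1123
import Cfsg.Agent.Lib.Helper24RankOneB

set_option autoImplicit false
open Cfsg

namespace Cfsg.Agent.S1123

open Cfsg.Agent.Lib.Helper24RankOne Cfsg.Agent.Lib.Helper24RankOneB

/-- In the rank-one set-up (`G` finite and doubly transitive on `Ω`, `t` an involution moving `a`, `Q` normal in `G_a` with `G_a = Q D`, `Q ⊓ D = 1` for the two-point stabiliser `D = G_a ⊓ G_{t • a}`, `|Q|` even, `|D|` odd), there is a unique pair `(s, r)` with `s` an involution of `G_a`, `r ∈ Q` and `t s t = r⁻¹ t r`. -/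
theorem result {G Ω : Type*} [Group G] [Finite G] [MulAction G Ω] {a : Ω} {t : G} {Q : Subgroup G}
    (hS : Cfsg.IsRankOneSetup G Ω a t Q) :
    ∃! p : G × G, p.1 ∈ Cfsg.involutionsIn (MulAction.stabilizer G a : Set G) ∧ p.2 ∈ Q ∧
      t * p.1 * t = p.2⁻¹ * t * p.2 := by
  obtain ⟨s, hs, r, hr, h⟩ := rel_exists_left hS (t_mem_Jab hS)
  refine ⟨(s, r), ⟨hs, hr, h⟩, ?_⟩
  rintro ⟨s', r'⟩ ⟨hs', hr', h'⟩
  simp only at hs' hr' h'
  have e1 : s' = s := rel_left_unique hS hs'.1 hs.1 (t_mem_Jab hS) ⟨r', hr', h'⟩ ⟨r, hr, h⟩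
  subst e1
  have e : r'⁻¹ * t * r' = r⁻¹ * t * r := h'.symm.trans h
  have h1 : r'⁻¹ • t • a = r⁻¹ • t • a := by
    have := congrArg (fun z : G => z • a) e
    simpa [mul_smul, Q_smul_a hS hr, Q_smul_a hS hr'] using this
  have h2 : r'⁻¹ = r⁻¹ := Q_smul_inj hS (Q.inv_mem hr') (Q.inv_mem hr) (ta_ne hS) h1
  rw [inv_injective h2]

end Cfsg.Agent.S1123
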