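import Cfsg.Statements.S1124
import Cfsg.Agent.Lib.Helper24Invert

set_option autoImplicit false
open Cfsg

open scoped Pointwise

namespace Cfsg.Agent.S1124

open Cfsg.Agent.Lib.Helper24Invert

/-- Let `t` be an element of order 2 of a finite group normalising a subgroup `X` of odd order, `Y = C_X(t)` and `Z` the set of elements of `X` inverted by `t`. Then `(y, z) ↦ y z` is a bijection `Y × Z → X`, so `|X| = |Y| |Z|`, and the subgroup generated by `Z` is normal in `X`. -/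
theorem result {M : Type*} [Group M] [Finite M]
    (t : M) (ht : orderOf t = 2) (X : Subgroup M) (hodd : Odd (Nat.card X))
    (hnorm : ∀ x ∈ X, t * x * t⁻¹ ∈ X) :
    (∀ x ∈ X, ∃! p : M × M, p.1 ∈ X ⊓ Subgroup.centralizer {t} ∧ p.2 ∈ Cfsg.invertedBy X t ∧ x = p.1 * p.2) ∧
      Nat.card X = Nat.card ↥(X ⊓ Subgroup.centralizer {t}) * Nat.card (Cfsg.invertedBy X t) ∧
      ∀ x ∈ X, MulAut.conj x • Subgroup.closure (Cfsg.invertedBy X t) = Subgroup.closure (Cfsg.invertedBy X t) := by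
  have htt : t * t = 1 := by rw [← pow_two, ← ht, pow_orderOf_eq_one]
  have ho : ∀ x ∈ X, Odd (orderOf x) := fun x hx =>
    Odd.of_dvd_nat hodd (Subgroup.orderOf_dvd_natCard _ hx)
  have hc : ∀ y : M, y ∈ X ⊓ Subgroup.centralizer {t} ↔ y ∈ X ∧ t * y * t⁻¹ = y := by
    intro y
    rw [Subgroup.mem_inf, Subgroup.mem_centralizer_singleton_iff, mul_inv_eq_iff_eq_mul,
      eq_comm (a := y * t)]
  have h1 : ∀ x ∈ X, ∃! p : M × M, p.1 ∈ X ⊓ Subgroup.centralizer {t} ∧
      p.2 ∈ Cfsg.invertedBy X t ∧ x = p.1 * p.2 := by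
    intro x hx
    obtain ⟨y, z, hy, hyt, hz, hxyz⟩ := factor_exists htt ho hnorm hx
    refine ⟨(y, z), ⟨(hc y).mpr ⟨hy, hyt⟩, hz, hxyz⟩, ?_⟩
    rintro ⟨y', z'⟩ ⟨hy', hz', hx'⟩
    simp only at hy' hz' hx'
    obtain ⟨e1, e2⟩ := factor_unique ho ((hc y').mp hy').2 hz' hyt hz (hx'.symm.trans hxyz)
    rw [e1, e2]
  refine ⟨h1, ?_, ?_⟩
  · have e : ↥(X ⊓ Subgroup.centralizer {t}) × (Cfsg.invertedBy X t) ≃ X :=
      Equiv.ofBijective (fun p => ⟨(p.1 : M) * (p.2 : M), X.mul_mem p.1.2.1 p.2.2.1⟩) (by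
        constructor
        · rintro ⟨y, z⟩ ⟨y', z'⟩ h
          have h' : (y : M) * z = y' * z' := congrArg Subtype.val h
          obtain ⟨e1, e2⟩ := factor_unique ho ((hc y).mp y.2).2 z.2 ((hc y').mp y'.2).2 z'.2 h'
          exact Prod.ext (Subtype.ext e1) (Subtype.ext e2)
        · rintro ⟨x, hx⟩
          obtain ⟨y, z, hy, hyt, hz, hxyz⟩ := factor_exists htt ho hnorm hx
          exact ⟨(⟨y, (hc y).mpr ⟨hy, hyt⟩⟩, ⟨z, hz⟩), Subtype.ext hxyz.symm⟩)
    rw [← Nat.card_congr e, Nat.card_prod]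
  · have hN : X ≤ Subgroup.normalizer (Subgroup.closure (Cfsg.invertedBy X t) : Set M) := by
      rw [Subgroup.le_normalizer_closure_iff]
      intro x hx z hz
      obtain ⟨y, z₀, hy, hyt, hz₀, rfl⟩ := factor_exists htt ho hnorm hx
      have h2 : Subgroup.closure (Cfsg.invertedBy X t) ≤
          (Subgroup.closure (Cfsg.invertedBy X t)).comap (MulAut.conj y).toMonoidHom := by
        rw [Subgroup.closure_le]
        intro w hw
        apply Subgroup.subset_closure
        show y * w * y⁻¹ ∈ Cfsg.invertedBy X t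
        refine ⟨X.mul_mem (X.mul_mem hy hw.1) (X.inv_mem hy), ?_⟩
        have : t * (y * w * y⁻¹) * t⁻¹ = (t * y * t⁻¹) * (t * w * t⁻¹) * (t * y * t⁻¹)⁻¹ := by group
        rw [this, hyt, hw.2]; group
      have h3 : z₀ * z * z₀⁻¹ ∈ Subgroup.closure (Cfsg.invertedBy X t) :=
        Subgroup.mul_mem _ (Subgroup.mul_mem _ (Subgroup.subset_closure hz₀)
          (Subgroup.subset_closure hz)) (Subgroup.inv_mem _ (Subgroup.subset_closure hz₀))
      have h4 := h2 h3
      simp only [Subgroup.mem_comap, MulEquiv.coe_toMonoidHom, MulAut.conj_apply] at h4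
      convert h4 using 1
      group
    intro x hx
    exact Subgroup.mem_normalizer_iff_map_conj_eq.mp (hN hx)

end Cfsg.Agent.S1124
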