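import Cfsg.Statements.S1127
import Cfsg.Agent.Lib.Helper24RankOneB

set_option autoImplicit false
open Cfsg

namespace Cfsg.Agent.S1127

open MulAction Cfsg.Agent.Lib.Helper24Invert Cfsg.Agent.Lib.Helper24RankOne Cfsg.Agent.Lib.Helper24RankOneB

theorem cent_iff {G Ω : Type*} [Group G] [Finite G] [MulAction G Ω] {a : Ω} {t : G} {Q : Subgroup G}
    (hS : Cfsg.IsRankOneSetup G Ω a t Q) {s : G}
    (hs : s ∈ Cfsg.involutionsIn (MulAction.stabilizer G a : Set G)) (hR : Rel Q t s t) {d : G}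
    (hd : d ∈ DD G a t) : d * t = t * d ↔ d * s = s * d := by
  have hR2 := rel_conj hS hd hR
  constructor
  · intro h
    have e1 : t * d * t = d := by rw [← h, mul_assoc, hS.mul_self, mul_one]
    have e2 : d * t * d⁻¹ = t := by rw [h, mul_inv_cancel_right]
    rw [e1, e2] at hR2
    have hda : d • a = a := (mem_DD.mp hd).1
    have h3 : d * s * d⁻¹ = s := by
      refine rel_left_unique hS ?_ hs.1 (t_mem_Jab hS) hR2 hR
      rw [mul_smul, mul_smul, inv_smul_eq_iff.mpr hda.symm, (mem_Ia.mp hs).1, hda]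
    exact mul_inv_eq_iff_eq_mul.mp h3
  · intro h
    have e2 : d * s * d⁻¹ = s := by rw [h, mul_inv_cancel_right]
    rw [e2] at hR2
    have h3 := rel_right_unique hS (Jab_conj_DD (t_mem_Jab hS) (t_conj_DD hS hd)) (t_mem_Jab hS)
      hR2 hR
    have h4 : t * d * t * t = t * (t * d * t) := mul_inv_eq_iff_eq_mul.mp h3
    rw [mul_assoc (t * d), hS.mul_self, mul_one, ← mul_assoc, ← mul_assoc, hS.mul_self,
      one_mul] at h4
    exact h4.symm

/-- In the rank-one set-up (`G` finite and doubly transitive on `Ω`, `t` an involution moving `a`, `Q` normal in `G_a` with `G_a = Q D`, `Q ⊓ D = 1` for the two-point stabiliser `D = G_a ⊓ G_{t • a}`, `|Q|` even, `|D|` odd): if `s` is an involution of `G_a` and `r ∈ Q` satisfy `t s t = r⁻¹ t r`, then `C_D(t) = C_D(s)`; moreover `C_D(t) ⊓ C_D(K) = C_D(I ∩ G_a)`, where `K` is the set of elements of `D` inverted by `t` and `I ∩ G_a` the set of involutions of `G_a`. -/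
theorem result {G Ω : Type*} [Group G] [Finite G] [MulAction G Ω] {a : Ω} {t : G} {Q : Subgroup G}
    (hS : Cfsg.IsRankOneSetup G Ω a t Q) :
    (∀ s r : G, s ∈ Cfsg.involutionsIn (MulAction.stabilizer G a : Set G) → r ∈ Q → t * s * t = r⁻¹ * t * r →
        (MulAction.stabilizer G a ⊓ MulAction.stabilizer G (t • a)) ⊓ Subgroup.centralizer {t} = (MulAction.stabilizer G a ⊓ MulAction.stabilizer G (t • a)) ⊓ Subgroup.centralizer {s}) ∧
      (MulAction.stabilizer G a ⊓ MulAction.stabilizer G (t • a)) ⊓ Subgroup.centralizer {t} ⊓ Subgroup.centralizer (Cfsg.invertedBy (MulAction.stabilizer G a ⊓ MulAction.stabilizer G (t • a)) t) =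
        (MulAction.stabilizer G a ⊓ MulAction.stabilizer G (t • a)) ⊓ Subgroup.centralizer (Cfsg.involutionsIn (MulAction.stabilizer G a : Set G)) := by
  constructor
  · intro s r hs hr h
    ext d
    simp only [Subgroup.mem_inf (p' := Subgroup.centralizer _), Subgroup.mem_centralizer_singleton_iff]
    constructor
    · rintro ⟨hd, h1⟩
      exact ⟨hd, (cent_iff hS hs ⟨r, hr, h⟩ hd).mp h1⟩
    · rintro ⟨hd, h1⟩
      exact ⟨hd, (cent_iff hS hs ⟨r, hr, h⟩ hd).mpr h1⟩
  · obtain ⟨s₀, hs₀, hR⟩ := rel_exists_left hS (t_mem_Jab hS)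
    ext d
    simp only [Subgroup.mem_inf (p' := Subgroup.centralizer _), Subgroup.mem_centralizer_singleton_iff]
    simp only [Subgroup.mem_centralizer_iff]
    constructor
    · rintro ⟨⟨hd, h1⟩, h2⟩
      refine ⟨hd, ?_⟩
      intro s' hs'
      obtain ⟨k, hk, rfl⟩ := inverted_trans hS hs₀ hs'
      have c1 : Commute d s₀ := (cent_iff hS hs₀ hR hd).mp h1
      have c2 : Commute d k := (h2 k hk).symm
      exact (((c2.inv_right).mul_right c1).mul_right c2).symm
    · rintro ⟨hd, h1⟩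
      have c0 : d * t = t * d := (cent_iff hS hs₀ hR hd).mpr (h1 s₀ hs₀).symm
      refine ⟨⟨hd, c0⟩, ?_⟩
      intro k hk
      have hka : k • a = a := (mem_DD.mp hk.1).1
      have hs' : k⁻¹ * s₀ * k ∈ Cfsg.involutionsIn (MulAction.stabilizer G a : Set G) := by
        obtain ⟨e1, e2⟩ := conj_invol (g := k⁻¹) hs₀.2.1 hs₀.2.2
        rw [inv_inv] at e1 e2
        refine ⟨?_, e1, e2⟩
        show (k⁻¹ * s₀ * k) • a = a
        rw [mul_smul, mul_smul, hka, (mem_Ia.mp hs₀).1, inv_smul_eq_iff, hka]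
      have c1 := h1 _ hs'
      have hkd : k * d * k⁻¹ ∈ DD G a t :=
        (DD G a t).mul_mem ((DD G a t).mul_mem hk.1 hd) ((DD G a t).inv_mem hk.1)
      have c2 : (k * d * k⁻¹) * s₀ = s₀ * (k * d * k⁻¹) := by
        have e : s₀ = k * (k⁻¹ * s₀ * k) * k⁻¹ := by group
        have : k * d * k⁻¹ * (k * (k⁻¹ * s₀ * k) * k⁻¹) = k * (d * (k⁻¹ * s₀ * k)) * k⁻¹ := by group
        nth_rewrite 1 [e]
        rw [this, ← c1]; group
      have c3 := (cent_iff hS hs₀ hR hkd).mpr c2
      have c4 : t * (k * d * k⁻¹) * t⁻¹ = k * d * k⁻¹ := by rw [← c3, mul_inv_cancel_right]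
      have c5 : t * (k * d * k⁻¹) * t⁻¹ = (t * k * t⁻¹) * (t * d * t⁻¹) * (t * k * t⁻¹)⁻¹ := by group
      rw [c5, hk.2, ← c0, mul_inv_cancel_right, inv_inv] at c4
      have c6 : Commute (k * k) d := by
        show k * k * d = d * (k * k)
        have := congrArg (fun z => k * z * k) c4
        beta_reduce at this
        have e1 : k * (k⁻¹ * d * k) * k = d * (k * k) := by group
        have e2 : k * (k * d * k⁻¹) * k = k * k * d := by group
        rw [e1, e2] at this
        exact this.symm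
      exact commute_of_commute_sq (odd_orderOf_DD hS hk.1) c6

end Cfsg.Agent.S1127
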