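import Cfsg.Statements.S1134
import Cfsg.Agent.Lib.Helper24RankOneC

set_option autoImplicit false
open Cfsg

namespace Cfsg.Agent.S1134

open MulAction Cfsg.Agent.Lib.Helper24Invert Cfsg.Agent.Lib.Helper24RankOne
  Cfsg.Agent.Lib.Helper24RankOneB Cfsg.Agent.Lib.Helper24RankOneC

theorem aux {G Ω : Type*} [Group G] [Finite G] [MulAction G Ω] {a : Ω} {t : G} {Q : Subgroup G}
    (hS : Cfsg.IsRankOneSetup G Ω a t Q)
    (X : Set G) (hXD : X ⊆ (DD G a t : Set G)) (hXt : ∀ x ∈ X, x * t = t * x) (g : G)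
    (hYD : ∀ x ∈ X, g * x * g⁻¹ ∈ DD G a t) (hYt : ∀ x ∈ X, (g * x * g⁻¹) * t = t * (g * x * g⁻¹)) :
    ∃ v ∈ DD G a t, v * t = t * v ∧ ∀ x ∈ X, v * x * v⁻¹ = g * x * g⁻¹ := by
  -- the fixed point of `t`
  obtain ⟨e, he⟩ := exists_fixed hS hS.mul_self
  have h3 : ∃ f : Ω, f ≠ a ∧ f ≠ t • a ∧ ∀ x ∈ X, x • f = f := by
    refine ⟨e, ?_, ?_, fun x hx => commute_fixed hS hS.ne_one hS.mul_self he (hXt x hx)⟩
    · rintro rfl
      exact ta_ne hS he
    · intro h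
      apply ta_ne hS
      have h1 : t • e = a := by rw [h, tt_smul hS]
      rw [← h, ← he, h1]
  have hfa : ∀ x ∈ X, x • g⁻¹ • a = g⁻¹ • a := by
    intro x hx
    have := (mem_DD.mp (hYD x hx)).1
    rw [mul_smul, mul_smul] at this
    exact (smul_eq_iff_eq_inv_smul g).mp this
  have hfb : ∀ x ∈ X, x • g⁻¹ • t • a = g⁻¹ • t • a := by
    intro x hx
    have := (mem_DD.mp (hYD x hx)).2
    rw [mul_smul, mul_smul] at this
    exact (smul_eq_iff_eq_inv_smul g).mp this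
  obtain ⟨c, hc, hca, hcb⟩ := cent_two_trans hS hXD h3 (X_fix_a hXD) (X_fix_b hXD) hfa hfb
    (ta_ne hS).symm (fun h => (ta_ne hS).symm (smul_left_cancel g⁻¹ h))
  have hcX : ∀ x ∈ X, c * x * c⁻¹ = x := by
    intro x hx
    rw [← (Subgroup.mem_centralizer_iff.mp hc) x hx, mul_inv_cancel_right]
  set g' := g * c with hg'
  have hg'D : g' ∈ DD G a t := by
    rw [mem_DD]
    exact ⟨by rw [hg', mul_smul, hca, smul_inv_smul], by rw [hg', mul_smul, hcb, smul_inv_smul]⟩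
  have hg'X : ∀ x ∈ X, g' * x * g'⁻¹ = g * x * g⁻¹ := by
    intro x hx
    have : g' * x * g'⁻¹ = g * (c * x * c⁻¹) * g⁻¹ := by rw [hg']; group
    rw [this, hcX x hx]
  -- the second involution
  set t' := g'⁻¹ * t * g' with ht'
  have ht'J : t' ∈ Jab G a t := by
    have := Jab_conj_DD (t_mem_Jab hS) ((DD G a t).inv_mem hg'D)
    rwa [inv_inv] at this
  have ht'X : ∀ x ∈ X, x * t' = t' * x := by
    intro x hx
    have h1 := hYt x hx
    rw [← hg'X x hx] at h1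
    have e1 : x * t' = g'⁻¹ * ((g' * x * g'⁻¹) * t) * g' := by rw [ht']; group
    have e2 : t' * x = g'⁻¹ * (t * (g' * x * g'⁻¹)) * g' := by rw [ht']; group
    rw [e1, e2, h1]
  have hρD : t * t' ∈ DD G a t := Jab_mul_Jab (t_mem_Jab hS) ht'J
  obtain ⟨n, hn⟩ := sqrt_exists (odd_orderOf_DD hS hρD)
  have hρinv : t * t' ∈ invertedBy (DD G a t) t := t_mul_Jab hS ht'J
  have hrn := inverted_pow hρinv n
  set r := (t * t') ^ n with hr
  have hrX : ∀ x ∈ X, r * x = x * r := by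
    intro x hx
    have c1 : Commute (t * t') x :=
      (Commute.mul_left (show Commute t x from (hXt x hx).symm)
        (show Commute t' x from (ht'X x hx).symm))
    exact (c1.pow_left n)
  have e1 : t * r = r⁻¹ * t := mul_inv_eq_iff_eq_mul.mp hrn.2
  have e2 : r⁻¹ * t * r = t' := by
    rw [← e1, mul_assoc, hn, ← mul_assoc, hS.mul_self, one_mul]
  refine ⟨g' * r⁻¹, (DD G a t).mul_mem hg'D ((DD G a t).inv_mem hrn.1), ?_, ?_⟩
  · have e3 : g' * r⁻¹ * t = g' * (r⁻¹ * t * r) * r⁻¹ := by group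
    rw [e3, e2, ht']; group
  · intro x hx
    have e3 : g' * r⁻¹ * x * (g' * r⁻¹)⁻¹ = g' * (r⁻¹ * (x * r)) * g'⁻¹ := by group
    rw [e3, ← hrX x hx, inv_mul_cancel_left, hg'X x hx]

/-- In the rank-one set-up (`G` finite and doubly transitive on `Ω`, `t` an involution moving `a`, `Q` normal in `G_a` with `G_a = Q D`, `Q ⊓ D = 1` for the two-point stabiliser `D = G_a ⊓ G_{t • a}`, `|Q|` even, `|D|` odd), with the action faithful and `G` containing two distinct commuting involutions, with `V = C_D(t)`: subsets of `V` conjugate in `G` are conjugate in `V`. -/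
theorem result {G Ω : Type*} [Group G] [Finite G] [MulAction G Ω] [FaithfulSMul G Ω] {a : Ω} {t : G} {Q : Subgroup G}
    (hS : Cfsg.IsRankOneSetup G Ω a t Q)
    (h2 : ∃ x y : G, x ≠ 1 ∧ y ≠ 1 ∧ x ≠ y ∧ x * x = 1 ∧ y * y = 1 ∧ x * y = y * x)
    (X : Set G) (hX : X ⊆ (((MulAction.stabilizer G a ⊓ MulAction.stabilizer G (t • a)) ⊓ Subgroup.centralizer {t} : Subgroup G) : Set G)) (g : G)
    (hY : (fun x => g * x * g⁻¹) '' X ⊆ (((MulAction.stabilizer G a ⊓ MulAction.stabilizer G (t • a)) ⊓ Subgroup.centralizer {t} : Subgroup G) : Set G)) :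
    ∃ v ∈ (MulAction.stabilizer G a ⊓ MulAction.stabilizer G (t • a)) ⊓ Subgroup.centralizer {t}, (fun x => v * x * v⁻¹) '' X = (fun x => g * x * g⁻¹) '' X := by
  obtain ⟨v, hv, hvt, hvX⟩ := aux hS X (fun x hx => (Subgroup.mem_inf.mp (hX hx)).1)
    (fun x hx => Subgroup.mem_centralizer_singleton_iff.mp (Subgroup.mem_inf.mp (hX hx)).2) g
    (fun x hx => (Subgroup.mem_inf.mp (hY ⟨x, hx, rfl⟩)).1)
    (fun x hx => Subgroup.mem_centralizer_singleton_iff.mp (Subgroup.mem_inf.mp (hY ⟨x, hx, rfl⟩)).2)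
  exact ⟨v, Subgroup.mem_inf.mpr ⟨hv, Subgroup.mem_centralizer_singleton_iff.mpr hvt⟩,
    Set.image_congr hvX⟩

end Cfsg.Agent.S1134
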