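import Cfsg.Statements.S1135
import Cfsg.Agent.Lib.Helper24RankOneD

set_option autoImplicit false
set_option linter.unusedSectionVars false
set_option linter.style.haveILetI false
open Cfsg

namespace Cfsg.Agent.S1135

open MulAction Cfsg.Agent.Lib.Helper24Invert Cfsg.Agent.Lib.Helper24RankOne
  Cfsg.Agent.Lib.Helper24RankOneB Cfsg.Agent.Lib.Helper24RankOneC Cfsg.Agent.Lib.Helper24RankOneD

variable {G Ω : Type*} [Group G] [Finite G] [MulAction G Ω] {a : Ω} {t : G} {Q : Subgroup G}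

theorem conj_mem_Ia {u g : G} (hu1 : u ≠ 1) (hu2 : u * u = 1) {c : Ω} (hc : u • c = c)
    (hg : g • c = a) : g * u * g⁻¹ ∈ involutionsIn (stabilizer G a : Set G) := by
  obtain ⟨e1, e2⟩ := conj_invol (g := g) hu1 hu2
  refine ⟨?_, e1, e2⟩
  show (g * u * g⁻¹) • a = a
  rw [← hg, mul_smul, mul_smul, inv_smul_smul, hc]

theorem commute_of_same_fixed (hS : Cfsg.IsRankOneSetup G Ω a t Q) {u v : G} (hu1 : u ≠ 1)
    (hu2 : u * u = 1) (hv1 : v ≠ 1) (hv2 : v * v = 1) {c : Ω} (hu : u • c = c) (hv : v • c = c) :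
    u * v = v * u := by
  obtain ⟨g, hg⟩ := (pretrans hS).exists_smul_eq c a
  have h1 := conj_mem_Ia hu1 hu2 hu hg
  have h2 := conj_mem_Ia hv1 hv2 hv hg
  have h3 := invol_central hS h1 (invol_mem_Q hS h2.1 h2.2.2)
  have e1 : g * u * g⁻¹ * (g * v * g⁻¹) = g * (u * v) * g⁻¹ := by group
  have e2 : g * v * g⁻¹ * (g * u * g⁻¹) = g * (v * u) * g⁻¹ := by group
  rw [e1, e2] at h3
  exact mul_left_cancel (mul_right_cancel h3)

theorem inverts_DD (hS : Cfsg.IsRankOneSetup G Ω a t Q) {x y : G} (hx : x ∈ DD G a t)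
    (hy : y ∈ stabilizer G a) (h : y * x * y⁻¹ = x⁻¹) : x = 1 := by
  obtain ⟨q, hq, d, hd, rfl⟩ := Ga_eq_mul hS hy
  set x₃ := d * x * d⁻¹ with hx₃
  have hx₃D : x₃ ∈ DD G a t := (DD G a t).mul_mem ((DD G a t).mul_mem hd hx) ((DD G a t).inv_mem hd)
  have e1 : q * x₃ * q⁻¹ = x⁻¹ := by rw [← h, hx₃]; group
  have e2 : q * (x₃ * q⁻¹ * x₃⁻¹) = x⁻¹ * x₃⁻¹ := by rw [← e1]; group
  have h1 : x⁻¹ * x₃⁻¹ ∈ Q ⊓ stabilizer G (t • a) := by
    refine Subgroup.mem_inf.mpr ⟨?_, ?_⟩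
    · rw [← e2]
      exact Q.mul_mem hq (hS.conj_mem x₃ hx₃D.1 _ (Q.inv_mem hq))
    · exact ((DD G a t).mul_mem ((DD G a t).inv_mem hx) ((DD G a t).inv_mem hx₃D)).2
  rw [hS.inf_eq_bot, Subgroup.mem_bot] at h1
  have e3 : d * x * d⁻¹ = x⁻¹ := by
    have : x₃⁻¹ = x := by
      have := congrArg (fun z => x * z) h1
      simpa using this
    rw [← hx₃, ← this, inv_inv]
  have e4 := Cfsg.Agent.S1128.eq_inv_of_odd_inverts (odd_orderOf_DD hS hd) e3
  apply eq_one_of_sq (odd_orderOf_DD hS hx)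
  nth_rewrite 1 [e4]
  exact inv_mul_cancel x

/-- In the rank-one set-up (`G` finite and doubly transitive on `Ω`, `t` an involution moving `a`, `Q` normal in `G_a` with `G_a = Q D`, `Q ⊓ D = 1` for the two-point stabiliser `D = G_a ⊓ G_{t • a}`, `|Q|` even, `|D|` odd), with the action faithful and `G` containing two distinct commuting involutions: if `x = u v` with `u, v` involutions and `x² ≠ 1`, then `x` is conjugate to `u' t` for some involution `u'` of `G_a`, and `|C_G(x)|` is odd. -/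
theorem result {G Ω : Type*} [Group G] [Finite G] [MulAction G Ω] [FaithfulSMul G Ω] {a : Ω} {t : G} {Q : Subgroup G}
    (hS : Cfsg.IsRankOneSetup G Ω a t Q)
    (h2 : ∃ x y : G, x ≠ 1 ∧ y ≠ 1 ∧ x ≠ y ∧ x * x = 1 ∧ y * y = 1 ∧ x * y = y * x)
    (u v : G) (hu1 : u ≠ 1) (hu2 : u * u = 1) (hv1 : v ≠ 1) (hv2 : v * v = 1) (hx : (u * v) * (u * v) ≠ 1) :
    (∃ g : G, ∃ u' ∈ Cfsg.involutionsIn (MulAction.stabilizer G a : Set G), g * (u * v) * g⁻¹ = u' * t) ∧
      Odd (Nat.card ↥(Subgroup.centralizer {u * v})) := by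
  have hnofix : ∀ f : Ω, u • f = f → v • f = f → False := by
    intro f h1 h2
    apply hx
    have c := commute_of_same_fixed hS hu1 hu2 hv1 hv2 h1 h2
    have : u * v * (u * v) = u * (v * u) * v := by group
    rw [this, ← c, ← mul_assoc, hu2, one_mul, hv2]
  have hui : u⁻¹ = u := inv_eq_of_mul_eq_one_left hu2
  have hvi : v⁻¹ = v := inv_eq_of_mul_eq_one_left hv2
  constructor
  · obtain ⟨c, hc⟩ := exists_fixed hS hu2
    obtain ⟨g₁, hg₁⟩ := invol_conj hS hv1 hv2 hS.ne_one hS.mul_self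
    obtain ⟨e, he⟩ := exists_fixed hS hS.mul_self
    have hea : e ≠ a := by
      rintro rfl
      exact ta_ne hS he
    have hc₁e : g₁ • c ≠ e := by
      intro h
      apply hnofix c hc
      have : (g₁ * v * g₁⁻¹) • g₁ • c = g₁ • c := by rw [hg₁, h, he]
      rw [mul_smul, mul_smul, inv_smul_smul] at this
      exact smul_left_cancel g₁ this
    obtain ⟨g₂, hg₂⟩ := (pretrans hS).exists_smul_eq e a
    have ht₂ := conj_mem_Ia hS.ne_one hS.mul_self he hg₂
    have n1 : g₂ • g₁ • c ≠ a := by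
      rw [← hg₂]
      exact fun h => hc₁e (smul_left_cancel g₂ h)
    have n2 : g₂ • a ≠ a := by
      intro h
      exact hea (smul_left_cancel g₂ (h.trans hg₂.symm)).symm
    obtain ⟨q, hq, hqc⟩ := exists_Q_smul hS n1 n2
    have hqt := invol_central hS ht₂ hq
    set h := g₂⁻¹ * q * g₂ with hh
    have hht : h * t * h⁻¹ = t := by
      have e1 : h * t * h⁻¹ = g₂⁻¹ * (q * (g₂ * t * g₂⁻¹)) * q⁻¹ * g₂ := by rw [hh]; group
      rw [e1, ← hqt]; group
    have hhc : h • g₁ • c = a := by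
      rw [hh, mul_smul, mul_smul, hqc, inv_smul_smul]
    refine ⟨h * g₁, (h * g₁) * u * (h * g₁)⁻¹, conj_mem_Ia hu1 hu2 hc (by rw [mul_smul, hhc]), ?_⟩
    have e1 : h * g₁ * (u * v) * (h * g₁)⁻¹ =
        (h * g₁ * u * (h * g₁)⁻¹) * (h * (g₁ * v * g₁⁻¹) * h⁻¹) := by group
    rw [e1, hg₁, hht]
  · by_contra hodd
    rw [Nat.not_odd_iff_even, even_iff_two_dvd] at hodd
    haveI : Fact (Nat.Prime 2) := ⟨Nat.prime_two⟩
    obtain ⟨⟨z, hzc⟩, hz⟩ := exists_prime_orderOf_dvd_card' 2 hodd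
    rw [Subgroup.orderOf_mk] at hz
    have hz1 : z ≠ 1 := by
      rintro rfl
      simp at hz
    have hz2 : z * z = 1 := by rw [← pow_two, ← hz, pow_orderOf_eq_one]
    rw [Subgroup.mem_centralizer_singleton_iff] at hzc
    set x := u * v with hxdef
    obtain ⟨f, hf⟩ := exists_fixed hS hz2
    have hxf : x • f = f := commute_fixed hS hz1 hz2 hf hzc.symm
    have huxu : u * x * u⁻¹ = x⁻¹ := by
      rw [hxdef, mul_inv_rev, hui, hvi, ← mul_assoc, hu2, one_mul]
    have hxinvf : ∀ w : Ω, x • w = w → x⁻¹ • w = w := fun w hw => inv_smul_eq_iff.mpr hw.symm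
    have huf : u • f ≠ f := by
      intro h
      apply hnofix f h
      have : v = u * x := by rw [hxdef, ← mul_assoc, hu2, one_mul]
      rw [this, mul_smul, hxf, h]
    have hxuf : x • u • f = u • f := by
      have e : x * u = u * x⁻¹ := by
        rw [← huxu, hui]
        have : u * (u * x * u) = (u * u) * x * u := by group
        rw [this, hu2, one_mul]
      rw [← mul_smul, e, mul_smul, hxinvf f hxf]
    have hzuf : z • u • f ≠ u • f := by
      intro h
      exact huf (invol_fixed_unique hS hz1 hz2 h hf)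
    have hzuf2 : z • u • f ≠ f := by
      intro h
      apply huf
      have : z • u • f = z • f := by rw [h, hf]
      exact smul_left_cancel z this
    have hxzuf : x • z • u • f = z • u • f := by
      rw [← mul_smul, ← hzc, mul_smul, hxuf]
    -- move `f`, `u • f` to `a`, `t • a`
    obtain ⟨g, hga, hgb⟩ := (is_two_pretransitive_iff.mp hS.two_transitive) huf.symm (ta_ne hS).symm
    set x₁ := g * x * g⁻¹ with hx₁
    have fixconj : ∀ w : Ω, x • w = w → x₁ • g • w = g • w := by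
      intro w hw
      rw [hx₁, mul_smul, mul_smul, inv_smul_smul, hw]
    have hx₁D : x₁ ∈ DD G a t := by
      rw [mem_DD]
      exact ⟨by rw [← hga]; exact fixconj f hxf, by rw [← hgb]; exact fixconj _ hxuf⟩
    have hX : ({x₁} : Set G) ⊆ (DD G a t : Set G) := by
      rintro _ rfl
      exact hx₁D
    have h3 : ∃ w : Ω, w ≠ a ∧ w ≠ t • a ∧ ∀ y ∈ ({x₁} : Set G), y • w = w := by
      refine ⟨g • z • u • f, ?_, ?_, ?_⟩
      · rw [← hga]
        exact fun h => hzuf2 (smul_left_cancel g h)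
      · rw [← hgb]
        exact fun h => hzuf (smul_left_cancel g h)
      · rintro _ rfl
        exact fixconj _ hxzuf
    set u₁ := g * u * g⁻¹ with hu₁
    have hu₁x₁ : u₁ * x₁ * u₁⁻¹ = x₁⁻¹ := by
      have : u₁ * x₁ * u₁⁻¹ = g * (u * x * u⁻¹) * g⁻¹ := by rw [hu₁, hx₁]; group
      rw [this, huxu, hx₁]; group
    have hfix : ∀ y ∈ ({x₁} : Set G), y • u₁ • a = u₁ • a := by
      rintro _ rfl
      have hu₁2 : u₁ * u₁ = 1 := (conj_invol (g := g) hu1 hu2).2
      have hu₁i : u₁⁻¹ = u₁ := inv_eq_of_mul_eq_one_left hu₁2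
      have e : x₁ * u₁ = u₁ * x₁⁻¹ := by
        rw [← hu₁x₁, hu₁i]
        have : u₁ * (u₁ * x₁ * u₁) = (u₁ * u₁) * x₁ * u₁ := by group
        rw [this, hu₁2, one_mul]
      rw [← mul_smul, e, mul_smul, inv_smul_eq_iff.mpr (mem_DD.mp hx₁D).1.symm]
    obtain ⟨c₀, hc₀, hc₀a⟩ := cent_to_a hS hX h3 hfix
    have hc₀x : c₀ * x₁⁻¹ * c₀⁻¹ = x₁⁻¹ := by
      have := (Subgroup.mem_centralizer_iff.mp hc₀) x₁ rfl
      have c : Commute c₀ x₁⁻¹ := (show Commute c₀ x₁ from this.symm).inv_right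
      rw [c.eq, mul_inv_cancel_right]
    have hy : c₀ * u₁ ∈ stabilizer G a := by
      rw [mem_stabilizer_iff, mul_smul, hc₀a]
    have hyx : (c₀ * u₁) * x₁ * (c₀ * u₁)⁻¹ = x₁⁻¹ := by
      have : (c₀ * u₁) * x₁ * (c₀ * u₁)⁻¹ = c₀ * (u₁ * x₁ * u₁⁻¹) * c₀⁻¹ := by group
      rw [this, hu₁x₁, hc₀x]
    have hx₁1 := inverts_DD hS hx₁D hy hyx
    apply hx
    have : x = 1 := by
      have := congrArg (fun w => g⁻¹ * w * g) hx₁1
      simpa [hx₁, mul_assoc] using this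
    rw [this, one_mul]

end Cfsg.Agent.S1135
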