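import Cfsg.Statements.S1139
import Cfsg.Agent.S1137
import Cfsg.Agent.Lib.Helper28SzDefs
import Cfsg.Agent.Lib.Helper28SzBasic
import Cfsg.Agent.Lib.Helper28SzVTrans
import Cfsg.Agent.Lib.Helper28SzSqMap
import Cfsg.Agent.Lib.Helper28SzCoord
import Cfsg.Agent.Lib.Helper28SzQuadForm
import Cfsg.Agent.Lib.Helper28SzOddOrder
import Cfsg.Agent.Lib.Helper28SzIsoA

set_option autoImplicit false
open Cfsg

namespace Cfsg.Agent.S1139

open Cfsg.Agent.Lib.Helper28SzDefs Cfsg.Agent.Lib.Helper28SzBasic Cfsg.Agent.Lib.Helper28SzVTrans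
  Cfsg.Agent.Lib.Helper28SzSqMap Cfsg.Agent.Lib.Helper28SzCoord Cfsg.Agent.Lib.Helper28SzQuadForm
  Cfsg.Agent.Lib.Helper28SzOddOrder Cfsg.Agent.Lib.Helper28SzIsoA

/-! ## assembly of S1139 -/
theorem center_eq_Z0 {P : Type*} [Group P] (hP : Cfsg.IsSuzukiTwoGroup P) :
    Subgroup.center P = Z0 P :=
  le_antisymm (fun z hz => ⟨hz, (Cfsg.Agent.S1137.result hP).2 z hz⟩) Z0_le_center

theorem result {P : Type*} [Group P] (hP : Cfsg.IsSuzukiTwoGroup P)
    (hcard : Nat.card P = Nat.card (Subgroup.center P) ^ 2) :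
    ∃ (F : Type) (_ : Field F) (_ : Fintype F) (φ : F ≃+* F), Fintype.card F = Nat.card (Subgroup.center P) ∧
      φ ≠ RingEquiv.refl F ∧ Odd (orderOf φ) ∧ Nonempty (P ≃* Cfsg.suzukiTypeA F (φ : F →+* F)) := by
  obtain ⟨ξ, h⟩ := of_suzuki hP
  have hna := hP.2.2.1
  haveI := h.fin
  have hcz := center_eq_Z0 hP
  rw [hcz] at hcard ⊢
  have hVt := quot_trans h hcard
  have hV2 := quot_exp_two h hcard
  -- coordinates on `Z0`
  obtain ⟨F, _, _, _, e, l, he, hel, hl⟩ := coord (A := Z0 P)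
    (fun a => Subtype.ext a.2.2) (resAut ξ)
    (by
      obtain ⟨x, -, -, hx1, hx2, -⟩ := h.two
      exact ⟨⟨x, (mem_Z0 h).mpr hx2⟩, fun hh => hx1 (congrArg Subtype.val hh)⟩)
    (by
      intro a b ha hb
      obtain ⟨k, hk⟩ := h.trans a b (fun hh => ha (Subtype.ext hh)) a.2.2
        (fun hh => hb (Subtype.ext hh)) b.2.2
      exact ⟨k, Subtype.ext (by rw [resAut_pow_coe, hk])⟩)
  have hcF : Fintype.card F = Nat.card (Z0 P) := by
    rw [← Nat.card_eq_fintype_card]; exact (Nat.card_congr e).symm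
  have hcV : Nat.card (P ⧸ Z0 P) = Fintype.card F := by
    have h1 := Subgroup.card_eq_card_quotient_mul_card_subgroup (Z0 P)
    have h3 : 0 < Nat.card (Z0 P) := Nat.card_pos
    rw [hcard, pow_two] at h1
    rw [hcF]
    exact (Nat.eq_of_mul_eq_mul_right h3 h1).symm
  obtain ⟨eV, m, heV, hem, hm⟩ := coord_in hV2 (quotAut ξ) hVt F hcV
  obtain ⟨S, hS1, hS2, hS3, hS4⟩ := sq_map h hV2 hna l m e he hel eV heV hem
  obtain ⟨c, σ, τ, hc, hστ, hSf, hSinj⟩ := quad_form S l m hl hm hS2 hS3 hS4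
  refine ⟨F, inferInstance, inferInstance, σ.symm.trans τ, hcF, ?_, ?_, ?_⟩
  · intro hφ
    apply hστ
    ext x
    have := congrArg (fun f : F ≃+* F => f (σ x)) hφ
    simpa using this.symm
  · apply odd_order
    intro x y hxy
    have h1 : S (σ.symm x) = S (σ.symm y) := by
      rw [hSf, hSf]
      simp only [RingEquiv.apply_symm_apply]
      simp only [RingEquiv.trans_apply] at hxy
      rw [hxy]
    exact σ.symm.injective (hSinj h1)
  · apply iso_typeA ((σ.symm.trans τ : F ≃+* F) : F →+* F) (Z0 P) Z0_le_center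
      (fun x => σ (eV (QuotientGroup.mk x)))
      (fun x y => by simp [heV])
      (fun a => by
        obtain ⟨x, hx⟩ := QuotientGroup.mk_surjective (eV.symm (σ.symm a))
        exact ⟨x, by simp [hx]⟩)
      (fun x => by
        have h0 : eV 1 = 0 := by
          have := heV 1 1
          rw [mul_one] at this
          exact left_eq_add.mp this
        constructor
        · intro hx
          have h1 : eV (QuotientGroup.mk x) = 0 := by simpa using hx
          rw [← h0] at h1
          exact (QuotientGroup.eq_one_iff x).mp (eV.injective h1)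
        · intro hx
          have h1 : (QuotientGroup.mk x : P ⧸ Z0 P) = 1 := (QuotientGroup.eq_one_iff x).mpr hx
          simp [h1, h0])
      (e.trans (Equiv.mulLeft₀ c⁻¹ (inv_ne_zero hc)))
      (fun a b => by simp [he, mul_add])
      (fun x hx => by
        simp only [Equiv.trans_apply, Equiv.mulLeft₀_apply, hS1 x hx, hSf]
        simp only [RingEquiv.coe_toRingHom, RingEquiv.trans_apply, RingEquiv.symm_apply_apply]
        field_simp)


end Cfsg.Agent.S1139
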