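import Cfsg.Statements.S1141
import Cfsg.Agent.Lib.Helper50SzFin

set_option autoImplicit false
open Cfsg

namespace Cfsg.Agent.S1141

open Cfsg.Agent.Lib.Helper95Herm Cfsg.Agent.Lib.Helper50SzM Cfsg.Agent.Lib.Helper50SzFin
  Cfsg.Agent.Lib.Helper50SzTr Cfsg.Agent.Lib.Helper50UStd Cfsg.Agent.Lib.Helper95SUStd


/-- Let `q = 2^n ≥ 4` and `|F| = q²`. A Sylow 2-subgroup `S` of `PSU₃(q)` has order `q³`, its centre has order `q`, and `S` is a Suzuki 2-group. -/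
theorem result {F : Type*} [Field F] [Fintype F] {n : ℕ} (hn : 2 ≤ n)
    (hF : Fintype.card F = (2 ^ n) ^ 2) (S : Sylow 2 (Cfsg.PSU 3 F (2 ^ n))) :
    Nat.card S = (2 ^ n) ^ 3 ∧ Nat.card (Subgroup.center ↥(S : Subgroup (Cfsg.PSU 3 F (2 ^ n)))) = 2 ^ n ∧
      Cfsg.IsSuzukiTwoGroup ↥(S : Subgroup (Cfsg.PSU 3 F (2 ^ n))) := by
  haveI : CharP F 2 := charP_two (m := n * 2) (by omega) (by rw [hF, pow_mul])
  obtain ⟨E⟩ := exists_equiv hF 2 S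
  have h := herm_std hF 3
  obtain ⟨t, ht⟩ := Cfsg.Agent.Lib.Helper17Herm.exists_ne_fix _ h.ne_id
  obtain ⟨r, hr, hr0, hr1⟩ := exists_fixed_ne hF (by
    intro h2
    have : 2 ^ 2 ≤ 2 ^ n := Nat.pow_le_pow_right (by norm_num) hn
    omega)
  refine ⟨?_, ?_, suzuki_of_equiv E (isSuzuki h.trace_surj t ht r hr hr0 hr1)⟩
  · rw [Nat.card_congr E.toEquiv, card_model hF]
  · rw [Cfsg.Agent.Lib.Helper50SzTr.card_center E, card_model_center hF]

end Cfsg.Agent.S1141
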