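import Cfsg.Statements.S1160
import Cfsg.Agent.S0126
import Cfsg.Agent.Lib.Helper30Gen
import Cfsg.Agent.Lib.Helper3PGroup

set_option autoImplicit false
open Cfsg

namespace Cfsg.Agent.S1160

open Cfsg.Agent.Lib.Helper30Gen

section basics
variable {P V : Type*} [Group P] [CommGroup V] [MulDistribMulAction P V]

theorem pow_smul_fixed {g : P} {v : V} (h : g • v = v) (i : ℕ) : g ^ i • v = v := by
  induction i with
  | zero => simp
  | succ n ih => rw [pow_succ, mul_smul, h, ih]

theorem nrm_fixed (r : ℕ) {g : P} {v : V} (h : g • v = v) : nrm r g v = v ^ r := by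
  unfold nrm
  simp [pow_smul_fixed h]

theorem nrm_mul (r : ℕ) (g : P) (a b : V) : nrm r g (a * b) = nrm r g a * nrm r g b := by
  unfold nrm
  simp [smul_mul', Finset.prod_mul_distrib]

theorem smul_nrm_conj (r : ℕ) (h g : P) (v : V) :
    h • nrm r g v = nrm r (h * g * h⁻¹) (h • v) := by
  unfold nrm
  rw [Finset.smul_prod']
  apply Finset.prod_congr rfl
  intro i _
  rw [conj_pow, ← mul_smul, ← mul_smul]
  congr 1
  group

theorem smul_nrm_comm (r : ℕ) {h g : P} (hc : h * g = g * h) (v : V) :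
    h • nrm r g v = nrm r g (h • v) := by
  rw [smul_nrm_conj, hc, mul_inv_cancel_right]

theorem nrm_div_smul {r : ℕ} {g : P} (hg : g ^ r = 1) (v : V) : nrm r g (v / g • v) = 1 := by
  have h1 : nrm r g v = nrm r g (v / g • v) * nrm r g (g • v) := by
    rw [← nrm_mul, div_mul_cancel]
  rw [← smul_nrm_comm r rfl, smul_nrm hg] at h1
  exact (mul_eq_right.mp h1.symm)

end basics

section main
variable {P V : Type*} [Group P] [Finite P] [CommGroup V] [MulDistribMulAction P V]

theorem stab_eq
    (hconst : ∀ a b : V, a ≠ 1 → b ≠ 1 →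
      Nat.card (MulAction.stabilizer P a) = Nat.card (MulAction.stabilizer P b))
    {a b : V} (ha : a ≠ 1) (hb : b ≠ 1) (hab : a * b ≠ 1)
    (h : ∀ g : P, g • (a * b) = a * b → g • a = a ∧ g • b = b) :
    MulAction.stabilizer P a = MulAction.stabilizer P b := by
  have h1 : MulAction.stabilizer P (a * b) = MulAction.stabilizer P a :=
    Subgroup.eq_of_le_of_card_ge (fun g hg => (h g hg).1) (hconst _ _ ha hab).le
  have h2 : MulAction.stabilizer P (a * b) = MulAction.stabilizer P b :=
    Subgroup.eq_of_le_of_card_ge (fun g hg => (h g hg).2) (hconst _ _ hb hab).le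
  rw [← h1, h2]

theorem central_fpf [FaithfulSMul P V] {p : ℕ}
    (hinj : ∀ v : V, v ^ p = 1 → v = 1)
    (hconst : ∀ a b : V, a ≠ 1 → b ≠ 1 →
      Nat.card (MulAction.stabilizer P a) = Nat.card (MulAction.stabilizer P b))
    (z : P) (hzc : ∀ g : P, g * z = z * g) (hz1 : z ≠ 1) (hzp : z ^ p = 1) (a : V)
    (ha : z • a = a) : a = 1 := by
  by_contra ha1
  obtain ⟨e, he⟩ : ∃ e : V, z • e ≠ e := by
    by_contra hcon
    push Not at hcon
    exact hz1 (FaithfulSMul.eq_of_smul_eq_smul (α := V) (fun v => by rw [hcon v, one_smul]))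
  set b := e / z • e with hb
  have hb1 : b ≠ 1 := by
    intro h
    rw [hb, div_eq_one] at h
    exact he h.symm
  have hTb : nrm p z b = 1 := nrm_div_smul hzp e
  have hnotfix : z • b ≠ b := by
    intro h
    have := nrm_fixed p h
    rw [hTb] at this
    exact hb1 (hinj b this.symm)
  have hab : a * b ≠ 1 := by
    intro h
    have h2 : b = a⁻¹ := (eq_inv_of_mul_eq_one_right h)
    apply hnotfix
    rw [h2, smul_inv', ha]
  have key : ∀ g : P, g • (a * b) = a * b → g • a = a ∧ g • b = b := by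
    intro g hg
    have h1 : nrm p z (g • (a * b)) = nrm p z (a * b) := by rw [hg]
    rw [← smul_nrm_comm p (hzc g), nrm_mul, hTb, mul_one, nrm_fixed p ha, smul_pow'] at h1
    have h2 : g • a = a := by
      have : (g • a / a) ^ p = 1 := by rw [div_pow, h1, div_self']
      exact div_eq_one.mp (hinj _ this)
    refine ⟨h2, ?_⟩
    rw [smul_mul', h2] at hg
    exact mul_left_cancel hg
  have := stab_eq hconst ha1 hb1 hab key
  have hz : z ∈ MulAction.stabilizer P b := by rw [← this]; exact ha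
  exact hnotfix hz

end main

section main2
variable {P V : Type*} [Group P] [Finite P] [CommGroup V] [MulDistribMulAction P V]

omit [Finite P] in
theorem odd_fix {p : ℕ} [hp : Fact p.Prime] (hp2 : p ≠ 2) (hP : IsPGroup p P) (h : P) (a : V)
    (h2 : h • h • a = a) : h • a = a := by
  obtain ⟨n, hn⟩ := hP h
  have hodd : Odd (p ^ n) := (hp.out.odd_of_ne_two hp2).pow
  obtain ⟨m, hm⟩ := hodd
  have h3 : (h ^ 2) • a = a := by rw [pow_two, mul_smul, h2]
  have h4 : h = (h ^ 2) ^ (m + 1) := by
    rw [← pow_mul, show 2 * (m + 1) = (2 * m + 1) + 1 by ring, ← hm, pow_succ, hn, one_mul]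
  rw [h4]
  exact pow_smul_fixed h3 _

theorem cyclic_of_const [FaithfulSMul P V] {p : ℕ} [hp : Fact p.Prime] (hp2 : p ≠ 2)
    (hP : IsPGroup p P) (hinj : ∀ v : V, v ^ p = 1 → v = 1)
    (hconst : ∀ a b : V, a ≠ 1 → b ≠ 1 →
      Nat.card (MulAction.stabilizer P a) = Nat.card (MulAction.stabilizer P b)) :
    IsCyclic P := by
  by_contra hnc
  have hpp := hp.out
  obtain ⟨A, hAn, hAe, hA2⟩ := Cfsg.Agent.S0126.result hp2 hP hnc
  have hAne : A ≠ ⊥ := by
    intro h
    rw [h, Subgroup.card_bot] at hA2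
    have : 1 < p ^ 2 := Nat.one_lt_pow (by norm_num) hpp.one_lt
    omega
  obtain ⟨z, hzA, hzZ, hz1, hzp⟩ := Cfsg.Agent.Lib.Helper3PGroup.exists_central_order_p hP A hAne
  have hzc : ∀ g, g * z = z * g := fun g => Subgroup.mem_center_iff.mp hzZ g
  have fpf := central_fpf hinj hconst z hzc hz1 hzp
  have hinj2 : ∀ a b : V, a ^ p = b ^ p → a = b := by
    intro a b hab
    have : (a / b) ^ p = 1 := by rw [div_pow, hab, div_self']
    exact div_eq_one.mp (hinj _ this)
  obtain ⟨x, hxA, hxz⟩ : ∃ x ∈ A, x ∉ Subgroup.zpowers z := by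
    by_contra hcon
    push Not at hcon
    have : Nat.card A ≤ Nat.card (Subgroup.zpowers z) := Subgroup.card_le_of_le hcon
    rw [hA2, Nat.card_zpowers, orderOf_eq_prime hzp hz1] at this
    have h2 : p < p ^ 2 := by
      calc p = p ^ 1 := (pow_one p).symm
        _ < p ^ 2 := Nat.pow_lt_pow_right hpp.one_lt (by norm_num)
    omega
  obtain ⟨v, hv⟩ : ∃ v : V, v ≠ 1 := by
    by_contra hcon
    push Not at hcon
    exact hz1 (FaithfulSMul.eq_of_smul_eq_smul (α := V)
      (fun v => by rw [hcon v, smul_one, smul_one]))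
  have hAcomm : ∀ a ∈ A, ∀ b ∈ A, a * b = b * a := fun a ha b hb =>
    congrArg Subtype.val (hAe.1.is_comm.comm (⟨a, ha⟩ : A) ⟨b, hb⟩)
  have hid := norm_identity (r := p) (w := z) (z := x) (show Commute z x from (hzc x).symm) hzp v
  have hz0 : ∀ w : V, nrm p z w = 1 := fun w => fpf _ (smul_nrm hzp w)
  rw [hz0, hz0, mul_one, mul_one] at hid
  obtain ⟨j, hj⟩ : ∃ j, nrm p (x * z ^ j) v ≠ 1 := by
    by_contra hcon
    push Not at hcon
    rw [Finset.prod_eq_one (fun j _ => hcon j)] at hid
    exact hv (hinj v hid.symm)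
  obtain ⟨y, hy⟩ : ∃ y, y = x * z ^ j := ⟨_, rfl⟩
  obtain ⟨a, ha⟩ : ∃ a, a = nrm p y v := ⟨_, rfl⟩
  have ha1 : a ≠ 1 := by rw [ha, hy]; exact hj
  have hyA : y ∈ A := by rw [hy]; exact A.mul_mem hxA (A.pow_mem hzA j)
  have hyp : y ^ p = 1 := hAe.2 y hyA
  have hy1 : y ≠ 1 := by
    intro h
    rw [hy] at h
    apply hxz
    rw [eq_inv_of_mul_eq_one_left h]
    exact Subgroup.inv_mem _ (Subgroup.pow_mem _ (Subgroup.mem_zpowers z) j)
  have hya : y • a = a := by rw [ha]; exact smul_nrm hyp v
  have hcardz : ∀ u ∈ A, u ≠ 1 → Nat.card (Subgroup.zpowers u) = p := by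
    intro u hu hu1
    rw [Nat.card_zpowers]
    exact orderOf_eq_prime (hAe.2 u hu) hu1
  have F : ∀ y ∈ A, y ≠ 1 → ∀ w : V, w ≠ 1 → y • w = w → ∀ u ∈ A, u • w = w →
      u ∈ Subgroup.zpowers y := by
    intro y hyA hy1 w hw hyw u huA huw
    have h1 : Subgroup.zpowers y ≤ A ⊓ MulAction.stabilizer P w := by
      rw [Subgroup.zpowers_le]; exact ⟨hyA, hyw⟩
    have h2 : Nat.card ↥(A ⊓ MulAction.stabilizer P w) ∣ p ^ 2 :=
      hA2 ▸ Subgroup.card_dvd_of_le inf_le_left
    have h3 : Nat.card ↥(A ⊓ MulAction.stabilizer P w) ≠ p ^ 2 := by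
      intro h
      have h5 : A ⊓ MulAction.stabilizer P w = A :=
        Subgroup.eq_of_le_of_card_ge inf_le_left (by rw [h, hA2])
      have hz : z ∈ A ⊓ MulAction.stabilizer P w := by rw [h5]; exact hzA
      exact hw (fpf w hz.2)
    obtain ⟨k, hk, hkS⟩ := (Nat.dvd_prime_pow hpp).mp h2
    have hk1 : k ≤ 1 := by
      rcases Nat.lt_or_ge k 2 with h | h
      · omega
      · exfalso; apply h3; rw [hkS, le_antisymm hk h]
    have h6 : Nat.card ↥(A ⊓ MulAction.stabilizer P w) ≤ p := by
      rw [hkS]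
      calc p ^ k ≤ p ^ 1 := Nat.pow_le_pow_right hpp.pos hk1
        _ = p := pow_one p
    have h7 : Subgroup.zpowers y = A ⊓ MulAction.stabilizer P w :=
      Subgroup.eq_of_le_of_card_ge h1 (by rw [hcardz y hyA hy1]; exact h6)
    rw [h7]; exact ⟨huA, huw⟩
  have zp_eq : ∀ u ∈ Subgroup.zpowers y, u ≠ 1 → Subgroup.zpowers u = Subgroup.zpowers y := by
    intro u hu hu1
    have huA : u ∈ A := (Subgroup.zpowers_le.mpr hyA) hu
    exact Subgroup.eq_of_le_of_card_ge (Subgroup.zpowers_le.mpr hu)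
      (by rw [hcardz u huA hu1, hcardz y hyA hy1])
  obtain ⟨g, hg⟩ : ∃ g : P, g * y * g⁻¹ ∉ Subgroup.zpowers y := by
    by_contra hcon
    push Not at hcon
    have hN : (Subgroup.zpowers y).Normal := by
      constructor
      intro n hn g
      obtain ⟨k, rfl⟩ := Subgroup.mem_zpowers_iff.mp hn
      rw [← conj_zpow]
      exact Subgroup.zpow_mem _ (hcon g) k
    have hne : Subgroup.zpowers y ≠ ⊥ := by
      intro h
      exact hy1 (Subgroup.zpowers_eq_bot.mp h)
    obtain ⟨c, hcy, hcZ, hc1, hcp⟩ :=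
      Cfsg.Agent.Lib.Helper3PGroup.exists_central_order_p hP (Subgroup.zpowers y) hne
    have hca : c • a = a :=
      (Subgroup.zpowers_le.mpr (show y ∈ MulAction.stabilizer P a from hya)) hcy
    exact ha1 (central_fpf hinj hconst c (fun g => Subgroup.mem_center_iff.mp hcZ g) hc1 hcp a hca)
  obtain ⟨y', hy'⟩ : ∃ y', y' = g * y * g⁻¹ := ⟨_, rfl⟩
  obtain ⟨b, hb⟩ : ∃ b, b = g • a := ⟨_, rfl⟩
  rw [← hy'] at hg
  have hy'A : y' ∈ A := by rw [hy']; exact hAn.conj_mem y hyA g
  have hy'b : y' • b = b := by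
    rw [hy', hb, ← mul_smul, inv_mul_cancel_right, mul_smul, hya]
  have smul_ne : ∀ (h : P) (w : V), w ≠ 1 → h • w ≠ 1 := by
    intro h w hw hh
    apply hw
    have : h⁻¹ • h • w = h⁻¹ • (1 : V) := by rw [hh]
    rwa [inv_smul_smul, smul_one] at this
  have hb1 : b ≠ 1 := by rw [hb]; exact smul_ne g a ha1
  have N0 : ∀ u ∈ A, u ∉ Subgroup.zpowers y → ∀ w : V, u • w = w → nrm p y w = 1 := by
    intro u huA hu w huw
    by_contra hne
    exact hu (F y hyA hy1 _ hne (smul_nrm hyp w) u huA
      (by rw [smul_nrm_comm p (hAcomm u huA y hyA), huw]))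
  have N1 : ∀ u ∈ Subgroup.zpowers y, u ≠ 1 → ∀ w : V, u • w = w → y • w = w := by
    intro u hu hu1 w huw
    have : y ∈ Subgroup.zpowers u := by rw [zp_eq u hu hu1]; exact Subgroup.mem_zpowers y
    exact (Subgroup.zpowers_le.mpr (show u ∈ MulAction.stabilizer P w from huw)) this
  have conj_ne : ∀ (h u : P), u ≠ 1 → h * u * h⁻¹ ≠ 1 := by
    intro h u hu hh
    exact hu (conj_eq_one_iff.mp hh)
  have hy'1 : y' ≠ 1 := by rw [hy']; exact conj_ne g y hy1
  have hab_ne : a ≠ b := by
    intro h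
    exact hg (F y hyA hy1 a ha1 hya y' hy'A (by rw [h]; exact hy'b))
  have hab : a * b ≠ 1 := by
    intro h
    have h2 : b = a⁻¹ := eq_inv_of_mul_eq_one_right h
    have h3 : y' • a = a := by
      have : y' • a⁻¹ = a⁻¹ := by rw [← h2]; exact hy'b
      rw [smul_inv'] at this
      exact inv_injective this
    exact hg (F y hyA hy1 a ha1 hya y' hy'A h3)
  have key : ∀ h : P, h • (a * b) = a * b → h • a = a ∧ h • b = b := by
    intro h hh
    have hu : (h * y * h⁻¹) • (h • a) = h • a := by
      rw [← mul_smul, inv_mul_cancel_right, mul_smul, hya]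
    have hu' : (h * y' * h⁻¹) • (h • b) = h • b := by
      rw [← mul_smul, inv_mul_cancel_right, mul_smul, hy'b]
    have huA : h * y * h⁻¹ ∈ A := hAn.conj_mem y hyA h
    have hu'A : h * y' * h⁻¹ ∈ A := hAn.conj_mem y' hy'A h
    have e1 : nrm p y (h • a) * nrm p y (h • b) = a ^ p := by
      rw [← nrm_mul, ← smul_mul', hh, nrm_mul, nrm_fixed p hya, N0 y' hy'A hg b hy'b, mul_one]
    have fin : h • a = a → h • a = a ∧ h • b = b := by
      intro h2
      refine ⟨h2, ?_⟩
      rw [smul_mul', h2] at hh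
      exact mul_left_cancel hh
    by_cases c1 : h * y * h⁻¹ ∈ Subgroup.zpowers y
    · have c2 : h * y' * h⁻¹ ∉ Subgroup.zpowers y := by
        intro c2
        rw [← zp_eq _ c1 (conj_ne h y hy1)] at c2
        obtain ⟨k, hk⟩ := Subgroup.mem_zpowers_iff.mp c2
        rw [conj_zpow] at hk
        have : y ^ k = y' := by
          simpa using hk
        exact hg (this ▸ Subgroup.zpow_mem _ (Subgroup.mem_zpowers y) k)
      rw [N0 _ hu'A c2 _ hu', mul_one,
        nrm_fixed p (N1 _ c1 (conj_ne h y hy1) _ hu)] at e1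
      exact fin (hinj2 _ _ e1)
    · rw [N0 _ huA c1 _ hu, one_mul] at e1
      by_cases c2 : h * y' * h⁻¹ ∈ Subgroup.zpowers y
      · rw [nrm_fixed p (N1 _ c2 (conj_ne h y' hy'1) _ hu')] at e1
        have h3 : h • b = a := hinj2 _ _ e1
        have h4 : h • a = b := by
          rw [smul_mul', h3, mul_comm] at hh
          exact mul_left_cancel hh
        have h5 : h • a = a := odd_fix hp2 hP h a (by rw [h4, h3])
        exact absurd (h5.symm.trans h4) hab_ne
      · rw [N0 _ hu'A c2 _ hu'] at e1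
        exact absurd (hinj a e1.symm) ha1
  have hst := stab_eq hconst ha1 hb1 hab key
  have : y' ∈ MulAction.stabilizer P a := by rw [hst]; exact hy'b
  exact hg (F y hyA hy1 a ha1 hya y' hy'A this)

end main2

theorem main_mul {P V : Type*} [Group P] [Finite P] [CommGroup V] [Finite V]
    [MulDistribMulAction P V] [FaithfulSMul P V]
    {p q : ℕ} [hp : Fact p.Prime] (hp2 : p ≠ 2) (hP : IsPGroup p P) (hq : q.Prime)
    (hV : ∀ v : V, v ^ q = 1)
    (hconst : ∀ a b : V, a ≠ 1 → b ≠ 1 →
      Nat.card (MulAction.stabilizer P a) = Nat.card (MulAction.stabilizer P b)) :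
    IsCyclic P ∧ ∀ g : P, g ≠ 1 → ∀ a : V, g • a = a → a = 1 := by
  by_cases hpq : p = q
  · subst hpq
    have htriv : ∀ g : P, g = 1 := by
      intro g
      apply FaithfulSMul.eq_of_smul_eq_smul (α := V)
      intro v
      rw [one_smul]
      by_cases hv : v = 1
      · rw [hv, smul_one]
      · have hdvd : p ∣ Nat.card V := by
          have : orderOf v = p := orderOf_eq_prime (hV v) hv
          rw [← this]; exact orderOf_dvd_natCard v
        obtain ⟨b, hb, hb1⟩ := hP.exists_fixed_point_of_prime_dvd_card_of_fixed_point V hdvd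
          (a := 1) (by intro g; exact smul_one g)
        have hst : MulAction.stabilizer P b = ⊤ := by
          ext g
          simp only [MulAction.mem_stabilizer_iff, Subgroup.mem_top, iff_true]
          exact hb g
        have h2 : MulAction.stabilizer P v = ⊤ := Subgroup.eq_top_of_card_eq _
          (by rw [hconst v b hv hb1.symm, hst, Subgroup.card_top])
        have h3 : g ∈ MulAction.stabilizer P v := by rw [h2]; trivial
        exact h3
    have : Subsingleton P := ⟨fun a b => by rw [htriv a, htriv b]⟩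
    exact ⟨isCyclic_of_subsingleton, fun g hg => absurd (htriv g) hg⟩
  · have hinj : ∀ v : V, v ^ p = 1 → v = 1 := by
      intro v hv
      have h1 := orderOf_dvd_of_pow_eq_one hv
      have h2 := orderOf_dvd_of_pow_eq_one (hV v)
      have hc : Nat.Coprime p q := (Nat.coprime_primes hp.out hq).mpr hpq
      exact orderOf_eq_one_iff.mp (Nat.eq_one_of_dvd_coprimes hc h1 h2)
    have hcyc := cyclic_of_const hp2 hP hinj hconst
    refine ⟨hcyc, ?_⟩
    intro g hg a hga
    obtain ⟨k, hk1, hk2⟩ := Cfsg.Agent.Lib.Helper3PGroup.exists_pow_order_p hP hg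
    have hcomm : ∀ x y : P, x * y = y * x := by
      obtain ⟨c, hc⟩ := hcyc.exists_generator
      intro x y
      obtain ⟨i, rfl⟩ := Subgroup.mem_zpowers_iff.mp (hc x)
      obtain ⟨j, rfl⟩ := Subgroup.mem_zpowers_iff.mp (hc y)
      exact (Commute.zpow_zpow_self c i j).eq
    exact central_fpf hinj hconst (g ^ k) (fun h => hcomm h _) hk1 hk2 a (pow_smul_fixed hga k)

/-- the multiplicative form of a distributive action. -/
@[reducible] def mulAct (P E : Type*) [Group P] [AddCommGroup E] [DistribMulAction P E] :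
    MulDistribMulAction P (Multiplicative E) where
  smul g v := Multiplicative.ofAdd (g • Multiplicative.toAdd v)
  one_smul v := by
    show Multiplicative.ofAdd ((1 : P) • Multiplicative.toAdd v) = v
    rw [one_smul]; rfl
  mul_smul g h v := by
    show Multiplicative.ofAdd ((g * h) • Multiplicative.toAdd v)
      = Multiplicative.ofAdd (g • (h • Multiplicative.toAdd v))
    rw [mul_smul]
  smul_mul g a b := by
    show Multiplicative.ofAdd (g • (Multiplicative.toAdd a + Multiplicative.toAdd b))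
      = Multiplicative.ofAdd (g • Multiplicative.toAdd a + g • Multiplicative.toAdd b)
    rw [smul_add]
  smul_one g := by
    show Multiplicative.ofAdd (g • (0 : E)) = Multiplicative.ofAdd 0
    rw [smul_zero]

/-- Let `p ≠ 2` be prime and `P` a finite `p`-group acting faithfully by additive automorphisms on a finite elementary abelian `q`-group `E` (`q` prime), such that `|P_a|` is the same for all `a ≠ 0`. Then `P` is cyclic and every non-identity element of `P` fixes only `0`. -/
theorem result {P E : Type*} [Group P] [Finite P]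
    [AddCommGroup E] [Finite E] [DistribMulAction P E] [FaithfulSMul P E]
    {p q : ℕ} [Fact p.Prime] (hp2 : p ≠ 2) (hP : IsPGroup p P) (hq : q.Prime) (hE : ∀ e : E, q • e = 0)
    (hconst : ∀ a b : E, a ≠ 0 → b ≠ 0 →
      Nat.card (MulAction.stabilizer P a) = Nat.card (MulAction.stabilizer P b)) :
    IsCyclic P ∧ ∀ g : P, g ≠ 1 → ∀ a : E, g • a = a → a = 0 := by
  let _ := mulAct P E
  have hF : FaithfulSMul P (Multiplicative E) := by
    constructor
    intro g h H
    have H2 : ∀ e : E, g • e = h • e := fun e => H (Multiplicative.ofAdd e)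
    exact FaithfulSMul.eq_of_smul_eq_smul H2
  have := main_mul (V := Multiplicative E) hp2 hP hq (fun v => hE (Multiplicative.toAdd v))
    (fun a b ha hb => hconst (Multiplicative.toAdd a) (Multiplicative.toAdd b) ha hb)
  exact ⟨this.1, fun g hg a hga => this.2 g hg (Multiplicative.ofAdd a) hga⟩

end Cfsg.Agent.S1160
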