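import Mathlib
import Cfsg.Statements.S1168
import Cfsg.Agent.S1140

set_option autoImplicit false
open Cfsg

namespace Cfsg.Agent.S1168

variable {F : Type*} [Field F] [Fintype F] [CharP F 2]

/-- functions of the required shape -/
def Good (f : F → F) : Prop :=
  ∃ (s : Finset ((F ≃+* F) × (F ≃+* F))) (c : (F ≃+* F) × (F ≃+* F) → F),
      ∀ x : F, f x = ∑ p ∈ s, c p * (p.1 x * p.2 x)

omit [Fintype F] [CharP F 2] in
theorem good_zero : Good (fun _ : F => (0 : F)) := ⟨∅, fun _ => 0, fun _ => by simp⟩

omit [Fintype F] [CharP F 2] in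
theorem good_add {f g : F → F} (hf : Good f) (hg : Good g) : Good (fun x => f x + g x) := by
  classical
  obtain ⟨s, c, hc⟩ := hf
  obtain ⟨s', c', hc'⟩ := hg
  refine ⟨s ∪ s', fun p => (if p ∈ s then c p else 0) + (if p ∈ s' then c' p else 0), ?_⟩
  intro x
  simp only [add_mul, Finset.sum_add_distrib]
  congr 1
  · rw [hc x]
    rw [← Finset.sum_subset (Finset.subset_union_left (s₁ := s) (s₂ := s'))]
    · apply Finset.sum_congr rfl
      intro p hp
      rw [if_pos hp]
    · intro p _ hp
      rw [if_neg hp, zero_mul]
  · rw [hc' x]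
    rw [← Finset.sum_subset (Finset.subset_union_right (s₁ := s) (s₂ := s'))]
    · apply Finset.sum_congr rfl
      intro p hp
      rw [if_pos hp]
    · intro p _ hp
      rw [if_neg hp, zero_mul]

theorem good_diag (A : F → F → F) (h1 : ∀ x y z, A (x + y) z = A x z + A y z)
    (h2 : ∀ x y z, A x (y + z) = A x y + A x z) : Good (fun x => A x x) := by
  obtain ⟨s, c, hc⟩ := (Cfsg.Agent.S1140.result (F := F)).2.2
    (AddMonoidHom.mk' (fun x => AddMonoidHom.mk' (A x) (h2 x))
      (by intro x y; ext z; exact h1 x y z))
  exact ⟨s, c, fun x => hc x x⟩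

/-- For a finite field `F` of characteristic 2: if `q : F → F` is quadratic over the prime field, i.e. `(x, y) ↦ q (x + y) + q x + q y` is additive in each variable, then `q x = Σ c_{σ,τ} σ(x) τ(x)` for some coefficients indexed by pairs of field automorphisms. -/
theorem result {F : Type*} [Field F] [Fintype F] [CharP F 2]
    (q : F → F)
    (hq : ∀ x y z : F, q (x + y + z) + q (x + y) + q (x + z) + q (y + z) + q x + q y + q z = 0) :
    ∃ (s : Finset ((F ≃+* F) × (F ≃+* F))) (c : (F ≃+* F) × (F ≃+* F) → F),
      ∀ x : F, q x = ∑ p ∈ s, c p * (p.1 x * p.2 x) := by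
  classical
  have h2 : (2 : F) = 0 := CharTwo.two_eq_zero
  have hq0 : q 0 = 0 := by
    have := hq 0 0 0
    simp only [add_zero] at this
    linear_combination this - 3 * q 0 * h2
  have hB1 : ∀ x y z : F, q (x + y + z) + q (x + y) + q z
      = (q (x + z) + q x + q z) + (q (y + z) + q y + q z) := by
    intro x y z
    linear_combination hq x y z - (q (x + z) + q x + q z + q (y + z) + q y) * h2
  have hB2 : ∀ x y z : F, q (x + (y + z)) + q x + q (y + z)
      = (q (x + y) + q x + q y) + (q (x + z) + q x + q z) := by
    intro x y z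
    rw [← add_assoc]
    linear_combination hq x y z - (q (x + y) + q (x + z) + q x + q y + q z) * h2
  let _ : Algebra (ZMod 2) F := ZMod.algebra F 2
  let b := Module.finBasis (ZMod 2) F
  have main : ∀ t : Finset (Fin (Module.finrank (ZMod 2) F)),
      Good (fun x => q (∑ i ∈ t, (b.repr x i) • b i)) := by
    intro t
    induction t using Finset.induction_on with
    | empty => simpa [hq0] using good_zero (F := F)
    | insert j t hj ih =>
      have e : ∀ x : F, q (∑ i ∈ insert j t, (b.repr x i) • b i)
          = (q ((b.repr x j) • b j + ∑ i ∈ t, (b.repr x i) • b i) + q ((b.repr x j) • b j)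
              + q (∑ i ∈ t, (b.repr x i) • b i))
            + (q (b j) * ((b.repr x j) • (1 : F) * (b.repr x j) • (1 : F))
              + q (∑ i ∈ t, (b.repr x i) • b i)) := by
        intro x
        rw [Finset.sum_insert hj]
        have e1 : q ((b.repr x j) • b j)
            = q (b j) * ((b.repr x j) • (1 : F) * (b.repr x j) • (1 : F)) := by
          generalize b.repr x j = c
          rcases (by decide : ∀ c : ZMod 2, c = 0 ∨ c = 1) c with rfl | rfl
          · rw [zero_smul, zero_smul, hq0]; ring
          · rw [one_smul, one_smul]; ring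
        rw [← e1]
        linear_combination (-(q ((b.repr x j) • b j) + q (∑ i ∈ t, (b.repr x i) • b i))) * h2
      have g1 : Good (fun x => q ((b.repr x j) • b j + ∑ i ∈ t, (b.repr x i) • b i)
          + q ((b.repr x j) • b j) + q (∑ i ∈ t, (b.repr x i) • b i)) := by
        apply good_diag (fun x y => q ((b.repr x j) • b j + ∑ i ∈ t, (b.repr y i) • b i)
          + q ((b.repr x j) • b j) + q (∑ i ∈ t, (b.repr y i) • b i))
        · intro x y z
          simp only [map_add, Finsupp.add_apply, add_smul]
          exact hB1 _ _ _
        · intro x y z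
          simp only [map_add, Finsupp.add_apply, add_smul, Finset.sum_add_distrib]
          exact hB2 _ _ _
      have g2 : Good (fun x => q (b j) * ((b.repr x j) • (1 : F) * (b.repr x j) • (1 : F))) := by
        apply good_diag (fun x y => q (b j) * ((b.repr x j) • (1 : F) * (b.repr y j) • (1 : F)))
        · intro x y z
          simp only [map_add, Finsupp.add_apply, add_smul]
          ring
        · intro x y z
          simp only [map_add, Finsupp.add_apply, add_smul]
          ring
      have g3 := good_add g1 (good_add g2 ih)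
      obtain ⟨s, c, hc⟩ := g3
      exact ⟨s, c, fun x => (e x).trans (hc x)⟩
  obtain ⟨s, c, hc⟩ := main Finset.univ
  refine ⟨s, c, fun x => ?_⟩
  have := hc x
  simp only [b.sum_repr] at this
  exact this

end Cfsg.Agent.S1168
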