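import Cfsg.Statements.S1176
import Cfsg.Agent.Lib.Helper25Isolated

set_option autoImplicit false
open Cfsg

namespace Cfsg.Agent.S1176

open Cfsg.Agent.Lib.Helper25Isolated
open scoped commutatorElement

/-- Let x₀ be an involution of the finite group G and D its conjugacy class. Assume (a) for each x ∈ D the subgroup W(x) generated by the members of D commuting with x is a 2-group of nilpotency class at most 2, and (b) the product of two distinct commuting members of D again lies in D. Then for all x, y ∈ D, if xy has even order greater than 2, its order is 4. -/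
theorem result {G : Type*} [Group G] [Finite G] (x₀ : G) (hx₀ : orderOf x₀ = 2) (ha : ∀ x : G, IsConj x₀ x → IsPGroup 2 ↥(Subgroup.closure {y : G | IsConj x₀ y ∧ Commute y x}) ∧ ⁅⁅Subgroup.closure {y : G | IsConj x₀ y ∧ Commute y x}, Subgroup.closure {y : G | IsConj x₀ y ∧ Commute y x}⁆, Subgroup.closure {y : G | IsConj x₀ y ∧ Commute y x}⁆ = ⊥) (hb : ∀ x y : G, IsConj x₀ x → IsConj x₀ y → x ≠ y → Commute x y → IsConj x₀ (x * y)) (x y : G) (hx : IsConj x₀ x) (hy : IsConj x₀ y) (heven : Even (orderOf (x * y))) (hgt : 2 < orderOf (x * y)) : orderOf (x * y) = 4 := by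
  have conjD : ∀ (u c : G), IsConj x₀ u → IsConj x₀ (c * u * c⁻¹) := by
    intro u c hu
    exact hu.trans (isConj_iff.mpr ⟨c, rfl⟩)
  have ordD : ∀ u : G, IsConj x₀ u → u * u = 1 := by
    intro u hu
    obtain ⟨c, rfl⟩ := isConj_iff.mp hu
    exact conj_invol (invol_of_orderOf hx₀) c
  have hx2 := ordD x hx
  have hy2 := ordD y hy
  obtain ⟨k, hk⟩ := heven
  have il := inverts_left hx2 hy2
  have ir := inverts_right hx2 hy2
  set d := x * y with hd
  set w := d ^ k with hw
  have hw2 : w * w = 1 := by rw [hw, ← pow_add, ← hk, pow_orderOf_eq_one]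
  have hw1 : w ≠ 1 := by
    intro h
    have := orderOf_dvd_of_pow_eq_one h
    have := Nat.le_of_dvd (by omega) this
    omega
  have hwx : x * w * x = w⁻¹ := inverts_pow hx2 il k
  have hwy : y * w * y = w⁻¹ := inverts_pow hy2 ir k
  have cx : Commute x (w * x) := commute_of_inverts hx2 hw2 hwx
  have cy : Commute y (w * y) := commute_of_inverts hy2 hw2 hwy
  have hwD : IsConj x₀ w := by
    rcases Nat.even_or_odd k with ⟨j, hj⟩ | ⟨j, hj⟩
    · have h1 : IsConj x₀ (w * x) := by
        have := rot_conj hx2 il j
        have e : w = d ^ (2 * j) := by rw [hw, hj, two_mul]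
        rw [e, ← this]
        exact conjD _ _ hx
      have h2 : w * x ≠ x := by
        intro h; exact hw1 (by simpa using h)
      have := hb _ _ h1 hx h2 cx.symm
      have e : w * x * x = w := by rw [mul_assoc, hx2, mul_one]
      rwa [e] at this
    · have h1 : IsConj x₀ (w * y) := by
        have := rot_conj hx2 il j
        have e : w * y = d ^ (2 * j) * x := by
          rw [hw, hj, pow_succ, hd]
          calc (x * y) ^ (2 * j) * (x * y) * y = (x * y) ^ (2 * j) * x * (y * y) := by group
            _ = _ := by rw [hy2, mul_one]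
        rw [e, ← this]
        exact conjD _ _ hx
      have h2 : w * y ≠ y := by
        intro h; exact hw1 (by simpa using h)
      have := hb _ _ h1 hy h2 cy.symm
      have e : w * y * y = w := by rw [mul_assoc, hy2, mul_one]
      rwa [e] at this
  have hcl := (ha w hwD).2
  set W := Subgroup.closure {y : G | IsConj x₀ y ∧ Commute y w} with hW
  have cxw : Commute x w := by
    unfold Commute SemiconjBy
    rw [inv_of_invol hw2] at hwx
    calc x * w = x * w * (x * x) := by rw [hx2, mul_one]
      _ = (x * w * x) * x := by group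
      _ = w * x := by rw [hwx]
  have cyw : Commute y w := by
    unfold Commute SemiconjBy
    rw [inv_of_invol hw2] at hwy
    calc y * w = y * w * (y * y) := by rw [hy2, mul_one]
      _ = (y * w * y) * y := by group
      _ = w * y := by rw [hwy]
  have hxW : x ∈ W := Subgroup.subset_closure ⟨hx, cxw⟩
  have hyW : y ∈ W := Subgroup.subset_closure ⟨hy, cyw⟩
  have h3 : ⁅⁅x, y⁆, x⁆ ∈ ⁅⁅W, W⁆, W⁆ :=
    Subgroup.commutator_mem_commutator (Subgroup.commutator_mem_commutator hxW hyW) hxW
  rw [hcl, Subgroup.mem_bot] at h3
  have h4 : d ^ 4 = 1 := by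
    rw [← h3, commutatorElement_def, commutatorElement_def, inv_of_invol hx2, inv_of_invol hy2]
    have e1 : (x * y * x * y)⁻¹ = y * x * y * x := by
      simp only [mul_inv_rev, inv_of_invol hx2, inv_of_invol hy2, mul_assoc]
    rw [e1, hd]
    calc (x * y) ^ 4 = x * y * x * y * x * y * x * y * 1 := by
          simp only [pow_succ, pow_zero, one_mul, mul_one, mul_assoc]
      _ = x * y * x * y * x * y * x * y * (x * x) := by rw [hx2]
      _ = _ := by group
  have h5 : orderOf d ∣ 4 := orderOf_dvd_of_pow_eq_one h4
  have h6 : orderOf d ≤ 4 := Nat.le_of_dvd (by norm_num) h5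
  interval_cases h : orderOf d
  · omega
  · rfl

end Cfsg.Agent.S1176
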