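import Cfsg.Statements.S1177
import Mathlib

set_option autoImplicit false
open Cfsg

namespace Cfsg.Agent.S1177

/-- Let A be a nontrivial elementary abelian 2-subgroup of a finite group G which is a T.I. set (each conjugate of A meets A trivially or equals A) and which does not commute elementwise with any conjugate of A other than A itself. Then for every a ∈ A, a ≠ 1, every conjugate of A contained in C_G(a) is equal to A (A is weakly closed in C_G(a)). -/
theorem result {G : Type*} [Group G] [Finite G] (A : Subgroup G) (hA : Cfsg.IsElementaryAbelian 2 A) (hA1 : A ≠ ⊥) (hTI : ∀ g : G, A.map (MulAut.conj g).toMonoidHom ⊓ A = ⊥ ∨ A.map (MulAut.conj g).toMonoidHom = A) (hb : ∀ g : G, (∀ a ∈ A, ∀ b ∈ A.map (MulAut.conj g).toMonoidHom, a * b = b * a) → A.map (MulAut.conj g).toMonoidHom = A) (a : G) (ha : a ∈ A) (ha1 : a ≠ 1) (g : G) (hg : A.map (MulAut.conj g).toMonoidHom ≤ Subgroup.centralizer ({a} : Set G)) : A.map (MulAut.conj g).toMonoidHom = A := by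
  classical
  set B := A.map (MulAut.conj g).toMonoidHom with hB
  have commA : ∀ u ∈ A, ∀ v ∈ A, u * v = v * u := by
    intro u hu v hv
    have := hA.1.is_comm.comm (⟨u, hu⟩ : A) ⟨v, hv⟩
    exact congrArg Subtype.val this
  have sqA : ∀ u ∈ A, u * u = 1 := by
    intro u hu
    have := hA.2 u hu
    rwa [pow_two] at this
  have memB : ∀ y, y ∈ B ↔ ∃ u ∈ A, g * u * g⁻¹ = y := by
    intro y
    rw [hB, Subgroup.mem_map]
    simp
  have sqB : ∀ b ∈ B, b * b = 1 := by
    intro b hb'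
    obtain ⟨u, hu, rfl⟩ := (memB b).mp hb'
    calc g * u * g⁻¹ * (g * u * g⁻¹) = g * (u * u) * g⁻¹ := by group
      _ = 1 := by rw [sqA u hu]; group
  -- B normalizes A
  have normA : ∀ b ∈ B, ∀ u ∈ A, b * u * b⁻¹ ∈ A := by
    intro b hb' u hu
    have hba : b * a = a * b := by
      have := hg hb'
      rw [Subgroup.mem_centralizer_singleton_iff] at this
      exact this
    rcases hTI b with h | h
    · exfalso
      have h1 : a ∈ A.map (MulAut.conj b).toMonoidHom ⊓ A := by
        refine ⟨⟨a, ha, ?_⟩, ha⟩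
        simp only [MulEquiv.coe_toMonoidHom, MulAut.conj_apply]
        rw [hba]; group
      rw [h, Subgroup.mem_bot] at h1
      exact ha1 h1
    · rw [← h]
      exact ⟨u, hu, by simp⟩
  rcases hTI g with hdisj | hdone
  swap
  · exact hdone
  -- TI for B
  have tiB : ∀ x : G, (∃ b ∈ B, b ≠ 1 ∧ x * b * x⁻¹ ∈ B) → ∀ b' ∈ B, x * b' * x⁻¹ ∈ B := by
    rintro x ⟨b, hb', hb1, hxb⟩ b' hb''
    obtain ⟨u, hu, rfl⟩ := (memB b).mp hb'
    obtain ⟨u', hu', hu'e⟩ := (memB _).mp hxb
    obtain ⟨v, hv, rfl⟩ := (memB b').mp hb''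
    have e1 : (g⁻¹ * x * g) * u * (g⁻¹ * x * g)⁻¹ = u' := by
      calc (g⁻¹ * x * g) * u * (g⁻¹ * x * g)⁻¹ = g⁻¹ * (x * (g * u * g⁻¹) * x⁻¹) * g := by group
        _ = g⁻¹ * (g * u' * g⁻¹) * g := by rw [hu'e]
        _ = u' := by group
    have hu1 : u ≠ 1 := by
      rintro rfl
      exact hb1 (by group)
    have hu'1 : u' ≠ 1 := by
      rintro rfl
      apply hu1
      have := congrArg (fun w => (g⁻¹ * x * g)⁻¹ * w * (g⁻¹ * x * g)) e1
      simpa [mul_assoc] using this
    rcases hTI (g⁻¹ * x * g) with h | h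
    · exfalso
      have h1 : u' ∈ A.map (MulAut.conj (g⁻¹ * x * g)).toMonoidHom ⊓ A := by
        refine ⟨⟨u, hu, ?_⟩, hu'⟩
        simp only [MulEquiv.coe_toMonoidHom, MulAut.conj_apply]
        exact e1
      rw [h, Subgroup.mem_bot] at h1
      exact hu'1 h1
    · have h2 : (g⁻¹ * x * g) * v * (g⁻¹ * x * g)⁻¹ ∈ A := by
        rw [← h]
        exact ⟨v, hv, by simp only [MulEquiv.coe_toMonoidHom, MulAut.conj_apply]⟩
      rw [memB]
      exact ⟨_, h2, by group⟩
  have claim3 : ∀ x ∈ A, ∀ b ∈ B, b ≠ 1 → x * b = b * x → ∀ b' ∈ B, x * b' = b' * x := by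
    intro x hx b hb' hb1 hxb b' hb''
    have h1 : x * b * x⁻¹ ∈ B := by
      have : x * b * x⁻¹ = b := by rw [hxb]; group
      rw [this]; exact hb'
    have h2 := tiB x ⟨b, hb', hb1, h1⟩ b' hb''
    have h3 : x * b' * x⁻¹ * b'⁻¹ ∈ B ⊓ A := by
      refine ⟨B.mul_mem h2 (B.inv_mem hb''), ?_⟩
      have : x * b' * x⁻¹ * b'⁻¹ = x * (b' * x⁻¹ * b'⁻¹) := by group
      rw [this]
      exact A.mul_mem hx (normA b' hb'' _ (A.inv_mem hx))
    rw [hdisj, Subgroup.mem_bot] at h3
    calc x * b' = (x * b' * x⁻¹ * b'⁻¹) * b' * x := by group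
      _ = b' * x := by rw [h3, one_mul]
  by_cases hall : ∀ x ∈ A, ∀ b' ∈ B, x * b' = b' * x
  · exact hb g hall
  exfalso
  push Not at hall
  obtain ⟨x, hx, b0, hb0, hxb0⟩ := hall
  set A0 : Subgroup G := A ⊓ Subgroup.centralizer (B : Set G) with hA0
  have phimem : ∀ b : B, x * ((b : G) * x * (b : G)⁻¹) ∈ A0 := by
    rintro ⟨b, hb'⟩
    have hbx := normA b hb' x hx
    have hmem : x * (b * x * b⁻¹) ∈ A := A.mul_mem hx hbx
    refine Subgroup.mem_inf.mpr ⟨hmem, ?_⟩
    rw [Subgroup.mem_centralizer_iff]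
    intro b' hb''
    by_cases hb1 : b = 1
    · subst hb1
      simp [sqA x hx]
    · refine (claim3 _ hmem b hb' hb1 ?_ b' hb'').symm
      have hbi : b⁻¹ = b := inv_eq_of_mul_eq_one_left (sqB b hb')
      have hc := commA x hx _ hbx
      rw [hbi] at hc ⊢
      calc x * (b * x * b) * b = x * b * x * (b * b) := by group
        _ = x * b * x := by rw [sqB b hb', mul_one]
        _ = (b * b) * x * b * x := by rw [sqB b hb', one_mul]
        _ = b * ((b * x * b) * x) := by group
        _ = b * (x * (b * x * b)) := by rw [hc]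
  let φ : B → A0 := fun b => ⟨_, phimem b⟩
  have hinj : Function.Injective φ := by
    rintro ⟨b, hb'⟩ ⟨b', hb''⟩ h
    have h1 : x * (b * x * b⁻¹) = x * (b' * x * b'⁻¹) := congrArg Subtype.val h
    have h2 : b * x * b⁻¹ = b' * x * b'⁻¹ := mul_left_cancel h1
    have h3 : x * (b'⁻¹ * b) = (b'⁻¹ * b) * x := by
      calc x * (b'⁻¹ * b) = b'⁻¹ * (b' * x * b'⁻¹) * b := by group
        _ = b'⁻¹ * (b * x * b⁻¹) * b := by rw [h2]
        _ = _ := by group
    by_contra hne
    have h4 : b'⁻¹ * b ≠ 1 := by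
      intro h5
      apply hne
      have : b = b' := by
        calc b = b' * (b'⁻¹ * b) := by group
          _ = b' := by rw [h5, mul_one]
      exact Subtype.ext this
    exact hxb0 (claim3 x hx _ (B.mul_mem (B.inv_mem hb'') hb') h4 h3 b0 hb0)
  have c1 : Nat.card B ≤ Nat.card A0 := Nat.card_le_card_of_injective φ hinj
  have c2 : Nat.card B = Nat.card A :=
    (Nat.card_congr (A.equivMapOfInjective _ (MulAut.conj g).injective).toEquiv).symm
  have c3 : A0 = A := Subgroup.eq_of_le_of_card_ge inf_le_left (by rw [← c2]; exact c1)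
  have hx0 : x ∈ A0 := by rw [c3]; exact hx
  have := (Subgroup.mem_inf.mp hx0).2
  rw [Subgroup.mem_centralizer_iff] at this
  exact hxb0 (this b0 hb0).symm

end Cfsg.Agent.S1177
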