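import Cfsg.Statements.S1178
import Mathlib

set_option autoImplicit false
open Cfsg

namespace Cfsg.Agent.S1178

/-- Let A be a subgroup of a Sylow 2-subgroup S of the finite group G which is weakly closed in S. If a conjugate g A g⁻¹ commutes elementwise with A, then g A g⁻¹ = A. -/
theorem result {G : Type*} [Group G] [Finite G] (S : Sylow 2 G) (A : Subgroup G) (hW : Cfsg.IsWeaklyClosed A (S : Subgroup G)) (g : G) (hc : ∀ a ∈ A, ∀ b ∈ A.map (MulAut.conj g).toMonoidHom, a * b = b * a) : A.map (MulAut.conj g).toMonoidHom = A := by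
  set B := A.map (MulAut.conj g).toMonoidHom with hB
  have hA2 : IsPGroup 2 A := S.2.to_le hW.1
  have hB2 : IsPGroup 2 B := hA2.map _
  have hnorm : A ≤ Subgroup.normalizer (B : Set G) := by
    intro a ha
    rw [Subgroup.mem_normalizer_iff]
    intro b
    constructor
    · intro hb
      have := hc a ha b hb
      have e : a * b * a⁻¹ = b := by rw [this]; group
      rw [e]; exact hb
    · intro hb
      have := hc a ha _ hb
      have e : a * b * a⁻¹ = b := by
        have h2 : a * (a * b * a⁻¹) * a⁻¹ = a * b * a⁻¹ := by rw [this]; group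
        have h3 : a * (a * b * a⁻¹) * a⁻¹ = a * b * a⁻¹ → a * b * a⁻¹ = b := by
          intro h
          have := congrArg (fun u => a⁻¹ * u * a) h
          simpa [mul_assoc] using this
        exact h3 h2
      rw [e] at hb; exact hb
  have hAB : IsPGroup 2 (A ⊔ B : Subgroup G) := IsPGroup.to_sup_of_normal_right' hA2 hB2 hnorm
  obtain ⟨Q, hQ⟩ := hAB.exists_le_sylow
  obtain ⟨x, hx⟩ := MulAction.exists_smul_eq G Q S
  have key : ∀ u ∈ Q, x * u * x⁻¹ ∈ S := by
    intro u hu
    rw [← hx]
    have : x * u * x⁻¹ ∈ ((x • Q : Sylow 2 G) : Subgroup G) := by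
      rw [Sylow.coe_subgroup_smul, Subgroup.mem_pointwise_smul_iff_inv_smul_mem]
      have e : (MulAut.conj x)⁻¹ • (x * u * x⁻¹) = u := by
        simp [MulAut.smul_def, mul_assoc]
      rw [e]; exact hu
    exact this
  have h1 : A.map (MulAut.conj x).toMonoidHom = A := by
    apply hW.2
    rintro _ ⟨a, ha, rfl⟩
    exact key a (hQ (Subgroup.mem_sup_left ha))
  have h2 : A.map (MulAut.conj (x * g)).toMonoidHom = A := by
    apply hW.2
    rintro _ ⟨a, ha, rfl⟩
    have hb : g * a * g⁻¹ ∈ B := ⟨a, ha, rfl⟩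
    have := key _ (hQ (Subgroup.mem_sup_right hb))
    have e : (MulAut.conj (x * g)).toMonoidHom a = x * (g * a * g⁻¹) * x⁻¹ := by
      simp [mul_assoc]
    rw [e]; exact this
  have h3 : B.map (MulAut.conj x).toMonoidHom = A.map (MulAut.conj x).toMonoidHom := by
    rw [h1, ← h2, hB, Subgroup.map_map]
    congr 1
    ext u
    simp [mul_assoc]
  exact Subgroup.map_injective (MulAut.conj x).injective h3

end Cfsg.Agent.S1178
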