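import Cfsg.Statements.S1183
import Cfsg.Agent.Lib.Helper25Isolated
import Cfsg.Agent.S1182

set_option autoImplicit false
open Cfsg

namespace Cfsg.Agent.S1183

open Cfsg.Agent.Lib.Helper25Isolated
open scoped commutatorElement

theorem residual_char (X : Type*) [Group X] : (Cfsg.pResidual 2 X).Characteristic := by
  rw [Subgroup.characteristic_iff_map_le]
  intro ϕ
  unfold Cfsg.pResidual
  rw [MonoidHom.map_closure, Subgroup.closure_le]
  rintro _ ⟨g, hg, rfl⟩
  apply Subgroup.subset_closure
  show Nat.Coprime (orderOf (ϕ g)) 2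
  rw [MulEquiv.orderOf_eq]
  exact hg

theorem residual_top_iff {X : Type*} [Group X] [Finite X] (S : Sylow 2 X) :
    Cfsg.pResidual 2 X = ⊤ ↔ (S : Subgroup X) ≤ commutator X := by
  obtain ⟨k, m, hm, hkm⟩ := Nat.exists_eq_two_pow_mul_odd (n := Nat.card X) Nat.card_pos.ne'
  constructor
  · intro htop x hx
    let ψ : X →* Abelianization X := (powMonoidHom m).comp Abelianization.of
    have hO : Cfsg.pResidual 2 X ≤ ψ.ker := by
      unfold Cfsg.pResidual
      rw [Subgroup.closure_le]
      intro g hg
      have hg : Nat.Coprime (orderOf g) 2 := hg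
      have h1 : orderOf g ∣ 2 ^ k * m := hkm ▸ orderOf_dvd_natCard g
      have h2 : orderOf g ∣ m := (Nat.Coprime.pow_right k hg).dvd_of_dvd_mul_left h1
      have h3 : g ^ m = 1 := orderOf_dvd_iff_pow_eq_one.mp h2
      show ψ g = 1
      show (Abelianization.of g) ^ m = 1
      rw [← map_pow, h3, map_one]
    rw [htop] at hO
    have h1 : (Abelianization.of x) ^ m = 1 := hO (Subgroup.mem_top x)
    obtain ⟨j, hj⟩ := S.2 ⟨x, hx⟩
    have hj' : x ^ (2 ^ j) = 1 := by
      have := congrArg Subtype.val hj
      simpa using this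
    have h2 : (Abelianization.of x) ^ (2 ^ j) = 1 := by rw [← map_pow, hj', map_one]
    have h3 : orderOf (Abelianization.of x) ∣ Nat.gcd m (2 ^ j) :=
      Nat.dvd_gcd (orderOf_dvd_of_pow_eq_one h1) (orderOf_dvd_of_pow_eq_one h2)
    have h4 : Nat.gcd m (2 ^ j) = 1 := Nat.Coprime.pow_right j (Nat.coprime_two_right.mpr hm)
    rw [h4, Nat.dvd_one, orderOf_eq_one_iff] at h3
    have : x ∈ (Abelianization.of : X →* Abelianization X).ker := h3
    rwa [Abelianization.ker_of] at this
  · intro hS
    have := residual_char X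
    set O := Cfsg.pResidual 2 X with hOdef
    by_contra hO
    have hY : IsPGroup 2 (X ⧸ O) := by
      intro y
      obtain ⟨x, rfl⟩ := QuotientGroup.mk_surjective y
      refine ⟨k, ?_⟩
      rw [← QuotientGroup.mk_pow, QuotientGroup.eq_one_iff]
      apply Subgroup.subset_closure
      show Nat.Coprime (orderOf (x ^ 2 ^ k)) 2
      have h1 : (x ^ 2 ^ k) ^ m = 1 := by
        rw [← pow_mul, ← hkm, pow_card_eq_one']
      exact Nat.Coprime.coprime_dvd_left (orderOf_dvd_of_pow_eq_one h1) (Nat.coprime_two_right.mpr hm)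
    have : Fact (Nat.Prime 2) := ⟨Nat.prime_two⟩
    have : Group.IsNilpotent (X ⧸ O) := hY.isNilpotent
    have : Nontrivial (X ⧸ O) := by
      rw [QuotientGroup.nontrivial_iff]
      exact hO
    have hlt := Group.IsSolvable.commutator_lt_top_of_nontrivial (X ⧸ O)
    obtain ⟨n, hn⟩ := hY.index (commutator (X ⧸ O))
    set N := (commutator (X ⧸ O)).comap (QuotientGroup.mk' O) with hN
    have hNi : N.index = 2 ^ n := by
      rw [hN, Subgroup.index_comap_of_surjective _ (QuotientGroup.mk'_surjective O), hn]
    have hcN : commutator X ≤ N := by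
      rw [commutator_def, Subgroup.commutator_le]
      intro g₁ _ g₂ _
      show QuotientGroup.mk' O ⁅g₁, g₂⁆ ∈ commutator (X ⧸ O)
      rw [map_commutatorElement, commutator_def]
      exact Subgroup.commutator_mem_commutator (Subgroup.mem_top _) (Subgroup.mem_top _)
    have hdvd : N.index ∣ (S : Subgroup X).index := Subgroup.index_dvd_of_le (hS.trans hcN)
    have hnd : ¬ 2 ∣ (S : Subgroup X).index := S.not_dvd_index
    have hn0 : n = 0 := by
      by_contra h
      apply hnd
      refine dvd_trans ?_ hdvd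
      rw [hNi]
      exact dvd_pow_self 2 h
    rw [hn0, pow_zero, Subgroup.index_eq_one] at hn
    exact hlt.ne hn


/-- Let z be an isolated involution of the finite group G and C = C_G(z). Then the subgroup of G generated by its elements of odd order is all of G if and only if the subgroup of C generated by its elements of odd order is all of C. -/
theorem result {G : Type*} [Group G] [Finite G] (z : G) (hz : Cfsg.IsIsolatedInvolution z) : Cfsg.pResidual 2 G = ⊤ ↔ Cfsg.pResidual 2 ↥(Subgroup.centralizer ({z} : Set G)) = ⊤ := by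
  classical
  have hz2 := invol_of_orderOf hz.1
  have hzi := inv_of_invol hz2
  have : Fact (Nat.Prime 2) := ⟨Nat.prime_two⟩
  have hzp : IsPGroup 2 (Subgroup.zpowers z) := by
    apply IsPGroup.of_card (n := 1)
    rw [Nat.card_zpowers, hz.1, pow_one]
  obtain ⟨S, hS⟩ := hzp.exists_le_sylow
  have hzS : z ∈ S := hS (Subgroup.mem_zpowers z)
  have hSC : (S : Subgroup G) ≤ Subgroup.centralizer ({z} : Set G) := by
    intro x hx
    rw [Subgroup.mem_centralizer_singleton_iff]
    have hd : x * z * x⁻¹ * z ∈ S :=
      S.mul_mem (S.mul_mem (S.mul_mem hx hzS) (S.inv_mem hx)) hzS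
    have hodd := odd_orderOf_mul hz x
    obtain ⟨j, hj⟩ := S.2 ⟨_, hd⟩
    have hj' : (x * z * x⁻¹ * z) ^ (2 ^ j) = 1 := by
      have := congrArg Subtype.val hj
      simpa using this
    have h1 : orderOf (x * z * x⁻¹ * z) ∣ 2 ^ j := orderOf_dvd_of_pow_eq_one hj'
    have h2 : Nat.Coprime (orderOf (x * z * x⁻¹ * z)) (2 ^ j) :=
      Nat.Coprime.pow_right j (Nat.coprime_two_right.mpr hodd)
    have h3 : orderOf (x * z * x⁻¹ * z) = 1 := Nat.Coprime.eq_one_of_dvd h2 h1
    rw [orderOf_eq_one_iff] at h3
    calc x * z = (x * z * x⁻¹ * z) * z⁻¹ * x := by group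
      _ = z * x := by rw [h3, hzi, one_mul]
  rw [residual_top_iff S, residual_top_iff (S.subtype hSC)]
  constructor
  · intro h
    have hf : (S : Subgroup G) ≤ (S : Subgroup G).focalSubgroup := by
      rw [← Subgroup.commutator_inf_eq_focalSubgroup]
      exact le_inf h le_rfl
    have hf2 : (S : Subgroup G).focalSubgroup ≤
        (commutator (Subgroup.centralizer ({z} : Set G))).map (Subgroup.centralizer ({z} : Set G)).subtype := by
      rw [Subgroup.focalSubgroup_def, Subgroup.closure_le]
      rintro g ⟨hg, x, hx, u, rfl⟩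
      have h1 : u * x⁻¹ * u⁻¹ ∈ S := by
        have : u * x⁻¹ * u⁻¹ = x⁻¹ * ⁅x, u⁆ := by rw [commutatorElement_def]; group
        rw [this]; exact S.mul_mem (S.inv_mem hx) hg
      have cx : Commute x⁻¹ z := by
        have := hSC (S.inv_mem hx)
        rw [Subgroup.mem_centralizer_singleton_iff] at this
        exact this
      have cu : Commute (u * x⁻¹ * u⁻¹) z := by
        have := hSC h1
        rw [Subgroup.mem_centralizer_singleton_iff] at this
        exact this
      obtain ⟨c, -, hc, hc2⟩ := Cfsg.Agent.S1182.result z hz ⊤ (by rw [Subgroup.mem_normalizer_iff]; intro h; simp) x⁻¹ (u * x⁻¹ * u⁻¹)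
        (Subgroup.mem_top _) (Subgroup.mem_top _) cx cu u (Subgroup.mem_top _) rfl
      have hcC : c ∈ Subgroup.centralizer ({z} : Set G) := by
        rw [Subgroup.mem_centralizer_singleton_iff]; exact hc.eq
      rw [Subgroup.map_subtype_commutator]
      have e : ⁅x, u⁆ = ⁅x, c⁆ := by
        rw [commutatorElement_def, commutatorElement_def]
        calc x * u * x⁻¹ * u⁻¹ = x * (u * x⁻¹ * u⁻¹) := by group
          _ = x * (c * x⁻¹ * c⁻¹) := by rw [hc2]
          _ = _ := by group
      rw [e]
      exact Subgroup.commutator_mem_commutator (hSC hx) hcC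
    intro y hy
    have hy' : (y : G) ∈ S := hy
    obtain ⟨w, hw, hwy⟩ := hf2 (hf hy')
    have : w = y := Subtype.ext hwy
    rwa [← this]
  · intro h x hx
    have h1 : (⟨x, hSC hx⟩ : Subgroup.centralizer ({z} : Set G)) ∈
        commutator (Subgroup.centralizer ({z} : Set G)) := h hx
    have h2 : x ∈ (commutator (Subgroup.centralizer ({z} : Set G))).map
        (Subgroup.centralizer ({z} : Set G)).subtype := ⟨_, h1, rfl⟩
    rw [Subgroup.map_subtype_commutator] at h2
    rw [commutator_def]
    exact Subgroup.commutator_mono le_top le_top h2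

end Cfsg.Agent.S1183
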