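import Cfsg.Statements.S1184
import Cfsg.Agent.Lib.Helper25Isolated

set_option autoImplicit false
open Cfsg

namespace Cfsg.Agent.S1184

open Cfsg.Agent.Lib.Helper25Isolated

/-- Let z be an isolated involution of the finite group G. If s and t are distinct conjugates of z, then st does not commute with z. -/
theorem result {G : Type*} [Group G] [Finite G] (z : G) (hz : Cfsg.IsIsolatedInvolution z) (g h : G) (hne : g * z * g⁻¹ ≠ h * z * h⁻¹) : ¬ Commute (g * z * g⁻¹ * (h * z * h⁻¹)) z := by
  intro hc
  have hz2 := invol_of_orderOf hz.1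
  have hs2 := conj_invol hz2 g
  have ht2 := conj_invol hz2 h
  have oa := odd_orderOf_mul hz g
  have ob := odd_orderOf_mul hz h
  have ia := inverts_right hs2 hz2
  have ib := inverts_right ht2 hz2
  set s := g * z * g⁻¹ with hs
  set t := h * z * h⁻¹ with ht
  have hst : s * t = (s * z) * (t * z)⁻¹ := by
    rw [mul_inv_rev, inv_of_invol hz2, inv_of_invol ht2]
    calc s * t = s * 1 * t := by group
      _ = s * (z * z) * t := by rw [hz2]
      _ = _ := by group
  have h1 : z * (s * t) * z = (s * z)⁻¹ * (t * z) := by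
    rw [hst]
    calc z * ((s * z) * (t * z)⁻¹) * z = z * (s * z) * 1 * (t * z)⁻¹ * z := by group
      _ = z * (s * z) * (z * z) * (t * z)⁻¹ * z := by rw [hz2]
      _ = (z * (s * z) * z) * (z * (t * z)⁻¹ * z) := by group
      _ = (s * z)⁻¹ * (z * (t * z)⁻¹ * z) := by rw [ia]
      _ = (s * z)⁻¹ * (z⁻¹ * (t * z)⁻¹ * z⁻¹) := by rw [inv_of_invol hz2]
      _ = (s * z)⁻¹ * (z * (t * z) * z)⁻¹ := by group
      _ = _ := by rw [ib, inv_inv]
  have h2 : z * (s * t) * z = s * t := by
    have := hc.eq
    calc z * (s * t) * z = z * (s * t * z) := by group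
      _ = z * (z * (s * t)) := by rw [this]
      _ = (z * z) * (s * t) := by group
      _ = _ := by rw [hz2, one_mul]
  rw [h1, hst] at h2
  have h3 : (t * z) * (t * z) = (s * z) * (s * z) := by
    calc (t * z) * (t * z) = (s * z) * ((s * z)⁻¹ * (t * z)) * (t * z) := by group
      _ = (s * z) * ((s * z) * (t * z)⁻¹) * (t * z) := by rw [h2]
      _ = _ := by group
  have h4 := eq_of_sq_eq ob oa h3
  exact hne (mul_right_cancel h4).symm

end Cfsg.Agent.S1184
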