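import Cfsg.Statements.S1185
import Cfsg.Agent.Lib.Helper25Isolated

set_option autoImplicit false
open Cfsg

namespace Cfsg.Agent.S1185

open Cfsg.Agent.Lib.Helper25Isolated

/-- Let z be an isolated involution of the finite group G with centralizer C. Then for every g ∈ G there is exactly one element k in the coset gC that has odd order and is inverted by z. -/
theorem result {G : Type*} [Group G] [Finite G] (z : G) (hz : Cfsg.IsIsolatedInvolution z) (g : G) : ∃! k : G, (Odd (orderOf k) ∧ z * k * z⁻¹ = k⁻¹) ∧ g⁻¹ * k ∈ Subgroup.centralizer ({z} : Set G) := by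
  have hz2 := invol_of_orderOf hz.1
  have hzi := inv_of_invol hz2
  obtain ⟨k, -, hk1, hk2, hk3, hk4⟩ := exists_sqrt (conj_invol hz2 g) hz2 (odd_orderOf_mul hz g)
  refine ⟨k, ⟨⟨hk4, by rw [hzi]; exact hk2⟩, ?_⟩, ?_⟩
  · rw [Subgroup.mem_centralizer_singleton_iff]
    calc g⁻¹ * k * z = g⁻¹ * (k * z * k⁻¹) * k := by group
      _ = g⁻¹ * (g * z * g⁻¹) * k := by rw [hk3]
      _ = z * (g⁻¹ * k) := by group
  · rintro l ⟨⟨hl1, hl2⟩, hl3⟩
    rw [hzi] at hl2
    rw [Subgroup.mem_centralizer_singleton_iff] at hl3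
    have e1 : l * z * l⁻¹ = g * z * g⁻¹ := by
      calc l * z * l⁻¹ = g * (g⁻¹ * l * z) * l⁻¹ := by group
        _ = g * (z * (g⁻¹ * l)) * l⁻¹ := by rw [hl3]
        _ = _ := by group
    rw [conj_eq_sq_mul hz2 hl2, ← hk3, conj_eq_sq_mul hz2 hk2] at e1
    exact eq_of_sq_eq hl1 hk4 (mul_right_cancel e1)

end Cfsg.Agent.S1185
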