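import Cfsg.Statements.S1224
import Cfsg.Agent.Lib.Helper26StrEmb

set_option autoImplicit false
open Cfsg

namespace Cfsg.Agent.S1224

open Cfsg.Agent.Lib.Helper26StrEmb

/-- Let H be a strongly embedded subgroup of the finite group G and x ≠ y two cosets in G/H. Then the number of involutions i of G with i • x = y equals the number of involutions lying in H. -/
theorem result {G : Type*} [Group G] [Finite G] (H : Subgroup G) (hH : Cfsg.IsStronglyEmbedded H) (x y : G ⧸ H) (hxy : x ≠ y) : Nat.card {i : G // orderOf i = 2 ∧ i • x = y} = Nat.card {t : G // orderOf t = 2 ∧ t ∈ H} := by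
  classical
  have : Fintype G := Fintype.ofFinite G
  have : Fintype (G ⧸ H) := Fintype.ofFinite _
  set N := Nat.card {t : G // orderOf t = 2 ∧ t ∈ H} with hN
  let I : Finset G := Finset.univ.filter (fun i => orderOf i = 2)
  let W : (G ⧸ H) → (G ⧸ H) → Finset G := fun x y => I.filter (fun i => i • x = y)
  have hWcard : ∀ x y, Nat.card {i : G // orderOf i = 2 ∧ i • x = y} = (W x y).card := by
    intro x y
    rw [Nat.card_eq_fintype_card, Fintype.card_subtype]
    congr 1
    ext i
    simp [W, I]
  -- stabilizer involution counts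
  have hfixcard : ∀ y, (W y y).card = N := by
    intro y
    obtain ⟨g, rfl⟩ := QuotientGroup.mk_surjective y
    rw [← hWcard, hN]
    apply Nat.card_congr
    refine ⟨fun i => ⟨g⁻¹ * i.1 * g, ?_, ?_⟩, fun t => ⟨g * t.1 * g⁻¹, ?_, ?_⟩, ?_, ?_⟩
    · have := orderOf_conj i.1 g⁻¹
      rw [inv_inv] at this
      rw [this]; exact i.2.1
    · exact (smul_mk_eq_iff H _ g).1 i.2.2
    · rw [orderOf_conj]; exact t.2.1
    · rw [smul_mk_eq_iff]
      have := t.2.2
      simpa [mul_assoc] using this
    · intro i; ext; simp [mul_assoc]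
    · intro t; ext; simp [mul_assoc]
  -- lower bound
  have hlower : ∀ x y, N ≤ (W x y).card := by
    intro x y
    by_cases hxy : x = y
    · rw [hxy, hfixcard]
    · rw [← hfixcard x]
      have hNpos : (W y y).Nonempty := by
        rw [← Finset.card_pos, hfixcard, hN, Nat.card_pos_iff]
        obtain ⟨s, hsH, hs⟩ := exists_invol_mem hH
        exact ⟨⟨⟨s, hs, hsH⟩⟩, inferInstance⟩
      obtain ⟨s', hs'⟩ := hNpos
      simp only [W, I, Finset.mem_filter, Finset.mem_univ, true_and] at hs'
      have hex : ∀ s ∈ W x x, ∃ w : G, orderOf w = 2 ∧ w * s * w⁻¹ = s' ∧ w • x = y ∧ w • y = x := by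
        intro s hs
        simp only [W, I, Finset.mem_filter, Finset.mem_univ, true_and] at hs
        exact exists_swap hH hs.1 hs'.1 hs.2 hs'.2 hxy
      choose! f hf using hex
      apply Finset.card_le_card_of_injOn f
      · intro s hs
        have := hf s hs
        simp only [W, I, Finset.coe_filter, Finset.mem_filter, Finset.mem_univ, true_and, Set.mem_setOf_eq]
        exact ⟨this.1, this.2.2.1⟩
      · intro s hs s₂ hs₂ heq
        have h1 := (hf s hs).2.1
        have h2 := (hf s₂ hs₂).2.1
        rw [← heq, ← h1] at h2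
        simpa using h2.symm
  -- total counts
  have htot1 : ∀ x, I.card = ∑ y, (W x y).card := by
    intro x
    exact Finset.card_eq_sum_card_fiberwise (f := fun i => i • x) (t := Finset.univ)
      (fun i _ => Finset.mem_coe.2 (Finset.mem_univ _))
  have hfixfun : ∀ i : G, ∃ z : G ⧸ H, orderOf i = 2 → i • z = z := by
    intro i
    by_cases hi : orderOf i = 2
    · obtain ⟨z, hz⟩ := exists_fixed hH hi
      exact ⟨z, fun _ => hz⟩
    · exact ⟨x, fun h => absurd h hi⟩
  choose fx hfx using hfixfun
  have htot2 : I.card = ∑ _y : G ⧸ H, N := by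
    rw [Finset.card_eq_sum_card_fiberwise (f := fx) (t := Finset.univ)
      (fun i _ => Finset.mem_coe.2 (Finset.mem_univ _))]
    apply Finset.sum_congr rfl
    intro y _
    rw [← hfixcard y]
    congr 1
    ext i
    simp only [W, I, Finset.mem_filter, Finset.mem_univ, true_and]
    constructor
    · rintro ⟨hi, rfl⟩
      exact ⟨hi, hfx i hi⟩
    · rintro ⟨hi, hy⟩
      exact ⟨hi, fixed_unique hH hi (hfx i hi) hy⟩
  have hsum : ∑ _y : G ⧸ H, N = ∑ y, (W x y).card := by rw [← htot2, htot1 x]
  have := (Finset.sum_eq_sum_iff_of_le (fun y _ => hlower x y)).1 hsum y (Finset.mem_univ y)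
  rw [hWcard, ← this]

end Cfsg.Agent.S1224
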