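import Cfsg.Statements.S1225
import Cfsg.Agent.Lib.Helper26StrEmb

set_option autoImplicit false
open Cfsg

namespace Cfsg.Agent.S1225

open Cfsg.Agent.Lib.Helper26StrEmb

/-- Let H be a strongly embedded subgroup of the finite group G, u an involution outside H and D = H ∩ uHu⁻¹. Then any two involutions of H are conjugate by an element of D, and any two involutions of G are conjugate in G. -/
theorem result {G : Type*} [Group G] [Finite G] (H : Subgroup G) (hH : Cfsg.IsStronglyEmbedded H) (u : G) (hu : orderOf u = 2) (huH : u ∉ H) (s t : G) (hs : orderOf s = 2) (hsH : s ∈ H) (ht : orderOf t = 2) (htH : t ∈ H) : (∃ d ∈ (H ⊓ H.map (MulAut.conj u).toMonoidHom), d * s * d⁻¹ = t) ∧ ∀ a b : G, orderOf a = 2 → orderOf b = 2 → IsConj a b := by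
  set x₀ : G ⧸ H := QuotientGroup.mk 1 with hx₀
  have hux : u • x₀ ≠ x₀ := by
    rw [Ne, smul_mk_one_eq_iff]; exact huH
  constructor
  · have hs' : orderOf (u * s * u⁻¹) = 2 := by rw [orderOf_conj, hs]
    have hfix' : (u * s * u⁻¹) • (u • x₀) = u • x₀ := by
      rw [← mul_smul]
      have : s • x₀ = x₀ := (smul_mk_one_eq_iff H s).2 hsH
      simp [mul_smul, this]
    have hfixt : t • x₀ = x₀ := (smul_mk_one_eq_iff H t).2 htH
    obtain ⟨w, hw, hconj, h1, h2⟩ := exists_swap hH hs' ht hfix' hfixt hux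
    refine ⟨w * u, ⟨?_, ?_⟩, ?_⟩
    · show w * u ∈ H
      rw [← smul_mk_one_eq_iff, mul_smul]; exact h1
    · show w * u ∈ H.map (MulAut.conj u).toMonoidHom
      rw [mem_map_conj, ← smul_mk_one_eq_iff, mul_smul, mul_smul, mul_smul, ← hx₀, ← mul_smul u u,
        sq_eq_one_of_orderOf hu, one_smul, h2, inv_smul_smul]
    · rw [← hconj]; group
  · intro a b ha hb
    obtain ⟨xa, hxa⟩ := exists_fixed hH ha
    obtain ⟨xb, hxb⟩ := exists_fixed hH hb
    have key : ∀ a b : G, orderOf a = 2 → orderOf b = 2 → ∀ xa xb : G ⧸ H, a • xa = xa →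
        b • xb = xb → xa ≠ xb → IsConj a b := by
      intro a b ha hb xa xb hxa hxb hne
      obtain ⟨w, _, hconj, _, _⟩ := exists_swap hH ha hb hxa hxb hne
      exact isConj_iff.2 ⟨w, hconj⟩
    by_cases hne : xa = xb
    · -- move a away
      obtain ⟨g, hg⟩ : ∃ g : G, g • xa ≠ xa := by
        obtain ⟨h, hh⟩ := MulAction.exists_smul_eq G x₀ xa
        refine ⟨h * u * h⁻¹, ?_⟩
        rw [← hh, ← mul_smul]
        intro h1
        apply hux
        have := congrArg (fun z => h⁻¹ • z) h1
        simpa [mul_smul] using this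
      have hc : orderOf (g * a * g⁻¹) = 2 := by rw [orderOf_conj, ha]
      have hfc : (g * a * g⁻¹) • (g • xa) = g • xa := by
        rw [← mul_smul]; simp [mul_smul, hxa]
      have h1 : IsConj a (g * a * g⁻¹) := isConj_iff.2 ⟨g, rfl⟩
      exact h1.trans (key _ _ hc hb _ _ hfc hxb (hne ▸ hg))
    · exact key a b ha hb xa xb hxa hxb hne

end Cfsg.Agent.S1225
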