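import Cfsg.Statements.S1227
import Cfsg.Agent.Lib.Helper26ElemCentB

set_option autoImplicit false
open Cfsg

namespace Cfsg.Agent.S1227

open Cfsg.Agent.Lib.Helper26StrEmb Cfsg.Agent.Lib.Helper26ElemCent Cfsg.Agent.Lib.Helper26ElemCentB

theorem mem_D_iff {G : Type*} [Group G] (H : Subgroup G) (u d : G) :
    d ∈ H ⊓ H.map (MulAut.conj u).toMonoidHom ↔
      d • (QuotientGroup.mk 1 : G ⧸ H) = QuotientGroup.mk 1 ∧
      d • (QuotientGroup.mk u : G ⧸ H) = QuotientGroup.mk u := by
  rw [Subgroup.mem_inf, mem_map_conj, smul_mk_one_eq_iff, smul_mk_eq_iff]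

/-- Let G be a finite group with a Sylow 2-subgroup T that is neither cyclic nor normal, such that the centralizer of every involution is an elementary abelian 2-group; put H = N_G(T), let u be an involution outside H and D = H ∩ uHu⁻¹. Then u inverts every element of D, |H| = |T|·(|T| − 1), and D is a complement to T in H. -/
theorem result {G : Type*} [Group G] [Finite G] (T : Sylow 2 G) (hnc : ¬ IsCyclic (T : Subgroup G)) (hnn : ¬ (T : Subgroup G).Normal) (hC : ∀ t : G, orderOf t = 2 → IsMulCommutative (Subgroup.centralizer ({t} : Set G)) ∧ ∀ c ∈ Subgroup.centralizer ({t} : Set G), c ^ 2 = 1) (u : G) (hu : orderOf u = 2) (huH : u ∉ Subgroup.normalizer ((T : Subgroup G) : Set G)) : (∀ d ∈ Subgroup.normalizer ((T : Subgroup G) : Set G) ⊓ (Subgroup.normalizer ((T : Subgroup G) : Set G)).map (MulAut.conj u).toMonoidHom, u * d * u⁻¹ = d⁻¹) ∧ Nat.card (Subgroup.normalizer ((T : Subgroup G) : Set G)) = Nat.card T * (Nat.card T - 1) ∧ Subgroup.IsComplement' ((Subgroup.normalizer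 ((T : Subgroup G) : Set G) ⊓ (Subgroup.normalizer ((T : Subgroup G) : Set G)).map (MulAut.conj u).toMonoidHom).subgroupOf (Subgroup.normalizer ((T : Subgroup G) : Set G))) ((T : Subgroup G).subgroupOf (Subgroup.normalizer ((T : Subgroup G) : Set G))) := by
  classical
  have hC' : ElemCent G := hC
  have hH := stronglyEmbedded_normalizer hC' T hnc hnn
  set H := Subgroup.normalizer ((T : Subgroup G) : Set G) with hHdef
  set D := H ⊓ H.map (MulAut.conj u).toMonoidHom with hD
  set x₀ : G ⧸ H := QuotientGroup.mk 1 with hx₀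
  set y₀ : G ⧸ H := QuotientGroup.mk u with hy₀
  have hux : u • x₀ = y₀ := by
    rw [hx₀, hy₀, MulAction.Quotient.smul_mk, smul_eq_mul, mul_one]
  have hxy : x₀ ≠ y₀ := by
    intro h
    apply huH
    rw [← smul_mk_one_eq_iff, ← hx₀, hux, ← h]
  have hmem : ∀ d, d ∈ D ↔ d • x₀ = x₀ ∧ d • y₀ = y₀ := fun d => mem_D_iff H u d
  have hTmem : ∀ t, t ∈ (T : Subgroup G) ↔ t • x₀ = x₀ ∧ t * t = 1 := by
    intro t
    have := inT_iff hC' T 1 t
    simp only [inv_one, one_mul, mul_one] at this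
    exact this.symm
  have hDH : D ≤ H := inf_le_left
  have hTH : (T : Subgroup G) ≤ H := Subgroup.le_normalizer
  have hcompl : Subgroup.IsComplement' (D.subgroupOf H) ((T : Subgroup G).subgroupOf H) := by
    apply Subgroup.isComplement'_of_disjoint_and_mul_eq_univ
    · rw [Subgroup.disjoint_def]
      intro x hxD hxT
      rw [Subgroup.mem_subgroupOf] at hxD hxT
      ext
      exact free hH ((hmem _).1 hxD).1 ((hmem _).1 hxD).2 hxy ((hTmem _).1 hxT).2
    · rw [Set.eq_univ_iff_forall]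
      intro h
      obtain ⟨d, t, hdx, hdy, htx, ht2, hfac⟩ :=
        factor hC' hH hxy ((smul_mk_one_eq_iff H (h : G)).2 h.2)
      have hdD : d ∈ D := (hmem d).2 ⟨hdx, hdy⟩
      have htT : t ∈ (T : Subgroup G) := (hTmem t).2 ⟨htx, ht2⟩
      refine ⟨⟨d, hDH hdD⟩, ?_, ⟨t, hTH htT⟩, ?_, ?_⟩
      · simpa [Subgroup.mem_subgroupOf] using hdD
      · simpa [Subgroup.mem_subgroupOf] using htT
      · ext
        exact hfac.symm
  refine ⟨?_, ?_, hcompl⟩
  · intro d hd
    exact invert hC' hH hxy hu hux ((hmem d).1 hd).1 ((hmem d).1 hd).2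
  · have h1 := hcompl.card_mul_card
    rw [Nat.card_congr (Subgroup.subgroupOfEquivOfLe hDH).toEquiv,
      Nat.card_congr (Subgroup.subgroupOfEquivOfLe hTH).toEquiv] at h1
    obtain ⟨s, hs, hsx⟩ := exists_invol_fix hH x₀
    have hsT : s ∈ (T : Subgroup G) := (hTmem s).2 ⟨hsx, sq_eq_one_of_orderOf hs⟩
    have hconj : ∀ d ∈ D, orderOf (d * s * d⁻¹) = 2 ∧ (d * s * d⁻¹) • x₀ = x₀ := by
      intro d hd
      refine ⟨by rw [orderOf_conj, hs], ?_⟩
      have hdx := ((hmem d).1 hd).1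
      have hdx' : d⁻¹ • x₀ = x₀ := by rw [inv_smul_eq_iff, hdx]
      rw [mul_smul, mul_smul, hdx', hsx, hdx]
    let φ : D → {t : (T : Subgroup G) // t ≠ 1} := fun d =>
      ⟨⟨d.1 * s * d.1⁻¹, (hTmem _).2 ⟨(hconj d.1 d.2).2, sq_eq_one_of_orderOf (hconj d.1 d.2).1⟩⟩, by
        intro h
        exact ne_one_of_orderOf (hconj d.1 d.2).1 (congrArg Subtype.val h)⟩
    have hφ : Function.Bijective φ := by
      constructor
      · intro d e hde
        have h2 : d.1 * s * d.1⁻¹ = e.1 * s * e.1⁻¹ :=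
          congrArg (fun z : {t : (T : Subgroup G) // t ≠ 1} => ((z : (T : Subgroup G)) : G)) hde
        have hcomm : (e.1⁻¹ * d.1) * s = s * (e.1⁻¹ * d.1) := by
          calc (e.1⁻¹ * d.1) * s = e.1⁻¹ * (d.1 * s * d.1⁻¹) * d.1 := by group
            _ = e.1⁻¹ * (e.1 * s * e.1⁻¹) * d.1 := by rw [h2]
            _ = s * (e.1⁻¹ * d.1) := by group
        obtain ⟨_, hsq⟩ := cent_fix hC' hH hs hsx hcomm
        have hm : e.1⁻¹ * d.1 ∈ D := mul_mem (inv_mem e.2) d.2
        have h3 := free hH ((hmem _).1 hm).1 ((hmem _).1 hm).2 hxy hsq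
        rw [inv_mul_eq_one] at h3
        ext
        exact h3.symm
      · rintro ⟨⟨t, htT⟩, ht1⟩
        have ht1' : t ≠ 1 := fun h => ht1 (by ext; exact h)
        have ht := (hTmem t).1 htT
        obtain ⟨w, _, h1, h2, h3⟩ := trans_invol hH hxy hu hux hs hsx
          (orderOf_eq_two_of ht.2 ht1') ht.1
        refine ⟨⟨w * u, (hmem _).2 ⟨h1, h2⟩⟩, ?_⟩
        ext
        exact h3
    have h2 : Nat.card D = Nat.card {t : (T : Subgroup G) // t ≠ 1} :=
      Nat.card_congr (Equiv.ofBijective φ hφ)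
    have h3 : Nat.card (T : Subgroup G) = Nat.card {t : (T : Subgroup G) // t ≠ 1} + 1 := by
      rw [← Nat.card_congr (Equiv.optionSubtypeNe (1 : (T : Subgroup G))), Finite.card_option]
    have h4 : Nat.card T = Nat.card (T : Subgroup G) := rfl
    rw [h4, ← h1, h2, h3, Nat.add_sub_cancel, mul_comm]

end Cfsg.Agent.S1227
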