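import Cfsg.Statements.S1228
import Cfsg.Agent.Lib.Helper26ElemCentB

set_option autoImplicit false
open Cfsg

namespace Cfsg.Agent.S1228

open Cfsg.Agent.Lib.Helper26StrEmb Cfsg.Agent.Lib.Helper26ElemCent Cfsg.Agent.Lib.Helper26ElemCentB

theorem mem_D_iff {G : Type*} [Group G] (H : Subgroup G) (u d : G) :
    d ∈ H ⊓ H.map (MulAut.conj u).toMonoidHom ↔
      d • (QuotientGroup.mk 1 : G ⧸ H) = QuotientGroup.mk 1 ∧
      d • (QuotientGroup.mk u : G ⧸ H) = QuotientGroup.mk u := by
  rw [Subgroup.mem_inf, mem_map_conj, smul_mk_one_eq_iff, smul_mk_eq_iff]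

/-- Let G be a finite group with a Sylow 2-subgroup T that is neither cyclic nor normal, such that the centralizer of every involution is an elementary abelian 2-group; put H = N_G(T), let u be an involution outside H and D = H ∩ uHu⁻¹. Then N_G(D) = D ⊔ ⟨u⟩, and a coset gH is fixed by every element of D exactly when gH = H or gH = uH. -/
theorem result {G : Type*} [Group G] [Finite G] (T : Sylow 2 G) (hnc : ¬ IsCyclic (T : Subgroup G)) (hnn : ¬ (T : Subgroup G).Normal) (hC : ∀ t : G, orderOf t = 2 → IsMulCommutative (Subgroup.centralizer ({t} : Set G)) ∧ ∀ c ∈ Subgroup.centralizer ({t} : Set G), c ^ 2 = 1) (u : G) (hu : orderOf u = 2) (huH : u ∉ Subgroup.normalizer ((T : Subgroup G) : Set G)) : Subgroup.normalizer ((Subgroup.normalizer ((T : Subgroup G) : Set G) ⊓ (Subgroup.normalizer ((T : Subgroup G) : Set G)).map (MulAut.conj u).toMonoidHom : Subgroup G) : Set G) = (Subgroup.normalizer ((T : Subgroup G) : Set G) ⊓ (Subgroup.normalizer ((T : Subgroup G) : Set G)).map (MulAut.conj u).toMonoidHom)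 ⊔ Subgroup.zpowers u ∧ ∀ g : G, ((∀ d ∈ Subgroup.normalizer ((T : Subgroup G) : Set G) ⊓ (Subgroup.normalizer ((T : Subgroup G) : Set G)).map (MulAut.conj u).toMonoidHom, d • (QuotientGroup.mk g : G ⧸ Subgroup.normalizer ((T : Subgroup G) : Set G)) = QuotientGroup.mk g) ↔ (QuotientGroup.mk g : G ⧸ Subgroup.normalizer ((T : Subgroup G) : Set G)) = QuotientGroup.mk 1 ∨ (QuotientGroup.mk g : G ⧸ Subgroup.normalizer ((T : Subgroup G) : Set G)) = QuotientGroup.mk u) := by
  have hC' : ElemCent G := hC
  have hH := stronglyEmbedded_normalizer hC' T hnc hnn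
  set H := Subgroup.normalizer ((T : Subgroup G) : Set G) with hHdef
  set D := H ⊓ H.map (MulAut.conj u).toMonoidHom with hD
  set x₀ : G ⧸ H := QuotientGroup.mk 1 with hx₀
  set y₀ : G ⧸ H := QuotientGroup.mk u with hy₀
  have hux : u • x₀ = y₀ := by
    rw [hx₀, hy₀, MulAction.Quotient.smul_mk, smul_eq_mul, mul_one]
  have huy : u • y₀ = x₀ := by
    rw [← hux, ← mul_smul, sq_eq_one_of_orderOf hu, one_smul]
  have hxy : x₀ ≠ y₀ := by
    intro h
    apply huH
    rw [← smul_mk_one_eq_iff, ← hx₀, hux, ← h]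
  have hmem : ∀ d, d ∈ D ↔ d • x₀ = x₀ ∧ d • y₀ = y₀ := fun d => mem_D_iff H u d
  obtain ⟨d₀, hd₀1, hd₀x, hd₀y⟩ := exists_ne_one_stab hC' T hnc hnn hxy
  have hfixD : ∀ z : G ⧸ H, (∀ d ∈ D, d • z = z) → z = x₀ ∨ z = y₀ := by
    intro z hz
    by_contra hcon
    push Not at hcon
    exact hd₀1 (three_fixed hC' T hnc hnn hxy hcon.1.symm hcon.2.symm hd₀x hd₀y
      (hz d₀ ((hmem d₀).2 ⟨hd₀x, hd₀y⟩)))
  constructor
  · apply le_antisymm
    · intro n hn
      rw [Subgroup.mem_normalizer_iff] at hn
      have hfix : ∀ z : G ⧸ H, (∀ d ∈ D, d • z = z) → (∀ d ∈ D, d • (n • z) = n • z) := by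
        intro z hz d hd
        have h1 : n⁻¹ * d * n ∈ D := by
          rw [hn]
          simpa [mul_assoc] using hd
        have h2 := hz _ h1
        rw [mul_smul, mul_smul, inv_smul_eq_iff] at h2
        exact h2
      have h1 := hfixD _ (hfix x₀ (fun d hd => ((hmem d).1 hd).1))
      have h2 := hfixD _ (hfix y₀ (fun d hd => ((hmem d).1 hd).2))
      have hne : n • x₀ ≠ n • y₀ := fun h => hxy (smul_left_cancel _ h)
      rcases h1 with h1 | h1
      · have h2' : n • y₀ = y₀ := by
          rcases h2 with h2 | h2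
          · exact absurd (h1.trans h2.symm) hne
          · exact h2
        exact (le_sup_left : D ≤ _) ((hmem n).2 ⟨h1, h2'⟩)
      · have h2' : n • y₀ = x₀ := by
          rcases h2 with h2 | h2
          · exact h2
          · exact absurd (h1.trans h2.symm) hne
        have h3 : n * u ∈ D := by
          rw [hmem]
          exact ⟨by rw [mul_smul, hux, h2'], by rw [mul_smul, huy, h1]⟩
        have h4 : n = (n * u) * u⁻¹ := by group
        rw [h4]
        exact mul_mem ((le_sup_left : D ≤ _) h3)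
          ((le_sup_right : Subgroup.zpowers u ≤ _) (inv_mem (Subgroup.mem_zpowers u)))
    · apply sup_le Subgroup.le_normalizer
      rw [Subgroup.zpowers_le, Subgroup.mem_normalizer_iff]
      have hfor : ∀ d ∈ D, u * d * u⁻¹ ∈ D := by
        intro d hd
        have := invert hC' hH hxy hu hux ((hmem d).1 hd).1 ((hmem d).1 hd).2
        rw [this]
        exact inv_mem hd
      intro d
      refine ⟨hfor d, fun h => ?_⟩
      have h1 := hfor _ h
      have hui := inv_eq_self_of_orderOf hu
      have h2 : u * (u * d * u⁻¹) * u⁻¹ = d := by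
        rw [hui]
        calc u * (u * d * u) * u = (u * u) * d * (u * u) := by group
          _ = d := by rw [sq_eq_one_of_orderOf hu, one_mul, mul_one]
      rwa [h2] at h1
  · intro g
    constructor
    · intro h
      exact hfixD _ h
    · rintro (h | h) d hd
      · rw [h]; exact ((hmem d).1 hd).1
      · rw [h]; exact ((hmem d).1 hd).2

end Cfsg.Agent.S1228
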