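import Cfsg.Statements.S1231

set_option autoImplicit false
open Cfsg

namespace Cfsg.Agent.S1231

variable {G : Type*} [Group G]

theorem mem_map_conj (X : Subgroup G) (a x : G) :
    x ∈ X.map (MulAut.conj a).toMonoidHom ↔ a⁻¹ * x * a ∈ X := by
  constructor
  · rintro ⟨y, hy, rfl⟩
    simpa [mul_assoc] using hy
  · intro h
    exact ⟨_, h, by simp [mul_assoc]⟩

theorem mem_smul_sylow {p : ℕ} (a x : G) (T : Sylow p G) :
    x ∈ ((a • T : Sylow p G) : Subgroup G) ↔ a⁻¹ * x * a ∈ (T : Subgroup G) := by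
  rw [Sylow.coe_subgroup_smul, Subgroup.mem_pointwise_smul_iff_inv_smul_mem]
  simp [MulAut.smul_def, mul_assoc]

/-- `X` contains an elementary abelian subgroup of order more than `m`. -/
def Big (p m : ℕ) (X : Subgroup G) : Prop :=
  ∃ E : Subgroup G, E ≤ X ∧ (∀ a ∈ E, ∀ b ∈ E, a * b = b * a) ∧ (∀ a ∈ E, a ^ p = 1) ∧
    m < Nat.card E

theorem big_iff (p k : ℕ) (X : Subgroup G) : ¬ Cfsg.PRankLE p k X ↔ Big p (p ^ k) X := by
  unfold Cfsg.PRankLE Big
  push Not
  constructor
  · rintro ⟨A, hA, hAp, hcard⟩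
    refine ⟨A.map X.subtype, Subgroup.map_subtype_le A, ?_, ?_, ?_⟩
    · rintro _ ⟨a, ha, rfl⟩ _ ⟨b, hb, rfl⟩
      have := hA.is_comm.comm ⟨a, ha⟩ ⟨b, hb⟩
      simpa using congrArg (fun z : A => ((z : X) : G)) this
    · rintro _ ⟨a, ha, rfl⟩
      simpa using congrArg Subtype.val (hAp a ha)
    · rwa [Subgroup.card_map_of_injective X.subtype_injective]
  · rintro ⟨E, hEX, hc, hp, hcard⟩
    refine ⟨E.subgroupOf X, ⟨⟨fun a b => ?_⟩⟩, ?_, ?_⟩
    · ext
      exact hc _ a.2 _ b.2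
    · intro a ha
      ext
      simpa using hp _ ha
    · rwa [Nat.card_congr (Subgroup.subgroupOfEquivOfLe hEX).toEquiv]

theorem Big.mono {p m : ℕ} {X Y : Subgroup G} (h : Big p m X) (hXY : X ≤ Y) : Big p m Y := by
  obtain ⟨E, hE, h1, h2, h3⟩ := h
  exact ⟨E, hE.trans hXY, h1, h2, h3⟩

theorem Big.conj {p m : ℕ} {X : Subgroup G} (h : Big p m X) (a : G) :
    Big p m (X.map (MulAut.conj a).toMonoidHom) := by
  obtain ⟨E, hE, h1, h2, h3⟩ := h
  refine ⟨E.map (MulAut.conj a).toMonoidHom, Subgroup.map_mono hE, ?_, ?_, ?_⟩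
  · rintro _ ⟨x, hx, rfl⟩ _ ⟨y, hy, rfl⟩
    rw [← map_mul, ← map_mul, h1 x hx y hy]
  · rintro _ ⟨x, hx, rfl⟩
    rw [← map_pow, h2 x hx, map_one]
  · rwa [Subgroup.card_map_of_injective (MulAut.conj a).injective]

theorem prankLE_congr {A B : Type*} [Group A] [Group B] (e : A ≃* B) (p k : ℕ)
    (h : Cfsg.PRankLE p k A) : Cfsg.PRankLE p k B := by
  intro E hE hEp
  have h1 := h (E.comap e.toMonoidHom) ?_ ?_
  · have h2 : Nat.card (E.comap e.toMonoidHom) = Nat.card E := by
      have : E = (E.comap e.toMonoidHom).map e.toMonoidHom := by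
        rw [Subgroup.map_comap_eq_self_of_surjective e.surjective]
      conv_rhs => rw [this]
      rw [Subgroup.card_map_of_injective e.injective]
    rwa [h2] at h1
  · refine ⟨⟨fun a b => ?_⟩⟩
    ext
    apply e.injective
    have := hE.is_comm.comm ⟨e a, a.2⟩ ⟨e b, b.2⟩
    have h3 := congrArg Subtype.val this
    simp only [Subgroup.coe_mul, map_mul] at h3 ⊢
    exact h3
  · intro a ha
    apply e.injective
    rw [map_pow, map_one]
    exact hEp _ ha

theorem conj_mem_normalizer (X : Subgroup G) (a n : G) (hn : n ∈ Subgroup.normalizer (X : Set G)) :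
    a * n * a⁻¹ ∈ Subgroup.normalizer ((X.map (MulAut.conj a).toMonoidHom : Subgroup G) : Set G) := by
  rw [Subgroup.mem_normalizer_iff] at hn ⊢
  intro x
  rw [mem_map_conj, mem_map_conj, hn]
  simp [mul_assoc]

/-- A Sylow subgroup of `D` whose normalizer lies in `D` is Sylow in `G`. -/
theorem sylow_of_normalizer_le [Finite G] {p : ℕ} [Fact p.Prime] (D : Subgroup G) (Q : Sylow p D)
    (hN : Subgroup.normalizer (((Q : Subgroup D).map D.subtype : Subgroup G) : Set G) ≤ D) :
    ∃ T : Sylow p G, (T : Subgroup G) = (Q : Subgroup D).map D.subtype := by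
  set Q' := (Q : Subgroup D).map D.subtype with hQ'
  have hQp : IsPGroup p Q' := Q.2.map _
  obtain ⟨T, hT⟩ := hQp.exists_le_sylow
  refine ⟨T, le_antisymm ?_ hT⟩
  by_contra hne
  have hlt : Q'.subgroupOf (T : Subgroup G) < ⊤ := by
    rw [lt_top_iff_ne_top]
    intro h
    rw [Subgroup.subgroupOf_eq_top] at h
    exact hne h
  have hnil : Group.IsNilpotent (T : Subgroup G) := T.2.isNilpotent
  have hnc := Group.normalizerCondition_of_isNilpotent (G := (T : Subgroup G)) _ hlt
  obtain ⟨x, hx, hxQ⟩ := SetLike.exists_of_lt hnc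
  -- the p-group M = T ⊓ N(Q')
  set M := (T : Subgroup G) ⊓ Subgroup.normalizer (Q' : Set G) with hM
  have hMp : IsPGroup p M := T.2.to_le inf_le_left
  have hMD : M ≤ D := inf_le_right.trans hN
  have hQM : Q' ≤ M := le_inf hT Subgroup.le_normalizer
  have hMQ : M.subgroupOf D = Q := by
    apply Q.3 hMp.comap_subtype
    intro y hy
    show (y : G) ∈ M
    exact hQM ⟨y, hy, rfl⟩
  have hxM : (x : G) ∈ M := by
    refine ⟨x.2, ?_⟩
    show (x : G) ∈ Subgroup.normalizer (Q' : Set G)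
    rw [Subgroup.mem_normalizer_iff] at hx ⊢
    intro y
    constructor
    · intro hy
      have := (hx ⟨y, hT hy⟩).1 (by simpa [Subgroup.mem_subgroupOf] using hy)
      simpa [Subgroup.mem_subgroupOf] using this
    · intro hy
      have hyT : y ∈ (T : Subgroup G) := by
        have h1 := hT hy
        have h2 := (T : Subgroup G).mul_mem ((T : Subgroup G).mul_mem ((T : Subgroup G).inv_mem x.2) h1) x.2
        simpa [mul_assoc] using h2
      have := (hx ⟨y, hyT⟩).2 (by simpa [Subgroup.mem_subgroupOf] using hy)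
      simpa [Subgroup.mem_subgroupOf] using this
  apply hxQ
  rw [Subgroup.mem_subgroupOf]
  have : (⟨x, hMD hxM⟩ : D) ∈ M.subgroupOf D := by simpa [Subgroup.mem_subgroupOf] using hxM
  rw [hMQ] at this
  exact ⟨_, this, rfl⟩

/-- two Sylow subgroups of `G` inside `H` are conjugate in `H` -/
theorem exists_smul_eq_of_le [Finite G] {p : ℕ} [Fact p.Prime] (H : Subgroup G) (T₁ T₂ : Sylow p G)
    (h₁ : (T₁ : Subgroup G) ≤ H) (h₂ : (T₂ : Subgroup G) ≤ H) : ∃ h ∈ H, h • T₁ = T₂ := by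
  obtain ⟨h, hh⟩ := MulAction.exists_smul_eq H (T₁.subtype h₁) (T₂.subtype h₂)
  rw [Sylow.smul_subtype] at hh
  exact ⟨h, h.2, Sylow.subtype_injective hh⟩

/-- Let H be a subgroup of the finite group G, p a prime, k ≥ 1, and P a Sylow p-subgroup of H whose p-rank is at least k. Then N_G(X) ≤ H for every subgroup X of P of p-rank at least k if and only if H ∩ gHg⁻¹ has p-rank less than k for every g ∉ H. -/
theorem result {G : Type*} [Group G] [Finite G] {p : ℕ} [Fact p.Prime] (k : ℕ) (hk : 1 ≤ k) (H : Subgroup G) (P : Sylow p ↥H) (hP : ¬ Cfsg.PRankLE p (k - 1) ↥(P : Subgroup ↥H)) : (∀ X : Subgroup G, X ≤ (P : Subgroup ↥H).map H.subtype → ¬ Cfsg.PRankLE p (k - 1) ↥X → Subgroup.normalizer (X : Set G) ≤ H) ↔ (∀ g : G, g ∉ H → Cfsg.PRankLE p (k - 1) ↥(H ⊓ H.map (MulAut.conj g).toMonoidHom)) := by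
  set P' := (P : Subgroup ↥H).map H.subtype with hP'
  have hP'H : P' ≤ H := Subgroup.map_subtype_le _
  have hbigP : Big p (p ^ (k - 1)) P' := by
    rw [← big_iff]
    intro h
    apply hP
    exact prankLE_congr ((P : Subgroup ↥H).equivMapOfInjective H.subtype H.subtype_injective).symm _ _ h
  constructor
  · intro hN g hg
    by_contra hbig
    rw [big_iff] at hbig
    simp only [big_iff] at hN
    -- Step 1
    have step1 : ∀ X : Subgroup G, X ≤ H → IsPGroup p X → Big p (p ^ (k - 1)) X →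
        Subgroup.normalizer (X : Set G) ≤ H := by
      intro X hXH hXp hXb
      obtain ⟨R, hR⟩ := (hXp.comap_subtype (K := H)).exists_le_sylow
      obtain ⟨h, hh⟩ := MulAction.exists_smul_eq H P R
      have h1 : X.map (MulAut.conj (h : G)⁻¹).toMonoidHom ≤ P' := by
        intro x hx
        rw [mem_map_conj] at hx
        have h2 : (⟨_, hXH hx⟩ : H) ∈ (R : Subgroup H) := hR (by simpa [Subgroup.mem_subgroupOf] using hx)
        rw [← hh, mem_smul_sylow] at h2
        refine ⟨_, h2, ?_⟩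
        simp [mul_assoc]
      have h2 := hN _ h1 (hXb.conj _)
      intro n hn
      have h3 := h2 (conj_mem_normalizer X (h : G)⁻¹ n hn)
      have h4 := H.mul_mem (H.mul_mem h.2 h3) (H.inv_mem h.2)
      simpa [mul_assoc] using h4
    set D := H ⊓ H.map (MulAut.conj g).toMonoidHom with hD
    obtain ⟨E, hED, hEc, hEp, hEcard⟩ := hbig
    have hEpg : IsPGroup p E := by
      intro x
      refine ⟨1, ?_⟩
      ext
      simpa using hEp x x.2
    obtain ⟨Q, hQ⟩ := (hEpg.comap_subtype (K := D)).exists_le_sylow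
    set Q' := (Q : Subgroup D).map D.subtype with hQ'
    have hQ'D : Q' ≤ D := Subgroup.map_subtype_le _
    have hQ'p : IsPGroup p Q' := Q.2.map _
    have hEQ' : E ≤ Q' := by
      intro x hx
      exact ⟨⟨x, hED hx⟩, hQ (by simpa [Subgroup.mem_subgroupOf] using hx), rfl⟩
    have hQ'b : Big p (p ^ (k - 1)) Q' := ⟨E, hEQ', hEc, hEp, hEcard⟩
    have hNQ1 : Subgroup.normalizer (Q' : Set G) ≤ H := step1 Q' (hQ'D.trans inf_le_left) hQ'p hQ'b
    have hQg : Q'.map (MulAut.conj g⁻¹).toMonoidHom ≤ H := by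
      intro x hx
      rw [mem_map_conj] at hx
      have : g⁻¹⁻¹ * x * g⁻¹ ∈ H.map (MulAut.conj g).toMonoidHom := (hQ'D hx).2
      rw [mem_map_conj] at this
      simpa [mul_assoc] using this
    have hNQ2 : Subgroup.normalizer (Q' : Set G) ≤ H.map (MulAut.conj g).toMonoidHom := by
      have h1 := step1 _ hQg (hQ'p.map _) (hQ'b.conj g⁻¹)
      intro n hn
      rw [mem_map_conj]
      have := h1 (conj_mem_normalizer Q' g⁻¹ n hn)
      simpa using this
    obtain ⟨TQ, hTQ⟩ := sylow_of_normalizer_le D Q (le_inf hNQ1 hNQ2)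
    obtain ⟨TP, hTP⟩ := sylow_of_normalizer_le H P (hN P' le_rfl hbigP)
    obtain ⟨h₁, hh₁, e₁⟩ := exists_smul_eq_of_le H TP TQ (hTP ▸ hP'H) (hTQ ▸ hQ'D.trans inf_le_left)
    have hle : ((g⁻¹ • TQ : Sylow p G) : Subgroup G) ≤ H := by
      intro x hx
      rw [mem_smul_sylow, hTQ] at hx
      apply hQg
      rw [mem_map_conj]
      exact hx
    obtain ⟨h₂, hh₂, e₂⟩ := exists_smul_eq_of_le H TP (g⁻¹ • TQ) (hTP ▸ hP'H) hle
    have e₃ : (h₁⁻¹ * g * h₂) • TP = TP := by
      rw [mul_smul, mul_smul, e₂, smul_inv_smul, ← e₁, inv_smul_smul]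
    rw [Sylow.smul_eq_iff_mem_normalizer] at e₃
    have e₄ : h₁⁻¹ * g * h₂ ∈ Subgroup.normalizer (((TP : Subgroup G)) : Set G) := e₃
    rw [hTP] at e₄
    have h5 := hN P' le_rfl hbigP e₄
    apply hg
    have h6 := H.mul_mem (H.mul_mem hh₁ h5) (H.inv_mem hh₂)
    simpa [mul_assoc] using h6
  · intro h X hX hXb n hn
    by_contra hnH
    apply hXb
    have h1 := h n hnH
    by_contra h2
    rw [big_iff] at h2
    have h3 : X ≤ H ⊓ H.map (MulAut.conj n).toMonoidHom := by
      intro x hx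
      refine ⟨hP'H (hX hx), ?_⟩
      show x ∈ H.map (MulAut.conj n).toMonoidHom
      rw [mem_map_conj]
      apply hP'H
      apply hX
      have hn' := inv_mem hn
      rw [Subgroup.mem_normalizer_iff] at hn'
      have := (hn' x).1 hx
      simpa using this
    exact ((big_iff _ _ _).2 (h2.mono h3)) h1

end Cfsg.Agent.S1231
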