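import Cfsg.Statements.S1236
import Mathlib
import Cfsg.Agent.Lib.Helper21FourSC

set_option autoImplicit false
open Cfsg

namespace Cfsg.Agent.S1236

open Subgroup in
theorem four_dihedral {Q : Type*} [Group Q] [Finite Q] (m : ℕ) (hm : 2 ≤ m)
    (e : Q ≃* DihedralGroup m)
    (V : Subgroup Q) (hV4 : Nat.card V = 4) (hVc : IsMulCommutative V) (hV2 : ∀ v ∈ V, v ^ 2 = 1) :
    centralizer (V : Set Q) = V := by
  have hox : orderOf (e.symm (DihedralGroup.r 1)) = m := by
    rw [MulEquiv.orderOf_eq, DihedralGroup.orderOf_r_one]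
  apply Cfsg.Agent.Lib.Helper21FourSC.of_pres (e.symm (DihedralGroup.r 1)) (e.symm (DihedralGroup.sr 0))
    (m - 1) _ _ _ _ V hV4 hVc hV2
  · rw [hox, Nat.card_congr e.toEquiv, DihedralGroup.nat_card]
  · rintro ⟨j, hj⟩
    have h1 : (e.symm (DihedralGroup.r 1)) ^ j = e.symm (DihedralGroup.sr 0) := hj
    rw [← map_zpow, DihedralGroup.r_one_zpow] at h1
    have h2 := e.symm.injective h1
    cases h2
  · rw [← map_inv, ← map_mul, ← map_mul, ← map_pow, DihedralGroup.r_one_pow]
    congr 1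
    have h1 : ((m - 1 : ℕ) : ZMod m) = -1 := by
      rw [Nat.cast_sub (by omega)]
      simp
    rw [h1]
    simp
  · intro c hc hck
    have hcm : c ^ m = 1 := by
      obtain ⟨j, rfl⟩ := hc
      have h0 : (e.symm (DihedralGroup.r 1)) ^ m = 1 := by
        have := pow_orderOf_eq_one (e.symm (DihedralGroup.r 1))
        rwa [hox] at this
      calc ((e.symm (DihedralGroup.r 1)) ^ j) ^ m = ((e.symm (DihedralGroup.r 1)) ^ m) ^ j := by
            rw [← zpow_natCast, ← zpow_natCast, ← zpow_mul, ← zpow_mul, mul_comm]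
        _ = 1 := by rw [h0, one_zpow]
    have h1 : c ^ m = c ^ (m - 1) * c := by
      rw [← pow_succ]; congr 1; omega
    rw [hck, hcm] at h1
    rw [pow_two]; exact h1.symm

open Subgroup in
theorem four_quasi {Q : Type*} [Group Q] [Finite Q] (hq : Cfsg.IsQuasiDihedral Q)
    (V : Subgroup Q) (hV4 : Nat.card V = 4) (hVc : IsMulCommutative V) (hV2 : ∀ v ∈ V, v ^ 2 = 1) :
    centralizer (V : Set Q) = V := by
  obtain ⟨n, hn, hcard, x, y, hx, hy, hyx⟩ := hq
  obtain ⟨s, rfl⟩ : ∃ s, n = s + 3 := ⟨n - 3, by omega⟩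
  have hw : 1 ≤ 2 ^ s := Nat.one_le_two_pow
  have e1 : 2 ^ (s + 3) = 8 * 2 ^ s := by ring
  have e2 : 2 ^ (s + 3 - 1) = 4 * 2 ^ s := by
    have : s + 3 - 1 = s + 2 := by omega
    rw [this]; ring
  apply Cfsg.Agent.Lib.Helper21FourSC.of_pres x y (2 ^ (s + 3 - 1) - 1) _ _ hyx _ V hV4 hVc hV2
  · rw [hcard, hx]; ring
  · intro hmem
    obtain ⟨j, hj⟩ := hmem
    have hj' : x ^ j = y := hj
    have hc : y * x * y⁻¹ = x := by
      rw [← hj']
      have : x ^ j * x = x * x ^ j := by rw [← zpow_add_one, ← zpow_one_add, add_comm]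
      rw [this]; group
    rw [hc] at hyx
    have h1 : x ^ 1 = x ^ (2 ^ (s + 3 - 1) - 1) := by rw [pow_one]; exact hyx
    rw [pow_eq_pow_iff_modEq, hx] at h1
    unfold Nat.ModEq at h1
    rw [Nat.mod_eq_of_lt (by omega), Nat.mod_eq_of_lt (by omega)] at h1
    omega
  · intro c hc hck
    have hcm : c ^ (2 ^ (s + 3)) = 1 := by
      obtain ⟨j, rfl⟩ := hc
      have h0 : x ^ (2 ^ (s + 3)) = 1 := by rw [← hx]; exact pow_orderOf_eq_one _
      calc (x ^ j) ^ (2 ^ (s + 3)) = (x ^ (2 ^ (s + 3))) ^ j := by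
            rw [← zpow_natCast, ← zpow_natCast, ← zpow_mul, ← zpow_mul, mul_comm]
        _ = 1 := by rw [h0, one_zpow]
    have hc2 : c ^ (4 * 2 ^ s - 2) = 1 := by
      have h1 : c ^ (2 ^ (s + 3 - 1) - 1) = c ^ (4 * 2 ^ s - 2) * c := by
        rw [← pow_succ]; congr 1; omega
      rw [hck] at h1
      exact (mul_eq_right.mp h1.symm)
    have hd1 : orderOf c ∣ 2 ^ (s + 3) := orderOf_dvd_of_pow_eq_one hcm
    have hd2 : orderOf c ∣ 4 * 2 ^ s - 2 := orderOf_dvd_of_pow_eq_one hc2
    obtain ⟨j, -, hj⟩ := (Nat.dvd_prime_pow Nat.prime_two).mp hd1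
    have hj1 : j ≤ 1 := by
      by_contra hcon
      push Not at hcon
      have h4 : 4 ∣ orderOf c := by
        rw [hj]
        exact (by norm_num : (4 : ℕ) = 2 ^ 2) ▸ pow_dvd_pow 2 hcon
      have := h4.trans hd2
      omega
    apply orderOf_dvd_iff_pow_eq_one.mp
    rw [hj]
    exact (pow_dvd_pow 2 hj1).trans (by norm_num)

/-- Let R be a finite group, t a central involution of R such that R ⧸ ⟨t⟩ is dihedral (of order ≥ 4) or quasi-dihedral, and A ≤ R an elementary abelian subgroup of order 8 containing t. Then C_R(A) = A. -/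
theorem result {R : Type*} [Group R] [Finite R] (t : R) (ht : orderOf t = 2) (htz : t ∈ Subgroup.center R) [(Subgroup.zpowers t).Normal] (hq : (∃ m : ℕ, 2 ≤ m ∧ Nonempty (R ⧸ Subgroup.zpowers t ≃* DihedralGroup m)) ∨ Cfsg.IsQuasiDihedral (R ⧸ Subgroup.zpowers t)) (A : Subgroup R) (hA : Cfsg.IsElementaryAbelian 2 A) (hA8 : Nat.card A = 8) (htA : t ∈ A) : Subgroup.centralizer (A : Set R) = A := by
  classical
  set N := Subgroup.zpowers t with hN
  set π : R →* R ⧸ N := QuotientGroup.mk' N with hπ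
  have hπs : Function.Surjective π := QuotientGroup.mk'_surjective _
  have hNA : N ≤ A := by rw [hN, Subgroup.zpowers_le]; exact htA
  set V : Subgroup (R ⧸ N) := A.map π with hV
  have hV4 : Nat.card V = 4 := by
    have h1 : V.index = A.index := by
      rw [hV, Subgroup.index_map, hπ, QuotientGroup.ker_mk', sup_eq_left.mpr hNA,
        MonoidHom.range_eq_top.mpr (QuotientGroup.mk'_surjective N), Subgroup.index_top, mul_one]
    have h2 := V.card_mul_index
    have h3 := A.card_mul_index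
    have h4 := Subgroup.card_eq_card_quotient_mul_card_subgroup N
    have h5 : Nat.card N = 2 := by rw [hN, Nat.card_zpowers, ht]
    have h6 : 0 < A.index := Nat.pos_of_ne_zero (Subgroup.index_ne_zero_of_finite)
    rw [h1] at h2
    rw [hA8] at h3
    rw [h5, ← h3, ← h2] at h4
    have h7 : 4 * A.index = Nat.card V * A.index := by linarith
    exact (Nat.eq_of_mul_eq_mul_right h6 h7).symm
  have hVc : IsMulCommutative V := by
    refine ⟨⟨?_⟩⟩
    rintro ⟨_, a, ha, rfl⟩ ⟨_, b, hb, rfl⟩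
    apply Subtype.ext
    show π a * π b = π b * π a
    rw [← map_mul, ← map_mul]
    have := hA.1.is_comm.comm ⟨a, ha⟩ ⟨b, hb⟩
    have h' : a * b = b * a := congrArg Subtype.val this
    rw [h']
  have hV2 : ∀ v ∈ V, v ^ 2 = 1 := by
    rintro _ ⟨a, ha, rfl⟩
    rw [← map_pow, hA.2 a ha, map_one]
  have hself : Subgroup.centralizer (V : Set (R ⧸ N)) = V := by
    rcases hq with ⟨m, hm, ⟨e⟩⟩ | hq
    · exact four_dihedral m hm e V hV4 hVc hV2
    · exact four_quasi hq V hV4 hVc hV2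
  apply le_antisymm
  · intro g hg
    have h1 : π g ∈ Subgroup.centralizer (V : Set (R ⧸ N)) := by
      rw [Subgroup.mem_centralizer_iff]
      rintro _ ⟨a, ha, rfl⟩
      rw [← map_mul, ← map_mul, Subgroup.mem_centralizer_iff.mp hg a ha]
    rw [hself] at h1
    obtain ⟨a, ha, hag⟩ := h1
    have h2 : a⁻¹ * g ∈ N := QuotientGroup.eq.mp hag
    have h3 : g = a * (a⁻¹ * g) := by group
    rw [h3]
    exact A.mul_mem ha (hNA h2)
  · have := hA.1
    exact A.le_centralizer

end Cfsg.Agent.S1236
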