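import Cfsg.Statements.S1242
import Cfsg.Agent.Lib.Helper26Transfer

set_option autoImplicit false
open Cfsg

namespace Cfsg.Agent.S1242

theorem normal_of_commutator_le {H : Type*} [Group H] (K : Subgroup H) (h : commutator H ≤ K) :
    K.Normal := by
  constructor
  intro n hn g
  have h1 : g * n * g⁻¹ * n⁻¹ ∈ K := by
    apply h
    rw [commutator_def]
    exact Subgroup.commutator_mem_commutator (Subgroup.mem_top g) (Subgroup.mem_top n)
  have := K.mul_mem h1 hn
  simpa using this

theorem isPGroup_quot {H : Type*} [Group H] [Finite H] {p : ℕ} [Fact p.Prime] (K : Subgroup H)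
    [K.Normal] (h : Cfsg.pResidual p H ≤ K) : IsPGroup p (H ⧸ K) := by
  intro x
  induction x using QuotientGroup.induction_on with
  | H x =>
  have hpos : orderOf x ≠ 0 := (orderOf_pos x).ne'
  obtain ⟨k, m, hm, hkm⟩ := Nat.exists_eq_pow_mul_and_not_dvd hpos p (Fact.out : p.Prime).ne_one
  refine ⟨k, ?_⟩
  rw [← QuotientGroup.mk_pow, QuotientGroup.eq_one_iff]
  apply h
  apply Subgroup.subset_closure
  show Nat.Coprime (orderOf (x ^ p ^ k)) p
  have h1 : orderOf (x ^ p ^ k) = m := by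
    rw [orderOf_pow_of_dvd (pow_ne_zero _ (Fact.out : p.Prime).ne_zero) (hkm ▸ Dvd.intro _ rfl), hkm]
    exact Nat.mul_div_cancel_left _ (pow_pos (Fact.out : p.Prime).pos _)
  rw [h1]
  exact ((Nat.Prime.coprime_iff_not_dvd (Fact.out : p.Prime)).2 hm).symm

/-- Let G be a finite group, p a prime and H a subgroup of index prime to p such that any two elements of H of p-power order that are conjugate in G are conjugate in H. Then (O^p(G)·G') ∩ H = O^p(H)·H', where O^p denotes the subgroup generated by the elements of order prime to p. -/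
theorem result {G : Type*} [Group G] [Finite G] {p : ℕ} [Fact p.Prime] (H : Subgroup G) (hidx : Nat.Coprime p H.index) (hfus : ∀ g ∈ H, (∃ k : ℕ, orderOf g = p ^ k) → ∀ a : G, a * g * a⁻¹ ∈ H → ∃ h ∈ H, h * g * h⁻¹ = a * g * a⁻¹) : (Cfsg.pResidual p G ⊔ commutator G) ⊓ H = (Cfsg.pResidual p ↥H ⊔ commutator ↥H).map H.subtype := by
  have hp : p.Prime := Fact.out
  set K₀ : Subgroup H := Cfsg.pResidual p ↥H ⊔ commutator ↥H with hK₀
  set K : Subgroup G := K₀.map H.subtype with hK
  have hKH : K ≤ H := Subgroup.map_subtype_le K₀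
  have hsub : K.subgroupOf H = K₀ := by
    rw [hK, Subgroup.subgroupOf, Subgroup.comap_map_eq_self_of_injective H.subtype_injective]
  have hK₀n : K₀.Normal := normal_of_commutator_le K₀ le_sup_right
  have hKn : (K.subgroupOf H).Normal := hsub ▸ hK₀n
  have hab : ∀ x ∈ H, ∀ y ∈ H, x * y * x⁻¹ * y⁻¹ ∈ K := by
    intro x hx y hy
    refine ⟨⟨x, hx⟩ * ⟨y, hy⟩ * ⟨x, hx⟩⁻¹ * ⟨y, hy⟩⁻¹, ?_, rfl⟩
    apply (le_sup_right : commutator H ≤ K₀)
    rw [commutator_def]
    exact Subgroup.commutator_mem_commutator (Subgroup.mem_top _) (Subgroup.mem_top _)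
  have hPG : IsPGroup p (H ⧸ K₀) := isPGroup_quot K₀ le_sup_left
  apply le_antisymm
  · rintro g ⟨hg1, hgH⟩
    obtain ⟨N, hNn, hcomm, hpow, hN⟩ :=
      Cfsg.Agent.Lib.Helper26Transfer.exists_transfer_kernel H K hKn hab
    have hrel : ∃ j : ℕ, K.relIndex H = p ^ j := by
      have : K.relIndex H = Nat.card (H ⧸ K₀) := by
        rw [Subgroup.relIndex, hsub]; rfl
      rw [this]
      exact (IsPGroup.iff_card).1 hPG
    obtain ⟨j, hj⟩ := hrel
    have hres : Cfsg.pResidual p G ≤ N := by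
      rw [Cfsg.pResidual, Subgroup.closure_le]
      intro x hx
      have hx' : Nat.Coprime (orderOf x) p := hx
      have hc : (p ^ j).Coprime (orderOf x) := (Nat.Coprime.pow_right j hx').symm
      obtain ⟨m, hm⟩ := exists_pow_eq_self_of_coprime hc
      show x ∈ N
      rw [← hm]
      exact N.pow_mem (hj ▸ hpow x) m
    have hgN : g ∈ N := (sup_le hres hcomm) hg1
    have hpos : orderOf g ≠ 0 := (orderOf_pos g).ne'
    obtain ⟨k, m, hm, hkm⟩ := Nat.exists_eq_pow_mul_and_not_dvd hpos p hp.ne_one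
    have hm0 : m ≠ 0 := by
      rintro rfl
      exact hm (dvd_zero p)
    have hord : orderOf (g ^ m) = p ^ k := by
      rw [orderOf_pow_of_dvd hm0 (hkm ▸ Dvd.intro_left _ rfl), hkm]
      exact Nat.mul_div_cancel _ (Nat.pos_of_ne_zero hm0)
    have hgmH : g ^ m ∈ H := H.pow_mem hgH m
    have h1 : (g ^ m) ^ H.index ∈ K := by
      refine (hN (g ^ m) hgmH ?_).1 (N.pow_mem hgN m)
      intro i a ha
      have hordi : ∃ k' : ℕ, orderOf ((g ^ m) ^ i) = p ^ k' := by
        have : orderOf ((g ^ m) ^ i) ∣ p ^ k := hord ▸ orderOf_pow_dvd i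
        obtain ⟨k', _, hk'⟩ := (Nat.dvd_prime_pow hp).1 this
        exact ⟨k', hk'⟩
      obtain ⟨h, hh, hconj⟩ := hfus ((g ^ m) ^ i) (H.pow_mem hgmH i) hordi a ha
      rw [← hconj]
      exact hab h hh _ (H.pow_mem hgmH i)
    -- now conclude in the p-group H / K₀
    have h2 : (QuotientGroup.mk (⟨g, hgH⟩ : H) : H ⧸ K₀) ^ (m * H.index) = 1 := by
      rw [← QuotientGroup.mk_pow, QuotientGroup.eq_one_iff, ← hsub, Subgroup.mem_subgroupOf]
      simpa [pow_mul] using h1
    obtain ⟨k₂, hk₂⟩ := hPG (QuotientGroup.mk (⟨g, hgH⟩ : H) : H ⧸ K₀)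
    have hcop : Nat.Coprime (m * H.index) (p ^ k₂) := by
      apply Nat.Coprime.pow_right
      apply Nat.Coprime.mul_left
      · exact ((Nat.Prime.coprime_iff_not_dvd hp).2 hm).symm
      · exact hidx.symm
    have h3 : (QuotientGroup.mk (⟨g, hgH⟩ : H) : H ⧸ K₀) = 1 := by
      have hd1 := orderOf_dvd_of_pow_eq_one h2
      have hd2 := orderOf_dvd_of_pow_eq_one hk₂
      have := Nat.eq_one_of_dvd_coprimes hcop hd1 hd2
      exact orderOf_eq_one_iff.1 this
    rw [QuotientGroup.eq_one_iff] at h3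
    exact ⟨⟨g, hgH⟩, h3, rfl⟩
  · refine le_inf ?_ hKH
    rw [hK, hK₀, Subgroup.map_sup]
    apply sup_le_sup
    · rw [Cfsg.pResidual, Subgroup.map_le_iff_le_comap, Subgroup.closure_le]
      intro x hx
      have hx' : Nat.Coprime (orderOf x) p := hx
      show (x : G) ∈ Cfsg.pResidual p G
      apply Subgroup.subset_closure
      show Nat.Coprime (orderOf (x : G)) p
      rwa [Subgroup.orderOf_coe]
    · rw [commutator_def, commutator_def, Subgroup.map_commutator]
      exact Subgroup.commutator_mono le_top le_top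

end Cfsg.Agent.S1242
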