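import Cfsg.Statements.S1243

set_option autoImplicit false
open Cfsg

namespace Cfsg.Agent.S1243

theorem mem_smul_sylow {G : Type*} [Group G] {p : ℕ} (a x : G) (T : Sylow p G) :
    x ∈ ((a • T : Sylow p G) : Subgroup G) ↔ a⁻¹ * x * a ∈ (T : Subgroup G) := by
  rw [Sylow.coe_subgroup_smul, Subgroup.mem_pointwise_smul_iff_inv_smul_mem]
  simp [MulAut.smul_def, mul_assoc]

theorem exists_conj_le_sylow {G : Type*} [Group G] [Finite G] {p : ℕ} [Fact p.Prime]
    (C A B : Subgroup G) (hA : IsPGroup p A) (hB : IsPGroup p B) (hAC : A ≤ C) (hBC : B ≤ C) :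
    ∃ c ∈ C, ∃ T' : Sylow p G, A ≤ (T' : Subgroup G) ∧ ∀ b ∈ B, c * b * c⁻¹ ∈ (T' : Subgroup G) := by
  have hA' : IsPGroup p (A.subgroupOf C) := hA.comap_subtype
  have hB' : IsPGroup p (B.subgroupOf C) := hB.comap_subtype
  obtain ⟨R, hR⟩ := hA'.exists_le_sylow
  obtain ⟨R', hR'⟩ := hB'.exists_le_sylow
  obtain ⟨c, hc⟩ := MulAction.exists_smul_eq C R' R
  have hRp : IsPGroup p ((R : Subgroup C).map C.subtype) := R.2.map _
  obtain ⟨T', hT'⟩ := hRp.exists_le_sylow
  refine ⟨c, c.2, T', ?_, ?_⟩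
  · intro a ha
    apply hT'
    exact ⟨⟨a, hAC ha⟩, hR (by simpa [Subgroup.mem_subgroupOf] using ha), rfl⟩
  · intro b hb
    apply hT'
    refine ⟨c * ⟨b, hBC hb⟩ * c⁻¹, ?_, rfl⟩
    have h1 : (⟨b, hBC hb⟩ : C) ∈ (R' : Subgroup C) := hR' (by simpa [Subgroup.mem_subgroupOf] using hb)
    show c * ⟨b, hBC hb⟩ * c⁻¹ ∈ (R : Subgroup C)
    rw [← hc, mem_smul_sylow]
    simpa [mul_assoc] using h1

theorem map_conj_le_iff {G : Type*} [Group G] (W P : Subgroup G) (g : G) :
    W.map (MulAut.conj g).toMonoidHom ≤ P ↔ ∀ w ∈ W, g * w * g⁻¹ ∈ P := by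
  constructor
  · intro h w hw
    exact h ⟨w, hw, rfl⟩
  · rintro h _ ⟨w, hw, rfl⟩
    exact h w hw

theorem mem_normalizer_of_map_eq {G : Type*} [Group G] (W : Subgroup G) (g : G)
    (h : W.map (MulAut.conj g).toMonoidHom = W) : g ∈ Subgroup.normalizer (W : Set G) := by
  rw [Subgroup.mem_normalizer_iff]
  intro x
  constructor
  · intro hx
    rw [← h]
    exact ⟨x, hx, rfl⟩
  · intro hx
    rw [← h] at hx
    obtain ⟨y, hy, hyx⟩ := hx
    have : y = x := by simpa using hyx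
    exact this ▸ hy

/-- Let T be a Sylow p-subgroup of the finite group G and W ≤ T a subgroup weakly closed in T. If d and g d g⁻¹ both centralize W, then g d g⁻¹ = h d h⁻¹ for some h ∈ N_G(W). -/
theorem result {G : Type*} [Group G] [Finite G] {p : ℕ} [Fact p.Prime] (T : Sylow p G) (W : Subgroup G) (hW : Cfsg.IsWeaklyClosed W (T : Subgroup G)) (d g : G) (hd : d ∈ Subgroup.centralizer (W : Set G)) (hgd : g * d * g⁻¹ ∈ Subgroup.centralizer (W : Set G)) : ∃ h ∈ Subgroup.normalizer (W : Set G), h * d * h⁻¹ = g * d * g⁻¹ := by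
  obtain ⟨hWT, hwc⟩ := hW
  have hWp : IsPGroup p W := T.2.to_le hWT
  set e := g * d * g⁻¹ with he
  set C := Subgroup.centralizer ({e} : Set G) with hC
  have hWC : W ≤ C := by
    intro w hw
    rw [hC, Subgroup.mem_centralizer_singleton_iff]
    exact ((Subgroup.mem_centralizer_iff.1 hgd) w hw)
  have hW'p : IsPGroup p (W.map (MulAut.conj g).toMonoidHom) := hWp.map _
  have hW'C : W.map (MulAut.conj g).toMonoidHom ≤ C := by
    rw [map_conj_le_iff]
    intro w hw
    rw [hC, Subgroup.mem_centralizer_singleton_iff]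
    have := (Subgroup.mem_centralizer_iff.1 hd) w hw
    rw [he]
    calc g * w * g⁻¹ * (g * d * g⁻¹) = g * (w * d) * g⁻¹ := by group
      _ = g * (d * w) * g⁻¹ := by rw [this]
      _ = g * d * g⁻¹ * (g * w * g⁻¹) := by group
  obtain ⟨c, hc, T', hWT', hW'T'⟩ := exists_conj_le_sylow C W _ hWp hW'p hWC hW'C
  obtain ⟨a, ha⟩ := MulAction.exists_smul_eq G T T'
  have h1 : W.map (MulAut.conj a⁻¹).toMonoidHom = W := by
    apply hwc
    rw [map_conj_le_iff]
    intro w hw
    have := hWT' hw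
    rw [← ha, mem_smul_sylow] at this
    simpa using this
  have h2 : W.map (MulAut.conj (a⁻¹ * (c * g))).toMonoidHom = W := by
    apply hwc
    rw [map_conj_le_iff]
    intro w hw
    have := hW'T' (g * w * g⁻¹) ⟨w, hw, rfl⟩
    rw [← ha, mem_smul_sylow] at this
    simpa [mul_assoc] using this
  have h3 := mem_normalizer_of_map_eq W _ h1
  have h4 := mem_normalizer_of_map_eq W _ h2
  refine ⟨c * g, ?_, ?_⟩
  · have := mul_mem (inv_mem h3) h4
    simpa using this
  · rw [hC, Subgroup.mem_centralizer_singleton_iff] at hc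
    calc c * g * d * (c * g)⁻¹ = c * e * c⁻¹ := by rw [he]; group
      _ = e := by rw [hc]; group

end Cfsg.Agent.S1243
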