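import Cfsg.Statements.S1244

set_option autoImplicit false
open Cfsg

namespace Cfsg.Agent.S1244

open scoped IsMulCommutative

/-- elements of order dividing two in a commutative subgroup -/
def omega2 {G : Type*} [Group G] (B : Subgroup G) (hB : ∀ a ∈ B, ∀ b ∈ B, a * b = b * a) :
    Subgroup G where
  carrier := {g | g ∈ B ∧ g ^ 2 = 1}
  one_mem' := ⟨B.one_mem, one_pow 2⟩
  mul_mem' := by
    rintro a b ⟨ha, ha2⟩ ⟨hb, hb2⟩
    refine ⟨B.mul_mem ha hb, ?_⟩
    have hc : Commute a b := hB a ha b hb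
    rw [hc.mul_pow, ha2, hb2, one_mul]
  inv_mem' := by
    rintro a ⟨ha, ha2⟩
    exact ⟨B.inv_mem ha, by rw [inv_pow, ha2, inv_one]⟩

theorem mem_omega2 {G : Type*} [Group G] (B : Subgroup G) (hB : ∀ a ∈ B, ∀ b ∈ B, a * b = b * a)
    (g : G) : g ∈ omega2 B hB ↔ g ∈ B ∧ g ^ 2 = 1 := Iff.rfl

theorem omega2_le {G : Type*} [Group G] (B : Subgroup G) (hB : ∀ a ∈ B, ∀ b ∈ B, a * b = b * a) :
    omega2 B hB ≤ B := fun _ h => h.1

theorem prankLE_iff {G : Type*} [Group G] [Finite G] (B : Subgroup G)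
    (hB : ∀ a ∈ B, ∀ b ∈ B, a * b = b * a) (k : ℕ) :
    Cfsg.PRankLE 2 k B ↔ Nat.card (omega2 B hB) ≤ 2 ^ k := by
  constructor
  · intro h
    have h1 := h ((omega2 B hB).subgroupOf B) ?_ ?_
    · rwa [Nat.card_congr (Subgroup.subgroupOfEquivOfLe (omega2_le B hB)).toEquiv] at h1
    · refine ⟨⟨fun a b => ?_⟩⟩
      ext
      exact hB _ a.1.2 _ b.1.2
    · intro a ha
      rw [Subgroup.mem_subgroupOf] at ha
      ext
      simpa using ha.2
  · intro h A _ hA2
    have h1 : A.map B.subtype ≤ omega2 B hB := by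
      rintro _ ⟨a, ha, rfl⟩
      refine ⟨a.2, ?_⟩
      have := hA2 a ha
      simpa using congrArg Subtype.val this
    calc Nat.card A = Nat.card (A.map B.subtype) :=
          (Subgroup.card_map_of_injective B.subtype_injective).symm
      _ ≤ Nat.card (omega2 B hB) := Subgroup.card_le_of_le h1
      _ ≤ 2 ^ k := h

theorem card_omega2 {G : Type*} [Group G] [Finite G] (B : Subgroup G)
    (hB : ∀ a ∈ B, ∀ b ∈ B, a * b = b * a) : ∃ j : ℕ, Nat.card (omega2 B hB) = 2 ^ j := by
  have : IsPGroup 2 (omega2 B hB) := by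
    intro x
    refine ⟨1, ?_⟩
    ext
    simpa using x.2.2
  exact (IsPGroup.iff_card).1 this

theorem parity {A ι : Type*} [CommGroup A] (W V : Subgroup A)
    (h2 : ∀ a ∈ V, ∀ b ∈ V, (a * b ∈ W ↔ (a ∈ W ↔ b ∈ W))) (s : Finset ι) (f : ι → A) (c : ι → ℕ)
    (hV : ∀ i ∈ s, f i ∈ V) (hW : ∀ i ∈ s, (f i ∈ W ↔ Even (c i))) :
    (∏ i ∈ s, f i ∈ V) ∧ (∏ i ∈ s, f i ∈ W ↔ Even (∑ i ∈ s, c i)) := by
  classical
  induction s using Finset.induction_on with
  | empty => simp [V.one_mem, W.one_mem]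
  | insert a s ha ih =>
    have ih' := ih (fun i hi => hV i (Finset.mem_insert_of_mem hi))
      (fun i hi => hW i (Finset.mem_insert_of_mem hi))
    rw [Finset.prod_insert ha, Finset.sum_insert ha]
    refine ⟨V.mul_mem (hV a (Finset.mem_insert_self a s)) ih'.1, ?_⟩
    rw [h2 _ (hV a (Finset.mem_insert_self a s)) _ ih'.1, Nat.even_add, ih'.2,
      hW a (Finset.mem_insert_self a s)]

theorem exists_index_two {G A : Type*} [Group G] [Finite G] [Group A] (hA : IsPGroup 2 A)
    (V : G →* A) (t : G) (ht : V t ≠ 1) : ∃ H : Subgroup G, H.index = 2 := by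
  have hR : IsPGroup 2 V.range := hA.to_subgroup _
  have : Finite V.range := Finite.of_surjective V.rangeRestrict V.rangeRestrict_surjective
  obtain ⟨j, hj⟩ := (IsPGroup.iff_card).1 hR
  have hj0 : j ≠ 0 := by
    rintro rfl
    rw [pow_zero, Subgroup.card_eq_one] at hj
    apply ht
    have : V t ∈ V.range := ⟨t, rfl⟩
    rw [hj] at this
    simpa using this
  obtain ⟨i, rfl⟩ := Nat.exists_eq_succ_of_ne_zero hj0
  have : Fact (Nat.Prime 2) := ⟨Nat.prime_two⟩
  obtain ⟨L, hL⟩ := Sylow.exists_subgroup_card_pow_prime (G := V.range) 2 (n := i)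
    (by rw [hj]; exact pow_dvd_pow 2 (Nat.le_succ i))
  refine ⟨L.comap V.rangeRestrict, ?_⟩
  rw [Subgroup.index_comap_of_surjective _ V.rangeRestrict_surjective]
  have := L.card_mul_index
  rw [hL, hj, pow_succ] at this
  exact Nat.eq_of_mul_eq_mul_left (pow_pos (by norm_num) i) this

/-- Let G be a finite group with no subgroup of index 2 whose Sylow 2-subgroup S is commutative, and let R ≤ S be a subgroup whose 2-rank is exactly one less than the 2-rank r of S. Then every involution of S is conjugate, by an element of N_G(S), to an element of R. -/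
theorem result {G : Type*} [Group G] [Finite G] (hG : ∀ H : Subgroup G, H.index ≠ 2) (S : Sylow 2 G) (hS : IsMulCommutative (S : Subgroup G)) (r : ℕ) (hr1 : 1 ≤ r) (hSr : Cfsg.PRankLE 2 r (S : Subgroup G) ∧ ¬ Cfsg.PRankLE 2 (r - 1) (S : Subgroup G)) (R : Subgroup G) (hRS : R ≤ S) (hRr : Cfsg.PRankLE 2 (r - 1) R ∧ (r = 1 ∨ ¬ Cfsg.PRankLE 2 (r - 2) R)) (t : G) (ht : orderOf t = 2) (htS : t ∈ S) : ∃ n ∈ Subgroup.normalizer ((S : Subgroup G) : Set G), n * t * n⁻¹ ∈ R := by
  classical
  have : Fact (Nat.Prime 2) := ⟨Nat.prime_two⟩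
  by_contra hcon
  push Not at hcon
  have hSc : ∀ a ∈ (S : Subgroup G), ∀ b ∈ (S : Subgroup G), a * b = b * a := by
    intro a ha b hb
    have := hS.is_comm.comm ⟨a, ha⟩ ⟨b, hb⟩
    simpa using congrArg Subtype.val this
  have hRc : ∀ a ∈ R, ∀ b ∈ R, a * b = b * a := fun a ha b hb => hSc a (hRS ha) b (hRS hb)
  rw [prankLE_iff _ hSc, prankLE_iff _ hSc] at hSr
  rw [prankLE_iff _ hRc, prankLE_iff _ hRc] at hRr
  obtain ⟨j, hj⟩ := card_omega2 (S : Subgroup G) hSc
  obtain ⟨i, hi⟩ := card_omega2 R hRc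
  rw [hj] at hSr
  rw [hi] at hRr
  have hjr : j = r := by
    have h1 : j ≤ r := (Nat.pow_le_pow_iff_right (by norm_num)).1 hSr.1
    have h2 : r - 1 < j := by
      have := hSr.2
      rw [not_le] at this
      exact (Nat.pow_lt_pow_iff_right (by norm_num)).1 this
    omega
  have hir : i + 1 = r := by
    have h1 : i ≤ r - 1 := (Nat.pow_le_pow_iff_right (by norm_num)).1 hRr.1
    rcases hRr.2 with h | h
    · omega
    · rw [not_le] at h
      have := (Nat.pow_lt_pow_iff_right (by norm_num)).1 h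
      omega
  set V := omega2 (S : Subgroup G) hSc with hV
  set W := omega2 R hRc with hW
  have hWV : W ≤ V := fun g hg => ⟨hRS hg.1, hg.2⟩
  have hidx : (W.subgroupOf V).index = 2 := by
    have h1 := (W.subgroupOf V).card_mul_index
    rw [Nat.card_congr (Subgroup.subgroupOfEquivOfLe hWV).toEquiv, hi, hj, hjr, ← hir,
      pow_succ] at h1
    exact Nat.eq_of_mul_eq_mul_left (pow_pos (by norm_num) i) h1
  have h2 : ∀ a ∈ V.subgroupOf (S : Subgroup G), ∀ b ∈ V.subgroupOf (S : Subgroup G),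
      (a * b ∈ W.subgroupOf (S : Subgroup G) ↔
        (a ∈ W.subgroupOf (S : Subgroup G) ↔ b ∈ W.subgroupOf (S : Subgroup G))) := by
    intro a ha b hb
    rw [Subgroup.mem_subgroupOf] at ha hb
    have := Subgroup.mul_mem_iff_of_index_two hidx (a := ⟨a, ha⟩) (b := ⟨b, hb⟩)
    simpa [Subgroup.mem_subgroupOf] using this
  let ϕ : (S : Subgroup G) →* (S : Subgroup G) := MonoidHom.id _
  have : Fintype (Quotient (MulAction.orbitRel (Subgroup.zpowers t) (G ⧸ (S : Subgroup G)))) :=
    Fintype.ofFinite _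
  have ht2 : t ^ 2 = 1 := by rw [← ht]; exact pow_orderOf_eq_one t
  have hper : ∀ x : G ⧸ (S : Subgroup G), Function.minimalPeriod (t • ·) x = 1 ∨
      Function.minimalPeriod (t • ·) x = 2 := by
    intro x
    have : Function.minimalPeriod (t • ·) x ∣ 2 := by
      rw [← MulAction.pow_smul_eq_iff_minimalPeriod_dvd, ht2, one_smul]
    exact (Nat.dvd_prime Nat.prime_two).1 this
  have key := parity (W.subgroupOf (S : Subgroup G)) (V.subgroupOf (S : Subgroup G)) h2
    (Finset.univ : Finset (Quotient (MulAction.orbitRel (Subgroup.zpowers t) (G ⧸ (S : Subgroup G)))))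
    (fun q => ϕ ⟨q.out.out⁻¹ * t ^ Function.minimalPeriod (t • ·) q.out * q.out.out,
            QuotientGroup.out_conj_pow_minimalPeriod_mem (S : Subgroup G) t q.out⟩)
    (fun q => Function.minimalPeriod (t • ·) q.out) ?_ ?_
  · rw [← MonoidHom.transfer_eq_prod_quotient_orbitRel_zpowers_quot,
      ← Subgroup.index_eq_sum_minimalPeriod] at key
    have hodd : ¬ Even (S : Subgroup G).index := by
      rw [even_iff_two_dvd]
      exact S.not_dvd_index
    have hne : MonoidHom.transfer ϕ t ≠ 1 := by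
      intro h
      apply hodd
      rw [← key.2, h]
      exact Subgroup.one_mem _
    obtain ⟨H, hH⟩ := exists_index_two S.2 (MonoidHom.transfer ϕ) t hne
    exact hG H hH
  · intro q _
    rw [Subgroup.mem_subgroupOf]
    refine ⟨QuotientGroup.out_conj_pow_minimalPeriod_mem (S : Subgroup G) t q.out, ?_⟩
    show (q.out.out⁻¹ * t ^ Function.minimalPeriod (t • ·) q.out * q.out.out) ^ 2 = 1
    have : (q.out.out⁻¹ * t ^ Function.minimalPeriod (t • ·) q.out * q.out.out) ^ 2 =
        q.out.out⁻¹ * (t ^ 2) ^ Function.minimalPeriod (t • ·) q.out * q.out.out := by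
      rw [← pow_mul, mul_comm 2, pow_mul, pow_two, pow_two]
      group
    rw [this, ht2]
    simp
  · intro q _
    rw [Subgroup.mem_subgroupOf]
    have hmem := QuotientGroup.out_conj_pow_minimalPeriod_mem (S : Subgroup G) t q.out
    show (q.out.out⁻¹ * t ^ Function.minimalPeriod (t • ·) q.out * q.out.out) ∈ W ↔ _
    rcases hper q.out with h | h
    · rw [h] at hmem ⊢
      rw [pow_one] at hmem ⊢
      have h1 : ¬ Even 1 := by decide
      refine iff_of_false ?_ h1
      intro hmW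
      obtain ⟨n, hn, hconj⟩ := S.conj_eq_normalizer_conj_of_mem t q.out.out htS hmem
      apply hcon n⁻¹ (inv_mem hn)
      rw [inv_inv, ← hconj]
      exact hmW.1
    · rw [h, ht2]
      refine iff_of_true ?_ (by decide)
      simp [W.one_mem]

end Cfsg.Agent.S1244
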