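import Cfsg.Statements.S1247
import Cfsg.Agent.Lib.Helper27Bender2

set_option autoImplicit false
open Cfsg

namespace Cfsg.Agent.S1247

/-- Let G be a non-abelian finite simple group, A a maximal subgroup, F = F*(A) its generalized Fitting subgroup (viewed in G), and S ≤ F a subgroup subnormal in F with C_F(S) ≤ S. Let B be any subgroup of G containing S. Then (a) for every prime q not dividing |F(A)|, O_q(B) ∩ A = 1; and (b) for every prime p dividing |F(A)|, O_p(B) commutes elementwise with the subgroup of F generated by its elements of order prime to p. -/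
theorem result {G : Type*} [Group G] [Finite G] [IsSimpleGroup G] (hna : ¬ IsMulCommutative G) (A : Subgroup G) (hA : IsCoatom A) (S : Subgroup G) (hSF : S ≤ (Cfsg.generalizedFittingSubgroup ↥A).map A.subtype) (hSsn : (S.subgroupOf ((Cfsg.generalizedFittingSubgroup ↥A).map A.subtype)).IsSubnormal) (hSC : (Cfsg.generalizedFittingSubgroup ↥A).map A.subtype ⊓ Subgroup.centralizer (S : Set G) ≤ S) (B : Subgroup G) (hSB : S ≤ B) : (∀ q : ℕ, q.Prime → ¬ q ∣ Nat.card (Cfsg.fittingSubgroup ↥A) → (Cfsg.pCore q ↥B).map B.subtype ⊓ A = ⊥) ∧ (∀ p : ℕ, p.Prime → p ∣ Nat.card (Cfsg.fittingSubgroup ↥A) → ∀ x ∈ (Cfsg.pCore p ↥B).map B.subtype, ∀ y ∈ (Cfsg.pResidual p ↥(Cfsg.generalizedFittingSubgroup ↥A)).map ((Cfsg.generalizedFittingSubgroup ↥A).subtype) , x * (A.subtype y) = (A.subtype y) * x) := by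
  rw [Cfsg.Agent.Lib.Helper28Layer.map_gfit] at hSF hSsn hSC
  have hbig : Cfsg.Agent.Lib.Helper27Bender2.Big A S :=
    ⟨(Cfsg.Agent.Lib.Helper28Comp.sn_iff_subgroupOf hSF).mpr hSsn, hSC⟩
  have hprim := Cfsg.Agent.Lib.Helper27Bender2.prim_of_coatom hA
  constructor
  · intro q hq hqd
    have : Fact q.Prime := ⟨hq⟩
    rw [Cfsg.Agent.Lib.Helper27Rel.map_pcore]
    apply hbig.eq_bot inf_le_right _
      ((Cfsg.Agent.Lib.Helper27Rel.pcoreIn_isPGroup (p := q) B).to_le inf_le_left)
      (Cfsg.Agent.Lib.Helper27Bender2.pcoreIn_eq_bot_of_not_dvd hqd)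
    refine le_trans (le_inf (hSB.trans (Cfsg.Agent.Lib.Helper27Rel.pcoreIn_normIn B).2)
      (hbig.snA.le.trans Subgroup.le_normalizer)) Subgroup.inf_normalizer_le_normalizer_inf
  · intro p hp hpd x hx y hy
    have : Fact p.Prime := ⟨hp⟩
    rw [Cfsg.Agent.Lib.Helper27Rel.map_pcore] at hx
    have key : ((Cfsg.pResidual p ↥(Cfsg.generalizedFittingSubgroup ↥A)).map
        ((Cfsg.generalizedFittingSubgroup ↥A).subtype)).map A.subtype ≤
        Subgroup.centralizer (Cfsg.Agent.Lib.Helper27Rel.pcoreIn p B : Set G) := by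
      rw [Subgroup.map_map, Cfsg.pResidual, MonoidHom.map_closure, Subgroup.closure_le]
      rintro _ ⟨g, hg, rfl⟩
      apply hbig.partB' hprim (Cfsg.Agent.Lib.Helper27Bender2.pcoreIn_ne_bot_of_dvd hpd)
        (Cfsg.Agent.Lib.Helper27Rel.pcoreIn_isPGroup B)
        (hSB.trans (Cfsg.Agent.Lib.Helper27Rel.pcoreIn_normIn B).2)
      · rw [← Cfsg.Agent.Lib.Helper28Layer.map_gfit]
        exact ⟨g.1, g.2, rfl⟩
      · have : orderOf ((A.subtype.comp (Cfsg.generalizedFittingSubgroup ↥A).subtype) g)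
            = orderOf g :=
          orderOf_injective (A.subtype.comp (Cfsg.generalizedFittingSubgroup ↥A).subtype)
            (by
              rw [MonoidHom.coe_comp]
              exact A.subtype_injective.comp (Subgroup.subtype_injective _)) g
        rw [this]
        exact hg
    have h1 := key (Subgroup.mem_map_of_mem A.subtype hy)
    exact (Subgroup.mem_centralizer_iff.mp h1) x hx

end Cfsg.Agent.S1247
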