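import Cfsg.Statements.S1248
import Cfsg.Agent.Lib.Helper50SzFin

set_option autoImplicit false
open Cfsg

namespace Cfsg.Agent.S1248

open Cfsg.Agent.Lib.Helper95Herm Cfsg.Agent.Lib.Helper50SzM Cfsg.Agent.Lib.Helper50SzFin
  Cfsg.Agent.Lib.Helper50SzTr Cfsg.Agent.Lib.Helper50UStd Cfsg.Agent.Lib.Helper95SUStd


/-- Let F be a field with 16 elements and S a Sylow 2-subgroup of PSU(3) over F (the unitary group U₃(4)). Then |S| = 64; the centre Z(S) is a Klein four-group and coincides with the subgroup generated by the involutions of S and with the derived subgroup; and every element of S ⧸ Z(S) squares to the identity, S ⧸ Z(S) having order 16. -/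
theorem result {F : Type*} [Field F] [Fintype F] (hF : Fintype.card F = 16) (S : Sylow 2 (Cfsg.PSU 3 F 4)) : Nat.card S = 64 ∧ IsKleinFour (Subgroup.center (S : Subgroup (Cfsg.PSU 3 F 4))) ∧ Subgroup.center (S : Subgroup (Cfsg.PSU 3 F 4)) = Subgroup.closure {x : (S : Subgroup (Cfsg.PSU 3 F 4)) | orderOf x = 2} ∧ Subgroup.center (S : Subgroup (Cfsg.PSU 3 F 4)) = commutator (S : Subgroup (Cfsg.PSU 3 F 4)) ∧ Nat.card ((S : Subgroup (Cfsg.PSU 3 F 4)) ⧸ Subgroup.center (S : Subgroup (Cfsg.PSU 3 F 4))) = 16 ∧ ∀ x : (S : Subgroup (Cfsg.PSU 3 F 4)) ⧸ Subgroup.center (S : Subgroup (Cfsg.PSU 3 F 4)), x ^ 2 = 1 := by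
  have hF' : Fintype.card F = 4 ^ 2 := by rw [hF]; norm_num
  haveI : CharP F 2 := charP_two (m := 4) (by omega) (by rw [hF]; norm_num)
  obtain ⟨E⟩ := exists_equiv hF' 2 S
  have h := herm_std hF' 3
  obtain ⟨t, ht⟩ := Cfsg.Agent.Lib.Helper17Herm.exists_ne_fix _ h.ne_id
  exact props_of_equiv E (by rw [card_model hF']; norm_num) (card_model_center hF')
    (center_eq_closure h.trace_surj t ht) (center_eq_commutator h.trace_surj t ht)
    (sq_mem_center h.trace_surj t ht) (fun x hx => by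
      rw [pow_two, Cfsg.Agent.Lib.Helper50SzM.sq_eq_one_iff]
      exact (Cfsg.Agent.Lib.Helper50SzM.mem_center_iff h.trace_surj t ht x).1 hx)

end Cfsg.Agent.S1248
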