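import Mathlib
import Cfsg.Statements.S1255
import Cfsg.Agent.S0111
import Cfsg.Agent.Lib.Helper6Klein

set_option autoImplicit false
open Cfsg

namespace Cfsg.Agent.S1255

open DihedralGroup Subgroup

theorem two_torsion (k : ℕ) (i : ZMod (2 ^ (k + 1))) (h2 : i * 2 = 0) (h0 : i ≠ 0) :
    i = ((2 ^ k : ℕ) : ZMod (2 ^ (k + 1))) := by
  haveI : NeZero (2 ^ (k + 1)) := ⟨by positivity⟩
  have h1 : ((i.val * 2 : ℕ) : ZMod (2 ^ (k + 1))) = 0 := by
    rw [Nat.cast_mul, ZMod.natCast_zmod_val]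
    exact_mod_cast h2
  rw [ZMod.natCast_eq_zero_iff] at h1
  have h1' : 2 ^ k * 2 ∣ i.val * 2 := by rw [← pow_succ]; exact h1
  have h3 : 2 ^ k ∣ i.val := Nat.dvd_of_mul_dvd_mul_right (by norm_num) h1'
  obtain ⟨c, hc⟩ := h3
  have hlt : i.val < 2 ^ (k + 1) := ZMod.val_lt i
  have hc2 : c < 2 := by
    have hlt' : 2 ^ k * c < 2 ^ k * 2 := by rw [← hc, ← pow_succ]; exact hlt
    exact Nat.lt_of_mul_lt_mul_left hlt'
  have hi : i = ((i.val : ℕ) : ZMod (2 ^ (k + 1))) := (ZMod.natCast_zmod_val i).symm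
  interval_cases c
  · exfalso
    apply h0
    rw [hi, hc]; simp
  · rw [hi, hc, mul_one]

/-- the central involution of the dihedral group -/
def z₀ (k : ℕ) : DihedralGroup (2 ^ (k + 1)) := r ((2 ^ k : ℕ) : ZMod (2 ^ (k + 1)))

theorem half_add_half (k : ℕ) :
    ((2 ^ k : ℕ) : ZMod (2 ^ (k + 1))) + ((2 ^ k : ℕ) : ZMod (2 ^ (k + 1))) = 0 := by
  rw [← Nat.cast_add, ZMod.natCast_eq_zero_iff]
  exact ⟨1, by ring⟩

theorem half_ne_zero (k : ℕ) : ((2 ^ k : ℕ) : ZMod (2 ^ (k + 1))) ≠ 0 := by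
  rw [Ne, ZMod.natCast_eq_zero_iff]
  intro h
  have := Nat.le_of_dvd (by positivity) h
  have h2 : 2 ^ k < 2 ^ (k + 1) := Nat.pow_lt_pow_right (by norm_num) (by omega)
  omega

theorem orderOf_z₀ (k : ℕ) : orderOf (z₀ k) = 2 := by
  apply orderOf_eq_prime
  · rw [z₀, pow_two, r_mul_r, half_add_half, r_zero]
  · rw [z₀, one_def]
    intro h
    injection h with h
    exact half_ne_zero k h

theorem inv_cases (k : ℕ) (d : DihedralGroup (2 ^ (k + 1))) (hd : orderOf d = 2) :
    d = z₀ k ∨ ∃ i, d = sr i := by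
  rcases d with i | i
  · left
    have h1 : (r i : DihedralGroup (2 ^ (k + 1))) ^ 2 = 1 := by
      have := pow_orderOf_eq_one (r i : DihedralGroup (2 ^ (k + 1)))
      rwa [hd] at this
    rw [r_pow, one_def] at h1
    have h2 : i * ((2 : ℕ) : ZMod (2 ^ (k + 1))) = 0 := by injection h1
    have h3 : i ≠ 0 := by
      rintro rfl
      rw [r_zero, orderOf_one] at hd
      omega
    rw [z₀, two_torsion k i (by exact_mod_cast h2) h3]
  · exact Or.inr ⟨i, rfl⟩

section
variable {G : Type*} [Group G] [Finite G] {P : Sylow 2 G} {k : ℕ}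

/-- the embedding of the dihedral group -/
def io (e : ↥(P : Subgroup G) ≃* DihedralGroup (2 ^ (k + 1))) : DihedralGroup (2 ^ (k + 1)) →* G :=
  (P : Subgroup G).subtype.comp e.symm.toMonoidHom

variable (e : ↥(P : Subgroup G) ≃* DihedralGroup (2 ^ (k + 1)))

theorem io_injective : Function.Injective (io e) :=
  (P : Subgroup G).subtype_injective.comp e.symm.injective

theorem io_mem (d : DihedralGroup (2 ^ (k + 1))) : io e d ∈ (P : Subgroup G) := (e.symm d).2

theorem exists_io {x : G} (hx : x ∈ (P : Subgroup G)) : ∃ d, io e d = x :=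
  ⟨e ⟨x, hx⟩, by simp [io]⟩

theorem orderOf_io (d : DihedralGroup (2 ^ (k + 1))) : orderOf (io e d) = orderOf d :=
  orderOf_injective (io e) (io_injective e) d

theorem orderOf_conj (g u : G) : orderOf (g * u * g⁻¹) = orderOf u := by
  have : g * u * g⁻¹ = MulAut.conj g u := by simp
  rw [this, MulEquiv.orderOf_eq]

theorem orderOf_z : orderOf (io e (z₀ k)) = 2 := by rw [orderOf_io, orderOf_z₀]

theorem orderOf_s (i : ZMod (2 ^ (k + 1))) : orderOf (io e (sr i)) = 2 := by
  rw [orderOf_io, orderOf_sr]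

/-- every involution is conjugate into `P` -/
theorem inv_conj (u : G) (hu : orderOf u = 2) :
    ∃ g : G, g * u * g⁻¹ = io e (z₀ k) ∨ ∃ i, g * u * g⁻¹ = io e (sr i) := by
  have hpg : IsPGroup 2 (zpowers u) := by
    apply IsPGroup.of_card (n := 1)
    rw [Nat.card_zpowers, hu, pow_one]
  obtain ⟨T', hT'⟩ := hpg.exists_le_sylow
  obtain ⟨h, hh⟩ := MulAction.exists_smul_eq G T' P
  have h1 : h * u * h⁻¹ ∈ (P : Subgroup G) := by
    rw [← hh, Sylow.coe_subgroup_smul]
    exact ⟨u, hT' (mem_zpowers u), rfl⟩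
  obtain ⟨d, hd⟩ := exists_io e h1
  have hd2 : orderOf d = 2 := by rw [← orderOf_io e, hd, orderOf_conj, hu]
  rcases inv_cases k d hd2 with rfl | ⟨i, rfl⟩
  · exact ⟨h, Or.inl hd.symm⟩
  · exact ⟨h, Or.inr ⟨i, hd.symm⟩⟩

/-- if the reflections are conjugate to the central involution, all involutions are conjugate -/
theorem isConj_of (hB : ∀ i, ∃ g : G, g * io e (sr i) * g⁻¹ = io e (z₀ k)) (a b : G)
    (ha : orderOf a = 2) (hb : orderOf b = 2) : IsConj a b := by
  have hz : ∀ u : G, orderOf u = 2 → IsConj u (io e (z₀ k)) := by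
    intro u hu
    obtain ⟨g, hg | ⟨i, hg⟩⟩ := inv_conj e u hu
    · exact isConj_iff.mpr ⟨g, hg⟩
    · obtain ⟨g', hg'⟩ := hB i
      exact isConj_iff.mpr ⟨g' * g, by rw [← hg', ← hg]; group⟩
  exact (hz a ha).trans (hz b hb).symm

/-- Thompson transfer: without a subgroup of index two all involutions are conjugate -/
theorem all_conj (h : ∀ N : Subgroup G, N.index ≠ 2) (i : ZMod (2 ^ (k + 1))) :
    ∃ g : G, g * io e (sr i) * g⁻¹ = io e (z₀ k) := by
  haveI : NeZero (2 ^ (k + 1)) := ⟨by positivity⟩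
  set R₀ : Subgroup (DihedralGroup (2 ^ (k + 1))) := zpowers (r 1) with hR₀
  have hR₀i : R₀.index = 2 := by
    have h1 := R₀.card_mul_index
    rw [hR₀, Nat.card_zpowers, orderOf_r_one, nat_card, mul_comm] at h1
    exact Nat.eq_of_mul_eq_mul_right (by positivity) h1
  set Q' : Subgroup ↥(P : Subgroup G) := R₀.comap e.toMonoidHom with hQ'
  set Q : Subgroup G := Q'.map (P : Subgroup G).subtype with hQ
  have hQT : Q ≤ (P : Subgroup G) := map_subtype_le _
  have hQi : Q.relIndex (P : Subgroup G) = 2 := by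
    have h1 : Q.subgroupOf (P : Subgroup G) = Q' := by
      rw [← comap_subtype]
      exact comap_map_eq_self_of_injective (P : Subgroup G).subtype_injective Q'
    rw [relIndex, h1, hQ', index_comap_of_surjective _ e.surjective, hR₀i]
  have hA : ∀ v ∈ Q, orderOf v = 2 → v = io e (z₀ k) := by
    rintro _ ⟨v, hv, rfl⟩ hv2
    have hv' : e v ∈ R₀ := hv
    obtain ⟨i, hi⟩ := mem_zpowers_iff.mp hv'
    rw [r_one_zpow] at hi
    have ho : orderOf (e v) = 2 := by
      rw [MulEquiv.orderOf_eq]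
      exact (Subgroup.orderOf_coe v).symm.trans hv2
    rcases inv_cases k _ ho with h1 | ⟨i', h1⟩
    · have h6 : v = e.symm (z₀ k) := by rw [← h1, MulEquiv.symm_apply_apply]
      rw [h6]; rfl
    · rw [← hi] at h1
      exact absurd h1 (by simp)
  have hnQ : io e (sr i) ∉ Q := by
    rintro ⟨v, hv, hvi⟩
    have hv' : e v ∈ R₀ := hv
    have h1 : v = e.symm (sr i) := Subtype.ext hvi
    rw [h1, MulEquiv.apply_symm_apply] at hv'
    obtain ⟨i', hi'⟩ := mem_zpowers_iff.mp hv'
    rw [r_one_zpow] at hi'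
    exact absurd hi' (by simp)
  rcases Cfsg.Agent.S0111.result P Q hQT hQi _ (orderOf_s e i) (io_mem e _) hnQ with
    ⟨M, hMn, hMi, -⟩ | ⟨g, hg⟩
  · exact absurd hMi (h M)
  · exact ⟨g, hA _ hg (by rw [orderOf_conj, orderOf_s])⟩

include e in
/-- if all involutions are conjugate there is no subgroup of index two -/
theorem no_index_two (hall : ∀ a b : G, orderOf a = 2 → orderOf b = 2 → IsConj a b)
    (M : Subgroup G) (hi : M.index = 2) : False := by
  have hM : M.Normal := normal_of_index_eq_two hi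
  have h4 : 2 * 2 ∣ Nat.card G := by
    have h1 : Nat.card ↥(P : Subgroup G) = 2 * 2 ^ (k + 1) := by
      rw [Nat.card_congr e.toEquiv, nat_card]
    have h2 := card_subgroup_dvd_card (P : Subgroup G)
    rw [h1] at h2
    refine dvd_trans ?_ h2
    exact Nat.mul_dvd_mul_left 2 (dvd_pow_self 2 (by omega))
  have h2M : 2 ∣ Nat.card M := by
    rw [← M.card_mul_index, hi] at h4
    exact Nat.dvd_of_mul_dvd_mul_right (by norm_num) h4
  obtain ⟨t, ht⟩ := exists_prime_orderOf_dvd_card' (G := M) 2 h2M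
  rw [← Subgroup.orderOf_coe] at ht
  have hinv : ∀ u : G, orderOf u = 2 → u ∈ M := by
    intro u hu
    obtain ⟨g, rfl⟩ := isConj_iff.mp (hall _ u ht hu)
    exact hM.conj_mem _ t.2 g
  have hPM : (P : Subgroup G) ≤ M := by
    intro x hx
    obtain ⟨d, rfl⟩ := exists_io e hx
    rcases d with i | i
    · have : (r i : DihedralGroup (2 ^ (k + 1))) = sr 0 * sr i := by
        rw [sr_mul_sr, sub_zero]
      rw [this, map_mul]
      exact mul_mem (hinv _ (orderOf_s e 0)) (hinv _ (orderOf_s e i))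
    · exact hinv _ (orderOf_s e i)
  have := index_dvd_of_le hPM
  rw [hi] at this
  exact P.not_dvd_index this

theorem comm_z_s (i : ZMod (2 ^ (k + 1))) :
    io e (z₀ k) * io e (sr i) = io e (sr i) * io e (z₀ k) := by
  rw [← map_mul, ← map_mul, z₀, r_mul_sr, sr_mul_r]
  congr 2
  have := half_add_half k
  linear_combination (-1 : ZMod (2 ^ (k + 1))) * this

theorem z_ne_s (i : ZMod (2 ^ (k + 1))) : io e (z₀ k) ≠ io e (sr i) := by
  intro h
  exact absurd (io_injective e h) (by simp [z₀])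

include e in
theorem no_isolated (hall : ∀ a b : G, orderOf a = 2 → orderOf b = 2 → IsConj a b) (t : G) :
    ¬ Cfsg.IsIsolatedInvolution t := by
  rintro ⟨ht, hiso⟩
  obtain ⟨h, hh⟩ := isConj_iff.mp (hall _ t (orderOf_z e) ht)
  obtain ⟨g, hg⟩ := isConj_iff.mp (hall _ _ (orderOf_z e) (orderOf_s e 0))
  have e1 : (h * g * h⁻¹) * t * (h * g * h⁻¹)⁻¹ = h * io e (sr 0) * h⁻¹ := by
    rw [← hh, ← hg]; group
  have h1 : Commute t ((h * g * h⁻¹) * t * (h * g * h⁻¹)⁻¹) := by
    rw [e1, ← hh]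
    show h * io e (z₀ k) * h⁻¹ * (h * io e (sr 0) * h⁻¹) = h * io e (sr 0) * h⁻¹ * (h * io e (z₀ k) * h⁻¹)
    have := comm_z_s e 0
    calc h * io e (z₀ k) * h⁻¹ * (h * io e (sr 0) * h⁻¹) = h * (io e (z₀ k) * io e (sr 0)) * h⁻¹ := by
          group
      _ = h * (io e (sr 0) * io e (z₀ k)) * h⁻¹ := by rw [this]
      _ = _ := by group
  have h2 := hiso _ h1
  rw [e1, ← hh] at h2
  have h3 : io e (sr 0) = io e (z₀ k) := by
    have := mul_right_cancel h2
    exact mul_left_cancel this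
  exact z_ne_s e 0 h3.symm


/-- if `3` divides `|N(T) : C(T)|` the involutions of the four-group `T` are fused -/
theorem trans3 (T : Subgroup G) (hT : IsKleinFour T)
    (h3 : 3 ∣ (centralizer (T : Set G)).relIndex (normalizer (T : Set G))) {z x : G}
    (hz : z ∈ T) (hx : x ∈ T) (hz1 : z ≠ 1) (hx1 : x ≠ 1) (hzx : z ≠ x) :
    ∃ g : G, g * x * g⁻¹ = z := by
  classical
  haveI : ((centralizer (T : Set G)).subgroupOf (normalizer (T : Set G))).Normal := by
    rw [← normalizerMonoidHom_ker]; infer_instance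
  haveI : Fact (Nat.Prime 3) := ⟨Nat.prime_three⟩
  obtain ⟨gb, hgb⟩ := exists_prime_orderOf_dvd_card'
    (G := ↥(normalizer (T : Set G)) ⧸ (centralizer (T : Set G)).subgroupOf (normalizer (T : Set G)))
    3 h3
  obtain ⟨⟨g, hgN⟩, rfl⟩ := QuotientGroup.mk_surjective gb
  have hgC : g ∉ centralizer (T : Set G) := by
    intro h
    have : ((⟨g, hgN⟩ : ↥(normalizer (T : Set G))) : ↥(normalizer (T : Set G)) ⧸
        (centralizer (T : Set G)).subgroupOf (normalizer (T : Set G))) = 1 :=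
      (QuotientGroup.eq_one_iff _).mpr h
    rw [this, orderOf_one] at hgb
    omega
  have hg3 : g ^ 3 ∈ centralizer (T : Set G) := by
    have h1 := pow_orderOf_eq_one ((⟨g, hgN⟩ : ↥(normalizer (T : Set G))) :
      ↥(normalizer (T : Set G)) ⧸ (centralizer (T : Set G)).subgroupOf (normalizer (T : Set G)))
    rw [hgb, ← QuotientGroup.mk_pow, QuotientGroup.eq_one_iff] at h1
    exact h1
  -- the shape of `T`
  letI := Fintype.ofFinite T
  have hzz : z * z = 1 := congrArg Subtype.val (IsKleinFour.mul_self (⟨z, hz⟩ : T))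
  have hxx : x * x = 1 := congrArg Subtype.val (IsKleinFour.mul_self (⟨x, hx⟩ : T))
  have h4 : ∀ u ∈ T, u = x * z ∨ u = x ∨ u = z ∨ u = 1 := by
    intro u hu
    have h5 := IsKleinFour.eq_finset_univ (G := T) (x := ⟨x, hx⟩) (y := ⟨z, hz⟩)
      (fun h => hx1 (congrArg Subtype.val h)) (fun h => hz1 (congrArg Subtype.val h))
      (fun h => hzx (congrArg Subtype.val h).symm)
    have h6 : (⟨u, hu⟩ : T) ∈ ({(⟨x, hx⟩ : T) * ⟨z, hz⟩, ⟨x, hx⟩, ⟨z, hz⟩, 1} : Finset T) := by
      rw [h5]; exact Finset.mem_univ _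
    simp only [Finset.mem_insert, Finset.mem_singleton] at h6
    rcases h6 with h | h | h | h
    · exact Or.inl (congrArg Subtype.val h)
    · exact Or.inr (Or.inl (congrArg Subtype.val h))
    · exact Or.inr (Or.inr (Or.inl (congrArg Subtype.val h)))
    · exact Or.inr (Or.inr (Or.inr (congrArg Subtype.val h)))
  have hcent : ∀ c : G, c * x * c⁻¹ = x → c * z * c⁻¹ = z → c ∈ centralizer (T : Set G) := by
    intro c hcx hcz
    rw [mul_inv_eq_iff_eq_mul] at hcx hcz
    rw [mem_centralizer_iff]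
    intro u hu
    rcases h4 u hu with rfl | rfl | rfl | rfl
    · rw [mul_assoc, ← hcz, ← mul_assoc, ← hcx, mul_assoc]
    · exact hcx.symm
    · exact hcz.symm
    · simp
  have hinj : ∀ u v : G, g * u * g⁻¹ = g * v * g⁻¹ → u = v := by
    intro u v h
    exact mul_left_cancel (mul_right_cancel h)
  have hone : ∀ u : G, g * u * g⁻¹ = 1 → u = 1 := by
    intro u h
    apply hinj u 1
    rw [h]; group
  have hmul : ∀ u v : G, g * (u * v) * g⁻¹ = (g * u * g⁻¹) * (g * v * g⁻¹) := by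
    intro u v; group
  have hN : ∀ u ∈ T, g * u * g⁻¹ ∈ T := fun u hu => (mem_normalizer_iff.mp hgN u).mp hu
  have hsq : ∀ u : G, g ^ 2 * u * (g ^ 2)⁻¹ = g * (g * u * g⁻¹) * g⁻¹ := by
    intro u; rw [pow_two, mul_inv_rev]; simp only [mul_assoc]
  have hcube : ∀ u ∈ T, g * (g * (g * u * g⁻¹) * g⁻¹) * g⁻¹ = u := by
    intro u hu
    have h1 := (mem_centralizer_iff.mp hg3) u hu
    have h2 : g ^ 3 * u * (g ^ 3)⁻¹ = u := by rw [← h1, mul_inv_cancel_right]
    have h3 : g * (g * (g * u * g⁻¹) * g⁻¹) * g⁻¹ = g ^ 3 * u * (g ^ 3)⁻¹ := by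
      rw [pow_succ, pow_two, mul_inv_rev, mul_inv_rev]
      simp only [mul_assoc]
    rw [h3, h2]
  have hxz1 : x * z ≠ z := fun h => hx1 (by simpa using h)
  -- the image of `x`
  rcases h4 _ (hN x hx) with h | h | h | h
  · -- `x ↦ x z`
    rcases h4 _ (hN (x * z) (mul_mem hx hz)) with h' | h' | h' | h'
    · exact absurd (hinj _ _ (h'.trans h.symm)) (fun h5 => hz1 (by simpa using h5))
    · -- `x z ↦ x`: then `g ^ 2` fixes `x`, and so does `g`
      exfalso
      have h5 := hcube x hx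
      rw [h, h', h] at h5
      exact hz1 (by simpa using h5)
    · exact ⟨g ^ 2, by rw [hsq, h, h']⟩
    · exact absurd (hone _ h') (fun h5 => hzx (by
        have : x * z * z = z := by rw [h5, one_mul]
        rw [mul_assoc, hzz, mul_one] at this
        exact this.symm))
  · -- `x` fixed
    exfalso
    rcases h4 _ (hN z hz) with h' | h' | h' | h'
    · -- `z ↦ x z`: `g ^ 2` centralizes
      have h6 : g ^ 2 ∈ centralizer (T : Set G) := by
        apply hcent
        · rw [hsq, h, h]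
        · rw [hsq, h', hmul, h, h', ← mul_assoc, hxx, one_mul]
      apply hgC
      have : g = g ^ 3 * (g ^ 2)⁻¹ := by group
      rw [this]
      exact mul_mem hg3 (inv_mem h6)
    · exact hzx (hinj _ _ (h'.trans h.symm))
    · exact hgC (hcent g h h')
    · exact hz1 (hone _ h')
  · exact ⟨g, h⟩
  · exact absurd (hone _ h) hx1

end

theorem exists_pow {X : Type*} [Group X] [Finite X] (S : Sylow 2 X) (m : ℕ) (hm : 2 ≤ m)
    (eS : (S : Subgroup X) ≃* DihedralGroup m) : ∃ k, m = 2 ^ (k + 1) := by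
  obtain ⟨a, ha⟩ := IsPGroup.iff_card.mp S.2
  rw [Nat.card_congr eS.toEquiv, nat_card] at ha
  have h1 : m ∣ 2 ^ a := ⟨2, by rw [← ha, mul_comm]⟩
  obtain ⟨b, -, hb⟩ := (Nat.dvd_prime_pow Nat.prime_two).mp h1
  rcases Nat.eq_zero_or_pos b with rfl | hpos
  · simp at hb; omega
  · exact ⟨b - 1, by rw [hb, Nat.sub_add_cancel hpos]⟩

theorem result {X : Type*} [Group X] [Finite X] (S : Sylow 2 X) (m : ℕ) (hm : 2 ≤ m) (eS : (S : Subgroup X) ≃* DihedralGroup m) : ((∀ H : Subgroup X, H.index ≠ 2) ∧ (∀ z : X, ¬ Cfsg.IsIsolatedInvolution z)) ↔ ((∀ a b : X, orderOf a = 2 → orderOf b = 2 → IsConj a b) ∨ (∀ U : Subgroup X, U ≤ S → IsKleinFour U → (Subgroup.centralizer (U : Set X)).relIndex (Subgroup.normalizer (U : Set X)) = (if Nat.card S = 4 then 3 else 6))) := by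
  obtain ⟨k, rfl⟩ := exists_pow S m hm eS
  have hA : (∀ a b : X, orderOf a = 2 → orderOf b = 2 → IsConj a b) →
      ((∀ H : Subgroup X, H.index ≠ 2) ∧ (∀ z : X, ¬ Cfsg.IsIsolatedInvolution z)) :=
    fun hall => ⟨fun H hi => no_index_two eS hall H hi, fun t => no_isolated eS hall t⟩
  constructor
  · rintro ⟨h1, -⟩
    left
    exact isConj_of eS (all_conj eS h1)
  · rintro (hall | hU)
    · exact hA hall
    · apply hA
      apply isConj_of eS
      intro i
      obtain ⟨E, hE, hzE, hxE⟩ := Cfsg.Agent.Lib.Helper6Klein.exists_kleinFour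
        (G := ↥(S : Subgroup X)) (a := eS.symm (z₀ k)) (b := eS.symm (sr i))
        (by rw [MulEquiv.orderOf_eq, orderOf_z₀]) (by rw [MulEquiv.orderOf_eq, orderOf_sr])
        (Subtype.ext (comm_z_s eS i)) (fun h => z_ne_s eS i (congrArg Subtype.val h))
      let φ : E ≃* E.map (S : Subgroup X).subtype :=
        E.equivMapOfInjective _ (S : Subgroup X).subtype_injective
      have hK : IsKleinFour ↥(E.map (S : Subgroup X).subtype) :=
        ⟨by rw [← Nat.card_congr φ.toEquiv]; exact hE.card_four,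
          by rw [← Monoid.exponent_eq_of_mulEquiv φ]; exact hE.exponent_two⟩
      have h3 : 3 ∣ (centralizer ((E.map (S : Subgroup X).subtype : Subgroup X) : Set X)).relIndex
          (normalizer ((E.map (S : Subgroup X).subtype : Subgroup X) : Set X)) := by
        rw [hU _ (map_subtype_le _) hK]
        split_ifs <;> norm_num
      refine trans3 _ hK h3 (z := io eS (z₀ k)) (x := io eS (sr i)) ⟨_, hzE, rfl⟩ ⟨_, hxE, rfl⟩
        ?_ ?_ (z_ne_s eS i)
      · intro h
        have := orderOf_z eS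
        rw [h, orderOf_one] at this
        omega
      · intro h
        have := orderOf_s eS i
        rw [h, orderOf_one] at this
        omega

end Cfsg.Agent.S1255
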