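import Cfsg.Statements.S1256
import Cfsg.Agent.Lib.H92DDefs
import Cfsg.Agent.Lib.H92DCount
import Cfsg.Agent.Lib.H92DMemW
import Cfsg.Agent.Lib.H92DKleinW
import Cfsg.Agent.Lib.H92DExSr
import Cfsg.Agent.Lib.H92DEqW
import Cfsg.Agent.Lib.H92DCard
import Cfsg.Agent.Lib.H92DConj
import Cfsg.Agent.Lib.H92DNorm
import Cfsg.Agent.Lib.H92DPhiK
import Cfsg.Agent.Lib.H92DPhiS
import Cfsg.Agent.Lib.H92DPhiC
import Cfsg.Agent.Lib.H92DSyl
import Cfsg.Agent.Lib.H92DFour
import Cfsg.Agent.Lib.H92DEight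

set_option autoImplicit false
open Cfsg

namespace Cfsg.Agent.S1256

open Cfsg.Agent.Lib.H92DDefs DihedralGroup

theorem map_conj_map {X : Type*} [Group X] (U : Subgroup X) (a b : X) :
    (U.map (MulAut.conj a).toMonoidHom).map (MulAut.conj b).toMonoidHom =
      U.map (MulAut.conj (b * a)).toMonoidHom := by
  rw [Subgroup.map_map]
  congr 1
  ext y
  simp [mul_assoc]

theorem map_conj_symm {X : Type*} [Group X] {U V : Subgroup X} {a : X}
    (h : U.map (MulAut.conj a).toMonoidHom = V) : V.map (MulAut.conj a⁻¹).toMonoidHom = U := by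
  rw [← h, map_conj_map]
  ext y
  simp

theorem klein_map_conj {X : Type*} [Group X] (U : Subgroup X) (a : X) (hU : IsKleinFour U) :
    IsKleinFour (U.map (MulAut.conj a).toMonoidHom) := by
  have e : U ≃* U.map (MulAut.conj a).toMonoidHom :=
    U.equivMapOfInjective _ (MulAut.conj a).injective
  exact ⟨by rw [← Nat.card_congr e.toEquiv]; exact hU.card_four,
    by rw [← Monoid.exponent_eq_of_mulEquiv e]; exact hU.exponent_two⟩

/-- Let X be a finite group whose Sylow 2-subgroup S is dihedral of order 2m ≥ 4. If |S| = 4, any two Klein four-subgroups of X are conjugate; if |S| > 4, there are Klein four-subgroups U₁, U₂ of X that are not conjugate, and every Klein four-subgroup of X is conjugate to U₁ or to U₂. -/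
theorem result {X : Type*} [Group X] [Finite X] (S : Sylow 2 X) (m : ℕ) (hm : 2 ≤ m) (eS : (S : Subgroup X) ≃* DihedralGroup m) : (Nat.card S = 4 → ∀ U V : Subgroup X, IsKleinFour U → IsKleinFour V → (∃ x : X, U.map (MulAut.conj x).toMonoidHom = V)) ∧ (4 < Nat.card S → ∃ U₁ U₂ : Subgroup X, IsKleinFour U₁ ∧ IsKleinFour U₂ ∧ ¬ (∃ x : X, U₁.map (MulAut.conj x).toMonoidHom = U₂) ∧ ∀ V : Subgroup X, IsKleinFour V → (∃ x : X, V.map (MulAut.conj x).toMonoidHom = U₁) ∨ (∃ x : X, V.map (MulAut.conj x).toMonoidHom = U₂)) := by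
  refine ⟨fun h4 U V hU hV => Cfsg.Agent.Lib.H92DFour.four S h4 U V hU hV, fun h4 => ?_⟩
  have hcard : Nat.card S = 2 * m := by
    rw [Nat.card_congr eS.toEquiv, DihedralGroup.nat_card]
  obtain ⟨k, hk⟩ := (IsPGroup.iff_card).1 S.isPGroup'
  have hl : ∃ l, m = 4 * l ∧ 0 < l := by
    have h1 : 2 * m = 2 ^ k := by rw [← hcard]; exact hk
    have h2 : 4 < 2 ^ k := by rw [← h1, ← hcard]; exact h4
    have h3 : 3 ≤ k := by
      by_contra hlt
      have : k ≤ 2 := by omega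
      have : 2 ^ k ≤ 2 ^ 2 := Nat.pow_le_pow_right (by norm_num) this
      omega
    obtain ⟨j, rfl⟩ : ∃ j, k = j + 3 := ⟨k - 3, by omega⟩
    refine ⟨2 ^ j, ?_, by positivity⟩
    have : 2 ^ (j + 3) = 8 * 2 ^ j := by ring
    omega
  obtain ⟨l, hml, hl0⟩ := hl
  have hmn : m = 2 * (2 * l) := by omega
  have hn : 0 < 2 * l := by omega
  have hK0 := Cfsg.Agent.Lib.H92DPhiK.Phi_klein (S : Subgroup X) eS (W m 0)
    (Cfsg.Agent.Lib.H92DKleinW.klein_W m (2 * l) hmn hn 0)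
  have hK1 := Cfsg.Agent.Lib.H92DPhiK.Phi_klein (S : Subgroup X) eS (W m 1)
    (Cfsg.Agent.Lib.H92DKleinW.klein_W m (2 * l) hmn hn 1)
  -- every Klein four subgroup of `D` gives a conjugate of U₁ or U₂
  have key : ∀ V : Subgroup (DihedralGroup m), IsKleinFour V →
      (∃ x : X, (Phi (S : Subgroup X) eS V).map (MulAut.conj x).toMonoidHom = Phi (S : Subgroup X) eS (W m 0)) ∨
      (∃ x : X, (Phi (S : Subgroup X) eS V).map (MulAut.conj x).toMonoidHom = Phi (S : Subgroup X) eS (W m 1)) := by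
    intro V hV
    obtain ⟨i, hi⟩ := Cfsg.Agent.Lib.H92DExSr.exists_sr m (2 * l) hmn hn V hV
    have hVW := Cfsg.Agent.Lib.H92DEqW.eq_W m (2 * l) hmn hn V hV i hi
    obtain ⟨g, hg | hg⟩ := Cfsg.Agent.Lib.H92DConj.conj01 m (2 * l) hmn hn i
    · left
      refine ⟨((eS.symm g : (S : Subgroup X)) : X), ?_⟩
      rw [← Cfsg.Agent.Lib.H92DPhiC.Phi_conj, hVW, hg]
    · right
      refine ⟨((eS.symm g : (S : Subgroup X)) : X), ?_⟩
      rw [← Cfsg.Agent.Lib.H92DPhiC.Phi_conj, hVW, hg]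
  refine ⟨Phi (S : Subgroup X) eS (W m 0), Phi (S : Subgroup X) eS (W m 1), hK0, hK1, ?_, ?_⟩
  · rintro ⟨x, hx⟩
    have hU2 : IsPGroup 2 (Phi (S : Subgroup X) eS (W m 0)) :=
      S.isPGroup'.to_le (Phi_le _ _ _)
    obtain ⟨f, hf, hcount⟩ := Cfsg.Agent.Lib.H92DCount.count S (Phi (S : Subgroup X) eS (W m 0)) hU2
    have hKcard : Nat.card {W' : Subgroup X // W' ≤ S ∧
        ∃ g : X, (Phi (S : Subgroup X) eS (W m 0)).map (MulAut.conj g).toMonoidHom = W'} = 2 * l := by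
      rw [← Cfsg.Agent.Lib.H92DCard.card_klein m (2 * l) hmn hn]
      symm
      apply Nat.card_congr
      refine Equiv.ofBijective (fun V => ⟨Phi (S : Subgroup X) eS V.1, Phi_le _ _ _, ?_⟩) ⟨?_, ?_⟩
      · rcases key V.1 V.2 with ⟨y, hy⟩ | ⟨y, hy⟩
        · exact ⟨y⁻¹, map_conj_symm hy⟩
        · refine ⟨y⁻¹ * x, ?_⟩
          rw [← map_conj_map, hx]
          exact map_conj_symm hy
      · intro V V' h
        have := congrArg Subtype.val h
        exact Subtype.ext (Cfsg.Agent.Lib.H92DPhiC.Phi_inj (S : Subgroup X) eS this)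
      · rintro ⟨W', hW'S, g, hg⟩
        have hW'K : IsKleinFour W' := hg ▸ klein_map_conj _ g hK0
        obtain ⟨V, hV, hVW⟩ := Cfsg.Agent.Lib.H92DPhiS.Phi_surj (S : Subgroup X) eS W' hW'S hW'K
        exact ⟨⟨V, hV⟩, Subtype.ext hVW⟩
    obtain ⟨hN1, hN2⟩ := Cfsg.Agent.Lib.H92DNorm.norm_W m l hml hl0
    have h8 : 8 ∣ Nat.card (Subgroup.normalizer ((Phi (S : Subgroup X) eS (W m 0) : Subgroup X) : Set X)) := by
      refine Cfsg.Agent.Lib.H92DEight.eight S _ (Phi_le _ _ _) hK0.card_four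
        ((eS.symm (r (l : ZMod m)) : (S : Subgroup X)) : X) (eS.symm (r (l : ZMod m))).2 ?_ ?_
      · rw [← Cfsg.Agent.Lib.H92DPhiC.Phi_conj, hN1]
      · intro hmem
        obtain ⟨h, hh⟩ := (mem_Phi _ _ _ _).1 hmem
        apply hN2
        simpa using hh
    rw [hKcard, hcard] at hcount
    obtain ⟨c, hc⟩ := h8
    rw [hc] at hcount
    apply hf
    refine ⟨c, ?_⟩
    have : l * (2 * (8 * c)) = l * (8 * f) := by
      have h5 : f * (2 * m) = f * (2 * (4 * l)) := by rw [← hml]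
      rw [h5] at hcount
      nlinarith [hcount]
    have := Nat.eq_of_mul_eq_mul_left hl0 this
    omega
  · intro V hV
    obtain ⟨x, hx⟩ := Cfsg.Agent.Lib.H92DSyl.conj_into S V hV
    obtain ⟨V', hV', hVV'⟩ := Cfsg.Agent.Lib.H92DPhiS.Phi_surj (S : Subgroup X) eS _ hx
      (klein_map_conj V x hV)
    rcases key V' hV' with ⟨y, hy⟩ | ⟨y, hy⟩
    · left
      refine ⟨y * x, ?_⟩
      rw [← map_conj_map, ← hVV', hy]
    · right
      refine ⟨y * x, ?_⟩
      rw [← map_conj_map, ← hVV', hy]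

end Cfsg.Agent.S1256
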