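import Cfsg.Statements.S1259
import Cfsg.Agent.Lib.Helper27Basic

set_option autoImplicit false
open Cfsg

namespace Cfsg.Agent.S1259

/-- In a quasisimple group, every subnormal subgroup is either the whole group or central. -/
theorem result {X : Type*} [Group X] [Finite X] (hX : Cfsg.IsQuasisimple X) (H : Subgroup X) (hH : H.IsSubnormal) : H = ⊤ ∨ H ≤ Subgroup.center X := by
  have h1 : Cfsg.Agent.Lib.Helper27Basic.QS (⊤ : Subgroup X) := by
    rw [← Cfsg.Agent.Lib.Helper27Basic.isQuasisimple_subgroup_iff]
    exact Cfsg.Agent.Lib.Helper27Basic.isQuasisimple_of_mulEquiv Subgroup.topEquiv.symm hX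
  rcases h1.subnormal_top hH with h | h
  · exact Or.inl h
  · exact Or.inr (Subgroup.commutator_top_right_eq_bot_iff_le_center.mp h)

end Cfsg.Agent.S1259
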