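import Cfsg.Statements.S1263
-- import your own Cfsg.Agent.* helpers here
import Cfsg.Agent.Lib.Helper28More

set_option autoImplicit false
open Cfsg

namespace Cfsg.Agent.S1263

open Subgroup Cfsg.Agent.Lib.Helper28Comp Cfsg.Agent.Lib.Helper28Fitting Cfsg.Agent.Lib.Helper28Layer
  Cfsg.Agent.Lib.Helper28Util Cfsg.Agent.Lib.Helper28More
open scoped commutatorElement

theorem cen_sSup_le {G : Type*} [Group G] {K : Subgroup G} (S : Set (Subgroup G)) (hfin : S.Finite) :
    (∀ L ∈ S, CompIn L K) → cen (sSup S) ≤ ⨆ L ∈ S, cen L := by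
  refine Set.Finite.induction_on (motive := fun S _ => (∀ L ∈ S, CompIn L K) →
    cen (sSup S) ≤ ⨆ L ∈ S, cen L) S hfin ?_ ?_
  · intro _
    rw [sSup_empty]
    exact (cen_le _).trans bot_le
  · intro L S hLS _ ih hall
    rw [sSup_insert, iSup_insert]
    have hcomm : ⁅L, sSup S⁆ = ⊥ := by
      rw [commutator_comm]
      apply commutator_sSup_left_eq_bot
      intro L' hL'
      rcases (hall L' (Set.mem_insert_of_mem _ hL')).eq_or_commute
        (hall L (Set.mem_insert _ _)) with h | h
      · exact absurd (h ▸ hL') hLS
      · exact h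
    exact (cen_sup_le hcomm).trans
      (sup_le_sup_left (ih fun L' hL' => hall L' (Set.mem_insert_of_mem _ hL')) _)


/-- For a finite group G, Z(E(G)) is the subgroup generated by the centres Z(L) of the components L of G (all viewed as subgroups of G). -/
theorem result {G : Type*} [Group G] [Finite G] : (Subgroup.center ↥(Cfsg.layer G)).map (Cfsg.layer G).subtype = ⨆ L : {K : Subgroup G // Cfsg.IsComponent K}, (Subgroup.center ↥(L : Subgroup G)).map (L : Subgroup G).subtype := by
  rw [map_center]
  simp only [map_center]
  apply le_antisymm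
  · rw [layer_eq]
    unfold layerIn
    refine (cen_sSup_le _ (Set.toFinite _) (fun L hL => hL)).trans ?_
    apply iSup₂_le
    intro L hL
    exact le_iSup (fun L : {K : Subgroup G // Cfsg.IsComponent K} => cen (L : Subgroup G))
      ⟨L, isComponent_iff.mpr hL⟩
  · apply iSup_le
    rintro ⟨L, hL⟩
    have hL' := isComponent_iff.mp hL
    refine le_inf ((cen_le L).trans (by rw [layer_eq]; exact compIn_le_layerIn hL')) ?_
    rw [le_centralizer_iff, layer_eq]
    apply sSup_le
    intro L' hL''
    rcases hL''.eq_or_commute hL' with h | h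
    · rw [h, le_centralizer_iff]; exact cen_le_centralizer L
    · exact (commutator_eq_bot_iff_le_centralizer.mp h).trans (centralizer_le (cen_le L))

end Cfsg.Agent.S1263
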