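import Cfsg.Statements.S1264
-- import your own Cfsg.Agent.* helpers here
import Cfsg.Agent.Lib.Helper28More

set_option autoImplicit false
open Cfsg

namespace Cfsg.Agent.S1264

open Subgroup Cfsg.Agent.Lib.Helper28Comp Cfsg.Agent.Lib.Helper28Fitting Cfsg.Agent.Lib.Helper28Layer
  Cfsg.Agent.Lib.Helper28Util Cfsg.Agent.Lib.Helper28More
open scoped commutatorElement

/-- Let G be finite, C = C_G(F(G)) the centralizer of the Fitting subgroup, and N a solvable subgroup of C normalized by C. Then N ≤ Z(F(G)). -/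
theorem result {G : Type*} [Group G] [Finite G] (N : Subgroup G) (hN : N ≤ Subgroup.centralizer (Cfsg.fittingSubgroup G : Set G)) (hnorm : Subgroup.centralizer (Cfsg.fittingSubgroup G : Set G) ≤ Subgroup.normalizer (N : Set G)) (hsolv : Group.IsSolvable ↥N) : N ≤ (Subgroup.center ↥(Cfsg.fittingSubgroup G)).map (Cfsg.fittingSubgroup G).subtype := by
  rw [map_center]
  refine le_inf ?_ hN
  have hF : (Cfsg.fittingSubgroup G).Normal := fitting_normal
  have hC : NormIn (centralizer (Cfsg.fittingSubgroup G : Set G)) ⊤ :=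
    normIn_top_iff.mpr inferInstance
  have hsn : Sn N ⊤ := (NormIn.sn ⟨hN, hnorm⟩).trans hC.sn
  rw [fitting_eq] at hN ⊢
  exact le_fittingIn_of_solvable' N hsn hN hsolv

end Cfsg.Agent.S1264
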