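import Cfsg.Statements.S1271
import Cfsg.Agent.Lib.Helper27Aut
import Cfsg.Agent.S1269
import Cfsg.Agent.S1270

set_option autoImplicit false
open Cfsg

namespace Cfsg.Agent.S1271

/-- Let G be finite with O_{p'}(G) = 1. Suppose that for every component L of G and every subgroup H ≥ L in which L is normal, the quotient H / C_H(L) is balanced for the prime p. Then G is balanced for p. -/
theorem result {G : Type*} [Group G] [Finite G] (p : ℕ) [Fact p.Prime] (hO : Cfsg.pPrimeCore p G = ⊥) (h : ∀ L : Subgroup G, Cfsg.IsComponent L → ∀ H : Subgroup G, L ≤ H → (L.subgroupOf H).Normal → ∀ [((Subgroup.centralizer (L : Set G)).subgroupOf H).Normal], Cfsg.IsBalancedFor p (↥H ⧸ (Subgroup.centralizer (L : Set G)).subgroupOf H)) : Cfsg.IsBalancedFor p G := by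
  intro x hx
  have hθ : Cfsg.centralizerPPrimeCore p x
      = Cfsg.Agent.Lib.Helper27Rel.coreIn p (Subgroup.centralizer ({x} : Set G)) :=
    Cfsg.Agent.Lib.Helper27Rel.map_core _
  have hxp : x ^ p = 1 := hx ▸ pow_orderOf_eq_one x
  have hP := Cfsg.Agent.Lib.Helper27Coprime.isPGroup_zpowers_of_pow_eq_one (p := p) hxp
  have hOE : Cfsg.Agent.Lib.Helper27Rel.coreIn p (Subgroup.centralizer ({x} : Set G)) ≤ _ :=
    (Cfsg.Agent.Lib.Helper27Diag.coreIn_centralizer_le_coreIn_normalizer x).trans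
      (Cfsg.Agent.Lib.Helper27Diag.coreIn_le_OE_map _)
  have hYO : ⁅Cfsg.Agent.Lib.Helper27Rel.coreIn p (Subgroup.centralizer ({x} : Set G)),
      Cfsg.pCore p G⁆ = ⊥ := by
    rw [Subgroup.commutator_eq_bot_iff_le_centralizer]
    exact hOE.trans (Cfsg.Agent.Lib.Helper27Balance.OE_normalizer_le _ hP)
  have hbot : Cfsg.Agent.Lib.Helper27Rel.coreIn p (Subgroup.centralizer ({x} : Set G)) = ⊥ := by
    apply Cfsg.Agent.Lib.Helper27Aut.eq_bot_of_centralizes hO
      (Cfsg.Agent.Lib.Helper27Rel.card_coreIn_coprime _) hYO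
    intro L hL
    by_cases hne : ⁅L, Subgroup.zpowers x⁆ = L
    · apply Cfsg.Agent.Lib.Helper27Aut.comp_comm_of_balanced hO hL hxp hne
        (Cfsg.Agent.Lib.Helper27Rel.coreIn_le _)
        (Cfsg.Agent.Lib.Helper27Rel.coreIn_normIn _).2
        (Cfsg.Agent.Lib.Helper27Rel.card_coreIn_coprime _) ?_ hYO (h L hL)
      intro w hw
      apply Cfsg.Agent.Lib.Helper27Core.mem_normalizer_of_cj_eq
      exact Cfsg.Agent.S1269.result p hO (Subgroup.zpowers x) hP L hL w (hOE hw)
    · have := Cfsg.Agent.S1270.result p hO x hx L hL hne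
      rwa [hθ] at this
  rw [hθ, hbot]
  exact bot_le

end Cfsg.Agent.S1271
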