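import Cfsg.Statements.S1273
import Cfsg.Agent.Lib.Helper27PComp

set_option autoImplicit false
open Cfsg

namespace Cfsg.Agent.S1273

/-- Let K be a p-component of the finite group X and N a normal subgroup of K whose index in K is prime to p. Then N = K. -/
theorem result {X : Type*} [Group X] [Finite X] (p : ℕ) [Fact p.Prime] (K : Subgroup X) (hK : Cfsg.IsPComponent p K) (N : Subgroup ↥K) [N.Normal] (hidx : (N.index).Coprime p) : N = ⊤ := by
  have hs : (N.map K.subtype).subgroupOf K = N := by
    rw [Subgroup.subgroupOf, Subgroup.comap_map_eq_self_of_injective (Subgroup.subtype_injective K)]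
  have hle : N.map K.subtype ≤ K := Subgroup.map_subtype_le N
  have hn : K ≤ Subgroup.normalizer ((N.map K.subtype : Subgroup X) : Set X) := by
    rw [← Subgroup.normal_subgroupOf_iff_le_normalizer hle, hs]; infer_instance
  have hc : ((N.map K.subtype).relIndex K).Coprime p := by
    rw [Subgroup.relIndex, hs]; exact hidx
  have h := Cfsg.Agent.Lib.Helper27PComp.pComp_eq_of_normal_coprime hK hle hn hc
  rw [← hs, h]
  simp

end Cfsg.Agent.S1273
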