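import Cfsg.Statements.S1279
import Cfsg.Agent.Lib.Helper27Loc

set_option autoImplicit false
open Cfsg

namespace Cfsg.Agent.S1279

/-- Let A be a noncyclic elementary abelian p-subgroup of the finite group G such that C_G(a) is solvable for every non-identity a ∈ A. Then a ↦ O_{p'}(C_G(a)) is a solvable A-signalizer functor on G. -/
theorem result {G : Type*} [Group G] [Finite G] (p : ℕ) [Fact p.Prime] (A : Subgroup G) (hA : Cfsg.IsElementaryAbelian p A) (hA2 : p ^ 2 ≤ Nat.card ↥A) (hsolv : ∀ a ∈ A, a ≠ 1 → Group.IsSolvable ↥(Subgroup.centralizer ({a} : Set G))) : Cfsg.IsSolvableSignalizerFunctor p A (fun a => Cfsg.centralizerPPrimeCore p a) := by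
  have hθ : ∀ a : G, Cfsg.centralizerPPrimeCore p a
      = Cfsg.Agent.Lib.Helper27Rel.coreIn p (Subgroup.centralizer ({a} : Set G)) :=
    fun a => Cfsg.Agent.Lib.Helper27Rel.map_core _
  have hcomm : ∀ a ∈ A, ∀ b ∈ A, a * b = b * a := by
    intro a ha b hb
    have h := hA.1.is_comm.comm (⟨a, ha⟩ : A) ⟨b, hb⟩
    exact congrArg Subtype.val h
  refine ⟨⟨?_, ?_, ?_, ?_⟩, ?_⟩
  · intro a _ _
    simp only [hθ]
    exact Cfsg.Agent.Lib.Helper27Rel.coreIn_le _
  · intro a _ _
    simp only [hθ]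
    exact Cfsg.Agent.Lib.Helper27PComp.coprime_iff_not_dvd.mp
      (Cfsg.Agent.Lib.Helper27Rel.card_coreIn_coprime _)
  · intro a ha _ b hb x hx
    simp only [hθ] at hx ⊢
    have h1 : b ∈ Subgroup.centralizer ({a} : Set G) := by
      rw [Subgroup.mem_centralizer_singleton_iff]
      exact hcomm b hb a ha
    have h2 := (Cfsg.Agent.Lib.Helper27Rel.coreIn_normIn (p := p)
      (Subgroup.centralizer ({a} : Set G))).2 h1
    exact (Subgroup.mem_normalizer_iff.mp h2 x).mp hx
  · intro a ha _ b hb hb1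
    simp only [hθ]
    exact Cfsg.Agent.Lib.Helper27Loc.coreIn_centralizer_balance (hA.2 a ha) (hcomm a ha b hb)
      (Cfsg.Agent.Lib.Helper27Loc.pLayer_eq_bot_of_solvable (hsolv b hb hb1))
  · intro a ha ha1
    show Group.IsSolvable (Cfsg.centralizerPPrimeCore p a)
    rw [hθ]
    have := hsolv a ha ha1
    exact Group.isSolvable_of_isSolvable_injective
      (Subgroup.inclusion_injective (Cfsg.Agent.Lib.Helper27Rel.coreIn_le (p := p) _))

end Cfsg.Agent.S1279
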