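import Cfsg.Statements.S1281
import Cfsg.Agent.Lib.Helper27Coprime

set_option autoImplicit false
open Cfsg

namespace Cfsg.Agent.S1281

/-- Let θ be a solvable A-signalizer functor on the finite group G (A a noncyclic elementary abelian p-subgroup) and N a normal subgroup of order prime to p. Then for all non-identity a, b ∈ A, the image of θ a in G / N meets the centralizer of the image of b inside the image of θ b. -/
theorem result {G : Type*} [Group G] [Finite G] (p : ℕ) [Fact p.Prime] (A : Subgroup G) (hA : Cfsg.IsElementaryAbelian p A) (hA2 : p ^ 2 ≤ Nat.card ↥A) (θ : G → Subgroup G) (hθ : Cfsg.IsSolvableSignalizerFunctor p A θ) (N : Subgroup G) [N.Normal] (hN : ¬ p ∣ Nat.card ↥N) (a b : G) (ha : a ∈ A) (ha1 : a ≠ 1) (hb : b ∈ A) (hb1 : b ≠ 1) : (θ a).map (QuotientGroup.mk' N) ⊓ Subgroup.centralizer {QuotientGroup.mk' N b} ≤ (θ b).map (QuotientGroup.mk' N) := by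
  open Cfsg.Agent.Lib.Helper27Coprime in
  rintro _ ⟨⟨x, hx, rfl⟩, hc⟩
  obtain ⟨⟨h1, h2, h3, h4⟩, -⟩ := hθ
  have hB : IsPGroup p (Subgroup.zpowers b) := isPGroup_zpowers_of_pow_eq_one (hA.2 b hb)
  have hBA : Subgroup.zpowers b ≤ A := Subgroup.zpowers_le.mpr hb
  have hM : ¬ p ∣ Nat.card (θ a ⊓ N : Subgroup G) :=
    fun h => h2 a ha ha1 (h.trans (Subgroup.card_dvd_of_le inf_le_left))
  have hAM : A ≤ Subgroup.normalizer ((θ a ⊓ N : Subgroup G) : Set G) := by
    rw [Subgroup.le_normalizer_iff]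
    intro c hc k hk
    rw [Subgroup.mem_inf] at hk ⊢
    exact ⟨h3 a ha ha1 c hc k hk.1, ‹N.Normal›.conj_mem k hk.2 c⟩
  have hc' := mem_centralizer_singleton_iff.mp hc
  have hx' : ∀ c ∈ Subgroup.zpowers b, x⁻¹ * (c * x * c⁻¹) ∈ (θ a ⊓ N : Subgroup G) := by
    rintro _ ⟨k, rfl⟩
    rw [Subgroup.mem_inf]
    refine ⟨mul_mem (inv_mem hx) (h3 a ha ha1 _ (hBA ⟨k, rfl⟩) x hx), ?_⟩
    rw [← QuotientGroup.eq_one_iff, ← QuotientGroup.mk'_apply]
    have := conj_zpow_eq hc' k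
    simp only [map_mul, map_inv, map_zpow]
    rw [this]
    simp
  obtain ⟨n, hn, hfix⟩ := exists_fixed_in_coset hB hM (hBA.trans hAM) x hx'
  rw [Subgroup.mem_inf] at hn
  refine ⟨x * n, h4 a ha ha1 b hb hb1 ?_, ?_⟩
  · rw [Subgroup.mem_inf]
    exact ⟨mul_mem hx hn.1, mem_centralizer_singleton_iff.mpr (hfix b (Subgroup.mem_zpowers b))⟩
  · rw [map_mul]
    have : QuotientGroup.mk' N n = 1 := (QuotientGroup.eq_one_iff n).mpr hn.2
    rw [this, mul_one]

end Cfsg.Agent.S1281
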