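import Cfsg.Statements.S1286
import Mathlib

set_option autoImplicit false
open Cfsg

namespace Cfsg.Agent.S1286

open Equiv Equiv.Perm

abbrev X := Perm (Fin 5)
abbrev a : X := swap 3 4
abbrev b : X := swap 0 1
abbrev u : X := c[0, 1, 2]
abbrev v : X := c[2, 3, 4]

def A : Subgroup X where
  carrier := {x | x = 1 ∨ x = a ∨ x = b ∨ x = a * b}
  one_mem' := Or.inl rfl
  mul_mem' := by
    rintro _ _ (rfl | rfl | rfl | rfl) (rfl | rfl | rfl | rfl) <;>
      simp only [Set.mem_ofPred_eq] <;> decide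
  inv_mem' := by
    rintro _ (rfl | rfl | rfl | rfl) <;> simp only [Set.mem_ofPred_eq] <;> decide

theorem mem_A {x : X} : x ∈ A ↔ x = 1 ∨ x = a ∨ x = b ∨ x = a * b := Iff.rfl

noncomputable def θ (x : X) : Subgroup X :=
  if x = a then Subgroup.zpowers u else if x = b then Subgroup.zpowers v else ⊥

theorem θ_a : θ a = Subgroup.zpowers u := by simp [θ]
theorem θ_b : θ b = Subgroup.zpowers v := by
  have : b ≠ a := by decide
  simp [θ, this]
theorem θ_ab : θ (a * b) = ⊥ := by
  have h1 : a * b ≠ a := by decide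
  have h2 : a * b ≠ b := by decide
  simp [θ, h1, h2]

theorem conj_mem_zpowers {y w t : X} (h : y * t * y⁻¹ ∈ Subgroup.zpowers t)
    (hw : w ∈ Subgroup.zpowers t) : y * w * y⁻¹ ∈ Subgroup.zpowers t := by
  obtain ⟨k, rfl⟩ := hw
  have : y * t ^ k * y⁻¹ = (y * t * y⁻¹) ^ k := by
    rw [conj_zpow]
  rw [this]
  exact Subgroup.zpow_mem _ h k

theorem eq_one_of_inverted {y w t : X} (h3 : t ^ 3 = 1) (h : y * t * y⁻¹ = t⁻¹)
    (hw : w ∈ Subgroup.zpowers t) (hc : w ∈ Subgroup.centralizer ({y} : Set X)) : w = 1 := by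
  obtain ⟨k, rfl⟩ := hw
  have h1 : y * t ^ k * y⁻¹ = (t ^ k)⁻¹ := by
    rw [← conj_zpow, h, inv_zpow]
  have h2 : y * t ^ k * y⁻¹ = t ^ k := by
    have := (Subgroup.mem_centralizer_iff.mp hc) y rfl
    rw [this]; group
  have h4 : (t ^ k) ^ 2 = 1 := by
    rw [sq]
    nth_rewrite 1 [← h2]
    rw [h1]; group
  have h5 : (t ^ k) ^ 3 = 1 := by
    rw [← zpow_natCast, ← zpow_mul, mul_comm, zpow_mul, zpow_natCast, h3, one_zpow]
  calc t ^ k = (t ^ k) ^ 3 * ((t ^ k) ^ 2)⁻¹ := by group
    _ = 1 := by rw [h4, h5]; simp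

theorem card_u : Nat.card (Subgroup.zpowers u) = 3 := by
  rw [Nat.card_zpowers]
  have : Fact (Nat.Prime 3) := ⟨by norm_num⟩
  exact orderOf_eq_prime (by decide) (by decide)

theorem card_v : Nat.card (Subgroup.zpowers v) = 3 := by
  rw [Nat.card_zpowers]
  have : Fact (Nat.Prime 3) := ⟨by norm_num⟩
  exact orderOf_eq_prime (by decide) (by decide)

theorem card_A : Nat.card A = 4 := by
  have h : (A : Set X) = (({1, a, b, a * b} : Finset X) : Set X) := by
    ext x
    simp only [SetLike.mem_coe, mem_A, Finset.coe_insert, Finset.coe_singleton,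
      Set.mem_insert_iff, Set.mem_singleton_iff]
  change Nat.card (A : Set X) = 4
  rw [h, Nat.card_coe_set_eq, Set.ncard_coe_finset]
  decide

theorem sig : Cfsg.IsSignalizerFunctor 2 A θ := by
  refine ⟨?_, ?_, ?_, ?_⟩
  · rintro x (rfl | rfl | rfl | rfl) hx
    · exact absurd rfl hx
    · rw [θ_a, Subgroup.zpowers_le, Subgroup.mem_centralizer_iff]
      rintro _ rfl; decide
    · rw [θ_b, Subgroup.zpowers_le, Subgroup.mem_centralizer_iff]
      rintro _ rfl; decide
    · rw [θ_ab]; exact bot_le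
  · rintro x (rfl | rfl | rfl | rfl) hx
    · exact absurd rfl hx
    · rw [θ_a, card_u]; decide
    · rw [θ_b, card_v]; decide
    · rw [θ_ab]; simp
  · rintro x (rfl | rfl | rfl | rfl) hx y hy w hw
    · exact absurd rfl hx
    · rw [θ_a] at hw ⊢
      refine conj_mem_zpowers ?_ hw
      rcases hy with (rfl | rfl | rfl | rfl)
      · exact ⟨1, by decide⟩
      · exact ⟨1, by decide⟩
      · exact ⟨2, by decide⟩
      · exact ⟨2, by decide⟩
    · rw [θ_b] at hw ⊢
      refine conj_mem_zpowers ?_ hw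
      rcases hy with (rfl | rfl | rfl | rfl)
      · exact ⟨1, by decide⟩
      · exact ⟨2, by decide⟩
      · exact ⟨1, by decide⟩
      · exact ⟨2, by decide⟩
    · rw [θ_ab] at hw ⊢
      rw [Subgroup.mem_bot] at hw ⊢
      rw [hw]; group
  · rintro x (rfl | rfl | rfl | rfl) hx y hy hy1 w hwc
    all_goals obtain ⟨hw, hc⟩ := Subgroup.mem_inf.mp hwc
    · exact absurd rfl hx
    · rcases hy with (rfl | rfl | rfl | rfl)
      · exact absurd rfl hy1
      · exact hw
      · rw [θ_a] at hw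
        rw [eq_one_of_inverted (by decide) (by decide) hw hc]; exact one_mem _
      · rw [θ_a] at hw
        rw [eq_one_of_inverted (by decide) (by decide) hw hc]; exact one_mem _
    · rcases hy with (rfl | rfl | rfl | rfl)
      · exact absurd rfl hy1
      · rw [θ_b] at hw
        rw [eq_one_of_inverted (by decide) (by decide) hw hc]; exact one_mem _
      · exact hw
      · rw [θ_b] at hw
        rw [eq_one_of_inverted (by decide) (by decide) hw hc]; exact one_mem _
    · rw [θ_ab, Subgroup.mem_bot] at hw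
      rw [hw]; exact one_mem _

/-- There exist a finite group X, an elementary abelian subgroup A of order 4 and a solvable A-signalizer functor θ on X for the prime 2 which is not complete. -/
theorem result : ∃ (X : Type) (_ : Group X) (_ : Finite X) (A : Subgroup X) (θ : X → Subgroup X), Cfsg.IsElementaryAbelian 2 A ∧ Nat.card ↥A = 4 ∧ Cfsg.IsSolvableSignalizerFunctor 2 A θ ∧ ¬ Cfsg.IsCompleteSignalizerFunctor 2 A θ := by
  refine ⟨X, inferInstance, inferInstance, A, θ, ⟨?_, ?_⟩, card_A, ⟨sig, ?_⟩, ?_⟩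
  · refine ⟨⟨?_⟩⟩
    rintro ⟨_, (rfl | rfl | rfl | rfl)⟩ ⟨_, (rfl | rfl | rfl | rfl)⟩ <;> apply Subtype.ext <;>
      simp only [Subgroup.coe_mul] <;> decide
  · rintro _ (rfl | rfl | rfl | rfl) <;> decide
  · rintro x (rfl | rfl | rfl | rfl) hx
    · exact absurd rfl hx
    · rw [θ_a]; infer_instance
    · rw [θ_b]; infer_instance
    · rw [θ_ab]; infer_instance
  · rintro ⟨-, K, -, hK, hKθ⟩
    have hu : u ∈ K := by
      have h1 : u ∈ θ a := by rw [θ_a]; exact Subgroup.mem_zpowers u
      rw [← hKθ a (Or.inr (Or.inl rfl)) (by decide)] at h1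
      exact h1.1
    have hv : v ∈ K := by
      have h1 : v ∈ θ b := by rw [θ_b]; exact Subgroup.mem_zpowers v
      rw [← hKθ b (Or.inr (Or.inr (Or.inl rfl))) (by decide)] at h1
      exact h1.1
    have hw : u * v * u * v⁻¹ ∈ K := mul_mem (mul_mem (mul_mem hu hv) hu) (inv_mem hv)
    apply hK
    have h2 : orderOf (u * v * u * v⁻¹) = 2 := orderOf_eq_prime (by decide) (by decide)
    rw [← h2]
    exact Subgroup.orderOf_dvd_natCard K hw

end Cfsg.Agent.S1286
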