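import Cfsg.Statements.S1287
import Cfsg.Agent.Lib.H27WfGen
import Cfsg.Agent.Lib.H27WfFac
import Cfsg.Agent.Lib.H27WfFin
import Cfsg.Agent.Lib.Helper12Card

set_option autoImplicit false
open scoped Pointwise
open Cfsg

namespace Cfsg.Agent.S1287

open Subgroup Cfsg.Agent.Lib

theorem card_of_coe_eq {H : Type*} [Group H] (S S₁ S₂ T : Subgroup H)
    (h : (S : Set H) = (S₁ : Set H) * (S₂ : Set H)) (hT : S₁ ⊓ S₂ = T) :
    Nat.card ↥S * Nat.card ↥T = Nat.card ↥S₁ * Nat.card ↥S₂ := by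
  rw [← Helper12Card.card_mul_set_mul_card_inf S₁ S₂, ← h, hT]
  rfl

/-- Let A be a noncyclic elementary abelian p-subgroup of a finite group H normalizing a subgroup K of order prime to p, and X, Y ≤ K subgroups normalized by A with C_K(a) = C_X(a) C_Y(a) (as sets) for every non-identity a ∈ A, where X is also normalized by C_K(A). Then K = XY as sets. -/
theorem result {H : Type*} [Group H] [Finite H] (p : ℕ) [Fact p.Prime] (A K X Y : Subgroup H) (hA : Cfsg.IsElementaryAbelian p A) (hA2 : p ^ 2 ≤ Nat.card ↥A) (hK : ¬ p ∣ Nat.card ↥K) (hAK : A ≤ Subgroup.normalizer (K : Set H)) (hX : X ≤ K) (hY : Y ≤ K) (hAX : A ≤ Subgroup.normalizer (X : Set H)) (hAY : A ≤ Subgroup.normalizer (Y : Set H)) (hCX : K ⊓ Subgroup.centralizer (A : Set H) ≤ Subgroup.normalizer (X : Set H)) (hfac : ∀ a ∈ A, a ≠ 1 → ((K ⊓ Subgroup.centralizer {a} : Subgroup H) : Set H) = ((X ⊓ Subgroup.centralizer {a} : Subgroup H) : Set H) * ((Y ⊓ Subgroup.centralizer {a} :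 Subgroup H) : Set H)) : (K : Set H) = (X : Set H) * (Y : Set H) := by
  have hp := (Fact.out : p.Prime)
  -- a subgroup of order p^2
  have hAp : IsPGroup p A := fun a => ⟨1, by
    have := hA.2 a a.2
    rw [pow_one]; exact Subtype.ext this⟩
  obtain ⟨n, hn⟩ := hAp.exists_card_eq
  have h2n : 2 ≤ n := by
    rw [hn] at hA2
    exact (Nat.pow_le_pow_iff_right hp.one_lt).mp hA2
  obtain ⟨B', hB'⟩ := Sylow.exists_subgroup_card_pow_prime (G := A) p
    (n := 2) (by rw [hn]; exact pow_dvd_pow p h2n)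
  set B : Subgroup H := B'.map A.subtype with hB
  have hBA : B ≤ A := by
    rintro _ ⟨b, -, rfl⟩; exact b.2
  have hBc : Nat.card ↥B = p ^ 2 := by
    rw [hB, Subgroup.card_map_of_injective A.subtype_injective, hB']
  have hBe : Cfsg.IsElementaryAbelian p B := by
    refine ⟨⟨⟨fun a b => ?_⟩⟩, fun a ha => hA.2 a (hBA ha)⟩
    have := hA.1.is_comm.comm ⟨a, hBA a.2⟩ ⟨b, hBA b.2⟩
    exact Subtype.ext (congrArg (fun t : ↥A => (t : H)) this)
  have hBp : IsPGroup p B := IsPGroup.of_card hBc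
  have hXp : ¬ p ∣ Nat.card ↥X := fun h => hK (h.trans (card_dvd_of_le hX))
  have hYp : ¬ p ∣ Nat.card ↥Y := fun h => hK (h.trans (card_dvd_of_le hY))
  have hIp : ¬ p ∣ Nat.card ↥(X ⊓ Y) := fun h => hXp (h.trans (card_dvd_of_le inf_le_left))
  have hBI : B ≤ normalizer ((X ⊓ Y : Subgroup H) : Set H) := by
    intro b hb
    have h1 := hAX (hBA hb)
    have h2 := hAY (hBA hb)
    rw [mem_normalizer_iff] at h1 h2 ⊢
    intro h
    rw [mem_inf, mem_inf, h1 h, h2 h]
  have WK := H27WfGen.wf B hBe hBc K hK (hBA.trans hAK)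
  have WX := H27WfGen.wf B hBe hBc X hXp (hBA.trans hAX)
  have WY := H27WfGen.wf B hBe hBc Y hYp (hBA.trans hAY)
  have WI := H27WfGen.wf B hBe hBc (X ⊓ Y) hIp hBI
  have hinf : ∀ C : Subgroup H, (X ⊓ C) ⊓ (Y ⊓ C) = (X ⊓ Y) ⊓ C := by
    intro C
    ext g; simp only [mem_inf]; tauto
  have h1 : ∀ a ∈ B, a ≠ 1 →
      Nat.card ↥(K ⊓ centralizer {a}) * Nat.card ↥((X ⊓ Y) ⊓ centralizer {a}) =
        Nat.card ↥(X ⊓ centralizer {a}) * Nat.card ↥(Y ⊓ centralizer {a}) := fun a ha ha1 =>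
    card_of_coe_eq _ _ _ _ (hfac a (hBA ha) ha1) (hinf _)
  -- a non-identity element of B
  obtain ⟨a, haB, ha1⟩ : ∃ a ∈ B, a ≠ 1 := by
    by_contra hcon
    push Not at hcon
    have : B = ⊥ := (eq_bot_iff_forall B).mpr hcon
    rw [this, card_bot] at hBc
    have := hp.one_lt
    nlinarith
  have hnc : ∀ U : Subgroup H, B ≤ normalizer (U : Set H) →
      B ≤ normalizer ((U ⊓ centralizer {a} : Subgroup H) : Set H) := by
    intro U hU b hb
    have h1 := hU hb
    rw [mem_normalizer_iff] at h1 ⊢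
    intro h
    have hab : b * a = a * b := by
      have := hBe.1.is_comm.comm ⟨b, hb⟩ ⟨a, haB⟩
      exact congrArg Subtype.val this
    rw [mem_inf, mem_inf, h1 h, mem_centralizer_singleton_iff, mem_centralizer_singleton_iff]
    refine and_congr_right fun _ => ?_
    constructor
    · intro h2
      calc b * h * b⁻¹ * a = b * (h * a) * b⁻¹ := by
            have : b⁻¹ * a = a * b⁻¹ := by
              rw [eq_mul_inv_iff_mul_eq, mul_assoc, ← hab, inv_mul_cancel_left]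
            rw [mul_assoc, this]; group
        _ = b * (a * h) * b⁻¹ := by rw [h2]
        _ = a * (b * h * b⁻¹) := by
            rw [← mul_assoc, hab]; group
    · intro h2
      have h3 : b⁻¹ * (b * h * b⁻¹ * a) * b = b⁻¹ * (a * (b * h * b⁻¹)) * b := by rw [h2]
      have e1 : b⁻¹ * (b * h * b⁻¹ * a) * b = h * (b⁻¹ * (a * b)) := by group
      have e2 : b⁻¹ * (a * (b * h * b⁻¹)) * b = (b⁻¹ * (a * b)) * h := by group
      rw [e1, e2, ← hab, inv_mul_cancel_left] at h3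
      exact h3
  have hle : centralizer (B : Set H) ≤ centralizer {a} :=
    centralizer_le (by simpa using haB)
  have h2 : Nat.card ↥(K ⊓ centralizer (B : Set H)) *
      Nat.card ↥((X ⊓ Y) ⊓ centralizer (B : Set H)) =
        Nat.card ↥(X ⊓ centralizer (B : Set H)) * Nat.card ↥(Y ⊓ centralizer (B : Set H)) := by
    refine card_of_coe_eq _ _ _ _ ?_ (hinf _)
    apply Set.Subset.antisymm
    · intro w hw
      have hw' : w ∈ K ⊓ centralizer (B : Set H) := hw
      have hwa : w ∈ ((K ⊓ centralizer {a} : Subgroup H) : Set H) :=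
        ⟨hw'.1, hle hw'.2⟩
      rw [hfac a (hBA haB) ha1] at hwa
      have hc : ¬ p ∣ Nat.card ↥((X ⊓ centralizer {a}) ⊓ (Y ⊓ centralizer {a})) := fun h =>
        hXp (h.trans (card_dvd_of_le (inf_le_left.trans inf_le_left)))
      have := H27WfFac.fac B _ _ hBp (hnc X (hBA.trans hAX)) (hnc Y (hBA.trans hAY)) hc hwa hw'.2
      obtain ⟨u, hu, v, hv, rfl⟩ := this
      exact ⟨u, ⟨hu.1.1, hu.2⟩, v, ⟨hv.1.1, hv.2⟩, rfl⟩
    · rintro _ ⟨u, hu, v, hv, rfl⟩
      exact (K ⊓ centralizer (B : Set H)).mul_mem ⟨hX hu.1, hu.2⟩ ⟨hY hv.1, hv.2⟩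
  have hcard := H27WfFin.card_eq B K X Y WK WX WY WI h1 h2
  -- conclude
  have hsub : (X : Set H) * (Y : Set H) ⊆ (K : Set H) := by
    rintro _ ⟨u, hu, v, hv, rfl⟩
    exact K.mul_mem (hX hu) (hY hv)
  have hc2 := Helper12Card.card_mul_set_mul_card_inf X Y
  have hpos : 0 < Nat.card ↥(X ⊓ Y) := Nat.card_pos
  have hc3 : Nat.card ((X : Set H) * (Y : Set H) : Set H) = Nat.card (K : Set H) := by
    have : Nat.card ((X : Set H) * (Y : Set H) : Set H) * Nat.card ↥(X ⊓ Y) =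
        Nat.card ↥K * Nat.card ↥(X ⊓ Y) := by rw [hc2, hcard]
    exact Nat.eq_of_mul_eq_mul_right hpos this
  exact (Set.eq_of_subset_of_ncard_le hsub (by
    rw [← Nat.card_coe_set_eq, ← Nat.card_coe_set_eq, hc3]) (Set.toFinite _)).symm

end Cfsg.Agent.S1287
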