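import Cfsg.Statements.S1299
import Cfsg.Agent.Lib.Helper37KBal

set_option autoImplicit false
open Cfsg

namespace Cfsg.Agent.S1299

open Cfsg.Agent.Lib.Helper37Delta Cfsg.Agent.Lib.Helper37Cores
  Cfsg.Agent.Lib.Helper37LocalComplete Cfsg.Agent.Lib.Helper37KBal

theorem exists_le_card_eq {G : Type*} [Group G] [Finite G] {p k : ℕ} (hp : p.Prime) {A D : Subgroup G}
    (hA : Cfsg.IsElementaryAbelian p A) (hD : D ≤ A) (hDk : p ^ k ≤ Nat.card D) :
    ∃ D' : Subgroup G, D' ≤ D ∧ Nat.card D' = p ^ k := by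
  obtain ⟨H, hH⟩ := Sylow.exists_subgroup_card_pow_prime_of_le_card hp (isPGroup_of_le hA hD) hDk
  refine ⟨H.map D.subtype, Subgroup.map_subtype_le H, ?_⟩
  rw [Subgroup.card_map_of_injective D.subtype_injective, hH]

theorem bal_of_isKBalanced {G : Type*} [Group G] [Finite G] {p k : ℕ} [hp : Fact p.Prime]
    (hbal : Cfsg.IsKBalanced p k G) {A : Subgroup G} (hA : Cfsg.IsElementaryAbelian p A) :
    Bal p k A := by
  intro D hD hDk e he he1
  obtain ⟨D', hD'D, hD'k⟩ := exists_le_card_eq hp.out hA hD hDk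
  have h1 := hbal D' (isElementaryAbelian_of_le hA (hD'D.trans hD)) hD'k e
    (orderOf_eq_prime (hA.2 e he) he1)
    (fun a ha => comm_of_isElementaryAbelian hA a (hD (hD'D ha)) e he)
  exact (inf_le_inf_right _ (delta_anti hD'D)).trans h1

theorem theta_eq {G : Type*} [Group G] [Finite G] {p k : ℕ} [hp : Fact p.Prime] (hk : 1 ≤ k)
    {A : Subgroup G} (hA : Cfsg.IsElementaryAbelian p A) (hAk : p ^ (k + 2) ≤ Nat.card A)
    (hbal : Bal p k A) {a : G} (ha : a ∈ A) :
    (⨆ D : {D : Subgroup G // D ≤ A ∧ Nat.card ↥D = p ^ k},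
      Cfsg.signalizerDelta p (D : Subgroup G) ⊓ Subgroup.centralizer {a}) = thetaH p A a := by
  apply le_antisymm
  · refine iSup_le fun D => ?_
    exact delta_inf_le_thetaH hk hA hAk hbal ha D.2.1 D.2.2.ge
  · refine iSup_le fun F => ?_
    obtain ⟨F, hF, haF⟩ := F
    have h1 : p ^ (k + 1) ≤ Nat.card F := card_hyp hp.out hAk hF
    have h2 : p ^ k ≤ Nat.card F := le_trans (Nat.pow_le_pow_right hp.out.pos (by omega)) h1
    obtain ⟨D, hDF, hDk⟩ := exists_le_card_eq hp.out hA hF.1 h2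
    refine le_trans ?_ (le_iSup (fun D : {D : Subgroup G // D ≤ A ∧ Nat.card ↥D = p ^ k} =>
      Cfsg.signalizerDelta p (D : Subgroup G) ⊓ Subgroup.centralizer {a}) ⟨D, hDF.trans hF.1, hDk⟩)
    exact le_inf (delta_anti hDF) (delta_le_centralizer_singleton haF)

/-- Let G be finite and k-balanced for the prime p (k ≥ 1), A an elementary abelian p-subgroup of order at least p^(k+2) such that O_{p'}(C_G(a)) is solvable for every non-identity a ∈ A. For a ∈ A put θ a = the subgroup generated by the Δ_G(D) ∩ C_G(a) over the subgroups D ≤ A of order p^k. Then θ is an A-signalizer functor. -/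
theorem result {G : Type*} [Group G] [Finite G] (p k : ℕ) [Fact p.Prime] (hk : 1 ≤ k) (hbal : Cfsg.IsKBalanced p k G) (A : Subgroup G) (hA : Cfsg.IsElementaryAbelian p A) (hAk : p ^ (k + 2) ≤ Nat.card ↥A) (hsolv : ∀ a ∈ A, a ≠ 1 → Group.IsSolvable ↥(Cfsg.centralizerPPrimeCore p a)) : Cfsg.IsSignalizerFunctor p A (fun a => ⨆ D : {D : Subgroup G // D ≤ A ∧ Nat.card ↥D = p ^ k}, Cfsg.signalizerDelta p (D : Subgroup G) ⊓ Subgroup.centralizer {a}) := by
  have hB : Bal p k A := bal_of_isKBalanced hbal hA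
  refine ⟨fun a _ _ => iSup_le fun D => inf_le_right, fun a ha ha1 => ?_, fun a ha _ => ?_,
    fun a ha ha1 b hb _ => ?_⟩
  · show ¬ p ∣ Nat.card ↥(⨆ D : {D : Subgroup G // D ≤ A ∧ Nat.card ↥D = p ^ k},
      Cfsg.signalizerDelta p (D : Subgroup G) ⊓ Subgroup.centralizer {a})
    rw [theta_eq hk hA hAk hB ha]
    exact not_dvd_card_of_le_cppc (Fact.out) (thetaH_le_cppc ha1)
  · show ∀ b ∈ A, ∀ x ∈ (⨆ D : {D : Subgroup G // D ≤ A ∧ Nat.card ↥D = p ^ k},
      Cfsg.signalizerDelta p (D : Subgroup G) ⊓ Subgroup.centralizer {a}), b * x * b⁻¹ ∈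
      (⨆ D : {D : Subgroup G // D ≤ A ∧ Nat.card ↥D = p ^ k},
      Cfsg.signalizerDelta p (D : Subgroup G) ⊓ Subgroup.centralizer {a})
    rw [theta_eq hk hA hAk hB ha]
    exact inv_thetaH hA a
  · show (⨆ D : {D : Subgroup G // D ≤ A ∧ Nat.card ↥D = p ^ k},
      Cfsg.signalizerDelta p (D : Subgroup G) ⊓ Subgroup.centralizer {a}) ⊓ Subgroup.centralizer {b} ≤
      (⨆ D : {D : Subgroup G // D ≤ A ∧ Nat.card ↥D = p ^ k},
      Cfsg.signalizerDelta p (D : Subgroup G) ⊓ Subgroup.centralizer {b})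
    rw [theta_eq hk hA hAk hB ha, theta_eq hk hA hAk hB hb]
    exact thetaH_balance hk hA hAk hB ha ha1 (hsolv a ha ha1) hb

end Cfsg.Agent.S1299
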