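import Cfsg.Statements.S1300
-- import your own Cfsg.Agent.* helpers here
import Mathlib

set_option autoImplicit false
open Cfsg

namespace Cfsg.Agent.S1300

/-- For a finite group G, balance in the sense of commuting involutions is the same as 1-balance for the prime 2. -/
theorem result {G : Type*} [Group G] [Finite G] : Cfsg.IsBalanced G ↔ Cfsg.IsKBalanced 2 1 G := by
  classical
  have hcore_le : ∀ x : G, Cfsg.centralizerPPrimeCore 2 x ≤ Subgroup.centralizer {x} := by
    intro x
    unfold Cfsg.centralizerPPrimeCore
    exact Subgroup.map_subtype_le _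
  constructor
  · intro h A hA hcard b hb hcomm
    -- A has order 2: pick the nonidentity element
    have hcard2 : Nat.card A = 2 := by simpa using hcard
    haveI : Fact (Nat.Prime 2) := ⟨Nat.prime_two⟩
    obtain ⟨a, ha⟩ := exists_prime_orderOf_dvd_card' (G := A) 2 (by rw [hcard2])
    have ha' : orderOf (a : G) = 2 := by rw [Subgroup.orderOf_coe]; exact ha
    have ha1 : (a : G) ≠ 1 := by
      intro h1
      rw [h1, orderOf_one] at ha'
      omega
    have hle : Cfsg.signalizerDelta 2 A ≤ Cfsg.centralizerPPrimeCore 2 (a : G) := by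
      unfold Cfsg.signalizerDelta
      exact iInf_le (fun a : {a : G // a ∈ A ∧ a ≠ 1} => Cfsg.centralizerPPrimeCore 2 (a : G)) ⟨a, a.2, ha1⟩
    have := h (a : G) b ha' hb (hcomm a a.2)
    calc Cfsg.signalizerDelta 2 A ⊓ Subgroup.centralizer {b}
        ≤ Cfsg.centralizerPPrimeCore 2 (a : G) ⊓ Subgroup.centralizer {b} := inf_le_inf_right _ hle
      _ = Cfsg.centralizerPPrimeCore 2 b ⊓ Subgroup.centralizer {(a : G)} := this
      _ ≤ Cfsg.centralizerPPrimeCore 2 b := inf_le_left
  · intro h
    have key : ∀ x y : G, orderOf x = 2 → orderOf y = 2 → x * y = y * x →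
        Cfsg.centralizerPPrimeCore 2 x ⊓ Subgroup.centralizer {y} ≤
          Cfsg.centralizerPPrimeCore 2 y ⊓ Subgroup.centralizer {x} := by
      intro x y hx hy hxy
      refine le_inf ?_ (inf_le_left.trans (hcore_le x))
      have hA : Cfsg.IsElementaryAbelian 2 (Subgroup.zpowers x) := by
        refine ⟨inferInstance, ?_⟩
        intro a ha
        obtain ⟨k, rfl⟩ := Subgroup.mem_zpowers_iff.mp ha
        rw [← zpow_natCast, ← zpow_mul, mul_comm, zpow_mul, zpow_natCast, ← hx, pow_orderOf_eq_one, one_zpow]
      have hcard : Nat.card (Subgroup.zpowers x) = 2 ^ 1 := by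
        rw [Nat.card_zpowers, hx, pow_one]
      have hcomm : ∀ a ∈ Subgroup.zpowers x, a * y = y * a := by
        intro a ha
        obtain ⟨k, rfl⟩ := Subgroup.mem_zpowers_iff.mp ha
        exact ((Commute.zpow_left (show Commute x y from hxy) k)).eq
      have := h (Subgroup.zpowers x) hA hcard y hy hcomm
      refine le_trans (inf_le_inf_right _ ?_) this
      unfold Cfsg.signalizerDelta
      refine le_iInf ?_
      rintro ⟨a, ha, ha1⟩
      obtain ⟨k, rfl⟩ := Subgroup.mem_zpowers_iff.mp ha
      -- x ^ k with x of order two is 1 or x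
      have hx2 : x ^ (2 : ℤ) = 1 := by
        have := pow_orderOf_eq_one x
        rw [hx] at this
        exact_mod_cast this
      rcases Int.even_or_odd' k with ⟨m, hm | hm⟩
      · exfalso
        apply ha1
        rw [hm, zpow_mul, hx2, one_zpow]
      · have : x ^ k = x := by
          rw [hm, zpow_add, zpow_mul, hx2, one_zpow, one_mul, zpow_one]
        simp only [this]
        exact le_rfl
    intro x y hx hy hxy
    exact le_antisymm (key x y hx hy hxy) (key y x hy hx hxy.symm)

end Cfsg.Agent.S1300
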