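import Cfsg.Statements.S1303
import Cfsg.Agent.S0257
import Cfsg.Agent.Lib.Helper39Core

set_option autoImplicit false
open Cfsg

namespace Cfsg.Agent.S1303

open Subgroup Cfsg.Agent.S0257 Cfsg.Agent.Lib.Helper39Core

def mU : SL23 := ⟨!![1, 1; 0, 1], by decide +kernel⟩

theorem three_aux : ∀ x : SL23, x ^ 3 = 1 → x ≠ 1 → ∃ g : SL23, (x * (g * x * g⁻¹)) ^ 3 ≠ 1 := by
  decide +kernel

theorem inv_central : ∀ t : SL23, t ^ 2 = 1 → t ≠ 1 → ∀ g : SL23, g * t = t * g := by
  decide +kernel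

theorem cent_aux : ∀ g : SL23, mA * g = g * mA → mX * g = g * mX → g ^ 4 = 1 := by
  decide +kernel

theorem mU_pow : mU ^ 3 = 1 := by decide +kernel
theorem mU_ne : mU ≠ 1 := by decide +kernel
theorem mA_pow : mA ^ 4 = 1 := by decide +kernel
theorem mX_pow : mX ^ 4 = 1 := by decide +kernel

theorem core_bot : Cfsg.pPrimeCore 2 SL23 = ⊥ := by
  unfold Cfsg.pPrimeCore
  rw [eq_bot_iff, sSup_le_iff]
  rintro N ⟨hN, hco⟩ x hx
  rw [mem_bot]
  have hdvd : Nat.card N ∣ 3 := by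
    have h1 : Nat.card N ∣ 8 * 3 := by
      have := card_subgroup_dvd_card N
      rwa [card_SL23] at this
    exact Nat.Coprime.dvd_of_dvd_mul_left (Nat.Coprime.pow_right 3 hco) h1
  have hpow : ∀ y ∈ N, y ^ 3 = 1 := by
    intro y hy
    have h1 : (⟨y, hy⟩ : N) ^ Nat.card N = 1 := pow_card_eq_one'
    obtain ⟨c, hc⟩ := hdvd
    have h2 : (⟨y, hy⟩ : N) ^ (Nat.card N * c) = 1 := by rw [pow_mul, h1, one_pow]
    have h3 := congrArg Subtype.val h2
    rw [← hc] at h3
    exact h3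
  by_contra hx1
  obtain ⟨g, hg⟩ := three_aux x (hpow x hx) hx1
  exact hg (hpow _ (N.mul_mem hx (hN.conj_mem x hx g)))

theorem result : Cfsg.IsPConstrained 2 (Matrix.SpecialLinearGroup (Fin 2) (ZMod 3)) ∧ Cfsg.pPrimeCore 2 (Matrix.SpecialLinearGroup (Fin 2) (ZMod 3)) = ⊥ ∧ (∀ t : Matrix.SpecialLinearGroup (Fin 2) (ZMod 3), orderOf t = 2 → t ∈ Subgroup.center (Matrix.SpecialLinearGroup (Fin 2) (ZMod 3))) ∧ ∃ Q : Subgroup (Matrix.SpecialLinearGroup (Fin 2) (ZMod 3)), Nat.card ↥Q = 3 ∧ ¬ (Q ≤ Cfsg.pPrimeCore 2 (Matrix.SpecialLinearGroup (Fin 2) (ZMod 3))) := by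
  have : Fact (Nat.Prime 2) := ⟨Nat.prime_two⟩
  have : Fact (Nat.Prime 3) := ⟨Nat.prime_three⟩
  refine ⟨?_, core_bot, ?_, ?_⟩
  · intro P
    generalize hW : Cfsg.pPrimePCore 2 (Matrix.SpecialLinearGroup (Fin 2) (ZMod 3)) = W at P ⊢
    set R : Subgroup SL23 := qhom.range with hR
    have hRn : R.Normal := range_normal
    have hRp : IsPGroup 2 R := IsPGroup.of_card (n := 3) (by rw [hR, card_range]; norm_num)
    have hRW : R ≤ W := by
      rw [← hW]
      unfold Cfsg.pPrimePCore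
      rw [← map_le_iff_le_comap]
      exact le_pCore (Normal.map hRn _ (QuotientGroup.mk'_surjective _)) (hRp.map _)
    have hRP : R ≤ (P : Subgroup W).map W.subtype := by
      have h1 : (R.subgroupOf W) ≤ P := by
        refine (le_pCore inferInstance ?_).trans (pCore_le_sylow P)
        exact hRp.comap_subtype
      intro x hx
      exact ⟨⟨x, hRW hx⟩, h1 hx, rfl⟩
    intro g hg
    apply hRW
    rw [hR, mem_range_iff]
    have hA : mA ∈ R := by rw [hR, mem_range_iff]; exact mA_pow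
    have hX : mX ∈ R := by rw [hR, mem_range_iff]; exact mX_pow
    exact cent_aux g (hg mA (hRP hA)) (hg mX (hRP hX))
  · intro t ht
    rw [mem_center_iff]
    apply inv_central t
    · have := pow_orderOf_eq_one t
      rwa [ht] at this
    · intro h
      rw [h, orderOf_one] at ht
      omega
  · refine ⟨zpowers mU, ?_, ?_⟩
    · rw [Nat.card_zpowers]
      exact orderOf_eq_prime mU_pow mU_ne
    · intro h
      have h1 : mU ∈ Cfsg.pPrimeCore 2 SL23 := h (mem_zpowers mU)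
      rw [core_bot, mem_bot] at h1
      exact mU_ne h1

end Cfsg.Agent.S1303
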