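import Cfsg.Statements.S1304
-- import your own Cfsg.Agent.* helpers here
import Mathlib

set_option autoImplicit false
open Cfsg

namespace Cfsg.Agent.S1304

open scoped commutatorElement

/-- Let X be a perfect group and α an automorphism of X with α(x) x⁻¹ central for every x. Then α is the identity. -/
theorem result {X : Type*} [Group X] (hperf : commutator X = ⊤) (α : X ≃* X) (h : ∀ x : X, α x * x⁻¹ ∈ Subgroup.center X) : ∀ x : X, α x = x := by
  classical
  let Fx : Subgroup X :=
    { carrier := {x | α x = x}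
      mul_mem' := by
        intro a b ha hb
        simp only [Set.mem_ofPred_eq] at *
        rw [map_mul, ha, hb]
      one_mem' := by simp
      inv_mem' := by
        intro a ha
        simp only [Set.mem_ofPred_eq] at *
        rw [map_inv, ha] }
  have key : commutator X ≤ Fx := by
    rw [commutator_eq_closure, Subgroup.closure_le]
    rintro _ ⟨a, b, rfl⟩
    change α ⁅a, b⁆ = ⁅a, b⁆
    have ha := h a
    have hb := h b
    rw [Subgroup.mem_center_iff] at ha hb
    have ea : α a = (α a * a⁻¹) * a := by group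
    have eb : α b = (α b * b⁻¹) * b := by group
    set z := α a * a⁻¹ with hz
    set w := α b * b⁻¹ with hw
    rw [commutatorElement_def, map_mul, map_mul, map_mul, map_inv, map_inv, ea, eb]
    have hz' : ∀ g, g * z = z * g := ha
    have hw' : ∀ g, g * w = w * g := hb
    have hzi : ∀ g, g * z⁻¹ = z⁻¹ * g := by
      intro g
      have := hz' (z⁻¹ * g * z⁻¹)
      calc g * z⁻¹ = z * (z⁻¹ * g * z⁻¹) := by group
        _ = (z⁻¹ * g * z⁻¹) * z := (hz' _).symm
        _ = z⁻¹ * g := by group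
    have hwi : ∀ g, g * w⁻¹ = w⁻¹ * g := by
      intro g
      calc g * w⁻¹ = w * (w⁻¹ * g * w⁻¹) := by group
        _ = (w⁻¹ * g * w⁻¹) * w := (hw' _).symm
        _ = w⁻¹ * g := by group
    calc z * a * (w * b) * (z * a)⁻¹ * (w * b)⁻¹
        = z * (a * w) * b * (a⁻¹ * z⁻¹) * (b⁻¹ * w⁻¹) := by group
      _ = z * (w * a) * b * (z⁻¹ * a⁻¹) * (w⁻¹ * b⁻¹) := by rw [hw' a, hzi a⁻¹, hwi b⁻¹]
      _ = z * w * (a * b * z⁻¹) * (a⁻¹ * w⁻¹) * b⁻¹ := by group
      _ = z * w * (z⁻¹ * (a * b)) * (w⁻¹ * a⁻¹) * b⁻¹ := by rw [hzi (a * b), hwi a⁻¹]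
      _ = z * (w * z⁻¹) * (a * b * w⁻¹) * a⁻¹ * b⁻¹ := by group
      _ = z * (z⁻¹ * w) * (w⁻¹ * (a * b)) * a⁻¹ * b⁻¹ := by rw [hzi w, hwi (a * b)]
      _ = a * b * a⁻¹ * b⁻¹ := by group
  intro x
  have : x ∈ commutator X := by rw [hperf]; trivial
  exact key this

end Cfsg.Agent.S1304
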