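import Cfsg.Statements.S1306
-- import your own Cfsg.Agent.* helpers here
import Cfsg.Agent.Lib.Helper28Util

set_option autoImplicit false
open Cfsg

namespace Cfsg.Agent.S1306

open Subgroup Cfsg.Agent.Lib.Helper28Comp Cfsg.Agent.Lib.Helper28Fitting Cfsg.Agent.Lib.Helper28Layer
  Cfsg.Agent.Lib.Helper28Util

/-- Let G be finite, x an involution and L ≤ C_G(x) a component of C_G(x). Suppose L is a component of C_G(y) for every involution y ∈ C_G(L), and ⁅L, g L g⁻¹⁆ ≠ 1 whenever g L g⁻¹ ≠ L. Then L is a standard subgroup of G. -/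
theorem result {G : Type*} [Group G] [Finite G] (x : G) (hx : orderOf x = 2) (L : Subgroup G) (hLx : L ≤ Subgroup.centralizer ({x} : Set G)) (hL : Cfsg.IsComponent (L.subgroupOf (Subgroup.centralizer ({x} : Set G)))) (hne : ∀ y : G, orderOf y = 2 → y ∈ Subgroup.centralizer (L : Set G) → L ≤ Subgroup.centralizer ({y} : Set G) ∧ Cfsg.IsComponent (L.subgroupOf (Subgroup.centralizer ({y} : Set G)))) (hnc : ∀ g : G, L.map (MulAut.conj g).toMonoidHom ≠ L → ⁅L, L.map (MulAut.conj g).toMonoidHom⁆ ≠ ⊥) : Cfsg.IsStandardSubgroup L := by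
  have hLc : CompIn L (centralizer ({x} : Set G)) := (isComponent_subgroupOf_iff hLx).mp hL
  have hxL : x ∈ centralizer (L : Set G) := mem_centralizer_subgroup_iff_le.mpr hLx
  -- key lemma
  have key : ∀ (g y : G), orderOf y = 2 → y ∈ centralizer (L : Set G) →
      y ∈ centralizer ((L.map (MulAut.conj g).toMonoidHom : Subgroup G) : Set G) →
      L.map (MulAut.conj g).toMonoidHom = L := by
    intro g y hy hyL hyLg
    obtain ⟨h1, h2⟩ := hne y hy hyL
    have c1 : CompIn L (centralizer ({y} : Set G)) := (isComponent_subgroupOf_iff h1).mp h2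
    rw [← map_conj_centralizer] at hyLg
    obtain ⟨y', hy', hyy'⟩ := hyLg
    have hyy : g * y' * g⁻¹ = y := hyy'
    have hy'2 : orderOf y' = 2 := by rw [← hy, ← hyy, orderOf_conj]
    obtain ⟨h3, h4⟩ := hne y' hy'2 hy'
    have c2 : CompIn L (centralizer ({y'} : Set G)) := (isComponent_subgroupOf_iff h3).mp h4
    have c3 := c2.map_injective (f := (MulAut.conj g).toMonoidHom) (MulAut.conj g).injective
    rw [map_conj_centralizer_singleton, hyy] at c3
    by_contra hne'
    rcases c1.eq_or_commute c3 with h | h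
    · exact hne' h.symm
    · exact hnc g hne' h
  refine ⟨isQuasisimple_iff_QS.mpr hLc.2, ⟨?_, ?_⟩, hnc, ?_⟩
  · exact even_card_of_involution_mem hxL hx
  · intro g hg
    by_contra hodd
    rw [Nat.not_odd_iff_even] at hodd
    obtain ⟨y, hy, hy2⟩ := exists_involution_of_even hodd
    apply hg
    apply normalizer_le_normalizer_centralizer
    rw [mem_normalizer_iff_map_conj]
    apply key g y hy2 hy.1
    rw [← map_conj_centralizer]
    exact hy.2
  · apply le_antisymm (normalizer_le_normalizer_centralizer L)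
    intro g hg
    rw [mem_normalizer_iff_map_conj] at hg ⊢
    apply key g x hx hxL
    rw [← map_conj_centralizer, hg]
    exact hxL

end Cfsg.Agent.S1306
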