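import Cfsg.Statements.S1314
-- import your own Cfsg.Agent.* helpers here
import Cfsg.Agent.Lib.Helper28More

set_option autoImplicit false
open Cfsg

namespace Cfsg.Agent.S1314

open Subgroup Cfsg.Agent.Lib.Helper28Comp Cfsg.Agent.Lib.Helper28Fitting Cfsg.Agent.Lib.Helper28Layer
  Cfsg.Agent.Lib.Helper28Util Cfsg.Agent.Lib.Helper28More
open scoped commutatorElement

/-- Let x be an involution of a group G and L a perfect subgroup with ⁅L, x L x⁻¹⁆ = 1. Then l ↦ l (x l x⁻¹) is a group homomorphism π from L to G whose kernel is central in L and whose image lies in C_G(x); and the commutator subgroup of C_{L ⊔ xLx⁻¹}(x) equals the image of π. -/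
theorem result {G : Type*} [Group G] [Finite G] (x : G) (hx : orderOf x = 2) (L : Subgroup G) (hperf : ⁅L, L⁆ = L) (hcomm : ⁅L, L.map (MulAut.conj x).toMonoidHom⁆ = ⊥) : ∃ π : ↥L →* G, (∀ l : ↥L, π l = (l : G) * (x * (l : G) * x⁻¹)) ∧ π.ker ≤ Subgroup.center ↥L ∧ π.range ≤ Subgroup.centralizer ({x} : Set G) ∧ ⁅(L ⊔ L.map (MulAut.conj x).toMonoidHom) ⊓ Subgroup.centralizer ({x} : Set G), (L ⊔ L.map (MulAut.conj x).toMonoidHom) ⊓ Subgroup.centralizer ({x} : Set G)⁆ = π.range := by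
  set Lx := L.map (MulAut.conj x).toMonoidHom with hLx
  have hx2 : x * x = 1 := by
    have := pow_orderOf_eq_one x
    rwa [hx, pow_two] at this
  have hxinv : x⁻¹ = x := inv_eq_of_mul_eq_one_left hx2
  have hc_mem : ∀ l ∈ L, x * l * x⁻¹ ∈ Lx := fun l hl => ⟨l, hl, rfl⟩
  have hc_mem' : ∀ l ∈ Lx, x * l * x⁻¹ ∈ L := by
    rintro _ ⟨l, hl, rfl⟩
    have : x * ((MulAut.conj x).toMonoidHom l) * x⁻¹ = l := by
      change x * (x * l * x⁻¹) * x⁻¹ = l
      rw [hxinv]
      calc x * (x * l * x) * x = (x * x) * l * (x * x) := by group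
        _ = l := by rw [hx2]; group
    rw [this]; exact hl
  have hcm : ∀ a ∈ L, ∀ b ∈ Lx, a * b = b * a := fun a ha b hb =>
    commute_of_commutator_eq_bot hcomm ha hb
  let π : ↥L →* G := MonoidHom.mk' (fun l => (l : G) * (x * (l : G) * x⁻¹)) (by
    intro a b
    have h1 := hcm b b.2 (x * (a : G) * x⁻¹) (hc_mem a a.2)
    change ((a : G) * (b : G)) * (x * ((a : G) * (b : G)) * x⁻¹) =
      ((a : G) * (x * (a : G) * x⁻¹)) * ((b : G) * (x * (b : G) * x⁻¹))
    calc ((a : G) * (b : G)) * (x * ((a : G) * (b : G)) * x⁻¹)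
        = (a : G) * ((b : G) * (x * (a : G) * x⁻¹)) * (x * (b : G) * x⁻¹) := by group
      _ = (a : G) * ((x * (a : G) * x⁻¹) * (b : G)) * (x * (b : G) * x⁻¹) := by rw [h1]
      _ = _ := by group)
  have hπ : ∀ l : ↥L, π l = (l : G) * (x * (l : G) * x⁻¹) := fun l => rfl
  have hcc : ∀ g : G, x * (x * g * x⁻¹) * x⁻¹ = g := by
    intro g
    rw [hxinv]
    calc x * (x * g * x) * x = (x * x) * g * (x * x) := by group
      _ = g := by rw [hx2]; group
  have fix_iff : ∀ g : G, g * x = x * g ↔ x * g * x⁻¹ = g := by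
    intro g
    constructor
    · intro h; rw [← h]; group
    · intro h
      calc g * x = (x * g * x⁻¹) * x := by rw [h]
        _ = x * g := by group
  have hrange_cent : π.range ≤ Subgroup.centralizer ({x} : Set G) := by
    rintro _ ⟨l, rfl⟩
    rw [mem_centralizer_singleton_iff, hπ, fix_iff]
    have h1 := hcm l l.2 (x * (l : G) * x⁻¹) (hc_mem l l.2)
    calc x * ((l : G) * (x * (l : G) * x⁻¹)) * x⁻¹
        = (x * (l : G) * x⁻¹) * (x * (x * (l : G) * x⁻¹) * x⁻¹) := by group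
      _ = (x * (l : G) * x⁻¹) * (l : G) := by rw [hcc]
      _ = _ := h1.symm
  have hrange_sup : π.range ≤ L ⊔ Lx := by
    rintro _ ⟨l, rfl⟩
    exact mul_mem_sup l.2 (hc_mem l l.2)
  refine ⟨π, hπ, ?_, hrange_cent, ?_⟩
  · intro l hl
    rw [MonoidHom.mem_ker, hπ] at hl
    rw [mem_center_iff]
    intro g
    apply Subtype.ext
    have h1 : (l : G) = (x * (l : G) * x⁻¹)⁻¹ := eq_inv_of_mul_eq_one_left hl
    have h2 : (l : G) ∈ Lx := by rw [h1]; exact inv_mem (hc_mem l l.2)
    exact hcm g g.2 l h2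
  · set C := (L ⊔ Lx) ⊓ Subgroup.centralizer ({x} : Set G) with hC
    set W := L ⊓ Lx with hW
    apply le_antisymm
    · have hWW : ⁅W, W⁆ = ⊥ := by
        rw [eq_bot_iff, ← hcomm]; exact commutator_mono inf_le_left inf_le_right
      have hRW : ⁅π.range, W⁆ = ⊥ := by
        rw [eq_bot_iff]
        refine (commutator_mono hrange_sup le_rfl).trans (le_of_eq ?_)
        apply commutator_sup_left_eq_bot
        · rw [eq_bot_iff, ← hcomm]; exact commutator_mono le_rfl inf_le_right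
        · rw [eq_bot_iff, ← hcomm, commutator_comm L]; exact commutator_mono le_rfl inf_le_left
      have hCle : C ≤ π.range ⊔ W := by
        intro g hg
        obtain ⟨a, ha, b', hb', rfl⟩ := (mem_sup_of_commutator_eq_bot hcomm).mp hg.1
        obtain ⟨b, hb, rfl⟩ := hb'
        have hfix := (fix_iff _).mp (mem_centralizer_singleton_iff.mp hg.2)
        change x * (a * (x * b * x⁻¹)) * x⁻¹ = a * (x * b * x⁻¹) at hfix
        -- z = a⁻¹ b
        have hz1 : a⁻¹ * b ∈ L := mul_mem (inv_mem ha) hb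
        have e1 : (x * a * x⁻¹) * b = a * (x * b * x⁻¹) := by
          calc (x * a * x⁻¹) * b = (x * a * x⁻¹) * (x * (x * b * x⁻¹) * x⁻¹) := by rw [hcc]
            _ = x * (a * (x * b * x⁻¹)) * x⁻¹ := by group
            _ = a * (x * b * x⁻¹) := hfix
        have e2 : b * (x * a * x⁻¹) = a * (x * b * x⁻¹) := by
          rw [hcm b hb _ (hc_mem a ha)]; exact e1
        have hz2 : a⁻¹ * b ∈ Lx := by
          have : a⁻¹ * b = x * (b * a⁻¹) * x⁻¹ := by
            calc a⁻¹ * b = a⁻¹ * (b * (x * a * x⁻¹)) * (x * a * x⁻¹)⁻¹ := by group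
              _ = a⁻¹ * (a * (x * b * x⁻¹)) * (x * a * x⁻¹)⁻¹ := by rw [e2]
              _ = x * (b * a⁻¹) * x⁻¹ := by group
          rw [this]
          exact hc_mem _ (mul_mem hb (inv_mem ha))
        have hw : x * (a⁻¹ * b) * x⁻¹ ∈ W := ⟨hc_mem' _ hz2, hc_mem _ hz1⟩
        have : a * ((MulAut.conj x).toMonoidHom b) = π ⟨a, ha⟩ * (x * (a⁻¹ * b) * x⁻¹) := by
          rw [hπ]
          change a * (x * b * x⁻¹) = a * (x * a * x⁻¹) * (x * (a⁻¹ * b) * x⁻¹)
          group
        rw [this]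
        exact mul_mem_sup ⟨_, rfl⟩ hw
      calc ⁅C, C⁆ ≤ ⁅π.range ⊔ W, π.range ⊔ W⁆ := commutator_mono hCle hCle
        _ ≤ ⁅π.range, π.range⁆ ⊔ ⁅W, W⁆ := commutator_sup_self_le hRW
        _ ≤ π.range := by rw [hWW, sup_bot_eq]; exact commutator_le_self _
    · have hp : ⁅(⊤ : Subgroup L), (⊤ : Subgroup L)⁆ = (⊤ : Subgroup L) := by
        have : Group.IsPerfect L := isPerfect_iff.mpr hperf
        exact this.commutator_eq_top
      have hRC : π.range ≤ C := le_inf hrange_sup hrange_cent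
      calc π.range = (⊤ : Subgroup L).map π := MonoidHom.range_eq_map π
        _ = (⁅(⊤ : Subgroup L), (⊤ : Subgroup L)⁆).map π := by rw [hp]
        _ = ⁅π.range, π.range⁆ := by rw [map_commutator, ← MonoidHom.range_eq_map]
        _ ≤ ⁅C, C⁆ := commutator_mono hRC hRC

end Cfsg.Agent.S1314
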