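import Cfsg.Statements.S1316
-- import your own Cfsg.Agent.* helpers here
import Cfsg.Agent.Lib.Helper28More

set_option autoImplicit false
open Cfsg

namespace Cfsg.Agent.S1316

open Subgroup Cfsg.Agent.Lib.Helper28Comp Cfsg.Agent.Lib.Helper28Fitting Cfsg.Agent.Lib.Helper28Layer
  Cfsg.Agent.Lib.Helper28Util Cfsg.Agent.Lib.Helper28More
open scoped commutatorElement

/-- internal derived series -/
def dser {G : Type*} [Group G] (A : Subgroup G) : ℕ → Subgroup G
  | 0 => A
  | n + 1 => ⁅dser A n, dser A n⁆

theorem map_derivedSeries {G : Type*} [Group G] (A : Subgroup G) (n : ℕ) :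
    (derivedSeries A n).map A.subtype = dser A n := by
  induction n with
  | zero => rw [derivedSeries_zero, map_top_subtype]; rfl
  | succ n ih => rw [derivedSeries_succ, map_commutator, ih]; rfl

theorem dser_le {G : Type*} [Group G] (A : Subgroup G) (n : ℕ) : dser A n ≤ A := by
  rw [← map_derivedSeries]; exact map_subtype_le _


/-- For a finite group X, E(X) equals the intersection of the derived series of F*(X) (its last term). -/
theorem result {X : Type*} [Group X] [Finite X] : (⨅ n : ℕ, (derivedSeries ↥(Cfsg.generalizedFittingSubgroup X) n).map (Cfsg.generalizedFittingSubgroup X).subtype) = Cfsg.layer X := by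
  simp only [map_derivedSeries]
  have hEF : ⁅layerIn (⊤ : Subgroup X), fittingIn (⊤ : Subgroup X)⁆ = ⊥ :=
    commutator_layerIn_fittingIn _
  rw [gfit_eq, layer_eq]
  apply le_antisymm
  · have hsol : Group.IsSolvable (fittingIn (⊤ : Subgroup X)) := by
      have := fittingIn_isNilpotent (⊤ : Subgroup X)
      infer_instance
    obtain ⟨m, hm⟩ := hsol
    have hm' : dser (fittingIn (⊤ : Subgroup X)) m = ⊥ := by
      rw [← map_derivedSeries, hm, Subgroup.map_bot]
    have key : ∀ n, dser (gfitIn (⊤ : Subgroup X)) n ≤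
        layerIn (⊤ : Subgroup X) ⊔ dser (fittingIn (⊤ : Subgroup X)) n := by
      intro n
      induction n with
      | zero => exact le_rfl
      | succ n ih =>
        have hc : ⁅layerIn (⊤ : Subgroup X), dser (fittingIn (⊤ : Subgroup X)) n⁆ = ⊥ := by
          rw [eq_bot_iff, ← hEF]
          exact commutator_mono le_rfl (dser_le _ _)
        calc dser (gfitIn (⊤ : Subgroup X)) (n + 1)
            = ⁅dser (gfitIn (⊤ : Subgroup X)) n, dser (gfitIn (⊤ : Subgroup X)) n⁆ := rfl
          _ ≤ ⁅layerIn (⊤ : Subgroup X) ⊔ dser (fittingIn (⊤ : Subgroup X)) n,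
                layerIn (⊤ : Subgroup X) ⊔ dser (fittingIn (⊤ : Subgroup X)) n⁆ :=
              commutator_mono ih ih
          _ ≤ ⁅layerIn (⊤ : Subgroup X), layerIn (⊤ : Subgroup X)⁆ ⊔
                ⁅dser (fittingIn (⊤ : Subgroup X)) n, dser (fittingIn (⊤ : Subgroup X)) n⁆ :=
              commutator_sup_self_le hc
          _ ≤ layerIn (⊤ : Subgroup X) ⊔ dser (fittingIn (⊤ : Subgroup X)) (n + 1) :=
              sup_le_sup_right (commutator_le_self _) _
    refine (iInf_le _ m).trans ((key m).trans ?_)
    rw [hm', sup_bot_eq]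
  · apply le_iInf
    intro n
    induction n with
    | zero => exact layerIn_le_gfitIn _
    | succ n ih =>
      calc layerIn (⊤ : Subgroup X) = ⁅layerIn (⊤ : Subgroup X), layerIn (⊤ : Subgroup X)⁆ :=
            (layerIn_perfect _).symm
        _ ≤ _ := commutator_mono ih ih

end Cfsg.Agent.S1316
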