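import Cfsg.Statements.S1318
-- import your own Cfsg.Agent.* helpers here
import Cfsg.Agent.Lib.Helper28More

set_option autoImplicit false
open Cfsg

namespace Cfsg.Agent.S1318

open Subgroup Cfsg.Agent.Lib.Helper28Comp Cfsg.Agent.Lib.Helper28Fitting Cfsg.Agent.Lib.Helper28Layer
  Cfsg.Agent.Lib.Helper28Util Cfsg.Agent.Lib.Helper28More
open scoped commutatorElement

/-- Let X be finite and S ≤ F*(X) a subgroup subnormal in F*(X). Then F(S) = F(X) ∩ S (inside X) and S = F(S)E(S). -/
theorem result {X : Type*} [Group X] [Finite X] (S : Subgroup X) (hS : S ≤ Cfsg.generalizedFittingSubgroup X) (hsn : (S.subgroupOf (Cfsg.generalizedFittingSubgroup X)).IsSubnormal) : (Cfsg.fittingSubgroup ↥S).map S.subtype = Cfsg.fittingSubgroup X ⊓ S ∧ Cfsg.fittingSubgroup ↥S ⊔ Cfsg.layer ↥S = ⊤ := by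
  have h1 : Sn S (gfitIn (⊤ : Subgroup X)) := by
    rw [← gfit_eq]; exact (sn_iff_subgroupOf hS).mpr hsn
  have h2 : Sn S ⊤ := h1.trans (gfitIn_normIn _).sn
  constructor
  · rw [map_fitting, fitting_eq]
    exact fittingIn_eq_inf_of_sn h2
  · apply map_injective S.subtype_injective
    rw [Subgroup.map_sup, map_fitting, map_layer, map_top_subtype, sup_comm]
    exact eq_gfitIn_of_sn_gfitIn h1

end Cfsg.Agent.S1318
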