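import Cfsg.Statements.S1319
-- import your own Cfsg.Agent.* helpers here
import Cfsg.Agent.Lib.Helper28Layer

set_option autoImplicit false
open Cfsg

namespace Cfsg.Agent.S1319

open Subgroup Cfsg.Agent.Lib.Helper28Comp Cfsg.Agent.Lib.Helper28Fitting Cfsg.Agent.Lib.Helper28Layer

/-- Let A be a subnormal subgroup of the finite group X with E(A) = A. Then A ≤ E(X) and A is normal in E(X). -/
theorem result {X : Type*} [Group X] [Finite X] (A : Subgroup X) (hsn : A.IsSubnormal) (hA : Cfsg.layer ↥A = ⊤) : A ≤ Cfsg.layer X ∧ (A.subgroupOf (Cfsg.layer X)).Normal := by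
  have hsn' : Sn A ⊤ := sn_top_iff.mpr hsn
  have hA' : layerIn A = A := by
    rw [← map_layer, hA, map_top_subtype]
  have h1 : A ≤ Cfsg.layer X := by
    rw [layer_eq]
    calc A = layerIn A := hA'.symm
      _ ≤ _ := layerIn_le_of_sn hsn'
  refine ⟨h1, ?_⟩
  rw [normal_subgroupOf_iff_le_normalizer h1, layer_eq]
  apply sSup_le
  intro L hL
  rcases hL.le_or_commute hsn' with h | h
  · exact h.trans le_normalizer
  · exact le_normalizer_of_commutator_eq_bot h

end Cfsg.Agent.S1319
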