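import Cfsg.Statements.S1321
-- import your own Cfsg.Agent.* helpers here
import Cfsg.Agent.Lib.Helper28Util

set_option autoImplicit false
open Cfsg

namespace Cfsg.Agent.S1321

open Subgroup Cfsg.Agent.Lib.Helper28Comp Cfsg.Agent.Lib.Helper28Fitting Cfsg.Agent.Lib.Helper28Layer
  Cfsg.Agent.Lib.Helper28Util
open scoped commutatorElement

/-- Let X be finite and U ≤ X. Then E(X) is generated by C_{E(X)}(U) together with ⁅E(X), U⁆ (indeed it is their product, ⁅E(X), U⁆ being normal in E(X)). -/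
theorem result {X : Type*} [Group X] [Finite X] (U : Subgroup X) : Cfsg.layer X = (Cfsg.layer X ⊓ Subgroup.centralizer (U : Set X)) ⊔ ⁅Cfsg.layer X, U⁆ ∧ ⁅Cfsg.layer X, U⁆ ≤ Cfsg.layer X := by
  have hE : NormIn (Cfsg.layer X) ⊤ := by rw [layer_eq]; exact layerIn_normIn _
  have hEn : (Cfsg.layer X).Normal := normIn_top_iff.mp hE
  have hN : ⁅Cfsg.layer X, U⁆ ≤ Cfsg.layer X := commutator_le_left _ _
  refine ⟨?_, hN⟩
  apply le_antisymm _ (sup_le inf_le_left hN)
  have hNsn : Sn ⁅Cfsg.layer X, U⁆ ⊤ :=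
    (NormIn.sn ⟨hN, normalizer_commutator_ge_left _ _⟩).trans hE.sn
  conv_lhs => rw [layer_eq]
  apply sSup_le
  intro L hL
  have hLE : L ≤ Cfsg.layer X := by rw [layer_eq]; exact compIn_le_layerIn hL
  rcases hL.le_or_commute hNsn with h | h
  · exact h.trans le_sup_right
  · refine le_trans (le_inf hLE ?_) le_sup_left
    rw [← commutator_eq_bot_iff_le_centralizer, commutator_comm]
    apply perfect_three hL.2.perfect
    rw [eq_bot_iff, ← h, commutator_comm L]
    apply commutator_mono _ le_rfl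
    rw [commutator_comm]
    exact commutator_mono hLE le_rfl

end Cfsg.Agent.S1321
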