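import Cfsg.Statements.S1326
-- import your own Cfsg.Agent.* helpers here
import Cfsg.Agent.Lib.Helper28Layer

set_option autoImplicit false
open Cfsg

namespace Cfsg.Agent.S1326

open Subgroup Cfsg.Agent.Lib.Helper28Comp Cfsg.Agent.Lib.Helper28Fitting Cfsg.Agent.Lib.Helper28Layer

/-- For a finite group X: the Fitting subgroup contains its centralizer if and only if the layer of X is trivial. -/
theorem result {X : Type*} [Group X] [Finite X] : Subgroup.centralizer (Cfsg.fittingSubgroup X : Set X) ≤ Cfsg.fittingSubgroup X ↔ Cfsg.layer X = ⊥ := by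
  constructor
  · intro h
    rw [layer_eq, eq_bot_iff]
    apply sSup_le
    intro L hL
    exfalso
    have h1 : L ≤ Cfsg.fittingSubgroup X := by
      refine le_trans ?_ h
      rw [← commutator_eq_bot_iff_le_centralizer, eq_bot_iff, fitting_eq,
        ← commutator_layerIn_fittingIn (⊤ : Subgroup X)]
      exact commutator_mono (compIn_le_layerIn hL) le_rfl
    have h2 : Group.IsNilpotent (Cfsg.fittingSubgroup X) := fitting_isNilpotent
    apply hL.2.not_isSolvable
    exact Group.isSolvable_of_isSolvable_injective (inclusion_injective h1)
  · intro h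
    have h1 := centralizer_gfit_le (G := X)
    unfold Cfsg.generalizedFittingSubgroup at h1
    rwa [h, bot_sup_eq] at h1

end Cfsg.Agent.S1326
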