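import Cfsg.Statements.S1328
-- import your own Cfsg.Agent.* helpers here
import Cfsg.Agent.Lib.Helper28KBal

set_option autoImplicit false
open Cfsg

namespace Cfsg.Agent.S1328


open Subgroup Cfsg.Agent.Lib.Helper27Basic Cfsg.Agent.Lib.Helper27Core
  Cfsg.Agent.Lib.Helper27PComp Cfsg.Agent.Lib.Helper27Coprime Cfsg.Agent.Lib.Helper27Balance
  Cfsg.Agent.Lib.Helper27Rel Cfsg.Agent.Lib.Helper28Bal Cfsg.Agent.Lib.Helper28KBal
open Cfsg.Agent.Lib.Helper28Comp (NormIn CompIn)
open scoped commutatorElement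

theorem coreIn_sup_eq_bot {G : Type*} [Group G] [Finite G] {H : Subgroup G}
    (hO : coreIn 2 H = ⊥) {t : G} (ht : orderOf t = 2) (htH : t ∈ normalizer (H : Set G)) :
    coreIn 2 (H ⊔ zpowers t) = ⊥ := by
  have : Fact (Nat.Prime 2) := ⟨Nat.prime_two⟩
  set X := H ⊔ zpowers t with hX
  set M := coreIn 2 X with hM
  have hZ : zpowers t ≤ normalizer (H : Set G) := zpowers_le.mpr htH
  have hXH : X ≤ normalizer (H : Set G) := sup_le le_normalizer hZ
  have hMn : NormIn M X := coreIn_normIn X
  have hMc : (Nat.card M).Coprime 2 := card_coreIn_coprime X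
  have h1 : H ⊓ M = ⊥ := by
    rw [eq_bot_iff, ← hO]
    apply le_coreIn
    · refine ⟨inf_le_left, ?_⟩
      refine le_trans (le_inf le_normalizer ((le_sup_left : H ≤ X).trans hMn.2))
        inf_normalizer_le_normalizer_inf
    · exact Nat.Coprime.coprime_dvd_left (card_dvd_of_le inf_le_right) hMc
  have h2 : H.relIndex M ∣ 2 := by
    have h3 : H.relIndex M ∣ H.relIndex X := relIndex_dvd_relIndex_of_le_normalizer hMn.1 hXH
    rw [hX, relIndex_sup_left' hZ] at h3
    have h4 := relIndex_dvd_card H (zpowers t)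
    rw [Nat.card_zpowers, ht] at h4
    exact h3.trans h4
  rw [← inf_relIndex_right, h1, relIndex_bot_left] at h2
  have h5 : Nat.card M = 1 := Nat.Coprime.eq_one_of_dvd hMc h2
  exact card_eq_one.mp h5

theorem commutator_sup_zpowers_le {G : Type*} [Group G] {H : Subgroup G} {t : G}
    (htH : t ∈ normalizer (H : Set G)) :
    ⁅H ⊔ zpowers t, H ⊔ zpowers t⁆ ≤ H := by
  have hZ : zpowers t ≤ normalizer (H : Set G) := zpowers_le.mpr htH
  have hXH : H ⊔ zpowers t ≤ normalizer (H : Set G) := sup_le le_normalizer hZ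
  apply commutator_sup_le (commutator_le_left_of_le_normalizer hXH) _ le_normalizer hZ
  rw [commutator_comm]
  apply commutator_sup_le (commutator_le_left_of_le_normalizer hZ) _ le_normalizer hZ
  have : ⁅zpowers t, zpowers t⁆ = ⊥ := by
    rw [commutator_eq_bot_iff_le_centralizer]
    intro x hx
    rw [mem_centralizer_iff]
    intro y hy
    obtain ⟨i, rfl⟩ := hx
    obtain ⟨j, rfl⟩ := hy
    exact (Commute.zpow_zpow (Commute.refl t) j i).eq
  rw [this]; exact bot_le


/-- Let G be finite, H ≤ G with O(H) = 1, t an involution of G normalizing H, and Y a nontrivial subgroup of O(C_H(t)). Then some component E of H is normalized by t and by Y and centralized by neither t nor Y. -/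
theorem result {G : Type*} [Group G] [Finite G] (H : Subgroup G) (hO : Cfsg.oddCore ↥H = ⊥) (t : G) (ht : orderOf t = 2) (htH : t ∈ Subgroup.normalizer (H : Set G)) (Y : Subgroup G) (hY1 : Y ≠ ⊥) (hY : Y ≤ (Cfsg.oddCore ↥(H ⊓ Subgroup.centralizer ({t} : Set G))).map (H ⊓ Subgroup.centralizer ({t} : Set G)).subtype) : ∃ E : Subgroup ↥H, Cfsg.IsComponent E ∧ (E.map H.subtype).map (MulAut.conj t).toMonoidHom = E.map H.subtype ∧ Y ≤ Subgroup.normalizer ((E.map H.subtype : Subgroup G) : Set G) ∧ ¬ (t ∈ Subgroup.centralizer ((E.map H.subtype : Subgroup G) : Set G)) ∧ ¬ (Y ≤ Subgroup.centralizer ((E.map H.subtype : Subgroup G) : Set G)) := by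
  have : Fact (Nat.Prime 2) := ⟨Nat.prime_two⟩
  set X := H ⊔ zpowers t with hX
  have hHX : H ≤ X := le_sup_left
  have htX : t ∈ X := mem_sup_right (mem_zpowers t)
  have hXH : X ≤ normalizer (H : Set G) := sup_le le_normalizer (zpowers_le.mpr htH)
  have hOX : Cfsg.pPrimeCore 2 X = ⊥ :=
    (coreIn_eq_bot_iff X).mp (coreIn_sup_eq_bot ((coreIn_eq_bot_iff H).mpr hO) ht htH)
  set t' : X := ⟨t, htX⟩ with ht'
  have ht'o : orderOf t' = 2 := by
    rw [← ht, ← Subgroup.orderOf_coe t']
  -- `Y` inside `O(C_X(t))`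
  have hmapC : (centralizer ({t'} : Set X)).map X.subtype = X ⊓ centralizer ({t} : Set G) := by
    ext g
    constructor
    · rintro ⟨c, hc, rfl⟩
      refine mem_inf.mpr ⟨c.2, ?_⟩
      rw [Subgroup.mem_centralizer_singleton_iff]
      exact congrArg Subtype.val (Subgroup.mem_centralizer_singleton_iff.mp hc)
    · intro hg
      refine ⟨⟨g, (mem_inf.mp hg).1⟩, ?_, rfl⟩
      rw [SetLike.mem_coe, Subgroup.mem_centralizer_singleton_iff]
      exact Subtype.ext (Subgroup.mem_centralizer_singleton_iff.mp (mem_inf.mp hg).2)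
  have hYc : Y ≤ coreIn 2 (X ⊓ centralizer ({t} : Set G)) := by
    rw [map_core] at hY
    refine hY.trans ?_
    apply le_coreIn _ (card_coreIn_coprime _)
    refine ⟨(coreIn_le _).trans (inf_le_inf_right _ hHX), ?_⟩
    refine le_trans ?_ (normalizer_le_normalizer_coreIn _)
    exact le_trans (le_inf (inf_le_left.trans hXH) (inf_le_right.trans le_normalizer))
      inf_normalizer_le_normalizer_inf
  have hYX : Y ≤ X := hYc.trans ((coreIn_le _).trans inf_le_left)
  set Y' := Y.subgroupOf X with hY'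
  have hY'c : Y' ≤ coreIn 2 (centralizer ({t'} : Set X)) := by
    rw [← map_subtype_le_map_subtype, coreIn_map X.subtype_injective, hmapC, hY',
      map_subgroupOf_eq_of_le hYX]
    exact hYc
  have hY'1 : Y' ≠ ⊥ := by
    intro h
    apply hY1
    have := congrArg (Subgroup.map X.subtype) h
    rwa [hY', map_subgroupOf_eq_of_le hYX, Subgroup.map_bot] at this
  -- a component not centralized by `Y`
  obtain ⟨L', hL', hYL'⟩ : ∃ L' : Subgroup X, Cfsg.IsComponent L' ∧
      ¬ Y' ≤ centralizer (L' : Set X) := by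
    by_contra hcon
    push Not at hcon
    exact hY'1 (eq_bot_of_centralizes hOX
      (Nat.Coprime.coprime_dvd_left (card_dvd_of_le hY'c) (card_coreIn_coprime _))
      (hY'c.trans (coreIn_centralizer_le_centralizer_pCore ht'o)) hcon)
  have hcomm : ⁅L', zpowers t'⁆ = L' := by
    by_contra hne
    have h1 := h18 hOX t' ht'o L' hL' hne
    rw [cpc_eq, commutator_comm] at h1
    exact hYL' (hY'c.trans (commutator_eq_bot_iff_le_centralizer.mp h1))
  have ht'N : t' ∈ normalizer (L' : Set X) := by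
    have h1 := normalizer_commutator_ge_right L' (zpowers t')
    rw [hcomm] at h1
    exact h1 (mem_zpowers t')
  have ht'C : t' ∉ centralizer (L' : Set X) := by
    intro hc
    have h1 : ⁅L', zpowers t'⁆ = ⊥ := by
      rw [commutator_comm, commutator_eq_bot_iff_le_centralizer]
      exact zpowers_le.mpr hc
    rw [hcomm] at h1
    exact (isComponent_iff.mp hL').2.ne_bot h1
  have hY'N : Y' ≤ normalizer (L' : Set X) :=
    (hY'c.trans (coreIn_centralizer_le_compKer hOX ht'o)).trans (compKer_le_normalizer hL')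
  set L := L'.map X.subtype with hL
  have hLc : CompIn L X := Cfsg.Agent.Lib.Helper28Comp.isComponent_iff_map_subtype.mp hL'
  have hLH : L ≤ H := by
    calc L = ⁅L, L⁆ := hLc.2.perfect.symm
      _ ≤ ⁅X, X⁆ := commutator_mono hLc.le hLc.le
      _ ≤ H := commutator_sup_zpowers_le htH
  have hLcH : CompIn L H := hLc.of_le hLH hHX
  have hnorm : ∀ x : X, x ∈ normalizer (L' : Set X) → (x : G) ∈ normalizer (L : Set G) := by
    intro x hx
    apply mem_normalizer_of_cj_eq
    have := map_cj X.subtype x L'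
    rw [cj_eq_of_mem_normalizer hx] at this
    exact this.symm
  have hcent : ∀ x : X, (x : G) ∈ centralizer (L : Set G) → x ∈ centralizer (L' : Set X) := by
    intro x hx
    rw [mem_centralizer_iff] at hx ⊢
    intro l hl
    exact Subtype.ext (hx l ⟨l, hl, rfl⟩)
  refine ⟨L.subgroupOf H, (Cfsg.Agent.Lib.Helper28Comp.isComponent_subgroupOf_iff hLH).mpr hLcH, ?_⟩
  rw [map_subgroupOf_eq_of_le hLH]
  refine ⟨cj_eq_of_mem_normalizer (hnorm t' ht'N), ?_, fun h => ht'C (hcent t' h), ?_⟩
  · intro y hy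
    exact hnorm ⟨y, hYX hy⟩ (hY'N (mem_subgroupOf.mpr hy))
  · intro h
    apply hYL'
    intro y hy
    exact hcent y (h (mem_subgroupOf.mp hy))

end Cfsg.Agent.S1328
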