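import Cfsg.Statements.S1331
-- import your own Cfsg.Agent.* helpers here
import Cfsg.Agent.Lib.Helper30Hyp

set_option autoImplicit false
open Cfsg

namespace Cfsg.Agent.S1331

/-- Let θ be a solvable A-signalizer functor on the finite group G for the prime p, A elementary abelian of rank at least 3, X a member of the family of θ, and B ≤ A with |B| ≥ p². Then X is generated by the subgroups X ∩ ⋂_{d ∈ D, d ≠ 1} θ d, D ranging over the subgroups of index p in B. -/
theorem result {G : Type*} [Group G] [Finite G] (p : ℕ) [Fact p.Prime] (A : Subgroup G) (hA : Cfsg.IsElementaryAbelian p A) (hA3 : p ^ 3 ≤ Nat.card ↥A) (θ : G → Subgroup G) (hθ : Cfsg.IsSolvableSignalizerFunctor p A θ) (X : Subgroup G) (hX : X ∈ Cfsg.signalizerFamily p A θ) (B : Subgroup G) (hB : B ≤ A) (hB2 : p ^ 2 ≤ Nat.card ↥B) : X = ⨆ D : {D : Subgroup G // D ≤ B ∧ D.relIndex B = p}, X ⊓ Cfsg.signalizerInf (D : Subgroup G) θ := by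
  obtain ⟨-, hXp, hXinv, hXθ⟩ := hX
  have hBc : IsMulCommutative B := by
    have := hA.1
    exact ⟨⟨fun a b => Subtype.ext (by
      have h0 := this.is_comm.comm (⟨a, hB a.2⟩ : A) ⟨b, hB b.2⟩
      have h1 := congrArg Subtype.val h0
      exact h1)⟩⟩
  have hBp : ∀ a ∈ B, a ^ p = 1 := fun a ha => hA.2 a (hB ha)
  have hBX : B ≤ Subgroup.normalizer (X : Set G) := by
    rw [Subgroup.le_normalizer_iff]
    intro b hb u hu
    exact hXinv b (hB hb) u hu
  have hBpg : IsPGroup p B := by
    intro b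
    refine ⟨1, Subtype.ext ?_⟩
    simpa using hBp b b.2
  obtain ⟨n, hn⟩ := IsPGroup.iff_card.mp hBpg
  have hn2 : 2 ≤ n := by
    rw [hn] at hB2
    exact (Nat.pow_le_pow_iff_right (Fact.out : p.Prime).one_lt).mp hB2
  -- a hyperplane
  obtain ⟨D₀, hD₀B, hD₀⟩ : ∃ D₀ : Subgroup G, D₀ ≤ B ∧ D₀.relIndex B = p := by
    obtain ⟨K, hK⟩ := Sylow.exists_subgroup_card_pow_prime (G := B) p (n := n - 1)
      (by rw [hn]; exact pow_dvd_pow p (Nat.sub_le n 1))
    refine ⟨K.map B.subtype, Subgroup.map_subtype_le K, ?_⟩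
    have h1 : (K.map B.subtype).relIndex B = K.index := by
      rw [Subgroup.relIndex, Subgroup.subgroupOf, Subgroup.comap_map_eq_self_of_injective B.subtype_injective]
    rw [h1]
    have h2 := K.card_mul_index
    rw [hK, hn] at h2
    have h3 : p ^ n = p ^ (n - 1) * p := by rw [← pow_succ]; congr 1; omega
    rw [h3] at h2
    exact Nat.eq_of_mul_eq_mul_left (pow_pos (Fact.out : p.Prime).pos _) h2
  have key : ∀ D : Subgroup G, D ≤ B → X ⊓ Subgroup.centralizer (D : Set G) ≤ X ⊓ Cfsg.signalizerInf D θ := by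
    intro D hD
    refine le_inf inf_le_left ?_
    unfold Cfsg.signalizerInf
    refine le_iInf ?_
    rintro ⟨d, hd, hd1⟩
    refine le_trans ?_ (hXθ d (hB (hD hd)) hd1)
    exact inf_le_inf_left X (Subgroup.centralizer_le (by simpa using hd))
  apply le_antisymm
  · have h1 := Cfsg.Agent.Lib.Helper30Hyp.le_iSup_hyperplane_centralizers hBc hBp hXp hBX
    refine h1.trans (iSup_le ?_)
    rintro ⟨B', hB'B, hidx⟩
    have hdvd : B'.relIndex B ∣ p ^ n := hn ▸ Subgroup.relIndex_dvd_card B' B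
    obtain ⟨j, hj, hjj⟩ := (Nat.dvd_prime_pow (Fact.out : p.Prime)).mp hdvd
    have hj1 : j ≤ 1 := by
      by_contra hcon
      have h2 : p ^ 2 ≤ p ^ j := Nat.pow_le_pow_right (Fact.out : p.Prime).pos (by omega)
      have h3 : p < p ^ 2 := by
        have := (Fact.out : p.Prime).one_lt
        nlinarith
      omega
    interval_cases j
    · -- B' = B
      have h2 : B ≤ B' := Subgroup.relIndex_eq_one.mp (by simpa using hjj)
      refine le_trans ?_ (le_iSup (fun D : {D : Subgroup G // D ≤ B ∧ D.relIndex B = p} =>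
        X ⊓ Cfsg.signalizerInf (D : Subgroup G) θ) ⟨D₀, hD₀B, hD₀⟩)
      refine le_trans ?_ (key D₀ hD₀B)
      exact inf_le_inf_left X (Subgroup.centralizer_le (by exact_mod_cast hD₀B.trans h2))
    · refine le_trans ?_ (le_iSup (fun D : {D : Subgroup G // D ≤ B ∧ D.relIndex B = p} =>
        X ⊓ Cfsg.signalizerInf (D : Subgroup G) θ) ⟨B', hB'B, by simpa using hjj⟩)
      exact key B' hB'B
  · exact iSup_le fun _ => inf_le_left

end Cfsg.Agent.S1331
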