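import Cfsg.Statements.S1335
-- import your own Cfsg.Agent.* helpers here
import Mathlib

set_option autoImplicit false
open Cfsg

namespace Cfsg.Agent.S1335

open Subgroup

theorem pRankLE_of_injective {A B : Type*} [Group A] [Group B] (f : A →* B)
    (hf : Function.Injective f) {p k : ℕ} (h : Cfsg.PRankLE p k B) : Cfsg.PRankLE p k A := by
  intro E hE hEp
  have h1 := h (E.map f) inferInstance (by
    rintro _ ⟨a, ha, rfl⟩
    rw [← map_pow, hEp a ha, map_one])
  rwa [card_map_of_injective hf] at h1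


/-- Let H be a subgroup of the finite group G, p a prime, k ≥ 1, P a Sylow p-subgroup of H of p-rank at least k, and suppose N_G(X) ≤ H for every subgroup X ≤ P of p-rank at least k. Then P is a Sylow p-subgroup of G. -/
theorem result {G : Type*} [Group G] [Finite G] {p : ℕ} [Fact p.Prime] (k : ℕ) (hk : 1 ≤ k) (H : Subgroup G) (P : Sylow p ↥H) (hP : ¬ Cfsg.PRankLE p (k - 1) ↥(P : Subgroup ↥H)) (hΓ : (∀ X : Subgroup G, X ≤ (P : Subgroup ↥H).map H.subtype → ¬ Cfsg.PRankLE p (k - 1) ↥X → Subgroup.normalizer (X : Set G) ≤ H)) : ∃ Q : Sylow p G, (Q : Subgroup G) = (P : Subgroup ↥H).map H.subtype := by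
  set P' := (P : Subgroup ↥H).map H.subtype with hP'
  have hP'H : P' ≤ H := map_subtype_le _
  have hpg : IsPGroup p P' := P.2.map H.subtype
  have hrk : ¬ Cfsg.PRankLE p (k - 1) ↥P' := by
    intro h
    apply hP
    exact pRankLE_of_injective
      ((P : Subgroup ↥H).equivMapOfInjective H.subtype H.subtype_injective).toMonoidHom
      ((P : Subgroup ↥H).equivMapOfInjective H.subtype H.subtype_injective).injective h
  have hN : normalizer (P' : Set G) ≤ H := hΓ P' le_rfl hrk
  obtain ⟨Q, hQ⟩ := hpg.exists_le_sylow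
  refine ⟨Q, ?_⟩
  by_contra hne
  have hlt : P' < (Q : Subgroup G) := lt_of_le_of_ne hQ (Ne.symm hne)
  have hnil : Group.IsNilpotent (Q : Subgroup G) := Q.2.isNilpotent
  have hnc := Group.normalizerCondition_of_isNilpotent (G := (Q : Subgroup G))
  have hlt' : P'.subgroupOf Q < ⊤ := by
    rw [lt_top_iff_ne_top, Ne, subgroupOf_eq_top]
    exact fun h => hlt.not_ge h
  have h2 := hnc _ hlt'
  obtain ⟨y, hy1, hy2⟩ := SetLike.exists_of_lt h2
  rw [← subgroupOf_normalizer_eq hQ, mem_subgroupOf] at hy1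
  rw [mem_subgroupOf] at hy2
  have hyH : (y : G) ∈ H := hN hy1
  have hmax := P.is_maximal' (Q := ((Q : Subgroup G) ⊓ H).subgroupOf H) (by
      have h3 : IsPGroup p ((Q : Subgroup G) ⊓ H : Subgroup G) := Q.2.to_le inf_le_left
      exact h3.comap_of_injective H.subtype H.subtype_injective) (by
      intro z hz
      rw [mem_subgroupOf]
      exact ⟨hQ ⟨z, hz, rfl⟩, z.2⟩)
  apply hy2
  have h4 : (⟨(y : G), hyH⟩ : H) ∈ ((Q : Subgroup G) ⊓ H).subgroupOf H := by
    rw [mem_subgroupOf]; exact ⟨y.2, hyH⟩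
  rw [hmax] at h4
  exact ⟨_, h4, rfl⟩

end Cfsg.Agent.S1335
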