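import Cfsg.Statements.S1336
-- import your own Cfsg.Agent.* helpers here
import Mathlib
import Cfsg.Agent.Lib.Helper2Sylow

set_option autoImplicit false
open Cfsg

namespace Cfsg.Agent.S1336


variable {G : Type*} [Group G]

/-- conjugate subgroup -/
abbrev cj (g : G) (X : Subgroup G) : Subgroup G := X.map (MulAut.conj g).toMonoidHom

theorem mem_cj {g x : G} {X : Subgroup G} : x ∈ cj g X ↔ g⁻¹ * x * g ∈ X := by
  rw [cj, Subgroup.mem_map_equiv, MulAut.conj_symm_apply]

theorem cj_mul (g h : G) (X : Subgroup G) : cj (g * h) X = cj g (cj h X) := by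
  ext x
  rw [mem_cj, mem_cj, mem_cj]
  have : (g * h)⁻¹ * x * (g * h) = h⁻¹ * (g⁻¹ * x * g) * h := by group
  rw [this]

theorem cj_one (X : Subgroup G) : cj 1 X = X := by
  ext x
  rw [mem_cj]
  simp

theorem cj_mono {g : G} {X Y : Subgroup G} (h : X ≤ Y) : cj g X ≤ cj g Y := Subgroup.map_mono h

theorem cj_inv_cj (g : G) (X : Subgroup G) : cj g⁻¹ (cj g X) = X := by
  rw [← cj_mul]
  simp [cj_one]

theorem cj_cj_inv (g : G) (X : Subgroup G) : cj g (cj g⁻¹ X) = X := by
  rw [← cj_mul]
  simp [cj_one]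

theorem card_cj (g : G) (X : Subgroup G) : Nat.card (cj g X) = Nat.card X :=
  Subgroup.card_map_of_injective (MulAut.conj g).injective

theorem ea_cj {p : ℕ} {g : G} {X : Subgroup G} (h : Cfsg.IsElementaryAbelian p X) :
    Cfsg.IsElementaryAbelian p (cj g X) := by
  have hc : ∀ a ∈ X, ∀ b ∈ X, a * b = b * a := fun a ha b hb =>
    congrArg Subtype.val (h.1.is_comm.comm ⟨a, ha⟩ ⟨b, hb⟩)
  constructor
  · refine ⟨⟨fun a b => ?_⟩⟩
    apply Subtype.ext
    have ha := mem_cj.mp a.2
    have hb := mem_cj.mp b.2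
    have := hc _ ha _ hb
    show (a : G) * b = b * a
    calc (a : G) * b = g * ((g⁻¹ * a * g) * (g⁻¹ * b * g)) * g⁻¹ := by group
      _ = g * ((g⁻¹ * b * g) * (g⁻¹ * a * g)) * g⁻¹ := by rw [this]
      _ = b * a := by group
  · intro a ha
    have := h.2 _ (mem_cj.mp ha)
    have e : a = g * (g⁻¹ * a * g) * g⁻¹ := by group
    rw [e, conj_pow, this]
    group

/-- the adjacency relation -/
def R (p : ℕ) (A B : Subgroup G) : Prop :=
  Cfsg.IsElementaryAbelian p A ∧ p ^ 1 ≤ Nat.card ↥A ∧ Cfsg.IsElementaryAbelian p B ∧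
        p ^ 1 ≤ Nat.card ↥B ∧ ∀ a ∈ A, ∀ b ∈ B, a * b = b * a

theorem R_symm (p : ℕ) {A B : Subgroup G} : R p A B → R p B A := by
  rintro ⟨h1, h2, h3, h4, h5⟩
  exact ⟨h3, h4, h1, h2, fun a ha b hb => (h5 b hb a ha).symm⟩

theorem R_cj {p : ℕ} (g : G) {A B : Subgroup G} (h : R p A B) : R p (cj g A) (cj g B) := by
  obtain ⟨h1, h2, h3, h4, h5⟩ := h
  refine ⟨ea_cj h1, by rw [card_cj]; exact h2, ea_cj h3, by rw [card_cj]; exact h4, ?_⟩
  intro a ha b hb
  have := h5 _ (mem_cj.mp ha) _ (mem_cj.mp hb)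
  calc a * b = g * ((g⁻¹ * a * g) * (g⁻¹ * b * g)) * g⁻¹ := by group
    _ = g * ((g⁻¹ * b * g) * (g⁻¹ * a * g)) * g⁻¹ := by rw [this]
    _ = b * a := by group

abbrev conn (p : ℕ) (A B : Subgroup G) : Prop := Relation.ReflTransGen (R p) A B

theorem conn_cj {p : ℕ} (g : G) {A B : Subgroup G} (h : conn p A B) : conn p (cj g A) (cj g B) := by
  induction h with
  | refl => exact Relation.ReflTransGen.refl
  | tail _ hbc ih => exact ih.tail (R_cj g hbc)

theorem conn_symm {p : ℕ} {A B : Subgroup G} (h : conn p A B) : conn p B A := by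
  induction h with
  | refl => exact Relation.ReflTransGen.refl
  | tail _ hbc ih => exact Relation.ReflTransGen.head (R_symm p hbc) ih

theorem isPGroup_of_ea {p : ℕ} {A : Subgroup G} (h : Cfsg.IsElementaryAbelian p A) : IsPGroup p A := by
  intro x
  refine ⟨1, ?_⟩
  apply Subtype.ext
  simpa using h.2 x x.2

theorem dvd_card_of_vertex {p : ℕ} [Fact p.Prime] {A : Subgroup G} (h : Cfsg.IsElementaryAbelian p A)
    (h2 : p ^ 1 ≤ Nat.card A) : p ∣ Nat.card A := by
  rcases (isPGroup_of_ea h).card_eq_or_dvd with h3 | h3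
  · have := (Fact.out : p.Prime).two_le
    rw [h3, pow_one] at h2
    omega
  · exact h3

theorem vertex_zpowers {p : ℕ} {x : G} (hx : orderOf x = p) :
    Cfsg.IsElementaryAbelian p (Subgroup.zpowers x) ∧ p ^ 1 ≤ Nat.card (Subgroup.zpowers x) := by
  refine ⟨⟨?_, ?_⟩, ?_⟩
  · refine ⟨⟨fun a b => ?_⟩⟩
    obtain ⟨k, hk⟩ := Subgroup.mem_zpowers_iff.mp a.2
    obtain ⟨l, hl⟩ := Subgroup.mem_zpowers_iff.mp b.2
    apply Subtype.ext
    show (a : G) * b = b * a
    rw [← hk, ← hl, ← zpow_add, ← zpow_add, add_comm]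
  · intro a ha
    obtain ⟨k, rfl⟩ := Subgroup.mem_zpowers_iff.mp ha
    rw [← zpow_natCast, ← zpow_mul, mul_comm, zpow_mul, zpow_natCast, ← hx, pow_orderOf_eq_one, one_zpow]
  · rw [Nat.card_zpowers, hx, pow_one]

/-- the stabilizer of the component of `E` -/
def stab (p : ℕ) (E : Subgroup G) : Subgroup G where
  carrier := {g | conn p E (cj g E)}
  one_mem' := by
    show conn p E (cj 1 E)
    rw [cj_one]
  mul_mem' := by
    intro g h hg hh
    show conn p E (cj (g * h) E)
    rw [cj_mul]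
    exact Relation.ReflTransGen.trans hg (conn_cj g hh)
  inv_mem' := by
    intro g hg
    show conn p E (cj g⁻¹ E)
    have := conn_cj g⁻¹ hg
    rw [cj_inv_cj] at this
    exact conn_symm this

theorem mem_stab {p : ℕ} {E : Subgroup G} {g : G} : g ∈ stab p E ↔ conn p E (cj g E) := Iff.rfl


/-- Let G be finite and p prime. Then G has a proper subgroup H with p ∣ |H| and p ∤ |H ∩ gHg⁻¹| for every g ∉ H (a strongly p-embedded subgroup) if and only if G is not 1-connected for p. -/
theorem result {G : Type*} [Group G] [Finite G] (p : ℕ) [Fact p.Prime] : (∃ H : Subgroup G, H ≠ ⊤ ∧ p ∣ Nat.card ↥H ∧ ∀ g : G, g ∉ H → ¬ p ∣ Nat.card ↥(H ⊓ H.map (MulAut.conj g).toMonoidHom)) ↔ ¬ Cfsg.IsKConnected p 1 G := by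
  classical
  have hp : p.Prime := Fact.out
  constructor
  · rintro ⟨H, hH, hpH, hemb⟩ hconn
    have hclos : ∀ A B : Subgroup G, R p A B → A ≤ H → B ≤ H := by
      rintro A B ⟨h1, h2, h3, h4, h5⟩ hA b hb
      by_contra hbH
      apply hemb b hbH
      apply (dvd_card_of_vertex h1 h2).trans
      apply Subgroup.card_dvd_of_le
      intro a ha
      refine Subgroup.mem_inf.mpr ⟨hA ha, ?_⟩
      show a ∈ cj b H
      rw [mem_cj]
      have : b⁻¹ * a * b = a := by rw [mul_assoc, h5 a ha b hb]; group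
      rw [this]; exact hA ha
    have hclos2 : ∀ A B : Subgroup G, conn p A B → A ≤ H → B ≤ H := by
      intro A B h hA
      induction h with
      | refl => exact hA
      | tail _ hbc ih => exact hclos _ _ hbc ih
    obtain ⟨x, hx⟩ := exists_prime_orderOf_dvd_card' p hpH
    have hx' : orderOf (x : G) = p := by rw [Subgroup.orderOf_coe, hx]
    obtain ⟨hE1, hE2⟩ := vertex_zpowers hx'
    have hEH : Subgroup.zpowers (x : G) ≤ H := Subgroup.zpowers_le.mpr x.2
    obtain ⟨g, hg⟩ : ∃ g, g ∉ H := by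
      by_contra hcon
      push Not at hcon
      exact hH (eq_top_iff.mpr fun y _ => hcon y)
    have h1 : conn p (Subgroup.zpowers (x : G)) (cj g (Subgroup.zpowers (x : G))) :=
      hconn _ _ hE1 hE2 (ea_cj hE1) (by rw [card_cj]; exact hE2)
    have h2 := hclos2 _ _ h1 hEH
    apply hemb g hg
    apply (dvd_card_of_vertex (ea_cj (g := g) hE1) (by rw [card_cj]; exact hE2)).trans
    apply Subgroup.card_dvd_of_le
    exact le_inf h2 (cj_mono hEH)
  · intro hnc
    unfold Cfsg.IsKConnected at hnc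
    push Not at hnc
    obtain ⟨E, E', hE1, hE2, hE1', hE2', hno⟩ := hnc
    change ¬ conn p E E' at hno
    obtain ⟨S, hES⟩ := (isPGroup_of_ea hE1).exists_le_sylow
    -- a central subgroup of order p
    have hSnt : Nontrivial ↥(S : Subgroup G) := by
      rw [Subgroup.nontrivial_iff_ne_bot]
      intro h
      rw [h, le_bot_iff] at hES
      rw [hES, Subgroup.card_bot, pow_one] at hE2
      have := hp.two_le
      omega
    haveI := S.2.center_nontrivial
    have hdz : p ∣ Nat.card (Subgroup.center ↥(S : Subgroup G)) := by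
      rcases (S.2.to_subgroup (Subgroup.center ↥(S : Subgroup G))).card_eq_or_dvd with h | h
      · exfalso
        have := Subgroup.card_eq_one.mp h
        exact (Subgroup.nontrivial_iff_ne_bot _).mp inferInstance this
      · exact h
    obtain ⟨z, hz⟩ := exists_prime_orderOf_dvd_card' p hdz
    have hz' : orderOf (((z : ↥(S : Subgroup G)) : G)) = p := by
      rw [Subgroup.orderOf_coe, Subgroup.orderOf_coe, hz]
    obtain ⟨hZ1, hZ2⟩ := vertex_zpowers hz'
    set Z0 := Subgroup.zpowers (((z : ↥(S : Subgroup G)) : G)) with hZ0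
    have hadj : ∀ B : Subgroup G, B ≤ S → Cfsg.IsElementaryAbelian p B → p ^ 1 ≤ Nat.card B → R p B Z0 := by
      intro B hB h1 h2
      refine ⟨h1, h2, hZ1, hZ2, ?_⟩
      intro b hb c hc
      obtain ⟨k, rfl⟩ := Subgroup.mem_zpowers_iff.mp hc
      have h3 : Commute b ((z : ↥(S : Subgroup G)) : G) := by
        have := Subgroup.mem_center_iff.mp z.2 ⟨b, hB hb⟩
        exact congrArg Subtype.val this
      exact (h3.zpow_right k).eq
    have hinS : ∀ B : Subgroup G, B ≤ S → Cfsg.IsElementaryAbelian p B → p ^ 1 ≤ Nat.card B → conn p E B := by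
      intro B hB h1 h2
      exact Relation.ReflTransGen.trans (Relation.ReflTransGen.single (hadj E hES hE1 hE2))
        (Relation.ReflTransGen.single (R_symm p (hadj B hB h1 h2)))
    have hSH : (S : Subgroup G) ≤ stab p E := by
      intro s hs
      rw [mem_stab]
      apply hinS _ _ (ea_cj hE1) (by rw [card_cj]; exact hE2)
      intro y hy
      have h1 := hES (mem_cj.mp hy)
      have e : y = s * (s⁻¹ * y * s) * s⁻¹ := by group
      rw [e]
      exact mul_mem (mul_mem hs h1) (inv_mem hs)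
    have hinH : ∀ X : Subgroup G, X ≤ stab p E → Cfsg.IsElementaryAbelian p X → p ^ 1 ≤ Nat.card X → conn p E X := by
      intro X hX h1 h2
      obtain ⟨h, hh, hh2⟩ := Cfsg.Agent.Lib.Helper2Sylow.exists_conj_le_of_le hSH (isPGroup_of_ea h1) hX
      have h3 : cj h X ≤ S := by
        intro y hy
        have := hh2 _ (mem_cj.mp hy)
        have e : h * (h⁻¹ * y * h) * h⁻¹ = y := by group
        rwa [e] at this
      have h4 := hinS _ h3 (ea_cj h1) (by rw [card_cj]; exact h2)
      have h5 := conn_cj h⁻¹ h4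
      rw [cj_inv_cj] at h5
      exact Relation.ReflTransGen.trans (mem_stab.mp (inv_mem hh)) h5
    refine ⟨stab p E, ?_, ?_, ?_⟩
    · intro htop
      obtain ⟨S', hES'⟩ := (isPGroup_of_ea hE1').exists_le_sylow
      obtain ⟨g, hg⟩ := MulAction.exists_smul_eq G S' S
      have h1 : cj g E' ≤ S := by
        intro y hy
        have h2 := hES' (mem_cj.mp hy)
        rw [← hg]
        exact Cfsg.Agent.Lib.Helper2Sylow.mem_sylow_smul_iff.mpr h2
      have h2 := hinS _ h1 (ea_cj hE1') (by rw [card_cj]; exact hE2')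
      have h3 := conn_cj g⁻¹ h2
      rw [cj_inv_cj] at h3
      have h4 : g⁻¹ ∈ stab p E := by rw [htop]; trivial
      exact hno (Relation.ReflTransGen.trans (mem_stab.mp h4) h3)
    · exact (dvd_card_of_vertex hE1 hE2).trans (Subgroup.card_dvd_of_le (hES.trans hSH))
    · intro g hg hdvd
      apply hg
      obtain ⟨x, hx⟩ := exists_prime_orderOf_dvd_card' p hdvd
      have hx' : orderOf (x : G) = p := by rw [Subgroup.orderOf_coe, hx]
      obtain ⟨hX1, hX2⟩ := vertex_zpowers hx'
      have hxm := Subgroup.mem_inf.mp x.2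
      have h1 : Subgroup.zpowers (x : G) ≤ stab p E := Subgroup.zpowers_le.mpr hxm.1
      have h2 : Subgroup.zpowers (x : G) ≤ cj g (stab p E) := Subgroup.zpowers_le.mpr hxm.2
      have h3 : cj g⁻¹ (Subgroup.zpowers (x : G)) ≤ stab p E := by
        have := cj_mono (g := g⁻¹) h2
        rwa [cj_inv_cj] at this
      have h4 := hinH _ h1 hX1 hX2
      have h5 := hinH _ h3 (ea_cj hX1) (by rw [card_cj]; exact hX2)
      have h6 := conn_cj g h5
      rw [cj_cj_inv] at h6
      rw [mem_stab]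
      exact Relation.ReflTransGen.trans h4 (conn_symm h6)

end Cfsg.Agent.S1336
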