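import Cfsg.Statements.S1337
import Cfsg.Agent.S0126
import Cfsg.Agent.Lib.Helper3Chain
import Cfsg.Agent.Lib.Helper76FourGroup

set_option autoImplicit false
open Cfsg

namespace Cfsg.Agent.S1337

section aux
variable {P : Type*} [Group P]

theorem ea_comm {p : ℕ} {A : Subgroup P} (hA : Cfsg.IsElementaryAbelian p A) :
    ∀ a ∈ A, ∀ b ∈ A, a * b = b * a := fun a ha b hb =>
  congrArg Subtype.val (hA.1.is_comm.comm (⟨a, ha⟩ : A) ⟨b, hb⟩)

theorem ea_of {p : ℕ} {A : Subgroup P} (h1 : ∀ a ∈ A, ∀ b ∈ A, a * b = b * a)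
    (h2 : ∀ a ∈ A, a ^ p = 1) : Cfsg.IsElementaryAbelian p A :=
  ⟨⟨⟨fun a b => Subtype.ext (h1 a a.2 b b.2)⟩⟩, h2⟩

theorem ea_mono {p : ℕ} {A B : Subgroup P} (hB : Cfsg.IsElementaryAbelian p B) (h : A ≤ B) :
    Cfsg.IsElementaryAbelian p A :=
  ea_of (fun a ha b hb => ea_comm hB a (h ha) b (h hb)) (fun a ha => hB.2 a (h ha))

theorem ea_sup {p : ℕ} {A B : Subgroup P} (hA : Cfsg.IsElementaryAbelian p A)
    (hB : Cfsg.IsElementaryAbelian p B) (hc : ∀ a ∈ A, ∀ b ∈ B, a * b = b * a) :
    Cfsg.IsElementaryAbelian p (A ⊔ B) := by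
  have hBN : B ≤ Subgroup.normalizer (A : Set P) := by
    refine le_trans ?_ (Subgroup.centralizer_le_normalizer _)
    intro b hb
    exact Subgroup.mem_centralizer_iff.mpr (fun a ha => hc a ha b hb)
  have hmem : ∀ x ∈ A ⊔ B, ∃ a ∈ A, ∃ b ∈ B, x = a * b := by
    intro x hx
    rw [← SetLike.mem_coe, Subgroup.coe_mul_of_right_le_normalizer_left A B hBN] at hx
    obtain ⟨a, ha, b, hb, rfl⟩ := Set.mem_mul.mp hx
    exact ⟨a, ha, b, hb, rfl⟩
  apply ea_of
  · intro x hx y hy
    obtain ⟨e, he, b, hb, rfl⟩ := hmem x hx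
    obtain ⟨e', he', b', hb', rfl⟩ := hmem y hy
    calc e * b * (e' * b') = e * (b * e') * b' := by group
      _ = e * (e' * b) * b' := by rw [hc e' he' b hb]
      _ = (e * e') * (b * b') := by group
      _ = (e' * e) * (b' * b) := by rw [ea_comm hA e he e' he', ea_comm hB b hb b' hb']
      _ = e' * (e * b') * b := by group
      _ = e' * (b' * e) * b := by rw [hc e he b' hb']
      _ = e' * b' * (e * b) := by group
  · intro x hx
    obtain ⟨e, he, b, hb, rfl⟩ := hmem x hx
    rw [(show Commute e b from hc e he b hb).mul_pow, hA.2 e he, hB.2 b hb, one_mul]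

theorem not_rank_iff {p : ℕ} (C : Subgroup P) :
    ¬ Cfsg.PRankLE p 2 ↥C ↔
      ∃ F : Subgroup P, F ≤ C ∧ Cfsg.IsElementaryAbelian p F ∧ p ^ 2 < Nat.card F := by
  constructor
  · intro h
    unfold Cfsg.PRankLE at h
    push Not at h
    obtain ⟨A, hAc, hAe, hA⟩ := h
    refine ⟨A.map C.subtype, Subgroup.map_subtype_le _, ?_, ?_⟩
    · apply ea_of
      · rintro _ ⟨a, ha, rfl⟩ _ ⟨b, hb, rfl⟩
        exact congrArg Subtype.val (congrArg Subtype.val (hAc.is_comm.comm (⟨a, ha⟩ : A) ⟨b, hb⟩))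
      · rintro _ ⟨a, ha, rfl⟩
        exact congrArg Subtype.val (hAe a ha)
    · rw [Subgroup.card_map_of_injective C.subtype_injective]; exact hA
  · rintro ⟨F, hFC, hF, hcard⟩ h
    have h1 := h (F.subgroupOf C)
      ⟨⟨fun a b => Subtype.ext (Subtype.ext (ea_comm hF a.1.1 a.2 b.1.1 b.2))⟩⟩
      (fun a ha => Subtype.ext (hF.2 a.1 ha))
    rw [Nat.card_congr (Subgroup.subgroupOfEquivOfLe hFC).toEquiv] at h1
    exact absurd h1 (not_le.mpr hcard)

end aux

/-- intersecting with the centralizer of a normal subgroup of order `p ^ 2` -/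
theorem card_inf_centralizer {P : Type*} [Group P] [Finite P] {p : ℕ} [hp : Fact p.Prime]
    (hP : IsPGroup p P) (U : Subgroup P) [U.Normal] (hU2 : Nat.card U = p ^ 2)
    (F : Subgroup P) (hF : p ^ 2 < Nat.card F) :
    p ^ 2 ≤ Nat.card ↥(F ⊓ Subgroup.centralizer (U : Set P)) := by
  have hpp := hp.out
  have hidx : (Subgroup.centralizer (U : Set P)).index ≤ p := by
    have := Cfsg.Agent.Lib.Helper3Chain.index_centralizer_normal_le hP U 2 hU2
    simpa using this
  have hrel : (Subgroup.centralizer (U : Set P)).relIndex F ≤ p :=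
    le_trans (Nat.le_of_dvd (Nat.pos_of_ne_zero Subgroup.index_ne_zero_of_finite)
      (Subgroup.relIndex_dvd_index_of_normal _ _)) hidx
  have h1 : Nat.card ↥(F ⊓ Subgroup.centralizer (U : Set P)) *
      (Subgroup.centralizer (U : Set P)).relIndex F = Nat.card F := by
    have := Subgroup.relIndex_mul_relIndex ⊥ (F ⊓ Subgroup.centralizer (U : Set P)) F bot_le
      inf_le_left
    rw [Subgroup.relIndex_bot_left, Subgroup.relIndex_bot_left, Subgroup.inf_relIndex_left] at this
    exact this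
  obtain ⟨k, hk⟩ := IsPGroup.iff_card.mp (hP.to_subgroup F)
  have hk3 : 3 ≤ k := by
    rw [hk] at hF
    have := (Nat.pow_lt_pow_iff_right hpp.one_lt).mp hF
    omega
  have hF3 : p ^ 3 ≤ Nat.card F := by rw [hk]; exact Nat.pow_le_pow_right hpp.pos hk3
  by_contra hlt
  push Not at hlt
  have : Nat.card ↥(F ⊓ Subgroup.centralizer (U : Set P)) *
      (Subgroup.centralizer (U : Set P)).relIndex F < p ^ 2 * p :=
    Nat.mul_lt_mul_of_lt_of_le hlt hrel hpp.pos
  rw [h1, ← pow_succ] at this
  exact absurd hF3 (not_le.mpr this)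

/-- Let P be a finite p-group of p-rank greater than 2. Then P has a normal elementary abelian subgroup U of order p², and for every elementary abelian X ≤ P with |X| ≥ p²: X is joined to U by a chain of pairwise commuting elementary abelian subgroups of order ≥ p² if and only if C_P(X) has p-rank greater than 2. -/
theorem result {P : Type*} [Group P] [Finite P] (p : ℕ) [Fact p.Prime] (hP : IsPGroup p P) (hrk : ¬ Cfsg.PRankLE p 2 P) : ∃ U : Subgroup P, U.Normal ∧ Cfsg.IsElementaryAbelian p U ∧ Nat.card ↥U = p ^ 2 ∧ ∀ X : Subgroup P, Cfsg.IsElementaryAbelian p X → p ^ 2 ≤ Nat.card ↥X → (Relation.ReflTransGen (fun A B : Subgroup P => Cfsg.IsElementaryAbelian p A ∧ p ^ 2 ≤ Nat.card ↥A ∧ Cfsg.IsElementaryAbelian p B ∧ p ^ 2 ≤ Nat.card ↥B ∧ ∀ a ∈ A, ∀ b ∈ B, a * b = b * a) X U ↔ ¬ Cfsg.PRankLE p 2 ↥(Subgroup.centralizer (X : Set P))) := by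
  classical
  have hpp : p.Prime := Fact.out
  obtain ⟨E, -, hE, hEcard⟩ : ∃ F : Subgroup P, F ≤ ⊤ ∧ Cfsg.IsElementaryAbelian p F ∧
      p ^ 2 < Nat.card F := by
    unfold Cfsg.PRankLE at hrk
    push Not at hrk
    obtain ⟨A, hAc, hAe, hA⟩ := hrk
    exact ⟨A, le_top, ⟨hAc, hAe⟩, hA⟩
  obtain ⟨U, hUn, hU, hU2⟩ : ∃ U : Subgroup P, U.Normal ∧ Cfsg.IsElementaryAbelian p U ∧
      Nat.card U = p ^ 2 := by
    by_cases hp2 : p = 2
    · subst hp2
      rcases Cfsg.Agent.Lib.Helper76FourGroup.normal_four_or_cyclic_index_le_two hP with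
        ⟨V, hVn, hV4, hVe⟩ | ⟨a, _, hai, _⟩
      · refine ⟨V, hVn, ea_of ?_ hVe, by rw [hV4]; norm_num⟩
        intro a ha b hb
        have h1 := hVe a ha
        have h2 := hVe b hb
        have h3 := hVe (a * b) (V.mul_mem ha hb)
        rw [pow_two] at h1 h2 h3
        calc a * b = a * (a * b * (a * b)) * b := by rw [h3, mul_one]
          _ = (a * a) * (b * a) * (b * b) := by group
          _ = b * a := by rw [h1, h2, one_mul, mul_one]
      · have := Cfsg.Agent.Lib.Helper76FourGroup.card_le_four_of_cyclic_index_le_two a hai E hE.2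
        norm_num at hEcard
        omega
    · apply Cfsg.Agent.S0126.result hp2 hP
      intro hcyc
      have hEc : IsCyclic E := inferInstance
      obtain ⟨e, he⟩ := hEc.exists_generator
      have h1 : orderOf e = Nat.card E := orderOf_eq_card_of_forall_mem_zpowers he
      have h2 : orderOf e ≤ p := by
        apply orderOf_le_of_pow_eq_one hpp.pos
        exact Subtype.ext (hE.2 e e.2)
      have h3 : p ≤ p ^ 2 := by
        calc p = p ^ 1 := (pow_one p).symm
          _ ≤ p ^ 2 := Nat.pow_le_pow_right hpp.pos (by norm_num)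
      omega
  refine ⟨U, hUn, hU, hU2, ?_⟩
  intro X hX hXcard
  rw [not_rank_iff]
  constructor
  · intro hchain
    induction hchain using Relation.ReflTransGen.head_induction_on with
    | refl =>
      by_cases hUE : U ≤ E
      · exact ⟨E, fun e he => Subgroup.mem_centralizer_iff.mpr
          (fun u hu => ea_comm hE u (hUE hu) e he), hE, hEcard⟩
      · have hE0 := card_inf_centralizer hP U hU2 E hEcard
        have hE0ea : Cfsg.IsElementaryAbelian p (E ⊓ Subgroup.centralizer (U : Set P)) :=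
          ea_mono hE inf_le_left
        have hcomm : ∀ a ∈ U, ∀ b ∈ E ⊓ Subgroup.centralizer (U : Set P), a * b = b * a :=
          fun a ha b hb => Subgroup.mem_centralizer_iff.mp hb.2 a ha
        have hsup := ea_sup hU hE0ea hcomm
        refine ⟨U ⊔ (E ⊓ Subgroup.centralizer (U : Set P)), ?_, hsup, ?_⟩
        · intro x hx
          exact Subgroup.mem_centralizer_iff.mpr
            (fun u hu => ea_comm hsup u (Subgroup.mem_sup_left hu) x hx)
        · by_contra hle
          push Not at hle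
          have h1 : U = U ⊔ (E ⊓ Subgroup.centralizer (U : Set P)) :=
            Subgroup.eq_of_le_of_card_ge le_sup_left (by rw [hU2]; exact hle)
          have h2 : E ⊓ Subgroup.centralizer (U : Set P) ≤ U :=
            le_trans le_sup_right h1.ge
          have h3 : E ⊓ Subgroup.centralizer (U : Set P) = U :=
            Subgroup.eq_of_le_of_card_ge h2 (by rw [hU2]; exact hE0)
          exact hUE (le_trans h3.ge inf_le_left)
    | head h' _ ih =>
      rename_i A B _hch
      obtain ⟨hA, hAcard, hB, hBcard, hAB⟩ := h'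
      have hsup := ea_sup hA hB hAB
      by_cases hc : p ^ 2 < Nat.card ↥(A ⊔ B)
      · exact ⟨A ⊔ B, fun x hx => Subgroup.mem_centralizer_iff.mpr
          (fun u hu => ea_comm hsup u (Subgroup.mem_sup_left hu) x hx), hsup, hc⟩
      · push Not at hc
        have h1 : A = A ⊔ B := Subgroup.eq_of_le_of_card_ge le_sup_left (le_trans hc hAcard)
        have h2 : B = A ⊔ B := Subgroup.eq_of_le_of_card_ge le_sup_right (le_trans hc hBcard)
        have h3 : A = B := h1.trans h2.symm
        rw [h3]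
        exact ih hB hBcard
  · rintro ⟨F, hFC, hF, hFcard⟩
    have hF0 := card_inf_centralizer hP U hU2 F hFcard
    have hF0ea : Cfsg.IsElementaryAbelian p (F ⊓ Subgroup.centralizer (U : Set P)) :=
      ea_mono hF inf_le_left
    refine Relation.ReflTransGen.head (b := F) ⟨hX, hXcard, hF, hFcard.le, ?_⟩ ?_
    · intro a ha b hb
      exact Subgroup.mem_centralizer_iff.mp (hFC hb) a ha
    refine Relation.ReflTransGen.head (b := F ⊓ Subgroup.centralizer (U : Set P))
      ⟨hF, hFcard.le, hF0ea, hF0, ?_⟩ ?_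
    · intro a ha b hb
      exact ea_comm hF a ha b hb.1
    refine Relation.ReflTransGen.single ⟨hF0ea, hF0, hU, hU2.ge, ?_⟩
    intro a ha b hb
    exact (Subgroup.mem_centralizer_iff.mp ha.2 b hb).symm

end Cfsg.Agent.S1337
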