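import Cfsg.Statements.S1343
import Cfsg.Agent.Lib.Helper29Layer

set_option autoImplicit false
open Cfsg

namespace Cfsg.Agent.S1343

/-- Let X be finite. Then L*_{2'}(X) = L_{2'}(X) ⊔ F for some subgroup F of odd order normalized by a Sylow 2-subgroup of X. -/
theorem result {X : Type*} [Group X] [Finite X] : ∃ F : Subgroup X, Odd (Nat.card ↥F) ∧ (∃ S : Sylow 2 X, (S : Subgroup X) ≤ Subgroup.normalizer (F : Set X)) ∧ Cfsg.extendedTwoLayer X = Cfsg.pLayer 2 X ⊔ F := by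
  have : Fact (Nat.Prime 2) := ⟨Nat.prime_two⟩
  obtain ⟨S⟩ : Nonempty (Sylow 2 X) := inferInstance
  have hN : (Lib.Helper29Layer.NN X).Normal := Lib.Helper29Layer.NN_normal
  have hT : Lib.Helper40Sylow.IsSylowIn 2 ((S : Subgroup X) ⊓ Lib.Helper29Layer.NN X)
      (Lib.Helper29Layer.NN X) :=
    (Lib.Helper40Sylow.isSylowIn_top S).inf_normal le_top
      (by rw [Subgroup.normalizer_eq_top_iff.mpr hN])
  have hO : (oddCore X).Normal := inferInstance
  refine ⟨oddCore X ⊔ Lib.Helper29Layer.Dof ((S : Subgroup X) ⊓ Lib.Helper29Layer.NN X), ?_,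
    ⟨S, ?_⟩, ?_⟩
  · have h1 : (Nat.card (oddCore X ⊔
        Lib.Helper29Layer.Dof ((S : Subgroup X) ⊓ Lib.Helper29Layer.NN X) : Subgroup X)).Coprime 2 := by
      refine Nat.Coprime.coprime_dvd_left (Lib.Helper29Basic.card_sup_dvd _ _)
        (Nat.Coprime.mul_left (Lib.Helper29Basic.card_pPrimeCore_coprime 2) ?_)
      rw [Lib.Helper29Layer.Dof_eq]
      exact Lib.Helper29Layer.card_coreIn_coprime 2 _
    exact Nat.Coprime.odd_of_right h1
  · intro s hs
    rw [Lib.Helper40Sylow.mem_normalizer_iff_cj]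
    unfold Lib.Helper40Sylow.cj
    rw [Subgroup.map_sup]
    change Lib.Helper40Sylow.cj s _ ⊔ Lib.Helper40Sylow.cj s _ = _
    rw [Lib.Helper29Layer.cj_eq_of_normal hO, Lib.Helper29Layer.cj_Dof, Lib.Helper40Sylow.cj_inf,
      Lib.Helper29Layer.cj_eq_of_normal hN, Lib.Helper40Sylow.cj_eq_self_of_mem hs]
  · rw [Lib.Helper29Layer.extendedTwoLayer_eq_of_isSylowIn hT, sup_assoc]

end Cfsg.Agent.S1343
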