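import Cfsg.Statements.S1344
import Mathlib
import Cfsg.Agent.S1272
import Cfsg.Agent.S1274
import Cfsg.Agent.S1278
import Cfsg.Agent.S1289
import Cfsg.Agent.Lib.Helper29Layer

set_option autoImplicit false
open Cfsg

namespace Cfsg.Agent.S1344

open Cfsg.Agent.Lib.Helper40Sylow Cfsg.Agent.Lib.Helper29Basic Cfsg.Agent.Lib.Helper29Layer
open scoped commutatorElement

/-- A perfect finite group in which `N(P) ≤ C(P)` for a Sylow subgroup `P` has `P = 1`. -/
theorem sylow_eq_bot_of_perfect {K : Type*} [Group K] [Finite K] (hperf : commutator K = ⊤)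
    (p : ℕ) [Fact p.Prime] (P : Sylow p K)
    (hP : Subgroup.normalizer ((P : Subgroup K) : Set K) ≤ Subgroup.centralizer ((P : Subgroup K) : Set K)) :
    (P : Subgroup K) = ⊥ := by
  have hcompl := MonoidHom.ker_transferSylow_isComplement' P hP
  have hker : (MonoidHom.transferSylow P hP).ker = ⊤ := by
    rw [eq_top_iff, ← hperf, commutator_def, Subgroup.commutator_le]
    intro a _ b _
    rw [MonoidHom.mem_ker, map_commutatorElement, commutatorElement_eq_one_iff_mul_comm]
    apply Subtype.ext
    exact (hP (Subgroup.le_normalizer (MonoidHom.transferSylow P hP b).2)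
      (MonoidHom.transferSylow P hP a) (MonoidHom.transferSylow P hP a).2)
  rw [hker] at hcompl
  have h1 := hcompl.card_mul_card
  rw [Subgroup.card_top] at h1
  have h2 : Nat.card (P : Subgroup K) = 1 := by
    have hpos : 0 < Nat.card K := Nat.card_pos
    exact Nat.eq_of_mul_eq_mul_left hpos (by rw [h1, mul_one])
  exact Subgroup.card_eq_one.mp h2


/-- Let K be a 2-component of the finite group X. Then K ≤ L*_{2'}(X) and K is normal in L*_{2'}(X). -/
theorem result {X : Type*} [Group X] [Finite X] (K : Subgroup X) (hK : Cfsg.IsPComponent 2 K) : K ≤ Cfsg.extendedTwoLayer X ∧ (K.subgroupOf (Cfsg.extendedTwoLayer X)).Normal := by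
  have : Fact (Nat.Prime 2) := ⟨Nat.prime_two⟩
  have hKL : K ≤ pLayer 2 X := le_sSup hK
  have hKE : K ≤ extendedTwoLayer X := by
    rw [extendedTwoLayer_eq]
    exact hKL.trans (le_sup_left.trans le_sup_left)
  refine ⟨hKE, (Subgroup.normal_subgroupOf_iff_le_normalizer hKE).mpr ?_⟩
  have hLN : pLayer 2 X ≤ Subgroup.normalizer (K : Set X) :=
    (Subgroup.normal_subgroupOf_iff_le_normalizer hKL).mp (Cfsg.Agent.S1274.result 2 K hK)
  rw [extendedTwoLayer_eq]
  refine sup_le (sup_le hLN ?_) (iSup_le fun T => ?_)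
  · intro g hg
    rw [mem_normalizer_iff_cj]
    have hu := (Cfsg.Agent.S1272.result (X := X) 2).1 _ hK.2.1
    refine hu.unique ⟨isPComponent_cj hK g, ?_⟩ ⟨hK, rfl⟩
    rw [map_cj]
    have : QuotientGroup.mk' (pPrimeCore 2 X) g = 1 := (QuotientGroup.eq_one_iff g).mpr hg
    rw [this, cj_one]
  · intro d hd
    by_contra hdK
    rw [mem_normalizer_iff_cj] at hdK
    set T' := (T : Subgroup (NN X)).map (NN X).subtype with hT'
    have hT : IsSylowIn 2 T' (NN X) := isSylowIn_of_sylow T
    have hLnormal : (pLayer 2 X).Normal := pLayer_normal 2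
    have hTL : IsSylowIn 2 (T' ⊓ pLayer 2 X) (pLayer 2 X) :=
      hT.inf_normal le_sup_left (by rw [Subgroup.normalizer_eq_top_iff.mpr hLnormal]; exact le_top)
    have hTK : IsSylowIn 2 (T' ⊓ pLayer 2 X ⊓ K) K := hTL.inf_normal hKL hLN
    set TK := T' ⊓ pLayer 2 X ⊓ K with hTKdef
    have hdc : d ∈ Subgroup.centralizer (T' : Set X) := by
      obtain ⟨y, -, rfl⟩ := hd
      exact y.2
    have hKd : IsPComponent 2 (cj d K) := isPComponent_cj hK d
    have hcomm := (Cfsg.Agent.S1278.result K (cj d K) hK hKd (Ne.symm hdK)).1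
    have hTKd : TK ≤ cj d K := by
      intro t ht
      have htT : t ∈ T' := (Subgroup.mem_inf.mp (Subgroup.mem_inf.mp ht).1).1
      have htK : t ∈ K := (Subgroup.mem_inf.mp ht).2
      have h1 : d * t * d⁻¹ = t := by
        rw [← (Subgroup.mem_centralizer_iff.mp hdc) t htT, mul_inv_cancel_right]
      rw [← h1]
      exact conj_mem_cj htK
    have hdisj : TK ⊓ (oddCore K).map K.subtype = ⊥ := by
      obtain ⟨n, hn⟩ := IsPGroup.iff_card.mp hTK.2.1
      apply (Subgroup.disjoint_of_coprime_natCard _).eq_bot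
      rw [hn, Subgroup.card_map_of_injective K.subtype_injective]
      exact (Nat.Coprime.pow_right n (card_pPrimeCore_coprime 2)).symm
    obtain ⟨-, hperf, hdvd, -⟩ := Cfsg.Agent.S1289.result 2 K hK
    have hperf' : commutator K = ⊤ := (Subgroup.isPerfect_iff.mpr hperf).commutator_eq_top
    have hP : Subgroup.normalizer ((hTK.toSylow : Subgroup K) : Set K) ≤
        Subgroup.centralizer ((hTK.toSylow : Subgroup K) : Set K) := by
      intro n hn
      rw [Subgroup.mem_centralizer_iff]
      intro t ht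
      have ht' : (t : X) ∈ TK := by
        rw [SetLike.mem_coe, hTK.coe_toSylow] at ht
        exact Subgroup.mem_subgroupOf.mp ht
      have hnt : ((n * t * n⁻¹ : K) : X) ∈ TK := by
        have := (hn t).mp ht
        rw [SetLike.mem_coe, hTK.coe_toSylow] at this
        exact Subgroup.mem_subgroupOf.mp this
      have hc1 : ⁅(n : X), (t : X)⁆ ∈ TK := by
        rw [commutatorElement_def]
        exact mul_mem hnt (inv_mem ht')
      have hc2 : ⁅(n : X), (t : X)⁆ ∈ (oddCore K).map K.subtype :=
        (hcomm (Subgroup.commutator_mem_commutator n.2 (hTKd ht'))).1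
      have hc3 : ⁅(n : X), (t : X)⁆ ∈ TK ⊓ (oddCore K).map K.subtype := Subgroup.mem_inf.mpr ⟨hc1, hc2⟩
      rw [hdisj, Subgroup.mem_bot, commutatorElement_eq_one_iff_mul_comm] at hc3
      exact Subtype.ext hc3.symm
    exact (hTK.toSylow).ne_bot_of_dvd_card hdvd (sylow_eq_bot_of_perfect hperf' 2 _ hP)

end Cfsg.Agent.S1344
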