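import Cfsg.Statements.S1348
import Cfsg.Agent.Lib.Helper13Std

set_option autoImplicit false
open Cfsg

namespace Cfsg.Agent.S1348

/-- Let F be a finite field of odd order, n ≥ 7 odd, and t ∈ SL(n, F) the diagonal matrix with entries −1, …, −1, 1. Then E(C(t)) is a standard subgroup of SL(n, F). -/
theorem result {F : Type*} [Field F] [Fintype F] [DecidableEq F] (hF : Odd (Fintype.card F)) (n : ℕ) (hn : 7 ≤ n) (hodd : Odd n) (t : Matrix.SpecialLinearGroup (Fin n) F) (ht : (t : Matrix (Fin n) (Fin n) F) = Matrix.diagonal (fun i : Fin n => if (i : ℕ) + 1 = n then (1 : F) else -1)) : Cfsg.IsStandardSubgroup ((Cfsg.layer ↥(Subgroup.centralizer ({t} : Set (Matrix.SpecialLinearGroup (Fin n) F)))).map (Subgroup.centralizer ({t} : Set (Matrix.SpecialLinearGroup (Fin n) F))).subtype) := by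
  obtain ⟨m, rfl⟩ : ∃ m, n = m + 1 := ⟨n - 1, by omega⟩
  have hev : Even m := by
    rcases Nat.even_or_odd m with h | h
    · exact h
    · exfalso
      have : Even (m + 1) := h.add_one
      exact (Nat.not_even_iff_odd.2 hodd) this
  have h2 : (2 : F) ≠ 0 := by
    intro h
    have hc : ringChar F = 2 := by
      have hd : ringChar F ∣ 2 := by
        rw [← ringChar.spec]
        exact_mod_cast h
      rcases (Nat.dvd_prime Nat.prime_two).1 hd with h1 | h1
      · exfalso
        have := CharP.ringChar_ne_one (R := F)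
        exact this h1
      · exact h1
    have := FiniteField.even_card_of_char_two hc
    exact (Nat.not_even_iff_odd.2 hF) (Nat.even_iff.2 this)
  apply Cfsg.Agent.Lib.Helper13Std.standard_AA h2 (by omega) hev
  rw [ht]
  unfold Cfsg.Agent.Lib.Helper13Std.dg
  congr 1
  ext i
  by_cases hi : i = Fin.last m
  · subst hi
    simp
  · have : (i : ℕ) ≠ m := fun h => hi (Fin.ext h)
    simp [hi, this]

end Cfsg.Agent.S1348
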