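import Cfsg.Statements.S1386
import Cfsg.Agent.Lib.Helper29Basic

set_option autoImplicit false
open Cfsg

namespace Cfsg.Agent.S1386

/-- Let G be a finite group, W₁, W₂ subgroups forming a self-normalizing cyclic pair, S a subgroup with W₂ ≤ S and W₁ a complement to S' in S, and (W₁, U, W₂') type-P data for S. Then W₂' = W₂ (that is, C_{S'}(W₁) = W₂). -/
theorem result {G : Type*} [Group G] [Finite G] (W₁ W₂ S U W₂' : Subgroup G) (hW : Cfsg.IsSelfNormalizingCyclic W₁ W₂)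
    (hSW : Cfsg.IsComplIn ⁅S, S⁆ W₁ S) (hW₂S : W₂ ≤ S) (hP : Cfsg.IsTypePWith S W₁ U W₂') :
    W₂' = W₂ := by
  obtain ⟨hW1, hW2, hW12, hcomm, hcyc, hnorm⟩ := hW
  obtain ⟨-, -, hW12', hcomm', hcyc', -⟩ := hP.selfNormalizing
  obtain ⟨x, hx, hx1⟩ := Subgroup.ne_bot_iff_exists_ne_one.mp hW1 |>.elim
    (fun x hx => (⟨x.1, x.2, fun h => hx (Subtype.ext h)⟩ : ∃ x : G, x ∈ W₁ ∧ x ≠ 1))
  obtain ⟨w, hw, hw1⟩ := Subgroup.ne_bot_iff_exists_ne_one.mp hW2 |>.elim
    (fun x hx => (⟨x.1, x.2, fun h => hx (Subtype.ext h)⟩ : ∃ x : G, x ∈ W₂ ∧ x ≠ 1))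
  have step1 : W₂ ≤ W₁ ⊔ W₂' := by
    intro v hv
    obtain ⟨c, hc, a, ha, hv'⟩ := hSW.2.2.2 v (hW₂S hv)
    have hcx : c ∈ ⁅S, S⁆ ⊓ Subgroup.centralizer ({x} : Set G) := by
      refine Subgroup.mem_inf.mpr ⟨hc, ?_⟩
      rw [Subgroup.mem_centralizer_iff]
      intro y hy
      rw [Set.mem_singleton_iff] at hy
      subst hy
      have h1 : y * v = v * y := hcomm y hx v hv
      have h2 : y * a = a * y := Lib.Helper29Basic.comm_of_cyclic hP.W₁_cyclic hx ha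
      have h3 : c = v * a⁻¹ := by rw [hv', mul_inv_cancel_right]
      have h4 : y * a⁻¹ = a⁻¹ * y := by
        rw [eq_inv_mul_iff_mul_eq, ← mul_assoc, ← h2, mul_inv_cancel_right]
      rw [h3, ← mul_assoc, h1, mul_assoc, h4, mul_assoc]
    rw [hP.W₂_centralizer x hx hx1] at hcx
    rw [hv']
    exact mul_mem (Subgroup.mem_sup_right hcx) (Subgroup.mem_sup_left ha)
  have hxw : x * w ∈ W₁ ⊔ W₂' := mul_mem (Subgroup.mem_sup_left hx) (step1 hw)
  have hX : ({x * w} : Set G) ⊆ (↑(W₁ ⊔ W₂) : Set G) \ (↑W₁ ∪ ↑W₂) := by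
    intro y hy
    rw [Set.mem_singleton_iff] at hy
    subst hy
    refine ⟨mul_mem (Subgroup.mem_sup_left hx) (Subgroup.mem_sup_right hw), ?_⟩
    rintro (h | h)
    · have : w ∈ W₁ ⊓ W₂ := Subgroup.mem_inf.mpr ⟨(Subgroup.mul_mem_cancel_left W₁ hx).mp h, hw⟩
      rw [hW12, Subgroup.mem_bot] at this
      exact hw1 this
    · have : x ∈ W₁ ⊓ W₂ := Subgroup.mem_inf.mpr ⟨hx, (Subgroup.mul_mem_cancel_right W₂ hw).mp h⟩
      rw [hW12, Subgroup.mem_bot] at this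
      exact hx1 this
  have hN := hnorm _ hX (Set.singleton_nonempty _)
  have step2 : W₁ ⊔ W₂' ≤ W₁ ⊔ W₂ := by
    intro g hg
    rw [← hN]
    have hc : g * (x * w) = (x * w) * g := Lib.Helper29Basic.comm_of_cyclic hcyc' hg hxw
    intro n
    simp only [Set.mem_singleton_iff]
    constructor
    · rintro rfl
      rw [hc, mul_inv_cancel_right]
    · intro h
      have : g * n = g * (x * w) := by
        rw [hc, ← h, inv_mul_cancel_right]
      exact mul_left_cancel this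
  have heq : W₁ ⊔ W₂ = W₁ ⊔ W₂' := le_antisymm (sup_le le_sup_left step1) step2
  have c1 := Lib.Helper29Basic.card_of_complIn (Lib.Helper29Basic.complIn_sup_of_commute hW12 hcomm)
  have c2 := Lib.Helper29Basic.card_of_complIn (Lib.Helper29Basic.complIn_sup_of_commute hW12' hcomm')
  rw [heq, c2] at c1
  have hpos : 0 < Nat.card W₁ := Nat.card_pos
  have c3 : Nat.card W₂' = Nat.card W₂ := Nat.eq_of_mul_eq_mul_left hpos c1
  exact Lib.Helper29Basic.eq_of_card_eq_of_le_cyclic hcyc' le_sup_right step1 c3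

end Cfsg.Agent.S1386
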