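import Cfsg.Statements.S1387
import Cfsg.Agent.Lib.Helper29Basic

set_option autoImplicit false
open Cfsg

namespace Cfsg.Agent.S1387

/-- Let M be a subgroup of a finite group G with type-P data (W₁, U, W₂) and H = M_F. Then the Fitting subgroup F(M) is generated by H and the centralizer of H in U. -/
theorem result {G : Type*} [Group G] [Finite G] (M W₁ U W₂ : Subgroup G) (hP : Cfsg.IsTypePWith M W₁ U W₂) :
    Cfsg.fittingOf M = Cfsg.fittingHallOf M ⊔ (U ⊓ Subgroup.centralizer (Cfsg.fittingHallOf M : Set G)) := by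
  have hUM : U ≤ M := hP.U_compl.2.1.trans hP.W₁_compl.1
  apply le_antisymm
  · rw [← hP.fitting_eq]
    refine sup_le le_sup_left ?_
    intro c hc
    have hc' : c ∈ ⁅M, M⁆ := hP.fitting_le (hP.fitting_eq ▸ Subgroup.mem_sup_right hc)
    obtain ⟨h, hh, u, hu, rfl⟩ := hP.U_compl.2.2.2 c hc'
    have hu' := Lib.Helper29Basic.typeP_mem_centralizer hP hh hu (Subgroup.mem_inf.mp hc).2
    exact mul_mem (Subgroup.mem_sup_left hh) (Subgroup.mem_sup_right (Subgroup.mem_inf.mpr ⟨hu, hu'⟩))
  · rw [← hP.fitting_eq]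
    exact sup_le_sup_left (inf_le_inf_right _ hUM) _

end Cfsg.Agent.S1387
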