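import Cfsg.Statements.S1388
import Cfsg.Agent.Lib.Helper29Basic

set_option autoImplicit false
open Cfsg

namespace Cfsg.Agent.S1388

/-- Let M be a subgroup of a finite group G with type-P data (W₁, U, W₂) and H = M_F. Then the derived subgroup of U centralizes H, and if U ≠ 1 then U does not centralize H. -/
theorem result {G : Type*} [Group G] [Finite G] (M W₁ U W₂ : Subgroup G) (hP : Cfsg.IsTypePWith M W₁ U W₂) :
    ⁅U, U⁆ ≤ Subgroup.centralizer (Cfsg.fittingHallOf M : Set G) ∧ (U ≠ ⊥ → ¬ U ≤ Subgroup.centralizer (Cfsg.fittingHallOf M : Set G)) := by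
  have hUM' : U ≤ ⁅M, M⁆ := hP.U_compl.2.1
  have hUM : U ≤ M := hUM'.trans hP.W₁_compl.1
  constructor
  · intro u hu
    have huU : u ∈ U := by
      have : ⁅U, U⁆ ≤ U := Subgroup.commutator_le.mpr (fun a ha b hb =>
        mul_mem (mul_mem (mul_mem ha hb) (inv_mem ha)) (inv_mem hb))
      exact this hu
    have h1 : u ∈ fittingHallOf M ⊔ (M ⊓ Subgroup.centralizer (fittingHallOf M : Set G)) :=
      hP.derived_two_le (Subgroup.commutator_mono hUM' hUM' hu)
    have hLE : M ⊓ Subgroup.centralizer (fittingHallOf M : Set G) ≤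
        Subgroup.normalizer (fittingHallOf M : Set G) := by
      refine inf_le_right.trans ?_
      apply Lib.Helper29Basic.le_normalizer_of_commute
      intro a ha b hb
      exact (Subgroup.mem_centralizer_iff.mp hb) a ha
    have h2 : u ∈ ((fittingHallOf M ⊔ (M ⊓ Subgroup.centralizer (fittingHallOf M : Set G)) :
        Subgroup G) : Set G) := h1
    rw [Subgroup.coe_mul_of_right_le_normalizer_left _ _ hLE] at h2
    obtain ⟨h, hh, c, hc, rfl⟩ := Set.mem_mul.mp h2
    have h3 : h⁻¹ * (h * c) ∈ Subgroup.centralizer (fittingHallOf M : Set G) := by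
      rw [inv_mul_cancel_left]; exact (Subgroup.mem_inf.mp hc).2
    exact Lib.Helper29Basic.typeP_mem_centralizer hP (inv_mem hh) huU h3
  · intro hU1 hUC
    apply hU1
    have hcomm : ∀ a ∈ U, ∀ b ∈ fittingHallOf M, a * b = b * a := fun a ha b hb =>
      ((Subgroup.mem_centralizer_iff.mp (hUC ha)) b hb).symm
    have hnorm : M ≤ Subgroup.normalizer (U : Set G) := by
      intro m hm
      obtain ⟨d, hd, w, hw, rfl⟩ := hP.W₁_compl.2.2.2 m hm
      obtain ⟨h, hh, u, hu, rfl⟩ := hP.U_compl.2.2.2 d hd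
      exact mul_mem (mul_mem (Lib.Helper29Basic.le_normalizer_of_commute hcomm hh)
        (Subgroup.le_normalizer hu)) (hP.U_normal hw)
    have hN : (U.subgroupOf M).Normal := (Subgroup.normal_subgroupOf_iff_le_normalizer hUM).mpr hnorm
    have hnil : Group.IsNilpotent (U.subgroupOf M) :=
      (Group.isNilpotent_congr (Subgroup.subgroupOfEquivOfLe hUM)).mpr hP.U_nilpotent
    have c1 := Lib.Helper29Basic.card_of_complIn hP.U_compl
    have c2 := Lib.Helper29Basic.card_of_complIn hP.W₁_compl
    have hcard : Nat.card (U.subgroupOf M) = Nat.card U :=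
      Nat.card_congr (Subgroup.subgroupOfEquivOfLe hUM).toEquiv
    have hidx : (U.subgroupOf M).index = Nat.card (fittingHallOf M) * Nat.card W₁ := by
      have h3 := Lib.Helper29Basic.card_mul_relIndex hUM
      rw [c2, c1] at h3
      have h4 : Nat.card U * U.relIndex M = Nat.card U * (Nat.card (fittingHallOf M) * Nat.card W₁) := by
        rw [h3]; ring
      exact Nat.eq_of_mul_eq_mul_left Nat.card_pos h4
    have hW : (Nat.card W₁).Coprime (Nat.card U) := by
      have h3 := Lib.Helper29Basic.card_mul_relIndex hP.W₁_compl.2.1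
      rw [c2, c1] at h3
      have h4 : Nat.card W₁ * W₁.relIndex M = Nat.card W₁ * (Nat.card (fittingHallOf M) * Nat.card U) := by
        rw [h3]; ring
      have h5 := Nat.eq_of_mul_eq_mul_left Nat.card_pos h4
      have h6 := hP.W₁_hall
      rw [h5] at h6
      exact Nat.Coprime.coprime_mul_left_right h6
    have hcop : (Nat.card (U.subgroupOf M)).Coprime (U.subgroupOf M).index := by
      rw [hcard, hidx]
      exact Nat.Coprime.mul_right (Lib.Helper29Basic.typeP_coprime_H_U hP).symm hW.symm
    have hle : U.subgroupOf M ≤ fittingHall M := le_sSup ⟨hN, hnil, hcop⟩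
    rw [eq_bot_iff]
    intro u hu
    have h1 : (⟨u, hUM hu⟩ : M) ∈ fittingHall M := hle (Subgroup.mem_subgroupOf.mpr hu)
    have h2 : u ∈ fittingHallOf M := ⟨⟨u, hUM hu⟩, h1, rfl⟩
    have h3 : u ∈ fittingHallOf M ⊓ U := Subgroup.mem_inf.mpr ⟨h2, hu⟩
    rwa [hP.U_compl.2.2.1] at h3

end Cfsg.Agent.S1388
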