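import Cfsg.Statements.S1394
import Cfsg.Agent.Lib.Helper30Trans

set_option autoImplicit false
open Cfsg

namespace Cfsg.Agent.S1394

open Subgroup Cfsg.Agent.Lib.Helper30Trans

/-- Let G be a minimal simple group of odd order, A a subgroup satisfying the transitivity hypothesis whose centre has rank at least 2, K = O_{π(A)'}(C_G(A)), and q a prime dividing the order of C_G(A) but not that of A. Then any two maximal A-invariant q-subgroups of G are conjugate by an element of K. -/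
theorem result {G : Type*} [Group G] [Finite G] (hG : Cfsg.IsMinSimpleOddOrder G)
    (A : Subgroup G) (hA : Cfsg.TransitivityHypothesis A) (hZ : ¬ Cfsg.RankLE 1 ↥(A ⊓ Subgroup.centralizer (A : Set G)))
    (q : ℕ) (hq : q.Prime) (hqA : ¬ q ∣ Nat.card A) (hqC : q ∣ Nat.card (Subgroup.centralizer (A : Set G))) :
    ∀ Q₁ ∈ Cfsg.maxInvSubgroups ⊤ A {q}, ∀ Q₂ ∈ Cfsg.maxInvSubgroups ⊤ A {q}, ∃ k ∈ Cfsg.piCoreOf (Cfsg.primesNotDvd (Nat.card A)) (Subgroup.centralizer (A : Set G)), Q₂ = Q₁.map (MulAut.conj k).toMonoidHom := by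
  have : Fact q.Prime := ⟨hq⟩
  unfold RankLE at hZ
  push Not at hZ
  obtain ⟨p, hp, hpr⟩ := hZ
  have : Fact p.Prime := ⟨hp⟩
  obtain ⟨B, hBZ, hBc, hBp, hBcard⟩ := exists_elemAb_of_not_pRankLE hpr
  rw [pow_one] at hBcard
  have hBA : B ≤ A := le_trans hBZ inf_le_left
  have hBne : B ≠ ⊥ := by
    intro h
    rw [h, card_bot] at hBcard
    have := hp.pos
    omega
  have hpA : p ∣ Nat.card A := dvd_card_of_exponent hp hBA hBp hBne
  have hpq : p ≠ q := fun h => hqA (h ▸ hpA)
  have hnd : ∀ Q ∈ maxInvSubgroups ⊤ A {q}, ¬ p ∣ Nat.card Q := by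
    intro Q hQ hdvd
    exact hpq (hQ.1.2.1 p hp hdvd)
  -- an element of order q centralizing A
  obtain ⟨x, hx⟩ := exists_prime_orderOf_dvd_card' q hqC
  have hx1 : (x : G) ≠ 1 := by
    intro h
    have : x = 1 := Subtype.ext h
    rw [this, orderOf_one] at hx
    exact hq.one_lt.ne hx
  have hxq : IsPGroup q (zpowers (x : G)) := by
    apply IsPGroup.of_card (n := 1)
    rw [Nat.card_zpowers, pow_one, Subgroup.orderOf_coe, hx]
  have hxA : A ≤ normalizer ((zpowers (x : G) : Subgroup G) : Set G) := by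
    refine le_trans ?_ (centralizer_le_normalizer _)
    rw [le_centralizer_iff, zpowers_le]
    exact x.2
  obtain ⟨Qs, hQs, hxQs⟩ := exists_max_ge (mem_inv_of_isPGroup (H := ⊤) le_top hxq hxA)
  have hxQ : (x : G) ∈ Qs := hxQs (mem_zpowers _)
  have key : ∀ Q ∈ maxInvSubgroups ⊤ A {q},
      Rel (piCoreOf (primesNotDvd (Nat.card A)) (centralizer (A : Set G))) Q Qs := by
    intro Q hQ
    have hb : Q ≠ ⊥ := by
      intro h
      have h1 : Qs = Q := hQ.2 Qs hQs.1 (h ▸ bot_le)
      rw [h1, h, mem_bot] at hxQ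
      exact hx1 hxQ
    obtain ⟨B₁, hB₁, hi₁, hc₁⟩ := exists_hyperplane hBc hBp (hnd Q hQ) (le_trans hBA hQ.1.2.2) hb
    have hB₁ne : B₁ ≠ ⊥ := by
      intro h
      rw [h, relIndex_bot_left] at hi₁
      omega
    obtain ⟨b, hbB₁, hb1⟩ := exists_ne_one_of_ne_bot' hB₁ne
    have hbZ : b ∈ centralizer (A : Set G) := (hBZ (hB₁ hbB₁)).2
    have hAH : A ≤ centralizer ({b} : Set G) := by
      intro a ha
      rw [mem_centralizer_singleton_iff]
      exact (mem_centralizer_iff.mp hbZ) a ha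
    have h1 : Q ⊓ centralizer (B₁ : Set G) ≤ centralizer ({b} : Set G) ⊓ Q := by
      refine le_inf (le_trans inf_le_right (centralizer_le ?_)) inf_le_left
      intro y hy
      rw [Set.mem_singleton_iff.mp hy]; exact hbB₁
    have h2 : centralizer ({b} : Set G) ⊓ Qs ≠ ⊥ := by
      intro h
      have : (x : G) ∈ centralizer ({b} : Set G) ⊓ Qs := by
        refine Subgroup.mem_inf.mpr ⟨?_, hxQ⟩
        rw [mem_centralizer_singleton_iff]
        exact ((mem_centralizer_iff.mp x.2) b (hBA (hB₁ hbB₁))).symm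
      rw [h, mem_bot] at this
      exact hx1 this
    exact rel_of_common_overgroup hG hA hqA hQ hQs (centralizer_singleton_ne_top hG hb1) hAH
      (ne_bot_of_le_ne_bot hc₁ h1) h2
  intro Q₁ h₁ Q₂ h₂
  exact (key Q₁ h₁).trans (key Q₂ h₂).symm

end Cfsg.Agent.S1394
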