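import Cfsg.Statements.S1441

set_option autoImplicit false
open Cfsg

namespace Cfsg.Agent.S1441

open scoped commutatorElement

theorem conj_pow_of_commute {G : Type*} [Group G] {x h z : G} (hz : x * h * x⁻¹ = h * z)
    (hc : Commute x z) (k : ℕ) : x ^ k * h * (x ^ k)⁻¹ = h * z ^ k := by
  induction k with
  | zero => simp
  | succ k ih =>
    have h1 : x ^ (k + 1) * h * (x ^ (k + 1))⁻¹ = x * (x ^ k * h * (x ^ k)⁻¹) * x⁻¹ := by
      rw [pow_succ']; group
    rw [h1, ih]
    have h2 : x * (h * z ^ k) * x⁻¹ = (x * h * x⁻¹) * (x * z ^ k * x⁻¹) := by group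
    rw [h2, hz]
    have h3 : x * z ^ k * x⁻¹ = z ^ k := by
      rw [(hc.pow_right k).eq]; group
    rw [h3, pow_succ', mul_assoc]

/-- If `x` acts on `h` by multiplying with `z`, `z` commutes with `x`, and the orders of
`x` and `z` are coprime, then `z = 1`. -/
theorem eq_one_of_conj {G : Type*} [Group G] {x h z : G} (hz : x * h * x⁻¹ = h * z)
    (hc : Commute x z) {m n : ℕ} (hx : x ^ m = 1) (hzn : z ^ n = 1) (hmn : m.Coprime n) : z = 1 := by
  have h1 := conj_pow_of_commute hz hc m
  rw [hx] at h1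
  have h2 : z ^ m = 1 := by simpa using h1.symm
  have h3 : orderOf z ∣ m := orderOf_dvd_of_pow_eq_one h2
  have h4 : orderOf z ∣ n := orderOf_dvd_of_pow_eq_one hzn
  have h5 : orderOf z = 1 := Nat.eq_one_of_dvd_coprimes hmn h3 h4
  exact orderOf_eq_one_iff.mp h5

/-- Let G be a finite group, H a solvable subgroup and A a subgroup normalizing H. Suppose there is a chain H = H₀ ≥ H₁ ≥ ⋯ ≥ H_n = 1 of subgroups normal in H and normalized by A such that A acts trivially on each factor H_{i-1}/H_i (that is, [H_{i-1}, A] ≤ H_i). Then every prime dividing the index of C_A(H) in A divides the order of H. -/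
theorem result {G : Type*} [Group G] [Finite G] (H A : Subgroup G) (hH : Group.IsSolvable H) (hA : (A ≤ Subgroup.normalizer (H : Set G)))
    (n : ℕ) (c : Fin (n + 1) → Subgroup G) (hc0 : c 0 = H) (hcn : c (Fin.last n) = ⊥) (hanti : Antitone c)
    (hcN : ∀ i, H ≤ Subgroup.normalizer ((c i : Subgroup G) : Set G)) (hcA : ∀ i, A ≤ Subgroup.normalizer ((c i : Subgroup G) : Set G))
    (htriv : ∀ i : Fin n, ⁅c i.castSucc, A⁆ ≤ c i.succ) :
    ∀ p : ℕ, p.Prime → p ∣ (A ⊓ Subgroup.centralizer (H : Set G)).relIndex A → p ∣ Nat.card H := by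
  intro p hp hdvd
  by_contra hnd
  have : Fact p.Prime := ⟨hp⟩
  obtain ⟨P⟩ : Nonempty (Sylow p A) := inferInstance
  -- every element of P centralizes every term of the chain
  have key : ∀ x : A, x ∈ P → ∀ i : Fin (n + 1), ∀ h ∈ c i, (x : G) * h = h * x := by
    intro x hx i
    obtain ⟨k, hk⟩ := (P.2 ⟨x, hx⟩)
    have hxk : (x : G) ^ (p ^ k) = 1 := by
      have := congrArg (fun y : P => ((y : A) : G)) hk
      simpa using this
    induction i using Fin.reverseInduction with
    | last =>
      intro h hh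
      rw [hcn, Subgroup.mem_bot] at hh
      simp [hh]
    | cast i ih =>
      intro h hh
      have hz : ⁅h, (x : G)⁆ ∈ c i.succ := htriv i (Subgroup.commutator_mem_commutator hh x.2)
      set z := ⁅h, (x : G)⁆ with hzdef
      have hzH : z ∈ H := by
        rw [← hc0]; exact hanti (Fin.zero_le _) hz
      have e1 : (x : G) * h⁻¹ * (x : G)⁻¹ = h⁻¹ * z := by
        rw [hzdef, commutatorElement_def]; group
      have hcomm : Commute (x : G) z := ih z hz
      have hzn : z ^ Nat.card H = 1 := by
        have h0 := pow_card_eq_one' (G := H) (x := ⟨z, hzH⟩)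
        have h1 := congrArg (fun y : H => (y : G)) h0
        exact h1
      have hcop : (p ^ k).Coprime (Nat.card H) :=
        Nat.Coprime.pow_left k ((Nat.Prime.coprime_iff_not_dvd hp).mpr hnd)
      have hz1 : z = 1 := eq_one_of_conj e1 hcomm hxk hzn hcop
      rw [hz1, mul_one] at e1
      have e2 : (x : G) * h⁻¹ = h⁻¹ * x := by
        calc (x : G) * h⁻¹ = (x : G) * h⁻¹ * (x : G)⁻¹ * x := by group
          _ = h⁻¹ * x := by rw [e1]
      calc (x : G) * h = h * (h⁻¹ * x) * h := by group
        _ = h * ((x : G) * h⁻¹) * h := by rw [e2]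
        _ = h * x := by group
  have hle : (P : Subgroup A) ≤ (A ⊓ Subgroup.centralizer (H : Set G)).subgroupOf A := by
    intro x hx
    rw [Subgroup.mem_subgroupOf]
    refine Subgroup.mem_inf.mpr ⟨x.2, ?_⟩
    rw [Subgroup.mem_centralizer_iff]
    intro h hh
    have := key x hx 0 h (by rw [hc0]; exact hh)
    exact this.symm
  have h1 : ((A ⊓ Subgroup.centralizer (H : Set G)).subgroupOf A).index ∣ (P : Subgroup A).index :=
    Subgroup.index_dvd_of_le hle
  have h2 : ¬ p ∣ (P : Subgroup A).index := P.not_dvd_index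
  exact h2 (dvd_trans hdvd h1)

end Cfsg.Agent.S1441
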