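import Cfsg.Statements.S1442

set_option autoImplicit false
open Cfsg

namespace Cfsg.Agent.S1442

theorem conj_pow_of_commute {G : Type*} [Group G] {x h z : G} (hz : x * h * x⁻¹ = h * z)
    (hc : Commute x z) (k : ℕ) : x ^ k * h * (x ^ k)⁻¹ = h * z ^ k := by
  induction k with
  | zero => simp
  | succ k ih =>
    have h1 : x ^ (k + 1) * h * (x ^ (k + 1))⁻¹ = x * (x ^ k * h * (x ^ k)⁻¹) * x⁻¹ := by
      rw [pow_succ']; group
    rw [h1, ih]
    have h2 : x * (h * z ^ k) * x⁻¹ = (x * h * x⁻¹) * (x * z ^ k * x⁻¹) := by group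
    rw [h2, hz]
    have h3 : x * z ^ k * x⁻¹ = z ^ k := by
      rw [(hc.pow_right k).eq]; group
    rw [h3, pow_succ', mul_assoc]

theorem eq_one_of_conj {G : Type*} [Group G] {x h z : G} (hz : x * h * x⁻¹ = h * z)
    (hc : Commute x z) {m n : ℕ} (hx : x ^ m = 1) (hzn : z ^ n = 1) (hmn : m.Coprime n) : z = 1 := by
  have h1 := conj_pow_of_commute hz hc m
  rw [hx] at h1
  have h2 : z ^ m = 1 := by simpa using h1.symm
  have h3 : orderOf z ∣ m := orderOf_dvd_of_pow_eq_one h2
  have h4 : orderOf z ∣ n := orderOf_dvd_of_pow_eq_one hzn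
  have h5 : orderOf z = 1 := Nat.eq_one_of_dvd_coprimes hmn h3 h4
  exact orderOf_eq_one_iff.mp h5

theorem pow_card_of_mem {G : Type*} [Group G] {H : Subgroup G} {z : G} (hz : z ∈ H) :
    z ^ Nat.card H = 1 := by
  have h0 := pow_card_eq_one' (G := H) (x := ⟨z, hz⟩)
  exact congrArg (fun y : H => (y : G)) h0

/-- Let G be a finite group, H a nilpotent subgroup and A a subgroup normalizing H with the orders of A and H coprime. Put C = H ∩ C_G(A). If H ∩ C_G(C) ≤ C then A centralizes H. -/
theorem result {G : Type*} [Group G] [Finite G] (H A : Subgroup G) (hH : Group.IsNilpotent H) (hA : (A ≤ Subgroup.normalizer (H : Set G))) (hcop : (Nat.card A).Coprime (Nat.card H))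
    (hC : H ⊓ Subgroup.centralizer (((H ⊓ Subgroup.centralizer (A : Set G)) : Subgroup G) : Set G) ≤ (H ⊓ Subgroup.centralizer (A : Set G))) :
    A ≤ Subgroup.centralizer (H : Set G) := by
  set C : Subgroup G := H ⊓ Subgroup.centralizer (A : Set G) with hCdef
  have hCH : C ≤ H := inf_le_left
  -- the key claim: the normalizer of C in H is contained in C
  have key : ∀ n ∈ H, n ∈ Subgroup.normalizer (C : Set G) → n ∈ C := by
    intro n hnH hnN
    refine Subgroup.mem_inf.mpr ⟨hnH, ?_⟩
    rw [Subgroup.mem_centralizer_iff]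
    intro a ha
    have haA : a ∈ A := ha
    have hfix : ∀ c ∈ C, a * c * a⁻¹ = c := by
      intro c hc
      have := (Subgroup.mem_centralizer_iff.mp (Subgroup.mem_inf.mp hc).2) a ha
      rw [this]; group
    set z := n⁻¹ * (a * n * a⁻¹) with hz
    have hanH : a * n * a⁻¹ ∈ H := ((hA haA) n).mp hnH
    have hzH : z ∈ H := H.mul_mem (H.inv_mem hnH) hanH
    have hzC : z ∈ C := by
      apply hC
      refine Subgroup.mem_inf.mpr ⟨hzH, ?_⟩
      rw [Subgroup.mem_centralizer_iff]
      intro c hc
      have hc' : n * c * n⁻¹ ∈ C := (hnN c).mp hc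
      have e1 := hfix _ hc'
      have e2 := hfix c hc
      have e3 : (a * n * a⁻¹) * c * (a * n * a⁻¹)⁻¹ = n * c * n⁻¹ := by
        calc (a * n * a⁻¹) * c * (a * n * a⁻¹)⁻¹
            = (a * n * a⁻¹) * (a * c * a⁻¹) * (a * n * a⁻¹)⁻¹ := by rw [e2]
          _ = a * (n * c * n⁻¹) * a⁻¹ := by group
          _ = n * c * n⁻¹ := e1
      have e4 : z * c * z⁻¹ = c := by
        calc z * c * z⁻¹ = n⁻¹ * ((a * n * a⁻¹) * c * (a * n * a⁻¹)⁻¹) * n := by
              rw [hz]; group
          _ = c := by rw [e3]; group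
      calc c * z = (z * c * z⁻¹) * z := by rw [e4]
        _ = z * c := by group
    have e5 : a * n * a⁻¹ = n * z := by rw [hz]; group
    have hcomm : Commute a z := by
      have := hfix z hzC
      show a * z = z * a
      calc a * z = (a * z * a⁻¹) * a := by group
        _ = z * a := by rw [this]
    have hz1 : z = 1 := eq_one_of_conj e5 hcomm (pow_card_of_mem haA) (pow_card_of_mem hzH) hcop
    rw [hz1, mul_one] at e5
    calc a * n = (a * n * a⁻¹) * a := by group
      _ = n * a := by rw [e5]
  -- normalizer condition in H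
  have hnc : NormalizerCondition H := Group.normalizerCondition_of_isNilpotent
  have htop : C.subgroupOf H = ⊤ := by
    rw [normalizerCondition_iff_only_full_group_self_normalizing] at hnc
    apply hnc
    apply le_antisymm _ Subgroup.le_normalizer
    intro n hn
    rw [Subgroup.mem_subgroupOf]
    apply key n n.2
    rw [Subgroup.mem_normalizer_iff] at hn ⊢
    intro c
    constructor
    · intro hc
      have := (hn ⟨c, hCH hc⟩).mp (by rw [Subgroup.mem_subgroupOf]; exact hc)
      rw [Subgroup.mem_subgroupOf] at this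
      exact this
    · intro hc
      have hcH : c ∈ H := by
        have h1 : (n : G)⁻¹ * ((n : G) * c * (n : G)⁻¹) * (n : G) ∈ H :=
          H.mul_mem (H.mul_mem (H.inv_mem n.2) (hCH hc)) n.2
        have h2 : (n : G)⁻¹ * ((n : G) * c * (n : G)⁻¹) * (n : G) = c := by group
        rwa [h2] at h1
      have := (hn ⟨c, hcH⟩).mpr (by rw [Subgroup.mem_subgroupOf]; exact hc)
      rw [Subgroup.mem_subgroupOf] at this
      exact this
  have hHC : H ≤ C := by
    rwa [Subgroup.subgroupOf_eq_top] at htop
  intro a ha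
  rw [Subgroup.mem_centralizer_iff]
  intro h hh
  have := (Subgroup.mem_centralizer_iff.mp (Subgroup.mem_inf.mp (hHC hh)).2) a ha
  exact this.symm

end Cfsg.Agent.S1442
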