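import Cfsg.Statements.S1443
import Cfsg.Agent.S1442
import Cfsg.Agent.Lib.Helper30Coprime

set_option autoImplicit false
open Cfsg

namespace Cfsg.Agent.S1443

open Cfsg.Agent.Lib.Helper30Coprime

/-- Let G be a finite group, p an odd prime, H a p-subgroup, E an elementary abelian subgroup of H, and A a subgroup of order coprime to p normalizing H. If A centralizes every element of order p in H ∩ C_G(E), then A centralizes H. -/
theorem result {G : Type*} [Group G] [Finite G] (p : ℕ) [Fact p.Prime] (hp : p ≠ 2) (H E A : Subgroup G) (hH : IsPGroup p H) (hE : E ≤ H) (hEe : Cfsg.IsElementaryAbelian p E)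
    (hA : (A ≤ Subgroup.normalizer (H : Set G))) (hcop : (Nat.card A).Coprime p)
    (hfix : ∀ x ∈ (H ⊓ Subgroup.centralizer (E : Set G)), orderOf x = p → A ≤ Subgroup.centralizer ({x} : Set G)) :
    A ≤ Subgroup.centralizer (H : Set G) := by
  have hpp : p.Prime := Fact.out
  set D : Subgroup G := H ⊓ Subgroup.centralizer (E : Set G) with hD
  have hDH : D ≤ H := inf_le_left
  -- elements of D killed by p are fixed by A
  have hfix' : ∀ a ∈ A, ∀ x ∈ D, x ^ p = 1 → a * x * a⁻¹ = x := by
    intro a ha x hx hxp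
    by_cases hx1 : x = 1
    · subst hx1; group
    · have ho : orderOf x = p := orderOf_eq_prime hxp hx1
      have h1 := hfix x hx ho ha
      rw [Subgroup.mem_centralizer_iff] at h1
      have h2 := h1 x (Set.mem_singleton x)
      rw [← h2]; group
  have hED : E ≤ D := by
    intro e he
    refine Subgroup.mem_inf.mpr ⟨hE he, ?_⟩
    rw [Subgroup.mem_centralizer_iff]
    intro e' he'
    have := hEe.1.is_comm.comm ⟨e', he'⟩ ⟨e, he⟩
    exact congrArg (fun y : E => (y : G)) this
  have hfixE : ∀ a ∈ A, ∀ e ∈ E, a * e * a⁻¹ = e := fun a ha e he =>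
    hfix' a ha e (hED he) (hEe.2 e he)
  have hAD : A ≤ Subgroup.normalizer (D : Set G) := by
    rw [Subgroup.le_normalizer_iff]
    intro a ha d hd
    refine Subgroup.mem_inf.mpr ⟨((hA ha) d).mp (hDH hd), ?_⟩
    rw [Subgroup.mem_centralizer_iff]
    intro e he
    have h1 : e * d = d * e := (Subgroup.mem_centralizer_iff.mp (Subgroup.mem_inf.mp hd).2) e he
    have h2 := hfixE a ha e he
    calc e * (a * d * a⁻¹) = (a * e * a⁻¹) * (a * d * a⁻¹) := by rw [h2]
      _ = a * (e * d) * a⁻¹ := by group
      _ = a * (d * e) * a⁻¹ := by rw [h1]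
      _ = (a * d * a⁻¹) * (a * e * a⁻¹) := by group
      _ = a * d * a⁻¹ * e := by rw [h2]
  have hcD : ∀ a ∈ A, ∀ x ∈ D, a * x * a⁻¹ = x :=
    centralizes_of_fix_order_p p hp A hcop D (hH.to_le hDH) hAD hfix'
  have hnil : Group.IsNilpotent H := hH.isNilpotent
  have hcopH : (Nat.card A).Coprime (Nat.card H) := by
    obtain ⟨k, hk⟩ := IsPGroup.iff_card.mp hH
    rw [hk]
    exact Nat.Coprime.pow_right k hcop
  apply Cfsg.Agent.S1442.result H A hnil hA hcopH
  have hDC : D ≤ H ⊓ Subgroup.centralizer (A : Set G) := by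
    intro d hd
    refine Subgroup.mem_inf.mpr ⟨hDH hd, ?_⟩
    rw [Subgroup.mem_centralizer_iff]
    intro a ha
    have := hcD a ha d hd
    calc a * d = (a * d * a⁻¹) * a := by group
      _ = d * a := by rw [this]
  refine le_trans ?_ hDC
  apply inf_le_inf_left
  apply Subgroup.centralizer_le
  exact fun e he => (le_trans hED hDC) he

end Cfsg.Agent.S1443
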