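import Mathlib
import Cfsg.Statements.S1459
import Cfsg.Agent.Lib.Helper11Wielandt
import Cfsg.Agent.Lib.Helper66Comm
import Cfsg.Agent.Lib.Helper53Comm

set_option autoImplicit false
open Cfsg

namespace Cfsg.Agent.S1459

open Subgroup
open scoped commutatorElement

variable {G : Type*} [Group G]

/-- In a solvable group a normal subgroup supplementing the derived subgroup is everything. -/
theorem eq_top_of_sup_commutator [Group.IsSolvable G] (T : Subgroup G) [T.Normal]
    (h : T ⊔ commutator G = ⊤) : T = ⊤ := by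
  by_contra hT
  haveI : Nontrivial (G ⧸ T) := (QuotientGroup.nontrivial_iff).mpr hT
  have h1 := IsSolvable.commutator_lt_top_of_nontrivial (G ⧸ T)
  apply h1.ne
  rw [eq_top_iff]
  intro y _
  obtain ⟨g, rfl⟩ := QuotientGroup.mk_surjective y
  have hg : g ∈ T ⊔ commutator G := h ▸ mem_top g
  rw [Subgroup.mem_sup_of_normal_left] at hg
  obtain ⟨t, ht, c, hc, rfl⟩ := hg
  have h2 : ((t * c : G) : G ⧸ T) = QuotientGroup.mk' T c := by
    rw [QuotientGroup.mk_mul, (QuotientGroup.eq_one_iff t).mpr ht, one_mul]; rfl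
  rw [h2]
  have h3 : (commutator G).map (QuotientGroup.mk' T) ≤ commutator (G ⧸ T) := by
    rw [commutator_def, commutator_def, Subgroup.map_commutator]
    exact Subgroup.commutator_mono le_top le_top
  exact h3 (Subgroup.mem_map_of_mem _ hc)

/-- `[H, K] K` is normal in `G = H K`. -/
theorem sup_normal {H K : Subgroup G} (hHK : H ⊔ K = ⊤) : (⁅H, K⁆ ⊔ K).Normal := by
  rw [← Subgroup.normalizer_eq_top_iff, eq_top_iff, ← hHK]
  have hK : K ≤ normalizer ((⁅H, K⁆ ⊔ K : Subgroup G) : Set G) :=
    le_sup_right.trans Subgroup.le_normalizer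
  refine sup_le ?_ hK
  intro h hh
  have key : ∀ h ∈ H, ∀ x ∈ ⁅H, K⁆ ⊔ K, h * x * h⁻¹ ∈ ⁅H, K⁆ ⊔ K := by
    intro h hh x hx
    have hle : ⁅H, K⁆ ⊔ K ≤ (⁅H, K⁆ ⊔ K).comap (MulAut.conj h).toMonoidHom := by
      refine sup_le ?_ ?_
      · intro y hy
        rw [Subgroup.mem_comap]
        exact mem_sup_left ((mem_normalizer_iff.mp
          (Cfsg.Agent.Lib.Helper53Comm.le_normalizer_commutator_self_left H K hh) y).mp hy)
      · intro k hk
        rw [Subgroup.mem_comap]
        have h3 : (MulAut.conj h).toMonoidHom k = ⁅h, k⁆ * k := by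
          simp [commutatorElement_def]
        rw [h3]
        exact mul_mem (mem_sup_left (commutator_mem_commutator hh hk)) (mem_sup_right hk)
    exact hle hx
  rw [mem_normalizer_iff]
  intro x
  constructor
  · exact key h hh x
  · intro hx
    have := key h⁻¹ (inv_mem hh) _ hx
    simpa [mul_assoc] using this

theorem partA1 [Group.IsSolvable G] {H K : Subgroup G} (hH : H.Normal)
    (hc : Subgroup.IsComplement' H K) (hle : H ≤ commutator G) : H = ⁅H, K⁆ := by
  have hHK : H ⊔ K = ⊤ := hc.sup_eq_top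
  haveI := sup_normal hHK
  have hT : ⁅H, K⁆ ⊔ K = ⊤ := by
    apply eq_top_of_sup_commutator
    rw [eq_top_iff, ← hHK]
    exact sup_le (hle.trans le_sup_right) (le_sup_right.trans le_sup_left)
  have hN : ⁅H, K⁆ ≤ H := Subgroup.commutator_le_left H K
  refine le_antisymm ?_ hN
  intro h hh
  have h1 : h ∈ ⁅H, K⁆ ⊔ K := hT ▸ mem_top h
  have hnK : K ≤ normalizer ((⁅H, K⁆ : Subgroup G) : Set G) :=
    Cfsg.Agent.Lib.Helper53Comm.le_normalizer_commutator_self_right H K
  rw [← SetLike.mem_coe, coe_mul_of_right_le_normalizer_left _ _ hnK, Set.mem_mul] at h1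
  obtain ⟨n, hn, k, hk, rfl⟩ := h1
  have hk' : k ∈ H := by
    have := H.mul_mem (H.inv_mem (hN hn)) hh
    simpa using this
  have hk1 : k = 1 := by
    have : k ∈ H ⊓ K := ⟨hk', hk⟩
    rwa [hc.disjoint.eq_bot, mem_bot] at this
  rw [hk1, mul_one]; exact hn

/-- the norm map to the abelianization -/
noncomputable def nrm [Finite G] (H K : Subgroup G) [hH : H.Normal] : H →* Abelianization H :=
  letI := Fintype.ofFinite K
  ∏ k : K, (Abelianization.of.comp (MulAut.conjNormal (k : G) : MulAut H).toMonoidHom)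

theorem nrm_apply [Finite G] (H K : Subgroup G) [hH : H.Normal] (h : H) :
    nrm H K h = letI := Fintype.ofFinite K
      ∏ k : K, Abelianization.of (MulAut.conjNormal (k : G) h) := by
  unfold nrm
  simp [MonoidHom.finset_prod_apply]

theorem nrm_conj [Finite G] (H K : Subgroup G) [hH : H.Normal] (h : H) (k₀ : K) :
    nrm H K (MulAut.conjNormal (k₀ : G) h) = nrm H K h := by
  rw [nrm_apply, nrm_apply]
  letI := Fintype.ofFinite K
  refine Fintype.prod_equiv (Equiv.mulRight k₀) _ _ ?_
  intro k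
  simp [map_mul]

theorem partA2 [Finite G] {H K : Subgroup G} (hH : H.Normal)
    (hcop : (Nat.card H).Coprime H.index)
    (hc : Subgroup.IsComplement' H K) (hHK : H = ⁅H, K⁆) :
    H ⊓ Subgroup.centralizer (K : Set G) ≤ ⁅H, H⁆ := by
  have hker : ⁅H, K⁆ ≤ (nrm H K).ker.map H.subtype := by
    rw [Subgroup.commutator_le]
    intro h hh k hk
    refine ⟨⟨h, hh⟩ * MulAut.conjNormal (k : G) (⟨h, hh⟩ : H)⁻¹, ?_, ?_⟩
    · have := nrm_conj H K (⟨h, hh⟩ : H)⁻¹ ⟨k, hk⟩
      simp only at this
      rw [SetLike.mem_coe, MonoidHom.mem_ker, map_mul, this, ← map_mul, mul_inv_cancel, map_one]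
    · simp [commutatorElement_def, mul_assoc]
  intro c hcm
  obtain ⟨hcH, hcK⟩ := hcm
  have h1 : nrm H K ⟨c, hcH⟩ = 1 := by
    have : c ∈ (nrm H K).ker.map H.subtype := hker (hHK ▸ hcH)
    obtain ⟨y, hy, hyc⟩ := this
    have : y = ⟨c, hcH⟩ := Subtype.ext hyc
    rw [← this]; exact hy
  have h2 : nrm H K ⟨c, hcH⟩ = (Abelianization.of (⟨c, hcH⟩ : H)) ^ Nat.card K := by
    rw [nrm_apply]
    letI := Fintype.ofFinite K
    have : ∀ k : K, Abelianization.of (MulAut.conjNormal (k : G) (⟨c, hcH⟩ : H))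
        = Abelianization.of (⟨c, hcH⟩ : H) := by
      intro k
      congr 1
      apply Subtype.ext
      have := (Subgroup.mem_centralizer_iff.mp hcK) k k.2
      simp only [MulAut.conjNormal_apply]
      rw [this]; group
    simp only [this, Finset.prod_const, Finset.card_univ, Nat.card_eq_fintype_card]
  have h3 : (Abelianization.of (⟨c, hcH⟩ : H)) ^ Nat.card H = 1 := by
    rw [← map_pow, pow_card_eq_one', map_one]
  have h4 : Nat.card K = H.index := hc.symm.index_eq_card.symm
  have h5 : Abelianization.of (⟨c, hcH⟩ : H) = 1 := by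
    have h6 : (Abelianization.of (⟨c, hcH⟩ : H)) ^ H.index = 1 := by rw [← h4, ← h2, h1]
    have := pow_gcd_eq_one.mpr ⟨h3, h6⟩
    rwa [Nat.Coprime.gcd_eq_one hcop, pow_one] at this
  have h7 : (⟨c, hcH⟩ : H) ∈ commutator H := by
    rw [← Abelianization.ker_of]; exact h5
  have h8 : (commutator H).map H.subtype = ⁅H, H⁆ := by
    rw [_root_.commutator_def, Subgroup.map_commutator, ← MonoidHom.range_eq_map, Subgroup.range_subtype]
  rw [← h8]
  exact ⟨_, h7, rfl⟩

theorem commutator_le_of_index_prime (hp : (commutator G).index.Prime) :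
    commutator G ≤ ⁅commutator G, (⊤ : Subgroup G)⁆ := by
  haveI hCn : (⁅commutator G, (⊤ : Subgroup G)⁆).Normal := Subgroup.commutator_normal _ _
  obtain ⟨x, hx⟩ : ∃ x, x ∉ commutator G := by
    by_contra h
    push Not at h
    have : commutator G = ⊤ := eq_top_iff.mpr (fun y _ => h y)
    rw [this, Subgroup.index_top] at hp; exact Nat.not_prime_one hp
  have hsup : zpowers x ⊔ commutator G = ⊤ := by
    have h1 := Subgroup.relIndex_mul_index (le_sup_right : commutator G ≤ zpowers x ⊔ commutator G)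
    rcases (Nat.dvd_prime hp).mp (Dvd.intro_left _ h1) with h2 | h2
    · exact Subgroup.index_eq_one.mp h2
    · exfalso
      rw [h2] at h1
      have h3 : (commutator G).relIndex (zpowers x ⊔ commutator G) = 1 := by
        have hpos : 0 < (commutator G).index := hp.pos
        nlinarith
      exact hx (Subgroup.relIndex_eq_one.mp h3 (mem_sup_left (mem_zpowers x)))
  have hcent : ∀ u ∈ commutator G, ∀ g : G,
      QuotientGroup.mk' ⁅commutator G, (⊤ : Subgroup G)⁆ u * QuotientGroup.mk' _ g
        = QuotientGroup.mk' _ g * QuotientGroup.mk' _ u := by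
    intro u hu g
    have h1 : ⁅u, g⁆ ∈ ⁅commutator G, (⊤ : Subgroup G)⁆ := commutator_mem_commutator hu (mem_top g)
    have h2 : QuotientGroup.mk' ⁅commutator G, (⊤ : Subgroup G)⁆ ⁅u, g⁆ = 1 :=
      (QuotientGroup.eq_one_iff _).mpr h1
    rw [commutatorElement_def, map_mul, map_mul, map_mul, map_inv, map_inv] at h2
    have h3 := congrArg (· * (QuotientGroup.mk' ⁅commutator G, (⊤ : Subgroup G)⁆ g
      * QuotientGroup.mk' ⁅commutator G, (⊤ : Subgroup G)⁆ u)) h2
    simpa [mul_assoc] using h3
  have hdec : ∀ a : G, ∃ i : ℤ, ∃ u ∈ commutator G, a = x ^ i * u := by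
    intro a
    have ha : a ∈ zpowers x ⊔ commutator G := hsup ▸ mem_top a
    rw [Subgroup.mem_sup_of_normal_right] at ha
    obtain ⟨y, hy, u, hu, rfl⟩ := ha
    obtain ⟨i, rfl⟩ := mem_zpowers_iff.mp hy
    exact ⟨i, u, hu, rfl⟩
  rw [_root_.commutator_def, Subgroup.commutator_le]
  intro a _ b _
  rw [← _root_.commutator_def]
  obtain ⟨i, u, hu, rfl⟩ := hdec a
  obtain ⟨j, v, hv, rfl⟩ := hdec b
  rw [← QuotientGroup.eq_one_iff, ← QuotientGroup.mk'_apply, commutatorElement_def]
  simp only [map_mul, map_inv, map_zpow]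
  generalize hX : QuotientGroup.mk' ⁅commutator G, (⊤ : Subgroup G)⁆ x = X
  have hU : ∀ Y, QuotientGroup.mk' ⁅commutator G, (⊤ : Subgroup G)⁆ u * Y
      = Y * QuotientGroup.mk' ⁅commutator G, (⊤ : Subgroup G)⁆ u := by
    intro Y
    obtain ⟨g, rfl⟩ := QuotientGroup.mk'_surjective _ Y
    exact hcent u hu g
  have hV : ∀ Y, QuotientGroup.mk' ⁅commutator G, (⊤ : Subgroup G)⁆ v * Y
      = Y * QuotientGroup.mk' ⁅commutator G, (⊤ : Subgroup G)⁆ v := by
    intro Y
    obtain ⟨g, rfl⟩ := QuotientGroup.mk'_surjective _ Y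
    exact hcent v hv g
  generalize QuotientGroup.mk' ⁅commutator G, (⊤ : Subgroup G)⁆ u = U at hU
  generalize QuotientGroup.mk' ⁅commutator G, (⊤ : Subgroup G)⁆ v = V at hV
  have hXX : X ^ i * X ^ j = X ^ j * X ^ i := (Commute.zpow_zpow_self X i j)
  calc X ^ i * U * (X ^ j * V) * (X ^ i * U)⁻¹ * (X ^ j * V)⁻¹
      = (X ^ i * X ^ j) * (U * V) * (X ^ i * U)⁻¹ * (X ^ j * V)⁻¹ := by
        rw [mul_assoc (X ^ i) U, ← mul_assoc U, hU (X ^ j)]; simp only [mul_assoc]
    _ = (X ^ j * X ^ i) * (V * U) * (X ^ i * U)⁻¹ * (X ^ j * V)⁻¹ := by rw [hXX, hU V]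
    _ = (X ^ j * V) * (X ^ i * U) * (X ^ i * U)⁻¹ * (X ^ j * V)⁻¹ := by
        rw [mul_assoc (X ^ j) V, ← mul_assoc V, hV (X ^ i)]; simp only [mul_assoc]
    _ = 1 := by group

theorem partB1 [Finite G] (hnil : Group.IsNilpotent ↥(commutator G))
    (hp : (commutator G).index.Prime) :
    (Nat.card ↥(commutator G)).Coprime (commutator G).index := by
  haveI : Fact (commutator G).index.Prime := ⟨hp⟩
  obtain ⟨N, hNmem, hNcop, k, hk⟩ :=
    Cfsg.Agent.Lib.Helper11Wielandt.exists_pprime_part (commutator G).index (commutator G) hnil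
  haveI hNn : N.Normal := ⟨fun n hn g => by
    rw [hNmem] at hn ⊢
    refine ⟨(inferInstance : (commutator G).Normal).conj_mem n hn.1 g, ?_⟩
    have : orderOf (g * n * g⁻¹) = orderOf n := by
      have := orderOf_injective (MulAut.conj g).toMonoidHom (MulAut.conj g).injective n
      simpa using this
    rw [this]; exact hn.2⟩
  have hQ : IsPGroup (commutator G).index (G ⧸ N) := by
    apply IsPGroup.of_card (n := k + 1)
    have h1 : Nat.card (G ⧸ N) * Nat.card N = Nat.card N * (commutator G).index ^ (k + 1) := by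
      have h2 := N.card_mul_index
      have h3 := (commutator G).card_mul_index
      rw [Subgroup.index_eq_card] at h2
      rw [mul_comm, h2, ← h3, hk, pow_succ, mul_assoc]
    have hpos : 0 < Nat.card N := Nat.card_pos
    rw [mul_comm] at h1
    exact Nat.eq_of_mul_eq_mul_left hpos h1
  haveI : Group.IsNilpotent (G ⧸ N) := hQ.isNilpotent
  have hmap : (commutator G).map (QuotientGroup.mk' N) = commutator (G ⧸ N) := by
    rw [_root_.commutator_def, _root_.commutator_def, Subgroup.map_commutator,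
      Subgroup.map_top_of_surjective _ (QuotientGroup.mk'_surjective N)]
  have h1 : commutator (G ⧸ N) ≤ ⁅commutator (G ⧸ N), (⊤ : Subgroup (G ⧸ N))⁆ := by
    have := Subgroup.map_mono (f := QuotientGroup.mk' N) (commutator_le_of_index_prime hp)
    rwa [Subgroup.map_commutator, hmap,
      Subgroup.map_top_of_surjective _ (QuotientGroup.mk'_surjective N)] at this
  have h2 : commutator (G ⧸ N) ≤ ⊥ :=
    Cfsg.Agent.Lib.Helper66Comm.le_of_le_commutator_sup _ ⊥ (by simpa using h1)
  have h3 : commutator G ≤ N := by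
    intro g hg
    have : QuotientGroup.mk' N g ∈ commutator (G ⧸ N) := hmap ▸ Subgroup.mem_map_of_mem _ hg
    have := h2 this
    rw [mem_bot] at this
    exact (QuotientGroup.eq_one_iff g).mp this
  exact Nat.Coprime.coprime_dvd_left (Subgroup.card_dvd_of_le h3) hNcop

/-- Let G be a finite solvable group. (a) If H is a normal subgroup of order coprime to its index, K is a complement to H, and H ≤ G', then H = [H, K] and H ∩ C_G(K) ≤ [H, H]. (b) If G' is nilpotent and has prime index in G, then the order of G' is coprime to its index and G' = [G, K] (the subgroup generated by commutators of elements of G with elements of K) for every complement K of G'. -/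
theorem result {G : Type*} [Group G] [Finite G] [Group.IsSolvable G] :
    (∀ (H K : Subgroup G), H.Normal → (Nat.card H).Coprime H.index → Subgroup.IsComplement' H K → H ≤ commutator G →
        H = ⁅H, K⁆ ∧ H ⊓ Subgroup.centralizer (K : Set G) ≤ ⁅H, H⁆) ∧
      (Group.IsNilpotent ↥(commutator G) → (commutator G).index.Prime →
        (Nat.card ↥(commutator G)).Coprime (commutator G).index ∧
        ∀ K : Subgroup G, Subgroup.IsComplement' (commutator G) K → commutator G = ⁅(⊤ : Subgroup G), K⁆) := by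
  refine ⟨fun H K hH hcop hc hle => ?_, fun hnil hp => ?_⟩
  · have h1 := partA1 hH hc hle
    exact ⟨h1, partA2 hH hcop hc h1⟩
  · refine ⟨partB1 hnil hp, fun K hK => ?_⟩
    have h1 := partA1 (inferInstance : (commutator G).Normal) hK le_rfl
    refine le_antisymm ?_ ?_
    · calc commutator G = ⁅commutator G, K⁆ := h1
        _ ≤ ⁅(⊤ : Subgroup G), K⁆ := Subgroup.commutator_mono le_top le_rfl
    · rw [_root_.commutator_def]
      exact Subgroup.commutator_mono le_rfl le_top

end Cfsg.Agent.S1459
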