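import Cfsg.Statements.S1460
import Cfsg.Agent.Lib.Helper1Coprime

set_option autoImplicit false
open Cfsg

namespace Cfsg.Agent.S1460

theorem part3 {G : Type*} [Group G] [Finite G] [Group.IsSolvable G] (K U H : Subgroup G) [hK : K.Normal]
    (hKU : K ⊔ U = ⊤) (hH : H ≤ U) (hcop : (Nat.card H).Coprime (Nat.card K)) :
    ∀ g : G, H.map (MulAut.conj g).toMonoidHom ≤ U →
      ∃ u ∈ U, ∃ c ∈ K ⊓ Subgroup.centralizer (H : Set G), g = u * c := by
  intro g hg
  have hgtop : g ∈ ((U ⊔ K : Subgroup G) : Set G) := by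
    rw [sup_comm, hKU]; trivial
  rw [Subgroup.mul_normal] at hgtop
  obtain ⟨u0, hu0, k, hk, rfl⟩ := Set.mem_mul.mp hgtop
  have hu0' : u0 ∈ U := hu0
  have hk' : k ∈ K := hk
  have hfix : ∀ h ∈ H, h * k * h⁻¹ * k⁻¹ ∈ K ⊓ U := by
    intro h hh
    constructor
    · exact K.mul_mem (hK.conj_mem k hk' h) (K.inv_mem hk')
    · have h1 : (u0 * k) * h⁻¹ * (u0 * k)⁻¹ ∈ U := hg ⟨h⁻¹, H.inv_mem hh, rfl⟩
      have h2 : h * k * h⁻¹ * k⁻¹ = h * (u0⁻¹ * ((u0 * k) * h⁻¹ * (u0 * k)⁻¹) * u0) := by group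
      show h * k * h⁻¹ * k⁻¹ ∈ U
      rw [h2]
      exact U.mul_mem (hH hh) (U.mul_mem (U.mul_mem (U.inv_mem hu0') h1) hu0')
  have hnorm : H ≤ Subgroup.normalizer ((K ⊓ U : Subgroup G) : Set G) := by
    rw [Subgroup.le_normalizer_iff]
    intro h hh n hn
    exact ⟨hK.conj_mem n hn.1 h, U.mul_mem (U.mul_mem (hH hh) hn.2) (U.inv_mem (hH hh))⟩
  have hcop' : (Nat.card H).Coprime (Nat.card (K ⊓ U : Subgroup G)) :=
    Nat.Coprime.coprime_dvd_right (Subgroup.card_dvd_of_le inf_le_left) hcop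
  obtain ⟨n, hn, hnc⟩ := Cfsg.Agent.Lib.Helper1Coprime.exists_mul_mem_centralizer hnorm hcop'
    (Or.inl inferInstance) k hfix
  refine ⟨u0 * n⁻¹, U.mul_mem hu0' (U.inv_mem hn.2), n * k, ⟨K.mul_mem hn.1 hk', hnc⟩, by group⟩

theorem part2 {G : Type*} [Group G] [Finite G] [Group.IsSolvable G] (K U H : Subgroup G) [hK : K.Normal]
    (hKU : K ⊔ U = ⊤) (hH : H ≤ U) (hcop : (Nat.card H).Coprime (Nat.card K)) :
    Subgroup.normalizer (H : Set G) =
      (K ⊓ Subgroup.centralizer (H : Set G)) ⊔ (U ⊓ Subgroup.normalizer (H : Set G)) := by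
  apply le_antisymm
  · intro g hg
    have hmap : H.map (MulAut.conj g).toMonoidHom = H := Subgroup.mem_normalizer_iff_map_conj_eq.mp hg
    obtain ⟨u, hu, c, hc, rfl⟩ := part3 K U H hKU hH hcop g (by rw [hmap]; exact hH)
    have hcN : c ∈ Subgroup.normalizer (H : Set G) := Subgroup.centralizer_le_normalizer _ hc.2
    have huN : u ∈ Subgroup.normalizer (H : Set G) := by
      have : u = (u * c) * c⁻¹ := by group
      rw [this]
      exact Subgroup.mul_mem _ hg (Subgroup.inv_mem _ hcN)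
    exact Subgroup.mul_mem _ (Subgroup.mem_sup_right ⟨hu, huN⟩) (Subgroup.mem_sup_left hc)
  · exact sup_le (inf_le_right.trans (Subgroup.centralizer_le_normalizer _)) inf_le_right

theorem part1 {G : Type*} [Group G] [Finite G] (K U H : Subgroup G) [hK : K.Normal]
    (hKU : K ⊔ U = ⊤) (hH : H ≤ U) (hcop : (Nat.card H).Coprime (Nat.card K)) :
    H ⊓ commutator G = H ⊓ ⁅U, U⁆ := by
  apply le_antisymm
  · have hA : commutator G ≤ ⁅U, U⁆ ⊔ K := by
      have h1 : (commutator G).map (QuotientGroup.mk' K) = (⁅U, U⁆).map (QuotientGroup.mk' K) := by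
        have hU : U.map (QuotientGroup.mk' K) = (⊤ : Subgroup G).map (QuotientGroup.mk' K) := by
          rw [← hKU, Subgroup.map_sup]
          have : K.map (QuotientGroup.mk' K) = ⊥ := by
            rw [Subgroup.map_eq_bot_iff, QuotientGroup.ker_mk']
          rw [this, bot_sup_eq]
        rw [commutator_def, Subgroup.map_commutator, Subgroup.map_commutator, hU]
      calc commutator G ≤ ((commutator G).map (QuotientGroup.mk' K)).comap (QuotientGroup.mk' K) :=
            Subgroup.le_comap_map _ _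
        _ = ⁅U, U⁆ ⊔ K := by rw [h1, Subgroup.comap_map_eq, QuotientGroup.ker_mk']
    intro h hh
    obtain ⟨hhH, hhG⟩ := hh
    refine ⟨hhH, ?_⟩
    have h2 : h ∈ ((⁅U, U⁆ ⊔ K : Subgroup G) : Set G) := hA hhG
    rw [Subgroup.mul_normal] at h2
    obtain ⟨d, hd, n, hn, hdn⟩ := Set.mem_mul.mp h2
    have hd' : d ∈ ⁅U, U⁆ := hd
    have hn' : n ∈ K := hn
    have hdU : d ∈ U := Subgroup.commutator_le_self U hd'
    have hnU : n ∈ U := by
      have : n = d⁻¹ * h := by rw [← hdn]; group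
      rw [this]
      exact U.mul_mem (U.inv_mem hdU) (hH hhH)
    have hdc : (⟨d, hdU⟩ : U) ∈ commutator U := by
      rw [← Subgroup.map_subtype_commutator] at hd'
      obtain ⟨d', hd'c, hd'e⟩ := hd'
      have : d' = ⟨d, hdU⟩ := Subtype.ext hd'e
      rwa [← this]
    have heq : QuotientGroup.mk' (commutator U) ⟨h, hH hhH⟩ = QuotientGroup.mk' (commutator U) ⟨n, hnU⟩ := by
      have : (⟨h, hH hhH⟩ : U) = ⟨d, hdU⟩ * ⟨n, hnU⟩ := Subtype.ext hdn.symm
      have h1 : QuotientGroup.mk' (commutator U) ⟨d, hdU⟩ = 1 := (QuotientGroup.eq_one_iff _).mpr hdc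
      rw [this, map_mul, h1, one_mul]
    have ho1 : orderOf (QuotientGroup.mk' (commutator U) ⟨h, hH hhH⟩) ∣ Nat.card H := by
      refine (orderOf_map_dvd _ _).trans ?_
      rw [Subgroup.orderOf_mk]
      have := orderOf_dvd_natCard (⟨h, hhH⟩ : H)
      rwa [Subgroup.orderOf_mk] at this
    have ho2 : orderOf (QuotientGroup.mk' (commutator U) ⟨h, hH hhH⟩) ∣ Nat.card K := by
      rw [heq]
      refine (orderOf_map_dvd _ _).trans ?_
      rw [Subgroup.orderOf_mk]
      have := orderOf_dvd_natCard (⟨n, hn'⟩ : K)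
      rwa [Subgroup.orderOf_mk] at this
    have ho := Nat.eq_one_of_dvd_coprimes hcop ho1 ho2
    have hmem : (⟨h, hH hhH⟩ : U) ∈ commutator U :=
      (QuotientGroup.eq_one_iff _).mp (orderOf_eq_one_iff.mp ho)
    rw [SetLike.mem_coe, ← Subgroup.map_subtype_commutator]
    exact ⟨_, hmem, rfl⟩
  · apply inf_le_inf_left
    rw [commutator_def]
    exact Subgroup.commutator_mono le_top le_top

/-- Let G be a finite solvable group, K a normal subgroup and U a subgroup with G = KU, and H ≤ U a subgroup whose order is coprime to that of K. Then H ∩ G' = H ∩ U'; N_G(H) is generated by K ∩ C_G(H) and U ∩ N_G(H); and if gHg⁻¹ ≤ U for some g ∈ G then g = u c with u ∈ U and c ∈ K ∩ C_G(H). -/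
theorem result {G : Type*} [Group G] [Finite G] [Group.IsSolvable G] (K U H : Subgroup G) [K.Normal] (hKU : K ⊔ U = ⊤) (hH : H ≤ U) (hcop : (Nat.card H).Coprime (Nat.card K)) :
    H ⊓ commutator G = H ⊓ ⁅U, U⁆ ∧
      Subgroup.normalizer (H : Set G) = (K ⊓ Subgroup.centralizer (H : Set G)) ⊔ (U ⊓ Subgroup.normalizer (H : Set G)) ∧
      ∀ g : G, H.map (MulAut.conj g).toMonoidHom ≤ U → ∃ u ∈ U, ∃ c ∈ K ⊓ Subgroup.centralizer (H : Set G), g = u * c := by
  exact ⟨part1 K U H hKU hH hcop, part2 K U H hKU hH hcop, part3 K U H hKU hH hcop⟩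

end Cfsg.Agent.S1460
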