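import Cfsg.Statements.S1461
import Cfsg.Agent.S1460
import Cfsg.Agent.Lib.Helper31PLength

set_option autoImplicit false
open Cfsg
open Cfsg.Agent.Lib.Helper31PLength Cfsg.Agent.Lib.Helper1Fitting

namespace Cfsg.Agent.S1461

theorem coprime_of_le_sylow {G : Type*} [Group G] [Finite G] (p : ℕ) [Fact p.Prime] (S : Sylow p G)
    (H : Subgroup G) (hH : H ≤ (S : Subgroup G)) :
    (Nat.card H).Coprime (Nat.card (pPrimeCore p G)) := by
  obtain ⟨n, hn⟩ := IsPGroup.iff_card.mp (S.isPGroup'.to_le hH)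
  rw [hn]
  exact Nat.Coprime.pow_left n (card_pPrimeCore_coprime p).symm

/-- Let G be a finite solvable group, p a prime with G = O_{p',p,p'}(G), and S a Sylow p-subgroup. Then: if S ≤ G' then S ≤ [N_G(S), N_G(S)]; if Y ⊆ S and xYx⁻¹ ⊆ S then x = g c for some g ∈ N_G(S) and c centralizing Y; and for every p-subgroup Q there is x ∈ C_G(Q ∩ S) with xQx⁻¹ ≤ S. -/
theorem result {G : Type*} [Group G] [Finite G] [Group.IsSolvable G] (p : ℕ) [Fact p.Prime] (hpl : Cfsg.PLengthLE p 1 G) (S : Sylow p G) :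
    ((S : Subgroup G) ≤ commutator G → (S : Subgroup G) ≤ ⁅Subgroup.normalizer ((S : Subgroup G) : Set G), Subgroup.normalizer ((S : Subgroup G) : Set G)⁆) ∧
      (∀ (Y : Set G) (x : G), Y ⊆ (S : Subgroup G) → (fun y => x * y * x⁻¹) '' Y ⊆ (S : Subgroup G) →
        ∃ g ∈ Subgroup.normalizer ((S : Subgroup G) : Set G), ∃ c ∈ Subgroup.centralizer Y, g * c = x) ∧
      ∀ Q : Subgroup G, IsPGroup p Q → ∃ x ∈ Subgroup.centralizer ((Q ⊓ (S : Subgroup G) : Subgroup G) : Set G), Q.map (MulAut.conj x).toMonoidHom ≤ (S : Subgroup G) := by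
  have hKU := pPrimeCore_sup_normalizer hpl S
  have hSU : (S : Subgroup G) ≤ Subgroup.normalizer ((S : Subgroup G) : Set G) := Subgroup.le_normalizer
  refine ⟨?_, ?_, ?_⟩
  · intro hS
    have h1 := (Cfsg.Agent.S1460.result (pPrimeCore p G) _ (S : Subgroup G) hKU hSU
      (coprime_of_le_sylow p S _ le_rfl)).1
    rw [inf_eq_left.mpr hS] at h1
    exact h1.le.trans inf_le_right
  · intro Y x hY hxY
    have hH : Subgroup.closure Y ≤ (S : Subgroup G) := (Subgroup.closure_le _).mpr hY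
    have h3 := (Cfsg.Agent.S1460.result (pPrimeCore p G) _ (Subgroup.closure Y) hKU (hH.trans hSU)
      (coprime_of_le_sylow p S _ hH)).2.2 x (by
        rw [MonoidHom.map_closure]
        refine le_trans ?_ hSU
        rw [Subgroup.closure_le]
        exact hxY)
    obtain ⟨u, hu, c, hc, rfl⟩ := h3
    refine ⟨u, hu, c, ?_, rfl⟩
    exact Subgroup.centralizer_le Subgroup.subset_closure hc.2
  · intro Q hQ
    obtain ⟨P, hP⟩ := hQ.exists_le_sylow
    obtain ⟨g, hg⟩ := MulAction.exists_smul_eq G P S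
    have hgQ : ∀ y ∈ Q, g * y * g⁻¹ ∈ S := by
      intro y hy
      rw [← hg]
      exact ⟨y, hP hy, rfl⟩
    have hgtop : g ∈ ((Subgroup.normalizer ((S : Subgroup G) : Set G) ⊔ pPrimeCore p G : Subgroup G) : Set G) := by
      rw [sup_comm, hKU]; trivial
    rw [Subgroup.mul_normal] at hgtop
    obtain ⟨n, hn, k, hk, rfl⟩ := Set.mem_mul.mp hgtop
    have hk' : k ∈ pPrimeCore p G := hk
    have hkQ : ∀ y ∈ Q, k * y * k⁻¹ ∈ (S : Subgroup G) := by
      intro y hy
      have h1 := hgQ y hy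
      have h2 : n⁻¹ ∈ Subgroup.normalizer ((S : Subgroup G) : Set G) := Subgroup.inv_mem _ hn
      have h3 := (Subgroup.mem_normalizer_iff.mp h2 _).mp h1
      have h4 : n⁻¹ * (n * k * y * (n * k)⁻¹) * n⁻¹⁻¹ = k * y * k⁻¹ := by group
      rwa [h4] at h3
    refine ⟨k, ?_, ?_⟩
    · rw [Subgroup.mem_centralizer_iff]
      intro y hy
      have hyQ : y ∈ Q := hy.1
      have hyS : y ∈ (S : Subgroup G) := hy.2
      have h1 : k * y * k⁻¹ * y⁻¹ ∈ (S : Subgroup G) := Subgroup.mul_mem _ (hkQ y hyQ) (Subgroup.inv_mem _ hyS)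
      have h2 : k * y * k⁻¹ * y⁻¹ ∈ pPrimeCore p G := by
        have : k * y * k⁻¹ * y⁻¹ = k * (y * k⁻¹ * y⁻¹) := by group
        rw [this]
        exact Subgroup.mul_mem _ hk' ((Cfsg.pPrimeCore_normal p G).conj_mem _ (Subgroup.inv_mem _ hk') y)
      have hdisj : Disjoint (S : Subgroup G) (pPrimeCore p G) :=
        Subgroup.disjoint_of_coprime_natCard (coprime_of_le_sylow p S _ le_rfl)
      have h3 : k * y * k⁻¹ * y⁻¹ = 1 := Subgroup.disjoint_def.mp hdisj h1 h2
      calc y * k = (k * y * k⁻¹ * y⁻¹)⁻¹ * (k * y) := by group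
        _ = k * y := by rw [h3]; group
    · rintro _ ⟨y, hy, rfl⟩
      exact hkQ y hy

end Cfsg.Agent.S1461
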