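import Cfsg.Statements.S1471
import Cfsg.Agent.Lib.H31NSBound
import Cfsg.Agent.Lib.H31NSNum
import Cfsg.Agent.Lib.H31NSKer
import Cfsg.Agent.Lib.H31NSCubic
import Cfsg.Agent.Lib.H31NSRoot
import Cfsg.Agent.Lib.H31NSNorm

set_option autoImplicit false
open Cfsg

namespace Cfsg.Agent.S1471

open Polynomial Cfsg.Agent.Lib.H31NSDefs in
/-- Let p and q be odd primes with (p^q − 1)/(p − 1) coprime to p − 1. Then there are at least two elements a of the field with p ^ q elements such that both a and 2 − a have norm 1 to the prime field. -/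
theorem result (p q : ℕ) [Fact p.Prime] [Fact q.Prime] (hp : p ≠ 2) (hq : q ≠ 2) (hA : Nat.Coprime ((p ^ q - 1) / (p - 1)) (p - 1)) :
    2 ≤ Set.ncard {a : GaloisField p q | Algebra.norm (ZMod p) a = 1 ∧ Algebra.norm (ZMod p) (2 - a) = 1} := by
  classical
  have hqp : q.Prime := Fact.out
  have hpp : p.Prime := Fact.out
  have hq0 : q ≠ 0 := hqp.ne_zero
  have hq3 : 3 ≤ q := by
    have := hqp.two_le
    omega
  rcases eq_or_lt_of_le hq3 with h3 | h3
  · subst h3
    obtain ⟨c, hc⟩ := Cfsg.Agent.Lib.H31NSCubic.exists_c p hp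
    set f : (ZMod p)[X] := X * (X - 2) * (X - C c) + X - 1 with hf
    have hfe : f = X ^ 3 + (C (-(c + 2)) * X ^ 2 + C (2 * c + 1) * X + C (-1)) := by
      rw [hf]
      simp only [map_neg, map_add, map_mul, map_one, map_ofNat]
      ring
    have hdeg : (C (-(c + 2)) * X ^ 2 + C (2 * c + 1) * X + C (-1) : (ZMod p)[X]).degree < 3 := by
      refine lt_of_le_of_lt degree_quadratic_le ?_
      norm_num
    have hmon : f.Monic := by
      rw [hfe]
      exact monic_X_pow_add (n := 3) (by exact_mod_cast hdeg)
    have hnd : f.natDegree = 3 := by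
      rw [hfe, natDegree_add_eq_left_of_degree_lt (by rw [degree_X_pow]; exact_mod_cast hdeg),
        natDegree_X_pow]
    have hev : ∀ x : ZMod p, f.eval x = x * (x - 2) * (x - c) + x - 1 := by
      intro x
      rw [hf]
      simp
    obtain ⟨hirr, a, ha⟩ := Cfsg.Agent.Lib.H31NSRoot.exists_root p f hmon hnd
      (fun x => by rw [hev]; exact hc x)
    have hfr : f.natDegree = Module.finrank (ZMod p) (GaloisField p 3) := by
      rw [hnd, GaloisField.finrank p (by norm_num)]
    have hN := Cfsg.Agent.Lib.H31NSNorm.norm_sub_eq_eval f hmon hirr hfr a ha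
    have h1 : Algebra.norm (ZMod p) a = 1 := by
      have h := hN 0
      rw [hev, map_zero, zero_sub] at h
      have h' : Algebra.norm (ZMod p) (-a) = - Algebra.norm (ZMod p) a := by
        have : (-a) = algebraMap (ZMod p) (GaloisField p 3) (-1) * a := by simp
        rw [this, map_mul, Algebra.norm_algebraMap, GaloisField.finrank p (by norm_num)]
        ring
      rw [h'] at h
      have : Algebra.norm (ZMod p) a = -(0 * (0 - 2) * (0 - c) + 0 - 1) := by rw [← h]; ring
      rw [this]; ring
    have h2 : Algebra.norm (ZMod p) (2 - a) = 1 := by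
      have h := hN 2
      rw [hev, map_ofNat] at h
      rw [h]; ring
    have ha1 : a ≠ 1 := by
      intro h
      rw [h] at ha
      have : aeval (1 : GaloisField p 3) f = algebraMap (ZMod p) (GaloisField p 3) (f.eval 1) := by
        rw [← map_one (algebraMap (ZMod p) (GaloisField p 3)), aeval_algebraMap_apply]
        simp
      rw [this, map_eq_zero, hev] at ha
      exact hc 1 ha
    have hsub : ({1, a} : Set (GaloisField p 3)) ⊆
        {a : GaloisField p 3 | Algebra.norm (ZMod p) a = 1 ∧ Algebra.norm (ZMod p) (2 - a) = 1} := by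
      intro x hx
      rcases hx with rfl | hx
      · refine ⟨map_one _, ?_⟩
        have : (2 : GaloisField p 3) - 1 = 1 := by ring
        rw [this, map_one]
      · rw [Set.mem_singleton_iff] at hx
        subst hx
        exact ⟨h1, h2⟩
    calc 2 = Set.ncard ({1, a} : Set (GaloisField p 3)) := (Set.ncard_pair (Ne.symm ha1)).symm
      _ ≤ _ := Set.ncard_le_ncard hsub (Set.toFinite _)
  · have hq5 : 5 ≤ q := by
      have h4 : q ≠ 4 := by
        intro h
        rw [h] at hqp
        exact absurd hqp (by norm_num)
      omega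
    have : Fintype (GaloisField p q) := Fintype.ofFinite _
    set U : Finset (GaloisField p q) :=
      Finset.univ.filter (fun a => Algebra.norm (ZMod p) a = 1) with hU
    have hmem : ∀ a, a ∈ U ↔ Algebra.norm (ZMod p) a = 1 := by
      intro a; simp [hU]
    have hUmul : ∀ s ∈ U, ∀ t ∈ U, s * t ∈ U := by
      intro s hs t ht
      rw [hmem] at *
      rw [map_mul, hs, ht, one_mul]
    have hU0 : (0 : GaloisField p q) ∉ U := by
      rw [hmem, Algebra.norm_zero]
      exact zero_ne_one
    have hUcard : U.card = (p ^ q - 1) / (p - 1) := by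
      rw [← Cfsg.Agent.Lib.H31NSKer.ncard_norm_one p q hq0, ← Set.ncard_coe_finset]
      congr 1
      ext a
      simp [hmem]
    have hFcard : Fintype.card (GaloisField p q) = p ^ q := by
      rw [← Nat.card_eq_fintype_card, GaloisField.card p q hq0]
    have h2ne : (2 : GaloisField p q) ≠ 0 := by
      intro h
      have h' : ((2 : ℕ) : GaloisField p q) = 0 := by exact_mod_cast h
      rw [CharP.cast_eq_zero_iff (GaloisField p q) p] at h'
      have := (Nat.prime_dvd_prime_iff_eq hpp Nat.prime_two).mp h'
      exact hp this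
    have hB := Cfsg.Agent.Lib.H31NSBound.sq_le U hUmul hU0 2 h2ne
    rw [hFcard, hUcard] at hB
    have hr := Cfsg.Agent.Lib.H31NSNum.two_le p q (rep U 2) hpp.two_le hq5 hB
    have hrep : rep U 2 = Set.ncard {a : GaloisField p q |
        Algebra.norm (ZMod p) a = 1 ∧ Algebra.norm (ZMod p) (2 - a) = 1} := by
      unfold rep
      rw [← Set.ncard_coe_finset]
      refine Set.ncard_congr (fun ab _ => ab.1) ?_ ?_ ?_
      · rintro ⟨a, b⟩ hab
        simp only [Finset.coe_filter, Finset.mem_product, Set.mem_ofPred_eq, hmem] at hab ⊢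
        obtain ⟨⟨h1, h2⟩, h3⟩ := hab
        refine ⟨h1, ?_⟩
        have : 2 - a = b := by rw [← h3]; ring
        rw [this]; exact h2
      · rintro ⟨a, b⟩ ⟨a', b'⟩ hab hab' h
        simp only [Finset.coe_filter, Finset.mem_product, Set.mem_ofPred_eq] at hab hab' h
        have h3 := hab.2
        have h3' := hab'.2
        subst h
        have : b = b' := by
          have := h3.trans h3'.symm
          exact add_left_cancel this
        rw [this]
      · intro a ha
        refine ⟨(a, 2 - a), ?_, rfl⟩
        simp only [Finset.coe_filter, Finset.mem_product, Set.mem_ofPred_eq, hmem]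
        exact ⟨ha, by ring⟩
    rw [← hrep]
    exact hr

end Cfsg.Agent.S1471
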