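import Cfsg.Statements.S1475
import Mathlib

set_option autoImplicit false
open Cfsg

namespace Cfsg.Agent.S1475

universe u

def EPPO (G : Type*) [Group G] : Prop := ∀ g : G, IsPrimePow (orderOf g) ∨ g = 1

theorem eppo_commute {G : Type*} [Group G] [Finite G] (h : EPPO G) {x y : G} (hc : Commute x y)
    (hco : (orderOf x).Coprime (orderOf y)) : x = 1 ∨ y = 1 := by
  by_contra hcon
  rw [not_or] at hcon
  obtain ⟨hx, hy⟩ := hcon
  have ho := hc.orderOf_mul_eq_mul_orderOf_of_coprime hco
  have hxpos : 0 < orderOf x := orderOf_pos x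
  have hypos : 0 < orderOf y := orderOf_pos y
  rcases h (x * y) with hpp | h1
  · rw [ho] at hpp
    have := (Nat.Coprime.isPrimePow_dvd_mul hco hpp).mp dvd_rfl
    rcases this with h2 | h2
    · have := Nat.le_of_dvd hxpos h2
      have hy1 : orderOf y = 1 := by nlinarith
      exact hy (orderOf_eq_one_iff.mp hy1)
    · have := Nat.le_of_dvd hypos h2
      have hx1 : orderOf x = 1 := by nlinarith
      exact hx (orderOf_eq_one_iff.mp hx1)
  · rw [h1, orderOf_one] at ho
    have : orderOf x = 1 := Nat.eq_one_of_mul_eq_one_right ho.symm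
    exact hx (orderOf_eq_one_iff.mp this)

theorem exists_normal_abelian (G : Type*) [Group G] [hs : Group.IsSolvable G] [Nontrivial G] :
    ∃ A : Subgroup G, A.Normal ∧ IsMulCommutative A ∧ A ≠ ⊥ := by
  classical
  have hex := hs.solvable
  have hk : derivedSeries G (Nat.find hex) = ⊥ := Nat.find_spec hex
  have hk0 : Nat.find hex ≠ 0 := by
    intro h0
    rw [h0, derivedSeries_zero] at hk
    exact top_ne_bot hk
  obtain ⟨j, hj⟩ : ∃ j, Nat.find hex = j + 1 := ⟨Nat.find hex - 1, by omega⟩
  refine ⟨derivedSeries G j, derivedSeries_normal G j, ?_, Nat.find_min hex (by omega)⟩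
  rw [hj, derivedSeries_succ] at hk
  rw [Subgroup.commutator_eq_bot_iff_le_centralizer] at hk
  refine IsMulCommutative.of_comm ?_
  rintro ⟨a, ha⟩ ⟨b, hb⟩
  ext
  exact (Subgroup.mem_centralizer_iff.mp (hk hb) a ha)

theorem norm_trick {V X : Type*} [CommGroup V] [Finite V] [Group X] [Finite X] (φ : X →* MulAut V)
    (hfpf : ∀ x : X, x ≠ 1 → ∀ v : V, φ x v = v → v = 1)
    (M : Subgroup X) [hMn : M.Normal] (hM : M ≠ ⊥) (t0 : X) (t : ℕ) (ht : t.Prime)
    (hpow : ∀ m ∈ M, (m * t0) ^ t = 1) (hne : ∀ m ∈ M, m * t0 ≠ 1)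
    (hcop : (Nat.card M).Coprime (Nat.card V)) : ∀ v : V, v = 1 := by
  classical
  have : Fintype M := Fintype.ofFinite M
  intro v
  have hPM : ∀ w : V, ∏ m : M, φ (m : X) w = 1 := by
    intro w
    obtain ⟨m', hm', hm'1⟩ : ∃ m' ∈ M, m' ≠ 1 := (Subgroup.ne_bot_iff_exists_ne_one).mp hM |>.elim
      (fun m hm => ⟨m.1, m.2, fun h => hm (Subtype.ext h)⟩)
    apply hfpf m' hm'1
    rw [map_prod]
    have : ∀ m : M, φ m' (φ (m : X) w) = φ (((⟨m', hm'⟩ : M) * m : M) : X) w := by
      intro m; simp [map_mul]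
    simp_rw [this]
    exact Fintype.prod_equiv (Equiv.mulLeft (⟨m', hm'⟩ : M)) _ _ (fun _ => rfl)
  have hN : ∀ g : X, g ≠ 1 → g ^ t = 1 → ∀ w, ∏ j ∈ Finset.range t, φ (g ^ j) w = 1 := by
    intro g hg hgt w
    apply hfpf g hg
    rw [map_prod]
    have : ∀ j, φ g (φ (g ^ j) w) = φ (g ^ (j + 1)) w := by
      intro j; rw [pow_succ', map_mul]; rfl
    simp_rw [this]
    have e1 := Finset.prod_range_succ (fun j => φ (g ^ j) w) t
    have e2 := Finset.prod_range_succ' (fun j => φ (g ^ j) w) t
    rw [e1] at e2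
    simp only [hgt, pow_zero] at e2
    exact (mul_right_cancel e2).symm
  have hmem : ∀ m ∈ M, ∀ j : ℕ, (m * t0) ^ j * (t0 ^ j)⁻¹ ∈ M := by
    intro m hm j
    induction j with
    | zero => simp
    | succ j ih =>
      have : (m * t0) ^ (j + 1) * (t0 ^ (j + 1))⁻¹ =
          ((m * t0) ^ j * (t0 ^ j)⁻¹) * (t0 ^ j * m * (t0 ^ j)⁻¹) := by
        rw [pow_succ, pow_succ]; group
      rw [this]
      exact M.mul_mem ih (hMn.conj_mem m hm _)
  have h1 : ∏ m : M, ∏ j ∈ Finset.range t, φ (((m : X) * t0) ^ j) v = 1 :=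
    Finset.prod_eq_one (fun m _ => hN _ (hne m m.2) (hpow m m.2) v)
  rw [Finset.prod_comm] at h1
  obtain ⟨t', rfl⟩ : ∃ t', t = t' + 1 := ⟨t - 1, by have := ht.pos; omega⟩
  rw [Finset.prod_range_succ'] at h1
  have h2 : ∀ j ∈ Finset.range t', ∏ m : M, φ (((m : X) * t0) ^ (j + 1)) v = 1 := by
    intro j hj
    rw [Finset.mem_range] at hj
    set β : M → M := fun m => ⟨((m : X) * t0) ^ (j + 1) * (t0 ^ (j + 1))⁻¹, hmem m m.2 (j + 1)⟩ with hβ
    have hcop' : Nat.Coprime (j + 1) (t' + 1) := by
      apply Nat.Coprime.symm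
      rw [ht.coprime_iff_not_dvd]
      intro hd
      have := Nat.le_of_dvd (Nat.succ_pos j) hd
      omega
    obtain ⟨j', -, hj'⟩ := Nat.exists_mul_mod_eq_one_of_coprime hcop' ht.one_lt
    have hinj : Function.Injective β := by
      intro m m' hmm
      have h3 : ((m : X) * t0) ^ (j + 1) = ((m' : X) * t0) ^ (j + 1) := by
        have := congrArg Subtype.val hmm
        simp only [hβ] at this
        exact mul_right_cancel this
      have h4 : ∀ m : M, ((m : X) * t0) = (((m : X) * t0) ^ (j + 1)) ^ j' := by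
        intro m
        rw [← pow_mul, pow_eq_pow_mod _ (hpow m m.2), hj', pow_one]
      have h5 : (m : X) * t0 = (m' : X) * t0 := by rw [h4 m, h4 m', h3]
      exact Subtype.ext (mul_right_cancel h5)
    have hbij : Function.Bijective β := Finite.injective_iff_bijective.mp hinj
    have h6 : ∀ m : M, φ (((m : X) * t0) ^ (j + 1)) v = φ ((β m : M) : X) (φ (t0 ^ (j + 1)) v) := by
      intro m
      rw [← MulAut.mul_apply, ← map_mul]
      simp [hβ]
    simp_rw [h6]
    rw [hbij.prod_comp (fun m : M => φ (m : X) (φ (t0 ^ (j + 1)) v))]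
    exact hPM _
  rw [Finset.prod_eq_one h2, one_mul] at h1
  simp only [pow_zero, map_one, MulAut.one_apply, Finset.prod_const, Finset.card_univ] at h1
  have hd1 : orderOf v ∣ Nat.card M := by
    rw [Nat.card_eq_fintype_card]; exact orderOf_dvd_of_pow_eq_one h1
  have hd2 : orderOf v ∣ Nat.card V := orderOf_dvd_natCard v
  have := Nat.eq_one_of_dvd_coprimes hcop hd1 hd2
  exact orderOf_eq_one_iff.mp this

theorem eppo_quotient {G : Type*} [Group G] [Finite G] (h : EPPO G) (N : Subgroup G) [N.Normal] :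
    EPPO (G ⧸ N) := by
  intro x
  obtain ⟨g, rfl⟩ := QuotientGroup.mk'_surjective N x
  by_cases hx : QuotientGroup.mk' N g = 1
  · right; exact hx
  · left
    rcases h g with hg | hg
    · exact hg.dvd (orderOf_map_dvd (QuotientGroup.mk' N) g) (fun h1 => hx (orderOf_eq_one_iff.mp h1))
    · subst hg; exact absurd (map_one _) hx

theorem eppo_subgroup {G : Type*} [Group G] (h : EPPO G) (K : Subgroup G) : EPPO K := by
  intro x
  rcases h x with hx | hx
  · left; rwa [Subgroup.orderOf_coe] at hx
  · right; exact Subtype.ext hx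

theorem abelian_eppo {G : Type*} [Group G] [Finite G] (h : EPPO G) (hc : ∀ a b : G, a * b = b * a) :
    (Nat.card G).primeFactors.card ≤ 1 := by
  rw [Finset.card_le_one]
  intro p hp q hq
  by_contra hne
  have hpp := Nat.prime_of_mem_primeFactors hp
  have hqq := Nat.prime_of_mem_primeFactors hq
  have := Fact.mk hpp
  have := Fact.mk hqq
  obtain ⟨x, hx⟩ := exists_prime_orderOf_dvd_card' p (Nat.dvd_of_mem_primeFactors hp)
  obtain ⟨y, hy⟩ := exists_prime_orderOf_dvd_card' q (Nat.dvd_of_mem_primeFactors hq)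
  rcases eppo_commute h (hc x y) (by rw [hx, hy]; exact (Nat.coprime_primes hpp hqq).mpr hne) with h1 | h1
  · rw [h1, orderOf_one] at hx; exact hpp.one_lt.ne hx
  · rw [h1, orderOf_one] at hy; exact hqq.one_lt.ne hy

theorem coset_pow_mem {X : Type*} [Group X] (M : Subgroup X) [hMn : M.Normal] (t0 : X) :
    ∀ m ∈ M, ∀ j : ℕ, (m * t0) ^ j * (t0 ^ j)⁻¹ ∈ M := by
  intro m hm j
  induction j with
  | zero => simp
  | succ j ih =>
    have : (m * t0) ^ (j + 1) * (t0 ^ (j + 1))⁻¹ =
        ((m * t0) ^ j * (t0 ^ j)⁻¹) * (t0 ^ j * m * (t0 ^ j)⁻¹) := by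
      rw [pow_succ, pow_succ]; group
    rw [this]
    exact M.mul_mem ih (hMn.conj_mem m hm _)

theorem coset_pow_eq_one {K : Type*} [Group K] [Finite K] (h : EPPO K) (M : Subgroup K) [hMn : M.Normal]
    (t0 : K) (t : ℕ) (ht : t.Prime) (ht0 : orderOf t0 = t) (htM : ¬ t ∣ Nat.card M) :
    ∀ m ∈ M, (m * t0) ^ t = 1 ∧ m * t0 ≠ 1 := by
  intro m hm
  have hord : ∀ x ∈ M, orderOf x ∣ Nat.card M := by
    intro x hx
    have := orderOf_dvd_natCard (⟨x, hx⟩ : M)
    rwa [← Subgroup.orderOf_coe] at this
  have ht0M : ∀ j : ℕ, t0 ^ j ∈ M → t0 ^ j = 1 := by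
    intro j hj
    have h1 := hord _ hj
    have h2 : orderOf (t0 ^ j) ∣ t := by rw [← ht0]; exact orderOf_pow_dvd j
    rcases (Nat.dvd_prime ht).mp h2 with h3 | h3
    · exact orderOf_eq_one_iff.mp h3
    · rw [h3] at h1; exact absurd h1 htM
  have hne : m * t0 ≠ 1 := by
    intro h1
    have : t0 ^ 1 ∈ M := by
      rw [pow_one, eq_inv_of_mul_eq_one_right h1]
      exact M.inv_mem hm
    have := ht0M 1 this
    rw [pow_one] at this
    rw [this, orderOf_one] at ht0
    exact ht.one_lt.ne ht0
  refine ⟨?_, hne⟩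
  set g := m * t0 with hg
  have hmem := coset_pow_mem M t0 m hm
  have hpp : IsPrimePow (orderOf g) := (h g).resolve_right hne
  have htdvd : t ∣ orderOf g := by
    have h1 := hmem (orderOf g)
    rw [← hg, pow_orderOf_eq_one, one_mul] at h1
    have h2 := ht0M _ (by simpa using M.inv_mem h1)
    rw [← ht0]
    exact orderOf_dvd_of_pow_eq_one h2
  obtain ⟨r, k, hr, hk, hrk⟩ := (isPrimePow_nat_iff _).mp hpp
  have hrt : t = r := (Nat.prime_dvd_prime_iff_eq ht hr).mp (ht.dvd_of_dvd_pow (hrk ▸ htdvd))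
  subst hrt
  have hgt : g ^ t ∈ M := by
    have h1 := hmem t
    rw [← ht0, pow_orderOf_eq_one, inv_one, mul_one, ht0] at h1
    exact h1
  have h1 := hord _ hgt
  have h2 : orderOf (g ^ t) ∣ t ^ k := by rw [hrk]; exact orderOf_pow_dvd t
  have hc : Nat.Coprime (t ^ k) (Nat.card M) :=
    Nat.Coprime.pow_left k ((Nat.Prime.coprime_iff_not_dvd ht).mpr htM)
  exact orderOf_eq_one_iff.mp (Nat.eq_one_of_dvd_coprimes hc h2 h1)

open scoped IsMulCommutative in
theorem main (n : ℕ) : ∀ (G : Type u) [Group G] [Finite G] [Group.IsSolvable G], Nat.card G = n → EPPO G →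
    (Nat.card G).primeFactors.card ≤ 2 := by
  induction n using Nat.strong_induction_on with
  | _ n ih =>
    intro G _ _ _ hn h
    rcases subsingleton_or_nontrivial G with hs | hnt
    · simp
    obtain ⟨A, hAn, hAc, hA⟩ := exists_normal_abelian G
    have hAcard : 1 < Nat.card A := A.one_lt_card_iff_ne_bot.mpr hA
    have hmul : Nat.card A * A.index = Nat.card G := Subgroup.card_mul_index A
    have hipos : 0 < A.index := Nat.pos_of_ne_zero (Subgroup.index_ne_zero_of_finite)
    have hlt : Nat.card (G ⧸ A) < n := by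
      rw [← hn, ← hmul]
      show A.index < _
      nlinarith
    have hQ : (A.index).primeFactors.card ≤ 2 := ih _ hlt (G ⧸ A) rfl (eppo_quotient h A)
    have hA1 : (Nat.card A).primeFactors.card ≤ 1 :=
      abelian_eppo (eppo_subgroup h A) (fun a b => mul_comm' a b)
    have hpf : (Nat.card G).primeFactors = (Nat.card A).primeFactors ∪ (A.index).primeFactors := by
      rw [← hmul, Nat.primeFactors_mul (by omega) (by omega)]
    by_cases hcop : Nat.Coprime (Nat.card A) A.index
    swap
    · obtain ⟨p, hp, hpA, hpI⟩ := Nat.Prime.not_coprime_iff_dvd.mp hcop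
      have h1 : (Nat.card A).primeFactors ⊆ (A.index).primeFactors := by
        intro r hr
        have hpmem : p ∈ (Nat.card A).primeFactors := Nat.mem_primeFactors.mpr ⟨hp, hpA, by omega⟩
        have : r = p := Finset.card_le_one.mp hA1 r hr p hpmem
        rw [this]
        exact Nat.mem_primeFactors.mpr ⟨hp, hpI, by omega⟩
      rw [hpf, Finset.union_eq_right.mpr h1]
      exact hQ
    by_cases hI1 : (A.index).primeFactors.card ≤ 1
    · rw [hpf]
      exact (Finset.card_union_le _ _).trans (by omega)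
    exfalso
    obtain ⟨K, hK⟩ := Subgroup.exists_right_complement'_of_coprime hcop
    have hKcard : Nat.card K = A.index := by
      have := hK.card_mul_card
      rw [← hmul] at this
      exact Nat.eq_of_mul_eq_mul_left (by omega) this
    have hKnt : Nontrivial K := by
      rw [← Finite.one_lt_card_iff_nontrivial, hKcard]
      by_contra hle
      have : A.index = 1 := by omega
      rw [this] at hI1
      simp at hI1
    have hKe : EPPO K := eppo_subgroup h K
    obtain ⟨M, hMn, hMc, hM⟩ := exists_normal_abelian K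
    have hM1 : (Nat.card M).primeFactors.card ≤ 1 :=
      abelian_eppo (eppo_subgroup hKe M) (fun a b => mul_comm' a b)
    obtain ⟨t, htK, htM⟩ : ∃ t ∈ (Nat.card K).primeFactors, t ∉ (Nat.card M).primeFactors := by
      apply Finset.exists_mem_notMem_of_card_lt_card
      rw [hKcard]; omega
    have ht := Nat.prime_of_mem_primeFactors htK
    have := Fact.mk ht
    have htM' : ¬ t ∣ Nat.card M := fun hd =>
      htM (Nat.mem_primeFactors.mpr ⟨ht, hd, Nat.card_pos.ne'⟩)
    obtain ⟨t0, ht0⟩ := exists_prime_orderOf_dvd_card' t (Nat.dvd_of_mem_primeFactors htK)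
    have hco := coset_pow_eq_one hKe M t0 t ht ht0 htM'
    have hfin := norm_trick (V := A) (X := K) ((MulAut.conjNormal (H := A)).comp K.subtype)
      (by
        intro x hx v hv
        have h1 : (x : G) * v * (x : G)⁻¹ = v := congrArg Subtype.val hv
        have h2 : Commute (x : G) (v : G) := by
          show (x : G) * v = v * x
          calc (x : G) * v = (x : G) * v * (x : G)⁻¹ * x := by group
            _ = v * x := by rw [h1]
        have h3 : (orderOf (x : G)).Coprime (orderOf (v : G)) := by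
          rw [Subgroup.orderOf_coe, Subgroup.orderOf_coe]
          apply Nat.Coprime.coprime_dvd_left (orderOf_dvd_natCard x)
          apply Nat.Coprime.coprime_dvd_right (orderOf_dvd_natCard v)
          rw [hKcard]; exact hcop.symm
        rcases eppo_commute h h2 h3 with h4 | h4
        · exact absurd (Subtype.ext h4) hx
        · exact Subtype.ext h4)
      M hM t0 t ht (fun m hm => (hco m hm).1) (fun m hm => (hco m hm).2)
      (by
        apply Nat.Coprime.coprime_dvd_left (Subgroup.card_subgroup_dvd_card M)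
        rw [hKcard]; exact hcop.symm)
    apply hA
    rw [Subgroup.eq_bot_iff_forall]
    intro a ha
    exact congrArg Subtype.val (hfin ⟨a, ha⟩)

/-- Let G be a finite solvable group such that the order of every element is a prime power (1 included). Then at most two distinct primes divide the order of G. -/
theorem result {G : Type*} [Group G] [Finite G] [Group.IsSolvable G] (h : ∀ g : G, IsPrimePow (orderOf g) ∨ g = 1) :
    (Nat.card G).primeFactors.card ≤ 2 := by
  exact main _ G rfl h

end Cfsg.Agent.S1475
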