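import Cfsg.Statements.S1480
import Cfsg.Agent.Lib.Helper30Thompson

set_option autoImplicit false
open Cfsg

namespace Cfsg.Agent.S1480

open Subgroup Cfsg.Agent.Lib.Helper30Thompson Cfsg.Agent.Lib.Helper30Trans
open scoped commutatorElement

theorem class_two_of_nilpotencyClass {S : Type*} [Group S] [Group.IsNilpotent S]
    (h : Group.nilpotencyClass S ≤ 2) (x y z : S) : ⁅x, y⁆ * z = z * ⁅x, y⁆ := by
  have h1 : Subgroup.lowerCentralSeries (⊤ : Subgroup S) 2 = ⊥ :=
    Subgroup.lowerCentralSeries_eq_bot_iff_nilpotencyClass_le.mpr h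
  have h2 : ⁅⁅x, y⁆, z⁆ ∈ Subgroup.lowerCentralSeries (⊤ : Subgroup S) 2 := by
    rw [Subgroup.lowerCentralSeries_succ, Subgroup.lowerCentralSeries_succ, Subgroup.lowerCentralSeries_zero]
    exact commutator_mem_commutator (commutator_mem_commutator (mem_top x) (mem_top y)) (mem_top z)
  rw [h1, mem_bot, commutatorElement_eq_one_iff_mul_comm] at h2
  exact h2

/-- Let G be a finite group and p a prime such that the normalizer of every nontrivial p-subgroup of G is p-constrained; if p = 2 assume also that the Sylow 2-subgroups of G have nilpotency class at most 2. Let E be an abelian p-subgroup containing an elementary abelian subgroup of order p ^ 3 and containing every element of p-power order of C_G(E). Then for every prime q ≠ p, any two maximal E-invariant q-subgroups of G are conjugate by an element of O_{p'}(C_G(E)). -/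
theorem result {G : Type*} [Group G] [Finite G] (p : ℕ) [Fact p.Prime]
    (hloc : ∀ T : Subgroup G, IsPGroup p T → T ≠ ⊥ → Cfsg.IsPConstrained p ↥(Subgroup.normalizer (T : Set G)))
    (h2 : p = 2 → ∀ S : Sylow p G, Group.IsNilpotent (S : Subgroup G) ∧ Group.nilpotencyClass (S : Subgroup G) ≤ 2)
    (E : Subgroup G) (hEp : IsPGroup p E) (hEc : IsMulCommutative E) (hE3 : ¬ Cfsg.PRankLE p 2 E)
    (hEfull : ∀ x ∈ Subgroup.centralizer (E : Set G), IsPGroup p (Subgroup.zpowers x) → x ∈ E)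
    (q : ℕ) [Fact q.Prime] (hqp : q ≠ p) :
    ∀ Q₁ ∈ Cfsg.maxInvSubgroups ⊤ E {q}, ∀ Q₂ ∈ Cfsg.maxInvSubgroups ⊤ E {q},
        ∃ k ∈ Cfsg.piCoreOf (Cfsg.primesNotDvd p) (Subgroup.centralizer (E : Set G)), Q₂ = Q₁.map (MulAut.conj k).toMonoidHom := by
  have hp : p.Prime := Fact.out
  obtain ⟨B, hBE, _, hBp, hBcard⟩ := exists_elemAb_of_not_pRankLE hE3
  have hB3 : p ^ 3 ≤ Nat.card B := by
    obtain ⟨k, hk⟩ := IsPGroup.iff_card.mp (hEp.to_le hBE)
    rw [hk] at hBcard ⊢
    have : 2 < k := (Nat.pow_lt_pow_iff_right hp.one_lt).mp hBcard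
    exact Nat.pow_le_pow_right hp.pos this
  have hcl : p = 2 → ∀ S : Subgroup G, IsPGroup p S →
      ∀ x ∈ S, ∀ y ∈ S, ∀ z ∈ S, ⁅x, y⁆ * z = z * ⁅x, y⁆ := by
    intro hp2 S hS x hx y hy z hz
    obtain ⟨S', hSS'⟩ := hS.exists_le_sylow
    obtain ⟨hn, hc⟩ := h2 hp2 S'
    have := class_two_of_nilpotencyClass hc ⟨x, hSS' hx⟩ ⟨y, hSS' hy⟩ ⟨z, hSS' hz⟩
    exact congrArg Subtype.val this
  exact thompson_transitivity p hloc hcl E hEp hEc B hBE hBp hB3 hEfull q hqp

end Cfsg.Agent.S1480
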