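import Cfsg.Statements.S1487
import Mathlib
import Cfsg.Agent.Lib.Helper5Cliff2
import Cfsg.Agent.Lib.Helper82Irr

set_option autoImplicit false
open Cfsg

namespace Cfsg.Agent.S1487

/-- Let A ≤ H be normal subgroups of the finite group G and θ an irreducible character of H. Then θ takes the value θ 1 on all of A if and only if the function induced from θ to G takes its value at 1 on all of A. -/
theorem result {G : Type*} [Group G] [Fintype G] (A H : Subgroup G) [A.Normal] [H.Normal] (hAH : A ≤ H) (θ : H → ℂ) (hθ : Cfsg.IsIrrCharacter H θ) : (∀ a : H, (a : G) ∈ A → θ a = θ 1) ↔ (∀ a : G, a ∈ A → Cfsg.indFun H θ a = Cfsg.indFun H θ 1) := by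
  classical
  have hAn : ∀ (a : G), a ∈ A → ∀ x : G, x⁻¹ * a * x ∈ A := by
    intro a ha x
    have := (inferInstance : A.Normal).conj_mem a ha x⁻¹
    simpa using this
  have hone : ∀ x : G, Cfsg.extendByZero H θ (x⁻¹ * 1 * x) = θ 1 := by
    intro x
    have : x⁻¹ * 1 * x = ((1 : H) : G) := by simp
    rw [this, Lib.Helper19Ind.extendByZero_coe]
  constructor
  · intro h a ha
    rw [Lib.Helper19Ind.indFun_apply, Lib.Helper19Ind.indFun_apply]
    congr 1
    apply Finset.sum_congr rfl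
    intro x _
    rw [hone, Lib.Helper19Ind.extendByZero_of_mem H θ (hAH (hAn a ha x))]
    exact h _ (hAn a ha x)
  · intro h a ha
    have h1 := h a ha
    rw [Lib.Helper19Ind.indFun_apply, Lib.Helper19Ind.indFun_apply] at h1
    have h2 := mul_left_cancel₀ (inv_ne_zero (Lib.Helper19Ind.card_ne_zero H)) h1
    obtain ⟨n, -, hn⟩ := Lib.Helper4Char2.IsIrrCharacter.exists_degree hθ
    have hnorm : ‖θ 1‖ = (θ 1).re := by rw [hn]; simp
    have hle : ∀ x : G, (Cfsg.extendByZero H θ (x⁻¹ * a * x)).re ≤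
        (Cfsg.extendByZero H θ (x⁻¹ * 1 * x)).re := by
      intro x
      rw [hone, Lib.Helper19Ind.extendByZero_of_mem H θ (hAH (hAn a ha x)), ← hnorm]
      exact (Complex.re_le_norm _).trans (Lib.Helper82Irr.irr_norm_le ⟨θ, hθ⟩ _)
    have hsum := congrArg Complex.re h2
    rw [Complex.re_sum, Complex.re_sum] at hsum
    have h3 := (Finset.sum_eq_sum_iff_of_le (fun x _ => hle x)).mp hsum 1 (Finset.mem_univ 1)
    rw [hone] at h3
    have h4 : (1 : G)⁻¹ * (a : G) * 1 = (a : G) := by simp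
    rw [h4, Lib.Helper19Ind.extendByZero_coe] at h3
    have h5 : ‖θ a‖ ≤ (θ 1).re := by
      rw [← hnorm]; exact Lib.Helper82Irr.irr_norm_le ⟨θ, hθ⟩ a
    have h6 : ‖θ a‖ ^ 2 = (θ a).re ^ 2 + (θ a).im ^ 2 := by
      rw [Complex.sq_norm, Complex.normSq_apply]; ring
    have h7 : (θ a).im = 0 := by
      have h8 : ‖θ a‖ ^ 2 ≤ (θ 1).re ^ 2 := by
        apply pow_le_pow_left₀ (norm_nonneg _) h5
      rw [h6, h3] at h8
      have : (θ a).im ^ 2 ≤ 0 := by linarith
      have h9 : (θ a).im ^ 2 = 0 := le_antisymm this (sq_nonneg _)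
      exact pow_eq_zero_iff (two_ne_zero) |>.mp h9
    apply Complex.ext
    · exact h3
    · rw [h7, hn]; simp

end Cfsg.Agent.S1487
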