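import Cfsg.Statements.S1489
import Mathlib
import Cfsg.Agent.Lib.Helper5Cliff2

set_option autoImplicit false
open Cfsg

namespace Cfsg.Agent.S1489

open Lib.Helper4Char Lib.Helper4Char2 Lib.Helper4Char4 Lib.Helper19Ind Lib.Helper5Ind
  Lib.Helper19Cliff Lib.Helper5Cliff2

theorem conv {G : Type*} [Group G] [Fintype G] (H T : Subgroup G) [Fintype T] (θ : H → ℂ)
    (hHT : H ≤ T) (ψ : T → ℂ) (hψ : Cfsg.IsIrrCharacter T ψ)
    (hc : Cfsg.classInner (Cfsg.indFun (H.subgroupOf T)
      (fun x => θ ⟨(x : T), Subgroup.mem_subgroupOf.mp x.2⟩)) ψ ≠ 0) [Fintype H] :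
    Cfsg.classInner (fun n : H => ψ (Subgroup.inclusion hHT n)) θ ≠ 0 := by
  classical
  rw [Lib.Helper32Ind.frobenius (H.subgroupOf T) _ ψ (IsIrrCharacter.isClassFunction hψ)] at hc
  have h1 := classInner_comp_equiv (Subgroup.subgroupOfEquivOfLe hHT) θ
    (fun n : H => ψ (Subgroup.inclusion hHT n))
  have h2 : Cfsg.classInner θ (fun n : H => ψ (Subgroup.inclusion hHT n)) ≠ 0 := by
    rw [← h1]
    exact hc
  intro h3
  apply h2
  rw [← classInner_conj_symm, h3, map_zero]

/-- Let H be a normal subgroup of the finite group G, θ an irreducible character of H, and T the inertia group of θ (the elements g with θ(g h g⁻¹) = θ(h) for all h ∈ H). If ψ and ψ' are irreducible characters of T having nonzero inner product with the function induced from θ to T, then the function induced from ψ to G is an irreducible character of G, and it equals the one induced from ψ' only if ψ = ψ'. -/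
theorem result {G : Type*} [Group G] [Fintype G] (H T : Subgroup G) [hN : H.Normal] [Fintype T] (θ : H → ℂ) (hθ : Cfsg.IsIrrCharacter H θ) (hT : ∀ g : G, g ∈ T ↔ ∀ h : H, θ ⟨g * h * g⁻¹, hN.conj_mem h h.2 g⟩ = θ h) (hHT : H ≤ T) (ψ ψ' : T → ℂ) (hψ : Cfsg.IsIrrCharacter T ψ) (hψ' : Cfsg.IsIrrCharacter T ψ') (hc : Cfsg.classInner (Cfsg.indFun (H.subgroupOf T) (fun x => θ ⟨(x : T), Subgroup.mem_subgroupOf.mp x.2⟩)) ψ ≠ 0) (hc' : Cfsg.classInner (Cfsg.indFun (H.subgroupOf T) (fun x => θ ⟨(x : T), Subgroup.mem_subgroupOf.mp x.2⟩)) ψ' ≠ 0) : Cfsg.IsIrrCharacter G (Cfsg.indFun T ψ) ∧ (Cfsg.indFun T ψ = Cfsg.indFun T ψ' → ψ = ψ') := by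
  classical
  have hcc : ∀ (g : G) (n : H), T.subtype (Subgroup.inclusion hHT (MulAut.conjNormal g n)) =
      g * T.subtype (Subgroup.inclusion hHT n) * g⁻¹ := fun g n => MulAut.conjNormal_apply g n
  have hT' : ∀ g : G, g ∈ T.subtype.range ↔ ∀ n : H, θ (MulAut.conjNormal g n) = θ n := by
    intro g
    rw [Subgroup.range_subtype]
    exact hT g
  have h1 := conv H T θ hHT ψ hψ hc
  have h2 := conv H T θ hHT ψ' hψ' hc'
  constructor
  · rw [← ind_subtype]
    exact ind_inertia_isIrr T.subtype T.subtype_injective (Subgroup.inclusion hHT)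
      (Subgroup.inclusion_injective hHT) MulAut.conjNormal hcc hθ hT' hψ h1
  · intro heq
    rw [← ind_subtype, ← ind_subtype] at heq
    exact ind_inertia_injective T.subtype T.subtype_injective (Subgroup.inclusion hHT)
      (Subgroup.inclusion_injective hHT) MulAut.conjNormal hcc hθ hT' hψ hψ' h1 h2 heq

end Cfsg.Agent.S1489
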