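import Cfsg.Statements.S1493
import Cfsg.Agent.Lib.Helper79GalConj
import Cfsg.Agent.Lib.Helper4Char4

set_option autoImplicit false
open Cfsg

namespace Cfsg.Agent.S1493

open Cfsg.Agent.Lib.Helper4Char Cfsg.Agent.Lib.Helper4Char2 Cfsg.Agent.Lib.Helper4Char3
  Cfsg.Agent.Lib.Helper4Char4

theorem isCharacter_pow {G : Type*} [Group G] [Fintype G] {χ : G → ℂ} (hχ : Cfsg.IsCharacter G χ)
    (m : ℕ) (hm : m.Coprime (Nat.card G)) : Cfsg.IsCharacter G (fun g => χ (g ^ m)) := by
  classical
  obtain ⟨c, hc, -⟩ := IsCharacter.eq_sum_nat hχ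
  have : (fun g => χ (g ^ m)) =
      ∑ θ : Cfsg.IrrCharacter G, (c θ : ℂ) • (fun g => (θ : G → ℂ) (g ^ m)) := by
    funext g
    conv_lhs => rw [hc]
    simp [Finset.sum_apply]
  rw [this]
  refine IsCharacter.sum _ (fun θ _ => IsCharacter.natCast_smul _ ?_)
  exact IsIrrCharacter.isCharacter (Cfsg.Agent.Lib.Helper79GalConj.isIrrCharacter_pow θ.2 m hm)

/-- Let G be a finite group of order a * b with a and b coprime, let k be coprime to a, and let χ be a character of G. Then there is a character χ' of G such that χ'(g) = χ(g ^ k) whenever the order of g divides a and χ'(g) = χ(g) whenever the order of g is coprime to a; moreover χ' is irreducible if χ is. -/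
theorem result {G : Type*} [Group G] [Finite G] (a b k : ℕ) (hab : Nat.card G = a * b) (hcop : Nat.Coprime a b) (hk : Nat.Coprime k a) (χ : G → ℂ) (hχ : Cfsg.IsCharacter G χ) : ∃ χ' : G → ℂ, Cfsg.IsCharacter G χ' ∧ (Cfsg.IsIrrCharacter G χ → Cfsg.IsIrrCharacter G χ') ∧ (∀ g : G, orderOf g ∣ a → χ' g = χ (g ^ k)) ∧ (∀ g : G, Nat.Coprime (orderOf g) a → χ' g = χ g) := by
  classical
  haveI : Fintype G := Fintype.ofFinite G
  obtain ⟨m, hma, hmb⟩ := Nat.chineseRemainder hcop k 1
  have hm : m.Coprime (Nat.card G) := by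
    rw [hab]
    refine Nat.Coprime.mul_right ?_ ?_
    · have := hma.gcd_eq
      rw [Nat.Coprime, this]; exact hk
    · have := hmb.gcd_eq
      rw [Nat.Coprime, this]; simp
  refine ⟨fun g => χ (g ^ m), isCharacter_pow hχ m hm,
    fun h => Cfsg.Agent.Lib.Helper79GalConj.isIrrCharacter_pow h m hm, ?_, ?_⟩
  · intro g hg
    have : g ^ m = g ^ k := by
      rw [pow_eq_pow_iff_modEq]
      exact hma.of_dvd hg
    simp only [this]
  · intro g hg
    have hdiv : orderOf g ∣ b := by
      have h1 : orderOf g ∣ a * b := hab ▸ orderOf_dvd_natCard g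
      exact hg.dvd_of_dvd_mul_left h1
    have : g ^ m = g ^ 1 := by
      rw [pow_eq_pow_iff_modEq]
      exact hmb.of_dvd hdiv
    simp only [this, pow_one]

end Cfsg.Agent.S1493
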