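import Cfsg.Statements.S1494
import Cfsg.Agent.Lib.Helper4Char4

set_option autoImplicit false
open Cfsg

namespace Cfsg.Agent.S1494

open Cfsg.Agent.Lib.Helper4Char Cfsg.Agent.Lib.Helper4Char2 Cfsg.Agent.Lib.Helper4Char3
  Cfsg.Agent.Lib.Helper4Char4

/-- divisible by `1 - ε` in the ring of algebraic integers -/
def Good (ε z : ℂ) : Prop := ∃ ω : ℂ, IsIntegral ℤ ω ∧ z = (1 - ε) * ω

theorem Good.zero (ε : ℂ) : Good ε 0 := ⟨0, isIntegral_zero, by simp⟩

theorem Good.add {ε a b : ℂ} (ha : Good ε a) (hb : Good ε b) : Good ε (a + b) := by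
  obtain ⟨u, hu, rfl⟩ := ha
  obtain ⟨v, hv, rfl⟩ := hb
  exact ⟨u + v, hu.add hv, by ring⟩

theorem Good.sub {ε a b : ℂ} (ha : Good ε a) (hb : Good ε b) : Good ε (a - b) := by
  obtain ⟨u, hu, rfl⟩ := ha
  obtain ⟨v, hv, rfl⟩ := hb
  exact ⟨u - v, hu.sub hv, by ring⟩

theorem Good.mul {ε a t : ℂ} (ha : Good ε a) (ht : IsIntegral ℤ t) : Good ε (t * a) := by
  obtain ⟨u, hu, rfl⟩ := ha
  exact ⟨t * u, ht.mul hu, by ring⟩

theorem Good.sum {ε : ℂ} {ι : Type*} (s : Finset ι) (f : ι → ℂ) (h : ∀ i ∈ s, Good ε (f i)) :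
    Good ε (∑ i ∈ s, f i) := by
  classical
  induction s using Finset.induction_on with
  | empty => simpa using Good.zero ε
  | insert a s ha ih =>
    rw [Finset.sum_insert ha]
    exact (h a (Finset.mem_insert_self a s)).add
      (ih (fun i hi => h i (Finset.mem_insert_of_mem hi)))

theorem good_root {ε : ℂ} {p : ℕ} (hp : 0 < p) (hε : IsPrimitiveRoot ε p) {c : ℂ} (hc : c ^ p = 1) :
    Good ε (c - 1) := by
  haveI : NeZero p := ⟨hp.ne'⟩
  obtain ⟨j, -, rfl⟩ := hε.eq_pow_of_pow_eq_one hc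
  have hεi : IsIntegral ℤ ε := hε.isIntegral hp
  refine ⟨-∑ i ∈ Finset.range j, ε ^ i, (IsIntegral.sum _ (fun i _ => hεi.pow i)).neg, ?_⟩
  have := geom_sum_mul ε j
  linear_combination -this

theorem irr_central {A : Type*} [Group A] [Finite A] {θ : A → ℂ} (hθ : IsIrrCharacter A θ) (x y : A)
    (hx : ∀ a, x * a = a * x) (p : ℕ) (hxp : x ^ p = 1) :
    ∃ c : ℂ, c ^ p = 1 ∧ θ (x * y) = c * θ y := by
  obtain ⟨k, ρ, hirr, rfl⟩ := hθ
  obtain ⟨c, hc⟩ := schur_scalar ρ (ρ x) (by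
    intro g
    have h1 : ρ x ∘ₗ ρ g = ρ (x * g) := by rw [map_mul]; rfl
    have h2 : ρ g ∘ₗ ρ x = ρ (g * x) := by rw [map_mul]; rfl
    rw [h1, h2, hx])
  refine ⟨c, ?_, ?_⟩
  · have hpos := finrank_pos_of_irreducible ρ
    have h1 : (ρ x) ^ p = 1 := by rw [← map_pow, hxp, map_one]
    rw [hc] at h1
    have h2 : (c • (LinearMap.id : (Fin k → ℂ) →ₗ[ℂ] (Fin k → ℂ))) ^ p =
        (c ^ p) • (1 : Module.End ℂ (Fin k → ℂ)) := by
      rw [smul_pow]
      congr 1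
      exact one_pow p
    rw [h2] at h1
    have h3 := congrArg (LinearMap.trace ℂ (Fin k → ℂ)) h1
    rw [map_smul, LinearMap.trace_one, smul_eq_mul] at h3
    have h4 : (Module.finrank ℂ (Fin k → ℂ) : ℂ) ≠ 0 := Nat.cast_ne_zero.mpr hpos.ne'
    exact mul_right_cancel₀ h4 (by rw [h3, one_mul])
  · show LinearMap.trace ℂ _ (ρ (x * y)) = c * LinearMap.trace ℂ _ (ρ y)
    rw [map_mul, hc]
    have : (c • (LinearMap.id : (Fin k → ℂ) →ₗ[ℂ] (Fin k → ℂ))) * ρ y = c • ρ y := by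
      ext v
      simp
    rw [this, map_smul, smul_eq_mul]

theorem good_char {G : Type*} [Group G] [Finite G] {χ : G → ℂ} (hχ : IsCharacter G χ) (p : ℕ)
    (hp : 0 < p) {ε : ℂ} (hε : IsPrimitiveRoot ε p) (x y : G) (hx : x ^ p = 1)
    (hxy : x * y = y * x) : Good ε (χ (x * y) - χ y) := by
  classical
  set A : Subgroup G := Subgroup.centralizer {x} with hA
  have hxA : x ∈ A := by
    rw [hA, Subgroup.mem_centralizer_iff]
    intro h hh
    rw [Set.mem_singleton_iff.1 hh]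
  have hyA : y ∈ A := by
    rw [hA, Subgroup.mem_centralizer_iff]
    intro h hh
    rw [Set.mem_singleton_iff.1 hh, hxy]
  haveI : Fintype A := Fintype.ofFinite A
  obtain ⟨m, hm, -⟩ := IsCharacter.eq_sum_nat (IsCharacter.restrict A hχ)
  have e1 : χ (x * y) = ∑ θ : IrrCharacter A, (m θ : ℂ) * (θ : A → ℂ) (⟨x, hxA⟩ * ⟨y, hyA⟩) := by
    have := congrFun hm (⟨x, hxA⟩ * ⟨y, hyA⟩)
    simpa [Finset.sum_apply] using this
  have e2 : χ y = ∑ θ : IrrCharacter A, (m θ : ℂ) * (θ : A → ℂ) ⟨y, hyA⟩ := by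
    have := congrFun hm ⟨y, hyA⟩
    simpa [Finset.sum_apply] using this
  rw [e1, e2, ← Finset.sum_sub_distrib]
  refine Good.sum _ _ (fun θ _ => ?_)
  obtain ⟨c, hc, hcθ⟩ := irr_central θ.2 (⟨x, hxA⟩ : A) ⟨y, hyA⟩ (by
    intro a
    apply Subtype.ext
    have := Subgroup.mem_centralizer_iff.1 a.2 x (Set.mem_singleton x)
    exact this) p (by apply Subtype.ext; simpa using hx)
  rw [hcθ]
  have h1 : (m θ : ℂ) * (c * (θ : A → ℂ) ⟨y, hyA⟩) - (m θ : ℂ) * (θ : A → ℂ) ⟨y, hyA⟩ =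
      ((m θ : ℂ) * (θ : A → ℂ) ⟨y, hyA⟩) * (c - 1) := by ring
  rw [h1]
  refine (good_root hp hε hc).mul ?_
  exact (isIntegral_natCast (R := ℤ) (B := ℂ) (a := m θ)).mul
    (IsCharacter.isIntegral (IsIrrCharacter.isCharacter θ.2) _)

/-- Let χ be a generalized character of the finite group G, p a prime, x an element of order p and y an element commuting with x. Then χ(x * y) − χ(y) = (1 − ε) * ω for some algebraic integer ω, where ε = exp(2πi/p). -/
theorem result {G : Type*} [Group G] [Finite G] (χ : G → ℂ) (hχ : Cfsg.IsGeneralizedCharacter G χ) (p : ℕ) (hp : p.Prime) (x y : G) (hx : orderOf x = p) (hxy : x * y = y * x) : ∃ ω : ℂ, IsIntegral ℤ ω ∧ χ (x * y) - χ y = (1 - Complex.exp (2 * Real.pi * Complex.I / p)) * ω := by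
  obtain ⟨χ₁, χ₂, h1, h2, rfl⟩ := hχ
  have hε := Complex.isPrimitiveRoot_exp p hp.ne_zero
  have hxp : x ^ p = 1 := by rw [← hx]; exact pow_orderOf_eq_one x
  have g1 := good_char h1 p hp.pos hε x y hxp hxy
  have g2 := good_char h2 p hp.pos hε x y hxp hxy
  have := g1.sub g2
  obtain ⟨ω, hω, e⟩ := this
  refine ⟨ω, hω, ?_⟩
  rw [← e]
  simp only [Pi.sub_apply]
  ring

end Cfsg.Agent.S1494
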