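import Cfsg.Statements.S1495
import Mathlib
-- import your own Cfsg.Agent.* helpers here

set_option autoImplicit false
open Cfsg

namespace Cfsg.Agent.S1495

/-- Let p be a prime, ε = exp(2πi/p), and n an integer such that n = (1 − ε) * ω for some algebraic integer ω. Then p divides n. -/
theorem result (p : ℕ) (hp : p.Prime) (n : ℤ) (ω : ℂ) (hω : IsIntegral ℤ ω) (h : (n : ℂ) = (1 - Complex.exp (2 * Real.pi * Complex.I / p)) * ω) : (p : ℤ) ∣ n := by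
  have : Fact p.Prime := ⟨hp⟩
  have : NeZero p := ⟨hp.ne_zero⟩
  set ζ := Complex.exp (2 * Real.pi * Complex.I / p) with hζdef
  have hζ : IsPrimitiveRoot ζ p := Complex.isPrimitiveRoot_exp p hp.ne_zero
  have hprod : (p : ℂ) = ∏ μ ∈ primitiveRoots p ℂ, (1 - μ) := by
    have h1 := Polynomial.eval_one_cyclotomic_prime (R := ℂ) (p := p)
    rw [Polynomial.cyclotomic_eq_prod_X_sub_primitiveRoots hζ, Polynomial.eval_prod] at h1
    simpa using h1.symm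
  have hu : ∀ μ ∈ primitiveRoots p ℂ, ∃ u : ℂ, IsIntegral ℤ u ∧ 1 - ζ = (1 - μ) * u := by
    intro μ hμ
    have hμ' : IsPrimitiveRoot μ p := (mem_primitiveRoots hp.pos).1 hμ
    obtain ⟨k, -, hk2⟩ := hμ'.eq_pow_of_pow_eq_one hζ.pow_eq_one
    have hμi : IsIntegral ℤ μ := hμ'.isIntegral hp.pos
    refine ⟨∑ i ∈ Finset.range k, μ ^ i, IsIntegral.sum _ (fun i _ => hμi.pow i), ?_⟩
    rw [← hk2, mul_neg_geom_sum]
  choose! u hu1 hu2 using hu
  have hpow : (1 - ζ) ^ (p - 1) = p * ∏ μ ∈ primitiveRoots p ℂ, u μ := by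
    rw [hprod, ← Finset.prod_mul_distrib, Finset.prod_congr rfl (fun μ hμ => (hu2 μ hμ).symm),
      Finset.prod_const, Complex.card_primitiveRoots, Nat.totient_prime hp]
  set γ := (∏ μ ∈ primitiveRoots p ℂ, u μ) * ω ^ (p - 1) with hγ
  have hγi : IsIntegral ℤ γ := (IsIntegral.prod _ hu1).mul (hω.pow _)
  have hn : ((n ^ (p - 1) : ℤ) : ℂ) = p * γ := by
    push_cast
    rw [h, mul_pow, hpow, hγ]
    ring
  have hp0 : (p : ℂ) ≠ 0 := by exact_mod_cast hp.ne_zero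
  have hq : IsIntegral ℤ ((((n ^ (p - 1) : ℤ) : ℚ) / (p : ℚ) : ℚ) : ℂ) := by
    have e : ((((n ^ (p - 1) : ℤ) : ℚ) / (p : ℚ) : ℚ) : ℂ) = γ := by
      push_cast
      push_cast at hn
      rw [hn]
      field_simp
    rw [e]; exact hγi
  have h1 : IsIntegral ℤ (((n ^ (p - 1) : ℤ) : ℚ) / (p : ℚ) : ℚ) :=
    (isIntegral_algebraMap_iff (A := ℚ) (B := ℂ) (algebraMap ℚ ℂ).injective).mp hq
  obtain ⟨y, hy⟩ := IsIntegrallyClosed.isIntegral_iff.mp h1
  have hp0' : (p : ℚ) ≠ 0 := by exact_mod_cast hp.ne_zero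
  have h2 : ((n ^ (p - 1) : ℤ) : ℚ) = (p : ℚ) * y := by
    have : (y : ℚ) = ((n ^ (p - 1) : ℤ) : ℚ) / (p : ℚ) := hy
    rw [this]; field_simp
  have h3 : n ^ (p - 1) = (p : ℤ) * y := by exact_mod_cast h2
  have hpp : Prime (p : ℤ) := Nat.prime_iff_prime_int.1 hp
  exact hpp.dvd_of_dvd_pow ⟨y, h3⟩

end Cfsg.Agent.S1495
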