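import Cfsg.Statements.S1497
-- import your own Cfsg.Agent.* helpers here

set_option autoImplicit false
open Cfsg

namespace Cfsg.Agent.S1497

theorem mem_L_of_dade {G : Type*} [Group G] (A : Set G) (L : Subgroup G)
    (hD : Cfsg.DadeHypothesis A L (fun _ => ⊥)) (g a : G) (ha : a ∈ A) (hga : g * a * g⁻¹ ∈ A) :
    g ∈ L := by
  obtain ⟨y, hyL, hy⟩ := hD.fusion a ha g hga
  have hc : y⁻¹ * g ∈ Subgroup.centralizer ({a} : Set G) := by
    rw [Subgroup.mem_centralizer_singleton_iff]
    have : y⁻¹ * (y * a * y⁻¹) * y = y⁻¹ * (g * a * g⁻¹) * y := by rw [hy]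
    have h2 : a = y⁻¹ * g * a * g⁻¹ * y := by
      simpa [mul_assoc] using this
    calc y⁻¹ * g * a = (y⁻¹ * g * a * g⁻¹ * y) * (y⁻¹ * g) := by group
      _ = a * (y⁻¹ * g) := by rw [← h2]
  have hs := hD.sup_eq a ha
  simp only [bot_sup_eq] at hs
  rw [← hs] at hc
  have := L.mul_mem hyL hc.1
  simpa using this

theorem le_normalizer_of_dade {G : Type*} [Group G] (A : Set G) (L : Subgroup G)
    (H : G → Subgroup G)
    (hD : Cfsg.DadeHypothesis A L H) : L ≤ Subgroup.normalizer A := by
  intro x hx
  rw [Subgroup.mem_set_normalizer_iff]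
  intro n
  constructor
  · intro hn
    exact hD.conj_mem x hx n hn
  · intro hn
    have := hD.conj_mem x⁻¹ (L.inv_mem hx) _ hn
    simpa [mul_assoc] using this

/-- Let A be a nonempty subset of the finite group G not containing 1 and L a subgroup. Then A is a TI-subset whose normaliser is L if and only if the Dade hypothesis holds for A, L and the constant choice H(a) = ⊥. -/
theorem result {G : Type*} [Group G] [Finite G] (A : Set G) (hA : A.Nonempty) (h1 : (1 : G) ∉ A) (L : Subgroup G) : (Cfsg.IsTISubset A ∧ Subgroup.normalizer A = L) ↔ Cfsg.DadeHypothesis A L (fun _ => ⊥) := by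
  constructor
  · rintro ⟨hTI, rfl⟩
    have key : ∀ g a : G, a ∈ A → g * a * g⁻¹ ∈ A → g ∈ Subgroup.normalizer A := by
      intro g a ha hga
      by_contra hg
      have := hTI g hg a ha hga
      exact h1 (this ▸ ha)
    refine ⟨h1, ?_, ?_, ?_, ?_, ?_, ?_, ?_, ?_⟩
    · intro a ha
      exact key a a ha (by simpa using ha)
    · intro x hx a ha
      exact (Subgroup.mem_set_normalizer_iff.1 hx a).1 ha
    · intro a ha g hga
      exact ⟨g, key g a ha hga, rfl⟩
    · intro a _
      exact bot_le
    · intro a _ c _ u hu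
      rw [Subgroup.mem_bot] at hu ⊢
      simp [hu]
    · intro a _
      exact bot_inf_eq _
    · intro a ha
      rw [bot_sup_eq]
      apply le_antisymm inf_le_right
      intro c hc
      refine ⟨key c a ha ?_, hc⟩
      rw [Subgroup.mem_centralizer_singleton_iff] at hc
      rw [hc]
      simpa using ha
    · intro a _ b _
      simp
  · intro hD
    have hle := le_normalizer_of_dade A L _ hD
    constructor
    · intro g hg x hx hgx
      exact absurd (hle (mem_L_of_dade A L hD g x hx hgx)) hg
    · apply le_antisymm _ hle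
      intro g hg
      obtain ⟨a, ha⟩ := hA
      exact mem_L_of_dade A L hD g a ha ((Subgroup.mem_set_normalizer_iff.1 hg a).1 ha)

end Cfsg.Agent.S1497
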