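import Cfsg.Statements.S1498
-- import your own Cfsg.Agent.* helpers here

set_option autoImplicit false
open Cfsg

namespace Cfsg.Agent.S1498

theorem pow_card_sub {G : Type*} [Group G] {K : Subgroup G} {x : G} (hx : x ∈ K) :
    x ^ Nat.card K = 1 := by
  have : (⟨x, hx⟩ : K) ^ Nat.card K = 1 := pow_card_eq_one'
  have h2 := congrArg Subtype.val this
  rwa [Subgroup.coe_pow, Subgroup.coe_one] at h2

theorem incl {G : Type*} [Group G] [Finite G] (A : Set G) (L : Subgroup G) (H : G → Subgroup G)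
    (hD : Cfsg.DadeHypothesis A L H) (a : G) (ha : a ∈ A) (x : G) (hx : x ∈ L) (u : G)
    (hu : u ∈ H a) : x * u * x⁻¹ ∈ H (x * a * x⁻¹) := by
  set b := x * a * x⁻¹ with hb
  have hbA : b ∈ A := hD.conj_mem x hx a ha
  set C := Subgroup.centralizer ({b} : Set G) with hC
  have hua : u * a = a * u := by
    have := hD.le_centralizer a ha hu
    rwa [Subgroup.mem_centralizer_singleton_iff] at this
  have hkC : x * u * x⁻¹ ∈ C := by
    rw [hC, Subgroup.mem_centralizer_singleton_iff, hb]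
    calc x * u * x⁻¹ * (x * a * x⁻¹) = x * (u * a) * x⁻¹ := by group
      _ = x * (a * u) * x⁻¹ := by rw [hua]
      _ = x * a * x⁻¹ * (x * u * x⁻¹) := by group
  have hN : ((H b).subgroupOf C).Normal := by
    constructor
    intro n hn g
    rw [Subgroup.mem_subgroupOf] at hn ⊢
    exact hD.conj_mem_H b hbA g g.2 n hn
  have hsup : (H b).subgroupOf C ⊔ (L ⊓ C).subgroupOf C = ⊤ := by
    rw [← Subgroup.subgroupOf_sup (hD.le_centralizer b hbA) inf_le_right, hD.sup_eq b hbA,
      Subgroup.subgroupOf_self]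
  let k : C := ⟨x * u * x⁻¹, hkC⟩
  have hk : k ∈ (H b).subgroupOf C ⊔ (L ⊓ C).subgroupOf C := by rw [hsup]; trivial
  rw [← SetLike.mem_coe, Subgroup.normal_mul] at hk
  obtain ⟨h, hh, c, hc, hhc⟩ := Set.mem_mul.1 hk
  have hpi : (QuotientGroup.mk' ((H b).subgroupOf C)) k = (QuotientGroup.mk' ((H b).subgroupOf C)) c := by
    have e1 : (QuotientGroup.mk' ((H b).subgroupOf C)) h = 1 := (QuotientGroup.eq_one_iff h).2 hh
    rw [← hhc, map_mul, e1, one_mul]
  have h1 : ((QuotientGroup.mk' ((H b).subgroupOf C)) k) ^ Nat.card ↥(L ⊓ C) = 1 := by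
    rw [hpi, ← map_pow]
    have : c ^ Nat.card ↥(L ⊓ C) = 1 := by
      apply Subtype.ext
      rw [Subgroup.coe_pow, Subgroup.coe_one]
      exact pow_card_sub (Subgroup.mem_subgroupOf.1 hc)
    rw [this, map_one]
  have h2 : ((QuotientGroup.mk' ((H b).subgroupOf C)) k) ^ Nat.card (H a) = 1 := by
    rw [← map_pow]
    have : k ^ Nat.card (H a) = 1 := by
      apply Subtype.ext
      rw [Subgroup.coe_pow, Subgroup.coe_one]
      show (x * u * x⁻¹) ^ Nat.card (H a) = 1
      rw [conj_pow, pow_card_sub hu]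
      group
    rw [this, map_one]
  have h3 : orderOf ((QuotientGroup.mk' ((H b).subgroupOf C)) k) ∣ 1 := by
    have hcop := hD.coprime a ha b hbA
    rw [← Nat.coprime_iff_gcd_eq_one.1 hcop]
    exact Nat.dvd_gcd (orderOf_dvd_of_pow_eq_one h2) (orderOf_dvd_of_pow_eq_one h1)
  have h4 : (QuotientGroup.mk' ((H b).subgroupOf C)) k = 1 := by
    rw [← orderOf_eq_one_iff]
    exact Nat.dvd_one.1 h3
  have h5 : k ∈ (H b).subgroupOf C := (QuotientGroup.eq_one_iff k).1 h4
  exact Subgroup.mem_subgroupOf.1 h5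

/-- Under the Dade hypothesis for (A, L, H): for a ∈ A and x ∈ L, the subgroup attached to x * a * x⁻¹ is the conjugate of H a by x. -/
theorem result {G : Type*} [Group G] [Finite G] (A : Set G) (L : Subgroup G) (H : G → Subgroup G) (hD : Cfsg.DadeHypothesis A L H) (a : G) (ha : a ∈ A) (x : G) (hx : x ∈ L) : H (x * a * x⁻¹) = (H a).map (MulAut.conj x).toMonoidHom := by
  apply le_antisymm
  · intro v hv
    have hbA : x * a * x⁻¹ ∈ A := hD.conj_mem x hx a ha
    have := incl A L H hD (x * a * x⁻¹) hbA x⁻¹ (L.inv_mem hx) v hv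
    have e : x⁻¹ * (x * a * x⁻¹) * x⁻¹⁻¹ = a := by group
    rw [e] at this
    refine ⟨_, this, ?_⟩
    simp [mul_assoc]
  · rintro _ ⟨u, hu, rfl⟩
    exact incl A L H hD a ha x hx u hu

end Cfsg.Agent.S1498
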