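import Cfsg.Statements.S1503
import Cfsg.Agent.Lib.Helper32CyclicTI
import Cfsg.Agent.Lib.Helper32Dual
-- import your own Cfsg.Agent.* helpers here

set_option autoImplicit false
open Cfsg

namespace Cfsg.Agent.S1503

open Cfsg.Agent.Lib.Helper32CyclicTI Cfsg.Agent.Lib.Helper32Ind Cfsg.Agent.Lib.Helper4Char
open Cfsg.Agent.Lib.Helper32Dual

/-- Let W₁, W₂ ≤ G with W = W₁ ⊔ W₂ and let χ an orthonormal family of irreducible characters of G up to sign, indexed by the linear characters ω of W, with χ_1 = 1, χ_ω = ω on W outside W₁ ∪ W₂, and the induction identity for (1 − φ)(1 − ψ). If θ is an irreducible character of G orthogonal to χ ω for every linear character ω of W, then θ vanishes at every element of W lying outside W₁ ∪ W₂. -/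
theorem result {G : Type*} [Group G] [Fintype G] (W₁ W₂ : Subgroup G) (hW : Cfsg.IsSelfNormalizingCyclic W₁ W₂) (χ : (↥(W₁ ⊔ W₂) →* ℂˣ) → (G → ℂ)) (hχ : Cfsg.IsCyclicTIFamily W₁ W₂ χ) (θ : G → ℂ) (hθ : Cfsg.IsIrrCharacter G θ) (horth : ∀ ω, Cfsg.classInner θ (χ ω) = 0) (w : ↥(W₁ ⊔ W₂)) (hw₁ : (w : G) ∉ W₁) (hw₂ : (w : G) ∉ W₂) : θ w = 0 := by
  classical
  have hcyc : IsCyclic ↥(W₁ ⊔ W₂) := hW.2.2.2.2.1
  let _ : CommGroup ↥(W₁ ⊔ W₂) := IsCyclic.commGroup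
  have : Fintype ↥(W₁ ⊔ W₂) := Fintype.ofFinite _
  have hθc : Cfsg.IsClassFunction G θ := IsIrrCharacter.isClassFunction hθ
  have hAB : W₁.subgroupOf (W₁ ⊔ W₂) ⊓ W₂.subgroupOf (W₁ ⊔ W₂) = ⊥ := by
    rw [eq_bot_iff]
    intro x hx
    have hx' : (x : G) ∈ W₁ ⊓ W₂ := ⟨hx.1, hx.2⟩
    rw [hW.2.2.1, Subgroup.mem_bot] at hx'
    rw [Subgroup.mem_bot]
    exact Subtype.ext hx'
  have key := eq_zero_of_sum_aFun (W₁.subgroupOf (W₁ ⊔ W₂)) (W₂.subgroupOf (W₁ ⊔ W₂)) hAB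
    (fun v => (starRingEnd ℂ) (θ v)) ?_ w hw₁ hw₂
  · simpa using key
  · intro φ ψ hφ hψ
    have hφ' : ∀ w : ↥(W₁ ⊔ W₂), (w : G) ∈ W₂ → φ w = 1 := fun w hw => hφ w hw
    have hψ' : ∀ w : ↥(W₁ ⊔ W₂), (w : G) ∈ W₁ → ψ w = 1 := fun w hw => hψ w hw
    by_cases h1 : φ = 1
    · apply Finset.sum_eq_zero
      intro v _
      rw [h1]; simp
    by_cases h2 : ψ = 1
    · apply Finset.sum_eq_zero
      intro v _
      rw [h2]; simp
    have hind := hχ.induced_eq φ ψ h1 h2 hφ' hψ'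
    have e : Cfsg.indFun (W₁ ⊔ W₂) (aFun φ ψ) = χ 1 - χ φ - χ ψ + χ (φ * ψ) := by
      unfold aFun
      rw [hind, hχ.map_one]
      rfl
    have h3 : Cfsg.classInner θ (Cfsg.indFun (W₁ ⊔ W₂) (aFun φ ψ)) = 0 := by
      rw [e, classInner_add_right, classInner_sub_right, classInner_sub_right, horth, horth, horth,
        horth]
      ring
    rw [← classInner_conj_symm, frobenius _ _ _ hθc] at h3
    have h4 : Cfsg.classInner (aFun φ ψ) (fun h : ↥(W₁ ⊔ W₂) => θ h) = 0 := by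
      simpa using h3
    unfold Cfsg.classInner at h4
    rcases mul_eq_zero.1 h4 with h5 | h5
    · exfalso
      have : (Nat.card ↥(W₁ ⊔ W₂) : ℂ) ≠ 0 := by exact_mod_cast Nat.card_pos.ne'
      exact this (inv_eq_zero.1 h5)
    · exact h5

end Cfsg.Agent.S1503
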