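import Cfsg.Statements.S1504
import Cfsg.Agent.Lib.Helper32CyclicTI
-- import your own Cfsg.Agent.* helpers here

set_option autoImplicit false
open Cfsg

namespace Cfsg.Agent.S1504

open Cfsg.Agent.Lib.Helper32CyclicTI Cfsg.Agent.Lib.Helper32Ind Cfsg.Agent.Lib.Helper4Char

/-- Let W₁, W₂ be subgroups of a finite group with W₁ ⊓ W₂ = ⊥ whose elements commute, and W = W₁ ⊔ W₂. For linear characters φ, ψ of W with φ trivial on W₂ and ψ trivial on W₁, the function (1 − φ)(1 − ψ) vanishes on W₁ ∪ W₂; and the family of these functions, indexed by pairs (φ, ψ) with φ ≠ 1 ≠ ψ, is linearly independent over ℂ. -/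
theorem result {G : Type*} [Group G] [Finite G] (W₁ W₂ : Subgroup G) (hdisj : W₁ ⊓ W₂ = ⊥) (hcomm : ∀ a ∈ W₁, ∀ b ∈ W₂, a * b = b * a) : (∀ φ ψ : ↥(W₁ ⊔ W₂) →* ℂˣ, (∀ w : ↥(W₁ ⊔ W₂), (w : G) ∈ W₂ → φ w = 1) → (∀ w : ↥(W₁ ⊔ W₂), (w : G) ∈ W₁ → ψ w = 1) → ∀ w : ↥(W₁ ⊔ W₂), ((w : G) ∈ W₁ ∨ (w : G) ∈ W₂) → (1 - (φ w : ℂ) - (ψ w : ℂ) + (φ w : ℂ) * (ψ w : ℂ)) = 0) ∧ LinearIndependent ℂ (fun p : {p : (↥(W₁ ⊔ W₂) →* ℂˣ) × (↥(W₁ ⊔ W₂) →* ℂˣ) // p.1 ≠ 1 ∧ p.2 ≠ 1 ∧ (∀ w : ↥(W₁ ⊔ W₂), (w : G) ∈ W₂ → p.1 w = 1) ∧ (∀ w : ↥(W₁ ⊔ W₂), (w : G) ∈ W₁ → p.2 w = 1)} => fun w : ↥(W₁ ⊔ W₂) => 1 - (p.1.1 w : ℂ) - (p.1.2 w : ℂ) + (p.1.1 w : ℂ) * (p.1.2 w : ℂ)) := by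
  classical
  have : Fintype ↥(W₁ ⊔ W₂) := Fintype.ofFinite _
  constructor
  · intro φ ψ hφ hψ w hw
    exact aFun_eq_zero W₁ W₂ φ ψ hφ hψ w hw
  · rw [linearIndependent_iff']
    intro s c hc p₀ hp₀
    have h1 : Cfsg.classInner (∑ p ∈ s, c p • aFun p.1.1 p.1.2) (lin (p₀.1.1 * p₀.1.2)) = 0 := by
      have e : (∑ p ∈ s, c p • aFun p.1.1 p.1.2) = 0 := hc
      rw [e, classInner_zero_left]
    rw [classInner_sum_left] at h1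
    rw [Finset.sum_eq_single p₀] at h1
    · rw [classInner_smul_left, inner_aFun_lin W₁ W₂ _ _ _ _ p₀.2.2.2.1 p₀.2.2.2.1 p₀.2.2.2.2
        p₀.2.2.2.2] at h1
      simpa [p₀.2.1.symm, p₀.2.2.1.symm] using h1
    · intro p _ hne
      rw [classInner_smul_left, inner_aFun_lin W₁ W₂ _ _ _ _ p.2.2.2.1 p₀.2.2.2.1 p.2.2.2.2
        p₀.2.2.2.2]
      have hne' : ¬ (p.1.1 = p₀.1.1 ∧ p.1.2 = p₀.1.2) := by
        rintro ⟨e1, e2⟩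
        exact hne (Subtype.ext (Prod.ext e1 e2))
      simp [p₀.2.1.symm, p₀.2.2.1.symm, hne']
    · intro h; exact absurd hp₀ h

end Cfsg.Agent.S1504
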