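import Cfsg.Statements.S1505
import Cfsg.Agent.Lib.Helper32CyclicTI
-- import your own Cfsg.Agent.* helpers here

set_option autoImplicit false
open Cfsg

namespace Cfsg.Agent.S1505

open Cfsg.Agent.Lib.Helper32CyclicTI Cfsg.Agent.Lib.Helper32Ind

open Classical in
/-- Let W₁, W₂ ≤ G form a self-normalising cyclic subgroup W = W₁ ⊔ W₂. For nontrivial linear characters φ, φ' of W trivial on W₂ and ψ, ψ' trivial on W₁, put α = (1 − φ)(1 − ψ) and α' = (1 − φ')(1 − ψ'). Then the function induced from α to G has inner product 1 with the principal character, and the inner product of the functions induced from α and α' is 1 + a + b + ab where a = 1 if φ = φ' (else 0) and b = 1 if ψ = ψ' (else 0). -/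
theorem result {G : Type*} [Group G] [Fintype G] (W₁ W₂ : Subgroup G) (hW : Cfsg.IsSelfNormalizingCyclic W₁ W₂) (φ φ' ψ ψ' : ↥(W₁ ⊔ W₂) →* ℂˣ) (hφ : φ ≠ 1) (hφ' : φ' ≠ 1) (hψ : ψ ≠ 1) (hψ' : ψ' ≠ 1) (hφ₂ : ∀ w : ↥(W₁ ⊔ W₂), (w : G) ∈ W₂ → φ w = 1 ∧ φ' w = 1) (hψ₁ : ∀ w : ↥(W₁ ⊔ W₂), (w : G) ∈ W₁ → ψ w = 1 ∧ ψ' w = 1) : Cfsg.classInner (Cfsg.indFun (W₁ ⊔ W₂) (fun w => 1 - (φ w : ℂ) - (ψ w : ℂ) + (φ w : ℂ) * (ψ w : ℂ))) (fun _ => 1) = 1 ∧ Cfsg.classInner (Cfsg.indFun (W₁ ⊔ W₂) (fun w => 1 - (φ w : ℂ) - (ψ w : ℂ) + (φ w : ℂ) * (ψ w : ℂ))) (Cfsg.indFun (W₁ ⊔ W₂) (fun w => 1 - (φ' w : ℂ) - (ψ' w : ℂ) + (φ' w : ℂ) * (ψ' w : ℂ))) = 1 + (if φ = φ' then 1 else 0) + (if ψ = ψ' then 1 else 0) + (if φ = φ' then 1 else 0) * (if ψ = ψ' then 1 else 0) := by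
  have : Fintype ↥(W₁ ⊔ W₂) := Fintype.ofFinite _
  have hφ1 : ∀ w : ↥(W₁ ⊔ W₂), (w : G) ∈ W₂ → φ w = 1 := fun w hw => (hφ₂ w hw).1
  have hφ'1 : ∀ w : ↥(W₁ ⊔ W₂), (w : G) ∈ W₂ → φ' w = 1 := fun w hw => (hφ₂ w hw).2
  have hψ1 : ∀ w : ↥(W₁ ⊔ W₂), (w : G) ∈ W₁ → ψ w = 1 := fun w hw => (hψ₁ w hw).1
  have hψ'1 : ∀ w : ↥(W₁ ⊔ W₂), (w : G) ∈ W₁ → ψ' w = 1 := fun w hw => (hψ₁ w hw).2
  have t1 : ∀ w : ↥(W₁ ⊔ W₂), (w : G) ∈ W₂ → (1 : ↥(W₁ ⊔ W₂) →* ℂˣ) w = 1 := fun _ _ => rfl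
  have t2 : ∀ w : ↥(W₁ ⊔ W₂), (w : G) ∈ W₁ → (1 : ↥(W₁ ⊔ W₂) →* ℂˣ) w = 1 := fun _ _ => rfl
  constructor
  · change Cfsg.classInner (Cfsg.indFun (W₁ ⊔ W₂) (aFun φ ψ)) (fun _ => 1) = 1
    rw [frobenius _ _ _ (fun _ _ => rfl)]
    have e : (fun _ : ↥(W₁ ⊔ W₂) => (1 : ℂ)) = lin ((1 : ↥(W₁ ⊔ W₂) →* ℂˣ) * 1) := by
      funext w; simp [lin]
    rw [e, inner_aFun_lin W₁ W₂ _ _ _ _ hφ1 t1 hψ1 t2]
    simp [hφ, hψ]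
  · change Cfsg.classInner (Cfsg.indFun (W₁ ⊔ W₂) (aFun φ ψ))
      (Cfsg.indFun (W₁ ⊔ W₂) (aFun φ' ψ')) = _
    have hcomm : ∀ a b : ↥(W₁ ⊔ W₂), a * b = b * a := by
      intro a b
      have := hW.2.2.2.2.1
      exact (IsCyclic.commGroup (α := ↥(W₁ ⊔ W₂))).mul_comm a b
    rw [classInner_indFun_of_TI (W₁ ⊔ W₂) ((↑(W₁ ⊔ W₂) : Set G) \ (↑W₁ ∪ ↑W₂))]
    · rw [inner_aFun_aFun W₁ W₂ φ φ' ψ ψ' hφ hφ' hψ hψ' hφ1 hφ'1 hψ1 hψ'1]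
      by_cases e1 : φ = φ' <;> by_cases e2 : ψ = ψ' <;> simp [e1, e2]
    · intro g hg t ht hgt
      exfalso
      apply hg
      have h1 : t ∉ W₁ := fun h => ht.2 (Or.inl h)
      have h2 : t ∉ W₂ := fun h => ht.2 (Or.inr h)
      exact mem_of_conj_mem W₁ W₂ hW g t ht.1 h1 h2 hgt.1
    · intro a b
      rw [hcomm b a, mul_inv_cancel_right]
    · intro x hx
      apply aFun_eq_zero W₁ W₂ φ ψ hφ1 hψ1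
      by_contra hcon
      exact hx ⟨x.2, hcon⟩
    · intro x hx
      apply aFun_eq_zero W₁ W₂ φ' ψ' hφ'1 hψ'1
      by_contra hcon
      exact hx ⟨x.2, hcon⟩
    · apply aFun_eq_zero W₁ W₂ φ ψ hφ1 hψ1
      left
      exact W₁.one_mem

end Cfsg.Agent.S1505
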