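import Cfsg.Statements.S1507
import Cfsg.Agent.Lib.Helper32CyclicTI
import Cfsg.Agent.Lib.Helper32Dual
import Cfsg.Agent.Lib.Helper32Comb
-- import your own Cfsg.Agent.* helpers here

set_option autoImplicit false
open Cfsg

namespace Cfsg.Agent.S1507

open Cfsg.Agent.Lib.Helper32CyclicTI Cfsg.Agent.Lib.Helper32Ind Cfsg.Agent.Lib.Helper4Char
open Cfsg.Agent.Lib.Helper32Dual Cfsg.Agent.Lib.Helper32Comb

open Classical in
/-- Let W₁, W₂ ≤ G form a self-normalising cyclic subgroup W = W₁ ⊔ W₂ of odd order with Nat.card W₁ < Nat.card W₂, and χ an orthonormal family of irreducible characters of G up to sign, indexed by the linear characters ω of W, with χ_1 = 1, χ_ω = ω on W outside W₁ ∪ W₂, and the induction identity for (1 − φ)(1 − ψ). Let θ be a class function of G vanishing on W outside W₁ ∪ W₂, and suppose fewer than 2 · Nat.card W₁ linear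 characters ω of W have ⟨θ, χ ω⟩ ≠ 0. Then one of: all ⟨θ, χ ω⟩ vanish; or there are ψ₀ and a with ⟨θ, χ ω⟩ = a when ω ψ₀⁻¹ is trivial on W₂ and 0 otherwise; or there are φ₀ and a with ⟨θ, χ ω⟩ = a when ω φ₀⁻¹ is trivial on W₁ and 0 otherwise. -/
theorem result {G : Type*} [Group G] [Fintype G] (W₁ W₂ : Subgroup G) (hW : Cfsg.IsSelfNormalizingCyclic W₁ W₂) (hodd : Odd (Nat.card ↥(W₁ ⊔ W₂))) (χ : (↥(W₁ ⊔ W₂) →* ℂˣ) → (G → ℂ)) (hχ : Cfsg.IsCyclicTIFamily W₁ W₂ χ) (hlt : Nat.card W₁ < Nat.card W₂) (θ : G → ℂ) (hθ : Cfsg.IsClassFunction G θ) (hθV : ∀ w : ↥(W₁ ⊔ W₂), (w : G) ∉ W₁ → (w : G) ∉ W₂ → θ w = 0) (hfew : Nat.card {ω : ↥(W₁ ⊔ W₂) →* ℂˣ // Cfsg.classInner θ (χ ω) ≠ 0} < 2 * Nat.card W₁) : (∀ ω, Cfsg.classInner θ (χ ω) = 0) ∨ (∃ (ψ₀ : ↥(W₁ ⊔ W₂) →* ℂˣ) (a : ℂ), ∀ ω, Cfsg.classInner θ (χ ω) = if (∀ w : ↥(W₁ ⊔ W₂), (w : G) ∈ W₂ → (ω * ψ₀⁻¹)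 w = 1) then a else 0) ∨ (∃ (φ₀ : ↥(W₁ ⊔ W₂) →* ℂˣ) (a : ℂ), ∀ ω, Cfsg.classInner θ (χ ω) = if (∀ w : ↥(W₁ ⊔ W₂), (w : G) ∈ W₁ → (ω * φ₀⁻¹) w = 1) then a else 0) := by
  classical
  have hcyc : IsCyclic ↥(W₁ ⊔ W₂) := hW.2.2.2.2.1
  let _ : CommGroup ↥(W₁ ⊔ W₂) := IsCyclic.commGroup
  set A := W₁.subgroupOf (W₁ ⊔ W₂) with hA
  set B := W₂.subgroupOf (W₁ ⊔ W₂) with hB
  have hinf : A ⊓ B = ⊥ := by
    rw [eq_bot_iff]
    intro x hx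
    have hx' : (x : G) ∈ W₁ ⊓ W₂ := ⟨hx.1, hx.2⟩
    rw [hW.2.2.1, Subgroup.mem_bot] at hx'
    rw [Subgroup.mem_bot]
    exact Subtype.ext hx'
  have hsup : A ⊔ B = ⊤ := by
    rw [hA, hB, ← Subgroup.subgroupOf_sup le_sup_left le_sup_right, Subgroup.subgroupOf_self]
  have hbij := mulMap_bijective A B hinf hsup
  have hc := isComplement' A B hinf hsup
  have hcA : Nat.card A = Nat.card W₁ :=
    Nat.card_congr (Subgroup.subgroupOfEquivOfLe le_sup_left).toEquiv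
  have hcB : Nat.card B = Nat.card W₂ :=
    Nat.card_congr (Subgroup.subgroupOfEquivOfLe le_sup_right).toEquiv
  have : Fintype {φ : ↥(W₁ ⊔ W₂) →* ℂˣ // Triv B φ} := Fintype.ofFinite _
  have : Fintype {ψ : ↥(W₁ ⊔ W₂) →* ℂˣ // Triv A ψ} := Fintype.ofFinite _
  have hI : Fintype.card {φ : ↥(W₁ ⊔ W₂) →* ℂˣ // Triv B φ} = Nat.card W₁ := by
    rw [← Nat.card_eq_fintype_card, card_triv, hc.index_eq_card, hcA]
  have hJ : Fintype.card {ψ : ↥(W₁ ⊔ W₂) →* ℂˣ // Triv A ψ} = Nat.card W₂ := by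
    rw [← Nat.card_eq_fintype_card, card_triv, hc.symm.index_eq_card, hcB]
  set r : {φ : ↥(W₁ ⊔ W₂) →* ℂˣ // Triv B φ} → ℂ :=
    fun φ => Cfsg.classInner θ (χ φ) - Cfsg.classInner θ (χ 1) with hr
  set c : {ψ : ↥(W₁ ⊔ W₂) →* ℂˣ // Triv A ψ} → ℂ := fun ψ => Cfsg.classInner θ (χ ψ) with hcdef
  have hrc : ∀ (φ : {φ : ↥(W₁ ⊔ W₂) →* ℂˣ // Triv B φ}) (ψ : {ψ : ↥(W₁ ⊔ W₂) →* ℂˣ // Triv A ψ}),
      Cfsg.classInner θ (χ ((φ : ↥(W₁ ⊔ W₂) →* ℂˣ) * (ψ : ↥(W₁ ⊔ W₂) →* ℂˣ))) = r φ + c ψ := by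
    intro φ ψ
    rw [rect W₁ W₂ χ hχ θ hθ hθV φ ψ (fun w hw => φ.2 w hw) (fun w hw => ψ.2 w hw)]
    simp only [hr, hcdef]
    ring
  have hmul : Nat.card W₁ * Nat.card W₂ = Nat.card ↥(W₁ ⊔ W₂) := by
    rw [← hcA, ← hcB, hc.card_mul_card]
  have h12 : Fintype.card {φ : ↥(W₁ ⊔ W₂) →* ℂˣ // Triv B φ} + 2 ≤
      Fintype.card {ψ : ↥(W₁ ⊔ W₂) →* ℂˣ // Triv A ψ} := by
    rw [hI, hJ]
    rw [← hmul, Nat.odd_mul] at hodd
    obtain ⟨⟨k, hk⟩, ⟨l, hl⟩⟩ := hodd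
    omega
  have hN : cnt r c < 2 * Fintype.card {φ : ↥(W₁ ⊔ W₂) →* ℂˣ // Triv B φ} := by
    rw [hI, ← cnt_eq_card]
    refine lt_of_le_of_lt (le_of_eq ?_) hfew
    apply Nat.card_congr
    refine Equiv.subtypeEquiv (Equiv.ofBijective _ hbij) ?_
    rintro ⟨φ, ψ⟩
    rw [← hrc φ ψ]
    rfl
  rcases comb r c h12 hN with h | ⟨j₀, a₀, h⟩ | ⟨i₀, a₀, h⟩
  · left
    intro ω
    obtain ⟨⟨φ, ψ⟩, rfl⟩ := hbij.2 ω
    rw [hrc]; exact h φ ψ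
  · right; left
    refine ⟨j₀, a₀, fun ω => ?_⟩
    obtain ⟨⟨φ, ψ⟩, rfl⟩ := hbij.2 ω
    simp only
    rw [hrc, h φ ψ]
    by_cases e : ψ = j₀
    · rw [if_pos e, if_pos]
      intro w hw
      rw [e]
      simp [φ.2 w hw]
    · rw [if_neg e, if_neg]
      intro hcon
      apply e
      apply Subtype.ext
      have h1 : (ψ : ↥(W₁ ⊔ W₂) →* ℂˣ) * (j₀ : ↥(W₁ ⊔ W₂) →* ℂˣ)⁻¹ = 1 := by
        apply eq_one_of_triv A B hsup
        · intro w hw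
          simp [ψ.2 w hw, j₀.2 w hw]
        · intro w hw
          have := hcon w hw
          simpa [φ.2 w hw] using this
      exact mul_inv_eq_one.1 h1
  · right; right
    refine ⟨i₀, a₀, fun ω => ?_⟩
    obtain ⟨⟨φ, ψ⟩, rfl⟩ := hbij.2 ω
    simp only
    rw [hrc, h φ ψ]
    by_cases e : φ = i₀
    · rw [if_pos e, if_pos]
      intro w hw
      rw [e]
      simp [ψ.2 w hw]
    · rw [if_neg e, if_neg]
      intro hcon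
      apply e
      apply Subtype.ext
      have h1 : (φ : ↥(W₁ ⊔ W₂) →* ℂˣ) * (i₀ : ↥(W₁ ⊔ W₂) →* ℂˣ)⁻¹ = 1 := by
        apply eq_one_of_triv A B hsup
        · intro w hw
          have := hcon w hw
          simpa [ψ.2 w hw] using this
        · intro w hw
          simp [φ.2 w hw, i₀.2 w hw]
      exact mul_inv_eq_one.1 h1

end Cfsg.Agent.S1507
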