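import Cfsg.Statements.S1508
import Cfsg.Agent.Lib.Helper32CyclicTI
import Cfsg.Agent.Lib.Helper32Dual
import Cfsg.Agent.Lib.Helper32Virt
import Cfsg.Agent.Lib.Helper79GalConj
import Cfsg.Agent.Lib.Helper4Char4

set_option autoImplicit false
open Cfsg

namespace Cfsg.Agent.S1508

open Cfsg.Agent.Lib.Helper32CyclicTI Cfsg.Agent.Lib.Helper32Ind Cfsg.Agent.Lib.Helper4Char
open Cfsg.Agent.Lib.Helper32Dual Cfsg.Agent.Lib.Helper32Virt
open Cfsg.Agent.Lib.Helper4Char2 Cfsg.Agent.Lib.Helper4Char3 Cfsg.Agent.Lib.Helper4Char4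
open Cfsg.Agent.Lib

/-- A character value fixed by all Galois twists is an integer. -/
theorem int_of_pow_fixed {G : Type*} [Group G] [Finite G] {χ : G → ℂ} (hχ : IsCharacter G χ) (g : G)
    (h : ∀ m : ℕ, m.Coprime (Nat.card G) → χ (g ^ m) = χ g) : ∃ n : ℤ, χ g = n := by
  have hint0 := IsCharacter.isIntegral hχ g
  obtain ⟨k, ρ, rfl⟩ := hχ
  have hn : 0 < Nat.card G := Nat.card_pos
  have hG : ∀ g : G, g ^ Nat.card G = 1 := fun g => pow_card_eq_one'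
  obtain ⟨q, hq⟩ := Helper5Galois.exists_rat_of_fixed (Helper5Galois.charK ρ g) (by
    intro ψ
    obtain ⟨m, hm, hψ⟩ := Helper5Galois.exists_pow_of_ringHom (Nat.card G) hn ψ
    rw [Helper5Galois.apply_charK ρ _ hn hG ψ m hψ g, Helper5Galois.charK_coe]
    exact h m hm)
  rw [Helper5Galois.charK_coe] at hq
  have hint : IsIntegral ℤ (q : ℂ) := hq ▸ hint0
  obtain ⟨y, hy⟩ := exists_int_of_isIntegral_rat q hint
  exact ⟨y, by rw [hq, ← hy]; simp⟩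

theorem two {K : Type*} [Fintype K] [DecidableEq K] (hK : 3 ≤ Fintype.card K) (k₀ : K) :
    ∃ k₁, k₁ ≠ k₀ ∧ ∃ k₂, k₂ ≠ k₀ ∧ k₁ ≠ k₂ := by
  have : 1 < (Finset.univ.erase k₀).card := by
    rw [Finset.card_erase_of_mem (Finset.mem_univ _), Finset.card_univ]; omega
  obtain ⟨k₁, h1, k₂, h2, h12⟩ := Finset.one_lt_card.1 this
  exact ⟨k₁, (Finset.mem_erase.1 h1).1, k₂, (Finset.mem_erase.1 h2).1, h12⟩

theorem grid {I J : Type*} [Fintype I] [Fintype J] [DecidableEq I] [DecidableEq J]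
    (hI : 3 ≤ Fintype.card I) (hJ : 3 ≤ Fintype.card J)
    (r : I → ℂ) (c : J → ℂ) (a : I → J → ℂ)
    (hP : ∀ i j i' j', a i j ≠ 0 → a i' j' ≠ 0 → i = i' ∧ j = j')
    (i₀ : I) (j₀ : J)
    (h0 : r i₀ + c j₀ = a i₀ j₀ - 1)
    (h : ∀ i j, (i ≠ i₀ ∨ j ≠ j₀) → r i + c j = a i j) : a i₀ j₀ = 1 := by
  by_contra hne
  obtain ⟨i₁, hi₁, i₂, hi₂, hi12⟩ := two hI i₀
  obtain ⟨j₁, hj₁, j₂, hj₂, hj12⟩ := two hJ j₀
  have key : ∀ i j, i ≠ i₀ → j ≠ j₀ → a i j ≠ 0 ∨ a i₀ j ≠ 0 ∨ a i j₀ ≠ 0 := by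
    intro i j hi hj
    by_contra hcon
    push Not at hcon
    obtain ⟨e1, e2, e3⟩ := hcon
    have f1 := h i j (Or.inl hi)
    have f2 := h i₀ j (Or.inr hj)
    have f3 := h i j₀ (Or.inl hi)
    rw [e1] at f1; rw [e2] at f2; rw [e3] at f3
    apply hne
    linear_combination f2 + f3 - f1 - h0
  rcases key i₁ j₁ hi₁ hj₁ with h1 | h1 | h1 <;> rcases key i₂ j₂ hi₂ hj₂ with h2 | h2 | h2 <;>
    obtain ⟨e1, e2⟩ := hP _ _ _ _ h1 h2 <;>
    first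
      | exact hi12 e1
      | exact hi₁ e1
      | exact hi₂ e1.symm
      | exact hj12 e2

theorem exists_exp (N a b m : ℕ) (hN : 0 < N) (ha : a ∣ N) (hb : b ∣ N) (hab : a.Coprime b)
    (hm : m.Coprime N) : ∃ m' : ℕ, m'.Coprime N ∧ m' ≡ m [MOD a] ∧ m' ≡ 1 [MOD b] := by
  obtain ⟨m₀, h1, h2⟩ := Nat.chineseRemainder hab m 1
  have hdiv : a * b ∣ N := hab.mul_dvd_of_dvd_of_dvd ha hb
  have hcop : m₀.Coprime (a * b) := by
    refine Nat.Coprime.mul_right ?_ ?_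
    · rw [Nat.Coprime, h1.gcd_eq]; exact hm.coprime_dvd_right ha
    · rw [Nat.Coprime, h2.gcd_eq]; simp
  haveI : NeZero N := ⟨hN.ne'⟩
  obtain ⟨u, hu⟩ := ZMod.unitsMap_surjective hdiv (ZMod.unitOfCoprime m₀ hcop)
  have hu' : (((u : ZMod N).val : ℕ) : ZMod (a * b)) = (m₀ : ZMod (a * b)) := by
    have := congrArg (fun x : (ZMod (a * b))ˣ => (x : ZMod (a * b))) hu
    simp only [ZMod.coe_unitOfCoprime] at this
    rw [← this, ZMod.natCast_val]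
    rfl
  have hmod : (u : ZMod N).val ≡ m₀ [MOD a * b] := (ZMod.natCast_eq_natCast_iff _ _ _).1 hu'
  exact ⟨(u : ZMod N).val, ZMod.val_coe_unit_coprime u, (hmod.of_mul_right b).trans h1,
    (hmod.of_mul_left a).trans h2⟩

theorem twist {G : Type*} [Group G] [Fintype G] (W₁ W₂ : Subgroup G)
    (hW : Cfsg.IsSelfNormalizingCyclic W₁ W₂) (hodd : Odd (Nat.card ↥(W₁ ⊔ W₂)))
    (χ : (↥(W₁ ⊔ W₂) →* ℂˣ) → (G → ℂ)) (hχ : Cfsg.IsCyclicTIFamily W₁ W₂ χ)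
    (ω : ↥(W₁ ⊔ W₂) →* ℂˣ) (m : ℕ) (hm : m.Coprime (Nat.card G)) :
    (fun g => χ ω (g ^ m)) = χ (ω ^ m) := by
  classical
  have hcyc : IsCyclic ↥(W₁ ⊔ W₂) := hW.2.2.2.2.1
  let _ : CommGroup ↥(W₁ ⊔ W₂) := IsCyclic.commGroup
  set A := W₁.subgroupOf (W₁ ⊔ W₂) with hA
  set B := W₂.subgroupOf (W₁ ⊔ W₂) with hB
  have hinf : A ⊓ B = ⊥ := by
    rw [eq_bot_iff]
    intro x hx
    have hx' : (x : G) ∈ W₁ ⊓ W₂ := ⟨hx.1, hx.2⟩
    rw [hW.2.2.1, Subgroup.mem_bot] at hx'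
    rw [Subgroup.mem_bot]
    exact Subtype.ext hx'
  have hsup : A ⊔ B = ⊤ := by
    rw [hA, hB, ← Subgroup.subgroupOf_sup le_sup_left le_sup_right, Subgroup.subgroupOf_self]
  have hbij := mulMap_bijective A B hinf hsup
  have hc := isComplement' A B hinf hsup
  have hcA : Nat.card A = Nat.card W₁ :=
    Nat.card_congr (Subgroup.subgroupOfEquivOfLe le_sup_left).toEquiv
  have hcB : Nat.card B = Nat.card W₂ :=
    Nat.card_congr (Subgroup.subgroupOfEquivOfLe le_sup_right).toEquiv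
  have : Fintype {φ : ↥(W₁ ⊔ W₂) →* ℂˣ // Triv B φ} := Fintype.ofFinite _
  have : Fintype {ψ : ↥(W₁ ⊔ W₂) →* ℂˣ // Triv A ψ} := Fintype.ofFinite _
  have hI : Fintype.card {φ : ↥(W₁ ⊔ W₂) →* ℂˣ // Triv B φ} = Nat.card W₁ := by
    rw [← Nat.card_eq_fintype_card, card_triv, hc.index_eq_card, hcA]
  have hJ : Fintype.card {ψ : ↥(W₁ ⊔ W₂) →* ℂˣ // Triv A ψ} = Nat.card W₂ := by
    rw [← Nat.card_eq_fintype_card, card_triv, hc.symm.index_eq_card, hcB]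
  have hmul : Nat.card W₁ * Nat.card W₂ = Nat.card ↥(W₁ ⊔ W₂) := by
    rw [← hcA, ← hcB, hc.card_mul_card]
  have hodd' := hodd
  rw [← hmul, Nat.odd_mul] at hodd'
  have hW1 : Nat.card W₁ ≠ 1 := fun h => hW.1 (Subgroup.card_eq_one.1 h)
  have hW2 : Nat.card W₂ ≠ 1 := fun h => hW.2.1 (Subgroup.card_eq_one.1 h)
  have hI3 : 3 ≤ Fintype.card {φ : ↥(W₁ ⊔ W₂) →* ℂˣ // Triv B φ} := by
    rw [hI]
    obtain ⟨k, hk⟩ := hodd'.1
    omega
  have hJ3 : 3 ≤ Fintype.card {ψ : ↥(W₁ ⊔ W₂) →* ℂˣ // Triv A ψ} := by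
    rw [hJ]
    obtain ⟨k, hk⟩ := hodd'.2
    omega
  have hS : ∀ ω', SIrr G (χ ω') := hχ.irr_or_neg
  set η : G → ℂ := fun g => χ ω (g ^ m) with hη
  have hηS : SIrr G η := by
    rcases hχ.irr_or_neg ω with h | h
    · exact Or.inl (Helper79GalConj.isIrrCharacter_pow h m hm)
    · exact Or.inr (Helper79GalConj.isIrrCharacter_pow h m hm)
  set θ : G → ℂ := η - χ (ω ^ m) with hθdef
  have hθ : IsClassFunction G θ := gen_isClassFunction (gen_sub hηS.gen (hS _).gen)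
  have hnot : ∀ (U : Subgroup G) (x : G), x ^ m ∈ U → x ∈ U := by
    intro U x hx
    obtain ⟨k, hk⟩ := exists_pow_eq_self_of_coprime
      (hm.coprime_dvd_right (orderOf_dvd_natCard x))
    rw [← hk]
    exact U.pow_mem hx k
  have hθV : ∀ w : ↥(W₁ ⊔ W₂), (w : G) ∉ W₁ → (w : G) ∉ W₂ → θ w = 0 := by
    intro w h1 h2
    have e1 : η w = χ ω ((w ^ m : ↥(W₁ ⊔ W₂)) : G) := by
      simp only [hη]; rfl
    rw [hθdef, Pi.sub_apply, e1, hχ.eq_on ω (w ^ m) (fun h => h1 (hnot _ _ h))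
      (fun h => h2 (hnot _ _ h)), hχ.eq_on (ω ^ m) w h1 h2]
    simp
  set r : {φ : ↥(W₁ ⊔ W₂) →* ℂˣ // Triv B φ} → ℂ :=
    fun φ => Cfsg.classInner θ (χ φ) - Cfsg.classInner θ (χ 1) with hr
  set c : {ψ : ↥(W₁ ⊔ W₂) →* ℂˣ // Triv A ψ} → ℂ := fun ψ => Cfsg.classInner θ (χ ψ) with hcdef
  have hrc : ∀ (φ : {φ : ↥(W₁ ⊔ W₂) →* ℂˣ // Triv B φ}) (ψ : {ψ : ↥(W₁ ⊔ W₂) →* ℂˣ // Triv A ψ}),
      Cfsg.classInner θ (χ ((φ : ↥(W₁ ⊔ W₂) →* ℂˣ) * (ψ : ↥(W₁ ⊔ W₂) →* ℂˣ))) = r φ + c ψ := by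
    intro φ ψ
    rw [rect W₁ W₂ χ hχ θ hθ hθV φ ψ (fun w hw => φ.2 w hw) (fun w hw => ψ.2 w hw)]
    simp only [hr, hcdef]
    ring
  obtain ⟨⟨φ₀, ψ₀⟩, h00⟩ := hbij.2 (ω ^ m)
  simp only at h00
  have hθin : ∀ ω', Cfsg.classInner θ (χ ω') =
      Cfsg.classInner η (χ ω') - if ω ^ m = ω' then 1 else 0 := by
    intro ω'
    rw [hθdef, classInner_sub_left, hχ.orthonormal]
    congr
  have hfin := grid hI3 hJ3 r c
    (fun φ ψ => Cfsg.classInner η (χ ((φ : ↥(W₁ ⊔ W₂) →* ℂˣ) * (ψ : ↥(W₁ ⊔ W₂) →* ℂˣ))))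
    (by
      intro i j i' j' h1 h2
      have hij : (i : ↥(W₁ ⊔ W₂) →* ℂˣ) * (j : ↥(W₁ ⊔ W₂) →* ℂˣ) =
          (i' : ↥(W₁ ⊔ W₂) →* ℂˣ) * (j' : ↥(W₁ ⊔ W₂) →* ℂˣ) := by
        by_contra hne
        obtain ⟨-, e⟩ := hηS.eq_smul_of_inner_ne_zero (hS _) h1
        apply h2
        conv_lhs => rw [e]
        rw [classInner_smul_left, hχ.orthonormal, if_neg hne, mul_zero]
      have := hbij.1 (a₁ := (i, j)) (a₂ := (i', j')) hij
      exact ⟨congrArg Prod.fst this, congrArg Prod.snd this⟩)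
    φ₀ ψ₀
    (by rw [← hrc, hθin, if_pos h00.symm])
    (by
      intro i j hij
      rw [← hrc, hθin, if_neg, sub_zero]
      intro e
      have := hbij.1 (a₁ := (φ₀, ψ₀)) (a₂ := (i, j)) (h00.trans e)
      rcases hij with h | h
      · exact h (congrArg Prod.fst this).symm
      · exact h (congrArg Prod.snd this).symm)
  rw [h00] at hfin
  obtain ⟨-, e⟩ := hηS.eq_smul_of_inner_ne_zero (hS (ω ^ m)) (by rw [hfin]; exact one_ne_zero)
  rw [e, hfin, one_smul]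

/-- Let W₁, W₂ ≤ G form a self-normalising cyclic subgroup W = W₁ ⊔ W₂ of odd order and χ an orthonormal family of irreducible characters of G up to sign, indexed by the linear characters ω of W, with χ_1 = 1, χ_ω = ω on W outside W₁ ∪ W₂, and the induction identity for (1 − φ)(1 − ψ). Let ω be a linear character of W and g an element of G whose order is coprime to the order of ω. Then χ ω g is an integer. -/
theorem result {G : Type*} [Group G] [Fintype G] (W₁ W₂ : Subgroup G) (hW : Cfsg.IsSelfNormalizingCyclic W₁ W₂) (hodd : Odd (Nat.card ↥(W₁ ⊔ W₂))) (χ : (↥(W₁ ⊔ W₂) →* ℂˣ) → (G → ℂ)) (hχ : Cfsg.IsCyclicTIFamily W₁ W₂ χ) (ω : ↥(W₁ ⊔ W₂) →* ℂˣ) (g : G) (hg : Nat.Coprime (orderOf g) (orderOf ω)) : ∃ n : ℤ, χ ω g = n := by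
  have hfix : ∀ m : ℕ, m.Coprime (Nat.card G) → χ ω (g ^ m) = χ ω g := by
    intro m hm
    have hb : orderOf ω ∣ Nat.card G := by
      refine dvd_trans ?_ (Subgroup.card_subgroup_dvd_card (W₁ ⊔ W₂))
      apply orderOf_dvd_of_pow_eq_one
      ext w
      simp only [MonoidHom.pow_apply, MonoidHom.one_apply]
      rw [← map_pow, pow_card_eq_one', map_one]
    obtain ⟨m', hm', h1, h2⟩ := exists_exp (Nat.card G) (orderOf g) (orderOf ω) m Nat.card_pos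
      (orderOf_dvd_natCard g) hb hg hm
    have e1 : g ^ m = g ^ m' := (pow_eq_pow_iff_modEq.2 h1).symm
    have e2 : ω ^ m' = ω := by
      calc ω ^ m' = ω ^ (m' % orderOf ω) := (pow_mod_orderOf ω m').symm
        _ = ω ^ (1 % orderOf ω) := by rw [show m' % orderOf ω = 1 % orderOf ω from h2]
        _ = ω ^ 1 := pow_mod_orderOf ω 1
        _ = ω := pow_one ω
    have h4 : χ ω (g ^ m') = χ (ω ^ m') g := congrFun (twist W₁ W₂ hW hodd χ hχ ω m' hm') g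
    rw [e1, h4, e2]
  rcases hχ.irr_or_neg ω with h | h
  · exact int_of_pow_fixed (IsIrrCharacter.isCharacter h) g hfix
  · obtain ⟨n, hn⟩ := int_of_pow_fixed (IsIrrCharacter.isCharacter h) g (by
      intro m hm
      simp only [Pi.neg_apply, hfix m hm])
    refine ⟨-n, ?_⟩
    simp only [Pi.neg_apply] at hn
    push_cast
    rw [← hn, neg_neg]

end Cfsg.Agent.S1508
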