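import Cfsg.Statements.S1510
import Cfsg.Agent.Lib.Helper29Basic
import Cfsg.Agent.S1496
import Mathlib
-- import your own Cfsg.Agent.* helpers here

set_option autoImplicit false
open Cfsg

namespace Cfsg.Agent.S1510

open Cfsg.Agent.Lib.Helper29Basic

/-- Let L be a finite group with a normal subgroup K and a nontrivial cyclic subgroup W₁ of order coprime to its index, K ⊓ W₁ = ⊥ and K ⊔ W₁ = ⊤; let W₂ ≠ ⊥ be a cyclic subgroup of K with K ⊓ C_L(x) = W₂ for every non-identity x ∈ W₁, and suppose W₁ ⊔ W₂ has odd order. Then (W₁, W₂) is a self-normalising cyclic pair in L. -/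
theorem result {L : Type*} [Group L] [Fintype L] (K W₁ W₂ : Subgroup L) [hK : K.Normal] (hKW₁ : K ⊓ W₁ = ⊥) (hKW₁' : K ⊔ W₁ = ⊤) (hW₁ : W₁ ≠ ⊥) (hW₁c : IsCyclic W₁) (hHall : Nat.Coprime (Nat.card W₁) W₁.index) (hW₂ : W₂ ≠ ⊥) (hW₂c : IsCyclic W₂) (hW₂K : W₂ ≤ K) (hC : ∀ x ∈ W₁, x ≠ 1 → K ⊓ Subgroup.centralizer ({x} : Set L) = W₂) (hodd : Odd (Nat.card ↥(W₁ ⊔ W₂))) : Cfsg.IsSelfNormalizingCyclic W₁ W₂ := by
  have hinf : W₁ ⊓ W₂ = ⊥ := by
    rw [eq_bot_iff, ← hKW₁]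
    exact le_inf (inf_le_right.trans hW₂K) inf_le_left
  have hcomm : ∀ a ∈ W₁, ∀ b ∈ W₂, a * b = b * a := by
    intro a ha b hb
    by_cases ha1 : a = 1
    · rw [ha1]; simp
    · rw [← hC a ha ha1] at hb
      exact (Subgroup.mem_centralizer_singleton_iff.1 hb.2).symm
  have hcompl := complIn_sup_of_commute hinf hcomm
  have hcard := card_of_complIn hcompl
  have hKc : Subgroup.IsComplement' K W₁ := by
    apply Subgroup.isComplement'_of_disjoint_and_mul_eq_univ (disjoint_iff.2 hKW₁)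
    rw [← Subgroup.normal_mul, hKW₁', Subgroup.coe_top]
  have hcop : Nat.Coprime (Nat.card W₁) (Nat.card W₂) := by
    rw [hKc.index_eq_card] at hHall
    exact Nat.Coprime.coprime_dvd_right (Subgroup.card_dvd_of_le hW₂K) hHall
  obtain ⟨g₁, hg₁⟩ := hW₁c.exists_generator
  obtain ⟨g₂, hg₂⟩ := hW₂c.exists_generator
  have ho₁ : orderOf (g₁ : L) = Nat.card W₁ := by
    rw [Subgroup.orderOf_coe, orderOf_eq_card_of_forall_mem_zpowers hg₁]
  have ho₂ : orderOf (g₂ : L) = Nat.card W₂ := by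
    rw [Subgroup.orderOf_coe, orderOf_eq_card_of_forall_mem_zpowers hg₂]
  have hcyc : IsCyclic ↥(W₁ ⊔ W₂) := by
    have hc : Commute (g₁ : L) (g₂ : L) := hcomm _ g₁.2 _ g₂.2
    have ho : orderOf ((g₁ : L) * g₂) = Nat.card W₁ * Nat.card W₂ := by
      rw [hc.orderOf_mul_eq_mul_orderOf_of_coprime (by rw [ho₁, ho₂]; exact hcop), ho₁, ho₂]
    have hle : Subgroup.zpowers ((g₁ : L) * g₂) ≤ W₁ ⊔ W₂ := by
      rw [Subgroup.zpowers_le]
      exact Subgroup.mul_mem _ (Subgroup.mem_sup_left g₁.2) (Subgroup.mem_sup_right g₂.2)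
    have heq : Subgroup.zpowers ((g₁ : L) * g₂) = W₁ ⊔ W₂ := by
      apply Subgroup.eq_of_le_of_card_ge hle
      rw [Nat.card_zpowers, ho, hcard]
    rw [← heq]
    infer_instance
  refine ⟨hW₁, hW₂, hinf, hcomm, hcyc, ?_⟩
  intro X hX hXne
  apply le_antisymm
  · intro g hg
    obtain ⟨x, hx⟩ := hXne
    have hx' := (Subgroup.mem_set_normalizer_iff.1 hg x).1 hx
    obtain ⟨a, ha, b, hb, hxab⟩ := hcompl.2.2.2 x (hX hx).1
    obtain ⟨a', ha', b', hb', hxab'⟩ := hcompl.2.2.2 _ (hX hx').1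
    have ha1 : a ≠ 1 := by
      intro h
      apply (hX hx).2
      right
      rw [hxab, h, one_mul]; exact hb
    obtain ⟨k, hk1, hk0⟩ := Nat.chineseRemainder hcop 1 0
    have h1 := Cfsg.Agent.S1496.pow_trick a b _ _ k (hcomm a ha b hb)
      (pow_card_eq_one_of_mem ha) (pow_card_eq_one_of_mem hb) hk1 hk0
    have h2 := Cfsg.Agent.S1496.pow_trick a' b' _ _ k (hcomm a' ha' b' hb')
      (pow_card_eq_one_of_mem ha') (pow_card_eq_one_of_mem hb') hk1 hk0
    have h3 : g * a * g⁻¹ = a' := by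
      rw [← h1, ← h2, ← hxab, ← hxab', conj_pow]
    have hgtop : g ∈ K ⊔ W₁ := by rw [hKW₁']; trivial
    rw [← SetLike.mem_coe, Subgroup.normal_mul] at hgtop
    obtain ⟨κ, hκ, w, hw, hκw⟩ := Set.mem_mul.1 hgtop
    have hwa : w * a = a * w := comm_of_cyclic hW₁c hw ha
    have h4 : κ * a * κ⁻¹ = a' := by
      rw [← h3, ← hκw]
      calc κ * a * κ⁻¹ = κ * (a * w) * w⁻¹ * κ⁻¹ := by group
        _ = κ * w * a * (κ * w)⁻¹ := by rw [← hwa]; group
    have h5 : a' * a⁻¹ ∈ K ⊓ W₁ := by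
      refine ⟨?_, W₁.mul_mem ha' (W₁.inv_mem ha)⟩
      rw [← h4]
      have e : κ * a * κ⁻¹ * a⁻¹ = κ * (a * κ⁻¹ * a⁻¹) := by group
      rw [e]
      exact K.mul_mem hκ (hK.conj_mem _ (K.inv_mem hκ) a)
    rw [hKW₁, Subgroup.mem_bot, mul_inv_eq_one] at h5
    have h6 : κ ∈ W₂ := by
      rw [← hC a ha ha1]
      refine ⟨hκ, Subgroup.mem_centralizer_singleton_iff.2 ?_⟩
      calc κ * a = κ * a * κ⁻¹ * κ := by group
        _ = a * κ := by rw [h4, h5]
    rw [← hκw]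
    exact Subgroup.mul_mem _ (Subgroup.mem_sup_right h6) (Subgroup.mem_sup_left hw)
  · intro w hw
    rw [Subgroup.mem_set_normalizer_iff]
    intro n
    constructor
    · intro hn
      have : w * n * w⁻¹ = n := by
        rw [comm_of_cyclic hcyc hw (hX hn).1]; group
      rw [this]; exact hn
    · intro hn
      have h1 := comm_of_cyclic hcyc (Subgroup.inv_mem _ hw) (hX hn).1
      have : n = w * n * w⁻¹ := by
        calc n = w⁻¹ * (w * n * w⁻¹) * w := by group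
          _ = w * n * w⁻¹ := by rw [h1]; group
      rw [this]; exact hn

end Cfsg.Agent.S1510
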