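import Cfsg.Statements.S1512
import Cfsg.Agent.S1496
-- import your own Cfsg.Agent.* helpers here

set_option autoImplicit false
open Cfsg

namespace Cfsg.Agent.S1512

theorem exists_rep {L : Type*} [Group L] [Finite L] (K : Subgroup L) [hK : K.Normal] (x : L)
    (hx : Nat.Coprime (orderOf x) (Nat.card K)) (k : K)
    (hinv : ConjClasses.mk ((MulAut.conjNormal x : MulAut K) k) = ConjClasses.mk k) :
    ∃ k' : K, ConjClasses.mk k' = ConjClasses.mk k ∧ (k' : L) * x = x * k' := by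
  rw [ConjClasses.mk_eq_mk_iff_isConj, isConj_comm, isConj_iff] at hinv
  obtain ⟨y, hy⟩ := hinv
  have hy' : (y : L) * k * (y : L)⁻¹ = x * k * x⁻¹ := by
    have := congrArg Subtype.val hy
    simpa using this
  have hxn : x ∈ Subgroup.normalizer (K : Set L) := by
    rw [Subgroup.normalizer_eq_top]; trivial
  obtain ⟨z, hz, c, hc, hcx, hzc⟩ :=
    Cfsg.Agent.S1496.result K x hxn hx (y : L)⁻¹ (K.inv_mem y.2)
  -- `y⁻¹ x` commutes with `k`
  have h1 : ((y : L)⁻¹ * x) * k = k * ((y : L)⁻¹ * x) := by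
    calc ((y : L)⁻¹ * x) * k = (y : L)⁻¹ * (x * k * x⁻¹) * x := by group
      _ = (y : L)⁻¹ * ((y : L) * k * (y : L)⁻¹) * x := by rw [hy']
      _ = k * ((y : L)⁻¹ * x) := by group
  -- `c x` commutes with `z k z⁻¹`
  have h2 : (c * x) * (z * k * z⁻¹) = (z * k * z⁻¹) * (c * x) := by
    rw [← hzc]
    calc z * ((y : L)⁻¹ * x) * z⁻¹ * (z * k * z⁻¹) = z * (((y : L)⁻¹ * x) * k) * z⁻¹ := by group
      _ = z * (k * ((y : L)⁻¹ * x)) * z⁻¹ := by rw [h1]
      _ = z * k * z⁻¹ * (z * ((y : L)⁻¹ * x) * z⁻¹) := by group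
  obtain ⟨m, hm1, hm0⟩ := Nat.chineseRemainder hx 1 0
  have h3 := Cfsg.Agent.S1496.pow_trick x c _ _ m hcx.symm (pow_orderOf_eq_one x)
    (Cfsg.Agent.S1496.pow_card_sub hc) hm1 hm0
  have h4 : Commute (x * c) (z * k * z⁻¹) := by
    rw [← hcx]; exact h2
  have h5 : Commute x (z * k * z⁻¹) := by
    have := h4.pow_left m
    rwa [h3] at this
  refine ⟨⟨z * k * z⁻¹, hK.conj_mem k k.2 z⟩, ?_, h5.symm⟩
  rw [ConjClasses.mk_eq_mk_iff_isConj, isConj_comm, isConj_iff]
  exact ⟨⟨z, hz⟩, rfl⟩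

/-- Let K be a normal subgroup of the finite group L and x a non-identity element whose order is coprime to the order of K, such that K ⊓ C_L(y) = W₂ for every non-identity element y of the cyclic group generated by x. Then the number of conjugacy classes of K mapped to themselves by conjugation by x is at most Nat.card W₂. -/
theorem result {L : Type*} [Group L] [Finite L] (K W₂ : Subgroup L) [hK : K.Normal] (x : L) (hx1 : x ≠ 1) (hx : Nat.Coprime (orderOf x) (Nat.card K)) (hC : ∀ y ∈ Subgroup.zpowers x, y ≠ 1 → K ⊓ Subgroup.centralizer ({y} : Set L) = W₂) : Nat.card {C : ConjClasses K // ConjClasses.map (MulEquiv.toMonoidHom ((MulAut.conjNormal x : MulAut K))) C = C} ≤ Nat.card W₂ := by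
  have hW := hC x (Subgroup.mem_zpowers x) hx1
  have key : ∀ C : {C : ConjClasses K // ConjClasses.map (MulEquiv.toMonoidHom
      ((MulAut.conjNormal x : MulAut K))) C = C}, ∃ w : W₂, ∃ hw : (w : L) ∈ K,
      ConjClasses.mk (⟨w, hw⟩ : K) = C.1 := by
    rintro ⟨C, hCinv⟩
    obtain ⟨k, rfl⟩ := ConjClasses.exists_rep C
    have hinv : ConjClasses.mk ((MulAut.conjNormal x : MulAut K) k) = ConjClasses.mk k := hCinv
    obtain ⟨k', hk', hcomm⟩ := exists_rep K x hx k hinv
    have hmem : (k' : L) ∈ W₂ := by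
      rw [← hW]
      exact ⟨k'.2, Subgroup.mem_centralizer_singleton_iff.2 hcomm⟩
    exact ⟨⟨k', hmem⟩, k'.2, hk'⟩
  choose F hF1 hF2 using key
  apply Nat.card_le_card_of_injective F
  intro C D hCD
  apply Subtype.ext
  rw [← hF2 C, ← hF2 D]
  congr 1
  apply Subtype.ext
  show ((F C : W₂) : L) = ((F D : W₂) : L)
  rw [hCD]

end Cfsg.Agent.S1512
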