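import Cfsg.Statements.S1513
import Mathlib
import Cfsg.Agent.Lib.Helper77Glaub4
import Cfsg.Agent.Lib.Helper4Frob
import Cfsg.Agent.S1491

set_option autoImplicit false
open Cfsg

namespace Cfsg.Agent.S1513

open Lib.Helper4Char Lib.Helper4Char2 Lib.Helper4Char4 Lib.Helper77Glaub Lib.Helper77Glaub2
  Lib.Helper77Glaub4

theorem card_irr_comm {A : Type*} [Group A] [Finite A] (hA : ∀ a b : A, a * b = b * a) :
    Nat.card (Cfsg.IrrCharacter A) = Nat.card A := by
  cases nonempty_fintype A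
  rw [card_irr_eq_card_conjClasses]
  symm
  apply Nat.card_congr
  refine Equiv.ofBijective ConjClasses.mk ⟨?_, ConjClasses.mk_surjective⟩
  intro a b hab
  rw [ConjClasses.mk_eq_mk_iff_isConj] at hab
  obtain ⟨c, hc⟩ := hab
  have h1 : c * a = b * c := hc
  rw [hA c a] at h1
  have h2 : a * c = b * c := h1
  exact mul_right_cancel h2

theorem count {L : Type*} [Group L] [Fintype L] (K W₁ W₂ : Subgroup L) [hK : K.Normal]
    (hKW₁ : K ⊓ W₁ = ⊥) (hKW₁' : K ⊔ W₁ = ⊤)
    (hW₁c : IsCyclic W₁) (hHall : Nat.Coprime (Nat.card W₁) W₁.index)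
    (hW₂c : IsCyclic W₂) (hW₂K : W₂ ≤ K)
    (hC : ∀ x ∈ W₁, x ≠ 1 → K ⊓ Subgroup.centralizer ({x} : Set L) = W₂)
    (S : Subgroup L) (hS : S ≤ W₁) (hS1 : S ≠ ⊥) :
    Nat.card {θ : Cfsg.IrrCharacter K // ∀ x ∈ S, (fun k : K => (θ : K → ℂ)
      ⟨x * k * x⁻¹, hK.conj_mem (k : L) k.2 x⟩) = θ} = Nat.card W₂ := by
  classical
  have hnorm : ∀ s ∈ S, ∀ g ∈ K, s * g * s⁻¹ ∈ K := fun s _ g hg => hK.conj_mem g hg s
  have hcomm : ∀ a b : S, a * b = b * a := by
    intro a b
    have := hW₁c.commGroup.mul_comm (Subgroup.inclusion hS a) (Subgroup.inclusion hS b)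
    have h2 := congrArg (fun z : W₁ => (z : L)) this
    exact Subtype.ext h2
  have : Group.IsSolvable S := Group.isSolvable_of_comm hcomm
  have hcompl : Subgroup.IsComplement' K W₁ :=
    Subgroup.isComplement'_of_disjoint_and_mul_eq_univ (disjoint_iff.mpr hKW₁)
      (by rw [← Subgroup.normal_mul, hKW₁']; rfl)
  have hKcard : Nat.card K = W₁.index := by
    have h1 := hcompl.card_mul_card
    have h2 := W₁.card_mul_index
    have h3 : 0 < Nat.card W₁ := Nat.card_pos
    nlinarith
  have hcop : (Nat.card K).Coprime (Nat.card S) := by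
    rw [hKcard]
    exact (Nat.Coprime.coprime_dvd_left (Subgroup.card_dvd_of_le hS) hHall).symm
  have h1 := card_inv_irr_eq_card_irr_fix (conjAct K S hnorm) hcop
  have h2 : Nat.card {θ : Cfsg.IrrCharacter K // ∀ x ∈ S, (fun k : K => (θ : K → ℂ)
      ⟨x * k * x⁻¹, hK.conj_mem (k : L) k.2 x⟩) = θ} =
      Nat.card {χ : Cfsg.IrrCharacter K // Inv (conjAct K S hnorm) χ.1} := by
    apply Nat.card_congr
    apply Equiv.subtypeEquivRight
    intro θ
    constructor
    · intro h s g
      exact congrFun (h s s.2) g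
    · intro h x hx
      funext k
      exact h ⟨x, hx⟩ k
  rw [h2, h1]
  obtain ⟨s, hs1⟩ := (Subgroup.ne_bot_iff_exists_ne_one).mp hS1
  have hs1' : (s : L) ≠ 1 := fun h => hs1 (Subtype.ext h)
  have hmem : ∀ k : K, k ∈ fixSub (conjAct K S hnorm) ↔ (k : L) ∈ W₂ := by
    intro k
    rw [mem_fixSub]
    constructor
    · intro h
      rw [← hC s (hS s.2) hs1']
      refine Subgroup.mem_inf.mpr ⟨k.2, ?_⟩
      rw [Subgroup.mem_centralizer_iff]
      intro y hy
      rw [Set.mem_singleton_iff] at hy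
      subst hy
      have h3 := congrArg Subtype.val (h s)
      rw [conjAct_apply_coe] at h3
      exact mul_inv_eq_iff_eq_mul.mp h3
    · intro h t
      apply Subtype.ext
      rw [conjAct_apply_coe]
      by_cases ht : (t : L) = 1
      · rw [ht]; simp
      · rw [← hC t (hS t.2) ht] at h
        have h4 := (Subgroup.mem_inf.mp h).2
        rw [Subgroup.mem_centralizer_iff] at h4
        rw [h4 t rfl]
        group
  have e : fixSub (conjAct K S hnorm) ≃* W₂ :=
    { toFun := fun x => ⟨x.1.1, (hmem x.1).mp x.2⟩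
      invFun := fun y => ⟨⟨y.1, hW₂K y.2⟩, (hmem _).mpr y.2⟩
      left_inv := fun x => rfl
      right_inv := fun y => rfl
      map_mul' := fun x y => rfl }
  rw [card_irr_congr e]
  exact card_irr_comm (fun a b => hW₂c.commGroup.mul_comm a b)

/-- the inertia subgroup of a function on a normal subgroup -/
def inertia {G : Type*} [Group G] (A : Subgroup G) [A.Normal] (ϑ : A → ℂ) : Subgroup G where
  carrier := {g | ∀ n : A, ϑ (MulAut.conjNormal g n) = ϑ n}
  one_mem' := by intro n; simp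
  mul_mem' := by
    intro a b ha hb n
    rw [map_mul, MulAut.mul_apply, ha, hb]
  inv_mem' := by
    intro a ha n
    have := ha (MulAut.conjNormal a⁻¹ n)
    rw [← MulAut.mul_apply, ← map_mul, mul_inv_cancel, map_one, MulAut.one_apply] at this
    exact this.symm

/-- Let L be a finite group with K normal with complement W₁ ≠ 1 a cyclic Hall subgroup, and W₂ ≠ 1 a cyclic subgroup of K equal to C_K(x) for every non-identity x ∈ W₁, with W₁W₂ of odd order. For an irreducible character θ of K: if θ is not fixed under conjugation by some element of W₁, then the function induced from θ to L is an irreducible character of L; and the irreducible characters of K fixed by all of W₁ are exactly Nat.card W₂ in number, each inducing to the sum of Nat.card W₁ pairwise distinct irreducible characters of L. -/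
theorem result {L : Type*} [Group L] [Fintype L] (K W₁ W₂ : Subgroup L) [hK : K.Normal] (hKW₁ : K ⊓ W₁ = ⊥) (hKW₁' : K ⊔ W₁ = ⊤) (hW₁ : W₁ ≠ ⊥) (hW₁c : IsCyclic W₁) (hHall : Nat.Coprime (Nat.card W₁) W₁.index) (hW₂ : W₂ ≠ ⊥) (hW₂c : IsCyclic W₂) (hW₂K : W₂ ≤ K) (hC : ∀ x ∈ W₁, x ≠ 1 → K ⊓ Subgroup.centralizer ({x} : Set L) = W₂) (hodd : Odd (Nat.card ↥(W₁ ⊔ W₂))) : (∀ θ : K → ℂ, Cfsg.IsIrrCharacter K θ → (∃ x ∈ W₁, (fun k : K => θ ⟨x * k * x⁻¹, hK.conj_mem (k : L) k.2 x⟩) ≠ θ) → Cfsg.IsIrrCharacter L (Cfsg.indFun K θ)) ∧ Nat.card {θ : Cfsg.IrrCharacter K // ∀ x ∈ W₁, (fun k : K => (θ : K → ℂ) ⟨x * k * x⁻¹, hK.conj_mem (k : L) k.2 x⟩) = θ} = Nat.card W₂ ∧ (∀ θ : K → ℂ, Cfsg.IsIrrCharacter K θ → (∀ x ∈ W₁, (fun k : K => θ ⟨x * k * x⁻¹, hK.conj_mem (k : L) k.2 x⟩) = θ) → ∃ C : Finset (L → ℂ), C.card = Nat.card W₁ ∧ (∀ μ ∈ C, Cfsg.IsIrrCharacter L μ) ∧ Cfsg.indFun K θ = ∑ μ ∈ C, μ) := by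
  classical
  have hcount := count K W₁ W₂ hKW₁ hKW₁' hW₁c hHall hW₂c hW₂K hC
  have hcompl : Subgroup.IsComplement' K W₁ :=
    Subgroup.isComplement'_of_disjoint_and_mul_eq_univ (disjoint_iff.mpr hKW₁)
      (by rw [← Subgroup.normal_mul, hKW₁']; rfl)
  have hKcard : Nat.card K = W₁.index := by
    have h1 := hcompl.card_mul_card
    have h2 := W₁.card_mul_index
    have h3 : 0 < Nat.card W₁ := Nat.card_pos
    nlinarith
  have hKidx : K.index = Nat.card W₁ := by
    have h1 := hcompl.card_mul_card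
    have h2 := K.card_mul_index
    have h3 : 0 < Nat.card K := Nat.card_pos
    nlinarith
  have hdecomp : ∀ x : L, ∃ k ∈ K, ∃ w ∈ W₁, k * w = x :=
    exists_mul_of_sup_eq_top K W₁ hKW₁'
  have hconj : ∀ (x : L) (n : K), (MulAut.conjNormal x n : K) =
      ⟨x * n * x⁻¹, hK.conj_mem n n.2 x⟩ := by
    intro x n
    apply Subtype.ext
    simp [MulAut.conjNormal_apply]
  refine ⟨?_, hcount W₁ le_rfl hW₁, ?_⟩
  · intro θ hθ hmoved
    have hθcl := IsIrrCharacter.isClassFunction hθ
    have hKin : K ≤ inertia K θ := by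
      intro k hk n
      rw [hconj]
      exact hθcl n ⟨k, hk⟩
    apply Lib.Helper4Frob.isIrrCharacter_indFun_of_inertia K hθ
    intro x hx
    obtain ⟨k, hk, w, hw, rfl⟩ := hdecomp x
    by_cases hw1 : w = 1
    · rw [hw1, mul_one]; exact hk
    exfalso
    have hx' : k * w ∈ inertia K θ := fun n => congrFun hx n
    have hwin : w ∈ inertia K θ := by
      have := (inertia K θ).mul_mem ((inertia K θ).inv_mem (hKin hk)) hx'
      rwa [inv_mul_cancel_left] at this
    have hz : Subgroup.zpowers w ≤ inertia K θ := by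
      rw [Subgroup.zpowers_le]; exact hwin
    have hzW : Subgroup.zpowers w ≤ W₁ := by
      rw [Subgroup.zpowers_le]; exact hw
    have hz1 : Subgroup.zpowers w ≠ ⊥ := by
      rw [Ne, Subgroup.zpowers_eq_bot]; exact hw1
    have hc1 := hcount W₁ le_rfl hW₁
    have hc2 := hcount _ hzW hz1
    let f : {θ : Cfsg.IrrCharacter K // ∀ x ∈ W₁, (fun k : K => (θ : K → ℂ)
        ⟨x * k * x⁻¹, hK.conj_mem (k : L) k.2 x⟩) = θ} →
        {θ : Cfsg.IrrCharacter K // ∀ x ∈ Subgroup.zpowers w, (fun k : K => (θ : K → ℂ)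
        ⟨x * k * x⁻¹, hK.conj_mem (k : L) k.2 x⟩) = θ} :=
      fun t => ⟨t.1, fun x hx => t.2 x (hzW hx)⟩
    have hfinj : Function.Injective f := by
      intro a b hab
      apply Subtype.ext
      have h5 : (f a).1 = (f b).1 := congrArg Subtype.val hab
      exact h5
    have hfbij : Function.Bijective f := by
      rw [Nat.bijective_iff_injective_and_card]
      exact ⟨hfinj, hc1.trans hc2.symm⟩
    obtain ⟨t, ht⟩ := hfbij.2 ⟨⟨θ, hθ⟩, fun x hx => by
      funext n
      have := hz hx n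
      rwa [hconj] at this⟩
    have ht' : t.1 = ⟨θ, hθ⟩ := congrArg Subtype.val ht
    obtain ⟨y, hy, hne⟩ := hmoved
    apply hne
    have := t.2 y hy
    rw [ht'] at this
    exact this
  · intro θ hθ hfix
    have hθcl := IsIrrCharacter.isClassFunction hθ
    have hKin : K ≤ inertia K θ := by
      intro k hk n
      rw [hconj]
      exact hθcl n ⟨k, hk⟩
    have hWin : W₁ ≤ inertia K θ := by
      intro w hw n
      rw [hconj]
      exact congrFun (hfix w hw) n
    have htop : inertia K θ = ⊤ := by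
      rw [eq_top_iff, ← hKW₁']
      exact sup_le hKin hWin
    obtain ⟨π, hπ1, hπ2⟩ := exists_proj K W₁ hKW₁' (by rw [hKcard]; exact hHall.symm)
    have hπker : ∀ x : L, π x = 1 → x ∈ K := by
      intro x hx
      obtain ⟨k, hk, w, hw, rfl⟩ := hdecomp x
      rw [map_mul, hπ2 k hk, one_mul] at hx
      have := hπ1 ⟨w, hw⟩
      rw [hx] at this
      have hw1 : w = 1 := (congrArg Subtype.val this).symm
      rw [hw1, mul_one]; exact hk
    obtain ⟨C, hC1, hC2, hC3, -⟩ := S1491.result K ⊤ θ hθ (by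
      intro g
      constructor
      · intro _ h
        have : g ∈ inertia K θ := htop ▸ Subgroup.mem_top g
        have := this h
        rwa [hconj] at this
      · intro _; trivial) (by
      intro x _ y _
      apply hπker
      simp only [map_mul, map_inv]
      have := hW₁c.commGroup.mul_comm (π x) (π y)
      rw [this]
      group) (by
      rw [Subgroup.relIndex_top_right, hKidx, hKcard]
      exact hHall.symm)
    refine ⟨C, ?_, hC1, hC3⟩
    rw [hC2, Subgroup.relIndex_top_right, hKidx]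

end Cfsg.Agent.S1513
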