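import Cfsg.Statements.S1515
import Cfsg.Agent.Lib.Helper32Sub

set_option autoImplicit false
open Cfsg

namespace Cfsg.Agent.S1515

open Cfsg.Agent.Lib.Helper4Char Cfsg.Agent.Lib.Helper4Char2 Cfsg.Agent.Lib.Helper4Char4
open Cfsg.Agent.Lib.Helper32Virt Cfsg.Agent.Lib.Helper32Coh Cfsg.Agent.Lib.Helper32Sub

/-- Let (S, τ, R) be a coherence system from L to G, χ ∈ S, and ψ an integer combination of S with ⟨χ, ψ⟩ = ⟨conj χ, ψ⟩ = 0. Let τ₁ be a linear isometry on the integer combinations of χ − ψ and χ − conj χ, with virtual-character values, agreeing with τ on integer multiples of χ − conj χ. Then the sum over α ∈ R χ of the squared absolute values of ⟨τ₁(χ − ψ), α⟩ is at least ⟨χ, χ⟩; and if ⟨τ₁(χ − ψ), τ₁(χ − ψ)⟩ minus that sum is at least ⟨ψ, ψ⟩, then the sum equals ⟨χ, χ⟩ and every ⟨τ₁(χ − ψ), α⟩ with α ∈ R χ is 0 or 1. -/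
theorem result {L : Type*} [Group L] [Fintype L] {G : Type*} [Group G] [Fintype G] (S : Set (L → ℂ)) (τ : (L → ℂ) → (G → ℂ)) (R : (L → ℂ) → Finset (G → ℂ)) (hS : Cfsg.IsCoherenceSystem S τ R) (χ : L → ℂ) (hχ : χ ∈ S) (ψ : L → ℂ) (hψ : ψ ∈ Cfsg.zspan S) (h1 : Cfsg.classInner χ ψ = 0) (h2 : Cfsg.classInner (Cfsg.conjFun χ) ψ = 0) (τ₁ : (L → ℂ) → (G → ℂ)) (hτ₁ : Cfsg.IsLinearIsometryOn (Cfsg.zspan {χ - ψ, χ - Cfsg.conjFun χ}) τ₁) (hagree : ∀ n : ℤ, τ₁ (n • (χ - Cfsg.conjFun χ)) = τ (n • (χ - Cfsg.conjFun χ))) : (Cfsg.classInner χ χ).re ≤ ∑ α ∈ R χ, ‖Cfsg.classInner (τ₁ (χ - ψ)) α‖ ^ 2 ∧ ((Cfsg.classInner ψ ψ).re ≤ (Cfsg.classInner (τ₁ (χ - ψ)) (τ₁ (χ - ψ))).re - ∑ α ∈ R χ, ‖Cfsg.classInner (τ₁ (χ - ψ)) α‖ ^ 2 → (∑ α ∈ R χ, ‖Cfsg.classInner (τ₁ (χ - ψ)) α‖ ^ 2 = (Cfsg.classInner χ χ).re ∧ ∀ α ∈ R χ, Cfsg.classInner (τ₁ (χ - ψ)) α = 0 ∨ Cfsg.classInner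 (τ₁ (χ - ψ)) α = 1)) := by
  have m1 : χ - ψ ∈ zspan ({χ - ψ, χ - conjFun χ} : Set (L → ℂ)) := zspan_of_mem (by simp)
  have m2 : χ - conjFun χ ∈ zspan ({χ - ψ, χ - conjFun χ} : Set (L → ℂ)) := zspan_of_mem (by simp)
  set v := τ₁ (χ - ψ) with hv
  have hvg : IsGeneralizedCharacter G v := iso_gen hτ₁ m1
  have hag : τ₁ (χ - conjFun χ) = τ (χ - conjFun χ) := by
    have := hagree 1
    simpa using this
  have e1 : ip χ ψ = 0 := ip_of_inner_eq_zero h1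
  have e2 : ip (conjFun χ) ψ = 0 := ip_of_inner_eq_zero h2
  have hvD : ip v (τ (χ - conjFun χ)) = ip χ χ := by
    rw [← hag, hv]
    unfold ip
    rw [iso_inner hτ₁ m1 m2]
    change ip (χ - ψ) (χ - conjFun χ) = ip χ χ
    rw [ip_sub_left, ip_sub_right, ip_sub_right, ip_conj hS hχ, ip_comm ψ χ, e1,
      ip_comm ψ (conjFun χ), e2]
    ring
  have hvv : ip v v = ip χ χ + ip ψ ψ := by
    rw [hv]
    unfold ip
    rw [iso_inner hτ₁ m1 m1]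
    change ip (χ - ψ) (χ - ψ) = ip χ χ + ip ψ ψ
    rw [ip_sub_left, ip_sub_right, ip_sub_right, ip_comm ψ χ, e1]
    ring
  have hk := key hS hχ hvg hvD
  rw [(on hS hχ).ip_proj_self] at hk
  refine ⟨hk, fun h => ?_⟩
  change ip ψ ψ ≤ ip v v - _ at h
  have hle : ∑ α ∈ R χ, ‖classInner v α‖ ^ 2 ≤ ip χ χ := by linarith
  refine ⟨le_antisymm hle hk, fun α hα => ?_⟩
  apply (on hS hχ).zero_or_one hvg _ hα
  rw [(on hS hχ).ip_proj_self, ← hS.sum_eq χ hχ, hvD]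
  exact hle

end Cfsg.Agent.S1515
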