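import Cfsg.Statements.S1524
import Cfsg.Agent.Lib.Helper32Sibley

set_option autoImplicit false
open Cfsg

namespace Cfsg.Agent.S1524

/-- Let G be a finite group and H ≤ L subgroups with L of odd order, H ≠ ⊥ nilpotent and normal in L with a nontrivial complement W₁ in L (H ⊓ W₁ = ⊥, H ⊔ W₁ = L) acting on H without non-identity fixed points (L is a Frobenius group with kernel H), and suppose the underlying set of H is a TI-subset of G whose normaliser is L. Let S be the set of functions on L induced from the non-principal irreducible characters of H. Then (S, L minus 1, induction to G) is coherent. -/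
theorem result {G : Type*} [Group G] [Fintype G] (H L W₁ : Subgroup G) [Fintype L] (hodd : Odd (Nat.card L)) (hHL : H ≤ L) (hW₁L : W₁ ≤ L) (hH1 : H ≠ ⊥) (hW1 : W₁ ≠ ⊥) (hnil : Group.IsNilpotent H) (hHn : ∀ x ∈ L, ∀ h ∈ H, x * h * x⁻¹ ∈ H) (hinf : H ⊓ W₁ = ⊥) (hsup : H ⊔ W₁ = L) (hfpf : ∀ w ∈ W₁, w ≠ 1 → ∀ h ∈ H, w * h = h * w → h = 1) (hTI : Cfsg.IsTISubset (H : Set G)) (hN : Subgroup.normalizer (H : Set G) = L) : Cfsg.IsCoherent (Cfsg.inducedIrrAbove (H.subgroupOf L) ⊥) {1}ᶜ (fun α : L → ℂ => Cfsg.indFun L α) := by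
  classical
  have hKn : (H.subgroupOf L).Normal := ⟨fun n hn g => by
    rw [Subgroup.mem_subgroupOf] at hn ⊢
    exact hHn g g.2 n hn⟩
  have hKW : H.subgroupOf L ⊔ W₁.subgroupOf L = ⊤ := by
    rw [← Subgroup.subgroupOf_sup hHL hW₁L, hsup, Subgroup.subgroupOf_self]
  apply Cfsg.Agent.Lib.Helper32Sibley.core H L hodd hHL hH1 _ _ _ hTI hN
  · rw [lt_top_iff_ne_top]
    intro h
    rw [Subgroup.subgroupOf_eq_top] at h
    apply hW1
    rw [← hinf]
    exact (inf_eq_right.2 (hW₁L.trans h)).symm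
  · exact Group.nilpotent_of_mulEquiv (Subgroup.subgroupOfEquivOfLe hHL).symm
  · intro y hy c hc hyc
    apply Cfsg.Agent.Lib.Helper4Frob.eq_one_of_commute_of_not_mem (H.subgroupOf L)
      (W₁.subgroupOf L) hKW _ y hy c hc hyc
    intro w hw hw1 k hk hwk
    apply Subtype.ext
    exact hfpf w (Subgroup.mem_subgroupOf.1 hw) (fun h => hw1 (Subtype.ext h)) k
      (Subgroup.mem_subgroupOf.1 hk) (congrArg Subtype.val hwk)

end Cfsg.Agent.S1524
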