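import Cfsg.Statements.S1525
import Cfsg.Agent.Lib.Helper32Dade
-- import your own Cfsg.Agent.* helpers here

set_option autoImplicit false
open Cfsg

namespace Cfsg.Agent.S1525

open Cfsg.Agent.Lib.Helper32Dade

theorem finsum_mem_set_eq_sum_ite {X : Type*} [Fintype X] (s : Set X) (f : X → ℝ)
    [DecidablePred (· ∈ s)] :
    ∑ᶠ u ∈ s, f u = ∑ u : X, if u ∈ s then f u else 0 := by
  classical
  rw [finsum_mem_def, finsum_eq_sum_of_fintype]
  apply Finset.sum_congr rfl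
  intro u _
  by_cases hu : u ∈ s
  · rw [Set.indicator_of_mem hu, if_pos hu]
  · rw [Set.indicator_of_notMem hu, if_neg hu]

theorem cs {G : Type*} [Group G] [Fintype G] (K : Subgroup G) (f : G → ℂ)
    [DecidablePred (· ∈ K)] :
    ‖(Nat.card K : ℂ)⁻¹ * ∑ᶠ u ∈ (K : Set G), f u‖ ^ 2 ≤
      (Nat.card K : ℝ)⁻¹ * ∑ u : G, if u ∈ K then ‖f u‖ ^ 2 else 0 := by
  classical
  rw [finsum_mem_eq_sum_ite, ← Finset.sum_filter, ← Finset.sum_filter]
  have hcard : (Nat.card K : ℝ) = ((Finset.univ.filter (· ∈ K)).card : ℝ) := by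
    rw [Nat.card_eq_fintype_card, Fintype.card_subtype]
  have hpos : (0 : ℝ) < Nat.card K := by exact_mod_cast Nat.card_pos
  rw [norm_mul, norm_inv, Complex.norm_natCast, mul_pow]
  have h1 : ‖∑ u ∈ Finset.univ.filter (· ∈ K), f u‖ ^ 2 ≤
      (Nat.card K : ℝ) * ∑ u ∈ Finset.univ.filter (· ∈ K), ‖f u‖ ^ 2 := by
    calc ‖∑ u ∈ Finset.univ.filter (· ∈ K), f u‖ ^ 2
        ≤ (∑ u ∈ Finset.univ.filter (· ∈ K), ‖f u‖) ^ 2 := by
          apply pow_le_pow_left₀ (norm_nonneg _) (norm_sum_le _ _)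
      _ ≤ (Nat.card K : ℝ) * ∑ u ∈ Finset.univ.filter (· ∈ K), ‖f u‖ ^ 2 := by
          rw [hcard]
          exact sq_sum_le_card_mul_sum_sq
  calc ((Nat.card K : ℝ)⁻¹) ^ 2 * ‖∑ u ∈ Finset.univ.filter (· ∈ K), f u‖ ^ 2
      ≤ ((Nat.card K : ℝ)⁻¹) ^ 2 * ((Nat.card K : ℝ) * ∑ u ∈ Finset.univ.filter (· ∈ K), ‖f u‖ ^ 2) := by
        apply mul_le_mul_of_nonneg_left h1 (by positivity)
    _ = (Nat.card K : ℝ)⁻¹ * ∑ u ∈ Finset.univ.filter (· ∈ K), ‖f u‖ ^ 2 := by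
        field_simp

/-- Under the Dade hypothesis for (A, L, H), let χ be a class function of G and let ψ be a function on L whose value at each a ∈ A is the average of χ over the coset a·H(a). Then (1/|G|) Σ |χ g|² over the elements g of G conjugate into some coset a·H(a) with a ∈ A is at least (1/|L|) Σ_{a ∈ A ∩ L} |ψ a|². -/
theorem result {G : Type*} [Group G] [Fintype G] (A : Set G) (L : Subgroup G) [Fintype L] (H : G → Subgroup G) (hD : Cfsg.DadeHypothesis A L H) (χ : G → ℂ) (hχ : Cfsg.IsClassFunction G χ) (ψ : L → ℂ) (hψ : ∀ a : L, (a : G) ∈ A → ψ a = (Nat.card (H a) : ℂ)⁻¹ * ∑ᶠ u ∈ (H a : Set G), χ (a * u)) : (Nat.card L : ℝ)⁻¹ * ∑ᶠ a ∈ {a : L | (a : G) ∈ A}, ‖ψ a‖ ^ 2 ≤ (Nat.card G : ℝ)⁻¹ * ∑ᶠ g ∈ {g : G | ∃ a ∈ A, ∃ u ∈ H a, ∃ x : G, x * g * x⁻¹ = a * u}, ‖χ g‖ ^ 2 := by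
  classical
  set α : L → ℂ := fun a => if (a : G) ∈ A then 1 else 0 with hαdef
  have hα : Cfsg.IsClassFunction L α := by
    intro a l
    simp only [hαdef]
    have e : ((l * a * l⁻¹ : L) : G) = (l : G) * a * (l : G)⁻¹ := by simp
    rw [e]
    have hiff : (l : G) * a * (l : G)⁻¹ ∈ A ↔ (a : G) ∈ A := by
      constructor
      · intro h
        have := hD.conj_mem (l : G)⁻¹ (L.inv_mem l.2) _ h
        simpa [mul_assoc] using this
      · intro h
        exact hD.conj_mem l l.2 a h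
    simp only [hiff]
  set F : G → ℂ := fun g => ((‖χ g‖ ^ 2 : ℝ) : ℂ) with hFdef
  have hF : Cfsg.IsClassFunction G F := by
    intro g h
    simp only [hFdef]
    rw [hχ]
  have hsum := dade_sum hD α hα F hF
  have hdade : ∀ g : G, Cfsg.dadeIsometry A L H α g =
      if g ∈ {g : G | ∃ a ∈ A, ∃ u ∈ H a, ∃ x : G, x * g * x⁻¹ = a * u} then 1 else 0 := by
    intro g
    by_cases hg : g ∈ {g : G | ∃ a ∈ A, ∃ u ∈ H a, ∃ x : G, x * g * x⁻¹ = a * u}
    · rw [if_pos hg]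
      obtain ⟨a, ha, u, hu, x, hx⟩ := hg
      have hrel : Rel A L H g (x, ⟨a, hD.subset ha⟩) := by
        refine ⟨ha, ?_⟩
        show a⁻¹ * (x * g * x⁻¹) ∈ H a
        rw [hx]; simpa using hu
      rw [dade_apply hD α hα g x _ hrel]
      simp only [hαdef]
      rw [if_pos ha]
    · rw [if_neg hg]
      apply dade_apply_of_not
      rintro ⟨⟨x, a⟩, ha, hu⟩
      exact hg ⟨a, ha, _, hu, x, by simp⟩
  have hL : ∑ g : G, Cfsg.dadeIsometry A L H α g * F g =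
      ((∑ g : G, if g ∈ {g : G | ∃ a ∈ A, ∃ u ∈ H a, ∃ x : G, x * g * x⁻¹ = a * u}
        then ‖χ g‖ ^ 2 else 0 : ℝ) : ℂ) := by
    rw [Complex.ofReal_sum]
    apply Finset.sum_congr rfl
    intro g _
    rw [hdade g]
    split_ifs <;> simp [hFdef]
  have hR : (∑ a : L, if (a : G) ∈ A then
        α a * ((Nat.card (H a) : ℂ)⁻¹ * ∑ᶠ u ∈ (H a : Set G), F (a * u)) else 0) =
      ((∑ a : L, if (a : G) ∈ A then
        ((Nat.card (H a) : ℝ)⁻¹ * ∑ u : G, if u ∈ H a then ‖χ (a * u)‖ ^ 2 else 0) else 0 : ℝ) : ℂ) := by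
    rw [Complex.ofReal_sum]
    apply Finset.sum_congr rfl
    intro a _
    by_cases ha : (a : G) ∈ A
    · rw [if_pos ha, if_pos ha]
      simp only [hαdef]
      rw [if_pos ha, one_mul, finsum_mem_eq_sum_ite]
      push_cast
      congr 1
      apply Finset.sum_congr rfl
      intro u _
      split_ifs <;> simp [hFdef]
    · rw [if_neg ha, if_neg ha]; simp
  rw [hL, hR] at hsum
  have hsum' : (∑ g : G, if g ∈ {g : G | ∃ a ∈ A, ∃ u ∈ H a, ∃ x : G, x * g * x⁻¹ = a * u}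
        then ‖χ g‖ ^ 2 else 0 : ℝ) = (Nat.card G : ℝ) * (Nat.card L : ℝ)⁻¹ *
      (∑ a : L, if (a : G) ∈ A then
        ((Nat.card (H a) : ℝ)⁻¹ * ∑ u : G, if u ∈ H a then ‖χ (a * u)‖ ^ 2 else 0) else 0) := by
    apply Complex.ofReal_injective
    rw [hsum, Complex.ofReal_mul, Complex.ofReal_mul, Complex.ofReal_inv, Complex.ofReal_natCast,
      Complex.ofReal_natCast]
  rw [finsum_mem_set_eq_sum_ite, finsum_mem_set_eq_sum_ite, hsum']
  have hGpos : (0 : ℝ) < Nat.card G := by exact_mod_cast Nat.card_pos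
  rw [← mul_assoc, ← mul_assoc, inv_mul_cancel₀ hGpos.ne', one_mul]
  apply mul_le_mul_of_nonneg_left _ (by positivity)
  apply Finset.sum_le_sum
  intro a _
  by_cases ha : (a : G) ∈ A
  · have ha' : a ∈ {a : L | (a : G) ∈ A} := ha
    rw [if_pos ha', if_pos ha, hψ a ha]
    exact cs (H a) (fun u => χ (a * u))
  · have ha' : a ∉ {a : L | (a : G) ∈ A} := ha
    rw [if_neg ha', if_neg ha]

end Cfsg.Agent.S1525
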