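import Cfsg.Statements.S1528
import Cfsg.Agent.Lib.Helper32Frob

set_option autoImplicit false
open Cfsg

namespace Cfsg.Agent.S1528

open Cfsg.Agent.Lib.Helper4Char Cfsg.Agent.Lib.Helper4Char2
  Cfsg.Agent.Lib.Helper4Char3 Cfsg.Agent.Lib.Helper4Char4 Cfsg.Agent.Lib.Helper32Ind
  Cfsg.Agent.Lib.Helper32Frob Cfsg.Agent.Lib.Helper4Burnside Cfsg.Agent.Lib.Helper4Perm

/-- Let N be a normal subgroup of the finite group G such that every element of G commuting with a non-identity element of N lies in N. If χ is an irreducible character of G with χ n ≠ χ 1 for some n ∈ N, then χ is the function induced from some irreducible character of N. -/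
theorem result {G : Type*} [Group G] [Fintype G] (N : Subgroup G) [N.Normal] (hC : ∀ n ∈ N, n ≠ 1 → Subgroup.centralizer ({n} : Set G) ≤ N) (χ : G → ℂ) (hχ : Cfsg.IsIrrCharacter G χ) (hker : ∃ n ∈ N, χ n ≠ χ 1) : ∃ φ : N → ℂ, Cfsg.IsIrrCharacter N φ ∧ χ = Cfsg.indFun N φ := by
  classical
  haveI : Fintype N := Fintype.ofFinite N
  obtain ⟨m, hm, hm'⟩ := IsCharacter.eq_sum_nat (IsCharacter.restrict N (IsIrrCharacter.isCharacter hχ))
  let one : Cfsg.IrrCharacter N := ⟨fun _ => 1, isIrrCharacter_one⟩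
  obtain ⟨φ, hφ1, hφm⟩ : ∃ φ : Cfsg.IrrCharacter N, (φ : N → ℂ) ≠ (fun _ => 1) ∧ m φ ≠ 0 := by
    by_contra hcon
    push Not at hcon
    obtain ⟨n, hn, hne⟩ := hker
    apply hne
    have h1 : (fun x : N => χ x) = (m one : ℂ) • (one : N → ℂ) := by
      rw [hm, Finset.sum_eq_single one]
      · intro θ _ hθ
        rw [hcon θ (fun e => hθ (Subtype.ext e))]
        simp
      · intro h; exact absurd (Finset.mem_univ _) h
    have h2 := congrFun h1 ⟨n, hn⟩
    have h3 := congrFun h1 1
    simp only [Pi.smul_apply, smul_eq_mul, one, mul_one] at h2 h3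
    rw [h2]
    exact h3.symm
  have hirr : Cfsg.IsIrrCharacter G (Cfsg.indFun N (φ : N → ℂ)) := by
    apply indFun_irr_of_cent N _ φ φ.2 hφ1
    intro y hy c hc hyc
    by_contra hc1
    apply hy
    apply hC c hc hc1
    rw [Subgroup.mem_centralizer_iff]
    intro h hh
    rw [Set.mem_singleton_iff.1 hh, hyc]
  refine ⟨φ, φ.2, ?_⟩
  have h1 := frobenius N (φ : N → ℂ) χ (IsCharacter.isClassFunction (IsIrrCharacter.isCharacter hχ))
  rw [← classInner_conj_symm (fun h : N => χ h) (φ : N → ℂ), hm' φ, classInner_irr hirr hχ] at h1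
  by_contra hne
  rw [if_neg (fun e => hne e.symm)] at h1
  apply hφm
  have : (m φ : ℂ) = 0 := by simpa using h1.symm
  exact_mod_cast this

end Cfsg.Agent.S1528
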