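import Cfsg.Statements.S1536
import Cfsg.Agent.Lib.Helper1Glauberman
import Cfsg.Agent.Lib.Helper4Perm
import Cfsg.Agent.Lib.Helper4Burnside

set_option autoImplicit false
open Cfsg

namespace Cfsg.Agent.S1536


/-- a copy of `M` with the conjugation action. -/
structure CW (M : Type*) where
  val : M

instance {M : Type*} [Group M] : MulAction M (CW M) where
  smul g w := ⟨g * w.val * g⁻¹⟩
  one_smul w := by
    show (⟨1 * w.val * 1⁻¹⟩ : CW M) = w
    simp
  mul_smul a b w := by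
    show (⟨(a * b) * w.val * (a * b)⁻¹⟩ : CW M) = ⟨a * (b * w.val * b⁻¹) * a⁻¹⟩
    congr 1
    group

theorem smul_val {M : Type*} [Group M] (g : M) (w : CW M) : (g • w).val = g * w.val * g⁻¹ := rfl

/-- the stabilizer of the `H`-class of `k`. -/
def stabClass {M : Type*} [Group M] (H : Subgroup M) [hN : H.Normal] (k : M) : Subgroup M where
  carrier := {a | ∃ u ∈ H, a * k * a⁻¹ = u * k * u⁻¹}
  one_mem' := ⟨1, H.one_mem, rfl⟩
  mul_mem' := by
    rintro a a' ⟨u, hu, h⟩ ⟨u', hu', h'⟩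
    refine ⟨a * u' * a⁻¹ * u, H.mul_mem (hN.conj_mem u' hu' a) hu, ?_⟩
    calc a * a' * k * (a * a')⁻¹ = a * (a' * k * a'⁻¹) * a⁻¹ := by group
      _ = a * (u' * k * u'⁻¹) * a⁻¹ := by rw [h']
      _ = (a * u' * a⁻¹) * (a * k * a⁻¹) * (a * u' * a⁻¹)⁻¹ := by group
      _ = (a * u' * a⁻¹) * (u * k * u⁻¹) * (a * u' * a⁻¹)⁻¹ := by rw [h]
      _ = _ := by group
  inv_mem' := by
    rintro a ⟨u, hu, h⟩
    refine ⟨(a⁻¹ * u * a⁻¹⁻¹)⁻¹, H.inv_mem (hN.conj_mem u hu a⁻¹), ?_⟩
    have : k = a⁻¹ * (u * k * u⁻¹) * a := by rw [← h]; group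
    calc a⁻¹ * k * a⁻¹⁻¹ = (a⁻¹ * u * a⁻¹⁻¹)⁻¹ * (a⁻¹ * (u * k * u⁻¹) * a) * (a⁻¹ * u * a⁻¹⁻¹)⁻¹⁻¹ := by
          group
      _ = _ := by rw [← this]

theorem fixed_of_class {M : Type*} [Group M] [Finite M] (H : Subgroup M) [hN : H.Normal]
    (hHall : Nat.Coprime (Nat.card H) H.index) (x : M) (k : M) (hk : k ∈ H) (hk1 : k ≠ 1)
    (u₀ : M) (hu₀ : u₀ ∈ H) (hx : x * k * x⁻¹ = u₀ * k * u₀⁻¹) :
    ∃ h ∈ H, h ≠ 1 ∧ x * h = h * x := by
  by_cases hxm : x ^ H.index = 1
  · have hS : Subgroup.zpowers x ≤ stabClass H k := by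
      rw [Subgroup.zpowers_le]
      exact ⟨u₀, hu₀, hx⟩
    have hcop : (Nat.card (Subgroup.zpowers x)).Coprime (Nat.card H) := by
      rw [Nat.card_zpowers]
      exact (hHall.symm).of_dvd_left (orderOf_dvd_of_pow_eq_one hxm)
    obtain ⟨u, hu, hfix⟩ := Cfsg.Agent.Lib.Helper1Glauberman.exists_fixed_rel (Ω := CW M)
      (U := H) (A := Subgroup.zpowers x) (by rw [Subgroup.normalizer_eq_top]; exact le_top) hcop
      (Or.inl inferInstance) ⟨k⟩ (by
        intro a ha
        obtain ⟨u, hu, h⟩ := hS ha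
        exact ⟨u, hu, congrArg CW.mk h⟩)
    have h1 := congrArg CW.val (hfix x (Subgroup.mem_zpowers x))
    simp only [smul_val] at h1
    refine ⟨u * k * u⁻¹, hN.conj_mem k hk u, ?_, ?_⟩
    · intro h
      apply hk1
      have : k = u⁻¹ * (u * k * u⁻¹) * u := by group
      rw [this, h]; group
    · rw [mul_inv_eq_iff_eq_mul] at h1
      exact h1
  · exact ⟨x ^ H.index, Subgroup.pow_index_mem H x, hxm, by rw [← pow_succ', ← pow_succ]⟩


/-- Let H be a normal subgroup of the finite group M whose order is coprime to its index. For x ∈ M: some non-principal irreducible character of H is unchanged under h ↦ θ(x h x⁻¹) if and only if some non-identity element of H commutes with x. -/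
theorem result {M : Type*} [Group M] [Finite M] (H : Subgroup M) [hN : H.Normal] (hHall : Nat.Coprime (Nat.card H) H.index) (x : M) : (∃ θ : H → ℂ, Cfsg.IsIrrCharacter H θ ∧ θ ≠ (fun _ => 1) ∧ (fun h : H => θ ⟨x * h * x⁻¹, hN.conj_mem h h.2 x⟩) = θ) ↔ ∃ h ∈ H, h ≠ 1 ∧ x * h = h * x := by
  classical
  have : Fintype H := Fintype.ofFinite _
  set φ : H ≃* H := MulAut.conjNormal x with hφ
  have hφa : ∀ h : H, φ h = ⟨x * h * x⁻¹, hN.conj_mem h h.2 x⟩ := fun h => Subtype.ext (by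
    rw [hφ, MulAut.conjNormal_apply])
  have hcard := Cfsg.Agent.Lib.Helper4Perm.card_fixed_classes_eq_card_fixed_irr φ
  have e1 : (∃ θ : H → ℂ, Cfsg.IsIrrCharacter H θ ∧ θ ≠ (fun _ => 1) ∧
      (fun h : H => θ ⟨x * h * x⁻¹, hN.conj_mem h h.2 x⟩) = θ) ↔
      Nontrivial {χ : Cfsg.IrrCharacter H // (χ : H → ℂ) ∘ φ = (χ : H → ℂ)} := by
    rw [nontrivial_iff_exists_ne (⟨⟨fun _ => 1, Cfsg.Agent.Lib.Helper4Burnside.isIrrCharacter_one⟩,
      rfl⟩ : {χ : Cfsg.IrrCharacter H // (χ : H → ℂ) ∘ φ = (χ : H → ℂ)})]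
    constructor
    · rintro ⟨θ, hθ, hne, hfix⟩
      refine ⟨⟨⟨θ, hθ⟩, ?_⟩, ?_⟩
      · funext h
        rw [Function.comp_apply, hφa]
        exact congrFun hfix h
      · intro h
        exact hne (congrArg (fun z => (z.1 : H → ℂ)) h)
    · rintro ⟨⟨⟨θ, hθ⟩, hfix⟩, hne⟩
      refine ⟨θ, hθ, ?_, ?_⟩
      · intro h
        apply hne
        apply Subtype.ext
        apply Subtype.ext
        exact h
      · funext h
        rw [← hφa]
        exact congrFun hfix h
  have e2 : Nontrivial {C : ConjClasses H // ConjClasses.map φ.toMonoidHom C = C} ↔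
      ∃ h ∈ H, h ≠ 1 ∧ x * h = h * x := by
    rw [nontrivial_iff_exists_ne (⟨ConjClasses.mk 1, by
      show ConjClasses.mk (φ 1) = ConjClasses.mk 1
      rw [map_one]⟩ : {C : ConjClasses H // ConjClasses.map φ.toMonoidHom C = C})]
    constructor
    · rintro ⟨⟨C, hC⟩, hne⟩
      obtain ⟨k, rfl⟩ := ConjClasses.exists_rep C
      have hk1 : (k : M) ≠ 1 := by
        intro h
        apply hne
        apply Subtype.ext
        show ConjClasses.mk k = ConjClasses.mk 1
        rw [show k = 1 from Subtype.ext h]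
      have h2 : ConjClasses.mk (φ k) = ConjClasses.mk k := hC
      rw [ConjClasses.mk_eq_mk_iff_isConj, isConj_comm, isConj_iff] at h2
      obtain ⟨u, hu⟩ := h2
      have h3 := congrArg Subtype.val hu
      rw [hφa] at h3
      exact fixed_of_class H hHall x k k.2 hk1 u u.2 h3.symm
    · rintro ⟨h, hh, h1, hx⟩
      refine ⟨⟨ConjClasses.mk ⟨h, hh⟩, ?_⟩, ?_⟩
      · show ConjClasses.mk (φ ⟨h, hh⟩) = _
        congr 1
        rw [hφa]
        apply Subtype.ext
        show x * h * x⁻¹ = h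
        rw [hx, mul_inv_cancel_right]
      · intro he
        have := congrArg Subtype.val he
        simp only at this
        rw [ConjClasses.mk_eq_mk_iff_isConj, isConj_comm, isConj_one_right] at this
        exact h1 (congrArg Subtype.val this)
  rw [e1, ← e2, ← Finite.one_lt_card_iff_nontrivial, ← Finite.one_lt_card_iff_nontrivial, hcard]

end Cfsg.Agent.S1536
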