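import Cfsg.Statements.S1546

set_option autoImplicit false
open Cfsg

namespace Cfsg.Agent.S1546

theorem geom_eq (p q : ℕ) (hp : 2 ≤ p) :
    (p ^ q - 1) / (p - 1) = ∑ i ∈ Finset.range q, p ^ i := (Nat.geomSum_eq hp q).symm

theorem geom_modEq (p q m : ℕ) (h : p ≡ 1 [MOD m]) :
    (∑ i ∈ Finset.range q, p ^ i) ≡ q [MOD m] := by
  have : (∑ i ∈ Finset.range q, p ^ i) ≡ ∑ i ∈ Finset.range q, 1 [MOD m] := by
    unfold Nat.ModEq
    rw [Finset.sum_nat_mod, Finset.sum_nat_mod (f := fun _ => 1)]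
    congr 1
    apply Finset.sum_congr rfl
    intro i _
    have := (h.pow i)
    simpa [Nat.ModEq] using this
  simpa using this

theorem prime_dvd (p q r : ℕ) (hp : p.Prime) (hq : q.Prime) (hr : r.Prime)
    (hcop : Nat.Coprime (∑ i ∈ Finset.range q, p ^ i) (p - 1))
    (hd : r ∣ ∑ i ∈ Finset.range q, p ^ i) : r % q = 1 := by
  have := Fact.mk hr
  have := Fact.mk hq
  have hp2 : 2 ≤ p := hp.two_le
  have h1 : r ∣ p ^ q - 1 := by
    have : (∑ i ∈ Finset.range q, p ^ i) * (p - 1) = p ^ q - 1 := by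
      have := Nat.geomSum_eq hp2 q
      rw [this]
      apply Nat.div_mul_cancel
      simpa using Nat.sub_dvd_pow_sub_pow p 1 q
    rw [← this]
    exact Dvd.dvd.mul_right hd _
  have hpq : ((p : ZMod r)) ^ q = 1 := by
    have h2 : ((p ^ q - 1 : ℕ) : ZMod r) = 0 := (ZMod.natCast_eq_zero_iff _ _).2 h1
    rw [Nat.cast_sub (Nat.one_le_pow _ _ (by omega))] at h2
    push_cast at h2
    exact sub_eq_zero.1 h2
  have hne : (p : ZMod r) ≠ 1 := by
    intro h
    have h3 : ((p - 1 : ℕ) : ZMod r) = 0 := by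
      rw [Nat.cast_sub (by omega)]; simp [h]
    have h4 : r ∣ p - 1 := (ZMod.natCast_eq_zero_iff _ _).1 h3
    have := Nat.dvd_gcd hd h4
    rw [hcop] at this
    exact hr.one_lt.ne' (Nat.dvd_one.1 this)
  have hord : orderOf (p : ZMod r) = q := orderOf_eq_prime hpq hne
  have hp0 : (p : ZMod r) ≠ 0 := by
    intro h
    rw [h, zero_pow hq.ne_zero] at hpq
    exact zero_ne_one hpq
  have h5 : q ∣ r - 1 := by
    rw [← hord]
    exact ZMod.orderOf_dvd_card_sub_one hp0
  obtain ⟨k, hk⟩ := h5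
  have : r = q * k + 1 := by have := hr.one_lt; omega
  rw [this, Nat.mul_add_mod, Nat.mod_eq_of_lt hq.one_lt]

theorem all_dvd (q N : ℕ) (hq : 1 < q) (hN : N ≠ 0)
    (h : ∀ r : ℕ, r.Prime → r ∣ N → r % q = 1) : ∀ x : ℕ, x ∣ N → x % q = 1 := by
  intro x
  induction x using Nat.recOnMul with
  | zero => intro h0; exact absurd (Nat.eq_zero_of_zero_dvd h0) hN
  | one => intro _; exact Nat.mod_eq_of_lt hq
  | prime r hr => exact h r hr
  | mul a b ha hb =>
    intro hab
    have h1 := ha (dvd_trans (Dvd.intro _ rfl) hab)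
    have h2 := hb (dvd_trans (Dvd.intro_left _ rfl) hab)
    rw [Nat.mul_mod, h1, h2]
    exact Nat.mod_eq_of_lt hq

/-- Let p and q be odd primes and N = (p ^ q − 1) / (p − 1) = 1 + p + ⋯ + p^(q−1). Then N is odd; if p ≡ 1 (mod q) then q ∣ N; and if p is not ≡ 1 (mod q) then N is coprime to p − 1 and every divisor of N is ≡ 1 (mod q). -/
theorem result (p q : ℕ) (hp : p.Prime) (hq : q.Prime) (hp2 : p ≠ 2) (hq2 : q ≠ 2) : Odd ((p ^ q - 1) / (p - 1)) ∧ (p % q = 1 → q ∣ (p ^ q - 1) / (p - 1)) ∧ (p % q ≠ 1 → Nat.Coprime ((p ^ q - 1) / (p - 1)) (p - 1) ∧ ∀ x : ℕ, x ∣ (p ^ q - 1) / (p - 1) → x % q = 1) := by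
  rw [geom_eq p q hp.two_le]
  have hpo : p % 2 = 1 := (hp.eq_two_or_odd).resolve_left hp2
  have hqo : q % 2 = 1 := (hq.eq_two_or_odd).resolve_left hq2
  refine ⟨?_, ?_, ?_⟩
  · rw [Nat.odd_iff]
    have := geom_modEq p q 2 (by simpa [Nat.ModEq] using hpo)
    rw [this, hqo]
  · intro h
    have := geom_modEq p q q (by
      unfold Nat.ModEq; rw [h, Nat.mod_eq_of_lt hq.one_lt])
    rw [Nat.dvd_iff_mod_eq_zero, this, Nat.mod_self]
  · intro h
    have hcop : Nat.Coprime (∑ i ∈ Finset.range q, p ^ i) (p - 1) := by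
      have h1 := geom_modEq p q (p - 1) (by
        have : p = (p - 1) + 1 := by have := hp.two_le; omega
        unfold Nat.ModEq
        conv_lhs => rw [this]
        simp)
      have h2 : Nat.gcd (∑ i ∈ Finset.range q, p ^ i) (p - 1) = Nat.gcd q (p - 1) := h1.gcd_eq
      unfold Nat.Coprime
      rw [h2]
      rcases (Nat.coprime_or_dvd_of_prime hq (p - 1)) with h3 | h3
      · exact h3
      · exfalso
        apply h
        obtain ⟨k, hk⟩ := h3
        have : p = q * k + 1 := by have := hp.two_le; omega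
        rw [this, Nat.mul_add_mod, Nat.mod_eq_of_lt hq.one_lt]
    refine ⟨hcop, ?_⟩
    apply all_dvd q _ hq.one_lt
    · have : 0 < ∑ i ∈ Finset.range q, p ^ i := by
        apply Finset.sum_pos
        · intro i _; exact Nat.pow_pos hp.pos
        · exact ⟨0, Finset.mem_range.2 hq.pos⟩
      omega
    · intro r hr hd
      exact prime_dvd p q r hp hq hr hcop hd

end Cfsg.Agent.S1546
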