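import Cfsg.Statements.S1555
import Cfsg.Agent.Lib.Helper33Transport
import Cfsg.Agent.Lib.Helper33Sets

set_option autoImplicit false
open scoped Pointwise
open Cfsg

namespace Cfsg.Agent.S1555

open Cfsg.Agent.Lib.Helper33Golay Cfsg.Agent.Lib.Helper33Trans Cfsg.Agent.Lib.Helper33Transport
open Cfsg.Agent.Lib.Helper33Sets
open scoped Pointwise

def o0 : ℕ := 13062145

theorem o0_mem : dec o0 ∈ octads := dec_mem_octads (by decide +kernel)

set_option maxRecDepth 200000 in
theorem counts2 : duadL.all (fun t => !(Nat.beq (Nat.land t o0) t) ||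
    Nat.beq (octL.filter (fun m => Nat.beq (Nat.land o0 m) t)).length 16) = true := by
  decide +kernel

set_option maxRecDepth 200000 in
theorem counts4 : tetradL.all (fun t => !(Nat.beq (Nat.land t o0) t) ||
    Nat.beq (octL.filter (fun m => Nat.beq (Nat.land o0 m) t)).length 4) = true := by
  decide +kernel

theorem base (s : Finset GolayPt) : {o' : Finset GolayPt | o' ∈ octads ∧ dec o0 ∩ o' = s}.ncard =
    (octL.filter (fun m => Nat.beq (Nat.land o0 m) (enc s))).length := by
  apply ncard_filter _ octL octL_nodup (fun _ h => octL_lt h)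
  intro t
  show (t ∈ octads ∧ dec o0 ∩ t = s) ↔ _
  rw [mem_octads_iff, land_eq, Nat.beq_eq, ← enc_injective.eq_iff, enc_inter, enc_dec (by decide)]

theorem base2 (s : Finset GolayPt) (hs : s ⊆ dec o0) (h : s.card = 2) :
    {o' : Finset GolayPt | o' ∈ octads ∧ dec o0 ∩ o' = s}.ncard = 16 := by
  rw [base]
  have := List.all_eq_true.1 counts2 _ ((card_eq_2_iff s).1 h)
  rw [← dec_enc s, dec_subset_iff (enc_lt s)] at hs
  rw [land_eq, hs] at this
  simpa using this

theorem base4 (s : Finset GolayPt) (hs : s ⊆ dec o0) (h : s.card = 4) :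
    {o' : Finset GolayPt | o' ∈ octads ∧ dec o0 ∩ o' = s}.ncard = 4 := by
  rw [base]
  have := List.all_eq_true.1 counts4 _ ((card_eq_4_iff s).1 h)
  rw [← dec_enc s, dec_subset_iff (enc_lt s)] at hs
  rw [land_eq, hs] at this
  simpa using this

theorem transport {g : Equiv.Perm GolayPt} (hg : g ∈ M24) (s : Finset GolayPt) :
    {o' : Finset GolayPt | o' ∈ octads ∧ g • dec o0 ∩ o' = s}.ncard =
    {o' : Finset GolayPt | o' ∈ octads ∧ dec o0 ∩ o' = g⁻¹ • s}.ncard := by
  apply ncard_transport g
  intro U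
  rw [smul_mem_octads_iff hg, ← Finset.smul_finset_inter, eq_inv_smul_iff]


/-- Bottom row of the Leech triangle: an octad is met in a prescribed pair of its points by exactly 16 octads and in a prescribed 4-subset by exactly 4 octads. -/
theorem result (o : Finset Cfsg.GolayPt) (ho : o ∈ Cfsg.octads) (s : Finset Cfsg.GolayPt) (hs : s ⊆ o) : (s.card = 2 → {o' : Finset Cfsg.GolayPt | o' ∈ Cfsg.octads ∧ o ∩ o' = s}.ncard = 16) ∧ (s.card = 4 → {o' : Finset Cfsg.GolayPt | o' ∈ Cfsg.octads ∧ o ∩ o' = s}.ncard = 4) := by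
  obtain ⟨g, hg, rfl⟩ := octad_trans o0_mem ho
  have hs' : g⁻¹ • s ⊆ dec o0 := by
    rw [Finset.smul_finset_subset_iff, inv_inv]; exact hs
  constructor
  · intro h
    rw [transport hg]
    exact base2 _ hs' (by rw [Finset.card_smul_finset]; exact h)
  · intro h
    rw [transport hg]
    exact base4 _ hs' (by rw [Finset.card_smul_finset]; exact h)

end Cfsg.Agent.S1555
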