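import Cfsg.Statements.S1557
import Cfsg.Agent.Lib.Helper10Trio

set_option autoImplicit false
open scoped Pointwise
open Cfsg

namespace Cfsg.Agent.S1557

open Cfsg.Agent.Lib.Helper33Golay

theorem full_code : isCode 16777215 = true := by decide +kernel

/-- The complement of the union of two disjoint octads is an octad, and the code has exactly 3795 trios of pairwise disjoint octads. -/
theorem result : (∀ o o' : Finset Cfsg.GolayPt, o ∈ Cfsg.octads → o' ∈ Cfsg.octads → Disjoint o o' → (o ∪ o')ᶜ ∈ Cfsg.octads) ∧ Cfsg.trios.ncard = 3795 := by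
  refine ⟨?_, Cfsg.Agent.Lib.Helper10Trio.trios_ncard⟩
  intro o o' ho ho' hd
  rw [mem_octads_iff] at ho ho' ⊢
  rw [mem_octL] at ho ho' ⊢
  have hu : o ∪ o' = symmDiff o o' := by
    rw [Disjoint.symmDiff_eq_sup hd, Finset.sup_eq_union]
  refine ⟨?_, ?_⟩
  · rw [enc_compl, hu, enc_symmDiff]
    exact isCode_xor (isCode_xor ho.1 ho'.1) full_code
  · rw [← card_eq_pop, Finset.card_compl, Finset.card_union_of_disjoint hd, card_eq_pop o,
      card_eq_pop o', ho.2, ho'.2]
    simp [GolayPt]

end Cfsg.Agent.S1557
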