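import Cfsg.Statements.S1558
import Cfsg.Agent.S1559
import Cfsg.Agent.Lib.Helper34Sys
import Cfsg.Agent.Lib.Helper34GL
import Cfsg.Agent.Lib.Helper34Oct

set_option autoImplicit false
open scoped Pointwise
open Cfsg

namespace Cfsg.Agent.S1558

open MulAction Cfsg.Agent.Lib.Helper33Golay Cfsg.Agent.Lib.Helper33Sets Cfsg.Agent.Lib.Helper33Sextet
  Cfsg.Agent.Lib.Helper10Orb Cfsg.Agent.Lib.Helper10Fam Cfsg.Agent.Lib.Helper10Trio
  Cfsg.Agent.Lib.Helper94M24A Cfsg.Agent.Lib.Helper34Sys Cfsg.Agent.Lib.Helper34GL
  Cfsg.Agent.Lib.Helper34Stab Cfsg.Agent.Lib.Helper34Oct Cfsg.Agent.Lib.Helper34M24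
open Cfsg.Agent.S1559 (T0 T0_mem trio_trans)

def LS : List ℕ := [270369024386498302450456175492869380, 549505225652134352073506940076473810, 590066857222432463915490916728741009]

def LN : List ℕ := [2089936473398011675959879119705815, 4732783907169477688505282752877879, 9964508726857631202868980007507511, 12423517422391712714975306278016119, 16250824037177247767043904809506263, 18720133346518008921471846740891031, 22415217750784026788837368051143927, 29182921867771703228355785177273399, 85213385021037074069994577694351045, 87762834832644898963841916178488613, 92837202623197048806168426687454757, 95384706698037412598025135171099749, 99531629613952313833115790129814981, 101597744340542352327771364095417733, 105691106229874167051909182696873189, 112375232065240487014677288284445733, 168125507304076437801563069258968774, 170925711766983907486145659637804326, 176078579813272169041208808989732390, 178184123197353294873355020252785766, 182522252152727789277420920537394630, 184951827314340954019050352880627078, 188961610922051412266437859943525606,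 195258226846177725766757484904688678, 209537042820289880733915126062940866, 211934052700446627758725348475994402, 217519242831587736953049160738079266, 220252532000447816943241873487593570, 223894053521213635796974467753214402, 226656775682412349841963347737805186, 230597697640293086697064050268176610, 236923441066521525176871970173714466, 251269172644188504955102752649030340, 253749760805966608456663286600640804, 258863862744246354711788306697759268, 261704779670944671394205953234610276, 265155095152250897078963302174337476, 268281277748472737370926040536557956, 271971445055053829435291491172231396, 278626443388318024418571301815429156, 417559812353965988150621718594230987, 419951905136437809372431870332705067, 425262130211862074599532206430296619, 427613511149557919419413598913468523, 431799200173481335954442383126993355, 434297636984924222088358620002752907, 438076299670811596432474452851562731, 444289337313316553456043766274168875, 458845486524670068790953295745422026, 461557195608271256195785503911121194, 466356598343106562070888538255594026,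 469443352823419597741041366012563562, 473046108236176901294835831023374794, 475769096249648018927026201419813258, 479867375236664759454164090695848170, 486271618918629309646708649444347946, 957028651706772161000819827381930688, 959823939071994704882402347086186784, 965094429999691373696704173595626016, 967739223789245171407146504132003936, 971700361611140356443901154824849856, 974394222122509349096603230276913536, 978241746458226444833005867658250464, 984818244535754528103549039458486304]

abbrev V := Fin 3 → ZMod 2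

def code (v : V) : ℕ := (v 0).val + 2 * (v 1).val + 4 * (v 2).val

def vecOf (c : ℕ) : V := ![(c : ZMod 2), ((c / 2 : ℕ) : ZMod 2), ((c / 4 : ℕ) : ZMod 2)]

def synT : List ℕ := [0, 154, 338, 456, 600, 706, 778, 912]

def sy (c : ℕ) : ℕ := synT.getD c 0

def lst (c : ℕ) : List ℕ := bif Nat.beq c 0 then [0] else sexList (sy c)

def unlab (v : V) : Sys := setOf (lst (code v))

theorem vecOf_code : ∀ v : V, vecOf (code v) = v := by decide +kernel

theorem code_lt : ∀ v : V, code v < 8 := by decide +kernel

theorem code_vecOf : ∀ c < 8, code (vecOf c) = c := by decide +kernel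

theorem code_add : ∀ x y : V, code (x + y) = code x ^^^ code y := by decide +kernel

theorem code_inj {x y : V} (h : code x = code y) : x = y := by
  rw [← vecOf_code x, ← vecOf_code y, h]

theorem sy_xor : ∀ a < 8, ∀ b < 8, sy a ^^^ sy b = sy (a ^^^ b) := by decide +kernel

theorem sy_inj : ∀ a < 8, ∀ b < 8, sy a = sy b → a = b := by decide +kernel

theorem xor_lt8 : ∀ a < 8, ∀ b < 8, a ^^^ b < 8 := by decide +kernel

theorem sy_isSyn : ∀ c < 8, c ≠ 0 → IsSyn (sy c) := by
  have h : ∀ c < 8, c ≠ 0 → sy c < 4096 ∧ bit synMask (sy c) = 1 := by decide +kernel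
  exact h

theorem lst_pos {c : ℕ} (hc : c ≠ 0) : lst c = sexList (sy c) := by
  unfold lst
  have : Nat.beq c 0 = false := by
    rw [← Bool.not_eq_true, beq_iff]; exact hc
  rw [this]; rfl

theorem lst_zero : lst 0 = [0] := rfl

/-- all the members of the `c`-th system have the `c`-th syndrome -/
theorem lst_syn {c : ℕ} (hc : c < 8) {u : ℕ} (hu : u ∈ lst c) : u < 2 ^ 24 ∧ syn u = sy c := by
  by_cases h0 : c = 0
  · subst h0
    rw [lst_zero, List.mem_singleton] at hu
    subst hu
    exact ⟨by norm_num, by decide +kernel⟩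
  · rw [lst_pos h0] at hu
    exact ⟨sexList_lt (sy_isSyn c hc h0) hu, ((sexList_props (sy_isSyn c hc h0)).2.1 u hu).2⟩

def hd (c : ℕ) : ℕ := (lst c).headD 0

theorem hd_mem : ∀ c < 8, hd c ∈ lst c := by
  intro c hc
  by_cases h0 : c = 0
  · subst h0; simp [hd, lst_zero]
  · unfold hd
    rw [lst_pos h0]
    simp [sexList]

theorem hd_code : (List.range 8).all (fun a => (List.range 8).all (fun b =>
    isCode (hd a ^^^ hd b ^^^ hd (a ^^^ b)))) = true := by decide +kernel

theorem syn_of_mem_unlab {v : V} {a : Finset GolayPt} (ha : a ∈ unlab v) :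
    syn (enc a) = sy (code v) := by
  obtain ⟨u, hu, rfl⟩ := mem_setOf.1 ha
  obtain ⟨h1, h2⟩ := lst_syn (code_lt v) hu
  rw [enc_dec h1, h2]

theorem hd_mem_unlab (v : V) : dec (hd (code v)) ∈ unlab v :=
  mem_setOf.2 ⟨_, hd_mem _ (code_lt v), rfl⟩

theorem unlab_inj : Function.Injective unlab := by
  intro u v h
  have h1 := syn_of_mem_unlab (hd_mem_unlab u)
  have h2 := syn_of_mem_unlab (v := v) (h ▸ hd_mem_unlab u)
  exact code_inj (sy_inj _ (code_lt u) _ (code_lt v) (h1.symm.trans h2))

noncomputable def lab : Sys → V := Function.invFun unlab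

theorem lab_unlab (v : V) : lab (unlab v) = v := Function.leftInverse_invFun unlab_inj v

/-- the refinement check -/
theorem ref_ok : (List.range 4096).all (fun s => !(sexV s) ||
    !(Nat.beq (cntLL 0 (sexList s) (trioList T0)) 12) ||
    (List.range 8).any (fun c => !(Nat.beq c 0) && Nat.beq (sy c) s)) = true := by decide +kernel

theorem ref_ok' : (List.range 8).all (fun c => Nat.beq c 0 ||
    Nat.beq (cntLL 0 (sexList (sy c)) (trioList T0)) 12) = true := by decide +kernel

theorem T0_valid : ValidT T0 := valid_of_mem T0_mem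

theorem cnt_sex {s : ℕ} (hs : IsSyn s) :
    cnt2 0 (sexOf s) (trioOf T0) = cntLL 0 (sexList s) (trioList T0) :=
  cnt2_setOf 0 _ _ (sexList_nodup hs) (sexList_lt' hs) T0_valid.nodup T0_valid.lt

abbrev G0 := ↥(stabilizer ↥M24 (trioOf T0))

theorem unlab_zero : unlab 0 = {∅} := by
  have : code 0 = 0 := by decide +kernel
  unfold unlab
  rw [this, lst_zero]
  simp [Cfsg.Agent.Lib.Helper10Fam.setOf, dec]

theorem unlab_pos {v : V} (hv : code v ≠ 0) : unlab v = sexOf (sy (code v)) := by
  unfold unlab
  rw [lst_pos hv]; rfl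

theorem range_inv {g : Equiv.Perm GolayPt} (hg : g ∈ M24) (hgT : g • trioOf T0 = trioOf T0) (v : V) :
    ∃ w, unlab w = g • unlab v := by
  by_cases hv : code v = 0
  · have : v = 0 := code_inj (by rw [hv]; decide +kernel)
    subst this
    refine ⟨0, ?_⟩
    rw [unlab_zero, Finset.smul_finset_singleton, Finset.smul_finset_empty]
  · have hs := sy_isSyn _ (code_lt v) hv
    rw [unlab_pos hv]
    obtain ⟨s', hs', he⟩ := mem_sextets_iff.1 (smul_mem_sextets hg (sexOf_mem_sextets hs))
    have h1 : cnt2 0 (g • sexOf (sy (code v))) (g • trioOf T0) = 12 := by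
      rw [cnt2_smul, cnt_sex hs]
      have := List.all_eq_true.1 ref_ok' (code v) (List.mem_range.2 (code_lt v))
      rw [Bool.or_eq_true, beq_iff, beq_iff] at this
      exact this.resolve_left hv
    rw [hgT, he, cnt_sex hs'] at h1
    have h2 := List.all_eq_true.1 ref_ok s' (List.mem_range.2 hs'.1)
    have h3 : sexV s' = true := beq_iff.2 hs'.2
    rw [h3, h1] at h2
    have h4 : (List.range 8).any (fun c => !(Nat.beq c 0) && Nat.beq (sy c) s') = true := by
      simpa using h2
    obtain ⟨c, hc, hcs⟩ := List.any_eq_true.1 h4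
    rw [List.mem_range] at hc
    rw [Bool.and_eq_true, beq_iff, Bool.not_eq_true', ← Bool.not_eq_true, beq_iff] at hcs
    refine ⟨vecOf c, ?_⟩
    rw [he, unlab_pos (by rw [code_vecOf c hc]; exact hcs.1), code_vecOf c hc, hcs.2]

theorem stays (g : G0) (v : V) : unlab (lab (g • unlab v)) = g • unlab v :=
  Function.invFun_eq (range_inv g.1.2 g.2 v)

/-- the action on the seven sextets refining the trio (and the zero vector) -/
noncomputable def rho : G0 →* Equiv.Perm V := labHom unlab lab lab_unlab stays

theorem unlab_rho (g : G0) (v : V) : unlab (rho g v) = g.1.1 • unlab v :=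
  unlab_labHom unlab lab lab_unlab stays g v

theorem smul_symmDiff (g : Equiv.Perm GolayPt) (a b : Finset GolayPt) :
    g • symmDiff a b = symmDiff (g • a) (g • b) := by
  ext x
  simp only [Finset.mem_symmDiff, ← Finset.inv_smul_mem_iff]

theorem rho_add (g : G0) (x y : V) : rho g (x + y) = rho g x + rho g y := by
  have h0 := List.all_eq_true.1 (List.all_eq_true.1 hd_code (code x) (List.mem_range.2 (code_lt x)))
    (code y) (List.mem_range.2 (code_lt y))
  rw [← code_add] at h0
  have h1 := smul_mem_supports g.1.2 (dec_mem_supports h0)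
  rw [dec_xor, dec_xor, smul_symmDiff, smul_symmDiff, mem_supports_iff, enc_symmDiff] at h1
  have h2 := syn_eq_of_isCode h1
  rw [enc_symmDiff, syn_xor] at h2
  have hm : ∀ v : V, syn (enc (g.1.1 • dec (hd (code v)))) = sy (code (rho g v)) := by
    intro v
    apply syn_of_mem_unlab
    rw [unlab_rho]
    exact Finset.smul_mem_smul_finset (hd_mem_unlab v)
  rw [hm, hm, hm, sy_xor _ (code_lt _) _ (code_lt _), ← code_add] at h2
  exact (code_inj (sy_inj _ (code_lt _) _ (code_lt _) h2)).symm

/-- the elements fixing the three octads and the seven sextets -/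
def NN : Subgroup (Equiv.Perm GolayPt) where
  carrier := {g | g ∈ KS (trioOf T0) ∧ ∀ v : V, g • unlab v = unlab v}
  one_mem' := ⟨(KS _).one_mem, fun _ => one_smul _ _⟩
  mul_mem' := fun {a b} ha hb => ⟨(KS _).mul_mem ha.1 hb.1, fun v => by
    rw [mul_smul, hb.2 v, ha.2 v]⟩
  inv_mem' := fun {a} ha => ⟨(KS _).inv_mem ha.1, fun v => by
    rw [inv_smul_eq_iff, ha.2 v]⟩

theorem tet_fix {l : List ℕ} {g : Equiv.Perm GolayPt} (hg : g • setOf l = setOf l) {i : ℕ}
    (hi : i < 24) (hgi : g (pt i) = pt i) {m : ℕ} (hm : m ∈ l) (hmi : bit m i = 1)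
    (huniq : ∀ m' ∈ l, bit m' i = 1 → m' = m) : g • dec m = dec m := by
  have h1 : g • dec m ∈ setOf l := by
    rw [← hg]; exact Finset.smul_mem_smul_finset (mem_setOf.2 ⟨m, hm, rfl⟩)
  obtain ⟨m', hm', he⟩ := mem_setOf.1 h1
  have h2 : pt i ∈ g • dec m := by
    rw [← hgi, smul_mem_smul, mem_dec, idx_pt hi]
    rw [bit_eq] at hmi
    revert hmi
    cases m.testBit i <;> simp
  rw [← he, mem_dec, idx_pt hi] at h2
  have h3 : bit m' i = 1 := by rw [bit_eq, h2]; rfl
  rw [← he, huniq m' hm' h3]

theorem fix_of_sep {g : Equiv.Perm GolayPt} {F : List ℕ} (hF : ∀ m ∈ F, g • dec m = dec m) {i : ℕ}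
    (hi : i < 24) (hsep : ∀ j < 24, (∀ m ∈ F, bit m j = bit m i) → j = i) : g (pt i) = pt i := by
  have h1 : idx (g (pt i)) = i := by
    apply hsep _ (idx_lt _)
    intro m hm
    rw [bit_eq, bit_eq]
    congr 1
    have h2 := smul_mem_smul g (pt i) (dec m)
    rw [hF m hm, mem_dec, mem_dec, idx_pt hi] at h2
    exact Bool.eq_iff_iff.2 h2
  apply idx_injective
  rw [h1, idx_pt hi]

def O1 : ℕ := 4038912
def O2 : ℕ := 4346506

/-- the tetrads through the point 8, and the first octad -/
def FL : List ℕ := O1 :: (List.range 8).flatMap (fun c => (lst c).filter (fun m => Nat.beq (bit m 8) 1))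

theorem uniq_ok : (List.range 8).all (fun c => (lst c).all (fun m => (lst c).all (fun m' =>
    !(Nat.beq (bit m 8) 1) || !(Nat.beq (bit m' 8) 1) || Nat.beq m' m))) = true := by decide +kernel

theorem sep_ok : (List.range 24).all (fun i => !(Nat.beq (bit O1 i) 1) || (List.range 24).all (fun j =>
    Nat.beq j i || FL.any (fun m => !(Nat.beq (bit m j) (bit m i))))) = true := by decide +kernel

theorem O1_mem : O1 ∈ trioList T0 := by decide +kernel
theorem O2_mem : O2 ∈ trioList T0 := by decide +kernel
theorem O1_oct : O1 ∈ octL := by decide +kernel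

theorem NN_M24 {g : Equiv.Perm GolayPt} (h : g ∈ NN) : g ∈ M24 := h.1.1

theorem NN_oct {g : Equiv.Perm GolayPt} (h : g ∈ NN) {m : ℕ} (hm : m ∈ trioList T0) :
    g • dec m = dec m := h.1.2 _ (mem_setOf.2 ⟨m, hm, rfl⟩)

theorem NN_lst {g : Equiv.Perm GolayPt} (h : g ∈ NN) {c : ℕ} (hc : c < 8) :
    g • setOf (lst c) = setOf (lst c) := by
  have := h.2 (vecOf c)
  unfold unlab at this
  rwa [code_vecOf c hc] at this

theorem NN_stab_le : NN ⊓ stabilizer (Equiv.Perm GolayPt) (pt 8) ≤ PW (dec O1) := by
  rintro g ⟨hg, hg8⟩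
  have hg8' : g (pt 8) = pt 8 := hg8
  rw [mem_PW]
  refine ⟨NN_M24 hg, ?_⟩
  have hF : ∀ m ∈ FL, g • dec m = dec m := by
    intro m hm
    unfold FL at hm
    rw [List.mem_cons] at hm
    rcases hm with rfl | hm
    · exact NN_oct hg O1_mem
    · obtain ⟨c, hc, hm⟩ := List.mem_flatMap.1 hm
      rw [List.mem_filter, beq_iff] at hm
      refine tet_fix (NN_lst hg (List.mem_range.1 hc)) (by norm_num) hg8' hm.1 hm.2 ?_
      intro m' hm' hb
      have := List.all_eq_true.1 (List.all_eq_true.1 (List.all_eq_true.1 uniq_ok c hc) m hm.1) m' hm'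
      rw [beq_iff.2 hm.2, beq_iff.2 hb] at this
      simpa [beq_iff] using this
  intro p hp
  have hi := idx_lt p
  have hp' : pt (idx p) = p := by
    apply idx_injective; rw [idx_pt hi]
  rw [← hp']
  apply fix_of_sep hF hi
  intro j hj hall
  have h1 := List.all_eq_true.1 sep_ok (idx p) (List.mem_range.2 hi)
  have h2 : Nat.beq (bit O1 (idx p)) 1 = true := by
    rw [beq_iff, bit_eq, mem_dec.1 hp]; rfl
  rw [h2, Bool.not_true, Bool.false_or] at h1
  have h3 := List.all_eq_true.1 h1 j (List.mem_range.2 hj)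
  rw [Bool.or_eq_true, beq_iff] at h3
  rcases h3 with h3 | h3
  · exact h3
  · obtain ⟨m, hm, hne⟩ := List.any_eq_true.1 h3
    rw [hall m hm] at hne
    rw [beq_iff.2 rfl] at hne
    exact absurd hne (by simp)

theorem orbit_sub (K : Subgroup (Equiv.Perm GolayPt)) (m i : ℕ) (hK : ∀ g ∈ K, g • dec m = dec m)
    (hi : pt i ∈ dec m) : (orbit ↥K (pt i)).ncard ≤ pop m := by
  rw [← card_dec, ← Set.ncard_coe_finset]
  apply Set.ncard_le_ncard _ (Finset.finite_toSet _)
  rintro _ ⟨⟨g, hg⟩, rfl⟩
  change g (pt i) ∈ dec m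
  rw [← hK g hg, smul_mem_smul]
  exact hi

theorem card_NN_le : Nat.card ↥NN ≤ 64 := by
  have h1 := card_step NN (pt 8) _ rfl
  have h2 := card_step (NN ⊓ stabilizer (Equiv.Perm GolayPt) (pt 8)) (pt 1) _ rfl
  have h3 : NN ⊓ stabilizer (Equiv.Perm GolayPt) (pt 8) ⊓ stabilizer (Equiv.Perm GolayPt) (pt 1) = ⊥ := by
    rw [eq_bot_iff, ← PW_inf_stab (dec_mem_octads O1_oct) (p := pt 1) (by decide +kernel)]
    exact inf_le_inf_right _ NN_stab_le
  rw [h3, Subgroup.card_bot, one_mul] at h2
  have h4 := orbit_sub NN O1 8 (fun g hg => NN_oct hg O1_mem) (by decide +kernel)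
  have h5 := orbit_sub (NN ⊓ stabilizer (Equiv.Perm GolayPt) (pt 8)) O2 1
    (fun g hg => NN_oct hg.1 O2_mem) (by decide +kernel)
  have h6 : pop O1 = 8 := by decide +kernel
  have h7 : pop O2 = 8 := by decide +kernel
  rw [h6] at h4
  rw [h7] at h5
  rw [← h1, ← h2]
  calc _ ≤ 8 * 8 := Nat.mul_le_mul h5 h4
    _ = 64 := by norm_num

theorem orbit_eq {T : Sys} (hT : T ∈ trios) : orbit ↥M24 T = trios := by
  ext y
  constructor
  · rintro ⟨⟨g, hg⟩, rfl⟩
    exact smul_mem_trios hg hT
  · intro hy
    obtain ⟨g, hg, rfl⟩ := trio_trans T hT y hy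
    exact ⟨⟨g, hg⟩, rfl⟩

theorem card_stab {T : Sys} (hT : T ∈ trios) : Nat.card ↥(stabilizer ↥M24 T) = 64512 := by
  have h := card_stab_mul T _ (orbit_eq hT)
  rw [trios_ncard, Cfsg.Agent.S0364.result] at h
  omega

theorem T0_trio : trioOf T0 ∈ trios := trioOf_mem T0_valid

theorem card_T0 : (trioOf T0).card = 3 := T0_trio.1

theorem swap_ok : swapChk (trioList T0) LS = true := by decide +kernel

theorem swap0 : SwapProp (trioOf T0) := swapProp_of_chk _ LS swap_ok

noncomputable def e3 : {x // x ∈ trioOf T0} ≃ Fin 3 :=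
  Fintype.equivFinOfCardEq (by rw [Fintype.card_coe]; exact card_T0)

/-- the homomorphism onto the product -/
noncomputable def Phi : G0 →* GL (Fin 3) (ZMod 2) × Equiv.Perm (Fin 3) :=
  (glHom rho rho_add).prod (e3.permCongrHom.toMonoidHom.comp (actHom (trioOf T0)))

theorem mem_ker_Phi {g : G0} : g ∈ Phi.ker ↔ g.1.1 ∈ NN := by
  unfold Phi
  rw [MonoidHom.ker_prod, Subgroup.mem_inf, glHom_ker, MonoidHom.mem_ker, MonoidHom.mem_ker,
    MonoidHom.comp_apply]
  constructor
  · rintro ⟨h1, h2⟩
    have h3 : g ∈ (actHom (trioOf T0)).ker := by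
      rw [MonoidHom.mem_ker]
      apply e3.permCongrHom.injective
      rw [map_one]; exact h2
    refine ⟨⟨g.1.2, mem_ker_actHom.1 h3⟩, ?_⟩
    intro v
    rw [← unlab_rho, h1]; rfl
  · rintro ⟨h1, h2⟩
    constructor
    · ext1 v
      apply unlab_inj
      rw [unlab_rho, h2 v]; rfl
    · have h3 : g ∈ (actHom (trioOf T0)).ker := mem_ker_actHom.2 h1.2
      rw [MonoidHom.mem_ker.1 h3]
      exact map_one _

theorem card_ker_le : Nat.card Phi.ker ≤ Nat.card ↥NN :=
  Nat.card_le_card_of_injective (fun g : Phi.ker => (⟨g.1.1.1, mem_ker_Phi.1 g.2⟩ : ↥NN))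
    (fun a b h => by
      have h' : a.1.1.1 = b.1.1.1 := congrArg (fun z : ↥NN => z.1) h
      exact Subtype.ext (Subtype.ext (Subtype.ext h')))

theorem card_GL32 : Nat.card (GL (Fin 3) (ZMod 2)) = 168 := by
  rw [Matrix.card_GL_field]
  simp [Fin.prod_univ_three, ZMod.card]

theorem card_target : Nat.card (GL (Fin 3) (ZMod 2) × Equiv.Perm (Fin 3)) = 1008 := by
  rw [Nat.card_prod, card_GL32, Nat.card_eq_fintype_card, Fintype.card_perm, Fintype.card_fin]
  rfl

theorem Phi_facts : Function.Surjective Phi ∧ Nat.card ↥NN = 64 := by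
  have h1 := Subgroup.card_mul_index Phi.ker
  rw [Subgroup.index_ker, card_stab T0_trio] at h1
  have h2 : Nat.card Phi.range ≤ 1008 := card_target ▸ Subgroup.card_le_card_group _
  have h3 := card_ker_le
  have h4 := card_NN_le
  have h5 : Nat.card Phi.ker * Nat.card Phi.range ≤ 64 * Nat.card Phi.range :=
    Nat.mul_le_mul_right _ (h3.trans h4)
  have h6 : Nat.card Phi.range = 1008 := by
    generalize Nat.card Phi.range = r at *
    generalize Nat.card Phi.ker = q at *
    omega
  constructor
  · rw [← MonoidHom.range_eq_top]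
    exact Subgroup.eq_top_of_card_eq _ (by rw [h6, card_target])
  · rw [h6] at h1
    generalize Nat.card Phi.ker = q at *
    generalize Nat.card ↥NN = q' at *
    omega

theorem LN_ok : LN.all (fun P => inM24 P && normP P && (trioList T0).all (fun u => Nat.beq (app P u) u) &&
    (List.range 8).all (fun c => Nat.beq c 0 || Nat.beq (sexAct P (sy c)) (sy c)) &&
    eqP (mulP P P) idP) = true := by
  decide +kernel

theorem LN_sorted : sortedB LN = true := by decide +kernel

theorem LN_length : LN.length = 64 := by decide +kernel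

theorem LN_props {P : ℕ} (h : P ∈ LN) : normP P = true ∧ toPerm P ∈ NN ∧ toPerm P * toPerm P = 1 := by
  have h1 := List.all_eq_true.1 LN_ok P h
  simp only [Bool.and_eq_true] at h1
  obtain ⟨⟨⟨⟨hM, hn⟩, hfix⟩, hsex⟩, hsq⟩ := h1
  have hv := inM24_valid hM
  refine ⟨hn, ⟨⟨toPerm_mem_M24 hM, ?_⟩, ?_⟩, ?_⟩
  · intro t ht
    obtain ⟨u, hu, rfl⟩ := mem_setOf.1 ht
    rw [smul_dec hv, beq_iff.1 (List.all_eq_true.1 hfix u hu)]
  · intro v
    by_cases hv0 : code v = 0
    · have : v = 0 := code_inj (by rw [hv0]; decide +kernel)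
      subst this
      rw [unlab_zero, Finset.smul_finset_singleton, Finset.smul_finset_empty]
    · have hs := sy_isSyn _ (code_lt v) hv0
      have h2 := List.all_eq_true.1 hsex (code v) (List.mem_range.2 (code_lt v))
      rw [Bool.or_eq_true, beq_iff, beq_iff] at h2
      have h3 := h2.resolve_left hv0
      rw [unlab_pos hv0]
      have h4 := sexC.act_spec P hM (sy (code v)) hs.1 (beq_iff.2 hs.2)
      rw [h4, h3]
  · rw [← toPerm_mulP hv hv, toPerm_eq_one_iff (valid_mulP hv hv)]
    exact hsq

theorem NN_sq : ∀ g ∈ NN, g * g = 1 := by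
  intro g hg
  obtain ⟨P, hP, rfl⟩ := enum_of_card NN LN 64 Phi_facts.2 LN_length (nodup_of_sortedB LN_sorted)
    (fun _ hP => (LN_props hP).1) (fun _ hP => (LN_props hP).2.1) g hg
  exact (LN_props hP).2.2

/-- Structure of a trio stabiliser: every permutation of the three octads is induced, and there is a normal subgroup of order 64 of elements squaring to the identity whose quotient is isomorphic to the product of GL(3, 2) with the symmetric group of degree 3. -/
theorem result (T : Finset (Finset Cfsg.GolayPt)) (hT : T ∈ Cfsg.trios) : (∀ e : Equiv.Perm ↥T, ∃ g ∈ MulAction.stabilizer Cfsg.M24 T, ∀ o : ↥T, (g : Equiv.Perm Cfsg.GolayPt) • (o : Finset Cfsg.GolayPt) = ((e o : ↥T) : Finset Cfsg.GolayPt)) ∧ ∃ (N : Subgroup ↥(MulAction.stabilizer Cfsg.M24 T)) (_ : N.Normal), Nat.card N = 64 ∧ (∀ x ∈ N, x * x = 1) ∧ Nonempty (↥(MulAction.stabilizer Cfsg.M24 T) ⧸ N ≃* GL (Fin 3) (ZMod 2) × Equiv.Perm (Fin 3)) := by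
  obtain ⟨k, hk, hkT⟩ := trio_trans T hT _ T0_trio
  have hsw : SwapProp T := SwapProp.transport hk (hkT.symm ▸ swap0)
  refine ⟨?_, ?_⟩
  · intro e
    obtain ⟨g, rfl⟩ := actHom_surjective hsw e
    exact ⟨g.1, g.2, fun t => rfl⟩
  · let ee : ↥(stabilizer ↥M24 T) ≃* G0 :=
      MulAction.stabilizerEquivStabilizer (g := (⟨k, hk⟩ : ↥M24)) hkT.symm
    let Ψ : ↥(stabilizer ↥M24 T) →* GL (Fin 3) (ZMod 2) × Equiv.Perm (Fin 3) :=
      Phi.comp ee.toMonoidHom
    have hsurj : Function.Surjective Ψ := Phi_facts.1.comp ee.surjective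
    refine ⟨Ψ.ker, inferInstance, ?_, ?_, ⟨QuotientGroup.quotientKerEquivOfSurjective _ hsurj⟩⟩
    · have h1 := Subgroup.card_mul_index Ψ.ker
      rw [Subgroup.index_ker, card_stab hT, MonoidHom.range_eq_top.2 hsurj, Subgroup.card_top,
        card_target] at h1
      omega
    · intro x hx
      have h1 : ee x ∈ Phi.ker := hx
      have h2 := NN_sq _ (mem_ker_Phi.1 h1)
      apply ee.injective
      rw [map_mul, map_one]
      exact Subtype.ext (Subtype.ext h2)

end Cfsg.Agent.S1558
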