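import Cfsg.Statements.S1560
import Cfsg.Agent.Lib.Helper33Transport

set_option autoImplicit false
open scoped Pointwise
open Cfsg

namespace Cfsg.Agent.S1560

open Cfsg.Agent.Lib.Helper33Golay Cfsg.Agent.Lib.Helper33Trans Cfsg.Agent.Lib.Helper33Transport
open scoped Pointwise

def d0 : ℕ := 8245261

theorem d0_mem : dec d0 ∈ dodecads := dec_mem_dodecads (by decide +kernel)

set_option maxRecDepth 100000 in
theorem counts : (dodL.filter (fun m => Nat.beq (pop (Nat.land d0 m)) 4)).length = 495 ∧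
    (dodL.filter (fun m => Nat.beq (pop (Nat.land d0 m)) 6)).length = 1584 ∧
    (dodL.filter (fun m => Nat.beq (pop (Nat.land d0 m)) 8)).length = 495 := by
  decide +kernel

theorem base (k : ℕ) : {d' : Finset GolayPt | d' ∈ dodecads ∧ (dec d0 ∩ d').card = k}.ncard =
    (dodL.filter (fun m => Nat.beq (pop (Nat.land d0 m)) k)).length := by
  apply ncard_filter _ dodL dodL_nodup (fun _ h => dodL_lt h)
  intro s
  show (s ∈ dodecads ∧ (dec d0 ∩ s).card = k) ↔ _
  rw [mem_dodecads_iff, card_eq_pop, enc_inter, enc_dec (by decide), land_eq, Nat.beq_eq]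

theorem general (d : Finset GolayPt) (hd : d ∈ dodecads) (k : ℕ) :
    {d' : Finset GolayPt | d' ∈ dodecads ∧ (d ∩ d').card = k}.ncard =
    (dodL.filter (fun m => Nat.beq (pop (Nat.land d0 m)) k)).length := by
  obtain ⟨g, hg, rfl⟩ := dodecad_trans d0_mem hd
  rw [← base k]
  apply ncard_transport g
  intro U
  rw [smul_mem_dodecads_iff hg, card_inter_smul]


/-- Intersection numbers of dodecads: a dodecad meets every other dodecad in 0, 4, 6 or 8 points, meeting 495 of them in 4 points, 1584 in 6 points and 495 in 8 points. -/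
theorem result (d : Finset Cfsg.GolayPt) (hd : d ∈ Cfsg.dodecads) : (∀ d' ∈ Cfsg.dodecads, d' ≠ d → (d ∩ d').card = 0 ∨ (d ∩ d').card = 4 ∨ (d ∩ d').card = 6 ∨ (d ∩ d').card = 8) ∧ {d' : Finset Cfsg.GolayPt | d' ∈ Cfsg.dodecads ∧ (d ∩ d').card = 4}.ncard = 495 ∧ {d' : Finset Cfsg.GolayPt | d' ∈ Cfsg.dodecads ∧ (d ∩ d').card = 6}.ncard = 1584 ∧ {d' : Finset Cfsg.GolayPt | d' ∈ Cfsg.dodecads ∧ (d ∩ d').card = 8}.ncard = 495 := by
  refine ⟨?_, ?_, ?_, ?_⟩
  · intro d' hd' hne
    have ha := mem_dodL.1 ((mem_dodecads_iff d).1 hd)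
    have hb := mem_dodL.1 ((mem_dodecads_iff d').1 hd')
    have h1 := pop_xor_add (enc d) (enc d')
    have h2 := isCode_weights (isCode_xor ha.1 hb.1)
    rw [card_eq_pop, enc_inter]
    have h3 : pop (enc d ^^^ enc d') ≠ 0 := by
      intro h0
      have := pop_eq_zero (isCode_lt (isCode_xor ha.1 hb.1)) h0
      exact hne (enc_injective (Nat.xor_eq_zero_iff.1 this)).symm
    omega
  · rw [general d hd 4]; exact counts.1
  · rw [general d hd 6]; exact counts.2.1
  · rw [general d hd 8]; exact counts.2.2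

end Cfsg.Agent.S1560
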