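import Cfsg.Statements.S1562
import Cfsg.Agent.S1564

set_option autoImplicit false
open scoped Pointwise
open Cfsg

namespace Cfsg.Agent.S1562

open Cfsg.Agent.Lib.Helper33Golay Cfsg.Agent.Lib.Helper33Orbit Cfsg.Agent.Lib.Helper33Sets
open Cfsg.Agent.Lib.Helper33MaxM24 Cfsg.Agent.S1564
open scoped Pointwise

abbrev T0 : Finset GolayPt := dec x0

def InOct (T U : Finset GolayPt) : Prop := ∃ o ∈ octads, T ∪ U ⊆ o

theorem land_eq (a b : ℕ) : Nat.land a b = a &&& b := rfl

set_option maxRecDepth 100000 in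
theorem oct3_eq : octL.filter (fun o => Nat.beq (Nat.land x0 o) x0) = oct3 := by decide +kernel

theorem x0_lt : x0 < 2 ^ 24 := by decide

theorem any_iff (U : Finset GolayPt) :
    oct3.any (fun o => Nat.beq (Nat.land (enc U) o) (enc U)) = true ↔ InOct T0 U := by
  rw [List.any_eq_true, ← oct3_eq]
  constructor
  · rintro ⟨o, ho, h⟩
    rw [List.mem_filter] at ho
    refine ⟨dec o, dec_mem_octads ho.1, Finset.union_subset ?_ ?_⟩
    · rw [dec_subset_iff x0_lt]; exact Nat.eq_of_beq_eq_true ho.2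
    · rw [← dec_enc U, dec_subset_iff (enc_lt U)]; exact Nat.eq_of_beq_eq_true h
  · rintro ⟨o, ho, h⟩
    refine ⟨enc o, List.mem_filter.2 ⟨(mem_octads_iff o).1 ho, ?_⟩, ?_⟩
    · rw [Nat.beq_eq, land_eq, ← dec_subset_iff x0_lt, dec_enc]
      exact Finset.union_subset_left h
    · rw [Nat.beq_eq, land_eq, ← dec_subset_iff (enc_lt U), dec_enc, dec_enc]
      exact Finset.union_subset_right h

theorem disj_iff (U : Finset GolayPt) : Nat.beq (Nat.land x0 (enc U)) 0 = true ↔ Disjoint T0 U := by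
  rw [Nat.beq_eq, land_eq, ← dec_disjoint_iff x0_lt, dec_enc]

theorem pop_land (U : Finset GolayPt) (h : ¬ Disjoint T0 U) :
    pop (Nat.land x0 (enc U)) ≠ 0 ∧ pop (Nat.land x0 (enc U)) ≠ 4 := by
  rw [land_eq]
  constructor
  · intro h0
    apply h
    rw [← dec_enc U, dec_disjoint_iff x0_lt]
    exact pop_eq_zero (lt_of_le_of_lt Nat.and_le_left x0_lt) h0
  · have h1 : pop (x0 &&& enc U) ≤ pop x0 := by
      rw [← card_dec, ← card_dec, dec_and]
      exact Finset.card_le_card Finset.inter_subset_left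
    have h2 : pop x0 = 3 := by decide +kernel
    omega

theorem cls_four (U : Finset GolayPt) : cls (enc U) = 4 ↔ Disjoint T0 U ∧ InOct T0 U := by
  unfold cls
  by_cases hd : Disjoint T0 U
  · rw [(disj_iff U).2 hd, cond_true]
    by_cases ho : InOct T0 U
    · rw [(any_iff U).2 ho]; simp [hd, ho]
    · rw [Bool.eq_false_iff.2 (fun h => ho ((any_iff U).1 h))]; simp [ho]
  · rw [Bool.eq_false_iff.2 (fun h => hd ((disj_iff U).1 h)), cond_false]
    exact ⟨fun h => absurd h (pop_land U hd).2, fun h => absurd h.1 hd⟩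

theorem cls_zero (U : Finset GolayPt) : cls (enc U) = 0 ↔ Disjoint T0 U ∧ ¬ InOct T0 U := by
  unfold cls
  by_cases hd : Disjoint T0 U
  · rw [(disj_iff U).2 hd, cond_true]
    by_cases ho : InOct T0 U
    · rw [(any_iff U).2 ho]; simp [ho]
    · rw [Bool.eq_false_iff.2 (fun h => ho ((any_iff U).1 h))]; simp [hd, ho]
  · rw [Bool.eq_false_iff.2 (fun h => hd ((disj_iff U).1 h)), cond_false]
    exact ⟨fun h => absurd h (pop_land U hd).1, fun h => absurd h.1 hd⟩

theorem base1 : {U : Finset GolayPt | U.card = 3 ∧ Disjoint T0 U ∧ InOct T0 U}.ncard = 210 := by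
  have := hcnt 4
  rw [show nn 4 = 210 from rfl] at this
  rw [← this]
  apply ncard_filter _ triadL triadL_nodup (fun _ h => triadL_lt h)
  intro s
  show (s.card = 3 ∧ Disjoint T0 s ∧ InOct T0 s) ↔ _
  rw [Nat.beq_eq, card_eq_3_iff, ← cls_four]; rfl

theorem base2 : {U : Finset GolayPt | U.card = 3 ∧ Disjoint T0 U ∧ ¬ InOct T0 U}.ncard = 1120 := by
  have := hcnt 0
  rw [show nn 0 = 1120 from rfl] at this
  rw [← this]
  apply ncard_filter _ triadL triadL_nodup (fun _ h => triadL_lt h)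
  intro s
  show (s.card = 3 ∧ Disjoint T0 s ∧ ¬ InOct T0 s) ↔ _
  rw [Nat.beq_eq, card_eq_3_iff, ← cls_zero]; rfl

theorem base3 (U U' : Finset GolayPt) (hU : U.card = 3) (hU' : U'.card = 3) (hd : Disjoint T0 U)
    (hd' : Disjoint T0 U') (h : InOct T0 U ↔ InOct T0 U') :
    ∃ g : Equiv.Perm GolayPt, g ∈ M24 ∧ g • T0 = T0 ∧ g • U = U' := by
  have hc : cls (enc U) = cls (enc U') := by
    by_cases ho : InOct T0 U
    · rw [(cls_four U).2 ⟨hd, ho⟩, (cls_four U').2 ⟨hd', h.1 ho⟩]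
    · rw [(cls_zero U).2 ⟨hd, ho⟩, (cls_zero U').2 ⟨hd', fun h' => ho (h.2 h')⟩]
  obtain ⟨g, hg, hgU⟩ := reach_of_chk _ gensS tblS syn (isK 3) cls rootOf triadL (gens_stab hS1)
    (fun m hm => (hXL m).1 hm) hS2 (enc U) (enc U') (isK_enc.2 hU) (isK_enc.2 hU') hc
  rw [dec_enc, dec_enc] at hgU
  exact ⟨g, hg.1, hg.2, hgU⟩

theorem trans (T : Finset GolayPt) (hT : T.card = 3) : ∃ g ∈ M24, g • T0 = T := by
  obtain ⟨g, hg, h⟩ := reach_of_chk M24 gensT tblT syn (isK 3) _ _ triadL (gens_M24 hT1)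
    (fun m hm => (hXL m).1 hm) hT2 x0 (enc T) (by decide +kernel) (isK_enc.2 hT) rfl
  rw [dec_enc] at h
  exact ⟨g, hg, h⟩

theorem disjoint_smul (g : Equiv.Perm GolayPt) (A B : Finset GolayPt) :
    Disjoint (g • A) (g • B) ↔ Disjoint A B := by
  rw [Finset.disjoint_iff_inter_eq_empty, Finset.disjoint_iff_inter_eq_empty,
    ← Finset.smul_finset_inter, Finset.smul_finset_eq_empty]

theorem inOct_smul {g : Equiv.Perm GolayPt} (hg : g ∈ M24) (A B : Finset GolayPt) :
    InOct (g • A) (g • B) ↔ InOct A B := by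
  unfold InOct
  rw [← Finset.smul_finset_union]
  constructor
  · rintro ⟨o, ho, h⟩
    exact ⟨g⁻¹ • o, smul_mem_octads (M24.inv_mem hg) ho, Finset.smul_finset_subset_iff.1 h⟩
  · rintro ⟨o, ho, h⟩
    exact ⟨g • o, smul_mem_octads hg ho, Finset.smul_finset_subset_smul_finset_iff.2 h⟩

theorem ncard_transport {g : Equiv.Perm GolayPt} (P Q : Finset GolayPt → Prop)
    (h : ∀ U, Q (g • U) ↔ P U) : {U | Q U}.ncard = {U | P U}.ncard := by
  have : {U | Q U} = (fun U => g • U) '' {U | P U} := by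
    ext U
    constructor
    · intro hU
      exact ⟨g⁻¹ • U, (h _).1 (by rw [smul_inv_smul]; exact hU), smul_inv_smul g U⟩
    · rintro ⟨V, hV, rfl⟩
      exact (h V).2 hV
  rw [this, Set.ncard_image_of_injective _ (MulAction.injective g)]


/-- Orbits of a triad stabiliser on the triads disjoint from it: the 210 triads inside a common octad with it form one orbit and the remaining 1120 another. -/
theorem result (T : Finset Cfsg.GolayPt) (hT : T.card = 3) : {U : Finset Cfsg.GolayPt | U.card = 3 ∧ Disjoint T U ∧ (∃ o ∈ Cfsg.octads, T ∪ U ⊆ o)}.ncard = 210 ∧ {U : Finset Cfsg.GolayPt | U.card = 3 ∧ Disjoint T U ∧ ¬ (∃ o ∈ Cfsg.octads, T ∪ U ⊆ o)}.ncard = 1120 ∧ ∀ U U' : Finset Cfsg.GolayPt, U.card = 3 → U'.card = 3 → Disjoint T U → Disjoint T U' → ((∃ o ∈ Cfsg.octads, T ∪ U ⊆ o) ↔ (∃ o ∈ Cfsg.octads, T ∪ U' ⊆ o)) → ∃ g : Equiv.Perm Cfsg.GolayPt, g ∈ Cfsg.M24 ∧ g • T = T ∧ g • U = U' := by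
  obtain ⟨g, hg, rfl⟩ := trans T hT
  refine ⟨?_, ?_, ?_⟩
  · rw [← base1]
    apply ncard_transport (g := g)
    intro U
    rw [Finset.card_smul_finset, disjoint_smul]
    exact and_congr_right (fun _ => and_congr_right (fun _ => inOct_smul hg _ _))
  · rw [← base2]
    apply ncard_transport (g := g)
    intro U
    rw [Finset.card_smul_finset, disjoint_smul]
    exact and_congr_right (fun _ => and_congr_right (fun _ => not_congr (inOct_smul hg _ _)))
  · intro U U' hU hU' hd hd' h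
    have e1 : g • (g⁻¹ • U) = U := smul_inv_smul g U
    have e2 : g • (g⁻¹ • U') = U' := smul_inv_smul g U'
    obtain ⟨k, hk, hk1, hk2⟩ := base3 (g⁻¹ • U) (g⁻¹ • U') (by rw [Finset.card_smul_finset]; exact hU)
      (by rw [Finset.card_smul_finset]; exact hU')
      (by rw [← disjoint_smul g, e1]; exact hd) (by rw [← disjoint_smul g, e2]; exact hd')
      (by rw [← inOct_smul hg, ← inOct_smul hg T0 (g⁻¹ • U'), e1, e2]; exact h)
    refine ⟨g * k * g⁻¹, M24.mul_mem (M24.mul_mem hg hk) (M24.inv_mem hg), ?_, ?_⟩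
    · rw [mul_smul, mul_smul, inv_smul_smul, hk1]
    · rw [mul_smul, mul_smul, hk2, smul_inv_smul]

end Cfsg.Agent.S1562
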