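import Cfsg.Statements.S1565
import Cfsg.Agent.Lib.Helper33Max
import Cfsg.Agent.Lib.Helper33Trans
import Cfsg.Agent.S1556

set_option autoImplicit false
open scoped Pointwise
open Cfsg

namespace Cfsg.Agent.S1565

open Cfsg.Agent.Lib.Helper33Golay Cfsg.Agent.Lib.Helper33Orbit Cfsg.Agent.Lib.Helper33Trans
open Cfsg.Agent.Lib.Helper33Max
open scoped Pointwise

abbrev o0 : ℕ := Cfsg.Agent.S1556.o0

theorem o0_mem : dec o0 ∈ octads := dec_mem_octads (by decide +kernel)

theorem mem_orbit_iff (y : Finset GolayPt) : y ∈ MulAction.orbit M24 (dec o0) ↔ y ∈ octads := by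
  constructor
  · rintro ⟨g, rfl⟩; exact smul_mem_octads g.2 o0_mem
  · intro hy
    obtain ⟨g, hg, h⟩ := octad_trans o0_mem hy
    exact ⟨⟨g, hg⟩, h⟩

def col (y : Finset GolayPt) : Fin 9 := Fin.ofNat 9 (dec o0 ∩ y).card

def nn : Fin 9 → ℕ := ![30, 0, 448, 0, 280, 0, 0, 0, 1]

theorem card_le (y : Finset GolayPt) : (dec o0 ∩ y).card < 9 := by
  have h1 : (dec o0 ∩ y).card ≤ (dec o0).card := Finset.card_le_card Finset.inter_subset_left
  have h2 : (dec o0).card = 8 := o0_mem.2
  omega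

theorem col_eq_iff (y : Finset GolayPt) (i : Fin 9) : col y = i ↔ (dec o0 ∩ y).card = i.val := by
  unfold col
  rw [Fin.ext_iff, Fin.val_ofNat, Nat.mod_eq_of_lt (card_le y)]

set_option maxRecDepth 100000 in
theorem counts : ∀ i : Fin 9, (octL.filter (fun m => Nat.beq (pop (Nat.land o0 m)) i.val)).length = nn i := by
  decide +kernel

theorem arith : ∀ I : Finset (Fin 9), (8 : Fin 9) ∈ I → (∑ i ∈ I, nn i) ∣ (∑ i, nn i) →
      (∑ i ∈ I, nn i) = 1 ∨ (∑ i ∈ I, nn i) = ∑ i, nn i := by
  decide +kernel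

theorem col_self : col (dec o0) = 8 := by
  rw [col_eq_iff, Finset.inter_self]; exact o0_mem.2

theorem base : IsCoatom (MulAction.stabilizer M24 (dec o0)) := by
  apply isCoatom_stabilizer (dec o0) 9 col nn
  · intro i
    rw [← counts i]
    apply ncard_filter _ octL octL_nodup (fun _ h => octL_lt h)
    intro s
    have hl : ∀ a b : ℕ, Nat.land a b = a &&& b := fun _ _ => rfl
    show (s ∈ MulAction.orbit M24 (dec o0) ∧ col s = i) ↔ _
    rw [mem_orbit_iff, mem_octads_iff, col_eq_iff, card_eq_pop, enc_inter,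
      enc_dec (by decide), hl, Nat.beq_eq]
  · intro y hy y' hy' hc
    rw [mem_orbit_iff] at hy hy'
    have hcard : (dec o0 ∩ y).card = (dec o0 ∩ y').card := by
      have := (col_eq_iff y (col y')).1 hc
      rw [this]; exact ((col_eq_iff y' (col y')).1 rfl).symm
    obtain ⟨g, hg, h1, h2⟩ := Cfsg.Agent.S1556.result (dec o0) y y' o0_mem hy hy' hcard
    exact ⟨⟨g, hg⟩, h1, h2⟩
  · exact ⟨0, by rw [col_self]; decide, by decide⟩
  · rw [col_self]; exact arith


/-- The stabiliser of an octad is a maximal proper subgroup of the group of the length-24 code. -/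
theorem result (o : Finset Cfsg.GolayPt) (ho : o ∈ Cfsg.octads) : IsCoatom (MulAction.stabilizer Cfsg.M24 o) := by
  obtain ⟨g, hg, h⟩ := octad_trans o0_mem ho
  have := isCoatom_stabilizer_smul (⟨g, hg⟩ : M24) (dec o0) base
  rwa [show (⟨g, hg⟩ : M24) • dec o0 = o from h] at this

end Cfsg.Agent.S1565
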