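import Cfsg.Statements.S1566
import Cfsg.Agent.Lib.Helper33Max
import Cfsg.Agent.Lib.Helper33Transport
import Cfsg.Agent.S1560
import Cfsg.Agent.S1561

set_option autoImplicit false
open scoped Pointwise
open Cfsg

namespace Cfsg.Agent.S1566

open Cfsg.Agent.Lib.Helper33Golay Cfsg.Agent.Lib.Helper33Trans Cfsg.Agent.Lib.Helper33Transport
open Cfsg.Agent.Lib.Helper33Max

/-- the pair formed by a set and its complement -/
def pr (e : Finset GolayPt) : Finset (Finset GolayPt) := {e, eᶜ}

theorem card_of_mem {e : Finset GolayPt} (he : e ∈ dodecads) : e.card = 12 := by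
  rw [card_eq_pop]; exact (mem_dodL.1 ((mem_dodecads_iff e).1 he)).2

theorem compl_mem {e : Finset GolayPt} (he : e ∈ dodecads) : eᶜ ∈ dodecads := by
  have h := mem_dodL.1 ((mem_dodecads_iff e).1 he)
  rw [mem_dodecads_iff, mem_dodL]
  refine ⟨?_, ?_⟩
  · rw [enc_compl]; exact isCode_xor h.1 (by decide +kernel)
  · rw [← card_eq_pop, Finset.card_compl, card_of_mem he]
    simp [GolayPt]

theorem smul_compl (g : Equiv.Perm GolayPt) (e : Finset GolayPt) : g • eᶜ = (g • e)ᶜ := by
  ext p
  rw [Finset.mem_compl, ← Finset.inv_smul_mem_iff, ← Finset.inv_smul_mem_iff, Finset.mem_compl]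

theorem smul_pr (g : Equiv.Perm GolayPt) (e : Finset GolayPt) : g • pr e = pr (g • e) := by
  unfold pr
  rw [Finset.smul_finset_insert, Finset.smul_finset_singleton, smul_compl]

theorem pr_compl (e : Finset GolayPt) : pr eᶜ = pr e := by
  unfold pr; rw [compl_compl, Finset.pair_comm]

theorem mem_pr {e f : Finset GolayPt} : f ∈ pr e ↔ f = e ∨ f = eᶜ := by
  unfold pr; simp

theorem pr_eq_iff {e f : Finset GolayPt} : pr e = pr f ↔ e = f ∨ e = fᶜ := by
  constructor
  · intro h
    have : e ∈ pr f := h ▸ mem_pr.2 (Or.inl rfl)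
    exact mem_pr.1 this
  · rintro (rfl | rfl)
    · rfl
    · exact pr_compl f

theorem card_inter_compl (d e : Finset GolayPt) : (d ∩ eᶜ).card + (d ∩ e).card = d.card := by
  rw [← Finset.sdiff_eq_inter_compl, Finset.card_sdiff_add_card_inter]

theorem mem_orbit_iff {d : Finset GolayPt} (hd : d ∈ dodecads) (y : Finset (Finset GolayPt)) :
    y ∈ MulAction.orbit M24 (pr d) ↔ ∃ e ∈ dodecads, y = pr e := by
  constructor
  · rintro ⟨g, rfl⟩
    exact ⟨(g : Equiv.Perm GolayPt) • d, smul_mem_dodecads g.2 hd, smul_pr _ _⟩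
  · rintro ⟨e, he, rfl⟩
    obtain ⟨g, hg, rfl⟩ := dodecad_trans hd he
    exact ⟨⟨g, hg⟩, smul_pr _ _⟩

open Classical in
/-- colour of a pair -/
noncomputable def col (d : Finset GolayPt) (y : Finset (Finset GolayPt)) : Fin 3 :=
  if d ∈ y then 0 else if ∃ e ∈ y, (d ∩ e).card = 4 then 1 else 2

def nn : Fin 3 → ℕ := ![1, 495, 792]

theorem col_pr_zero {d e : Finset GolayPt} : col d (pr e) = 0 ↔ pr e = pr d := by
  unfold col
  split_ifs with h1 h2
  · simp only [true_iff]
    rw [eq_comm, pr_eq_iff]; exact mem_pr.1 h1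
  · simp only [Fin.isValue, one_ne_zero, false_iff]
    intro h; apply h1; rw [h]; exact mem_pr.2 (Or.inl rfl)
  · have : (2 : Fin 3) ≠ 0 := by decide
    simp only [this, false_iff]
    intro h; apply h1; rw [h]; exact mem_pr.2 (Or.inl rfl)

theorem col_pr_one {d e : Finset GolayPt} (hd : d ∈ dodecads) :
    col d (pr e) = 1 ↔ (d ∩ e).card = 4 ∨ (d ∩ e).card = 8 := by
  have hc := card_inter_compl d e
  rw [card_of_mem hd] at hc
  unfold col
  split_ifs with h1 h2
  · have : (0 : Fin 3) ≠ 1 := by decide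
    simp only [this, false_iff]
    rcases mem_pr.1 h1 with rfl | rfl
    · rw [Finset.inter_self, card_of_mem hd]; omega
    · rw [Finset.inter_self, card_of_mem hd] at hc; omega
  · simp only [true_iff]
    obtain ⟨f, hf, hf4⟩ := h2
    rcases mem_pr.1 hf with rfl | rfl
    · exact Or.inl hf4
    · right; omega
  · have : (2 : Fin 3) ≠ 1 := by decide
    simp only [this, false_iff]
    rintro (h | h)
    · exact h2 ⟨e, mem_pr.2 (Or.inl rfl), h⟩
    · exact h2 ⟨eᶜ, mem_pr.2 (Or.inr rfl), by omega⟩

theorem col_pr_two {d e : Finset GolayPt} (hd : d ∈ dodecads) (he : e ∈ dodecads) :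
    col d (pr e) = 2 ↔ (d ∩ e).card = 6 := by
  have h0 := @col_pr_zero d e
  have h1 := @col_pr_one d e hd
  have hc := card_inter_compl d e
  rw [card_of_mem hd] at hc
  have hall := (S1560.result d hd).1 e he
  constructor
  · intro h
    have hne : e ≠ d := by
      rintro rfl
      have := h0.2 rfl
      rw [h] at this; exact absurd this (by decide)
    have hne' : (d ∩ e).card ≠ 0 := by
      intro h00
      have h12 : (d ∩ eᶜ).card = 12 := by omega
      have hsub : d ∩ eᶜ = d := Finset.eq_of_subset_of_card_le Finset.inter_subset_left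
        (by rw [h12, card_of_mem hd])
      have hsub2 : d ∩ eᶜ = eᶜ := Finset.eq_of_subset_of_card_le Finset.inter_subset_right
        (by rw [h12, card_of_mem (compl_mem he)])
      have : pr e = pr d := by
        rw [pr_eq_iff]; right; rw [← hsub, hsub2, compl_compl]
      have := h0.2 this
      rw [h] at this; exact absurd this (by decide)
    rcases hall hne with h' | h' | h' | h'
    · exact absurd h' hne'
    · have := h1.2 (Or.inl h'); rw [h] at this; exact absurd this (by decide)
    · exact h'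
    · have := h1.2 (Or.inr h'); rw [h] at this; exact absurd this (by decide)
  · intro h
    have n0 : col d (pr e) ≠ 0 := by
      intro hh
      rcases pr_eq_iff.1 (h0.1 hh) with rfl | rfl
      · rw [Finset.inter_self, card_of_mem hd] at h; omega
      · rw [compl_compl, Finset.inter_self, card_of_mem hd] at hc; omega
    have n1 : col d (pr e) ≠ 1 := by
      intro hh
      rcases h1.1 hh with h' | h' <;> omega
    have h3 : ∀ c : Fin 3, c ≠ 0 → c ≠ 1 → c = 2 := by decide
    exact h3 _ n0 n1

/-- counting the image of a two-to-one map -/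
theorem ncard_two_to_one {α β : Type*} (S : Set α) (hS : S.Finite) (f : α → β) (τ : α → α)
    (hτ : ∀ a ∈ S, τ a ∈ S) (hne : ∀ a ∈ S, τ a ≠ a)
    (hf : ∀ a ∈ S, ∀ b ∈ S, f a = f b ↔ (b = a ∨ b = τ a)) :
    2 * (f '' S).ncard = S.ncard := by
  classical
  lift S to Finset α using hS
  rw [Set.ncard_coe_finset, ← Finset.coe_image, Set.ncard_coe_finset]
  rw [Finset.card_eq_sum_card_image f S]
  rw [Finset.sum_const_nat (m := 2), mul_comm]
  intro b hb
  obtain ⟨a, ha, rfl⟩ := Finset.mem_image.1 hb
  have : S.filter (fun x => f x = f a) = {a, τ a} := by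
    ext x
    simp only [Finset.mem_filter, Finset.mem_insert, Finset.mem_singleton]
    constructor
    · rintro ⟨hx, hfx⟩
      exact (hf a ha x hx).1 hfx.symm
    · rintro (rfl | rfl)
      · exact ⟨ha, rfl⟩
      · exact ⟨hτ a ha, ((hf a ha _ (hτ a ha)).2 (Or.inr rfl)).symm⟩
  rw [this, Finset.card_pair (hne a ha).symm]

theorem finite_set (S : Set (Finset GolayPt)) : S.Finite := Set.toFinite S

theorem hn (d : Finset GolayPt) (hd : d ∈ dodecads) (i : Fin 3) :
    {y | y ∈ MulAction.orbit M24 (pr d) ∧ col d y = i}.ncard = nn i := by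
  have hR := S1560.result d hd
  fin_cases i
  · have : {y | y ∈ MulAction.orbit M24 (pr d) ∧ col d y = 0} = {pr d} := by
      ext y
      simp only [Set.mem_setOf_eq, Set.mem_singleton_iff]
      constructor
      · rintro ⟨h1, h2⟩
        obtain ⟨e, he, rfl⟩ := (mem_orbit_iff hd y).1 h1
        exact col_pr_zero.1 h2
      · rintro rfl
        exact ⟨MulAction.mem_orbit_self _, col_pr_zero.2 rfl⟩
    show Set.ncard {y | y ∈ MulAction.orbit M24 (pr d) ∧ col d y = 0} = 1
    rw [this, Set.ncard_singleton]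
  · have : {y | y ∈ MulAction.orbit M24 (pr d) ∧ col d y = 1} =
        pr '' {e | e ∈ dodecads ∧ (d ∩ e).card = 4} := by
      ext y
      simp only [Set.mem_setOf_eq, Set.mem_image]
      constructor
      · rintro ⟨h1, h2⟩
        obtain ⟨e, he, rfl⟩ := (mem_orbit_iff hd y).1 h1
        rcases (col_pr_one hd).1 h2 with h | h
        · exact ⟨e, ⟨he, h⟩, rfl⟩
        · refine ⟨eᶜ, ⟨compl_mem he, ?_⟩, pr_compl e⟩
          have hc := card_inter_compl d e
          rw [card_of_mem hd] at hc
          omega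
      · rintro ⟨e, ⟨he, h⟩, rfl⟩
        exact ⟨(mem_orbit_iff hd _).2 ⟨e, he, rfl⟩, (col_pr_one hd).2 (Or.inl h)⟩
    show Set.ncard {y | y ∈ MulAction.orbit M24 (pr d) ∧ col d y = 1} = 495
    rw [this, Set.ncard_image_of_injOn, hR.2.1]
    rintro e ⟨he, h⟩ f ⟨hf, h'⟩ hef
    rcases pr_eq_iff.1 hef with rfl | rfl
    · rfl
    · have hc := card_inter_compl d f
      rw [card_of_mem hd] at hc
      omega
  · have : {y | y ∈ MulAction.orbit M24 (pr d) ∧ col d y = 2} =
        pr '' {e | e ∈ dodecads ∧ (d ∩ e).card = 6} := by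
      ext y
      simp only [Set.mem_setOf_eq, Set.mem_image]
      constructor
      · rintro ⟨h1, h2⟩
        obtain ⟨e, he, rfl⟩ := (mem_orbit_iff hd y).1 h1
        exact ⟨e, ⟨he, (col_pr_two hd he).1 h2⟩, rfl⟩
      · rintro ⟨e, ⟨he, h⟩, rfl⟩
        exact ⟨(mem_orbit_iff hd _).2 ⟨e, he, rfl⟩, (col_pr_two hd he).2 h⟩
    show Set.ncard {y | y ∈ MulAction.orbit M24 (pr d) ∧ col d y = 2} = 792
    rw [this]
    have h2 := ncard_two_to_one {e | e ∈ dodecads ∧ (d ∩ e).card = 6} (finite_set _) pr (fun e => eᶜ)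
      (by
        rintro e ⟨he, h⟩
        refine ⟨compl_mem he, ?_⟩
        have hc := card_inter_compl d e
        rw [card_of_mem hd] at hc
        omega)
      (by
        rintro e ⟨he, _⟩ h
        have h1 := card_of_mem he
        have : e ∩ eᶜ = e := by rw [h, Finset.inter_self]
        rw [Finset.inter_compl] at this
        rw [← this] at h1
        simp at h1)
      (by
        rintro e _ f _
        rw [eq_comm, pr_eq_iff])
    rw [hR.2.2.1] at h2
    omega

theorem hc (d : Finset GolayPt) (hd : d ∈ dodecads) :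
    ∀ y ∈ MulAction.orbit M24 (pr d), ∀ y' ∈ MulAction.orbit M24 (pr d), col d y = col d y' →
      ∃ g ∈ MulAction.stabilizer M24 (pr d), g • y = y' := by
  intro y hy y' hy' hcc
  obtain ⟨e, he, rfl⟩ := (mem_orbit_iff hd y).1 hy
  obtain ⟨e', he', rfl⟩ := (mem_orbit_iff hd y').1 hy'
  have key : ∀ e e' : Finset GolayPt, e ∈ dodecads → e' ∈ dodecads → (d ∩ e).card = (d ∩ e').card →
      ∃ g ∈ MulAction.stabilizer M24 (pr d), g • pr e = pr e' := by
    intro e e' he he' h
    obtain ⟨g, hg, hgd, hge⟩ := S1561.result d e e' hd he he' h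
    refine ⟨⟨g, hg⟩, ?_, ?_⟩
    · rw [MulAction.mem_stabilizer_iff]
      show g • pr d = pr d
      rw [smul_pr, hgd]
    · show g • pr e = pr e'
      rw [smul_pr, hge]
  have hcd := card_inter_compl d e
  have hcd' := card_inter_compl d e'
  rw [card_of_mem hd] at hcd hcd'
  have h3 : ∀ c : Fin 3, c = 0 ∨ c = 1 ∨ c = 2 := by decide
  rcases h3 (col d (pr e)) with h | h | h
  · rw [h] at hcc
    rw [col_pr_zero.1 h, col_pr_zero.1 hcc.symm]
    exact ⟨1, Subgroup.one_mem _, one_smul _ _⟩
  · rw [h] at hcc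
    rcases (col_pr_one hd).1 h with h4 | h4 <;> rcases (col_pr_one hd).1 hcc.symm with h5 | h5
    · exact key e e' he he' (by omega)
    · rw [← pr_compl e']; exact key e e'ᶜ he (compl_mem he') (by omega)
    · rw [← pr_compl e]; exact key eᶜ e' (compl_mem he) he' (by omega)
    · exact key e e' he he' (by omega)
  · rw [h] at hcc
    exact key e e' he he' (by rw [(col_pr_two hd he).1 h, (col_pr_two hd he').1 hcc.symm])

/-- The setwise stabiliser of a dodecad together with its complement is a maximal proper subgroup of the group of the length-24 code. -/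
theorem result (d : Finset Cfsg.GolayPt) (hd : d ∈ Cfsg.dodecads) : IsCoatom (MulAction.stabilizer Cfsg.M24 ({d, dᶜ} : Finset (Finset Cfsg.GolayPt))) := by
  apply isCoatom_stabilizer (pr d) 3 (col d) nn (hn d hd) (hc d hd)
  · refine ⟨1, ?_, by decide⟩
    rw [col_pr_zero.2 rfl]; decide
  · rw [col_pr_zero.2 rfl]
    decide

end Cfsg.Agent.S1566
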