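import Cfsg.Statements.S1567
import Cfsg.Agent.Lib.Helper33LBase

set_option autoImplicit false
set_option exponentiation.threshold 2000
open Cfsg
open Cfsg.Agent.Lib.Helper33Golay Cfsg.Agent.Lib.Helper33LVec Cfsg.Agent.Lib.Helper33LGen
open Cfsg.Agent.Lib.Helper33LReach Cfsg.Agent.Lib.Helper33LCo2 Cfsg.Agent.Lib.Helper33LCo2Thy
open Cfsg.Agent.Lib.Helper33LBase Cfsg.Agent.Lib.Helper33LTest

namespace Cfsg.Agent.S1567

theorem chk : genL.all (fun c => (inR c && isLeech c && normB 32 c) || Nat.beq c (genA 0)) = true := by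
  decide +kernel

theorem split_fields : ∀ i < 24, (fld (genA 0) i : ℤ) - 16 =
    ((fld v0c i : ℤ) - 16) + ((fld xhc i : ℤ) - 16) := by decide +kernel

theorem split : D (genA 0) = D v0c + D xhc := by
  funext p
  exact split_fields _ (idx_lt p)

/-- The rank-24 lattice is the additive subgroup generated by its 196560 minimal vectors. -/
theorem result : AddSubgroup.closure {x : Cfsg.GolayPt → ℤ | x ∈ Cfsg.leechLattice ∧ Cfsg.sqNorm x = 32} = Cfsg.leechLattice := by
  apply le_antisymm
  · rw [AddSubgroup.closure_le]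
    intro x hx
    exact hx.1
  · have mem : ∀ c, (inR c && isLeech c && normB 32 c) = true →
        D c ∈ AddSubgroup.closure {x : Cfsg.GolayPt → ℤ | x ∈ Cfsg.leechLattice ∧ Cfsg.sqNorm x = 32} := by
      intro c hc
      obtain ⟨_, h2, h3⟩ := code_ok hc
      exact AddSubgroup.subset_closure ⟨h2, by simpa using h3⟩
    apply gen_le
    intro c hc
    have := List.all_eq_true.1 chk c hc
    rw [Bool.or_eq_true] at this
    rcases this with h | h
    · exact mem c h
    · rw [Nat.eq_of_beq_eq_true h, split]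
      exact AddSubgroup.add_mem _ (mem _ v0c_ok) (mem _ xhc_ok)

end Cfsg.Agent.S1567
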