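import Cfsg.Statements.S1568
import Cfsg.Agent.Lib.Helper93LeechShape

set_option autoImplicit false
open Cfsg

namespace Cfsg.Agent.S1568

open Cfsg.Agent.Lib.Helper93LeechCount Cfsg.Agent.Lib.Helper93LeechShape
open Cfsg.Agent.Lib.Helper94Leech

def P1 (v : ℤ) : Bool := !(v == 0 || v == 2 || v == -2)
def P3 (v : ℤ) : Bool := v.natAbs == 3
def P4 (v : ℤ) : Bool := v.natAbs == 4
def P5 (v : ℤ) : Bool := v.natAbs == 5

set_option exponentiation.threshold 10000000 in
theorem n1 : totX P1 48 = 5275648 := by decide +kernel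
set_option exponentiation.threshold 10000000 in
theorem n3 : tot 48 - totX P3 48 = 8290304 := by decide +kernel
set_option exponentiation.threshold 10000000 in
theorem n4 : tot 48 - totX P4 48 = 3108864 := by decide +kernel
set_option exponentiation.threshold 10000000 in
theorem n5 : tot 48 - totX P5 48 = 98304 := by decide +kernel

theorem P1_iff (v : ℤ) : P1 v = false ↔ (v = 0 ∨ v = 2 ∨ v = -2) := by
  unfold P1
  simp only [Bool.not_eq_false', Bool.or_eq_true, beq_iff_eq, or_assoc]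

theorem P3_iff (v : ℤ) : P3 v = true ↔ |v| = 3 := by
  unfold P3
  simp only [beq_iff_eq]
  rw [Int.abs_eq_natAbs]
  omega

theorem P4_iff (v : ℤ) : P4 v = true ↔ |v| = 4 := by
  unfold P4
  simp only [beq_iff_eq]
  rw [Int.abs_eq_natAbs]
  omega

theorem P5_iff (v : ℤ) : P5 v = true ↔ |v| = 5 := by
  unfold P5
  simp only [beq_iff_eq]
  rw [Int.abs_eq_natAbs]
  omega

/-- a vector of norm 48 with a coordinate `±3` has three of them -/
theorem three_threes {x : GolayPt → ℤ} (hx : x ∈ leechLattice) (hn : sqNorm x = 48) {i0 : GolayPt}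
    (h0 : |x i0| = 3) :
    ∃ i j k, i ≠ j ∧ j ≠ k ∧ i ≠ k ∧ |x i| = 3 ∧ |x j| = 3 ∧ |x k| = 3 := by
  obtain ⟨m, h1, -, -⟩ := (mem_leechSet_iff x).1 ((mem_leechLattice_iff x).1 hx)
  have hodd : ∀ i, x i % 2 = 1 := by
    intro i
    have a := h1 i
    have b := h1 i0
    rw [Int.abs_eq_natAbs] at h0
    omega
  have hb : ∀ i, x i ^ 2 ≤ 48 := by
    intro i
    rw [← hn]
    exact Finset.single_le_sum (f := fun i => x i ^ 2) (fun j _ => sq_nonneg _) (Finset.mem_univ i)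
  have hval : ∀ i, |x i| = 1 ∨ |x i| = 3 ∨ |x i| = 5 := by
    intro i
    have a := hodd i
    have b := hb i
    have c : -6 ≤ x i ∧ x i ≤ 6 := by constructor <;> nlinarith
    rw [Int.abs_eq_natAbs]
    omega
  have hpt : ∀ i, x i ^ 2 = 1 + 8 * (if |x i| = 3 then 1 else 0) + 24 * (if |x i| = 5 then 1 else 0) := by
    intro i
    rw [← sq_abs]
    rcases hval i with h | h | h <;> rw [h] <;> norm_num
  have hsum : (48 : ℤ) = 24 + 8 * ((Finset.univ.filter (fun i => |x i| = 3)).card : ℤ)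
      + 24 * ((Finset.univ.filter (fun i => |x i| = 5)).card : ℤ) := by
    rw [← hn]
    unfold sqNorm
    rw [Finset.sum_congr rfl (fun i _ => hpt i), Finset.sum_add_distrib, Finset.sum_add_distrib,
      ← Finset.mul_sum, ← Finset.mul_sum, Finset.sum_boole, Finset.sum_boole, Finset.sum_const,
      card_pts]
    norm_num
  have hpos : 0 < (Finset.univ.filter (fun i => |x i| = 3)).card :=
    Finset.card_pos.2 ⟨i0, Finset.mem_filter.2 ⟨Finset.mem_univ _, h0⟩⟩
  have h3 : (Finset.univ.filter (fun i => |x i| = 3)).card = 3 := by omega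
  obtain ⟨a, b, c, hab, hac, hbc, hs⟩ := Finset.card_eq_three.1 h3
  have ha : a ∈ Finset.univ.filter (fun i => |x i| = 3) := by rw [hs]; simp
  have hb' : b ∈ Finset.univ.filter (fun i => |x i| = 3) := by rw [hs]; simp
  have hc : c ∈ Finset.univ.filter (fun i => |x i| = 3) := by rw [hs]; simp
  exact ⟨a, b, c, hab, hbc, hac, (Finset.mem_filter.1 ha).2, (Finset.mem_filter.1 hb').2,
    (Finset.mem_filter.1 hc).2⟩

/-- Shape census of the lattice vectors of sum of squares 48 (customary norm 6): the four families (2^12, 0^12), (±3^3, ±1^21), (±4, ±2^8, 0^15) and (±5, ±1^23) have 5275648, 8290304, 3108864 and 98304 members. -/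
theorem result : {x : Cfsg.GolayPt → ℤ | x ∈ Cfsg.leechLattice ∧ Cfsg.sqNorm x = 48 ∧ ∀ i, x i = 0 ∨ x i = 2 ∨ x i = -2}.ncard = 5275648 ∧ {x : Cfsg.GolayPt → ℤ | x ∈ Cfsg.leechLattice ∧ Cfsg.sqNorm x = 48 ∧ ∃ i j k, i ≠ j ∧ j ≠ k ∧ i ≠ k ∧ |x i| = 3 ∧ |x j| = 3 ∧ |x k| = 3}.ncard = 8290304 ∧ {x : Cfsg.GolayPt → ℤ | x ∈ Cfsg.leechLattice ∧ Cfsg.sqNorm x = 48 ∧ ∃ i, |x i| = 4}.ncard = 3108864 ∧ {x : Cfsg.GolayPt → ℤ | x ∈ Cfsg.leechLattice ∧ Cfsg.sqNorm x = 48 ∧ ∃ i, |x i| = 5}.ncard = 98304 := by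
  refine ⟨?_, ?_, ?_, ?_⟩
  · rw [← n1, ← ncard_normX P1 48 (by norm_num)]
    congr 1
    ext x
    simp only [Set.mem_ofPred_eq, P1_iff, Nat.cast_ofNat]
  · rw [← n3, ← ncard_norm_exists P3 48 (by norm_num)]
    congr 1
    ext x
    simp only [Set.mem_ofPred_eq, P3_iff, Nat.cast_ofNat]
    constructor
    · rintro ⟨a, b, i, -, -, -, -, -, hi, -, -⟩
      exact ⟨a, b, i, hi⟩
    · rintro ⟨a, b, i, hi⟩
      exact ⟨a, b, three_threes a b hi⟩
  · rw [← n4, ← ncard_norm_exists P4 48 (by norm_num)]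
    congr 1
    ext x
    simp only [Set.mem_ofPred_eq, P4_iff, Nat.cast_ofNat]
  · rw [← n5, ← ncard_norm_exists P5 48 (by norm_num)]
    congr 1
    ext x
    simp only [Set.mem_ofPred_eq, P5_iff, Nat.cast_ofNat]

end Cfsg.Agent.S1568
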