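import Cfsg.Statements.S1573
import Cfsg.Agent.Lib.Helper33LCount
import Cfsg.Agent.Lib.Helper33LCo2Thy
import Cfsg.Agent.Lib.Helper33LCnta
import Cfsg.Agent.Lib.Helper33LCntb
import Cfsg.Agent.Lib.Helper33LCntc

set_option autoImplicit false
open Cfsg
open Cfsg.Agent.Lib.Helper33LVec Cfsg.Agent.Lib.Helper33LCo0 Cfsg.Agent.Lib.Helper33LMin
open Cfsg.Agent.Lib.Helper33LReach Cfsg.Agent.Lib.Helper33LSound Cfsg.Agent.Lib.Helper33LCount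
open Cfsg.Agent.Lib.Helper33LCo2 Cfsg.Agent.Lib.Helper33LCo2Thy Cfsg.Agent.Lib

namespace Cfsg.Agent.S1573

theorem move (v : Cfsg.GolayPt → ℤ) (hv : v ∈ Cfsg.leechLattice) (hvn : Cfsg.sqNorm v = 32) (k : ℤ) :
    {w : Cfsg.GolayPt → ℤ | w ∈ Cfsg.leechLattice ∧ Cfsg.sqNorm w = 32 ∧ Cfsg.dotInt v w = k}.ncard =
    {w : Cfsg.GolayPt → ℤ | w ∈ Cfsg.leechLattice ∧ Cfsg.sqNorm w = 32 ∧ Cfsg.dotInt (D v0c) w = k}.ncard := by
  obtain ⟨g0, hg0⟩ := to_v0 ⟨v, hv⟩ hvn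
  rw [← ncard_subtype (fun w => Cfsg.sqNorm w = 32 ∧ Cfsg.dotInt v w = k),
    ← ncard_subtype (fun w => Cfsg.sqNorm w = 32 ∧ Cfsg.dotInt (D v0c) w = k)]
  apply ncard_smul g0
  intro w
  simp only [Set.mem_setOf_eq]
  rw [sqNorm_smul', ← v0_coe, ← hg0, dot_smul']

theorem count (s n : ℕ) (cnd : ℕ → Bool) (hc : ∀ m, cnd m = Nat.beq (Nat.add (fld m 0) (fld m 1)) s)
    (h : (minL.filter cnd).length = n) :
    {w : Cfsg.GolayPt → ℤ | w ∈ Cfsg.leechLattice ∧ Cfsg.sqNorm w = 32 ∧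
      Cfsg.dotInt (D v0c) w = 4 * (s : ℤ) - 128}.ncard = n := by
  rw [← h]
  apply ncard_min (fun w => Cfsg.dotInt (D v0c) w = 4 * (s : ℤ) - 128) cnd
  intro m _
  rw [hc, cnd_iff]

/-- Census of minimal vectors by inner product with a fixed minimal vector: 4600 have customary inner product −2, 47104 have −1, and 93150 are orthogonal. -/
theorem result (v : Cfsg.GolayPt → ℤ) (hv : v ∈ Cfsg.leechLattice) (hvn : Cfsg.sqNorm v = 32) : {w : Cfsg.GolayPt → ℤ | w ∈ Cfsg.leechLattice ∧ Cfsg.sqNorm w = 32 ∧ Cfsg.dotInt v w = -16}.ncard = 4600 ∧ {w : Cfsg.GolayPt → ℤ | w ∈ Cfsg.leechLattice ∧ Cfsg.sqNorm w = 32 ∧ Cfsg.dotInt v w = -8}.ncard = 47104 ∧ {w : Cfsg.GolayPt → ℤ | w ∈ Cfsg.leechLattice ∧ Cfsg.sqNorm w = 32 ∧ Cfsg.dotInt v w = 0}.ncard = 93150 := by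
  rw [move v hv hvn, move v hv hvn, move v hv hvn]
  refine ⟨?_, ?_, ?_⟩
  · simpa using count 28 4600 Helper33LCnta.cnd (fun _ => rfl) Helper33LCnta.cnt
  · simpa using count 30 47104 Helper33LCntb.cnd (fun _ => rfl) Helper33LCntb.cnt
  · simpa using count 32 93150 Helper33LCntc.cnd (fun _ => rfl) Helper33LCntc.cnt

end Cfsg.Agent.S1573
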