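import Cfsg.Statements.S1580
import Cfsg.Agent.Lib.Helper33LMcL

set_option autoImplicit false
open Cfsg
open Cfsg.Agent.Lib.Helper33LFrame Cfsg.Agent.Lib.Helper33LMcL Cfsg.Agent.Lib.Helper33LCo0

namespace Cfsg.Agent.S1580

theorem set275 (u v : ↥Cfsg.leechLattice) (hu : Cfsg.sqNorm (u : Cfsg.GolayPt → ℤ) = 48) :
    {x : ↥Cfsg.leechLattice | Cfsg.sqNorm (x : Cfsg.GolayPt → ℤ) = 32 ∧ Cfsg.sqNorm ((u - x) : Cfsg.GolayPt → ℤ) = 32 ∧ Cfsg.dotInt (v : Cfsg.GolayPt → ℤ) (x : Cfsg.GolayPt → ℤ) = 16} = C [u, v] [24, 16] := by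
  ext x
  simp only [C, dots, Set.mem_ofPred_eq, List.map_cons, List.map_nil, List.cons.injEq, and_true]
  rw [sqNorm_sub, hu]
  constructor
  · rintro ⟨h1, h2, h3⟩; exact ⟨h1, by omega, h3⟩
  · rintro ⟨h1, h2, h3⟩; exact ⟨h1, by omega, h3⟩

/-- The McLaughlin configuration: for u of customary norm 6 and v minimal with u − v minimal, there are 275 further such summands x of customary inner product 2 with v, permuted transitively by the stabiliser of u and v. -/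
theorem result (u v : ↥Cfsg.leechLattice) (hu : Cfsg.sqNorm (u : Cfsg.GolayPt → ℤ) = 48) (hv : Cfsg.sqNorm (v : Cfsg.GolayPt → ℤ) = 32 ∧ Cfsg.sqNorm ((u - v) : Cfsg.GolayPt → ℤ) = 32) : {x : ↥Cfsg.leechLattice | Cfsg.sqNorm (x : Cfsg.GolayPt → ℤ) = 32 ∧ Cfsg.sqNorm ((u - x) : Cfsg.GolayPt → ℤ) = 32 ∧ Cfsg.dotInt (v : Cfsg.GolayPt → ℤ) (x : Cfsg.GolayPt → ℤ) = 16}.ncard = 275 ∧ ∀ x ∈ {x : ↥Cfsg.leechLattice | Cfsg.sqNorm (x : Cfsg.GolayPt → ℤ) = 32 ∧ Cfsg.sqNorm ((u - x) : Cfsg.GolayPt → ℤ) = 32 ∧ Cfsg.dotInt (v : Cfsg.GolayPt → ℤ) (x : Cfsg.GolayPt → ℤ) = 16}, ∀ x' ∈ {x : ↥Cfsg.leechLattice | Cfsg.sqNorm (x : Cfsg.GolayPt → ℤ) = 32 ∧ Cfsg.sqNorm ((u - x) : Cfsg.GolayPt → ℤ) = 32 ∧ Cfsg.dotInt (v : Cfsg.GolayPt → ℤ) (x : Cfsg.GolayPt → ℤ) = 16}, ∃ g : ↥Cfsg.Co0, g • u = u ∧ g • v = v ∧ g • x = x' := by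
  have hv' : v ∈ C [u] [24] := by rw [← set24 u hu]; exact hv
  obtain ⟨g, hg⟩ := mvUV u v hu hv'
  rw [set275 u v hu]
  refine ⟨by rw [ncard_mv g, hg, n275], ?_⟩
  intro x hx x' hx'
  obtain ⟨k, hk, hkx⟩ := trans_mv g [u, v] [24, 16] (hg ▸ T275) x hx x' hx'
  exact ⟨k, hk u (by simp), hk v (by simp), hkx⟩

end Cfsg.Agent.S1580
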