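import Cfsg.Statements.S1581
import Cfsg.Agent.S1580

set_option autoImplicit false
open Cfsg
open Cfsg.Agent.Lib.Helper33LFrame Cfsg.Agent.Lib.Helper33LMcL Cfsg.Agent.Lib.Helper33LCo0

namespace Cfsg.Agent.S1581

/-- The McLaughlin group acts with rank 3 and subdegrees 1, 112, 162 on its 275 points: the point stabiliser has two orbits on the remaining points, distinguished by customary inner product 1 or 2 with the fixed point. -/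
theorem result (u v x : ↥Cfsg.leechLattice) (hu : Cfsg.sqNorm (u : Cfsg.GolayPt → ℤ) = 48) (hv : Cfsg.sqNorm (v : Cfsg.GolayPt → ℤ) = 32 ∧ Cfsg.sqNorm ((u - v) : Cfsg.GolayPt → ℤ) = 32) (hx : x ∈ {x : ↥Cfsg.leechLattice | Cfsg.sqNorm (x : Cfsg.GolayPt → ℤ) = 32 ∧ Cfsg.sqNorm ((u - x) : Cfsg.GolayPt → ℤ) = 32 ∧ Cfsg.dotInt (v : Cfsg.GolayPt → ℤ) (x : Cfsg.GolayPt → ℤ) = 16}) : {y : ↥Cfsg.leechLattice | y ∈ {x : ↥Cfsg.leechLattice | Cfsg.sqNorm (x : Cfsg.GolayPt → ℤ) = 32 ∧ Cfsg.sqNorm ((u - x) : Cfsg.GolayPt → ℤ) = 32 ∧ Cfsg.dotInt (v : Cfsg.GolayPt → ℤ) (x : Cfsg.GolayPt → ℤ) = 16} ∧ Cfsg.dotInt (x : Cfsg.GolayPt → ℤ) (y : Cfsg.GolayPt → ℤ) = 8}.ncard = 112 ∧ {y : ↥Cfsg.leechLattice | y ∈ {x : ↥Cfsg.leechLattice | Cfsg.sqNorm (x : Cfsg.GolayPt → ℤ) = 32 ∧ Cfsg.sqNorm ((u - x) : Cfsg.GolayPt → ℤ) = 32 ∧ Cfsg.dotInt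 (v : Cfsg.GolayPt → ℤ) (x : Cfsg.GolayPt → ℤ) = 16} ∧ y ≠ x ∧ Cfsg.dotInt (x : Cfsg.GolayPt → ℤ) (y : Cfsg.GolayPt → ℤ) = 16}.ncard = 162 ∧ ∀ y ∈ {x : ↥Cfsg.leechLattice | Cfsg.sqNorm (x : Cfsg.GolayPt → ℤ) = 32 ∧ Cfsg.sqNorm ((u - x) : Cfsg.GolayPt → ℤ) = 32 ∧ Cfsg.dotInt (v : Cfsg.GolayPt → ℤ) (x : Cfsg.GolayPt → ℤ) = 16}, ∀ y' ∈ {x : ↥Cfsg.leechLattice | Cfsg.sqNorm (x : Cfsg.GolayPt → ℤ) = 32 ∧ Cfsg.sqNorm ((u - x) : Cfsg.GolayPt → ℤ) = 32 ∧ Cfsg.dotInt (v : Cfsg.GolayPt → ℤ) (x : Cfsg.GolayPt → ℤ) = 16}, y ≠ x → y' ≠ x → Cfsg.dotInt (x : Cfsg.GolayPt → ℤ) (y : Cfsg.GolayPt → ℤ) = Cfsg.dotInt (x : Cfsg.GolayPt → ℤ) (y' : Cfsg.GolayPt → ℤ) → ∃ g : ↥Cfsg.Co0, g • u = u ∧ g • v = v ∧ g • x = x ∧ g • y = y' := by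
  have hv' : v ∈ C [u] [24] := by rw [← set24 u hu]; exact hv
  rw [S1580.set275 u v hu] at hx ⊢
  obtain ⟨g, hg⟩ := mvUVX u v x hu hv' hx
  have key : ∀ k : ℤ, {y : ↥Cfsg.leechLattice | y ∈ C [u, v] [24, 16] ∧
      Cfsg.dotInt (x : Cfsg.GolayPt → ℤ) (y : Cfsg.GolayPt → ℤ) = k} = C [u, v, x] [24, 16, k] := by
    intro k
    ext y
    exact (mem_C_append [u, v] [24, 16] x y k rfl).symm
  refine ⟨by rw [key, ncard_mv g, hg, n112], ?_, ?_⟩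
  · have : {y : ↥Cfsg.leechLattice | y ∈ C [u, v] [24, 16] ∧ y ≠ x ∧
        Cfsg.dotInt (x : Cfsg.GolayPt → ℤ) (y : Cfsg.GolayPt → ℤ) = 16} = C [u, v, x] [24, 16, 16] := by
      rw [← key]
      ext y
      simp only [Set.mem_ofPred_eq]
      constructor
      · rintro ⟨h1, _, h3⟩; exact ⟨h1, h3⟩
      · rintro ⟨h1, h3⟩
        refine ⟨h1, ?_, h3⟩
        rintro rfl
        rw [Cfsg.Agent.Lib.Helper33LPair.dot_self, hx.1] at h3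
        omega
    rw [this, ncard_mv g, hg, n162]
  · intro y hy y' hy' _ _ hd
    have h1 : y ∈ C [u, v, x] [24, 16, Cfsg.dotInt (x : Cfsg.GolayPt → ℤ) (y : Cfsg.GolayPt → ℤ)] :=
      (mem_C_append [u, v] [24, 16] x y _ rfl).2 ⟨hy, rfl⟩
    have h2 : y' ∈ C [u, v, x] [24, 16, Cfsg.dotInt (x : Cfsg.GolayPt → ℤ) (y : Cfsg.GolayPt → ℤ)] :=
      (mem_C_append [u, v] [24, 16] x y' _ rfl).2 ⟨hy', hd.symm⟩
    obtain ⟨k, hk, hky⟩ := trans_mv g [u, v, x] _ (hg ▸ TX _) y h1 y' h2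
    exact ⟨k, hk u (by simp), hk v (by simp), hk x (by simp), hky⟩

end Cfsg.Agent.S1581
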