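import Cfsg.Statements.S1584
import Cfsg.Agent.Lib.Helper33LHS2

set_option autoImplicit false
open Cfsg
open Cfsg.Agent.Lib.Helper33LFrame Cfsg.Agent.Lib.Helper33LMcL Cfsg.Agent.Lib.Helper33LCo0 Cfsg.Agent.Lib.Helper33LHS Cfsg.Agent.Lib.Helper33LHS2 Cfsg.Agent.Lib.Helper33LPair

namespace Cfsg.Agent.S1584


/-- The Higman–Sims group acts with rank 3 and subdegrees 1, 22, 77 on its 100 points, the orbits of a point stabiliser being distinguished by customary inner product 1 with the fixed point. -/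
theorem result (v w x : ↥Cfsg.leechLattice) (hv : Cfsg.sqNorm (v : Cfsg.GolayPt → ℤ) = 48) (hw : Cfsg.sqNorm (w : Cfsg.GolayPt → ℤ) = 48) (hvw : Cfsg.dotInt (v : Cfsg.GolayPt → ℤ) (w : Cfsg.GolayPt → ℤ) = -32) (hx : x ∈ {x : ↥Cfsg.leechLattice | Cfsg.sqNorm (x : Cfsg.GolayPt → ℤ) = 32 ∧ Cfsg.dotInt (v : Cfsg.GolayPt → ℤ) (x : Cfsg.GolayPt → ℤ) = 24 ∧ Cfsg.dotInt (w : Cfsg.GolayPt → ℤ) (x : Cfsg.GolayPt → ℤ) = -24}) : {y : ↥Cfsg.leechLattice | y ∈ {x : ↥Cfsg.leechLattice | Cfsg.sqNorm (x : Cfsg.GolayPt → ℤ) = 32 ∧ Cfsg.dotInt (v : Cfsg.GolayPt → ℤ) (x : Cfsg.GolayPt → ℤ) = 24 ∧ Cfsg.dotInt (w : Cfsg.GolayPt → ℤ) (x : Cfsg.GolayPt → ℤ) = -24} ∧ Cfsg.dotInt (x : Cfsg.GolayPt → ℤ) (y : Cfsg.GolayPt → ℤ) = 8}.ncard = 22 ∧ {y : ↥Cfsg.leechLattice | y ∈ {x : ↥Cfsg.leechLattice | Cfsg.sqNorm (x : Cfsg.GolayPt → ℤ) = 32 ∧ Cfsg.dotInt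 (v : Cfsg.GolayPt → ℤ) (x : Cfsg.GolayPt → ℤ) = 24 ∧ Cfsg.dotInt (w : Cfsg.GolayPt → ℤ) (x : Cfsg.GolayPt → ℤ) = -24} ∧ y ≠ x ∧ Cfsg.dotInt (x : Cfsg.GolayPt → ℤ) (y : Cfsg.GolayPt → ℤ) ≠ 8}.ncard = 77 ∧ ∀ y ∈ {x : ↥Cfsg.leechLattice | Cfsg.sqNorm (x : Cfsg.GolayPt → ℤ) = 32 ∧ Cfsg.dotInt (v : Cfsg.GolayPt → ℤ) (x : Cfsg.GolayPt → ℤ) = 24 ∧ Cfsg.dotInt (w : Cfsg.GolayPt → ℤ) (x : Cfsg.GolayPt → ℤ) = -24}, ∀ y' ∈ {x : ↥Cfsg.leechLattice | Cfsg.sqNorm (x : Cfsg.GolayPt → ℤ) = 32 ∧ Cfsg.dotInt (v : Cfsg.GolayPt → ℤ) (x : Cfsg.GolayPt → ℤ) = 24 ∧ Cfsg.dotInt (w : Cfsg.GolayPt → ℤ) (x : Cfsg.GolayPt → ℤ) = -24}, y ≠ x → y' ≠ x → (Cfsg.dotInt (x : Cfsg.GolayPt → ℤ) (y : Cfsg.GolayPt → ℤ) = 8 ↔ Cfsg.dotInt (x : Cfsg.GolayPt → ℤ) (y' : Cfsg.GolayPt → ℤ) = 8) → ∃ g : ↥Cfsg.Co0, g • v = v ∧ g • w = w ∧ g • x = x ∧ g • y = y'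 := by
  rw [set100 v w] at hx ⊢
  obtain ⟨g, hg⟩ := mvUHV v (mOf v w) x hv (mOf_mem v w hv hw hvw) hx
  have vals := vals100 g v (mOf v w) x hg
  have key : ∀ k : ℤ, {y : ↥Cfsg.leechLattice | y ∈ C [v, mOf v w] [24, 0] ∧
      Cfsg.dotInt (x : Cfsg.GolayPt → ℤ) (y : Cfsg.GolayPt → ℤ) = k} = C [v, mOf v w, x] [24, 0, k] := by
    intro k
    ext y
    exact (mem_C_append [v, mOf v w] [24, 0] x y k rfl).symm
  refine ⟨by rw [key, ncard_mv g, hg, n22], ?_, ?_⟩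
  · have : {y : ↥Cfsg.leechLattice | y ∈ C [v, mOf v w] [24, 0] ∧ y ≠ x ∧
        Cfsg.dotInt (x : Cfsg.GolayPt → ℤ) (y : Cfsg.GolayPt → ℤ) ≠ 8} = C [v, mOf v w, x] [24, 0, 16] := by
      rw [← key]
      ext y
      simp only [Set.mem_ofPred_eq]
      constructor
      · rintro ⟨h1, h2, h3⟩
        rcases vals y h1 with h | h | h
        · exact absurd h h2
        · exact absurd h h3
        · exact ⟨h1, h⟩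
      · rintro ⟨h1, h3⟩
        refine ⟨h1, ?_, by rw [h3]; norm_num⟩
        rintro rfl
        rw [dot_self, hx.1] at h3
        omega
    rw [this, ncard_mv g, hg, n77]
  · intro y hy y' hy' hyx hyx' hd
    have hd' : Cfsg.dotInt (x : Cfsg.GolayPt → ℤ) (y' : Cfsg.GolayPt → ℤ) =
        Cfsg.dotInt (x : Cfsg.GolayPt → ℤ) (y : Cfsg.GolayPt → ℤ) := by
      rcases vals y hy with h | h | h
      · exact absurd h hyx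
      · rw [h, hd.1 h]
      · rcases vals y' hy' with h' | h' | h'
        · exact absurd h' hyx'
        · have := hd.2 h'; omega
        · rw [h, h']
    have h1 : y ∈ C [v, mOf v w, x] [24, 0, Cfsg.dotInt (x : Cfsg.GolayPt → ℤ) (y : Cfsg.GolayPt → ℤ)] :=
      (mem_C_append [v, mOf v w] [24, 0] x y _ rfl).2 ⟨hy, rfl⟩
    have h2 : y' ∈ C [v, mOf v w, x] [24, 0, Cfsg.dotInt (x : Cfsg.GolayPt → ℤ) (y : Cfsg.GolayPt → ℤ)] :=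
      (mem_C_append [v, mOf v w] [24, 0] x y' _ rfl).2 ⟨hy', hd'⟩
    obtain ⟨k, hk, hky⟩ := trans_mv g [v, mOf v w, x] _ (hg ▸ TV _) y h1 y' h2
    obtain ⟨e1, e2⟩ := fix_w k v w [x] hk
    exact ⟨k, e1, e2, hk x (by simp), hky⟩

end Cfsg.Agent.S1584
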