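import Cfsg.Statements.S1585
import Cfsg.Agent.Lib.Helper33LHS2

set_option autoImplicit false
open Cfsg
open Cfsg.Agent.Lib.Helper33LFrame Cfsg.Agent.Lib.Helper33LMcL Cfsg.Agent.Lib.Helper33LCo0 Cfsg.Agent.Lib.Helper33LHS Cfsg.Agent.Lib.Helper33LHS2 Cfsg.Agent.Lib.Helper33LPair

namespace Cfsg.Agent.S1585


/-- Two vectors of customary norm 6 with inner product −4 are exchanged by some automorphism of the lattice. -/
theorem result (v w : ↥Cfsg.leechLattice) (hv : Cfsg.sqNorm (v : Cfsg.GolayPt → ℤ) = 48) (hw : Cfsg.sqNorm (w : Cfsg.GolayPt → ℤ) = 48) (hvw : Cfsg.dotInt (v : Cfsg.GolayPt → ℤ) (w : Cfsg.GolayPt → ℤ) = -32) : ∃ g : ↥Cfsg.Co0, g • v = w ∧ g • w = v := by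
  obtain ⟨g1, hg1⟩ := mvVW v w hv hw hvw
  obtain ⟨g2, hg2⟩ := mvVW w v hw hv (by rw [dot_comm]; exact hvw)
  rw [mOf_comm w v] at hg2
  simp only [mv, List.map_cons, List.map_nil, List.cons.injEq, and_true] at hg1 hg2
  have hv' : (g2⁻¹ * g1) • v = w := by rw [mul_smul, hg1.1, ← hg2.1, inv_smul_smul]
  have hm' : (g2⁻¹ * g1) • mOf v w = mOf v w := by rw [mul_smul, hg1.2, ← hg2.2, inv_smul_smul]
  refine ⟨g2⁻¹ * g1, hv', ?_⟩
  rw [smul_w _ v w, hv', hm']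
  unfold mOf
  abel

end Cfsg.Agent.S1585
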