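import Cfsg.Statements.S1587
import Mathlib

set_option autoImplicit false
open Matrix
open Cfsg

namespace Cfsg.Agent.S1587

/-- First step of the characterisation of the rank-24 lattice: in an even lattice without roots, norm-8 vectors congruent modulo 2 are equal, opposite or orthogonal. -/
theorem result (B : Matrix (Fin 24) (Fin 24) ℤ) (hsymm : B.IsSymm) (hpos : ∀ x : Fin 24 → ℤ, x ≠ 0 → 0 < x ⬝ᵥ (B *ᵥ x)) (heven : ∀ x : Fin 24 → ℤ, (2 : ℤ) ∣ x ⬝ᵥ (B *ᵥ x)) (h2 : ∀ x : Fin 24 → ℤ, x ⬝ᵥ (B *ᵥ x) ≠ 2) (x y : Fin 24 → ℤ) (hx : x ⬝ᵥ (B *ᵥ x) = 8) (hy : y ⬝ᵥ (B *ᵥ y) = 8) (hc : ∀ i, (2 : ℤ) ∣ (x - y) i) : y = x ∨ y = -x ∨ x ⬝ᵥ (B *ᵥ y) = 0 := by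
  have hcomm : ∀ a b : Fin 24 → ℤ, a ⬝ᵥ (B *ᵥ b) = b ⬝ᵥ (B *ᵥ a) := by
    intro a b
    rw [Matrix.dotProduct_mulVec, ← Matrix.mulVec_transpose, hsymm.eq, dotProduct_comm]
  choose z hz using hc
  have hxy : x - y = (2 : ℤ) • z := by
    funext i; simp [hz i]
  have hxy' : x + y = (2 : ℤ) • (z + y) := by
    have : x = y + (2 : ℤ) • z := by rw [← hxy]; abel
    rw [this]; funext i; simp; ring
  have e1 : (x - y) ⬝ᵥ (B *ᵥ (x - y)) = 16 - 2 * (x ⬝ᵥ (B *ᵥ y)) := by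
    simp only [Matrix.mulVec_sub, sub_dotProduct, dotProduct_sub]
    rw [hcomm y x, hx, hy]; ring
  have e2 : (x + y) ⬝ᵥ (B *ᵥ (x + y)) = 16 + 2 * (x ⬝ᵥ (B *ᵥ y)) := by
    simp only [Matrix.mulVec_add, add_dotProduct, dotProduct_add]
    rw [hcomm y x, hx, hy]; ring
  rw [hxy] at e1
  rw [hxy'] at e2
  simp only [Matrix.mulVec_smul, smul_dotProduct, dotProduct_smul, smul_eq_mul] at e1 e2
  by_cases hz0 : z = 0
  · left
    have : x - y = 0 := by rw [hxy, hz0]; simp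
    exact (sub_eq_zero.mp this).symm
  by_cases hz1 : z + y = 0
  · right; left
    have : x + y = 0 := by rw [hxy', hz1]; simp
    exact (neg_eq_of_add_eq_zero_right this).symm ▸ rfl
  right; right
  have p1 := hpos z hz0
  have p2 := hpos _ hz1
  obtain ⟨a, ha⟩ := heven z
  obtain ⟨b, hb⟩ := heven (z + y)
  have n1 := h2 z
  have n2 := h2 (z + y)
  omega

end Cfsg.Agent.S1587
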