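import Cfsg.Statements.S1590
import Cfsg.Agent.Lib.Helper34Ternary

set_option autoImplicit false
open Cfsg

namespace Cfsg.Agent.S1590

open Cfsg.Agent.Lib.Helper34Ternary

set_option maxRecDepth 100000 in
theorem weights : ∀ a : P6, phi a ≠ 0 → (Cfsg.ternarySupport (phi a)).card = 6 ∨ (Cfsg.ternarySupport (phi a)).card = 9 ∨ (Cfsg.ternarySupport (phi a)).card = 12 := by
  decide +kernel

set_option maxRecDepth 100000 in
theorem cnt6 : (Finset.univ.filter (fun a => (ternarySupport (phi a)).card = 6)).card = 264 := by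
  decide +kernel

set_option maxRecDepth 100000 in
theorem cnt9 : (Finset.univ.filter (fun a => (ternarySupport (phi a)).card = 9)).card = 440 := by
  decide +kernel

set_option maxRecDepth 100000 in
theorem cnt12 : (Finset.univ.filter (fun a => (ternarySupport (phi a)).card = 12)).card = 24 := by
  decide +kernel

/-- The length-12 ternary code has 729 words with weight distribution 0^1 6^264 9^440 12^24. -/
theorem result : Nat.card ↥Cfsg.ternaryGolayCode = 729 ∧ (∀ x ∈ Cfsg.ternaryGolayCode, x ≠ 0 → (Cfsg.ternarySupport x).card = 6 ∨ (Cfsg.ternarySupport x).card = 9 ∨ (Cfsg.ternarySupport x).card = 12) ∧ {x : Cfsg.ArrayPt → ZMod 3 | x ∈ Cfsg.ternaryGolayCode ∧ (Cfsg.ternarySupport x).card = 6}.ncard = 264 ∧ {x : Cfsg.ArrayPt → ZMod 3 | x ∈ Cfsg.ternaryGolayCode ∧ (Cfsg.ternarySupport x).card = 9}.ncard = 440 ∧ {x : Cfsg.ArrayPt → ZMod 3 | x ∈ Cfsg.ternaryGolayCode ∧ (Cfsg.ternarySupport x).card = 12}.ncard = 24 := by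
  refine ⟨card_code, forall_code _ weights, ?_, ?_, ?_⟩
  · rw [ncard_code]; exact cnt6
  · rw [ncard_code]; exact cnt9
  · rw [ncard_code]; exact cnt12

end Cfsg.Agent.S1590
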