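import Cfsg.Statements.S1591
import Cfsg.Agent.Lib.Helper34Ternary

set_option autoImplicit false
open Cfsg

namespace Cfsg.Agent.S1591

open Cfsg.Agent.Lib.Helper34Ternary

theorem sum_pts (f : ArrayPt → ZMod 3) : ∑ p, f p =
    f (0, 0) + f (0, 1) + f (0, 2) + (f (1, 0) + f (1, 1) + f (1, 2)) +
      (f (2, 0) + f (2, 1) + f (2, 2)) + (f (3, 0) + f (3, 1) + f (3, 2)) := by
  rw [Fintype.sum_prod_type, Fin.sum_univ_four]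
  simp only [sumZ3 (fun r => f (_, r))]

/-- Any two words of the length-12 ternary code have dot product zero. -/
theorem result (x y : Cfsg.ArrayPt → ZMod 3) (hx : x ∈ Cfsg.ternaryGolayCode) (hy : y ∈ Cfsg.ternaryGolayCode) : ∑ p, x p * y p = 0 := by
  obtain ⟨⟨a5, a7, a8, a9, a10, a11⟩, rfl⟩ := (mem_iff_phi x).1 hx
  obtain ⟨⟨b5, b7, b8, b9, b10, b11⟩, rfl⟩ := (mem_iff_phi y).1 hy
  rw [sum_pts]
  have c3 := c3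
  show (-(a5 + a8 + a9 + a10 + 2 * a11)) * (-(b5 + b8 + b9 + b10 + 2 * b11)) +
      (-(a5 + 2 * a7 + 2 * a8 + 2 * a9 + 2 * a11)) * (-(b5 + 2 * b7 + 2 * b8 + 2 * b9 + 2 * b11)) +
      (-(a5 + a7 + 2 * a9 + a10 + a11)) * (-(b5 + b7 + 2 * b9 + b10 + b11)) +
      ((-(2 * a5 + 2 * a7 + a8 + 2 * a9 + a10)) * (-(2 * b5 + 2 * b7 + b8 + 2 * b9 + b10)) +
      (-(2 * a5 + a7 + 2 * a8 + a10 + 2 * a11)) * (-(2 * b5 + b7 + 2 * b8 + b10 + 2 * b11)) + a5 * b5) +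
      ((-(a7 + a8 + 2 * a9 + 2 * a10 + 2 * a11)) * (-(b7 + b8 + 2 * b9 + 2 * b10 + 2 * b11)) + a7 * b7 + a8 * b8) +
      (a9 * b9 + a10 * b10 + a11 * b11) = 0
  linear_combination (4 * a5 * b5 + 3 * a5 * b7 + 3 * a5 * b8 + 3 * a5 * b9 + 2 * a5 * b10 + 3 * a5 * b11 + 3 * a7 * b5 + 4 * a7 * b7 + 3 * a7 * b8 + 4 * a7 * b9 + 2 * a7 * b10 + 3 * a7 * b11 + 3 * a8 * b5 + 3 * a8 * b7 + 4 * a8 * b8 + 3 * a8 * b9 + 2 * a8 * b10 + 4 * a8 * b11 + 3 * a9 * b5 + 4 * a9 * b7 + 3 * a9 * b8 + 6 * a9 * b9 + 3 * a9 * b10 + 4 * a9 * b11 + 2 * a10 * b5 + 2 * a10 * b7 + 2 * a10 * b8 + 3 * a10 * b9 + 3 * a10 * b10 + 3 * a10 * b11 + 3 * a11 * b5 + 3 * a11 * b7 + 4 * a11 * b8 + 4 * a11 * b9 + 3 * a11 * b10 + 6 * a11 * b11) * c3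

end Cfsg.Agent.S1591
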