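import Cfsg.Statements.S1592
import Cfsg.Agent.Lib.Helper34Hexads

set_option autoImplicit false
open Cfsg

namespace Cfsg.Agent.S1592

open Cfsg.Agent.Lib.Helper34Ternary Cfsg.Agent.Lib.Helper34Mask Cfsg.Agent.Lib.Helper34Hexads

set_option maxRecDepth 100000 in
theorem check : ∀ m < 2 ^ 12, (dec eA m).card = 5 →
    ∃ h ∈ hexMasks, m &&& h = m ∧ ∀ h' ∈ hexMasks, m &&& h' = m → h' = h := by
  decide +kernel

theorem steiner : Cfsg.IsSteinerSystem 5 6 hexads := by
  refine ⟨fun b hb => ?_, ?_⟩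
  · obtain ⟨x, -, -, hc⟩ := hb
    exact hc
  · apply forall_finset eA
    intro m hm hc
    obtain ⟨h, hh, hmh, huniq⟩ := check m hm hc
    refine ⟨dec eA h, ⟨dec_mem_hexads hh, dec_subset_of eA m h hmh⟩, ?_⟩
    rintro b ⟨hb, hsb⟩
    obtain ⟨h', hh', rfl⟩ := (mem_hexads_iff b).1 hb
    rw [huniq h' hh' (land_of_dec_subset eA m h' hm hsb)]

theorem ncard_hexads : hexads.ncard = 132 := by
  have : hexads = (fun m => dec eA m) '' (↑hexMasks.toFinset : Set ℕ) := by
    ext h
    rw [mem_hexads_iff]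
    simp
  rw [this, Set.ncard_image_of_injOn, Set.ncard_coe_finset, List.toFinset_card_of_nodup hexMasks_nodup]
  · rfl
  · intro m hm h hh hd
    simp only [List.coe_toFinset] at hm hh
    exact dec_injOn eA m h (hexMasks_lt m hm) (hexMasks_lt h hh) hd

/-- The supports of the weight-6 words of the length-12 ternary code form a Steiner system S(5, 6, 12) with 132 blocks. -/
theorem result : Cfsg.IsSteinerSystem 5 6 {h : Finset Cfsg.ArrayPt | ∃ x ∈ Cfsg.ternaryGolayCode, Cfsg.ternarySupport x = h ∧ h.card = 6} ∧ {h : Finset Cfsg.ArrayPt | ∃ x ∈ Cfsg.ternaryGolayCode, Cfsg.ternarySupport x = h ∧ h.card = 6}.ncard = 132 :=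
  ⟨steiner, ncard_hexads⟩

end Cfsg.Agent.S1592
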