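import Cfsg.Statements.S1594
import Cfsg.Agent.Lib.Helper34Mono

set_option autoImplicit false
open Cfsg

namespace Cfsg.Agent.S1594

open Cfsg.Agent.Lib.Helper34Ternary Cfsg.Agent.Lib.Helper34Mask Cfsg.Agent.Lib.Helper34Hexads
open Cfsg.Agent.Lib.Helper34Mono
open scoped Pointwise

theorem B_eq_T : [B0, B1, B2, B3, B4, B5] = [T0, T1, T2, T3, T4, T5] := by decide +kernel

def bs : Fin 5 → ArrayPt := ![(0, 0), (0, 1), (0, 2), (1, 0), (1, 1)]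

def tab : Fin 5 → List (List (Fin 12) × List (Fin 12) × ℕ) := ![
  [([0, 1, 2, 3, 4, 5, 6, 7, 8, 9, 10, 11], [0, 1, 2, 3, 4, 5, 6, 7, 8, 9, 10, 11], 0),
   ([1, 0, 2, 3, 4, 5, 11, 9, 10, 7, 8, 6], [1, 0, 2, 3, 4, 5, 11, 9, 10, 7, 8, 6], 0),
   ([2, 0, 1, 3, 4, 5, 8, 6, 7, 10, 11, 9], [1, 2, 0, 3, 4, 5, 7, 8, 6, 11, 9, 10], 0),
   ([3, 0, 1, 2, 4, 5, 10, 7, 6, 8, 9, 11], [1, 2, 3, 0, 4, 5, 8, 7, 9, 10, 6, 11], 1331),
   ([4, 0, 1, 2, 3, 5, 6, 9, 10, 11, 7, 8], [1, 2, 3, 4, 0, 5, 6, 10, 11, 7, 8, 9], 1940),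
   ([5, 0, 1, 2, 3, 4, 9, 6, 8, 7, 11, 10], [1, 2, 3, 4, 5, 0, 7, 9, 8, 6, 11, 10], 667),
   ([6, 0, 1, 2, 3, 9, 5, 4, 7, 10, 8, 11], [1, 2, 3, 4, 7, 6, 0, 8, 10, 5, 9, 11], 1581),
   ([7, 0, 1, 2, 3, 11, 10, 8, 9, 4, 5, 6], [1, 2, 3, 4, 9, 10, 11, 0, 7, 8, 6, 5], 993),
   ([8, 0, 1, 2, 3, 10, 7, 11, 4, 6, 9, 5], [1, 2, 3, 4, 8, 11, 9, 6, 0, 10, 5, 7], 1224),
   ([9, 0, 1, 2, 3, 6, 4, 5, 11, 8, 10, 7], [1, 2, 3, 4, 6, 7, 5, 11, 9, 0, 10, 8], 349),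
   ([10, 0, 1, 2, 3, 8, 11, 7, 5, 9, 6, 4], [1, 2, 3, 4, 11, 8, 10, 7, 5, 9, 0, 6], 1271),
   ([11, 0, 1, 2, 3, 7, 8, 10, 6, 5, 4, 9], [1, 2, 3, 4, 10, 9, 8, 5, 6, 11, 7, 0], 430)],
  [([0, 1, 2, 3, 4, 5, 6, 7, 8, 9, 10, 11], [0, 1, 2, 3, 4, 5, 6, 7, 8, 9, 10, 11], 0),
   ([0, 2, 1, 3, 4, 5, 9, 10, 11, 6, 7, 8], [0, 2, 1, 3, 4, 5, 9, 10, 11, 6, 7, 8], 0),
   ([0, 3, 1, 2, 4, 5, 11, 8, 9, 7, 6, 10], [0, 2, 3, 1, 4, 5, 10, 9, 7, 8, 11, 6], 1331),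
   ([0, 4, 1, 2, 3, 5, 8, 11, 7, 9, 10, 6], [0, 2, 3, 4, 1, 5, 11, 8, 6, 9, 10, 7], 1940),
   ([0, 5, 1, 2, 3, 4, 10, 7, 11, 6, 8, 9], [0, 2, 3, 4, 5, 1, 9, 7, 10, 11, 6, 8], 667),
   ([0, 6, 1, 2, 3, 9, 11, 10, 8, 4, 7, 5], [0, 2, 3, 4, 9, 11, 1, 10, 8, 5, 7, 6], 1581),
   ([0, 7, 1, 2, 3, 11, 6, 4, 5, 8, 9, 10], [0, 2, 3, 4, 7, 8, 6, 1, 9, 10, 11, 5], 993),
   ([0, 8, 1, 2, 3, 10, 5, 6, 9, 11, 4, 7], [0, 2, 3, 4, 10, 6, 7, 11, 1, 8, 5, 9], 1224),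
   ([0, 9, 1, 2, 3, 6, 7, 8, 10, 5, 11, 4], [0, 2, 3, 4, 11, 9, 5, 6, 7, 1, 8, 10], 349),
   ([0, 10, 1, 2, 3, 8, 4, 9, 6, 7, 5, 11], [0, 2, 3, 4, 6, 10, 8, 9, 5, 7, 1, 11], 1271),
   ([0, 11, 1, 2, 3, 7, 9, 5, 4, 10, 6, 8], [0, 2, 3, 4, 8, 7, 10, 5, 11, 6, 9, 1], 430)],
  [([0, 1, 2, 3, 4, 5, 6, 7, 8, 9, 10, 11], [0, 1, 2, 3, 4, 5, 6, 7, 8, 9, 10, 11], 0),
   ([0, 1, 3, 2, 4, 5, 7, 6, 10, 11, 8, 9], [0, 1, 3, 2, 4, 5, 7, 6, 10, 11, 8, 9], 1331),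
   ([0, 1, 4, 2, 3, 5, 9, 10, 6, 8, 11, 7], [0, 1, 3, 4, 2, 5, 8, 11, 9, 6, 7, 10], 1940),
   ([0, 1, 5, 2, 3, 4, 6, 8, 9, 10, 7, 11], [0, 1, 3, 4, 5, 2, 6, 10, 7, 8, 9, 11], 667),
   ([0, 1, 6, 2, 3, 9, 4, 7, 5, 11, 10, 8], [0, 1, 3, 4, 6, 8, 2, 7, 11, 5, 10, 9], 1581),
   ([0, 1, 7, 2, 3, 11, 8, 9, 10, 6, 4, 5], [0, 1, 3, 4, 10, 11, 9, 2, 6, 7, 8, 5], 993),
   ([0, 1, 8, 2, 3, 10, 11, 4, 7, 5, 6, 9], [0, 1, 3, 4, 7, 9, 10, 8, 2, 11, 5, 6], 1224),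
   ([0, 1, 9, 2, 3, 6, 5, 11, 4, 7, 8, 10], [0, 1, 3, 4, 8, 6, 5, 9, 10, 2, 11, 7], 349),
   ([0, 1, 10, 2, 3, 8, 7, 5, 11, 4, 9, 6], [0, 1, 3, 4, 9, 7, 11, 6, 5, 10, 2, 8], 1271),
   ([0, 1, 11, 2, 3, 7, 10, 6, 8, 9, 5, 4], [0, 1, 3, 4, 11, 10, 7, 5, 8, 9, 6, 2], 430)],
  [([0, 1, 2, 3, 4, 5, 6, 7, 8, 9, 10, 11], [0, 1, 2, 3, 4, 5, 6, 7, 8, 9, 10, 11], 0),
   ([0, 1, 2, 4, 3, 5, 10, 9, 11, 7, 6, 8], [0, 1, 2, 4, 3, 5, 10, 9, 11, 7, 6, 8], 0),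
   ([0, 1, 2, 5, 3, 4, 8, 6, 7, 11, 9, 10], [0, 1, 2, 4, 5, 3, 7, 8, 6, 10, 11, 9], 0),
   ([0, 1, 2, 6, 3, 9, 7, 4, 10, 8, 5, 11], [0, 1, 2, 4, 7, 10, 3, 6, 9, 5, 8, 11], 6),
   ([0, 1, 2, 7, 3, 11, 9, 8, 4, 5, 10, 6], [0, 1, 2, 4, 8, 9, 11, 3, 7, 6, 10, 5], 5),
   ([0, 1, 2, 8, 3, 10, 4, 11, 6, 9, 7, 5], [0, 1, 2, 4, 6, 11, 8, 10, 3, 9, 5, 7], 3),
   ([0, 1, 2, 9, 3, 6, 11, 5, 8, 10, 4, 7], [0, 1, 2, 4, 10, 7, 5, 11, 8, 3, 9, 6], 6),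
   ([0, 1, 2, 10, 3, 8, 5, 7, 9, 6, 11, 4], [0, 1, 2, 4, 11, 6, 9, 7, 5, 8, 3, 10], 3),
   ([0, 1, 2, 11, 3, 7, 6, 10, 5, 4, 8, 9], [0, 1, 2, 4, 9, 8, 6, 5, 10, 11, 7, 3], 5)],
  [([0, 1, 2, 3, 4, 5, 6, 7, 8, 9, 10, 11], [0, 1, 2, 3, 4, 5, 6, 7, 8, 9, 10, 11], 0),
   ([0, 1, 2, 3, 5, 4, 9, 11, 10, 6, 8, 7], [0, 1, 2, 3, 5, 4, 9, 11, 10, 6, 8, 7], 0),
   ([0, 1, 2, 3, 6, 9, 5, 8, 11, 4, 7, 10], [0, 1, 2, 3, 9, 6, 4, 10, 7, 5, 11, 8], 6),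
   ([0, 1, 2, 3, 7, 11, 10, 5, 6, 8, 9, 4], [0, 1, 2, 3, 11, 7, 8, 4, 9, 10, 6, 5], 5),
   ([0, 1, 2, 3, 8, 10, 7, 9, 5, 11, 4, 6], [0, 1, 2, 3, 10, 8, 11, 6, 4, 7, 5, 9], 3),
   ([0, 1, 2, 3, 9, 6, 4, 10, 7, 5, 11, 8], [0, 1, 2, 3, 6, 9, 5, 8, 11, 4, 7, 10], 6),
   ([0, 1, 2, 3, 10, 8, 11, 6, 4, 7, 5, 9], [0, 1, 2, 3, 8, 10, 7, 9, 5, 11, 4, 6], 3),
   ([0, 1, 2, 3, 11, 7, 8, 4, 9, 10, 6, 5], [0, 1, 2, 3, 7, 11, 10, 5, 6, 8, 9, 4], 5)]]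

def Good (k : Fin 5) (q : ArrayPt) (t : List (Fin 12) × List (Fin 12) × ℕ) : Prop :=
  fOf t.1 (bs k) = q ∧ (∀ i : Fin 5, i < k → fOf t.1 (bs i) = bs i) ∧ OkInv t.1 t.2.1 ∧
      Chk (fun i => sv t.2.2 i * T0 (fOf t.2.1 i)) ∧ Chk (fun i => sv t.2.2 i * T1 (fOf t.2.1 i)) ∧
      Chk (fun i => sv t.2.2 i * T2 (fOf t.2.1 i)) ∧ Chk (fun i => sv t.2.2 i * T3 (fOf t.2.1 i)) ∧
      Chk (fun i => sv t.2.2 i * T4 (fOf t.2.1 i)) ∧ Chk (fun i => sv t.2.2 i * T5 (fOf t.2.1 i))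

instance (k : Fin 5) (q : ArrayPt) (t : List (Fin 12) × List (Fin 12) × ℕ) : Decidable (Good k q t) := by
  unfold Good; infer_instance

set_option maxRecDepth 100000 in
theorem level : ∀ k : Fin 5, ∀ q : ArrayPt, (∀ i : Fin 5, i < k → q ≠ bs i) →
    ∃ t ∈ tab k, Good k q t := by
  decide +kernel

theorem level' (k : Fin 5) (q : ArrayPt) (hq : ∀ i : Fin 5, i < k → q ≠ bs i) :
    ∃ σ c, Pres σ c ∧ σ (bs k) = q ∧ ∀ i : Fin 5, i < k → σ (bs i) = bs i := by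
  obtain ⟨t, -, h1, h2, h3, h4⟩ := level k q hq
  refine ⟨permOf t.1 t.2.1 h3, sgnOf t.2.2, pres_of_basis _ _ ?_, h1, h2⟩
  rw [B_eq_T]
  intro b hb
  have : monomialMap (permOf t.1 t.2.1 h3) (sgnOf t.2.2) b = fun i => sv t.2.2 i * b (fOf t.2.1 i) := by
    funext i
    show ((sgnOf t.2.2 i : (ZMod 3)ˣ) : ZMod 3) * b (fOf t.2.1 i) = _
    rw [sgnOf_val]
  rw [this]
  obtain ⟨g0, g1, g2, g3, g4, g5⟩ := h4
  simp only [List.mem_cons, List.not_mem_nil, or_false] at hb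
  rcases hb with rfl | rfl | rfl | rfl | rfl | rfl
  exacts [g0, g1, g2, g3, g4, g5]

theorem trans5 (f : Fin 5 → ArrayPt) (hf : Function.Injective f) :
    ∃ σ c, Pres σ c ∧ ∀ i, σ (bs i) = f i := by
  have key : ∀ k : ℕ, k ≤ 5 → ∃ σ c, Pres σ c ∧ ∀ i : Fin 5, i.val < k → σ (bs i) = f i := by
    intro k
    induction k with
    | zero => exact fun _ => ⟨1, 1, pres_one, fun i hi => absurd hi (Nat.not_lt_zero _)⟩
    | succ k ih =>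
      intro hk
      obtain ⟨σ, c, hσ, hfix⟩ := ih (by omega)
      have hk5 : k < 5 := by omega
      obtain ⟨τ, d, h3, h1, h2⟩ := level' ⟨k, hk5⟩ (σ.symm (f ⟨k, hk5⟩)) (by
        intro i hi heq
        have h4 := hfix i hi
        rw [← heq, Equiv.apply_symm_apply] at h4
        have := hf h4
        rw [← this] at hi
        exact lt_irrefl _ hi)
      refine ⟨σ * τ, _, pres_mul hσ h3, ?_⟩
      intro i hi
      rw [Equiv.Perm.mul_apply]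
      by_cases hik : i.val < k
      · rw [h2 i hik, hfix i hik]
      · have : i = ⟨k, hk5⟩ := Fin.ext (by simp; omega)
        rw [this, h1, Equiv.apply_symm_apply]
  obtain ⟨σ, c, hσ, h⟩ := key 5 le_rfl
  exact ⟨σ, c, hσ, fun i => h i i.2⟩


theorem mem_hexads_iff_enc (h : Finset ArrayPt) : h ∈ hexads ↔ enc eA h ∈ hexMasks := by
  rw [mem_hexads_iff]
  constructor
  · rintro ⟨m, hm, rfl⟩
    rwa [enc_dec eA m (hexMasks_lt m hm)]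
  · intro hm
    exact ⟨_, hm, dec_enc eA h⟩

theorem img6 {σ : Equiv.Perm ArrayPt} (hσ : σ ∈ setSystemAut hexads) (la lb : List ArrayPt) (a6 b6 : ArrayPt)
    (hchk : enc eA (insert a6 la.toFinset) ∈ hexMasks ∧ a6 ∉ la ∧ lb.toFinset.card = 5 ∧
      enc eA (insert b6 lb.toFinset) ∈ hexMasks)
    (hmap : la.map σ = lb) : σ a6 = b6 := by
  obtain ⟨c1, c2, c3, c4⟩ := hchk
  have h1 : insert a6 la.toFinset ∈ hexads := (mem_hexads_iff_enc _).2 c1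
  have h4 : insert b6 lb.toFinset ∈ hexads := (mem_hexads_iff_enc _).2 c4
  have h2 : σ • insert a6 la.toFinset ∈ hexads :=
    (MulAction.mem_stabilizer_set' (Set.toFinite _)).1 hσ h1
  have h3 : σ • insert a6 la.toFinset = insert (σ a6) lb.toFinset := by
    rw [Finset.smul_finset_insert, ← hmap]
    congr 1
    ext i
    simp [Finset.mem_smul_finset]
  rw [h3] at h2
  obtain ⟨b, -, huniq⟩ := Cfsg.Agent.S1592.steiner.2 lb.toFinset c3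
  have e1 := huniq _ ⟨h2, Finset.subset_insert _ _⟩
  have e2 := huniq _ ⟨h4, Finset.subset_insert _ _⟩
  have h5 : σ a6 ∈ insert b6 lb.toFinset := by
    rw [e2, ← e1]; exact Finset.mem_insert_self _ _
  rcases Finset.mem_insert.1 h5 with h6 | h6
  · exact h6
  · exfalso
    rw [← hmap] at h6
    simp only [List.mem_toFinset, List.mem_map, EmbeddingLike.apply_eq_iff_eq, exists_eq_right] at h6
    exact c2 h6

theorem sharp {σ : Equiv.Perm ArrayPt} (hσ : σ ∈ setSystemAut hexads) (hfix : ∀ i, σ (bs i) = bs i) : σ = 1 := by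
  have e0 : σ (0, 0) = (0, 0) := hfix 0
  have e1 : σ (0, 1) = (0, 1) := hfix 1
  have e2 : σ (0, 2) = (0, 2) := hfix 2
  have e3 : σ (1, 0) = (1, 0) := hfix 3
  have e4 : σ (1, 1) = (1, 1) := hfix 4
  have e5 : σ (1, 2) = (1, 2) := img6 hσ [(0, 0), (0, 1), (0, 2), (1, 0), (1, 1)] [(0, 0), (0, 1), (0, 2), (1, 0), (1, 1)] (1, 2) (1, 2) (by decide +kernel) (by simp only [List.map, e0, e1, e2, e3, e4])
  obtain ⟨w, hw⟩ : ∃ w, σ (2, 0) = w := ⟨_, rfl⟩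
  revert w
  apply forall_pt
  refine ⟨?_, ?_, ?_, ?_, ?_, ?_, ?_, ?_, ?_, ?_, ?_, ?_⟩ <;> intro e6
  · exact absurd (σ.injective (e6.trans e0.symm)) (by decide)
  · exact absurd (σ.injective (e6.trans e1.symm)) (by decide)
  · exact absurd (σ.injective (e6.trans e2.symm)) (by decide)
  · exact absurd (σ.injective (e6.trans e3.symm)) (by decide)
  · exact absurd (σ.injective (e6.trans e4.symm)) (by decide)
  · exact absurd (σ.injective (e6.trans e5.symm)) (by decide)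
  · have e7 : σ (2, 1) = (2, 1) := img6 hσ [(0, 1), (0, 2), (1, 0), (1, 1), (2, 0)] [(0, 1), (0, 2), (1, 0), (1, 1), (2, 0)] (2, 1) (2, 1) (by decide +kernel) (by simp only [List.map, e1, e2, e3, e4, e6])
    have e8 : σ (2, 2) = (2, 2) := img6 hσ [(0, 0), (0, 1), (1, 0), (1, 1), (2, 0)] [(0, 0), (0, 1), (1, 0), (1, 1), (2, 0)] (2, 2) (2, 2) (by decide +kernel) (by simp only [List.map, e0, e1, e3, e4, e6])
    have e9 : σ (3, 0) = (3, 0) := img6 hσ [(0, 0), (0, 1), (0, 2), (1, 0), (2, 0)] [(0, 0), (0, 1), (0, 2), (1, 0), (2, 0)] (3, 0) (3, 0) (by decide +kernel) (by simp only [List.map, e0, e1, e2, e3, e6])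
    have e10 : σ (3, 1) = (3, 1) := img6 hσ [(0, 0), (0, 2), (1, 0), (1, 1), (2, 0)] [(0, 0), (0, 2), (1, 0), (1, 1), (2, 0)] (3, 1) (3, 1) (by decide +kernel) (by simp only [List.map, e0, e2, e3, e4, e6])
    have e11 : σ (3, 2) = (3, 2) := img6 hσ [(0, 0), (0, 1), (0, 2), (1, 1), (2, 0)] [(0, 0), (0, 1), (0, 2), (1, 1), (2, 0)] (3, 2) (3, 2) (by decide +kernel) (by simp only [List.map, e0, e1, e2, e4, e6])
    apply Equiv.ext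
    apply forall_pt
    exact ⟨e0, e1, e2, e3, e4, e5, e6, e7, e8, e9, e10, e11⟩
  · have e7 : σ (2, 1) = (2, 0) := img6 hσ [(0, 1), (0, 2), (1, 0), (1, 1), (2, 0)] [(0, 1), (0, 2), (1, 0), (1, 1), (2, 1)] (2, 1) (2, 0) (by decide +kernel) (by simp only [List.map, e1, e2, e3, e4, e6])
    have e8 : σ (2, 2) = (3, 0) := img6 hσ [(0, 0), (0, 1), (1, 0), (1, 1), (2, 0)] [(0, 0), (0, 1), (1, 0), (1, 1), (2, 1)] (2, 2) (3, 0) (by decide +kernel) (by simp only [List.map, e0, e1, e3, e4, e6])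
    have e1' : σ (0, 1) = (1, 1) := img6 hσ [(0, 2), (1, 0), (1, 2), (2, 0), (2, 2)] [(0, 2), (1, 0), (1, 2), (2, 1), (3, 0)] (0, 1) (1, 1) (by decide +kernel) (by simp only [List.map, e2, e3, e5, e6, e8])
    exact absurd (e1.symm.trans e1') (by decide)
  · have e7 : σ (2, 1) = (3, 2) := img6 hσ [(0, 1), (0, 2), (1, 0), (1, 1), (2, 0)] [(0, 1), (0, 2), (1, 0), (1, 1), (2, 2)] (2, 1) (3, 2) (by decide +kernel) (by simp only [List.map, e1, e2, e3, e4, e6])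
    have e0' : σ (0, 0) = (2, 1) := img6 hσ [(0, 2), (1, 0), (1, 2), (2, 0), (2, 1)] [(0, 2), (1, 0), (1, 2), (2, 2), (3, 2)] (0, 0) (2, 1) (by decide +kernel) (by simp only [List.map, e2, e3, e5, e6, e7])
    exact absurd (e0.symm.trans e0') (by decide)
  · have e7 : σ (2, 1) = (3, 1) := img6 hσ [(0, 1), (0, 2), (1, 0), (1, 1), (2, 0)] [(0, 1), (0, 2), (1, 0), (1, 1), (3, 0)] (2, 1) (3, 1) (by decide +kernel) (by simp only [List.map, e1, e2, e3, e4, e6])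
    have e0' : σ (0, 0) = (2, 0) := img6 hσ [(0, 2), (1, 0), (1, 2), (2, 0), (2, 1)] [(0, 2), (1, 0), (1, 2), (3, 0), (3, 1)] (0, 0) (2, 0) (by decide +kernel) (by simp only [List.map, e2, e3, e5, e6, e7])
    exact absurd (e0.symm.trans e0') (by decide)
  · have e7 : σ (2, 1) = (3, 0) := img6 hσ [(0, 1), (0, 2), (1, 0), (1, 1), (2, 0)] [(0, 1), (0, 2), (1, 0), (1, 1), (3, 1)] (2, 1) (3, 0) (by decide +kernel) (by simp only [List.map, e1, e2, e3, e4, e6])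
    have e0' : σ (0, 0) = (2, 0) := img6 hσ [(0, 2), (1, 0), (1, 2), (2, 0), (2, 1)] [(0, 2), (1, 0), (1, 2), (3, 1), (3, 0)] (0, 0) (2, 0) (by decide +kernel) (by simp only [List.map, e2, e3, e5, e6, e7])
    exact absurd (e0.symm.trans e0') (by decide)
  · have e7 : σ (2, 1) = (2, 2) := img6 hσ [(0, 1), (0, 2), (1, 0), (1, 1), (2, 0)] [(0, 1), (0, 2), (1, 0), (1, 1), (3, 2)] (2, 1) (2, 2) (by decide +kernel) (by simp only [List.map, e1, e2, e3, e4, e6])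
    have e0' : σ (0, 0) = (2, 1) := img6 hσ [(0, 2), (1, 0), (1, 2), (2, 0), (2, 1)] [(0, 2), (1, 0), (1, 2), (3, 2), (2, 2)] (0, 0) (2, 1) (by decide +kernel) (by simp only [List.map, e2, e3, e5, e6, e7])
    exact absurd (e0.symm.trans e0') (by decide)


theorem bs_inj : Function.Injective bs := by decide

theorem eq_of_base {σ τ : Equiv.Perm ArrayPt} (hσ : σ ∈ setSystemAut hexads) (hτ : τ ∈ setSystemAut hexads)
    (h : ∀ i, σ (bs i) = τ (bs i)) : σ = τ := by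
  have h1 : τ⁻¹ * σ = 1 := sharp (mul_mem (inv_mem hτ) hσ) (fun i => by
    rw [Equiv.Perm.mul_apply, h i]
    simp)
  rw [inv_mul_eq_one] at h1
  exact h1.symm

theorem aut_eq : {σ : Equiv.Perm ArrayPt | ∃ c, Pres σ c} = (setSystemAut hexads : Set (Equiv.Perm ArrayPt)) := by
  ext σ
  constructor
  · rintro ⟨c, hc⟩
    exact pres_aut hc
  · intro hσ
    obtain ⟨τ, d, hτ, hτb⟩ := trans5 (fun i => σ (bs i)) (σ.injective.comp bs_inj)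
    have : σ = τ := eq_of_base hσ (pres_aut hτ) (fun i => (hτb i).symm)
    exact ⟨d, this ▸ hτ⟩

theorem mono_inj (σ : Equiv.Perm ArrayPt) (c : ArrayPt → (ZMod 3)ˣ) : Function.Injective (monomialMap σ c) := by
  intro x y h
  funext i
  have := congrFun h (σ i)
  simp only [monomialMap, Equiv.symm_apply_apply] at this
  exact (Units.mul_right_inj _).1 this

theorem mono_surj {σ : Equiv.Perm ArrayPt} {c : ArrayPt → (ZMod 3)ˣ} (h : Pres σ c) (x : W)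
    (hx : x ∈ ternaryGolayCode) : ∃ y ∈ ternaryGolayCode, monomialMap σ c y = x := by
  let M : ternaryGolayCode → ternaryGolayCode := fun y => ⟨monomialMap σ c y.1, h y.1 y.2⟩
  have hM : Function.Injective M := by
    intro a b hab
    exact Subtype.ext (mono_inj σ c (congrArg Subtype.val hab))
  obtain ⟨y, hy⟩ := (Finite.injective_iff_surjective.1 hM) ⟨x, hx⟩
  exact ⟨y.1, y.2, congrArg Subtype.val hy⟩

theorem signs_eq {σ : Equiv.Perm ArrayPt} {c d : ArrayPt → (ZMod 3)ˣ} (hc : Pres σ c) (hd : Pres σ d)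
    (h0 : c (0, 0) = d (0, 0)) : c = d := by
  have hp : ∀ x ∈ ternaryGolayCode, monomialMap 1 (fun i => d i * (c i)⁻¹) x ∈ ternaryGolayCode := by
    intro x hx
    obtain ⟨y, hy, rfl⟩ := mono_surj hc x hx
    have : monomialMap 1 (fun i => d i * (c i)⁻¹) (monomialMap σ c y) = monomialMap σ d y := by
      funext i
      show ((d i * (c i)⁻¹ : (ZMod 3)ˣ) : ZMod 3) * ((c i : ZMod 3) * y (σ.symm i)) = (d i : ZMod 3) * y (σ.symm i)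
      rw [← mul_assoc, ← Units.val_mul, inv_mul_cancel_right]
    rw [this]
    exact hd y hy
  rcases Cfsg.Agent.S1593.result _ hp with h | h
  · funext p
    have := h p
    rw [mul_inv_eq_one] at this
    exact this.symm
  · exfalso
    have := h (0, 0)
    rw [h0, mul_inv_cancel] at this
    revert this
    decide

def Phi (f : {f : Equiv.Perm Cfsg.ArrayPt × (Cfsg.ArrayPt → (ZMod 3)ˣ) // Pres f.1 f.2}) :
    (Fin 5 ↪ ArrayPt) × (ZMod 3)ˣ :=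
  (⟨fun i => f.1.1 (bs i), f.1.1.injective.comp bs_inj⟩, f.1.2 (0, 0))

theorem Phi_bij : Function.Bijective Phi := by
  constructor
  · rintro ⟨⟨σ, c⟩, hf⟩ ⟨⟨τ, d⟩, hg⟩ h
    simp only [Phi, Prod.mk.injEq] at h
    obtain ⟨h1, h2⟩ := h
    have hστ : σ = τ := eq_of_base (pres_aut hf) (pres_aut hg) (fun i => by
      have := congrArg (fun e : Fin 5 ↪ ArrayPt => e i) h1
      exact this)
    subst hστ
    have := signs_eq hf hg h2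
    subst this
    rfl
  · rintro ⟨f, ε⟩
    obtain ⟨σ, c, hσ, hb⟩ := trans5 f f.injective
    by_cases hε : c (0, 0) = ε
    · refine ⟨⟨(σ, c), hσ⟩, ?_⟩
      simp only [Phi, Prod.mk.injEq]
      exact ⟨Function.Embedding.ext hb, hε⟩
    · refine ⟨⟨(σ, fun i => - c i), pres_neg hσ⟩, ?_⟩
      simp only [Phi, Prod.mk.injEq]
      refine ⟨Function.Embedding.ext hb, ?_⟩
      rcases Cfsg.Agent.S1593.unit_cases (c (0, 0)) with h1 | h1 <;>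
        rcases Cfsg.Agent.S1593.unit_cases ε with h2 | h2
      · exact absurd (h1.trans h2.symm) hε
      · rw [h1, h2]
      · rw [h1, h2, neg_neg]
      · exact absurd (h1.trans h2.symm) hε

theorem card_target : Nat.card ((Fin 5 ↪ ArrayPt) × (ZMod 3)ˣ) = 190080 := by
  rw [Nat.card_prod, Nat.card_eq_fintype_card, Nat.card_eq_fintype_card, Fintype.card_embedding_eq]
  have h1 : Fintype.card ArrayPt = 12 := by simp [ZMod.card]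
  have h2 : Fintype.card (ZMod 3)ˣ = 2 := by decide
  rw [h1, h2, Fintype.card_fin]
  decide

/-- The monomial automorphism group of the length-12 ternary code has order 190080 and its permutation parts are exactly the automorphisms of its hexad system. -/
theorem result : Nat.card {f : Equiv.Perm Cfsg.ArrayPt × (Cfsg.ArrayPt → (ZMod 3)ˣ) // (∀ x ∈ Cfsg.ternaryGolayCode, Cfsg.monomialMap f.1 f.2 x ∈ Cfsg.ternaryGolayCode)} = 190080 ∧ {σ : Equiv.Perm Cfsg.ArrayPt | ∃ c : Cfsg.ArrayPt → (ZMod 3)ˣ, (∀ x ∈ Cfsg.ternaryGolayCode, Cfsg.monomialMap σ c x ∈ Cfsg.ternaryGolayCode)} = (Cfsg.setSystemAut {h : Finset Cfsg.ArrayPt | ∃ x ∈ Cfsg.ternaryGolayCode, Cfsg.ternarySupport x = h ∧ h.card = 6} : Set (Equiv.Perm Cfsg.ArrayPt)) :=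
  ⟨(Nat.card_eq_of_bijective Phi Phi_bij).trans card_target, aut_eq⟩

end Cfsg.Agent.S1594
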