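import Cfsg.Statements.S1595
import Cfsg.Agent.Lib.Helper10S12

set_option autoImplicit false
open Cfsg

namespace Cfsg.Agent.S1595

/-- Leech triangle of S(5, 6, 12): blocks meet in 0, 2, 3 or 4 points, and a block is met exactly in a given 2-, 3- or 4-subset by 3, 2, 3 blocks respectively. -/
theorem result {α : Type*} [Fintype α] [DecidableEq α] (hα : Fintype.card α = 12) {B : Set (Finset α)} (hB : Cfsg.IsSteinerSystem 5 6 B) (b : Finset α) (hb : b ∈ B) : (∀ c ∈ B, c ≠ b → (b ∩ c).card = 0 ∨ (b ∩ c).card = 2 ∨ (b ∩ c).card = 3 ∨ (b ∩ c).card = 4) ∧ ∀ s ⊆ b, (s.card = 2 → {c : Finset α | c ∈ B ∧ b ∩ c = s}.ncard = 3) ∧ (s.card = 3 → {c : Finset α | c ∈ B ∧ b ∩ c = s}.ncard = 2) ∧ (s.card = 4 → {c : Finset α | c ∈ B ∧ b ∩ c = s}.ncard = 3) := by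
  have hl := Lib.Helper10S12.hlam12 hα hB hb
  refine ⟨fun c hc hcb => ?_, fun s hs => ⟨fun h => ?_, fun h => ?_, fun h => ?_⟩⟩
  · have hlt := Lib.Helper8Steiner.inter_card_lt (hB.1 b hb) (hB.1 c hc) hcb.symm
    have h1 := Lib.Helper8Steiner.inter_card_ne Lib.Helper10S12.lam12 hl hc (j := 1)
      (by rw [hB.1 b hb]; decide)
    have h5 := Lib.Helper8Steiner.inter_card_ne Lib.Helper10S12.lam12 hl hc (j := 5)
      (by rw [hB.1 b hb]; decide)
    omega
  · have h1 := Lib.Helper10S12.ncard_inter_eq hα hB hb hs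
    rw [h] at h1
    have h2 : Lib.Helper8Steiner.tri Lib.Helper10S12.lam12 2 (6 - 2) = 3 := by decide
    rw [h2] at h1
    exact_mod_cast h1
  · have h1 := Lib.Helper10S12.ncard_inter_eq hα hB hb hs
    rw [h] at h1
    have h2 : Lib.Helper8Steiner.tri Lib.Helper10S12.lam12 3 (6 - 3) = 2 := by decide
    rw [h2] at h1
    exact_mod_cast h1
  · have h1 := Lib.Helper10S12.ncard_inter_eq hα hB hb hs
    rw [h] at h1
    have h2 : Lib.Helper8Steiner.tri Lib.Helper10S12.lam12 4 (6 - 4) = 3 := by decide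
    rw [h2] at h1
    exact_mod_cast h1

end Cfsg.Agent.S1595
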