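import Cfsg.Statements.S1596
import Cfsg.Agent.Lib.Helper34Quart

set_option autoImplicit false
open scoped Pointwise
open Cfsg

namespace Cfsg.Agent.S1596

open MulAction Cfsg.Agent.Lib.Helper33Golay Cfsg.Agent.Lib.Helper33Trans
open Cfsg.Agent.Lib.Helper10Orb Cfsg.Agent.Lib.Helper10Fam
open Cfsg.Agent.Lib.Helper34M12 Cfsg.Agent.Lib.Helper34Quart

/-- evaluate the list before passing it on -/
def force : List ℕ → (List ℕ → Bool) → Bool
  | [], k => k []
  | x :: xs, k => force xs (fun ys => k (x :: ys))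

theorem force_eq (l : List ℕ) (k : List ℕ → Bool) : force l k = k l := by
  induction l generalizing k with
  | nil => rfl
  | cons x xs ih => exact ih _

def memQ (a c : ℕ) : Bool := (quartList c).any (Nat.beq a)

set_option maxRecDepth 100000 in
theorem uniq_ok : triD.all (fun a => force ((List.range 220).filter (fun i => memQ a (quartCode i)))
    (fun la => triD.all (fun b => !(isHex (Nat.lor a b)) ||
      Nat.beq (la.filter (fun i => memQ b (quartCode i))).length 1))) = true := by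
  decide +kernel

theorem memQ_iff {a i : ℕ} (ha : a < 2 ^ 24) (hi : i < 220) :
    memQ a (quartCode i) = true ↔ dec a ∈ quartOf (quartCode i) := by
  unfold memQ quartOf
  rw [mem_setOf]
  constructor
  · intro h
    exact ⟨a, mem_of_any h, rfl⟩
  · rintro ⟨w, hw, hwa⟩
    have := dec_injOn ((valid_of_mem (quartCode_mem hi)).lt w hw) ha hwa
    rw [← this]; exact any_of_mem hw

theorem std {t u : Finset GolayPt} (ht : t.card = 3) (hu : u.card = 3)
    (hh : t ∪ u ∈ hexadsOn (dec d0)) :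
    ∃! Q : Sys, Q ∈ quartets (dec d0) ∧ t ∈ Q ∧ u ∈ Q := by
  have hsub : t ∪ u ⊆ dec d0 := by
    obtain ⟨_, o, _, ho⟩ := hh
    rw [← ho]; exact Finset.inter_subset_right
  have ha : enc t ∈ triD := (mem_triD_iff t).1 ⟨ht, Finset.union_subset_left hsub⟩
  have hb : enc u ∈ triD := (mem_triD_iff u).1 ⟨hu, Finset.union_subset_right hsub⟩
  have h1 := List.all_eq_true.1 uniq_ok _ ha
  rw [force_eq] at h1
  have h2 := List.all_eq_true.1 h1 _ hb
  have hx : isHex (Nat.lor (enc t) (enc u)) = true := by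
    rw [isHex_iff]
    have := (mem_hexadsOn_iff _).1 hh
    rwa [enc_union] at this
  rw [hx, Bool.not_true, Bool.false_or, beq_iff, List.length_eq_one_iff] at h2
  obtain ⟨i, hi⟩ := h2
  have hmem : ∀ j, j ∈ [i] ↔ (j < 220 ∧ memQ (enc t) (quartCode j) = true) ∧
      memQ (enc u) (quartCode j) = true := by
    intro j
    rw [← hi, List.mem_filter, List.mem_filter, List.mem_range]
  obtain ⟨⟨hi220, hit⟩, hiu⟩ := (hmem i).1 (by simp)
  rw [memQ_iff (enc_lt t) hi220, dec_enc] at hit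
  rw [memQ_iff (enc_lt u) hi220, dec_enc] at hiu
  refine ⟨quartOf (quartCode i), ⟨quartOf_mem (valid_of_mem (quartCode_mem hi220)), hit, hiu⟩, ?_⟩
  rintro Q' ⟨hQ', ht', hu'⟩
  obtain ⟨j, hj, rfl⟩ := exists_pos hQ'
  have : j ∈ [i] := by
    rw [hmem]
    refine ⟨⟨hj, ?_⟩, ?_⟩
    · rw [memQ_iff (enc_lt t) hj, dec_enc]; exact ht'
    · rw [memQ_iff (enc_lt u) hj, dec_enc]; exact hu'
  rw [List.mem_singleton] at this
  rw [this]

/-- A quartet of a dodecad is determined by any two of its triples: two disjoint triples uniting to a hexad extend to exactly one quartet. -/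
theorem result (d : Finset Cfsg.GolayPt) (hd : d ∈ Cfsg.dodecads) (t u : Finset Cfsg.GolayPt) (ht : t.card = 3) (hu : u.card = 3) (htu : Disjoint t u) (hh : t ∪ u ∈ Cfsg.hexadsOn d) : ∃! Q : Finset (Finset Cfsg.GolayPt), Q ∈ Cfsg.quartets d ∧ t ∈ Q ∧ u ∈ Q := by
  obtain ⟨k, hk, hkd⟩ := dodecad_trans hd (dec_mem_dodecads d0_mem)
  have hh' : k • t ∪ k • u ∈ hexadsOn (dec d0) := by
    rw [← Finset.smul_finset_union, ← hkd]
    exact smul_mem_hexadsOn hk hh
  obtain ⟨Q, ⟨hQ, htQ, huQ⟩, huniq⟩ := std (by rw [Finset.card_smul_finset]; exact ht)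
    (by rw [Finset.card_smul_finset]; exact hu) hh'
  refine ⟨k⁻¹ • Q, ⟨?_, ?_, ?_⟩, ?_⟩
  · rw [← smul_mem_quartets_iff hk, smul_inv_smul, hkd]; exact hQ
  · rw [← Finset.smul_mem_smul_finset_iff k, smul_inv_smul]; exact htQ
  · rw [← Finset.smul_mem_smul_finset_iff k, smul_inv_smul]; exact huQ
  · rintro Q' ⟨hQ', ht', hu'⟩
    have := huniq (k • Q') ⟨hkd ▸ smul_mem_quartets hk hQ', Finset.smul_mem_smul_finset ht',
      Finset.smul_mem_smul_finset hu'⟩
    rw [← this, inv_smul_smul]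

end Cfsg.Agent.S1596
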