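import Cfsg.Statements.S1597
import Cfsg.Agent.Lib.Helper34Quart

set_option autoImplicit false
open scoped Pointwise
open Cfsg

namespace Cfsg.Agent.S1597

open Cfsg.Agent.Lib.Helper33Golay Cfsg.Agent.Lib.Helper33Trans Cfsg.Agent.Lib.Helper33Transport
open Cfsg.Agent.Lib.Helper34M12 Cfsg.Agent.Lib.Helper34Quart

/-- A dodecad has 220 quartets and its stabiliser is transitive on them. -/
theorem result (d : Finset Cfsg.GolayPt) (hd : d ∈ Cfsg.dodecads) : (Cfsg.quartets d).ncard = 220 ∧ ∀ Q ∈ Cfsg.quartets d, ∀ Q' ∈ Cfsg.quartets d, ∃ g : Equiv.Perm Cfsg.GolayPt, g ∈ Cfsg.M24 ∧ g • d = d ∧ g • Q = Q' := by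
  obtain ⟨k, hk, hkd⟩ := dodecad_trans hd (dec_mem_dodecads d0_mem)
  constructor
  · rw [← quartets0_ncard]
    exact (ncard_transport k (fun Q => Q ∈ quartets d) (fun Q => Q ∈ quartets (dec d0))
      (fun U => by rw [← hkd]; exact smul_mem_quartets_iff hk)).symm
  · intro Q hQ Q' hQ'
    obtain ⟨g, hg, hgQ⟩ := trans0 (k • Q) (hkd ▸ smul_mem_quartets hk hQ) (k • Q')
      (hkd ▸ smul_mem_quartets hk hQ')
    refine ⟨k⁻¹ * g * k, M24.mul_mem (M24.mul_mem (M24.inv_mem hk) (HD_M24 hg)) hk, ?_, ?_⟩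
    · rw [mul_smul, mul_smul, hkd, HD_smul hg, ← hkd, inv_smul_smul]
    · rw [mul_smul, mul_smul, hgQ, inv_smul_smul]

end Cfsg.Agent.S1597
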