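import Cfsg.Statements.S1599
import Cfsg.Agent.Lib.Helper34Quart

set_option autoImplicit false
open scoped Pointwise
open Cfsg

namespace Cfsg.Agent.S1599

open MulAction Cfsg.Agent.Lib.Helper33Golay Cfsg.Agent.Lib.Helper10Orb Cfsg.Agent.Lib.Helper10Fam
open Cfsg.Agent.Lib.Helper34M12 Cfsg.Agent.Lib.Helper34Quart

def pOK (v : ℕ) : Bool := Nat.beq v 12 || Nat.beq v 6 || Nat.beq v 8 || Nat.beq v 7 || Nat.beq v 5

set_option maxRecDepth 100000 in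
theorem all_ok : (List.range 220).all (fun i => pOK (clsQ (quartCode i))) = true := by
  decide +kernel

def nn : Fin 13 → ℕ := ![0, 0, 0, 0, 0, 108, 12, 72, 27, 0, 0, 0, 1]

set_option maxRecDepth 100000 in
theorem cntS (v : Fin 13) : ((List.range 220).filter
    (fun i => Nat.beq (clsQ (quartCode i)) v.val)).length = nn v := by
  revert v; decide +kernel

theorem cls_Q0 : clsQ Q0 = 12 := by decide +kernel

/-- A quartet stabiliser has five orbits on the quartets of its dodecad, of sizes 1, 12, 27, 72, 108. -/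
theorem result (d : Finset Cfsg.GolayPt) (hd : d ∈ Cfsg.dodecads) (Q : Finset (Finset Cfsg.GolayPt)) (hQ : Q ∈ Cfsg.quartets d) : ∃ X₁ ∈ Cfsg.quartets d, ∃ X₂ ∈ Cfsg.quartets d, ∃ X₃ ∈ Cfsg.quartets d, ∃ X₄ ∈ Cfsg.quartets d, (MulAction.orbit ↥(MulAction.stabilizer Cfsg.M24 d ⊓ MulAction.stabilizer Cfsg.M24 Q) X₁).ncard = 12 ∧ (MulAction.orbit ↥(MulAction.stabilizer Cfsg.M24 d ⊓ MulAction.stabilizer Cfsg.M24 Q) X₂).ncard = 27 ∧ (MulAction.orbit ↥(MulAction.stabilizer Cfsg.M24 d ⊓ MulAction.stabilizer Cfsg.M24 Q) X₃).ncard = 72 ∧ (MulAction.orbit ↥(MulAction.stabilizer Cfsg.M24 d ⊓ MulAction.stabilizer Cfsg.M24 Q) X₄).ncard = 108 ∧ Cfsg.quartets d = {Q} ∪ MulAction.orbit ↥(MulAction.stabilizer Cfsg.M24 d ⊓ MulAction.stabilizer Cfsg.M24 Q) X₁ ∪ MulAction.orbit ↥(MulAction.stabilizer Cfsg.M24 d ⊓ MulAction.stabilizer Cfsg.M24 Q) X₂ ∪ MulAction.orbit ↥(MulAction.stabilizer Cfsg.M24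 d ⊓ MulAction.stabilizer Cfsg.M24 Q) X₃ ∪ MulAction.orbit ↥(MulAction.stabilizer Cfsg.M24 d ⊓ MulAction.stabilizer Cfsg.M24 Q) X₄ := by
  obtain ⟨k, hk, hkd, hkQ⟩ := exists_std hd hQ
  have htr := trans_class hd hQ
  have hcount : ∀ v : Fin 13, {X | X ∈ quartets d ∧ cnt2 0 Q X = v.val}.ncard = nn v :=
    fun v => (count_class hd hQ v.val).trans (cntS v)
  have hall := all_class hd hQ pOK all_ok
  have hQQ : cnt2 0 Q Q = 12 := by
    rw [← cnt2_smul 0 k Q Q, hkQ, cnt2_quartOf Q0_mem Q0_mem]; exact cls_Q0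
  have horb : ∀ X ∈ quartets d,
      orbit ↥(stabilizer M24 d ⊓ stabilizer M24 Q) X =
        {Y | Y ∈ quartets d ∧ cnt2 0 Q Y = cnt2 0 Q X} := by
    intro X hX
    ext Y
    constructor
    · rintro ⟨⟨⟨g, hg⟩, hgd, hgQ⟩, rfl⟩
      have hgd' : g • d = d := hgd
      have hgQ' : g • Q = Q := hgQ
      change g • X ∈ quartets d ∧ cnt2 0 Q (g • X) = cnt2 0 Q X
      constructor
      · have := smul_mem_quartets hg hX
        rwa [hgd'] at this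
      · have := cnt2_smul 0 g Q X
        rwa [hgQ'] at this
    · rintro ⟨hY, hc⟩
      obtain ⟨g, hg, hgd, hgQ, hgX⟩ := htr X hX Y hY hc.symm
      exact ⟨⟨⟨g, hg⟩, hgd, hgQ⟩, hgX⟩
  have hex : ∀ v : Fin 13, nn v ≠ 0 → ∃ X ∈ quartets d,
      (orbit ↥(stabilizer M24 d ⊓ stabilizer M24 Q) X).ncard = nn v ∧
      orbit ↥(stabilizer M24 d ⊓ stabilizer M24 Q) X = {Y | Y ∈ quartets d ∧ cnt2 0 Q Y = v.val} := by
    intro v hv
    rw [← hcount v] at hv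
    obtain ⟨X, hX, hXv⟩ := Set.nonempty_of_ncard_ne_zero hv
    refine ⟨X, hX, ?_, ?_⟩
    · rw [horb X hX, hXv, hcount v]
    · rw [horb X hX, hXv]
  obtain ⟨X₁, hX₁, hn₁, ho₁⟩ := hex 6 (by decide)
  obtain ⟨X₂, hX₂, hn₂, ho₂⟩ := hex 8 (by decide)
  obtain ⟨X₃, hX₃, hn₃, ho₃⟩ := hex 7 (by decide)
  obtain ⟨X₄, hX₄, hn₄, ho₄⟩ := hex 5 (by decide)
  have h12 : {X | X ∈ quartets d ∧ cnt2 0 Q X = 12} = {Q} := by
    obtain ⟨a, ha⟩ := Set.ncard_eq_one.1 (hcount 12)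
    have hQa : Q ∈ ({a} : Set Sys) := by
      rw [← ha]; exact ⟨hQ, hQQ⟩
    rw [Set.mem_singleton_iff] at hQa
    rw [← hQa] at ha; exact ha
  refine ⟨X₁, hX₁, X₂, hX₂, X₃, hX₃, X₄, hX₄, hn₁, hn₂, hn₃, hn₄, ?_⟩
  rw [ho₁, ho₂, ho₃, ho₄, ← h12]
  ext x
  constructor
  · intro hx
    have := hall x hx
    unfold pOK at this
    simp only [Bool.or_eq_true, beq_iff] at this
    rcases this with (((h | h) | h) | h) | h
    · exact Or.inl (Or.inl (Or.inl (Or.inl ⟨hx, h⟩)))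
    · exact Or.inl (Or.inl (Or.inl (Or.inr ⟨hx, h⟩)))
    · exact Or.inl (Or.inl (Or.inr ⟨hx, h⟩))
    · exact Or.inl (Or.inr ⟨hx, h⟩)
    · exact Or.inr ⟨hx, h⟩
  · rintro ((((h | h) | h) | h) | h) <;> exact h.1

end Cfsg.Agent.S1599
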