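import Cfsg.Statements.S1600
import Cfsg.Agent.Lib.Helper34M12
import Cfsg.Agent.S0382

set_option autoImplicit false
open scoped Pointwise
open Cfsg

namespace Cfsg.Agent.S1600

open Cfsg.Agent.Lib.Helper33Golay
open Cfsg.Agent.Lib.Helper34M24 Cfsg.Agent.Lib.Helper34M12

/-- orbit-stabiliser step inside a subgroup -/
theorem card_step {G α : Type*} [Group G] [MulAction G α] (K : Subgroup G) (x : α) (S : Set α)
    (hS : MulAction.orbit K x = S) :
    Nat.card ↥(K ⊓ MulAction.stabilizer G x) * S.ncard = Nat.card K := by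
  have h := Subgroup.card_mul_index (MulAction.stabilizer K x)
  rw [MulAction.index_stabilizer, hS] at h
  have h1 : MulAction.stabilizer K x = (K ⊓ MulAction.stabilizer G x).subgroupOf K := by
    ext ⟨g, hg⟩
    rw [MulAction.mem_stabilizer_iff, Subgroup.mem_subgroupOf, Subgroup.mem_inf,
      MulAction.mem_stabilizer_iff]
    exact ⟨fun h => ⟨hg, h⟩, fun h => h.2⟩
  rw [h1, Nat.card_congr (Subgroup.subgroupOfEquivOfLe inf_le_left).toEquiv] at h
  exact h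

theorem apply_mem {g : Equiv.Perm GolayPt} {d : Finset GolayPt} (h : g • d = d) {x : GolayPt}
    (hx : x ∈ d) : g x ∈ d := by
  rw [← h, smul_mem_smul]; exact hx

theorem orbit1 {d : Finset GolayPt} (hd : d ∈ dodecads) {p : GolayPt} (hp : p ∈ d) :
    MulAction.orbit ↥(MulAction.stabilizer M24 d) p = (d : Set GolayPt) := by
  ext y
  constructor
  · rintro ⟨⟨⟨g, hg⟩, hgd⟩, rfl⟩
    exact apply_mem (g := g) hgd hp
  · intro hy
    obtain ⟨k, hk, hkd, hkp⟩ := dflag1 hd hp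
    obtain ⟨k', hk', hkd', hkp'⟩ := dflag1 hd (Finset.mem_coe.1 hy)
    refine ⟨⟨⟨k'⁻¹ * k, M24.mul_mem (M24.inv_mem hk') hk⟩, ?_⟩, ?_⟩
    · change (k'⁻¹ * k) • d = d
      rw [mul_smul, hkd, ← hkd', inv_smul_smul]
    · change (k'⁻¹ * k) p = y
      rw [Equiv.Perm.mul_apply, hkp, ← hkp']; simp

theorem orbit2 {d : Finset GolayPt} (hd : d ∈ dodecads) {p q : GolayPt} (hp : p ∈ d) (hq : q ∈ d)
    (hpq : p ≠ q) :
    MulAction.orbit ↥(MulAction.stabilizer M24 d ⊓ MulAction.stabilizer M24 p) q =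
      ((d.erase p : Finset GolayPt) : Set GolayPt) := by
  ext y
  constructor
  · rintro ⟨⟨⟨g, hg⟩, hgd, hgp⟩, rfl⟩
    have hgp' : g p = p := hgp
    rw [Finset.mem_coe, Finset.mem_erase]
    refine ⟨?_, apply_mem (g := g) hgd hq⟩
    intro h
    change g q = p at h
    rw [← hgp'] at h
    exact hpq (g.injective h).symm
  · intro hy
    rw [Finset.mem_coe, Finset.mem_erase] at hy
    obtain ⟨k, hk, hkd, hkp, hkq⟩ := dflag2 hd hp hq hpq
    obtain ⟨k', hk', hkd', hkp', hkq'⟩ := dflag2 hd hp hy.2 hy.1.symm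
    refine ⟨⟨⟨k'⁻¹ * k, M24.mul_mem (M24.inv_mem hk') hk⟩, ?_, ?_⟩, ?_⟩
    · change (k'⁻¹ * k) • d = d
      rw [mul_smul, hkd, ← hkd', inv_smul_smul]
    · change (k'⁻¹ * k) p = p
      rw [Equiv.Perm.mul_apply, hkp, ← hkp']; simp
    · change (k'⁻¹ * k) q = y
      rw [Equiv.Perm.mul_apply, hkq, ← hkq']; simp

theorem orbit3 {d : Finset GolayPt} (hd : d ∈ dodecads) {p q r : GolayPt} (hp : p ∈ d) (hq : q ∈ d)
    (hr : r ∈ d) (hpq : p ≠ q) (hpr : p ≠ r) (hqr : q ≠ r) :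
    MulAction.orbit ↥(MulAction.stabilizer M24 d ⊓ MulAction.stabilizer M24 p ⊓
      MulAction.stabilizer M24 q) r = ((((d.erase p).erase q : Finset GolayPt)) : Set GolayPt) := by
  ext y
  constructor
  · rintro ⟨⟨⟨g, hg⟩, ⟨hgd, hgp⟩, hgq⟩, rfl⟩
    have hgp' : g p = p := hgp
    have hgq' : g q = q := hgq
    rw [Finset.mem_coe, Finset.mem_erase, Finset.mem_erase]
    refine ⟨?_, ?_, apply_mem (g := g) hgd hr⟩
    · intro h
      change g r = q at h
      rw [← hgq'] at h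
      exact hqr (g.injective h).symm
    · intro h
      change g r = p at h
      rw [← hgp'] at h
      exact hpr (g.injective h).symm
  · intro hy
    rw [Finset.mem_coe, Finset.mem_erase, Finset.mem_erase] at hy
    obtain ⟨k, hk, hkd, hkp, hkq, hkr⟩ := dflag3 hd hp hq hr hpq hpr hqr
    obtain ⟨k', hk', hkd', hkp', hkq', hkr'⟩ := dflag3 hd hp hq hy.2.2 hpq hy.2.1.symm hy.1.symm
    refine ⟨⟨⟨k'⁻¹ * k, M24.mul_mem (M24.inv_mem hk') hk⟩, ⟨?_, ?_⟩, ?_⟩, ?_⟩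
    · change (k'⁻¹ * k) • d = d
      rw [mul_smul, hkd, ← hkd', inv_smul_smul]
    · change (k'⁻¹ * k) p = p
      rw [Equiv.Perm.mul_apply, hkp, ← hkp']; simp
    · change (k'⁻¹ * k) q = q
      rw [Equiv.Perm.mul_apply, hkq, ← hkq']; simp
    · change (k'⁻¹ * k) r = y
      rw [Equiv.Perm.mul_apply, hkr, ← hkr']; simp

/-- The pointwise stabiliser of three points of a dodecad inside the dodecad stabiliser (order 72) is transitive on the complementary dodecad. -/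
theorem result (d : Finset Cfsg.GolayPt) (hd : d ∈ Cfsg.dodecads) (p q r : Cfsg.GolayPt) (hp : p ∈ d) (hq : q ∈ d) (hr : r ∈ d) (hpq : p ≠ q) (hpr : p ≠ r) (hqr : q ≠ r) : Nat.card ↥(MulAction.stabilizer Cfsg.M24 d ⊓ MulAction.stabilizer Cfsg.M24 p ⊓ MulAction.stabilizer Cfsg.M24 q ⊓ MulAction.stabilizer Cfsg.M24 r) = 72 ∧ ∀ x ∉ d, ∀ y ∉ d, ∃ g ∈ (MulAction.stabilizer Cfsg.M24 d ⊓ MulAction.stabilizer Cfsg.M24 p ⊓ MulAction.stabilizer Cfsg.M24 q ⊓ MulAction.stabilizer Cfsg.M24 r), ((g : ↥Cfsg.M24) : Equiv.Perm Cfsg.GolayPt) x = y := by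
  constructor
  · have h1 := card_step (MulAction.stabilizer M24 d) p _ (orbit1 hd hp)
    have h2 := card_step (MulAction.stabilizer M24 d ⊓ MulAction.stabilizer M24 p) q _
      (orbit2 hd hp hq hpq)
    have h3 := card_step (MulAction.stabilizer M24 d ⊓ MulAction.stabilizer M24 p ⊓
      MulAction.stabilizer M24 q) r _ (orbit3 hd hp hq hr hpq hpr hqr)
    rw [Set.ncard_coe_finset] at h1 h2 h3
    rw [Cfsg.Agent.S0382.result d hd, hd.2] at h1
    rw [Finset.card_erase_of_mem hp, hd.2] at h2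
    rw [Finset.card_erase_of_mem (Finset.mem_erase.2 ⟨hpq.symm, hq⟩), Finset.card_erase_of_mem hp,
      hd.2] at h3
    omega
  · intro x hx y hy
    obtain ⟨k, hk, hkd, hkp, hkq, hkr⟩ := dflag3 hd hp hq hr hpq hpr hqr
    obtain ⟨g, hg, hgx⟩ := moveD4 (k x) (by
      rw [dec_compl, Finset.mem_compl, ← hkd, smul_mem_smul]; exact hx)
    obtain ⟨g', hg', hgy⟩ := moveD4 (k y) (by
      rw [dec_compl, Finset.mem_compl, ← hkd, smul_mem_smul]; exact hy)
    have hh : g'⁻¹ * g ∈ HD [0, 2, 3] := (HD _).mul_mem ((HD _).inv_mem hg') hg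
    refine ⟨⟨k⁻¹ * (g'⁻¹ * g) * k, M24.mul_mem (M24.mul_mem (M24.inv_mem hk) (HD_M24 hh)) hk⟩,
      ⟨⟨⟨?_, ?_⟩, ?_⟩, ?_⟩, ?_⟩
    · change (k⁻¹ * (g'⁻¹ * g) * k) • d = d
      rw [mul_smul, mul_smul, hkd, HD_smul hh, ← hkd, inv_smul_smul]
    · change (k⁻¹ * (g'⁻¹ * g) * k) p = p
      rw [Equiv.Perm.mul_apply, Equiv.Perm.mul_apply, hkp, HD_fix hh (by simp), ← hkp]; simp
    · change (k⁻¹ * (g'⁻¹ * g) * k) q = q
      rw [Equiv.Perm.mul_apply, Equiv.Perm.mul_apply, hkq, HD_fix hh (by simp), ← hkq]; simp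
    · change (k⁻¹ * (g'⁻¹ * g) * k) r = r
      rw [Equiv.Perm.mul_apply, Equiv.Perm.mul_apply, hkr, HD_fix hh (by simp), ← hkr]; simp
    · change (k⁻¹ * (g'⁻¹ * g) * k) x = y
      rw [Equiv.Perm.mul_apply, Equiv.Perm.mul_apply, Equiv.Perm.mul_apply, hgx, ← hgy]; simp

end Cfsg.Agent.S1600
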