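import Cfsg.Statements.S1601
import Cfsg.Agent.Lib.Helper94Model
import Cfsg.Agent.Lib.Helper6SL2HomP
import Cfsg.Agent.S0243

set_option autoImplicit false
open scoped Pointwise
open Cfsg

namespace Cfsg.Agent.S1601

open Cfsg Cfsg.Agent.Lib.Helper33Golay Cfsg.Agent.Lib.Helper94M24A Cfsg.Agent.Lib.Helper94M24B
  Cfsg.Agent.Lib.Helper94M24C Cfsg.Agent.Lib.Helper94M24D Cfsg.Agent.Lib.Helper94M24E
  Cfsg.Agent.Lib.Helper94Dod Cfsg.Agent.Lib.Helper94Model
  Cfsg.Agent.Lib.Helper6SL2Hom Cfsg.Agent.Lib.Helper6SL2HomP Cfsg.Agent.Lib.Helper6Transport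

def d1 : ℕ := 9604286
def XpL : List ℕ := [984818244535754528103549039458486304, 967972142972321558334924874311045760, 980430655244047555536780661907068256, 971734707085560523308954086711369184, 972766496763803398066191970082138208, 976682411962824850378012271579465248, 974210029955904092229250641560948800, 979322536108642837990881289911184512, 963910955995634276198061895405157536, 966024173021115467693284056746003680, 982968340672074485251447130771932480]
def HhL : List ℕ := [984818244535754528103549039458486304, 984818244535754528103549039458486304, 971821129308135115379177976463954464, 964027266367935326236018469957256256, 973116279016430986887237082621281760, 980910818640015006461704921388596352, 980910818640015006461704921388596352, 973116279016430986887237082621281760, 964027266367935326236018469957256256, 971821129308135115379177976463954464, 984818244535754528103549039458486304]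
def Wc : ℕ := 964027501500908993021918568471217280
def WitL : List ℕ := [963353808355273462911358861163335147, 965872720560524478213142773935246827, 967373433160854212198724124405829099, 983469087950147849702893805031689707, 967130123381589057401464110695623147, 984032207820182310517951595344341483, 973977321965974122843840693128433131, 972321649702393783212925170101849579, 984163540982902364672787029977796075, 972568381048018322634510020615711211, 979559378226757638579645937191463403, 956095086563312993653461656324935147]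
def invL : List ℕ := [0, 1, 6, 4, 3, 9, 2, 8, 7, 5, 10]

def Xp (c : ℕ) : ℕ := XpL.getD c idP
def Hh (a : ℕ) : ℕ := HhL.getD a idP
def iv (a : ℕ) : ℕ := invL.getD a 0

/-- Bruhat normal form -/
def Fc (a b c d : ℕ) : ℕ :=
  bif Nat.beq c 0 then mulP (Hh a) (Xp (b * iv a % 11))
  else mulP (mulP (mulP (Xp (a * iv c % 11)) Wc) (Hh c)) (Xp (d * iv c % 11))

def tabOK (P : ℕ) : Bool :=
  inM24 P && Nat.beq (app P d1) d1 && Nat.beq (img P 23) 23 && Nat.beq (img P 0) 0

theorem tab_ok : (XpL.all tabOK && HhL.all tabOK && tabOK Wc && tabOK idP) = true := by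
  decide +kernel

def r11 : List ℕ := List.range 11

theorem chkX : r11.all (fun a => r11.all (fun b => r11.all (fun c => r11.all (fun d =>
    !(Nat.beq ((a * d) % 11) ((1 + b * c) % 11)) ||
    Nat.beq (Fc a ((a + b) % 11) c ((c + d) % 11)) (mulP (Fc a b c d) (Fc 1 1 0 1)))))) = true := by
  decide +kernel

theorem chkY : r11.all (fun a => r11.all (fun b => r11.all (fun c => r11.all (fun d =>
    !(Nat.beq ((a * d) % 11) ((1 + b * c) % 11)) ||
    Nat.beq (Fc ((a + b) % 11) b ((c + d) % 11) d) (mulP (Fc a b c d) (Fc 1 0 1 1)))))) = true := by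
  decide +kernel

theorem chk1 : (Nat.beq (Fc 1 0 0 1) idP && Nat.beq (Fc 10 0 0 10) idP &&
    !(Nat.beq (Fc 1 1 0 1) idP)) = true := by decide +kernel

/-- the standard model -/
def S0 : Subgroup (Equiv.Perm GolayPt) :=
  M24 ⊓ MulAction.stabilizer (Equiv.Perm GolayPt) (dec d1) ⊓
    MulAction.stabilizer (Equiv.Perm GolayPt) (pt 23) ⊓ MulAction.stabilizer (Equiv.Perm GolayPt) (pt 0)

theorem mem_S0 {g : Equiv.Perm GolayPt} :
    g ∈ S0 ↔ g ∈ M24 ∧ g • dec d1 = dec d1 ∧ g (pt 23) = pt 23 ∧ g (pt 0) = pt 0 := by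
  unfold S0
  simp only [Subgroup.mem_inf, MulAction.mem_stabilizer_iff, and_assoc]
  rfl

structure TOK (P : ℕ) : Prop where
  v : validPerm P = true
  m : toPerm P ∈ S0

theorem tok_of {P : ℕ} (h : tabOK P = true) : TOK P := by
  simp only [tabOK, Bool.and_eq_true] at h
  obtain ⟨⟨⟨h1, h2⟩, h3⟩, h4⟩ := h
  have hv := inM24_valid h1
  refine ⟨hv, mem_S0.2 ⟨toPerm_mem_M24 h1, ?_, ?_, ?_⟩⟩
  · rw [smul_dec hv, Nat.eq_of_beq_eq_true h2]
  · rw [toPerm_pt hv (by norm_num), Nat.eq_of_beq_eq_true h3]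
  · rw [toPerm_pt hv (by norm_num), Nat.eq_of_beq_eq_true h4]

theorem TOK.mul {P Q : ℕ} (hP : TOK P) (hQ : TOK Q) : TOK (mulP P Q) :=
  ⟨valid_mulP hP.v hQ.v, by rw [toPerm_mulP hP.v hQ.v]; exact S0.mul_mem hP.m hQ.m⟩

theorem tok_getD {l : List ℕ} (h : l.all tabOK = true) (i : ℕ) : TOK (l.getD i idP) := by
  have hid : tabOK idP = true := by
    have := tab_ok
    simp only [Bool.and_eq_true] at this
    exact this.2
  by_cases hi : i < l.length
  · rw [List.getD_eq_getElem _ _ hi]
    exact tok_of (List.all_eq_true.1 h _ (List.getElem_mem hi))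
  · rw [List.getD_eq_default _ _ (by omega)]
    exact tok_of hid

theorem tok_Xp (c : ℕ) : TOK (Xp c) := by
  have := tab_ok
  simp only [Bool.and_eq_true] at this
  exact tok_getD this.1.1.1 c

theorem tok_Hh (c : ℕ) : TOK (Hh c) := by
  have := tab_ok
  simp only [Bool.and_eq_true] at this
  exact tok_getD this.1.1.2 c

theorem tok_W : TOK Wc := by
  have := tab_ok
  simp only [Bool.and_eq_true] at this
  exact tok_of this.1.2

theorem tok_Fc (a b c d : ℕ) : TOK (Fc a b c d) ∧ normP (Fc a b c d) = true := by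
  unfold Fc
  cases Nat.beq c 0
  · rw [cond_false]
    exact ⟨(((tok_Xp _).mul tok_W).mul (tok_Hh _)).mul (tok_Xp _),
      normP_mulP (((tok_Xp _).mul tok_W).mul (tok_Hh _)).v (tok_Xp _).v⟩
  · rw [cond_true]
    exact ⟨(tok_Hh _).mul (tok_Xp _), normP_mulP (tok_Hh _).v (tok_Xp _).v⟩

noncomputable def f0 (a b c d : ZMod 11) : ↥S0 := ⟨toPerm (Fc a.val b.val c.val d.val), (tok_Fc _ _ _ _).1.m⟩

theorem val_lt (a : ZMod 11) : a.val ∈ r11 := List.mem_range.2 (ZMod.val_lt a)

theorem det_cond {a b c d : ZMod 11} (h : a * d - b * c = 1) :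
    Nat.beq ((a.val * d.val) % 11) ((1 + b.val * c.val) % 11) = true := by
  have h1 : a * d = 1 + b * c := by rw [← h]; ring
  have h2 := congrArg ZMod.val h1
  rw [ZMod.val_mul, ZMod.val_add, ZMod.val_mul] at h2
  have h3 : (1 : ZMod 11).val = 1 := rfl
  rw [h3, Nat.add_mod_mod] at h2
  rw [h2]; exact Nat.beq_refl _

theorem f0_one : f0 1 0 0 1 = 1 := by
  have c := chk1
  simp only [Bool.and_eq_true] at c
  apply Subtype.ext
  show toPerm (Fc 1 0 0 1) = 1
  rw [Nat.eq_of_beq_eq_true c.1.1, toPerm_idP]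

theorem f0_neg : f0 (-1) 0 0 (-1) = 1 := by
  have c := chk1
  simp only [Bool.and_eq_true] at c
  apply Subtype.ext
  show toPerm (Fc 10 0 0 10) = 1
  rw [Nat.eq_of_beq_eq_true c.1.2, toPerm_idP]

theorem f0_ne : f0 1 1 0 1 ≠ 1 := by
  have c := chk1
  simp only [Bool.and_eq_true] at c
  intro h
  have h1 : toPerm (Fc 1 1 0 1) = 1 := congrArg Subtype.val h
  rw [← toPerm_idP] at h1
  rw [toPerm_injOn (tok_Fc 1 1 0 1).2 normP_idP h1] at c
  simp at c

theorem f0_X : ∀ a b c d : ZMod 11, a * d - b * c = 1 →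
    f0 a (a + b) c (c + d) = f0 a b c d * f0 1 1 0 1 := by
  intro a b c d h
  have k := List.all_eq_true.1 (List.all_eq_true.1 (List.all_eq_true.1 (List.all_eq_true.1 chkX
    _ (val_lt a)) _ (val_lt b)) _ (val_lt c)) _ (val_lt d)
  rw [det_cond h] at k
  simp only [Bool.not_true, Bool.false_or] at k
  apply Subtype.ext
  show toPerm (Fc a.val (a + b).val c.val (c + d).val) =
    toPerm (Fc a.val b.val c.val d.val) * toPerm (Fc 1 1 0 1)
  rw [ZMod.val_add, ZMod.val_add, Nat.eq_of_beq_eq_true k,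
    toPerm_mulP (tok_Fc _ _ _ _).1.v (tok_Fc _ _ _ _).1.v]

theorem f0_Y : ∀ a b c d : ZMod 11, a * d - b * c = 1 →
    f0 (a + b) b (c + d) d = f0 a b c d * f0 1 0 1 1 := by
  intro a b c d h
  have k := List.all_eq_true.1 (List.all_eq_true.1 (List.all_eq_true.1 (List.all_eq_true.1 chkY
    _ (val_lt a)) _ (val_lt b)) _ (val_lt c)) _ (val_lt d)
  rw [det_cond h] at k
  simp only [Bool.not_true, Bool.false_or] at k
  apply Subtype.ext
  show toPerm (Fc (a + b).val b.val (c + d).val d.val) =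
    toPerm (Fc a.val b.val c.val d.val) * toPerm (Fc 1 0 1 1)
  rw [ZMod.val_add, ZMod.val_add, Nat.eq_of_beq_eq_true k,
    toPerm_mulP (tok_Fc _ _ _ _).1.v (tok_Fc _ _ _ _).1.v]

/-- enumeration of the standard model -/
def St : List ℕ := search (okLv (fun l R => okFix [23, 0] l R && okStab d1 l R)
  (fun R => Nat.beq (app R d1) d1))

theorem St_len : St.length = 660 := by decide +kernel

theorem mem_St {g : Equiv.Perm GolayPt} (hg : g ∈ S0) : ∃ c ∈ St, g = toPerm c := by
  obtain ⟨hM, h1, h23, h0⟩ := mem_S0.1 hg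
  have hF : ∀ j ∈ [23, 0], g (pt j) = pt j := by
    intro j hj
    simp only [List.mem_cons, List.not_mem_nil, or_false] at hj
    rcases hj with rfl | rfl <;> assumption
  apply lv_sound _ _ hM
  · intro l R hl hR ha
    rw [Bool.and_eq_true]
    exact ⟨okFix_sound hF hl hR ha, okStab_sound h1 hl hR ha⟩
  · intro R hR e
    rw [← e, smul_dec hR.1] at h1
    rw [dec_injOn (app_lt hR.1 _) (by norm_num [d1]) h1]; exact Nat.beq_refl _

theorem model_iso : Nonempty (Matrix.ProjectiveSpecialLinearGroup (Fin 2) (ZMod 11) ≃* ↥S0) := by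
  have : Fact (Nat.Prime 11) := ⟨by norm_num⟩
  obtain ⟨φ, hφ⟩ := exists_hom_of_entries_zmod 11 f0 f0_one f0_X f0_Y
  obtain ⟨ψ, hψ⟩ := exists_injective_hom_PSL (F := ZMod 11) (by simp) φ
    (by
      intro g h1 h2 h3 h4
      rw [hφ, h1, h2, h3, h4, f0_neg])
    ⟨Matrix.SpecialLinearGroup.transvection (zero_ne_one : (0 : Fin 2) ≠ 1) 1, by
      rw [hφ, T01_entries]
      exact f0_ne⟩
  have hcard1 := Cfsg.Agent.S0243.result (F := ZMod 11) (ZMod.card 11) 2 le_rfl
  simp only [Fin.prod_univ_two] at hcard1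
  have hg : Nat.gcd 2 (11 - 1) = 2 := by decide
  rw [hg] at hcard1
  set N := Nat.card (Matrix.ProjectiveSpecialLinearGroup (Fin 2) (ZMod 11)) with hN
  norm_num at hcard1
  apply equiv_of_injective_of_list S0 ψ hψ St (fun g hg => mem_St hg)
  rw [St_len, ← hN]
  omega

/-- witnesses for the transitivity on the points outside the dodecad -/
theorem wit_ok : r24.all (fun j => Nat.beq (bit d0 j) 1 || WitL.any (fun P =>
    inM24 P && Nat.beq (app P d0) d1 && Nat.beq (img P 23) 23 && Nat.beq (img P j) 0)) = true := by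
  decide +kernel

theorem std_dpq {d : Finset GolayPt} (hd : d ∈ dodecads) {p q : GolayPt} (hp : p ∈ d) (hq : q ∉ d) :
    ∃ k ∈ M24, k • d = dec d1 ∧ k p = pt 23 ∧ k q = pt 0 := by
  obtain ⟨k, hk, kd, kp⟩ := std_d1 hd hp
  have hkq : k q ∉ dec d0 := by
    rw [← kd]
    intro h
    exact hq ((Finset.smul_mem_smul_finset_iff (a := k) (b := q) (s := d)).1 h)
  have c := List.all_eq_true.1 wit_ok (idx (k q)) (mem_r24.2 (idx_lt _))
  rw [Bool.or_eq_true] at c
  rcases c with c | c
  · exfalso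
    apply hkq
    rw [mem_dec]
    rw [bit_eq] at c
    cases h : d0.testBit (idx (k q))
    · rw [h] at c; exact absurd c (by decide)
    · rfl
  · simp only [List.any_eq_true, Bool.and_eq_true] at c
    obtain ⟨P, _, ⟨⟨c1, c2⟩, c3⟩, c4⟩ := c
    have hv := inM24_valid c1
    refine ⟨toPerm P * k, M24.mul_mem (toPerm_mem_M24 c1) hk, ?_, ?_, ?_⟩
    · rw [mul_smul, kd, smul_dec hv, Nat.eq_of_beq_eq_true c2]
    · rw [Equiv.Perm.mul_apply, kp, toPerm_pt hv (by norm_num), Nat.eq_of_beq_eq_true c3]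
    · rw [Equiv.Perm.mul_apply, toPerm_apply hv, Nat.eq_of_beq_eq_true c4]


/-- In the 3-transitive action of the smallest Mathieu group on the complementary dodecad, a point stabiliser is isomorphic to PSL(2, 11). -/
theorem result (d : Finset Cfsg.GolayPt) (hd : d ∈ Cfsg.dodecads) (p q : Cfsg.GolayPt) (hp : p ∈ d) (hq : q ∉ d) : Nonempty (↥(MulAction.stabilizer Cfsg.M24 d ⊓ MulAction.stabilizer Cfsg.M24 p ⊓ MulAction.stabilizer Cfsg.M24 q) ≃* Matrix.ProjectiveSpecialLinearGroup (Fin 2) (ZMod 11)) := by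
  obtain ⟨k, hk, kd, kp, kq⟩ := std_dpq hd hp hq
  obtain ⟨e0⟩ := model_iso
  have hmem : ∀ x : ↥M24, x ∈ (MulAction.stabilizer M24 d ⊓ MulAction.stabilizer M24 p ⊓
      MulAction.stabilizer M24 q) ↔ ((x : Equiv.Perm GolayPt) • d = d ∧ (x : Equiv.Perm GolayPt) p = p ∧
      (x : Equiv.Perm GolayPt) q = q) := by
    intro x
    simp only [Subgroup.mem_inf, MulAction.mem_stabilizer_iff, and_assoc]
    rfl
  obtain ⟨e1⟩ := equiv_of_conj (MulAction.stabilizer M24 d ⊓ MulAction.stabilizer M24 p ⊓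
      MulAction.stabilizer M24 q) S0 k
    (by
      intro x hx
      obtain ⟨x1, x2, x3⟩ := (hmem x).1 hx
      refine mem_S0.2 ⟨M24.mul_mem (M24.mul_mem hk x.2) (M24.inv_mem hk), ?_, conj_apply k _ kp kp x2,
        conj_apply k _ kq kq x3⟩
      rw [← kd, smul_smul]
      have e' : k * (x : Equiv.Perm GolayPt) * k⁻¹ * k = k * (x : Equiv.Perm GolayPt) := by group
      rw [e', mul_smul, x1])
    (by
      intro g hg
      obtain ⟨gM, g1, g2, g3⟩ := mem_S0.1 hg
      have hm : k⁻¹ * g * k ∈ M24 := M24.mul_mem (M24.mul_mem (M24.inv_mem hk) gM) hk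
      refine ⟨⟨k⁻¹ * g * k, hm⟩, (hmem _).2 ⟨?_, ?_, ?_⟩, ?_⟩
      · show (k⁻¹ * g * k) • d = d
        rw [mul_smul, mul_smul, kd, g1, ← kd, inv_smul_smul]
      · show (k⁻¹ * g * k) p = p
        rw [Equiv.Perm.mul_apply, Equiv.Perm.mul_apply, kp, g2, ← kp]; exact Equiv.symm_apply_apply k _
      · show (k⁻¹ * g * k) q = q
        rw [Equiv.Perm.mul_apply, Equiv.Perm.mul_apply, kq, g3, ← kq]; exact Equiv.symm_apply_apply k _
      · show k * (k⁻¹ * g * k) * k⁻¹ = g
        group)
  exact ⟨e1.trans e0.symm⟩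

end Cfsg.Agent.S1601
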