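import Cfsg.Statements.S1602
import Cfsg.Agent.Lib.Helper34M12
import Cfsg.Agent.Lib.Helper34Stab
import Cfsg.Agent.S0384
import Cfsg.Agent.S0387

set_option autoImplicit false
open scoped Pointwise
open Cfsg

namespace Cfsg.Agent.S1602

open Cfsg.Agent.Lib.Helper33Golay
open Cfsg.Agent.Lib.Helper34M24 Cfsg.Agent.Lib.Helper34M12 Cfsg.Agent.Lib.Helper34Stab

def o1 : ℕ := 1413139

theorem o1_mem : o1 ∈ octL := by decide +kernel

set_option maxRecDepth 100000 in
theorem std_unique : ∀ m ∈ octL, m.testBit 0 = true → m.testBit 1 = true → m.testBit 4 = true →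
    pop (Nat.land d0 m) = 6 → m = o1 := by decide +kernel

theorem std_ok : o1.testBit 0 = true ∧ o1.testBit 1 = true ∧ o1.testBit 4 = true ∧
    pop (Nat.land d0 o1) = 6 := by decide +kernel

def Good (d : Finset GolayPt) (p q q' : GolayPt) (o : Finset GolayPt) : Prop :=
  o ∈ octads ∧ p ∈ o ∧ q ∈ o ∧ q' ∈ o ∧ (d ∩ o).card = 6

theorem good_std_iff (o : Finset GolayPt) : Good (dec d0) (pt 0) (pt 1) (pt 4) o ↔ o = dec o1 := by
  constructor
  · rintro ⟨ho, h0, h1, h4, h6⟩
    have := std_unique (enc o) ((mem_octads_iff o).1 ho)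
      (by rw [testBit_enc_pt o (by norm_num)]; simpa using h0)
      (by rw [testBit_enc_pt o (by norm_num)]; simpa using h1)
      (by rw [testBit_enc_pt o (by norm_num)]; simpa using h4)
      (by rw [pop_land_enc_d]; exact h6)
    rw [← dec_enc o, this]
  · rintro rfl
    obtain ⟨h0, h1, h4, h6⟩ := std_ok
    have e : enc (dec o1) = o1 := enc_dec (octL_lt o1_mem)
    refine ⟨dec_mem_octads o1_mem, ?_, ?_, ?_, ?_⟩
    · rw [mem_dec, idx_pt (by norm_num)]; exact h0
    · rw [mem_dec, idx_pt (by norm_num)]; exact h1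
    · rw [mem_dec, idx_pt (by norm_num)]; exact h4
    · rw [← pop_land_enc_d, e]; exact h6

theorem good_smul (k : Equiv.Perm GolayPt) (hk : k ∈ M24) (d : Finset GolayPt) (p q q' : GolayPt)
    (o : Finset GolayPt) : Good (k • d) (k p) (k q) (k q') (k • o) ↔ Good d p q q' o := by
  unfold Good
  rw [smul_mem_octads_iff hk, smul_mem_smul, smul_mem_smul, smul_mem_smul,
    ← Finset.smul_finset_inter, Finset.card_smul_finset]

theorem exists_good {d : Finset GolayPt} (hd : d ∈ dodecads) {p q q' : GolayPt} (hp : p ∈ d)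
    (hq : q ∉ d) (hq' : q' ∉ d) (hqq : q ≠ q') :
    ∃ o, Good d p q q' o ∧ ∀ o', Good d p q q' o' → o' = o := by
  obtain ⟨k, hk, hkd, hkp, hkq, hkq'⟩ := dflag_in_out2 hd hp hq hq' hqq
  refine ⟨k⁻¹ • dec o1, ?_, ?_⟩
  · rw [← good_smul k hk, smul_inv_smul, hkd, hkp, hkq, hkq', good_std_iff]
  · intro o' ho'
    rw [← good_smul k hk, hkd, hkp, hkq, hkq', good_std_iff] at ho'
    rw [← ho', inv_smul_smul]

theorem orbit_pair {d : Finset GolayPt} (hd : d ∈ dodecads) {p q q' : GolayPt} (hp : p ∈ d)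
    (hq : q ∉ d) (hq' : q' ∉ d) (hqq : q ≠ q') :
    MulAction.orbit ↥(MulAction.stabilizer M24 d ⊓ MulAction.stabilizer M24 p)
      ({q, q'} : Finset GolayPt) = ((Finset.powersetCard 2 dᶜ : Finset (Finset GolayPt)) : Set _) := by
  ext t
  rw [Finset.mem_coe, Finset.mem_powersetCard]
  constructor
  · rintro ⟨⟨⟨g, hg⟩, hgd, hgp⟩, rfl⟩
    have hgd' : g • d = d := hgd
    change g • ({q, q'} : Finset GolayPt) ⊆ dᶜ ∧ (g • ({q, q'} : Finset GolayPt)).card = 2
    refine ⟨?_, by rw [Finset.card_smul_finset, Finset.card_pair hqq]⟩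
    intro x hx
    rw [Finset.mem_compl, ← hgd']
    obtain ⟨y, hy, rfl⟩ := Finset.mem_smul_finset.1 hx
    rw [Finset.smul_mem_smul_finset_iff]
    simp only [Finset.mem_insert, Finset.mem_singleton] at hy
    rcases hy with rfl | rfl
    · exact hq
    · exact hq'
  · rintro ⟨hsub, hcard⟩
    obtain ⟨y, y', hyy, rfl⟩ := Finset.card_eq_two.1 hcard
    have hy : y ∉ d := Finset.mem_compl.1 (hsub (by simp))
    have hy' : y' ∉ d := Finset.mem_compl.1 (hsub (by simp))
    obtain ⟨k, hk, hkd, hkp, hkq, hkq'⟩ := dflag_in_out2 hd hp hq hq' hqq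
    obtain ⟨k', hk', hkd', hkp', hky, hky'⟩ := dflag_in_out2 hd hp hy hy' hyy
    refine ⟨⟨⟨k'⁻¹ * k, M24.mul_mem (M24.inv_mem hk') hk⟩, ?_, ?_⟩, ?_⟩
    · change (k'⁻¹ * k) • d = d
      rw [mul_smul, hkd, ← hkd', inv_smul_smul]
    · change (k'⁻¹ * k) p = p
      rw [Equiv.Perm.mul_apply, hkp, ← hkp']; simp
    · change (k'⁻¹ * k) • ({q, q'} : Finset GolayPt) = {y, y'}
      rw [Finset.smul_finset_insert, Finset.smul_finset_singleton, Equiv.Perm.smul_def,
        Equiv.Perm.smul_def, Equiv.Perm.mul_apply, Equiv.Perm.mul_apply, hkq, hkq', ← hky, ← hky']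
      simp

theorem card_K {d : Finset GolayPt} (hd : d ∈ dodecads) {p q q' : GolayPt} (hp : p ∈ d)
    (hq : q ∉ d) (hq' : q' ∉ d) (hqq : q ≠ q') :
    Nat.card ↥(MulAction.stabilizer M24 d ⊓ MulAction.stabilizer M24 p ⊓
      MulAction.stabilizer M24 ({q, q'} : Finset GolayPt)) = 120 := by
  have h := card_step (MulAction.stabilizer M24 d ⊓ MulAction.stabilizer M24 p)
    ({q, q'} : Finset GolayPt) _ (orbit_pair hd hp hq hq' hqq)
  rw [Set.ncard_coe_finset, Finset.card_powersetCard, Finset.card_compl, hd.2,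
    Cfsg.Agent.S0387.result d hd p hp] at h
  have h24 : Fintype.card GolayPt = 24 := by decide
  rw [h24] at h
  have : Nat.choose (24 - 12) 2 = 66 := by decide
  rw [this] at h
  omega

/-- In the 12-point action of the smallest Mathieu group the setwise stabiliser of a pair is isomorphic to the symmetric group of degree 5. -/
theorem result (d : Finset Cfsg.GolayPt) (hd : d ∈ Cfsg.dodecads) (p q q' : Cfsg.GolayPt) (hp : p ∈ d) (hq : q ∉ d) (hq' : q' ∉ d) (hqq' : q ≠ q') : Nonempty (↥(MulAction.stabilizer Cfsg.M24 d ⊓ MulAction.stabilizer Cfsg.M24 p ⊓ MulAction.stabilizer Cfsg.M24 ({q, q'} : Finset Cfsg.GolayPt)) ≃* Equiv.Perm (Fin 5)) := by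
  obtain ⟨o, ho, huniq⟩ := exists_good hd hp hq hq' hqq'
  set K := (MulAction.stabilizer Cfsg.M24 d ⊓ MulAction.stabilizer Cfsg.M24 p ⊓
    MulAction.stabilizer Cfsg.M24 ({q, q'} : Finset Cfsg.GolayPt)) with hK
  let ι : ↥K →* Equiv.Perm GolayPt := (Subgroup.subtype M24).comp (Subgroup.subtype K)
  have hd' : ∀ g : ↥K, ι g • d = d := fun g => g.2.1.1
  have hp' : ∀ g : ↥K, ι g p = p := fun g => g.2.1.2
  have hs' : ∀ g : ↥K, ι g • ({q, q'} : Finset GolayPt) = {q, q'} := fun g => g.2.2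
  have hM : ∀ g : ↥K, ι g ∈ M24 := fun g => g.1.2
  have ho' : ∀ g : ↥K, ι g • o = o := by
    intro g
    apply huniq
    obtain ⟨h1, h2, h3, h4, h5⟩ := ho
    have hsub : ({q, q'} : Finset GolayPt) ⊆ ι g • o := by
      rw [← hs' g, Finset.smul_finset_subset_smul_finset_iff]
      intro x hx
      simp only [Finset.mem_insert, Finset.mem_singleton] at hx
      rcases hx with rfl | rfl
      · exact h3
      · exact h4
    refine ⟨smul_mem_octads (hM g) h1, ?_, hsub (by simp), hsub (by simp), ?_⟩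
    · rw [← hp' g, smul_mem_smul]; exact h2
    · conv_lhs => rw [← hd' g]
      rw [← Finset.smul_finset_inter, Finset.card_smul_finset]; exact h5
  set F := (d ∩ o).erase p with hFdef
  have hFcard : F.card = 5 := by
    rw [hFdef, Finset.card_erase_of_mem (Finset.mem_inter.2 ⟨hp, ho.2.1⟩), ho.2.2.2.2]
  have hF : ∀ g : ↥K, ∀ x, ι g x ∈ F ↔ x ∈ F := by
    intro g x
    rw [hFdef, Finset.mem_erase, Finset.mem_erase, Finset.mem_inter, Finset.mem_inter]
    have e1 : ι g x ∈ d ↔ x ∈ d := by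
      conv_lhs => rw [← hd' g]
      exact smul_mem_smul _ _ _
    have e2 : ι g x ∈ o ↔ x ∈ o := by
      conv_lhs => rw [← ho' g]
      exact smul_mem_smul _ _ _
    have e3 : ι g x ≠ p ↔ x ≠ p := by
      conv_lhs => rw [← hp' g]
      exact (ι g).injective.ne_iff
    rw [e1, e2, e3]
  apply iso_perm_of_injective 5 (β := {x // x ∈ F}) (by rw [Fintype.card_coe, hFcard])
    (restrictHom ι F hF) _ ((card_K hd hp hq hq' hqq').trans (by decide))
  rw [injective_iff_map_eq_one]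
  intro g hg
  have hfix : ∀ x ∈ F, ι g x = x := by
    intro x hx
    have := congrArg (fun f : Equiv.Perm {x // x ∈ F} => ((f ⟨x, hx⟩ : {x // x ∈ F}) : GolayPt)) hg
    exact this
  let e : Fin 5 ≃ {x // x ∈ F} := (Fintype.equivFinOfCardEq (by rw [Fintype.card_coe, hFcard])).symm
  let x : Fin 5 ↪ GolayPt := ⟨fun i => (e i).1, fun i j h => e.injective (Subtype.ext h)⟩
  have hxd : ∀ i, x i ∈ d := fun i =>
    (Finset.mem_inter.1 (Finset.mem_of_mem_erase (e i).2)).1
  obtain ⟨g0, -, hu⟩ := Cfsg.Agent.S0384.result d hd x x hxd hxd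
  have h1 := hu ⟨g.1, g.2.1.1⟩ (fun i => hfix _ (e i).2)
  have h2 := hu 1 (fun i => rfl)
  have h3 : (⟨g.1, g.2.1.1⟩ : MulAction.stabilizer M24 d) = 1 := h1.trans h2.symm
  have h4 : g.1 = 1 := congrArg Subtype.val h3
  exact Subtype.ext h4

end Cfsg.Agent.S1602
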