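import Cfsg.Statements.S1610
import Cfsg.Agent.Lib.Helper93Hexa

set_option autoImplicit false
open Cfsg

namespace Cfsg.Agent.S1610

open Cfsg.Agent.Helper93Hexa

/-- coded weight -/
def wtC (t : Fin 4 × Fin 4 × Fin 4) : ℕ :=
  (Finset.univ.filter fun i => word t.1 t.2.1 t.2.2 i ≠ 0).card

theorem wtC_cases : ∀ t : Fin 4 × Fin 4 × Fin 4, t = (0, 0, 0) ∨ wtC t = 4 ∨ wtC t = 6 := by
  decide +kernel

theorem cnt4 : (Finset.univ.filter fun t => wtC t = 4).card = 45 := by decide +kernel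
theorem cnt6 : (Finset.univ.filter fun t => wtC t = 6).card = 18 := by decide +kernel

/-- The hexacode has 64 words, minimum weight 4, and weight distribution 0^1 4^45 6^18. -/
theorem result (F : Type*) [Field F] [Fintype F] [DecidableEq F] (hF : Fintype.card F = 4) (ω : F) (hω : ω ^ 2 + ω + 1 = 0) : Nat.card ↥(Cfsg.hexacode F ω) = 64 ∧ (∀ x ∈ Cfsg.hexacode F ω, x ≠ 0 → (Finset.univ.filter fun i => x i ≠ 0).card = 4 ∨ (Finset.univ.filter fun i => x i ≠ 0).card = 6) ∧ {x : Fin 6 → F | x ∈ Cfsg.hexacode F ω ∧ (Finset.univ.filter fun i => x i ≠ 0).card = 4}.ncard = 45 ∧ {x : Fin 6 → F | x ∈ Cfsg.hexacode F ω ∧ (Finset.univ.filter fun i => x i ≠ 0).card = 6}.ncard = 18 := by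
  have w0 := omega_ne_zero hω
  have hwt : ∀ t, (Finset.univ.filter fun i => Phi ω t i ≠ 0).card = wtC t := by
    intro t
    unfold wtC
    congr 1
    ext i
    simp [Phi, enc_eq_zero_iff' w0]
  have hset : ∀ k : ℕ, {x : Fin 6 → F | x ∈ Cfsg.hexacode F ω ∧
      (Finset.univ.filter fun i => x i ≠ 0).card = k}
      = Phi ω '' ↑(Finset.univ.filter fun t => wtC t = k) := by
    intro k
    ext x
    simp only [Set.mem_ofPred_eq, mem_hexacode_iff' hF hω, Set.mem_image, Finset.coe_filter,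
      Finset.mem_univ, true_and]
    constructor
    · rintro ⟨⟨t, rfl⟩, h⟩
      exact ⟨t, by rw [← hwt]; exact h, rfl⟩
    · rintro ⟨t, h, rfl⟩
      exact ⟨⟨t, rfl⟩, by rw [hwt]; exact h⟩
  refine ⟨?_, ?_, ?_, ?_⟩
  · have : (↑(Cfsg.hexacode F ω) : Set (Fin 6 → F)) = Set.range (Phi ω) := by
      ext x
      simp [mem_hexacode_iff' hF hω]
    have h1 : Nat.card ↥(Cfsg.hexacode F ω) = Nat.card (Set.range (Phi ω)) :=
      Nat.card_congr (Equiv.setCongr this)
    rw [h1, Nat.card_range_of_injective (Phi_inj hF hω)]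
    simp
  · intro x hx hx0
    obtain ⟨t, rfl⟩ := (mem_hexacode_iff' hF hω x).1 hx
    rw [hwt]
    rcases wtC_cases t with rfl | h
    · exfalso
      apply hx0
      funext i
      fin_cases i <;> simp [Phi, word, G, mulT, addT, enc]
    · exact h
  · rw [hset, Set.ncard_image_of_injective _ (Phi_inj hF hω), Set.ncard_coe_finset, cnt4]
  · rw [hset, Set.ncard_image_of_injective _ (Phi_inj hF hω), Set.ncard_coe_finset, cnt6]

end Cfsg.Agent.S1610
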