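import Cfsg.Statements.S1611
import Cfsg.Agent.Lib.Helper93Hexa

set_option autoImplicit false
set_option linter.unusedSectionVars false
open Cfsg

namespace Cfsg.Agent.S1611

open Cfsg.Agent.Helper93Hexa

/-- exponents of the three generators -/
def E : Fin 3 → Fin 6 → ℕ := ![![1, 2, 2, 1, 2, 1], ![2, 1, 1, 2, 2, 1], ![2, 1, 2, 1, 1, 2]]

/-- exponents of the quotients of the second and third generator by the first -/
def D : Fin 2 → Fin 6 → ℕ := ![![1, 2, 2, 1, 0, 0], ![1, 2, 0, 0, 2, 1]]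

/-- bit table of the exponent vectors (in base three) of the 18 words of full weight -/
def TAB : ℕ := 80263304180498225562355180671165401832949504049688801292667698783255500702885485108835541418764582858566423843962843765243325424816767329056933596952097894970573991406912772694066501847793092033390342832128

def codeOf (t : Fin 6 → ℕ) : ℕ :=
  t 0 % 3 + 3 * (t 1 % 3) + 9 * (t 2 % 3) + 27 * (t 3 % 3) + 81 * (t 4 % 3) + 243 * (t 5 % 3)

def rest (σ : Equiv.Perm (Fin 6)) (k : ℕ) : Bool :=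
  TAB.testBit (codeOf fun i => k / 3 ^ i.val + D 0 (σ.symm i)) &&
  TAB.testBit (codeOf fun i => k / 3 ^ i.val + D 1 (σ.symm i))

def W18 : Finset (Fin 729) :=
  ⟨↑([44, 76, 93, 109, 182, 222, 253, 273, 332, 396, 457, 473, 510, 542, 617, 637, 652, 684] :
    List (Fin 729)), by decide⟩

theorem hW18 : (Finset.univ.filter fun k : Fin 729 => TAB.testBit k = true) = W18 := by
  decide +kernel

set_option maxRecDepth 100000 in
set_option maxHeartbeats 4000000 in
theorem main : ∀ σ : Equiv.Perm (Fin 6), (W18.filter fun k : Fin 729 => rest σ k = true).card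
    = if Equiv.Perm.sign σ = 1 then 3 else 0 := by decide +kernel

theorem T1 : ∀ a b c : Fin 4, (∀ i, word a b c i ≠ 0) →
    TAB.testBit (codeOf fun i => (word a b c i : ℕ) + 2) = true := by decide +kernel

theorem T2 : ∀ k ∈ W18, ∃ a b c : Fin 4, ∀ i : Fin 6,
    (word a b c i : ℕ) = (k : ℕ) / 3 ^ i.val % 3 + 1 := by decide +kernel

theorem P2 : ∀ k ∈ W18, rest 1 k = true → ∀ i j : Fin 6,
    ((k : ℕ) / 3 ^ i.val + 2 * E 0 i) % 3 = ((k : ℕ) / 3 ^ j.val + 2 * E 0 j) % 3 := by
  decide +kernel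

theorem ED : ∀ x : Fin 6, (2 * E 0 x + E 0 x) % 3 = 0 ∧ (2 * E 0 x + E 1 x) % 3 = D 0 x % 3 ∧
    (2 * E 0 x + E 2 x) % 3 = D 1 x % 3 := by decide

theorem codeOf_lt (t : Fin 6 → ℕ) : codeOf t < 729 := by
  unfold codeOf; omega

theorem codeOf_congr {t t' : Fin 6 → ℕ} (h : ∀ i, t i % 3 = t' i % 3) : codeOf t = codeOf t' := by
  unfold codeOf; simp only [h]

theorem codeOf_digit (t : Fin 6 → ℕ) (i : Fin 6) : codeOf t / 3 ^ i.val % 3 = t i % 3 := by
  unfold codeOf
  fin_cases i <;> simp <;> omega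

theorem codeOf_digits (k : ℕ) (hk : k < 729) : codeOf (fun i => k / 3 ^ i.val) = k := by
  unfold codeOf
  simp
  omega

section
variable {F : Type*} [Field F] [Fintype F] [DecidableEq F] (hF : Fintype.card F = 4) {ω : F}
  (hω : ω ^ 2 + ω + 1 = 0)

include hω in
theorem omega_cube : ω ^ 3 = 1 := by linear_combination (ω - 1) * hω

include hω in
theorem pow_eq_enc (n : ℕ) : ω ^ n = enc ω ⟨n % 3 + 1, by omega⟩ := by
  have h3 := omega_cube hω
  have h : ω ^ n = ω ^ (n % 3) := by
    conv_lhs => rw [← Nat.div_add_mod n 3, pow_add, pow_mul, h3, one_pow, one_mul]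
  rw [h]
  have aux : ∀ r (hr : r < 3), ω ^ r = enc ω ⟨r + 1, by omega⟩ := by
    intro r hr
    interval_cases r
    · simp [enc]
    · simp [enc]
    · simp [enc]
  exact aux _ (Nat.mod_lt _ (by norm_num))

include hF hω in
theorem mem_iff (t : Fin 6 → ℕ) :
    (fun i => ω ^ t i) ∈ Cfsg.hexacode F ω ↔ TAB.testBit (codeOf t) = true := by
  rw [mem_hexacode_iff hF hω]
  constructor
  · rintro ⟨a, b, c, h⟩
    have h1 : ∀ i, (word a b c i : ℕ) = t i % 3 + 1 := by
      intro i
      have := congrFun h i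
      simp only [pow_eq_enc hω] at this
      have := enc_inj hF hω this
      rw [← this]
    have h2 : ∀ i, word a b c i ≠ 0 := by
      intro i h0
      have := h1 i
      rw [h0] at this
      simp at this
    have h3 := T1 a b c h2
    rw [← h3]
    congr 1
    apply codeOf_congr
    intro i
    rw [h1 i]
    omega
  · intro h
    have hk : (⟨codeOf t, codeOf_lt t⟩ : Fin 729) ∈ W18 := by
      rw [← hW18]
      simp [h]
    obtain ⟨a, b, c, h1⟩ := T2 _ hk
    refine ⟨a, b, c, ?_⟩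
    funext i
    rw [pow_eq_enc hω]
    congr 1
    apply Fin.ext
    rw [h1 i]
    simp only
    rw [codeOf_digit]

/-- the generators -/
def gen (ω : F) (j : Fin 3) : Fin 6 → F := fun i => ω ^ E j i

theorem hexacode_eq : Cfsg.hexacode F ω = Submodule.span F {gen ω 0, gen ω 1, gen ω 2} := by
  have g0 : ![ω, ω ^ 2, ω ^ 2, ω, ω ^ 2, ω] = gen ω 0 := by
    funext i; fin_cases i <;> simp [gen, E]
  have g1 : ![ω ^ 2, ω, ω, ω ^ 2, ω ^ 2, ω] = gen ω 1 := by
    funext i; fin_cases i <;> simp [gen, E]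
  have g2 : ![ω ^ 2, ω, ω ^ 2, ω, ω, ω ^ 2] = gen ω 2 := by
    funext i; fin_cases i <;> simp [gen, E]
  unfold Cfsg.hexacode
  rw [g0, g1, g2]

/-- a monomial map as a linear map -/
def monoLin (σ : Equiv.Perm (Fin 6)) (c : Fin 6 → Fˣ) : (Fin 6 → F) →ₗ[F] (Fin 6 → F) where
  toFun := Cfsg.monomialMap σ c
  map_add' x y := by funext i; simp [Cfsg.monomialMap, mul_add]
  map_smul' a x := by funext i; simp [Cfsg.monomialMap]; ring

theorem pres_iff (σ : Equiv.Perm (Fin 6)) (c : Fin 6 → Fˣ) :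
    (∀ x ∈ Cfsg.hexacode F ω, Cfsg.monomialMap σ c x ∈ Cfsg.hexacode F ω) ↔
      ∀ j, Cfsg.monomialMap σ c (gen ω j) ∈ Cfsg.hexacode F ω := by
  constructor
  · intro h j
    apply h
    rw [hexacode_eq]
    apply Submodule.subset_span
    fin_cases j <;> simp
  · intro h
    have : Cfsg.hexacode F ω ≤ (Cfsg.hexacode F ω).comap (monoLin σ c) := by
      conv_lhs => rw [hexacode_eq]
      rw [Submodule.span_le]
      intro x hx
      simp only [Set.mem_insert_iff, Set.mem_singleton_iff] at hx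
      rcases hx with rfl | rfl | rfl
      · exact h 0
      · exact h 1
      · exact h 2
    intro x hx
    exact this hx

/-- `ω` as a unit -/
def wU (w0 : ω ≠ 0) : Fˣ := Units.mk0 ω w0

/-- parametrisation of the diagonal parts, normalised at `σ` -/
def cOf (w0 : ω ≠ 0) (σ : Equiv.Perm (Fin 6)) (k : ℕ) : Fin 6 → Fˣ :=
  fun i => wU w0 ^ (k / 3 ^ i.val + 2 * E 0 (σ.symm i))

include hF hω in
theorem pres_cOf (w0 : ω ≠ 0) (σ : Equiv.Perm (Fin 6)) (k : ℕ) (hk : k < 729) :
    (∀ x ∈ Cfsg.hexacode F ω, Cfsg.monomialMap σ (cOf w0 σ k) x ∈ Cfsg.hexacode F ω) ↔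
      (TAB.testBit k = true ∧ rest σ k = true) := by
  rw [pres_iff]
  have h1 : ∀ j, Cfsg.monomialMap σ (cOf w0 σ k) (gen ω j)
      = fun i => ω ^ (k / 3 ^ i.val + 2 * E 0 (σ.symm i) + E j (σ.symm i)) := by
    intro j
    funext i
    simp [Cfsg.monomialMap, cOf, gen, wU, pow_add]
  simp only [h1, mem_iff hF hω]
  have e0 : codeOf (fun i : Fin 6 => k / 3 ^ i.val + 2 * E 0 (σ.symm i) + E 0 (σ.symm i)) = k := by
    rw [← codeOf_digits k hk]
    apply codeOf_congr
    intro i
    have := (ED (σ.symm i)).1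
    rw [codeOf_digits k hk]
    omega
  have e1 : codeOf (fun i : Fin 6 => k / 3 ^ i.val + 2 * E 0 (σ.symm i) + E 1 (σ.symm i))
      = codeOf (fun i : Fin 6 => k / 3 ^ i.val + D 0 (σ.symm i)) := by
    apply codeOf_congr
    intro i
    have := (ED (σ.symm i)).2.1
    omega
  have e2 : codeOf (fun i : Fin 6 => k / 3 ^ i.val + 2 * E 0 (σ.symm i) + E 2 (σ.symm i))
      = codeOf (fun i : Fin 6 => k / 3 ^ i.val + D 1 (σ.symm i)) := by
    apply codeOf_congr
    intro i
    have := (ED (σ.symm i)).2.2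
    omega
  constructor
  · intro h
    have a0 := h 0
    have a1 := h 1
    have a2 := h 2
    rw [e0] at a0
    rw [e1] at a1
    rw [e2] at a2
    exact ⟨a0, by simp [rest, a1, a2]⟩
  · rintro ⟨a0, a12⟩ j
    simp only [rest, Bool.and_eq_true] at a12
    fin_cases j
    · show TAB.testBit (codeOf (fun i : Fin 6 => k / 3 ^ i.val + 2 * E 0 (σ.symm i) + E 0 (σ.symm i))) = true
      rw [e0]; exact a0
    · show TAB.testBit (codeOf (fun i : Fin 6 => k / 3 ^ i.val + 2 * E 0 (σ.symm i) + E 1 (σ.symm i))) = true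
      rw [e1]; exact a12.1
    · show TAB.testBit (codeOf (fun i : Fin 6 => k / 3 ^ i.val + 2 * E 0 (σ.symm i) + E 2 (σ.symm i))) = true
      rw [e2]; exact a12.2

include hF hω in
theorem orderOf_wU (w0 : ω ≠ 0) : orderOf (wU w0) = 3 := by
  have : Fact (Nat.Prime 3) := ⟨by norm_num⟩
  apply orderOf_eq_prime
  · apply Units.ext
    simp [wU, omega_cube hω]
  · intro h
    have h1 : ω = 1 := by
      have := congrArg Units.val h
      simpa [wU] using this
    have h2 := two_eq_zero hF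
    rw [h1] at hω
    have : (1 : F) = 0 := by linear_combination hω - h2
    exact one_ne_zero this

include hF hω in
theorem cOf_bij (w0 : ω ≠ 0) (σ : Equiv.Perm (Fin 6)) :
    Function.Bijective (fun k : Fin 729 => cOf w0 σ k) := by
  rw [Fintype.bijective_iff_injective_and_card]
  constructor
  · intro k k' h
    have h1 : ∀ i : Fin 6, (k : ℕ) / 3 ^ i.val % 3 = (k' : ℕ) / 3 ^ i.val % 3 := by
      intro i
      have := congrFun h i
      simp only [cOf] at this
      rw [pow_eq_pow_iff_modEq, orderOf_wU hF hω] at this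
      have := Nat.ModEq.add_right_cancel' _ this
      exact this
    apply Fin.ext
    rw [← codeOf_digits k k.2, ← codeOf_digits k' k'.2]
    exact codeOf_congr h1
  · simp [Fintype.card_units, hF]

end

set_option maxRecDepth 100000 in
theorem sumA : ∑ σ : Equiv.Perm (Fin 6), (if Equiv.Perm.sign σ = 1 then 3 else 0) = 1080 := by
  decide +kernel

/-- The monomial automorphism group of the hexacode has order 1080: its diagonal part is the scalars and its permutation parts form the alternating group of degree 6. -/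
theorem result (F : Type*) [Field F] [Fintype F] [DecidableEq F] (hF : Fintype.card F = 4) (ω : F) (hω : ω ^ 2 + ω + 1 = 0) : Nat.card {f : Equiv.Perm (Fin 6) × (Fin 6 → Fˣ) // (∀ x ∈ Cfsg.hexacode F ω, Cfsg.monomialMap f.1 f.2 x ∈ Cfsg.hexacode F ω)} = 1080 ∧ (∀ c : Fin 6 → Fˣ, (∀ x ∈ Cfsg.hexacode F ω, Cfsg.monomialMap 1 c x ∈ Cfsg.hexacode F ω) → ∀ i j, c i = c j) ∧ {σ : Equiv.Perm (Fin 6) | ∃ c : Fin 6 → Fˣ, (∀ x ∈ Cfsg.hexacode F ω, Cfsg.monomialMap σ c x ∈ Cfsg.hexacode F ω)} = (alternatingGroup (Fin 6) : Set (Equiv.Perm (Fin 6))) := by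
  have w0 := omega_ne_zero hω
  have hmem : ∀ (σ : Equiv.Perm (Fin 6)) (k : Fin 729),
      (∀ x ∈ Cfsg.hexacode F ω, Cfsg.monomialMap σ (cOf w0 σ k) x ∈ Cfsg.hexacode F ω) ↔
        k ∈ W18.filter (fun k : Fin 729 => rest σ k = true) := by
    intro σ k
    rw [pres_cOf hF hω w0 σ k k.2, Finset.mem_filter, ← hW18, Finset.mem_filter]
    simp
  have hcount : ∀ σ : Equiv.Perm (Fin 6), Nat.card {c : Fin 6 → Fˣ //
      ∀ x ∈ Cfsg.hexacode F ω, Cfsg.monomialMap σ c x ∈ Cfsg.hexacode F ω}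
      = if Equiv.Perm.sign σ = 1 then 3 else 0 := by
    intro σ
    rw [← main σ]
    have e : {k : Fin 729 // k ∈ W18.filter (fun k : Fin 729 => rest σ k = true)} ≃
        {c : Fin 6 → Fˣ // ∀ x ∈ Cfsg.hexacode F ω, Cfsg.monomialMap σ c x ∈ Cfsg.hexacode F ω} :=
      Equiv.subtypeEquiv (Equiv.ofBijective _ (cOf_bij hF hω w0 σ)) (fun k => (hmem σ k).symm)
    rw [← Nat.card_congr e, Nat.card_eq_fintype_card, Fintype.card_coe]
  refine ⟨?_, ?_, ?_⟩
  · rw [Nat.card_congr (Equiv.subtypeProdEquivSigmaSubtype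
      (fun (σ : Equiv.Perm (Fin 6)) (c : Fin 6 → Fˣ) =>
        ∀ x ∈ Cfsg.hexacode F ω, Cfsg.monomialMap σ c x ∈ Cfsg.hexacode F ω)), Nat.card_sigma]
    simp only [hcount]
    exact sumA
  · intro c hc i j
    obtain ⟨k, rfl⟩ := (cOf_bij hF hω w0 1).2 c
    have hk := (hmem 1 k).1 hc
    rw [Finset.mem_filter] at hk
    have := P2 k hk.1 hk.2 i j
    show wU w0 ^ ((k : ℕ) / 3 ^ i.val + 2 * E 0 i) = wU w0 ^ ((k : ℕ) / 3 ^ j.val + 2 * E 0 j)
    rw [pow_eq_pow_iff_modEq, orderOf_wU hF hω]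
    exact this
  · ext σ
    simp only [Set.mem_ofPred_eq, SetLike.mem_coe, Equiv.Perm.mem_alternatingGroup]
    constructor
    · rintro ⟨c, hc⟩
      by_contra hs
      have := hcount σ
      rw [if_neg hs, Nat.card_eq_zero] at this
      rcases this with h | h
      · exact h.elim ⟨c, hc⟩
      · exact h.not_finite inferInstance
    · intro hs
      have := hcount σ
      rw [if_pos hs] at this
      have hne : Nonempty {c : Fin 6 → Fˣ //
          ∀ x ∈ Cfsg.hexacode F ω, Cfsg.monomialMap σ c x ∈ Cfsg.hexacode F ω} := by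
        by_contra hne
        rw [not_nonempty_iff] at hne
        rw [Nat.card_of_isEmpty] at this
        omega
      obtain ⟨c, hc⟩ := hne
      exact ⟨c, hc⟩

end Cfsg.Agent.S1611
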