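import Cfsg.Statements.S1619
import Cfsg.Agent.Lib.Helper34IcoK
import Cfsg.Agent.Lib.Helper34IcoL

set_option autoImplicit false
open Quaternion
open Cfsg

namespace Cfsg.Agent.S1619

open Cfsg.Spor Cfsg.Agent.Lib.Helper34IcoD Cfsg.Agent.Lib.Helper34IcoJ Cfsg.Agent.Lib.Helper34IcoL

theorem card_J2 : Nat.card Cfsg.Spor.J2 = 604800 := by
  obtain ⟨e⟩ := Cfsg.Agent.Lib.Helper34IcoK.bridge
  rw [Nat.card_congr e.toEquiv]
  exact Cfsg.Agent.Helper64J2.card_P315

theorem center_data : ∃ z0 : ↥twoJ2, z0 ∈ Subgroup.center ↥twoJ2 ∧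
    (∀ x : icoLeech, (((z0 : Equiv.Perm icoLeech) x : icoLeech) : V) = -(x : V)) ∧ z0 ≠ 1 ∧
    ∀ c ∈ Subgroup.center ↥twoJ2, c = 1 ∨ c = z0 := by
  obtain ⟨z, hz, hneg⟩ := exists_neg
  refine ⟨⟨z, hz⟩, ?_, hneg, ?_, ?_⟩
  · rw [Subgroup.mem_center_iff]
    intro g
    apply Subtype.ext
    apply Equiv.ext
    intro x
    apply Subtype.ext
    show (((g : Equiv.Perm icoLeech) (z x) : icoLeech) : V) = ((z ((g : Equiv.Perm icoLeech) x) : icoLeech) : V)
    rw [hneg, AutL_neg (twoJ2_le_AutL g.2) (hneg x)]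
  · intro h
    have h1 := hneg F0.el
    have h2 : z = 1 := congrArg Subtype.val h
    rw [h2, Equiv.Perm.one_apply] at h1
    have h3 : ((F0.el : icoLeech) : V) = 0 := by
      have h5 : (2 : ℝ) • ((F0.el : icoLeech) : V) = 0 := by
        rw [two_smul]
        nth_rewrite 2 [h1]
        exact add_neg_cancel _
      exact (smul_eq_zero.1 h5).resolve_left two_ne_zero
    have h4 := F0.min
    rw [h3] at h4
    simp only [qip, Pi.zero_apply, star_zero, mul_zero, Finset.sum_const_zero] at h4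
    rw [four_eq] at h4
    have h6 := congrArg QuaternionAlgebra.re h4
    simp at h6
  · intro c hc
    rw [Subgroup.mem_center_iff] at hc
    have hcomm : ∀ (r : icoLeech) (h4 : qip (r : V) r = 4),
        (c : Equiv.Perm icoLeech) * reflP r h4 = reflP r h4 * c := by
      intro r h4
      have := hc ⟨reflP r h4, Subgroup.subset_closure (isRefl_reflP r h4)⟩
      exact (congrArg Subtype.val this).symm
    rcases central_eq (twoJ2_le_AutL c.2) hcomm with h | h
    · left
      apply Subtype.ext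
      apply Equiv.ext
      intro x
      exact Subtype.ext (h x)
    · right
      apply Subtype.ext
      apply Equiv.ext
      intro x
      exact Subtype.ext ((h x).trans (hneg x).symm)

theorem card_center : Nat.card ↥(Subgroup.center ↥twoJ2) = 2 := by
  obtain ⟨z0, hz0, -, hne, hall⟩ := center_data
  rw [Nat.card_eq_two_iff]
  refine ⟨1, ⟨z0, hz0⟩, ?_, ?_⟩
  · intro h
    exact hne (congrArg Subtype.val h).symm
  · ext c
    simp only [Set.mem_insert_iff, Set.mem_singleton_iff, Set.mem_univ, iff_true]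
    rcases hall c.1 c.2 with h | h
    · left; exact Subtype.ext h
    · right; exact Subtype.ext h

/-- The icosian reflection group has order 1209600 with centre {±1}; the Hall–Janko group has order 604800 = 2^7·3^3·5^2·7. -/
theorem result : Nat.card ↥Cfsg.Spor.twoJ2 = 1209600 ∧ Nat.card ↥(Subgroup.center ↥Cfsg.Spor.twoJ2) = 2 ∧ (∃ z ∈ Subgroup.center ↥Cfsg.Spor.twoJ2, ∀ x : ↥Cfsg.Spor.icoLeech, (((z : Equiv.Perm ↥Cfsg.Spor.icoLeech) x : ↥Cfsg.Spor.icoLeech) : Fin 3 → ℍ[ℝ]) = -(x : Fin 3 → ℍ[ℝ])) ∧ Nat.card Cfsg.Spor.J2 = 604800 := by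
  refine ⟨?_, card_center, ?_, card_J2⟩
  · rw [Subgroup.card_eq_card_quotient_mul_card_subgroup (Subgroup.center ↥twoJ2), card_center]
    have := card_J2
    unfold Cfsg.Spor.J2 at this
    rw [this]
  · obtain ⟨z0, hz0, hneg, -, -⟩ := center_data
    exact ⟨z0, hz0, hneg⟩

end Cfsg.Agent.S1619
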