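import Cfsg.Statements.S1620
import Cfsg.Agent.Lib.Helper34IcoK

set_option autoImplicit false
open Quaternion
open Cfsg

namespace Cfsg.Agent.S1620

/-- The Hall–Janko group is simple and non-abelian. -/
theorem result : IsSimpleGroup Cfsg.Spor.J2 ∧ ∃ a b : Cfsg.Spor.J2, a * b ≠ b * a := by
  obtain ⟨e⟩ := Cfsg.Agent.Lib.Helper34IcoK.bridge
  refine ⟨e.isSimpleGroup_congr.mpr Cfsg.Agent.Helper64J2.simple_P315, ?_⟩
  obtain ⟨a, b, hab⟩ := Cfsg.Agent.Helper64J2.not_comm_P315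
  refine ⟨e.symm a, e.symm b, fun h => hab ?_⟩
  have := congrArg e h
  simpa using this

end Cfsg.Agent.S1620
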