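import Cfsg.Statements.S1621
import Cfsg.Agent.Lib.Helper34IcoJ

set_option autoImplicit false
open Quaternion
open Cfsg

namespace Cfsg.Agent.S1621

open Cfsg.Spor Cfsg.Agent.Lib.Helper34IcoA Cfsg.Agent.Lib.Helper34IcoB Cfsg.Agent.Lib.Helper34IcoC
  Cfsg.Agent.Lib.Helper34IcoD Cfsg.Agent.Lib.Helper34IcoF Cfsg.Agent.Lib.Helper34IcoH
  Cfsg.Agent.Lib.Helper34IcoI Cfsg.Agent.Lib.Helper34IcoJ

theorem U120_len : U120.length = 120 := by decide +kernel

set_option maxRecDepth 100000 in
theorem U120_nodup : U120.Nodup := by decide +kernel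

noncomputable def ee (p : Fin 120 × Fin 315) : V :=
  io (U120.get (p.1.cast U120_len.symm)) • io3 (rep p.2)

theorem ee_inj : Function.Injective ee := by
  rintro ⟨i, l⟩ ⟨i', l'⟩ h
  simp only [ee] at h
  set c := U120.get (i.cast U120_len.symm) with hc
  set c' := U120.get (i'.cast U120_len.symm) with hc'
  have hcU : c ∈ U120 := List.get_mem _ _
  have hcU' : c' ∈ U120 := List.get_mem _ _
  have h1 : io3 (rep l) = (star (io c) * io c') • io3 (rep l') := by
    rw [← smul_smul, ← h, smul_smul, unit_star_mul hcU, one_smul]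
  have hd : star (star (io c) * io c') * (star (io c) * io c') = 1 := by
    rw [star_mul, star_star, mul_assoc, ← mul_assoc (io c), unit_mul_star hcU, one_mul, unit_star_mul hcU']
  have hl : l = l' := line_inj hd h1
  subst hl
  have h2 := congrArg (fun v => qip v (io3 (rep l))) h
  simp only [qip_smul_left, rep_min, four_eq, mul_smul_comm, mul_one] at h2
  have h3 : io c = io c' := smul_right_injective _ (by norm_num : (4 : ℝ) ≠ 0) h2
  have h4 : c = c' := io_inj h3
  have h5 := (List.Nodup.get_inj_iff U120_nodup).1 h4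
  have h6 : i = i' := by
    apply Fin.ext
    have := congrArg Fin.val h5
    simpa using this
  rw [h6]

theorem range_ee : Set.range ee = {r : Fin 3 → ℍ[ℝ] | r ∈ icoLeech ∧ qip r r = 4} := by
  ext r
  constructor
  · rintro ⟨⟨i, l⟩, rfl⟩
    have hcU : U120.get (i.cast U120_len.symm) ∈ U120 := List.get_mem _ _
    exact ⟨L_smul (mem_of_inI (U120_inI _ hcU)) (rep_mem_L l),
      qip_unit_smul (unit_mul_star hcU) (rep_min l)⟩
  · rintro ⟨hr, h4⟩
    obtain ⟨c, hc, l, rfl⟩ := classify hr h4
    obtain ⟨n, hn⟩ := List.get_of_mem hc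
    exact ⟨(n.cast U120_len, l), by simp only [ee]; rw [← hn]; rfl⟩

theorem range_sR : Set.range sR = {f : Equiv.Perm icoLeech | IsIcoReflection f} := by
  ext f
  constructor
  · rintro ⟨l, rfl⟩
    exact isRefl_reflP _ _
  · intro hf
    obtain ⟨r, h4, rfl⟩ := (isRefl_iff f).1 hf
    obtain ⟨l, -, -, -, e⟩ := reflP_eq_sR r h4
    exact ⟨l, e.symm⟩

/-- The icosian Leech lattice has 37800 minimal vectors giving 315 distinct reflections. -/
theorem result : {r : Fin 3 → ℍ[ℝ] | r ∈ Cfsg.Spor.icoLeech ∧ Cfsg.Spor.qip r r = 4}.ncard = 37800 ∧ {f : Equiv.Perm ↥Cfsg.Spor.icoLeech | Cfsg.Spor.IsIcoReflection f}.ncard = 315 := by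
  constructor
  · rw [← range_ee, ← Set.image_univ, Set.ncard_image_of_injective _ ee_inj, Set.ncard_univ]
    simp
  · rw [← range_sR, ← Set.image_univ, Set.ncard_image_of_injective _ sR_injective, Set.ncard_univ]
    simp

end Cfsg.Agent.S1621
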