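import Cfsg.Statements.S1622
import Cfsg.Agent.Lib.Helper34IcoK

set_option autoImplicit false
open Quaternion
open Cfsg

namespace Cfsg.Agent.S1622

open Cfsg.Spor Cfsg.Agent.Lib.Helper34IcoD Cfsg.Agent.Lib.Helper34IcoI Cfsg.Agent.Lib.Helper34IcoJ
  Cfsg.Agent.Lib.Helper34J2Perm

theorem sR_mem (l : Fin 315) : sR l ∈ twoJ2 := Subgroup.subset_closure (isRefl_reflP _ _)

theorem lift {σ : Equiv.Perm (Fin 315)} (hσ : σ ∈ P315) :
    ∃ g ∈ twoJ2, ∀ j, g * sR j * g⁻¹ = sR (σ j) := by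
  induction hσ using Subgroup.closure_induction with
  | mem x hx =>
    obtain ⟨i, rfl⟩ := hx
    exact ⟨sR (gI i), sR_mem _, sR_conj i⟩
  | one => exact ⟨1, twoJ2.one_mem, fun j => by simp⟩
  | mul x y _ _ hx hy =>
    obtain ⟨g, hg, h1⟩ := hx
    obtain ⟨k, hk, h2⟩ := hy
    refine ⟨g * k, twoJ2.mul_mem hg hk, fun j => ?_⟩
    rw [Equiv.Perm.mul_apply, ← h1, ← h2]
    group
  | inv x _ hx =>
    obtain ⟨g, hg, h1⟩ := hx
    refine ⟨g⁻¹, twoJ2.inv_mem hg, fun j => ?_⟩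
    have := h1 (x⁻¹ j)
    rw [p_apply_inv] at this
    rw [← this]
    group

/-- The reflection group is transitive on its 315 reflections by conjugation. -/
theorem result (f f' : Equiv.Perm ↥Cfsg.Spor.icoLeech) (hf : Cfsg.Spor.IsIcoReflection f) (hf' : Cfsg.Spor.IsIcoReflection f') : ∃ g ∈ Cfsg.Spor.twoJ2, g * f * g⁻¹ = f' := by
  obtain ⟨r, h4, rfl⟩ := (isRefl_iff f).1 hf
  obtain ⟨r', h4', rfl⟩ := (isRefl_iff f').1 hf'
  obtain ⟨l, -, -, -, e⟩ := reflP_eq_sR r h4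
  obtain ⟨l', -, -, -, e'⟩ := reflP_eq_sR r' h4'
  obtain ⟨σ, hσ, h1⟩ := Cfsg.Agent.Helper64J2.P315_reach l
  obtain ⟨τ, hτ, h2⟩ := Cfsg.Agent.Helper64J2.P315_reach l'
  obtain ⟨g, hg, h3⟩ := lift (P315.mul_mem hτ (P315.inv_mem hσ))
  refine ⟨g, hg, ?_⟩
  rw [e, e', h3, Equiv.Perm.mul_apply, ← h1, p_inv_apply, h2]

end Cfsg.Agent.S1622
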