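import Cfsg.Statements.S1624
-- import your own Cfsg.Agent.* helpers here
import Cfsg.Agent.Lib.Helper64J2U33c
import Cfsg.Agent.Lib.Helper64J2Bridge

set_option autoImplicit false
open Quaternion
open Cfsg

namespace Cfsg.Agent.S1624



/-- The Hall–Janko group contains PSU(3, 3) with index 100 and acts on the 100 cosets with rank 3 and subdegrees 1, 36, 63. -/
theorem result : ∃ H : Subgroup Cfsg.Spor.J2, H.index = 100 ∧ (∃ (F : Type) (_ : Field F) (_ : Fintype F), Fintype.card F = 9 ∧ Nonempty (↥H ≃* Cfsg.PSU 3 F 3)) ∧ ∃ c₁ c₂ : Cfsg.Spor.J2 ⧸ H, (MulAction.orbit ↥H c₁).ncard = 36 ∧ (MulAction.orbit ↥H c₂).ncard = 63 := by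
  obtain ⟨e⟩ := Cfsg.Agent.Helper64J2.equiv_J2
  obtain ⟨H, hidx, ⟨f⟩, g₁, g₂, h1, h2⟩ := Cfsg.Agent.Helper64J2.struct_HH
    (F := Cfsg.Agent.Lib.Helper62F4.F4) Cfsg.Agent.Lib.Helper62F4.w
  refine ⟨H.map (e : Cfsg.Agent.Helper64J2.J2M →* Cfsg.Spor.J2), ?_, ?_, ?_⟩
  · rw [Subgroup.index_map_equiv, hidx]
  · exact ⟨Cfsg.Agent.Lib.Helper62F9.F9, inferInstance, inferInstance,
      Cfsg.Agent.Lib.Helper62F9.card_F9, ⟨(e.subgroupMap H).symm.trans f⟩⟩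
  · refine ⟨QuotientGroup.mk (e g₁), QuotientGroup.mk (e g₂), ?_, ?_⟩
    · rw [Cfsg.Agent.Helper64CosetOrb.orbit_ncard_map, h1]
    · rw [Cfsg.Agent.Helper64CosetOrb.orbit_ncard_map, h2]

end Cfsg.Agent.S1624
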