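import Cfsg.Statements.S2644
import Cfsg.Agent.Lib.Helper17UWitt
import Cfsg.Agent.Lib.Helper7SU

set_option autoImplicit false
open Cfsg

namespace Cfsg.Agent.S2644

open Matrix Cfsg.Agent.Lib.Helper7Herm Cfsg.Agent.Lib.Helper7GU Cfsg.Agent.Lib.Helper17HermC
  Cfsg.Agent.Lib.Helper95Herm Cfsg.Agent.Lib.Helper17Heis Cfsg.Agent.Lib.Helper17UWitt
  Cfsg.Agent.Lib.Helper7SU

/-- A unitary matrix which is a transvection is a unitary transvection. -/
theorem transv_char {K : Type*} [Field K] [Fintype K] {q n : ℕ} (hK : Fintype.card K = q ^ 2)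
    (M : Matrix (Fin n) (Fin n) K) (hM : Cfsg.IsTransvection M)
    (hU : ∀ x y, Cfsg.hermForm n K q (M *ᵥ x) (M *ᵥ y) = Cfsg.hermForm n K q x y) :
    ∃ (v : Fin n → K) (c : K), v ≠ 0 ∧ Cfsg.hermForm n K q v v = 0 ∧ c ≠ 0 ∧
      M = Cfsg.unitaryTransvection n q v c := by
  have hH := herm_concrete hK n
  obtain ⟨hr, hsq⟩ := hM
  obtain ⟨v0, hv0, hspan⟩ := finrank_eq_one_iff'.1 hr
  set a : Fin n → K := (v0 : Fin n → K) with ha
  have ha0 : a ≠ 0 := fun h => hv0 (Subtype.ext h)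
  have hex : ∀ x, ∃ c : K, c • a = (M - 1) *ᵥ x := by
    intro x
    obtain ⟨c, hc⟩ := hspan ⟨(M - 1) *ᵥ x, ⟨x, rfl⟩⟩
    exact ⟨c, congrArg Subtype.val hc⟩
  choose φ hφ using hex
  have hMx : ∀ x, M *ᵥ x = x + φ x • a := by
    intro x
    rw [hφ, sub_mulVec, one_mulVec]
    abel
  obtain ⟨x0, hx0⟩ : ∃ x0, (M - 1) *ᵥ x0 = a := v0.2
  have hφx0 : φ x0 = 1 := by
    have h1 : (φ x0 - 1) • a = 0 := by rw [sub_smul, one_smul, hφ, hx0, sub_self]
    rcases smul_eq_zero.1 h1 with h2 | h2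
    · linear_combination h2
    · exact absurd h2 ha0
  have hφa : φ a = 0 := by
    have h1 : φ a • a = 0 := by
      rw [hφ, ← hx0, mulVec_mulVec, hsq, zero_mulVec]
    rcases smul_eq_zero.1 h1 with h2 | h2
    · exact h2
    · exact absurd h2 ha0
  have haa : Cfsg.hermForm n K q a a = 0 := by
    have h1 := hU a x0
    rw [hMx, hMx, hφa, hφx0, zero_smul, add_zero, one_smul, hH.add_right] at h1
    linear_combination h1
  have hxa : ∀ x, Cfsg.hermForm n K q x a = - φ x * Cfsg.hermForm n K q a x0 := by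
    intro x
    have h1 := hU x x0
    rw [hMx, hMx, hφx0, one_smul, hH.add_left, hH.add_right, hH.add_right, hH.smul_left,
      hH.smul_left, haa] at h1
    linear_combination h1
  have hd : Cfsg.hermForm n K q a x0 ≠ 0 := by
    intro h
    obtain ⟨x, hx⟩ := hH.nondeg a ha0
    apply hx
    rw [hxa, h, mul_zero]
  refine ⟨a, -(Cfsg.hermForm n K q a x0)⁻¹, ha0, haa, neg_ne_zero.2 (inv_ne_zero hd), ?_⟩
  apply Matrix.mulVec_injective
  funext x
  rw [hMx, unitaryTransvection_mulVec, hxa]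
  congr 2
  field_simp

/-- In the special unitary group SU_n(q) with n ≥ 3 (isometries of Σ u_i v_i^q of determinant one over the field with q² elements), any two transvections (elements t with t − 1 of rank one and square zero) are conjugate. -/
theorem result {K : Type*} [Field K] [Fintype K] {q n : ℕ} (hK : Fintype.card K = q ^ 2) (hn : 3 ≤ n) (s t : ↥(Cfsg.SU n K q)) (hs : Cfsg.IsTransvection (((s : GL (Fin n) K) : Matrix (Fin n) (Fin n) K))) (ht : Cfsg.IsTransvection (((t : GL (Fin n) K) : Matrix (Fin n) (Fin n) K))) : IsConj s t := by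
  have hH := herm_concrete hK n
  obtain ⟨v, c, hv, hvv, hc, hsM⟩ := transv_char hK _ hs s.2
  obtain ⟨v', c', hv', hvv', hc', htM⟩ := transv_char hK _ ht t.2
  -- trace conditions
  have htr : ∀ (w : Fin n → K) (d : K), w ≠ 0 → Cfsg.hermForm n K q w w = 0 →
      (∀ x y, Cfsg.hermForm n K q (Cfsg.unitaryTransvection n q w d *ᵥ x)
        (Cfsg.unitaryTransvection n q w d *ᵥ y) = Cfsg.hermForm n K q x y) → d + sig hK d = 0 := by
    intro w d hw hww hU
    obtain ⟨x, hx⟩ := hH.nondeg w hw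
    have h1 := hU x x
    rw [unitaryTransvection_mulVec, hH.add_left, hH.add_right, hH.add_right, hH.smul_left,
      hH.smul_left, hH.smul_right, hH.smul_right, hww, map_mul, ← hH.herm w x] at h1
    have h2 : (d + sig hK d) * (Cfsg.hermForm n K q x w * Cfsg.hermForm n K q w x) = 0 := by
      linear_combination h1
    rcases mul_eq_zero.1 h2 with h3 | h3
    · exact h3
    · exfalso
      rcases mul_eq_zero.1 h3 with h4 | h4
      · exact hx h4
      · exact hx (hH.swap_zero h4)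
  have hctr : c + sig hK c = 0 := htr v c hv hvv (by rw [← hsM]; exact s.2)
  have hctr' : c' + sig hK c' = 0 := htr v' c' hv' hvv' (by rw [← htM]; exact t.2)
  obtain ⟨μ, hμ⟩ := hH.norm_surj (c' / c) (by
    have h1 : sig hK c = -c := by linear_combination hctr
    have h2 : sig hK c' = -c' := by linear_combination hctr'
    rw [map_div₀, h1, h2, neg_div_neg_eq])
  have hμ0 : μ ≠ 0 := by
    rintro rfl
    rw [zero_mul] at hμ
    exact (div_ne_zero hc' hc) hμ.symm
  -- Witt
  obtain ⟨g0, hg0U, hg0⟩ := witt_fam_U hK n (fun _ : Unit => v) (fun _ : Unit => μ • v')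
    (LinearIndependent.of_subsingleton () hv)
    (LinearIndependent.of_subsingleton () (smul_ne_zero hμ0 hv'))
    (by intro _ _; rw [hvv, hH.smul_left, hH.smul_right, hvv']; simp)
  have hg0v : (g0 : Matrix (Fin n) (Fin n) K) *ᵥ v = μ • v' := hg0 ()
  -- determinant correction
  obtain ⟨u, hu1, hu2⟩ := hH.exists_perp {v'} (by simp; omega) 1 (map_one _)
  have huv' : Cfsg.hermForm n K q u v' = 0 := hu1 v' (by simp)
  set d := (g0 : Matrix (Fin n) (Fin n) K).det with hd
  have hdN : d ^ (q + 1) = 1 := det_pow_of_isU hK _ ((mem_GU_iff hK g0).1 hg0U)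
  have hd0 : d ≠ 0 := by
    rintro h
    rw [h, zero_pow (by omega)] at hdN
    exact zero_ne_one hdN
  set e := d⁻¹ - 1 with he
  have hee : e + e ^ q + e * e ^ q * Cfsg.hermForm n K q u u = 0 := by
    rw [hu2, ← sig_apply hK, he, map_sub, map_inv₀, map_one, sig_apply]
    have h1 : d * d ^ q = 1 := by rw [← pow_succ']; exact hdN
    have hdq : d ^ q ≠ 0 := pow_ne_zero _ hd0
    field_simp
    linear_combination -h1
  set R := Cfsg.unitaryTransvection n q u e with hR
  have hdet : (R * (g0 : Matrix (Fin n) (Fin n) K)).det = 1 := by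
    rw [det_mul, hR, unitaryTransvection_det, hu2, he, ← hd]
    field_simp
    ring
  set g : ↥(Cfsg.SU n K q) := ⟨⟨R * (g0 : Matrix (Fin n) (Fin n) K), hdet⟩, by
    intro x y
    change Cfsg.hermForm n K q ((R * (g0 : Matrix (Fin n) (Fin n) K)) *ᵥ x)
      ((R * (g0 : Matrix (Fin n) (Fin n) K)) *ᵥ y) = _
    rw [← mulVec_mulVec, ← mulVec_mulVec, hR, qrefl_isom hK n u e hee]
    exact hg0U x y⟩ with hg
  have hgU : ∀ x y, Cfsg.hermForm n K q ((R * (g0 : Matrix (Fin n) (Fin n) K)) *ᵥ x)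
      ((R * (g0 : Matrix (Fin n) (Fin n) K)) *ᵥ y) = Cfsg.hermForm n K q x y := g.2
  have hgv : (R * (g0 : Matrix (Fin n) (Fin n) K)) *ᵥ v = μ • v' := by
    rw [← mulVec_mulVec, hg0v, hR, unitaryTransvection_mulVec, hH.smul_left, hH.swap_zero huv']
    simp
  rw [isConj_iff]
  refine ⟨g, ?_⟩
  rw [mul_inv_eq_iff_eq_mul]
  apply Subtype.ext
  apply Subtype.ext
  apply Matrix.mulVec_injective
  funext x
  change ((R * (g0 : Matrix (Fin n) (Fin n) K)) * ((s : GL (Fin n) K) : Matrix (Fin n) (Fin n) K)) *ᵥ x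
    = (((t : GL (Fin n) K) : Matrix (Fin n) (Fin n) K) * (R * (g0 : Matrix (Fin n) (Fin n) K))) *ᵥ x
  rw [hsM, htM, ← mulVec_mulVec, ← mulVec_mulVec (M := Cfsg.unitaryTransvection n q v' c'),
    unitaryTransvection_mulVec, unitaryTransvection_mulVec, mulVec_add, mulVec_smul, hgv]
  congr 1
  have h1 : Cfsg.hermForm n K q ((R * (g0 : Matrix (Fin n) (Fin n) K)) *ᵥ x) (μ • v')
      = Cfsg.hermForm n K q x v := by rw [← hgv, hgU]
  rw [hH.smul_right] at h1
  rw [smul_smul]
  congr 1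
  have hσμ : sig hK μ ≠ 0 := by
    intro h
    apply hμ0
    rw [← sig_sig hK μ, h, map_zero]
  have h2 : c' = c * (μ * sig hK μ) := by rw [hμ]; field_simp
  rw [← h1, h2]
  ring

end Cfsg.Agent.S2644
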