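import Cfsg.Statements.S1631
import Cfsg.Agent.Lib.Helper17SUPrim
import Cfsg.Agent.S2644
import Cfsg.Agent.S0779

set_option autoImplicit false
open Cfsg

namespace Cfsg.Agent.S1631

open Matrix Cfsg.Agent.Lib.Helper17HermC Cfsg.Agent.Lib.Helper17Heis Cfsg.Agent.Lib.Helper17UWitt
  Cfsg.Agent.Lib.Helper95Herm Cfsg.Agent.Lib.Helper7Herm Cfsg.Agent.S0780
  Cfsg.Agent.Lib.Helper17SUPrim

/-- rank one and determinant one give a transvection -/
theorem isTransvection_of_rank_one {F : Type*} [Field F] {n : ℕ} (M : Matrix (Fin n) (Fin n) F)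
    (hr : (M - 1).rank = 1) (hdet : M.det = 1) : Cfsg.IsTransvection M := by
  refine ⟨hr, ?_⟩
  obtain ⟨v0, hv0, hspan⟩ := finrank_eq_one_iff'.1 hr
  set a : Fin n → F := (v0 : Fin n → F) with ha
  have hex : ∀ x, ∃ c : F, c • a = (M - 1) *ᵥ x := by
    intro x
    obtain ⟨c, hc⟩ := hspan ⟨(M - 1) *ᵥ x, ⟨x, rfl⟩⟩
    exact ⟨c, congrArg Subtype.val hc⟩
  choose φ hφ using hex
  have hM : M - 1 = vecMulVec a (fun j => φ (Pi.single j 1)) := by
    ext i j
    have h1 := congrFun (hφ (Pi.single j 1)) i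
    rw [mulVec_single_one] at h1
    rw [vecMulVec_apply, mul_comm]
    exact h1.symm
  have hM' : M = 1 + vecMulVec a (fun j => φ (Pi.single j 1)) := by
    rw [← hM]; abel
  rw [hM', Matrix.vecMulVec_eq Unit, Matrix.det_one_add_replicateCol_mul_replicateRow] at hdet
  have h0 : (fun j => φ (Pi.single j 1)) ⬝ᵥ a = 0 := by linear_combination hdet
  rw [hM, vecMulVec_mul_vecMulVec, h0, zero_smul]
  ext i j
  simp [vecMulVec_apply]

variable {F : Type} [Field F] [Fintype F] {n : ℕ}

local notation "H" => Cfsg.hermForm n F 2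

omit [Field F] in
theorem card' (hF : Fintype.card F = 4) : Fintype.card F = 2 ^ 2 := by rw [hF]; norm_num

theorem two_eq_zero (hF : Fintype.card F = 4) : (2 : F) = 0 := by
  have h1 := sig_apply (card' hF) (2 : F)
  rw [map_ofNat] at h1
  linear_combination (-1 : F) * h1

theorem mul_sig_eq_one (hF : Fintype.card F = 4) (a : F) (ha : a ≠ 0) :
    a * sig (card' hF) a = 1 := by
  have h1 := FiniteField.pow_card_sub_one_eq_one a ha
  rw [hF] at h1
  rw [sig_apply]
  linear_combination h1

/-- `g` is the transvection with centre `v`. -/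
def IsT (g : ↥(Cfsg.SU n F 2)) (v : Fin n → F) : Prop :=
  v ≠ 0 ∧ H v v = 0 ∧ ∀ x, Th n F 2 g x = x + H x v • v

theorem exists_isT (hF : Fintype.card F = 4) (g : ↥(Cfsg.SU n F 2))
    (hg : (((g : Matrix.SpecialLinearGroup (Fin n) F) : Matrix (Fin n) (Fin n) F) - 1).rank = 1) :
    ∃ v, IsT g v := by
  have h2 := two_eq_zero hF
  have hT := isTransvection_of_rank_one _ hg (g : Matrix.SpecialLinearGroup (Fin n) F).2
  obtain ⟨v, c, hv0, hv, hc, hM⟩ := Cfsg.Agent.S2644.transv_char (card' hF) _ hT g.2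
  have h1 := (Cfsg.Agent.S0779.result (card' hF) n v hv0 hv c).1 (by rw [← hM]; exact g.2)
  have hc1 : c = 1 := by
    rcases h1 with h1 | h1
    · exact absurd h1 hc
    · norm_num at h1
      linear_combination h1 - h2
  refine ⟨v, hv0, hv, fun x => ?_⟩
  rw [Th_apply, hM, unitaryTransvection_mulVec, hc1, one_mul]

theorem rank_of_isT (hF : Fintype.card F = 4) (g : ↥(Cfsg.SU n F 2)) (v : Fin n → F)
    (hg : IsT g v) :
    (((g : Matrix.SpecialLinearGroup (Fin n) F) : Matrix (Fin n) (Fin n) F) - 1).rank = 1 := by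
  have hH := herm_concrete (card' hF) n
  obtain ⟨hv0, hv, hx⟩ := hg
  have hM : ((g : Matrix.SpecialLinearGroup (Fin n) F) : Matrix (Fin n) (Fin n) F) - 1
      = vecMulVec v (fun j => v j ^ 2) := by
    apply Matrix.mulVec_injective
    funext x
    rw [sub_mulVec, one_mulVec, vmv, ← Th_apply, hx, add_sub_cancel_left]
  have h1 := rank_vecMulVec_le v (fun j => v j ^ 2)
  rw [← hM] at h1
  have h2 : (((g : Matrix.SpecialLinearGroup (Fin n) F) : Matrix (Fin n) (Fin n) F) - 1).rank ≠ 0 := by
    intro h0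
    have h0' : LinearMap.range
        (((g : Matrix.SpecialLinearGroup (Fin n) F) : Matrix (Fin n) (Fin n) F) - 1).mulVecLin = ⊥ :=
      Submodule.finrank_eq_zero.1 h0
    obtain ⟨x, hxv⟩ := hH.nondeg v hv0
    have h3 := hx x
    rw [Th_apply] at h3
    have h4 : (((g : Matrix.SpecialLinearGroup (Fin n) F) : Matrix (Fin n) (Fin n) F) - 1) *ᵥ x
        = H x v • v := by rw [sub_mulVec, one_mulVec, h3, add_sub_cancel_left]
    have h6 : (((g : Matrix.SpecialLinearGroup (Fin n) F) : Matrix (Fin n) (Fin n) F) - 1) *ᵥ x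
        ∈ LinearMap.range
        (((g : Matrix.SpecialLinearGroup (Fin n) F) : Matrix (Fin n) (Fin n) F) - 1).mulVecLin :=
      ⟨x, rfl⟩
    rw [h0', Submodule.mem_bot, h4] at h6
    rcases smul_eq_zero.1 h6 with h5 | h5
    · exact hxv h5
    · exact hv0 h5
  omega

theorem isT_sq (hF : Fintype.card F = 4) (g : ↥(Cfsg.SU n F 2)) (v : Fin n → F)
    (hg : IsT g v) : g * g = 1 := by
  have hH := herm_concrete (card' hF) n
  have h2 := two_eq_zero hF
  obtain ⟨hv0, hv, hx⟩ := hg
  apply Th_ext
  intro x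
  rw [Th_mul, hx, hx, hH.add_left, hH.smul_left, hv, mul_zero, add_zero, Th_one, add_assoc,
    ← add_smul]
  have : H x v + H x v = 0 := by linear_combination H x v * h2
  rw [this, zero_smul, add_zero]

theorem isT_ne_one (hF : Fintype.card F = 4) (g : ↥(Cfsg.SU n F 2)) (v : Fin n → F)
    (hg : IsT g v) : g ≠ 1 := by
  have hH := herm_concrete (card' hF) n
  obtain ⟨hv0, hv, hx⟩ := hg
  rintro rfl
  obtain ⟨x, hxv⟩ := hH.nondeg v hv0
  have h1 := hx x
  rw [Th_one] at h1
  have h2 : H x v • v = 0 := by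
    have := h1.symm
    rwa [add_eq_left] at this
  rcases smul_eq_zero.1 h2 with h3 | h3
  · exact hxv h3
  · exact hv0 h3

theorem isT_prod (hF : Fintype.card F = 4) (d e : ↥(Cfsg.SU n F 2)) (v w : Fin n → F)
    (hd : IsT d v) (he : IsT e w) : (d * e) ^ 2 = 1 ∨ (d * e) ^ 3 = 1 := by
  have hH := herm_concrete (card' hF) n
  have h2 := two_eq_zero hF
  have hdd := isT_sq hF d v hd
  have hee := isT_sq hF e w he
  obtain ⟨hv0, hv, hdx⟩ := hd
  obtain ⟨hw0, hw, hex⟩ := he
  by_cases h : H v w = 0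
  · left
    have h' := hH.swap_zero h
    have hcomm : d * e = e * d := by
      apply Th_ext
      intro x
      simp only [Th_mul, hdx, hex, hH.add_left, hH.smul_left, h, h', mul_zero, add_zero]
      abel
    calc (d * e) ^ 2 = d * (e * d) * e := by rw [pow_two]; group
      _ = d * (d * e) * e := by rw [hcomm]
      _ = (d * d) * (e * e) := by group
      _ = 1 := by rw [hdd, hee, one_mul]
  · right
    have hab : H v w * H w v = 1 := by
      rw [hH.herm w v]
      exact mul_sig_eq_one hF _ h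
    have hbraid : d * e * d = e * d * e := by
      apply Th_ext
      intro x
      simp only [Th_mul, hdx, hex, hH.add_left, hH.smul_left, hv, hw, mul_zero, add_zero]
      match_scalars
      · ring
      · linear_combination H x v * h2 + H x v * hab
      · linear_combination (-H x w) * h2 - H x w * hab
    calc (d * e) ^ 3 = (d * e * d) * (e * d * e) := by rw [pow_three]; group
      _ = (e * d * e) * (e * d * e) := by rw [hbraid]
      _ = e * d * (e * e) * d * e := by group
      _ = e * (d * d) * e := by rw [hee]; group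
      _ = 1 := by rw [hdd, mul_one, hee]

omit [Fintype F] in
theorem isT_conj (k g : ↥(Cfsg.SU n F 2)) (v : Fin n → F) (hg : IsT g v) :
    IsT (k * g * k⁻¹) (Th n F 2 k v) := by
  obtain ⟨hv0, hv, hx⟩ := hg
  refine ⟨Th_ne_zero k hv0, Th_iso k hv, fun x => ?_⟩
  rw [Th_mul, Th_mul, hx, map_add, map_smul, Th_apply_inv]
  congr 2
  rw [← Th_isom k, Th_apply_inv]

theorem exists_iso (hF : Fintype.card F = 4) (hn : 3 ≤ n) : ∃ v : Fin n → F, v ≠ 0 ∧ H v v = 0 := by
  have hH := herm_concrete (card' hF) n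
  have hfr : Module.finrank F (Fin n → F) = n := Module.finrank_fin_fun F
  obtain ⟨e1, -, he1⟩ := hH.exists_perp ∅ (by rw [hfr]; simp; omega) 1 (map_one _)
  obtain ⟨e2, he2, he2'⟩ := hH.exists_perp {e1} (by rw [hfr]; simp; omega) (-1)
    (by rw [map_neg, map_one])
  have h21 : H e2 e1 = 0 := he2 e1 (by simp)
  have h12 := hH.swap_zero h21
  refine ⟨e1 + e2, ?_, ?_⟩
  · intro h0
    have h1 := congrArg (fun x => H x e1) h0
    simp only [hH.add_left, he1, h21, add_zero, hH.zero_left] at h1
    exact one_ne_zero h1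
  · rw [hH.add_left, hH.add_right, hH.add_right, he1, he2', h21, h12]
    ring

/-- The unitary transvections of SU(n, 2), n ≥ 4, form a generating conjugacy class of 3-transpositions. -/
theorem result (F : Type) [Field F] [Fintype F] [DecidableEq F] (hF : Fintype.card F = 4) (n : ℕ) (hn : 4 ≤ n) : Cfsg.IsThreeTranspositionClass {g : ↥(Cfsg.SU n F 2) | (((g : Matrix.SpecialLinearGroup (Fin n) F) : Matrix (Fin n) (Fin n) F) - 1).rank = 1} := by
  have hH := herm_concrete (card' hF) n
  have h2 := two_eq_zero hF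
  refine ⟨⟨?_, ?_⟩, ?_, ?_⟩
  · intro d hd
    obtain ⟨v, hv⟩ := exists_isT hF d hd
    exact orderOf_eq_prime (by rw [pow_two]; exact isT_sq hF d v hv) (isT_ne_one hF d v hv)
  · intro d hd e he
    obtain ⟨v, hv⟩ := exists_isT hF d hd
    obtain ⟨w, hw⟩ := exists_isT hF e he
    exact isT_prod hF d e v w hv hw
  · obtain ⟨v, hv0, hv⟩ := exists_iso hF (n := n) (by omega)
    have hz : (1 : F) + sig (card' hF) 1 = 0 := by
      rw [map_one]
      linear_combination h2
    have hd0 : IsT (TSU (card' hF) v 1 hv hz) v :=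
      ⟨hv0, hv, fun x => by rw [Th_TSU, one_mul]⟩
    have hr0 := rank_of_isT hF _ v hd0
    refine ⟨TSU (card' hF) v 1 hv hz, hr0, ?_⟩
    ext g
    change _ ↔ IsConj _ g
    rw [Set.mem_ofPred_eq]
    constructor
    · intro hg
      exact Cfsg.Agent.S2644.result (card' hF) (by omega) _ g
        (isTransvection_of_rank_one _ hr0 (Subtype.val (TSU (card' hF) v 1 hv hz)).2)
        (isTransvection_of_rank_one _ hg (g : Matrix.SpecialLinearGroup (Fin n) F).2)
    · intro hg
      obtain ⟨k, hk⟩ := isConj_iff.1 hg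
      rw [← hk]
      exact rank_of_isT hF _ _ (isT_conj k _ v hd0)
  · rw [eq_top_iff, ← Cfsg.Agent.S0780.result (card' hF) n (by omega) (by omega), Subgroup.closure_le]
    rintro A ⟨v, c, hv, hA⟩
    by_cases h1 : A = 1
    · rw [h1]; exact one_mem _
    apply Subgroup.subset_closure
    have hv0 : v ≠ 0 := by
      rintro rfl
      apply h1
      apply Subtype.ext
      apply Subtype.ext
      rw [hA]
      simp [Cfsg.unitaryTransvection]
    have hc0 : c ≠ 0 := by
      rintro rfl
      apply h1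
      apply Subtype.ext
      apply Subtype.ext
      rw [hA]
      simp [Cfsg.unitaryTransvection]
    have h3 := (Cfsg.Agent.S0779.result (card' hF) n v hv0 hv c).1 (by rw [← hA]; exact A.2)
    have hc1 : c = 1 := by
      rcases h3 with h3 | h3
      · exact absurd h3 hc0
      · norm_num at h3
        linear_combination h3 - h2
    apply rank_of_isT hF A v
    refine ⟨hv0, hv, fun x => ?_⟩
    rw [Th_apply, hA, unitaryTransvection_mulVec, hc1, one_mul]

end Cfsg.Agent.S1631
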