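import Cfsg.Statements.S1636
import Cfsg.Agent.Lib.Helper9Golay23

set_option autoImplicit false
open Cfsg

namespace Cfsg.Agent.S1636

open Cfsg.Agent.Lib.Helper9Golay Cfsg.Agent.Lib.Helper9Golay23

theorem c7 : ((Finset.range 4096).filter (fun k => popc 23 (code k) = 7)).card = 253 := by
  decide +kernel
theorem c8 : ((Finset.range 4096).filter (fun k => popc 23 (code k) = 8)).card = 506 := by
  decide +kernel
theorem c11 : ((Finset.range 4096).filter (fun k => popc 23 (code k) = 11)).card = 1288 := by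
  decide +kernel
theorem c12 : ((Finset.range 4096).filter (fun k => popc 23 (code k) = 12)).card = 1288 := by
  decide +kernel
theorem c15 : ((Finset.range 4096).filter (fun k => popc 23 (code k) = 15)).card = 506 := by
  decide +kernel
theorem c16 : ((Finset.range 4096).filter (fun k => popc 23 (code k) = 16)).card = 253 := by
  decide +kernel

/-- The punctured length-23 code has weight distribution 0^1 7^253 8^506 11^1288 12^1288 15^506 16^253 23^1. -/
theorem result : {u : ZMod 23 → ZMod 2 | ∃ w ∈ Cfsg.golayCode, ∀ x : ZMod 23, u x = w (some x)}.ncard = 4096 ∧ {u : ZMod 23 → ZMod 2 | u ∈ {u : ZMod 23 → ZMod 2 | ∃ w ∈ Cfsg.golayCode, ∀ x : ZMod 23, u x = w (some x)} ∧ hammingNorm u = 7}.ncard = 253 ∧ {u : ZMod 23 → ZMod 2 | u ∈ {u : ZMod 23 → ZMod 2 | ∃ w ∈ Cfsg.golayCode, ∀ x : ZMod 23, u x = w (some x)} ∧ hammingNorm u = 8}.ncard = 506 ∧ {u : ZMod 23 → ZMod 2 | u ∈ {u : ZMod 23 → ZMod 2 | ∃ w ∈ Cfsg.golayCode,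 ∀ x : ZMod 23, u x = w (some x)} ∧ hammingNorm u = 11}.ncard = 1288 ∧ {u : ZMod 23 → ZMod 2 | u ∈ {u : ZMod 23 → ZMod 2 | ∃ w ∈ Cfsg.golayCode, ∀ x : ZMod 23, u x = w (some x)} ∧ hammingNorm u = 12}.ncard = 1288 ∧ {u : ZMod 23 → ZMod 2 | u ∈ {u : ZMod 23 → ZMod 2 | ∃ w ∈ Cfsg.golayCode, ∀ x : ZMod 23, u x = w (some x)} ∧ hammingNorm u = 15}.ncard = 506 ∧ {u : ZMod 23 → ZMod 2 | u ∈ {u : ZMod 23 → ZMod 2 | ∃ w ∈ Cfsg.golayCode, ∀ x : ZMod 23, u x = w (some x)} ∧ hammingNorm u = 16}.ncard = 253 ∧ ∀ u ∈ {u : ZMod 23 → ZMod 2 | ∃ w ∈ Cfsg.golayCode, ∀ x : ZMod 23, u x = w (some x)}, u ≠ 0 → 7 ≤ hammingNorm u := by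
  exact ⟨ncard_C23, (ncard_weight 7).trans c7, (ncard_weight 8).trans c8,
    (ncard_weight 11).trans c11, (ncard_weight 12).trans c12, (ncard_weight 15).trans c15,
    (ncard_weight 16).trans c16, fun u hu h0 => seven_le hu h0⟩


end Cfsg.Agent.S1636
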