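import Cfsg.Statements.S1641
import Cfsg.Agent.S1640

set_option autoImplicit false
open Cfsg
open Cfsg.Agent.Lib.Helper33LFrame Cfsg.Agent.Lib.Helper33LMcL Cfsg.Agent.Lib.Helper33LCo0 Cfsg.Agent.Lib.Helper33LHS Cfsg.Agent.Lib.Helper33LHS2 Cfsg.Agent.Lib.Helper33LPair Cfsg.Agent.Lib.Helper33LBase

namespace Cfsg.Agent.S1641

theorem pick (F : List LV) (ks : List ℤ) (n : ℕ) (h : (C F ks).ncard = n) (hn : n ≠ 0) :
    ∃ y, y ∈ C F ks := Set.nonempty_of_ncard_ne_zero (by rw [h]; exact hn)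

/-- The third Conway group acts on the 11178 cosets of the Higman–Sims group with rank 5 and subdegrees 1, 352, 1100, 4125, 5600. -/
theorem result (u x : ↥Cfsg.leechLattice) (hu : Cfsg.sqNorm (u : Cfsg.GolayPt → ℤ) = 48) (hx : x ∈ {x : ↥Cfsg.leechLattice | Cfsg.sqNorm (x : Cfsg.GolayPt → ℤ) = 32 ∧ Cfsg.dotInt (u : Cfsg.GolayPt → ℤ) (x : Cfsg.GolayPt → ℤ) = -16}) : ∃ y₁ ∈ {x : ↥Cfsg.leechLattice | Cfsg.sqNorm (x : Cfsg.GolayPt → ℤ) = 32 ∧ Cfsg.dotInt (u : Cfsg.GolayPt → ℤ) (x : Cfsg.GolayPt → ℤ) = -16}, ∃ y₂ ∈ {x : ↥Cfsg.leechLattice | Cfsg.sqNorm (x : Cfsg.GolayPt → ℤ) = 32 ∧ Cfsg.dotInt (u : Cfsg.GolayPt → ℤ) (x : Cfsg.GolayPt → ℤ) = -16}, ∃ y₃ ∈ {x : ↥Cfsg.leechLattice | Cfsg.sqNorm (x : Cfsg.GolayPt → ℤ) = 32 ∧ Cfsg.dotInt (u : Cfsg.GolayPt → ℤ) (x : Cfsg.GolayPt → ℤ) = -16}, ∃ y₄ ∈ {x : ↥Cfsg.leechLattice | Cfsg.sqNorm (x : Cfsg.GolayPt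 → ℤ) = 32 ∧ Cfsg.dotInt (u : Cfsg.GolayPt → ℤ) (x : Cfsg.GolayPt → ℤ) = -16}, (MulAction.orbit ↥(MulAction.stabilizer ↥Cfsg.Co0 u ⊓ MulAction.stabilizer ↥Cfsg.Co0 x) y₁).ncard = 352 ∧ (MulAction.orbit ↥(MulAction.stabilizer ↥Cfsg.Co0 u ⊓ MulAction.stabilizer ↥Cfsg.Co0 x) y₂).ncard = 1100 ∧ (MulAction.orbit ↥(MulAction.stabilizer ↥Cfsg.Co0 u ⊓ MulAction.stabilizer ↥Cfsg.Co0 x) y₃).ncard = 4125 ∧ (MulAction.orbit ↥(MulAction.stabilizer ↥Cfsg.Co0 u ⊓ MulAction.stabilizer ↥Cfsg.Co0 x) y₄).ncard = 5600 ∧ {x : ↥Cfsg.leechLattice | Cfsg.sqNorm (x : Cfsg.GolayPt → ℤ) = 32 ∧ Cfsg.dotInt (u : Cfsg.GolayPt → ℤ) (x : Cfsg.GolayPt → ℤ) = -16} = {x} ∪ MulAction.orbit ↥(MulAction.stabilizer ↥Cfsg.Co0 u ⊓ MulAction.stabilizer ↥Cfsg.Co0 x) y₁ ∪ MulAction.orbit ↥(MulAction.stabilizer ↥Cfsg.Co0 u ⊓ MulAction.stabilizer ↥Cfsg.Co0 x) y₂ ∪ MulAction.orbit ↥(MulAction.stabilizer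 ↥Cfsg.Co0 u ⊓ MulAction.stabilizer ↥Cfsg.Co0 x) y₃ ∪ MulAction.orbit ↥(MulAction.stabilizer ↥Cfsg.Co0 u ⊓ MulAction.stabilizer ↥Cfsg.Co0 x) y₄ := by
  rw [S1640.setm16 u] at hx ⊢
  obtain ⟨g, hg⟩ := mvUH u x hu hx
  have hH : ∀ k, k ∈ MulAction.stabilizer ↥Cfsg.Co0 u ⊓ MulAction.stabilizer ↥Cfsg.Co0 x ↔
      Fixes k [u, x] := by
    intro k
    simp [Fixes, Subgroup.mem_inf, MulAction.mem_stabilizer_iff]
  have T : ∀ k, Trans [u, x] [-16, k] := fun k => trans_mv g _ _ (hg ▸ TH k)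
  have N : ∀ (s n : ℕ) (k : ℤ), 4 * (s : ℤ) - 128 = k →
      (Cfsg.Agent.Lib.Helper33LLm16.lst.filter (cH s)).length = n → (C [u, x] [-16, k]).ncard = n := by
    intro s n k h hl
    rw [ncard_mv g, hg]; exact nH s n k h hl
  have sub : ∀ k y, y ∈ C [u, x] [-16, k] → y ∈ C [u] [-16] :=
    fun k y hy => ((mem_C_append [u] [-16] x y k rfl).1 hy).1
  have n1 := N 30 352 (-8) (by norm_num) len352
  have n2 := N 36 1100 16 (by norm_num) len1100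
  have n3 := N 32 4125 0 (by norm_num) len4125
  have n4 := N 34 5600 8 (by norm_num) len5600
  obtain ⟨y1, h1⟩ := pick _ _ _ n1 (by norm_num)
  obtain ⟨y2, h2⟩ := pick _ _ _ n2 (by norm_num)
  obtain ⟨y3, h3⟩ := pick _ _ _ n3 (by norm_num)
  obtain ⟨y4, h4⟩ := pick _ _ _ n4 (by norm_num)
  refine ⟨y1, sub _ _ h1, y2, sub _ _ h2, y3, sub _ _ h3, y4, sub _ _ h4, ?_⟩
  rw [orbit_eq _ _ y1 h1 (T _) _ hH, orbit_eq _ _ y2 h2 (T _) _ hH, orbit_eq _ _ y3 h3 (T _) _ hH,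
    orbit_eq _ _ y4 h4 (T _) _ hH]
  refine ⟨n1, n2, n3, n4, ?_⟩
  ext y
  simp only [Set.mem_union, Set.mem_singleton_iff]
  constructor
  · intro hy
    simp only [mv, List.map_cons, List.map_nil, List.cons.injEq, and_true] at hg
    have hy' : g • y ∈ C [DL u0c] [-16] := by
      have := (mem_C_mv g [u] [-16] y).2 hy
      simpa [mv, hg.1] using this
    have mem : ∀ k, Cfsg.dotInt (x : Cfsg.GolayPt → ℤ) (y : Cfsg.GolayPt → ℤ) = k →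
        y ∈ C [u, x] [-16, k] := fun k hk => (mem_C_append [u] [-16] x y k rfl).2 ⟨hy, hk⟩
    rcases valsH_spec _ hy' with h | h | h | h | h
    · rw [← hg.2] at h
      exact Or.inl (Or.inl (Or.inl (Or.inl (MulAction.injective g h))))
    · rw [← hg.2, dot_smul'] at h
      exact Or.inl (Or.inl (Or.inl (Or.inr (mem _ h))))
    · rw [← hg.2, dot_smul'] at h
      exact Or.inl (Or.inr (mem _ h))
    · rw [← hg.2, dot_smul'] at h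
      exact Or.inr (mem _ h)
    · rw [← hg.2, dot_smul'] at h
      exact Or.inl (Or.inl (Or.inr (mem _ h)))
  · rintro ((((h | h) | h) | h) | h)
    · rw [h]; exact hx
    all_goals exact sub _ _ h

end Cfsg.Agent.S1641
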