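import Cfsg.Statements.S1642
import Cfsg.Agent.Lib.Helper33LHSInv

set_option autoImplicit false
open Cfsg
open Cfsg.Agent.Lib.Helper33LFrame Cfsg.Agent.Lib.Helper33LMcL Cfsg.Agent.Lib.Helper33LCo0 Cfsg.Agent.Lib.Helper33LHS Cfsg.Agent.Lib.Helper33LHS2 Cfsg.Agent.Lib.Helper33LPair Cfsg.Agent.Lib.Helper33LBase Cfsg.Agent.Lib.Helper33LHSInv

namespace Cfsg.Agent.S1642


/-- Some involution of the Higman–Sims group acts without fixed points on its 100 points. -/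
theorem result (v w : ↥Cfsg.leechLattice) (hv : Cfsg.sqNorm (v : Cfsg.GolayPt → ℤ) = 48) (hw : Cfsg.sqNorm (w : Cfsg.GolayPt → ℤ) = 48) (hvw : Cfsg.dotInt (v : Cfsg.GolayPt → ℤ) (w : Cfsg.GolayPt → ℤ) = -32) : ∃ g : ↥Cfsg.Co0, g • v = v ∧ g • w = w ∧ orderOf g = 2 ∧ ∀ x ∈ {x : ↥Cfsg.leechLattice | Cfsg.sqNorm (x : Cfsg.GolayPt → ℤ) = 32 ∧ Cfsg.dotInt (v : Cfsg.GolayPt → ℤ) (x : Cfsg.GolayPt → ℤ) = 24 ∧ Cfsg.dotInt (w : Cfsg.GolayPt → ℤ) (x : Cfsg.GolayPt → ℤ) = -24}, g • x ≠ x := by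
  obtain ⟨g, hg⟩ := mvVW v w hv hw hvw
  rw [set100 v w]
  have hfix : Fixes (g⁻¹ * toCo0 invP * g) [v, mOf v w] := fixes_conj g _ _ (hg ▸ fixes)
  obtain ⟨e1, e2⟩ := fix_w _ v w [] hfix
  have hmove : ∀ x ∈ C [v, mOf v w] [24, 0], (g⁻¹ * toCo0 invP * g) • x ≠ x := by
    intro x hx h
    have hx' : g • x ∈ C [DL u0c, DL xhc] [24, 0] := hg ▸ (mem_C_mv g _ _ x).2 hx
    apply moves _ hx'
    rw [mul_smul, mul_smul, inv_smul_eq_iff] at h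
    exact h
  refine ⟨g⁻¹ * toCo0 invP * g, e1, e2, ?_, hmove⟩
  apply orderOf_eq_prime
  · have : (g⁻¹ * toCo0 invP * g) ^ 2 = g⁻¹ * (toCo0 invP * toCo0 invP) * g := by
      rw [sq]; group
    rw [this, sq_one]; group
  · intro h1
    have hn : (C [v, mOf v w] [24, 0]).ncard = 100 := by rw [ncard_mv g, hg, n100]
    obtain ⟨x, hx⟩ : (C [v, mOf v w] [24, 0]).Nonempty :=
      Set.nonempty_of_ncard_ne_zero (by rw [hn]; norm_num)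
    apply hmove x hx
    rw [h1, one_smul]

end Cfsg.Agent.S1642
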