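import Cfsg.Statements.S1682
import Cfsg.Agent.Lib.Helper47HeBlk

set_option autoImplicit false
open Cfsg

namespace Cfsg.Agent.S1682



/-- In the presented Held group, the subgroup H generated by the images of a, c, d, e, f, (ab)^2 and (bcde)^7 has a normal subgroup of index 2 isomorphic to the 4-dimensional symplectic group over a field with four elements. -/
theorem result : ∃ (N : Subgroup (((Subgroup.closure ({Cfsg.Spor.He.a, Cfsg.Spor.He.c, Cfsg.Spor.He.d, Cfsg.Spor.He.e, Cfsg.Spor.He.f, (Cfsg.Spor.He.a * Cfsg.Spor.He.b) ^ 2, (Cfsg.Spor.He.b * Cfsg.Spor.He.c * Cfsg.Spor.He.d * Cfsg.Spor.He.e) ^ 7} : Set (FreeGroup Cfsg.Spor.He.Gen))).map (PresentedGroup.mk (Cfsg.Spor.coxRelators Cfsg.Spor.He.edges ∪ {r | r ∈ Cfsg.Spor.He.extra}))))) (K : Type) (_ : Field K) (_ : Fintype K), N.Normal ∧ N.index = 2 ∧ Fintype.card K = 4 ∧ Nonempty (N ≃* Matrix.symplecticGroup (Fin 2) K) := by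
  obtain ⟨N, h1, h2, h3⟩ := Cfsg.Agent.Lib.Helper47HeBlk.main
  exact ⟨N, Cfsg.Agent.Lib.Helper18F4.F4c, inferInstance, inferInstance, h1, h2,
    Cfsg.Agent.Lib.Helper18F4.F4c.card, h3⟩

end Cfsg.Agent.S1682
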