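import Cfsg.Statements.S1717
import Cfsg.Agent.Lib.H12XAgl
import Cfsg.Agent.Lib.H12XSLd
import Cfsg.Agent.Lib.H12XSLf
import Cfsg.Agent.Lib.Helper1Fitting
import Cfsg.Agent.Lib.Helper24Section

set_option autoImplicit false
open Cfsg

namespace Cfsg.Agent.S1717

/-- Let G be a finite group with an involution z whose centraliser C is isomorphic to the centraliser of a transvection of SL(5, 2). Then a Sylow 2-subgroup of C, viewed in G, is a Sylow 2-subgroup of G (its index in G is odd). -/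
theorem result {G : Type*} [Group G] [Finite G] (s : Matrix.SpecialLinearGroup (Fin 5) (ZMod 2)) (hs : (s : Matrix (Fin 5) (Fin 5) (ZMod 2)) = Matrix.transvection 0 1 1) (z : G) (hz : orderOf z = 2) (e : (Subgroup.centralizer ({z} : Set G)) ≃* Subgroup.centralizer ({s} : Set (Matrix.SpecialLinearGroup (Fin 5) (ZMod 2)))) (T : Sylow 2 (Subgroup.centralizer ({z} : Set G))) : ¬ 2 ∣ ((T : Subgroup (Subgroup.centralizer ({z} : Set G))).map (Subgroup.subtype (Subgroup.centralizer ({z} : Set G)))).index := by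
  classical
  have : Fact (Nat.Prime 2) := ⟨Nat.prime_two⟩
  have hA : Cfsg.Agent.Lib.H12XDefs.Agl 3 (Cfsg.Agent.Lib.H12XSLDefs.USL 3) (Cfsg.Agent.Lib.H12XSLDefs.MSL 3) s :=
    { elem := Cfsg.Agent.Lib.H12XSLb.elem 3
      card := Cfsg.Agent.Lib.H12XSLb.card 3
      norm := Cfsg.Agent.Lib.H12XSLc.norm
      inf := Cfsg.Agent.Lib.H12XSLc.inf 3
      faith := Cfsg.Agent.Lib.H12XSLc.faith
      full := Cfsg.Agent.Lib.H12XSLf.full
      zU := Cfsg.Agent.Lib.H12XSLa.z_mem s hs
      z1 := Cfsg.Agent.Lib.H12XSLa.z_ne_one s hs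
      cent := fun c hc => Cfsg.Agent.Lib.H12XSLd.mem_sup c (Cfsg.Agent.Lib.H12XSLd.col_zero s hs c hc) }
  obtain ⟨Q, hQ, hC, -⟩ := Cfsg.Agent.Lib.H12XAgl.agl_main (by omega) hA
  obtain ⟨-, -, -, hcen, -, hzp, -⟩ := hC
  rw [hzp] at hcen
  have hs1 : s ≠ 1 := Cfsg.Agent.Lib.H12XSLa.z_ne_one s hs
  have hz1 : z ≠ 1 := by
    intro h
    rw [h, orderOf_one] at hz
    omega
  have hs2 : s * s = 1 := by
    have := hA.elem.2 s hA.zU
    rwa [pow_two] at this
  have hzpow : ∀ x, x ∈ Subgroup.zpowers s → x = 1 ∨ x = s := by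
    rintro x ⟨i, rfl⟩
    rcases Int.even_or_odd' i with ⟨j, rfl | rfl⟩
    · left
      change s ^ (2 * j) = 1
      rw [zpow_mul, zpow_two, hs2, one_zpow]
    · right
      change s ^ (2 * j + 1) = s
      rw [zpow_add, zpow_mul, zpow_two, hs2, one_zpow, one_mul, zpow_one]
  -- elements of `C(z)` centralizing `O_2(C(z))`
  have key : ∀ y : ↥(Subgroup.centralizer ({z} : Set G)),
      (∀ r ∈ Cfsg.pCore 2 ↥(Subgroup.centralizer ({z} : Set G)), y * r = r * y) →
      ((e y : ↥(Subgroup.centralizer ({s} : Set (Matrix.SpecialLinearGroup (Fin 5) (ZMod 2))))) :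
        Matrix.SpecialLinearGroup (Fin 5) (ZMod 2)) = 1 ∨
      ((e y : ↥(Subgroup.centralizer ({s} : Set (Matrix.SpecialLinearGroup (Fin 5) (ZMod 2))))) :
        Matrix.SpecialLinearGroup (Fin 5) (ZMod 2)) = s := by
    intro y hy
    apply hzpow
    rw [← hcen, Subgroup.mem_centralizer_iff]
    intro q hq
    rw [SetLike.mem_coe, ← hQ] at hq
    obtain ⟨r', hr', rfl⟩ := hq
    rw [← Cfsg.Agent.Lib.Helper24Section.pCore_map_equiv' 2 e] at hr'
    obtain ⟨r, hr, rfl⟩ := hr'
    have h1 := hy r hr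
    have h2 := congrArg (fun x => ((e x : ↥(Subgroup.centralizer ({s} : Set (Matrix.SpecialLinearGroup (Fin 5) (ZMod 2))))) :
        Matrix.SpecialLinearGroup (Fin 5) (ZMod 2))) h1
    simp only [map_mul, Subgroup.coe_mul] at h2
    exact h2.symm
  have hzC : z ∈ Subgroup.centralizer ({z} : Set G) := by
    rw [Subgroup.mem_centralizer_iff]
    intro x hx
    rw [Set.mem_singleton_iff] at hx
    rw [hx]
  have hez : ((e ⟨z, hzC⟩ : ↥(Subgroup.centralizer ({s} : Set (Matrix.SpecialLinearGroup (Fin 5) (ZMod 2))))) :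
        Matrix.SpecialLinearGroup (Fin 5) (ZMod 2)) = s := by
    have h1 := key ⟨z, hzC⟩ (by
      intro r _
      apply Subtype.ext
      have := Subgroup.mem_centralizer_iff.1 r.2 z rfl
      exact this)
    rcases h1 with h1 | h1
    · exfalso
      have h2 : e ⟨z, hzC⟩ = 1 := Subtype.ext h1
      have h3 : (⟨z, hzC⟩ : ↥(Subgroup.centralizer ({z} : Set G))) = 1 := by
        rwa [MulEquiv.map_eq_one_iff] at h2
      exact hz1 (congrArg Subtype.val h3)
    · exact h1
  have key2 : ∀ y : ↥(Subgroup.centralizer ({z} : Set G)),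
      (∀ r ∈ Cfsg.pCore 2 ↥(Subgroup.centralizer ({z} : Set G)), y * r = r * y) → (y : G) = 1 ∨ (y : G) = z := by
    intro y hy
    rcases key y hy with h1 | h1
    · left
      have h2 : e y = 1 := Subtype.ext h1
      rw [MulEquiv.map_eq_one_iff] at h2
      rw [h2]; rfl
    · right
      have h2 : e y = e ⟨z, hzC⟩ := Subtype.ext (h1.trans hez.symm)
      have h3 := e.injective h2
      rw [h3]
  have hRT : Cfsg.pCore 2 ↥(Subgroup.centralizer ({z} : Set G)) ≤ (T : Subgroup _) := by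
    rw [Cfsg.Agent.Lib.Helper1Fitting.pCore_eq_iInf_sylow]
    exact iInf_le _ T
  set T0 : Subgroup G := (T : Subgroup (Subgroup.centralizer ({z} : Set G))).map
    (Subgroup.subtype (Subgroup.centralizer ({z} : Set G))) with hT0
  have hT0p : IsPGroup 2 ↥T0 := T.isPGroup'.map _
  obtain ⟨P, hP⟩ := hT0p.exists_le_sylow
  -- `P ⊓ C(z) = T0`
  have hD : ∀ x ∈ (P : Subgroup G), x ∈ Subgroup.centralizer ({z} : Set G) → x ∈ T0 := by
    intro x hxP hxC
    have hle : (T : Subgroup (Subgroup.centralizer ({z} : Set G))) ≤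
        (P : Subgroup G).subgroupOf (Subgroup.centralizer ({z} : Set G)) := by
      intro t ht
      rw [Subgroup.mem_subgroupOf]
      exact hP ⟨t, ht, rfl⟩
    have hp : IsPGroup 2 ↥((P : Subgroup G).subgroupOf (Subgroup.centralizer ({z} : Set G))) :=
      P.isPGroup'.comap_subtype
    have heq := T.is_maximal' hp hle
    have : (⟨x, hxC⟩ : ↥(Subgroup.centralizer ({z} : Set G))) ∈
        (P : Subgroup G).subgroupOf (Subgroup.centralizer ({z} : Set G)) := by
      rw [Subgroup.mem_subgroupOf]; exact hxP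
    rw [heq] at this
    exact ⟨_, this, rfl⟩
  -- `z ∈ T0`
  have hzR : (⟨z, hzC⟩ : ↥(Subgroup.centralizer ({z} : Set G))) ∈ Cfsg.pCore 2 ↥(Subgroup.centralizer ({z} : Set G)) := by
    have hn : (Subgroup.zpowers (⟨z, hzC⟩ : ↥(Subgroup.centralizer ({z} : Set G)))).Normal := by
      constructor
      rintro _ ⟨i, rfl⟩ g
      have hg : g * ⟨z, hzC⟩ * g⁻¹ = ⟨z, hzC⟩ := by
        apply Subtype.ext
        have := Subgroup.mem_centralizer_iff.1 g.2 z rfl
        change (g : G) * z * (g : G)⁻¹ = z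
        rw [← this]; group
      refine ⟨i, ?_⟩
      change _ = g * (⟨z, hzC⟩ : ↥(Subgroup.centralizer ({z} : Set G))) ^ i * g⁻¹
      rw [← conj_zpow, hg]
    have hp : IsPGroup 2 ↥(Subgroup.zpowers (⟨z, hzC⟩ : ↥(Subgroup.centralizer ({z} : Set G)))) := by
      apply IsPGroup.of_card (n := 1)
      rw [Nat.card_zpowers, pow_one]
      rw [← hz]
      exact (Subgroup.orderOf_mk z hzC)
    exact Cfsg.Agent.Lib.Helper1Fitting.le_pCore hn hp (Subgroup.mem_zpowers _)
  have hzT0 : z ∈ T0 := ⟨⟨z, hzC⟩, hRT hzR, rfl⟩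
  -- the centre of `P`
  have hPnt : Nontrivial ↥(P : Subgroup G) := ⟨⟨⟨z, hP hzT0⟩, 1, fun h => hz1 (congrArg Subtype.val h)⟩⟩
  have hcn := P.isPGroup'.center_nontrivial
  obtain ⟨y, hy1⟩ := exists_ne (1 : ↥(Subgroup.center ↥(P : Subgroup G)))
  have hycomm : ∀ x ∈ (P : Subgroup G), ((y : ↥(P : Subgroup G)) : G) * x = x * ((y : ↥(P : Subgroup G)) : G) := by
    intro x hx
    have := Subgroup.mem_center_iff.1 y.2 ⟨x, hx⟩
    exact (congrArg Subtype.val this).symm
  have hyC : ((y : ↥(P : Subgroup G)) : G) ∈ Subgroup.centralizer ({z} : Set G) := by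
    rw [Subgroup.mem_centralizer_iff]
    intro x hx
    rw [Set.mem_singleton_iff] at hx
    rw [hx]
    exact (hycomm z (hP hzT0)).symm
  have hyz : ((y : ↥(P : Subgroup G)) : G) = z := by
    have h1 := key2 ⟨_, hyC⟩ (by
      intro r hr
      apply Subtype.ext
      exact hycomm _ (hP ⟨r, hRT hr, rfl⟩))
    rcases h1 with h1 | h1
    · exfalso
      apply hy1
      apply Subtype.ext
      apply Subtype.ext
      exact h1
    · exact h1
  have hPT : (P : Subgroup G) = T0 := by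
    apply le_antisymm _ hP
    intro x hx
    apply hD x hx
    rw [Subgroup.mem_centralizer_iff]
    intro w hw
    rw [Set.mem_singleton_iff] at hw
    rw [hw, ← hyz]
    exact hycomm x hx
  rw [← hPT]
  exact P.not_dvd_index


end Cfsg.Agent.S1717
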