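import Cfsg.Statements.S1754
import Cfsg.Agent.Lib.Helper36Basic

set_option autoImplicit false
open Cfsg

namespace Cfsg.Agent.S1754

open Cfsg.Agent.Lib.Helper36Basic

/-- Let A be a standard subgroup of the finite group G (A quasisimple, C_G(A) tightly embedded of even order, A commuting elementwise with no other conjugate of itself, and N_G(A) = N_G(C_G(A))), and let t be an involution of G centralizing A. Then the centralizer of t lies in the normalizer of A; in particular A, viewed inside C_G(t), is a component of C_G(t). -/
theorem result {G : Type*} [Group G] [Finite G]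
    (A : Subgroup G) (hA : Cfsg.IsStandardSubgroup A) (t : G) (ht : orderOf t = 2) (htA : t ∈ Subgroup.centralizer (A : Set G)) :
    Subgroup.centralizer ({t} : Set G) ≤ Subgroup.normalizer (A : Set G) ∧
      Cfsg.IsComponent (A.subgroupOf (Subgroup.centralizer ({t} : Set G))) := by
  obtain ⟨hq, ⟨_, hte⟩, _, hN⟩ := hA
  have h1 : Subgroup.centralizer ({t} : Set G) ≤ Subgroup.normalizer (A : Set G) := by
    intro c hc
    rw [hN]
    by_contra hcn
    have hodd := hte c hcn
    have hct : c * t * c⁻¹ = t := by
      rw [Subgroup.mem_centralizer_singleton_iff] at hc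
      rw [hc]; group
    have htm : t ∈ Subgroup.centralizer (A : Set G) ⊓
        (Subgroup.centralizer (A : Set G)).map (MulAut.conj c).toMonoidHom :=
      ⟨htA, ⟨t, htA, by simpa [MulAut.conj_apply] using hct⟩⟩
    have hdvd : 2 ∣ Nat.card ↥(Subgroup.centralizer (A : Set G) ⊓
        (Subgroup.centralizer (A : Set G)).map (MulAut.conj c).toMonoidHom) := by
      rw [← ht]
      have := orderOf_dvd_natCard (⟨t, htm⟩ : ↥(Subgroup.centralizer (A : Set G) ⊓
        (Subgroup.centralizer (A : Set G)).map (MulAut.conj c).toMonoidHom))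
      rwa [Subgroup.orderOf_mk] at this
    exact (Nat.not_even_iff_odd.mpr hodd) (even_iff_two_dvd.mpr hdvd)
  refine ⟨h1, ?_⟩
  have hle : A ≤ Subgroup.centralizer ({t} : Set G) := by
    intro a ha
    rw [Subgroup.mem_centralizer_singleton_iff]
    rw [Subgroup.mem_centralizer_iff] at htA
    exact htA a ha
  refine ⟨?_, ?_⟩
  · exact ((Subgroup.normal_subgroupOf_iff_le_normalizer hle).mpr h1).isSubnormal
  · exact isQuasisimple_of_mulEquiv (Subgroup.subgroupOfEquivOfLe hle).symm hq

end Cfsg.Agent.S1754
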