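import Cfsg.Statements.S1755
import Cfsg.Agent.Lib.Helper36GF2

set_option autoImplicit false
open Cfsg

namespace Cfsg.Agent.S1755

open Cfsg.Agent.Lib.Helper36GF2 Cfsg.Agent.Lib.Helper36TI Cfsg.Agent.Lib.Helper3PGroup

theorem cyc_inv {H : Type*} [Group H] [Finite H] [IsCyclic H] {x y : H} (hx : x ^ 2 = 1)
    (hx1 : x ≠ 1) (hy : y ^ 2 = 1) (hy1 : y ≠ 1) : x = y := by
  classical
  have := Fintype.ofFinite H
  by_contra hne
  have h1 := IsCyclic.card_pow_eq_one_le (α := H) (n := 2) (by norm_num)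
  have h2 : ({1, x, y} : Finset H) ⊆ Finset.univ.filter (fun a : H => a ^ 2 = 1) := by
    intro a ha
    simp only [Finset.mem_insert, Finset.mem_singleton] at ha
    simp only [Finset.mem_filter, Finset.mem_univ, true_and]
    rcases ha with rfl | rfl | rfl
    · simp
    · exact hx
    · exact hy
  have h3 : ({1, x, y} : Finset H).card = 3 := by
    rw [Finset.card_insert_of_notMem, Finset.card_insert_of_notMem, Finset.card_singleton]
    · simpa using hne
    · simp only [Finset.mem_insert, Finset.mem_singleton, not_or]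
      exact ⟨fun e => hx1 e.symm, fun e => hy1 e.symm⟩
  have := Finset.card_le_card h2
  omega

/-- Let G be a finite group and let z be an involution of G such that Q, the generalized Fitting subgroup of the centralizer C of z, is a 2-group of symplectic type (every characteristic abelian subgroup of Q is cyclic). Let B be a characteristic abelian subgroup of Q, viewed as a subgroup of G. Then for every g in G, the conjugate of B by g either equals B or meets B trivially. -/
theorem result {G : Type*} [Group G] [Finite G] (z : G) (hz : orderOf z = 2) (hQ : Cfsg.IsOfSymplecticType ↥(Cfsg.generalizedFittingSubgroup ↥(Subgroup.centralizer ({z} : Set G))))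
    (B : Subgroup ↥(Cfsg.generalizedFittingSubgroup ↥(Subgroup.centralizer ({z} : Set G)))) (hBc : B.Characteristic) (hBa : IsMulCommutative ↥B) (g : G) :
    ((B.map (Cfsg.generalizedFittingSubgroup ↥(Subgroup.centralizer ({z} : Set G))).subtype).map (Subgroup.centralizer ({z} : Set G)).subtype).map (MulAut.conj g).toMonoidHom =
        (B.map (Cfsg.generalizedFittingSubgroup ↥(Subgroup.centralizer ({z} : Set G))).subtype).map (Subgroup.centralizer ({z} : Set G)).subtype ∨
      ((B.map (Cfsg.generalizedFittingSubgroup ↥(Subgroup.centralizer ({z} : Set G))).subtype).map (Subgroup.centralizer ({z} : Set G)).subtype).map (MulAut.conj g).toMonoidHom ⊓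
        (B.map (Cfsg.generalizedFittingSubgroup ↥(Subgroup.centralizer ({z} : Set G))).subtype).map (Subgroup.centralizer ({z} : Set G)).subtype = ⊥ := by
  have : Fact (Nat.Prime 2) := ⟨Nat.prime_two⟩
  set Bg := (B.map (Cfsg.generalizedFittingSubgroup ↥(CC z)).subtype).map (Subgroup.centralizer ({z} : Set G)).subtype with hBg
  have hmem : ∀ x : G, x ∈ Bg ↔ ∃ b ∈ B, ((b : ↥(CC z)) : G) = x := by
    intro x
    constructor
    · rintro ⟨_, ⟨b, hb, rfl⟩, rfl⟩
      exact ⟨b, hb, rfl⟩
    · rintro ⟨b, hb, rfl⟩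
      exact ⟨_, ⟨b, hb, rfl⟩, rfl⟩
  have hz1 : z ≠ 1 := by
    rintro rfl
    simp at hz
  have hz2 : z ^ 2 = 1 := by rw [← hz]; exact pow_orderOf_eq_one z
  -- z as an element of (Cfsg.generalizedFittingSubgroup ↥(CC z))
  obtain ⟨zc, hzc, hzc'⟩ := self_mem_QF z
  set zq : ↥(Cfsg.generalizedFittingSubgroup ↥(CC z)) := ⟨zc, hzc⟩ with hzq
  have hzqG : ((zq : ↥(CC z)) : G) = z := hzc'
  have hzq1 : zq ≠ 1 := by
    intro e
    apply hz1
    rw [← hzqG, e]; rfl
  have hzq2 : zq ^ 2 = 1 := by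
    apply Subtype.ext
    apply Subtype.ext
    simp only [Subgroup.coe_pow, hzqG, hz2]
    rfl
  have hzqZ : zq ∈ Subgroup.center ↥(Cfsg.generalizedFittingSubgroup ↥(CC z)) := by
    rw [Subgroup.mem_center_iff]
    intro q
    apply Subtype.ext
    apply Subtype.ext
    simp only [Subgroup.coe_mul, hzqG]
    exact mem_CC.mp (q : ↥(CC z)).2
  have hZcyc : IsCyclic (Subgroup.center ↥(Cfsg.generalizedFittingSubgroup ↥(CC z))) := hQ.2 _ inferInstance inferInstance
  have hBcyc : IsCyclic B := hQ.2 B hBc hBa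
  have hBn : B.Normal := Subgroup.normal_of_characteristic B
  -- the unique involution of B is z
  have huniq : ∀ b ∈ B, b ≠ 1 → b ^ 2 = 1 → b = zq := by
    intro b hb hb1 hb2
    have hBne : B ≠ ⊥ := by
      intro e
      rw [e, Subgroup.mem_bot] at hb
      exact hb1 hb
    obtain ⟨u, huB, huZ, hu1, hu2⟩ := exists_central_order_p hQ.1 B hBne
    have e1 : (⟨u, huZ⟩ : Subgroup.center ↥(Cfsg.generalizedFittingSubgroup ↥(CC z))) = ⟨zq, hzqZ⟩ := by
      apply cyc_inv
      · exact Subtype.ext hu2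
      · intro e; exact hu1 (congrArg Subtype.val e)
      · exact Subtype.ext hzq2
      · intro e; exact hzq1 (congrArg Subtype.val e)
    have e2 : (⟨b, hb⟩ : B) = ⟨u, huB⟩ := by
      apply cyc_inv
      · exact Subtype.ext hb2
      · intro e; exact hb1 (congrArg Subtype.val e)
      · exact Subtype.ext hu2
      · intro e; exact hu1 (congrArg Subtype.val e)
    exact (congrArg Subtype.val e2).trans (congrArg Subtype.val e1)
  -- normality of Bg in C
  have hnorm : ∀ c ∈ CC z, ∀ x ∈ Bg, c * x * c⁻¹ ∈ Bg := by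
    intro c hc x hx
    obtain ⟨b, hb, rfl⟩ := (hmem x).mp hx
    have h1 := (Subgroup.characteristic_iff_map_eq.mp hBc) (MulAut.conjNormal (⟨c, hc⟩ : ↥(CC z)))
    have h2 : (MulAut.conjNormal (⟨c, hc⟩ : ↥(CC z)) : ↥(Cfsg.generalizedFittingSubgroup ↥(CC z)) ≃* ↥(Cfsg.generalizedFittingSubgroup ↥(CC z))) b ∈ B := by
      rw [← h1]
      exact ⟨b, hb, rfl⟩
    exact (hmem _).mpr ⟨_, h2, rfl⟩
  by_cases hbot : cj g Bg ⊓ Bg = ⊥
  · right; exact hbot
  · left
    obtain ⟨w, hw, hw1⟩ : ∃ w : G, w ∈ cj g Bg ⊓ Bg ∧ w ≠ 1 := by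
      obtain ⟨w, hw⟩ := Subgroup.ne_bot_iff_exists_ne_one.mp hbot
      exact ⟨(w : G), w.2, fun e => hw (Subtype.ext e)⟩
    obtain ⟨hwg, hwB⟩ := Subgroup.mem_inf.mp hw
    obtain ⟨b, hb, hbw⟩ := (hmem w).mp hwB
    have hb1 : b ≠ 1 := by
      intro e
      apply hw1
      rw [← hbw, e]; rfl
    obtain ⟨k, hk1, hk2⟩ := exists_pow_order_p hQ.1 hb1
    have hbk : b ^ k = zq := huniq _ (B.pow_mem hb k) hk1 hk2
    have hwk : w ^ k = z := by
      rw [← hzqG, ← hbk, ← hbw]; rfl
    rw [mem_cj] at hwg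
    obtain ⟨b', hb', hbw'⟩ := (hmem _).mp hwg
    have hb'k : ((b' ^ k : ↥(Cfsg.generalizedFittingSubgroup ↥(CC z))) : ↥(CC z)).1 = g⁻¹ * z * g := by
      have : ((b' ^ k : ↥(Cfsg.generalizedFittingSubgroup ↥(CC z))) : ↥(CC z)).1 = (((b' : ↥(Cfsg.generalizedFittingSubgroup ↥(CC z))) : ↥(CC z)) : G) ^ k := rfl
      rw [this, hbw', ← hwk]
      have := conj_pow (a := g⁻¹) (b := w) (i := k)
      simpa using this
    have hb'k1 : b' ^ k ≠ 1 := by
      intro e
      rw [e] at hb'k
      apply hz1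
      have h0 : g⁻¹ * z * g = 1 := hb'k.symm
      calc z = g * (g⁻¹ * z * g) * g⁻¹ := by group
        _ = 1 := by rw [h0]; group
    have hb'k2 : (b' ^ k) ^ 2 = 1 := by
      apply Subtype.ext
      apply Subtype.ext
      have : ((((b' ^ k) ^ 2 : ↥(Cfsg.generalizedFittingSubgroup ↥(CC z))) : ↥(CC z)) : G) = (((b' ^ k : ↥(Cfsg.generalizedFittingSubgroup ↥(CC z))) : ↥(CC z)).1) ^ 2 := rfl
      rw [this, hb'k]
      have h3 := conj_pow (a := g⁻¹) (b := z) (i := 2)
      simp only [inv_inv] at h3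
      rw [h3, hz2]
      simp
    have hfin := huniq _ (B.pow_mem hb' k) hb'k1 hb'k2
    have hgz : g⁻¹ * z * g = z := by rw [← hb'k, hfin, hzqG]
    have hgC : g ∈ CC z := by
      rw [mem_CC]
      calc g * z = g * (g⁻¹ * z * g) := by rw [hgz]
        _ = z * g := by group
    change cj g Bg = Bg
    rw [cj_eq_self_iff, Subgroup.mem_normalizer_iff]
    intro x
    refine ⟨hnorm g hgC x, fun hx => ?_⟩
    have := hnorm g⁻¹ (Subgroup.inv_mem _ hgC) _ hx
    have e : g⁻¹ * (g * x * g⁻¹) * g⁻¹⁻¹ = x := by group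
    rwa [e] at this

end Cfsg.Agent.S1755
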