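import Cfsg.Statements.S1756
import Cfsg.Agent.Lib.Helper36Extra

set_option autoImplicit false
open Cfsg

namespace Cfsg.Agent.S1756

open Cfsg.Agent.Lib.Helper36Extra

/-- Let Q be an extraspecial 2-subgroup of the finite group G (special with centre of order 2) and t an involution of G normalizing Q such that the centralizer of t in Q has index at most 2 in Q. Then t lies in the product of Q with the centralizer of Q. -/
theorem result {G : Type*} [Group G] [Finite G] (Q : Subgroup G)
    (hQ : Cfsg.IsExtraspecial 2 ↥Q) (t : G) (ht : orderOf t = 2) (htN : t ∈ Subgroup.normalizer (Q : Set G))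
    (hi : (Subgroup.centralizer ({t} : Set G) ⊓ Q).relIndex Q ≤ 2) :
    t ∈ Q ⊔ Subgroup.centralizer (Q : Set G) := by
  obtain ⟨z, h⟩ := ex_of_isExtraspecial Q hQ
  have htt : t * t = 1 := by rw [← pow_two, ← ht]; exact pow_orderOf_eq_one t
  have hti : t⁻¹ = t := inv_eq_of_mul_eq_one_left htt
  have hconj : ∀ q ∈ Q, t * q * t⁻¹ ∈ Q := fun q hq => (Subgroup.mem_normalizer_iff.mp htN q).mp hq
  set M := Subgroup.centralizer ({t} : Set G) ⊓ Q with hM
  have hMQ : M ≤ Q := inf_le_right
  have hmemM : ∀ q, q ∈ M ↔ (t * q * t⁻¹ = q ∧ q ∈ Q) := by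
    intro q
    rw [hM, Subgroup.mem_inf, Subgroup.mem_centralizer_singleton_iff]
    constructor
    · rintro ⟨h1, h2⟩
      exact ⟨by rw [← h1]; group, h2⟩
    · rintro ⟨h1, h2⟩
      refine ⟨?_, h2⟩
      calc q * t = (t * q * t⁻¹) * t := by rw [h1]
        _ = t * q := by group
  by_cases hMeq : M = Q
  · -- t centralizes Q
    apply Subgroup.mem_sup_right
    rw [Subgroup.mem_centralizer_iff]
    intro q hq
    have : q ∈ M := by rw [hMeq]; exact hq
    have h1 := ((hmemM q).mp this).1
    calc q * t = (t * q * t⁻¹) * t := by rw [h1]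
      _ = t * q := by group
  -- index exactly two
  have hrel : M.relIndex Q = 2 := by
    have h0 : M.relIndex Q ≠ 0 := Subgroup.index_ne_zero_of_finite
    have h1 : M.relIndex Q ≠ 1 := by
      intro e
      rw [Subgroup.relIndex_eq_one] at e
      exact hMeq (le_antisymm hMQ e)
    omega
  have hidx : (M.subgroupOf Q).index = 2 := hrel
  have hmul : ∀ a ∈ Q, ∀ b ∈ Q, (a * b ∈ M ↔ (a ∈ M ↔ b ∈ M)) := by
    intro a ha b hb
    have := Subgroup.mul_mem_iff_of_index_two hidx (a := ⟨a, ha⟩) (b := ⟨b, hb⟩)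
    simpa [Subgroup.mem_subgroupOf] using this
  obtain ⟨x, hxQ, hxM⟩ := SetLike.not_le_iff_exists.mp (fun hle : Q ≤ M => hMeq (le_antisymm hMQ hle))
  -- z is fixed by t
  have hzt : t * z * t⁻¹ = z := by
    have h1 : t * z * t⁻¹ ∈ Q := hconj z h.mem
    have h2 : ∀ b ∈ Q, t * z * t⁻¹ * b = b * (t * z * t⁻¹) := by
      intro b hb
      have hb' : t⁻¹ * b * t ∈ Q := by
        have := hconj b hb
        rwa [hti] at this ⊢
      have := h.cen _ hb'
      calc t * z * t⁻¹ * b = t * (z * (t⁻¹ * b * t)) * t⁻¹ := by group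
        _ = t * ((t⁻¹ * b * t) * z) * t⁻¹ := by rw [this]
        _ = b * (t * z * t⁻¹) := by group
    rcases h.center _ h1 h2 with e | e
    · exfalso
      apply h.ne_one
      calc z = t⁻¹ * (t * z * t⁻¹) * t := by group
        _ = 1 := by rw [e]; group
    · exact e
  have hzM : z ∈ M := (hmemM z).mpr ⟨hzt, h.mem⟩
  -- the centralizer of M in Q has order 4
  have hcard : Nat.card M * Nat.card ↥(Q ⊓ Subgroup.centralizer (M : Set G)) = 2 * Nat.card Q :=
    h.cent_card M hMQ hzM
  have hcardM : 2 * Nat.card M = Nat.card Q := by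
    have h1 := Subgroup.index_mul_card (M.subgroupOf Q)
    rw [hidx, Nat.card_congr (Subgroup.subgroupOfEquivOfLe hMQ).toEquiv] at h1
    exact h1
  have hC4 : Nat.card ↥(Q ⊓ Subgroup.centralizer (M : Set G)) = 4 := by
    have hpos : 0 < Nat.card M := Nat.card_pos
    rw [← hcardM] at hcard
    have : Nat.card M * Nat.card ↥(Q ⊓ Subgroup.centralizer (M : Set G)) = Nat.card M * 4 := by
      rw [hcard]; ring
    exact Nat.eq_of_mul_eq_mul_left hpos this
  obtain ⟨y, hyQ, hyM, hy1, hyz⟩ : ∃ y, y ∈ Q ∧ (∀ m ∈ M, m * y = y * m) ∧ y ≠ 1 ∧ y ≠ z := by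
    by_contra hcon
    push_neg at hcon
    have hle : Nat.card ↥(Q ⊓ Subgroup.centralizer (M : Set G)) ≤ 2 := by
      have hsub : ((Q ⊓ Subgroup.centralizer (M : Set G) : Subgroup G) : Set G) ⊆ ({1, z} : Set G) := by
        rintro y ⟨hyQ, hyC⟩
        by_cases hy1 : y = 1
        · left; exact hy1
        · right
          exact hcon y hyQ (fun m hm => Subgroup.mem_centralizer_iff.mp hyC m hm) hy1
      calc Nat.card ↥(Q ⊓ Subgroup.centralizer (M : Set G))
          = Set.ncard ((Q ⊓ Subgroup.centralizer (M : Set G) : Subgroup G) : Set G) := by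
            rw [← Nat.card_coe_set_eq]; rfl
        _ ≤ Set.ncard ({1, z} : Set G) := Set.ncard_le_ncard hsub (Set.toFinite _)
        _ ≤ 2 := by
            have := Set.ncard_insert_le (1 : G) ({z} : Set G)
            rwa [Set.ncard_singleton] at this
    omega
  -- decomposition Q = M ∪ xM
  have hdec : ∀ q ∈ Q, q ∉ M → x⁻¹ * q ∈ M := by
    intro q hq hqM
    rw [hmul _ (Q.inv_mem hxQ) q hq]
    constructor
    · intro h1; exact absurd (by simpa using M.inv_mem h1) hxM
    · intro h1; exact absurd h1 hqM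
  -- an element of Q commuting with M and x is central
  have hcentral : ∀ c ∈ Q, (∀ m ∈ M, m * c = c * m) → x * c = c * x → c = 1 ∨ c = z := by
    intro c hc hcM hcx
    apply h.center c hc
    intro b hb
    by_cases hbM : b ∈ M
    · exact (hcM b hbM).symm
    · have h1 := hcM _ (hdec b hb hbM)
      calc c * b = (c * x) * (x⁻¹ * b) := by group
        _ = x * ((x⁻¹ * b) * c) := by rw [← hcx, h1]; group
        _ = b * c := by group
  have hyx : y * x = x * y * z := by
    apply h.anti_of_ne hyQ hxQ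
    intro e
    rcases hcentral y hyQ hyM e.symm with e1 | e1
    · exact hy1 e1
    · exact hyz e1
  -- c = x⁻¹ * t x t⁻¹
  set x' := t * x * t⁻¹ with hx'
  have hx'Q : x' ∈ Q := hconj x hxQ
  have hx'M : x' ∉ M := by
    intro h1
    apply hxM
    have h2 := ((hmemM x').mp h1).1
    have h3 : t * x' * t⁻¹ = x := by rw [hx', hti]; calc t * (t * x * t) * t = (t * t) * x * (t * t) := by group
      _ = x := by rw [htt]; group
    rw [h3] at h2
    rw [h2]; exact h1
  set c := x⁻¹ * x' with hc
  have hcM : c ∈ M := hdec x' hx'Q hx'M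
  have hcQ : c ∈ Q := hMQ hcM
  have hxc : x' = x * c := by rw [hc]; group
  have hct : t * c * t⁻¹ = c := ((hmemM c).mp hcM).1
  have hc1 : c ≠ 1 := by
    intro e
    apply hxM
    rw [hmemM]
    refine ⟨?_, hxQ⟩
    rw [← hx', hxc, e, mul_one]
  have hcc : c * c = 1 := by
    have h3 : t * x' * t⁻¹ = x := by rw [hx', hti]; calc t * (t * x * t) * t = (t * t) * x * (t * t) := by group
      _ = x := by rw [htt]; group
    have h4 : t * x' * t⁻¹ = x * c * c := by
      calc t * x' * t⁻¹ = t * (x * c) * t⁻¹ := by rw [hxc]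
        _ = (t * x * t⁻¹) * (t * c * t⁻¹) := by group
        _ = x * c * c := by rw [hct, ← hx', hxc]
    have : x * (c * c) = x * 1 := by rw [mul_one, ← mul_assoc, ← h4, h3]
    exact mul_left_cancel this
  have hcMc : ∀ m ∈ M, m * c = c * m := by
    intro m hm
    have hmQ := hMQ hm
    have hmt := ((hmemM m).mp hm).1
    rw [← β_eq_one_iff]
    have h1 : β m x' = β m x := by
      have := β_conj t m x
      rwa [hmt] at this
    rw [hxc, h.β_mul_right hmQ hxQ hcQ] at h1
    exact mul_left_cancel (a := β m x) (by rw [h1, mul_one])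
  have hcz : c = z := by
    by_cases hcx : x * c = c * x
    · exact (hcentral c hcQ hcMc hcx).resolve_left hc1
    · exfalso
      have hanti : x * c = c * x * z := h.anti_of_ne hxQ hcQ hcx
      have hxxM : x * x ∈ M := (hmul x hxQ x hxQ).mpr Iff.rfl
      have h1 := ((hmemM _).mp hxxM).1
      have h2 : t * (x * x) * t⁻¹ = x * x * z := by
        calc t * (x * x) * t⁻¹ = x' * x' := by rw [hx']; group
          _ = (x * c) * (x * c) := by rw [hxc]
          _ = (c * x * z) * (x * c) := by rw [← hanti]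
          _ = c * x * (z * x) * c := by group
          _ = c * x * (x * z) * c := by rw [h.cen x hxQ]
          _ = c * (x * x) * (z * c) := by group
          _ = ((x * x) * c) * (c * z) := by rw [← hcMc _ hxxM, h.cen c hcQ]
          _ = x * x * (c * c) * z := by group
          _ = x * x * z := by rw [hcc, mul_one]
      apply h.ne_one
      have : x * x * z = x * x * 1 := by rw [← h2, h1, mul_one]
      exact mul_left_cancel this
  -- y⁻¹ t centralizes Q
  have hfin : y⁻¹ * t ∈ Subgroup.centralizer (Q : Set G) := by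
    rw [Subgroup.mem_centralizer_iff]
    have hm : ∀ m ∈ M, m * (y⁻¹ * t) = y⁻¹ * t * m := by
      intro m hm
      have h1 := ((hmemM m).mp hm).1
      have h2 := hyM m hm
      calc m * (y⁻¹ * t) = y⁻¹ * (y * m) * y⁻¹ * t := by group
        _ = y⁻¹ * (m * y) * y⁻¹ * t := by rw [h2]
        _ = y⁻¹ * (t * m * t⁻¹) * t := by rw [h1]; group
        _ = y⁻¹ * t * m := by group
    have hx1 : x * (y⁻¹ * t) = y⁻¹ * t * x := by
      have h1 : t * x = x * z * t := by
        calc t * x = x' * t := by rw [hx']; group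
          _ = x * z * t := by rw [hxc, hcz]
      calc x * (y⁻¹ * t) = y⁻¹ * (y * x) * y⁻¹ * t := by group
        _ = y⁻¹ * (x * y * z) * y⁻¹ * t := by rw [hyx]
        _ = y⁻¹ * x * (y * z) * y⁻¹ * t := by group
        _ = y⁻¹ * x * (z * y) * y⁻¹ * t := by rw [h.cen y hyQ]
        _ = y⁻¹ * (x * z * t) := by group
        _ = y⁻¹ * t * x := by rw [← h1]; group
    intro q hq
    by_cases hqM : q ∈ M
    · exact hm q hqM
    · have h1 := hm _ (hdec q hq hqM)
      calc q * (y⁻¹ * t) = x * ((x⁻¹ * q) * (y⁻¹ * t)) := by group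
        _ = (x * (y⁻¹ * t)) * (x⁻¹ * q) := by rw [h1]; group
        _ = y⁻¹ * t * q := by rw [hx1]; group
  have : t = y * (y⁻¹ * t) := by group
  rw [this]
  exact Subgroup.mul_mem_sup hyQ hfin

end Cfsg.Agent.S1756
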