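import Cfsg.Statements.S1781
import Cfsg.Agent.Lib.Helper36TI

set_option autoImplicit false
open Cfsg

namespace Cfsg.Agent.S1781

open Cfsg.Agent.Lib.Helper36TI

/-- if `u ≠ 1` lies in the TI-subgroup `A` and `c` commutes with `u` then `c` normalizes `A` -/
theorem norm_of_comm {G : Type*} [Group G] {A : Subgroup G}
    (hti : ∀ h : G, cj h A = A ∨ cj h A ⊓ A = ⊥) {u c : G} (hu : u ∈ A) (hu1 : u ≠ 1)
    (hc : c * u * c⁻¹ = u) : cj c A = A := by
  rcases hti c with h | h
  · exact h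
  · exfalso
    have : u ∈ cj c A ⊓ A := ⟨by rw [← hc]; exact conj_mem_cj hu, hu⟩
    rw [h, Subgroup.mem_bot] at this
    exact hu1 this

/-- Let A be an abelian 2-subgroup of the finite group G such that every conjugate of A equals A or meets A trivially, and let g ∈ G with g A g⁻¹ ≠ A. Then either the subgroup of those elements of A that normalize g A g⁻¹ is an elementary abelian 2-group, or A and g A g⁻¹ commute elementwise. -/
theorem result {G : Type*} [Group G] [Finite G] (A : Subgroup G)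
    (hA2 : IsPGroup 2 ↥A) (hAa : IsMulCommutative ↥A)
    (hti : ∀ h : G, A.map (MulAut.conj h).toMonoidHom = A ∨ A.map (MulAut.conj h).toMonoidHom ⊓ A = ⊥)
    (g : G) (hg : A.map (MulAut.conj g).toMonoidHom ≠ A) :
    Cfsg.IsElementaryAbelian 2 (A ⊓ Subgroup.normalizer ((A.map (MulAut.conj g).toMonoidHom : Subgroup G) : Set G)) ∨
      ⁅A, A.map (MulAut.conj g).toMonoidHom⁆ = ⊥ := by
  have hAc : ∀ x ∈ A, ∀ y ∈ A, x * y = y * x := fun x hx y hy =>
    congrArg Subtype.val (mul_comm' (⟨x, hx⟩ : A) ⟨y, hy⟩)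
  by_cases hel : ∀ a ∈ A ⊓ Subgroup.normalizer ((cj g A : Subgroup G) : Set G), a ^ 2 = 1
  · left
    refine ⟨⟨⟨fun x y => Subtype.ext (hAc x x.2.1 y y.2.1)⟩⟩, hel⟩
  · right
    push_neg at hel
    obtain ⟨a, ⟨haA, haN⟩, ha2⟩ := hel
    set B := cj g A with hB
    have hAB : A ⊓ B = ⊥ := by
      rcases hti g with h | h
      · exact absurd h hg
      · rw [inf_comm]; exact h
    have hB2 : IsPGroup 2 B := hA2.map _
    have hBc : ∀ x ∈ B, ∀ y ∈ B, x * y = y * x := by
      rintro _ ⟨x, hx, rfl⟩ _ ⟨y, hy, rfl⟩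
      rw [← map_mul, ← map_mul, hAc x hx y hy]
    obtain ⟨k, hk⟩ := hA2 ⟨a, haA⟩
    have hk' : a ^ (2 ^ k) = 1 := by
      have := congrArg Subtype.val hk
      simpa using this
    have ha1 : a ≠ 1 := by rintro rfl; simp at ha2
    have hcent : ∀ b ∈ B, a * b * a⁻¹ = b := by
      apply centralizes_of_sq B hB2 hBc a haN k hk'
      intro b hb hb2
      -- b commutes with a², so b normalizes A
      have h1 : b * a ^ 2 * b⁻¹ = a ^ 2 := by
        have : b * a ^ 2 * b⁻¹ = (a ^ 2 * b * (a ^ 2)⁻¹)⁻¹⁻¹ * a ^ 2 * b⁻¹ := by rw [hb2]; simp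
        rw [this]; simp only [inv_inv]; group
      have h2 : cj b A = A := norm_of_comm hti (A.pow_mem haA 2) ha2 h1
      have h3 : b * a⁻¹ * b⁻¹ ∈ A := by
        have := conj_mem_cj (g := b) (A.inv_mem haA)
        rwa [h2] at this
      have h4 : a * b * a⁻¹ ∈ B := (Subgroup.mem_normalizer_iff.mp haN b).mp hb
      have h5 : a * b * a⁻¹ * b⁻¹ ∈ A ⊓ B := by
        refine ⟨?_, B.mul_mem h4 (B.inv_mem hb)⟩
        have : a * b * a⁻¹ * b⁻¹ = a * (b * a⁻¹ * b⁻¹) := by group
        rw [this]; exact A.mul_mem haA h3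
      rw [hAB, Subgroup.mem_bot] at h5
      exact mul_inv_eq_one.mp h5
    have hBN : B ≤ Subgroup.normalizer (A : Set G) := by
      intro b hb
      rw [← cj_eq_self_iff]
      apply norm_of_comm hti haA ha1
      have := hcent b hb
      calc b * a * b⁻¹ = (a * b * a⁻¹) * a * b⁻¹ := by rw [this]
        _ = a := by group
    have hBti : ∀ x ∈ A, cj x B = B ∨ cj x B ⊓ B = ⊥ := by
      intro x _
      rw [hB, cj_cj]
      exact ti_pair hti (x * g) g
    have hcomm := Cfsg.Agent.S1757.core A B hBti (le_of_eq (card_cj g A).symm) hAB hBN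
    rw [Subgroup.commutator_eq_bot_iff_le_centralizer]
    intro x hx
    rw [Subgroup.mem_centralizer_iff]
    intro b hb
    exact (hcomm x hx b hb).symm

end Cfsg.Agent.S1781
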