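import Cfsg.Statements.S1782
import Cfsg.Agent.Lib.Helper36TI
import Mathlib.GroupTheory.Nilpotent
import Mathlib.GroupTheory.Sylow

set_option autoImplicit false
open Cfsg

namespace Cfsg.Agent.S1782

open Cfsg.Agent.Lib.Helper36TI

variable {G : Type*} [Group G]

/-- An `S`-invariant family of TI subgroups of `S` of equal order, none of exponent 2. -/
structure Fam (S : Subgroup G) (Δ : Set (Subgroup G)) : Prop where
  sub : ∀ R ∈ Δ, R ≤ S
  inv : ∀ s ∈ S, ∀ R ∈ Δ, cj s R ∈ Δ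
  sq : ∀ R ∈ Δ, ∃ t ∈ R, t ^ 2 ≠ 1
  ord : ∀ R ∈ Δ, ∀ T ∈ Δ, Nat.card R = Nat.card T
  ti : ∀ R ∈ Δ, ∀ T ∈ Δ, R = T ∨ R ⊓ T = ⊥

theorem Fam.norm_of_comm {S : Subgroup G} {Δ : Set (Subgroup G)} (h : Fam S Δ) {X : Subgroup G}
    (hX : X ∈ Δ) {u c : G} (hu : u ∈ X) (hu1 : u ≠ 1) (hc : c ∈ S) (hcu : c * u * c⁻¹ = u) :
    cj c X = X := by
  rcases h.ti _ (h.inv c hc X hX) X hX with h1 | h1
  · exact h1
  · exfalso
    have : u ∈ cj c X ⊓ X := ⟨by rw [← hcu]; exact conj_mem_cj hu, hu⟩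
    rw [h1, Subgroup.mem_bot] at this
    exact hu1 this

theorem Fam.comm_of_le_normalizer [Finite G] {S : Subgroup G} {Δ : Set (Subgroup G)} (h : Fam S Δ)
    {X Y : Subgroup G} (hX : X ∈ Δ) (hY : Y ∈ Δ) (hne : X ≠ Y)
    (hN : Y ≤ Subgroup.normalizer (X : Set G)) : ∀ x ∈ X, ∀ y ∈ Y, x * y = y * x := by
  apply Cfsg.Agent.S1757.core X Y
  · intro g hg
    exact h.ti _ (h.inv g (h.sub X hX hg) Y hY) Y hY
  · exact (h.ord X hX Y hY).le
  · exact (h.ti X hX Y hY).resolve_left hne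
  · exact hN

theorem exists_normal_proper [Finite G] (S : Subgroup G) (hS : IsPGroup 2 S) (R : Subgroup G)
    (hR : R ≤ S) (hne : R ≠ S) :
    ∃ M : Subgroup G, R ≤ M ∧ M ≤ S ∧ M ≠ S ∧ ∀ s ∈ S, cj s M = M := by
  have : Fact (Nat.Prime 2) := ⟨Nat.prime_two⟩
  have hnil : Group.IsNilpotent S := hS.isNilpotent
  have hnc : NormalizerCondition S := Group.normalizerCondition_of_isNilpotent
  have hH : R.subgroupOf S ≠ ⊤ := by
    intro h
    rw [Subgroup.subgroupOf_eq_top] at h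
    exact hne (le_antisymm hR h)
  obtain ⟨M', hM', hle⟩ := (eq_top_or_exists_le_coatom (R.subgroupOf S)).resolve_left hH
  have hMn : M'.Normal := Subgroup.NormalizerCondition.normal_of_coatom M' hnc hM'
  refine ⟨M'.map S.subtype, ?_, Subgroup.map_subtype_le M', ?_, ?_⟩
  · intro r hr
    exact ⟨⟨r, hR hr⟩, hle (Subgroup.mem_subgroupOf.mpr hr), rfl⟩
  · intro h
    apply hM'.1
    rw [eq_top_iff]
    intro x _
    have : (x : G) ∈ M'.map S.subtype := by rw [h]; exact x.2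
    obtain ⟨y, hy, hyx⟩ := this
    have : y = x := Subtype.ext hyx
    rwa [← this]
  · intro s hs
    rw [cj_eq_self_iff, Subgroup.mem_normalizer_iff]
    intro x
    constructor
    · rintro ⟨y, hy, rfl⟩
      exact ⟨⟨s, hs⟩ * y * ⟨s, hs⟩⁻¹, hMn.conj_mem y hy _, rfl⟩
    · rintro ⟨y, hy, hyx⟩
      refine ⟨⟨s, hs⟩⁻¹ * y * ⟨s, hs⟩, ?_, ?_⟩
      · have := hMn.conj_mem y hy ⟨s, hs⟩⁻¹
        simpa using this
      · simp only [Subgroup.subtype_apply] at hyx
        simp only [Subgroup.subtype_apply, Subgroup.coe_mul, Subgroup.coe_inv, hyx]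
        group

theorem exists_center_ne_one [Finite G] (R : Subgroup G) (hR : IsPGroup 2 R) (hne : R ≠ ⊥) :
    ∃ r ∈ R, r ≠ 1 ∧ ∀ x ∈ R, x * r = r * x := by
  have : Fact (Nat.Prime 2) := ⟨Nat.prime_two⟩
  have : Nontrivial R := (Subgroup.nontrivial_iff_ne_bot R).mpr hne
  have hnt : Nontrivial (Subgroup.center R) := hR.center_nontrivial
  obtain ⟨z, hz⟩ := exists_ne (1 : Subgroup.center R)
  refine ⟨((z : R) : G), (z : R).2, ?_, ?_⟩
  · intro h
    apply hz
    apply Subtype.ext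
    apply Subtype.ext
    exact h
  · intro x hx
    have := Subgroup.mem_center_iff.mp z.2 ⟨x, hx⟩
    exact congrArg Subtype.val this

theorem main [Finite G] (n : ℕ) : ∀ (S : Subgroup G), Nat.card S = n → IsPGroup 2 S →
    ∀ Δ : Set (Subgroup G), Fam S Δ →
    ∀ R ∈ Δ, ∀ T ∈ Δ, R ≠ T → ∀ r ∈ R, ∀ t ∈ T, r * t = t * r := by
  induction n using Nat.strong_induction_on with
  | _ n ih =>
  intro S hn hS Δ h R hR T hT hRT
  by_contra hcon
  -- R is proper in S
  have hRS : R ≠ S := by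
    intro hRS
    apply hRT
    have hTR : T ≤ R := hRS ▸ h.sub T hT
    exact (Subgroup.eq_of_le_of_card_ge hTR (h.ord R hR T hT).le).symm
  obtain ⟨M, hRM, hMS, hMne, hMinv⟩ := exists_normal_proper S hS R (h.sub R hR) hRS
  have hMcard : Nat.card M < n := by
    rw [← hn]
    rcases lt_or_eq_of_le (Subgroup.card_le_of_le hMS) with h1 | h1
    · exact h1
    · exact absurd (Subgroup.eq_of_le_of_card_ge hMS h1.ge) hMne
  have hM2 : IsPGroup 2 M := hS.to_le hMS
  have hFamM : Fam M {X | X ∈ Δ ∧ X ≤ M} :=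
    { sub := fun X hX => hX.2
      inv := fun s hs X hX => ⟨h.inv s (hMS hs) X hX.1, by
        have := cj_mono (g := s) hX.2
        rwa [hMinv s (hMS hs)] at this⟩
      sq := fun X hX => h.sq X hX.1
      ord := fun X hX Y hY => h.ord X hX.1 Y hY.1
      ti := fun X hX Y hY => h.ti X hX.1 Y hY.1 }
  have hCM : ∀ X ∈ Δ, X ≤ M → ∀ Y ∈ Δ, Y ≤ M → X ≠ Y → ∀ x ∈ X, ∀ y ∈ Y, x * y = y * x :=
    fun X hX hXM Y hY hYM hne => ih _ hMcard M rfl hM2 _ hFamM X ⟨hX, hXM⟩ Y ⟨hY, hYM⟩ hne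
  have hcjM : ∀ s ∈ S, cj s R ≤ M := fun s hs => by
    have := cj_mono (g := s) hRM
    rwa [hMinv s hs] at this
  -- T does not normalize R, R does not normalize T
  have hTN : ¬ T ≤ Subgroup.normalizer (R : Set G) := fun hN =>
    hcon (h.comm_of_le_normalizer hR hT hRT hN)
  have hRN : ¬ R ≤ Subgroup.normalizer (T : Set G) := fun hN =>
    hcon (fun r hr t ht => (h.comm_of_le_normalizer hT hR (Ne.symm hRT) hN t ht r hr).symm)
  have hR2 : IsPGroup 2 R := hS.to_le (h.sub R hR)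
  have hRbot : R ≠ ⊥ := by
    rintro rfl
    obtain ⟨t, ht, ht2⟩ := h.sq _ hR
    rw [Subgroup.mem_bot] at ht
    simp [ht] at ht2
  obtain ⟨r₀, hr₀R, hr₀1, hr₀c⟩ := exists_center_ne_one R hR2 hRbot
  -- Claim A: not every central element of R normalizes T
  have claimA : ¬ ∀ r ∈ R, (∀ x ∈ R, x * r = r * x) → r ∈ Subgroup.normalizer (T : Set G) := by
    intro hA
    obtain ⟨t, htT, htN⟩ := SetLike.not_le_iff_exists.mp hTN
    have htS : t ∈ S := h.sub T hT htT
    have hcjne : cj t R ≠ R := fun e => htN (cj_eq_self_iff.mp e)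
    have hr₀N := hA r₀ hr₀R hr₀c
    set w := r₀⁻¹ * (t * r₀ * t⁻¹) with hw
    have hwT : w ∈ T := by
      have h1 : r₀⁻¹ * t * r₀⁻¹⁻¹ ∈ T :=
        (Subgroup.mem_normalizer_iff.mp (Subgroup.inv_mem _ hr₀N) t).mp htT
      have : w = (r₀⁻¹ * t * r₀⁻¹⁻¹) * t⁻¹ := by rw [hw]; group
      rw [this]
      exact T.mul_mem h1 (T.inv_mem htT)
    have hw1 : w ≠ 1 := by
      intro hw1
      have h1 : t * r₀ * t⁻¹ = r₀ := by
        have : t * r₀ * t⁻¹ = r₀ * w := by rw [hw]; group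
        rw [this, hw1, mul_one]
      have h2 : r₀ ∈ cj t R ⊓ R := ⟨by rw [← h1]; exact conj_mem_cj hr₀R, hr₀R⟩
      rw [(h.ti _ (h.inv t htS R hR) R hR).resolve_left hcjne, Subgroup.mem_bot] at h2
      exact hr₀1 h2
    apply hRN
    intro x hx
    rw [← cj_eq_self_iff]
    apply h.norm_of_comm hT hwT hw1 (h.sub R hR hx)
    have h1 : x * r₀⁻¹ = r₀⁻¹ * x := by
      have := hr₀c x hx
      calc x * r₀⁻¹ = r₀⁻¹ * (r₀ * x) * r₀⁻¹ := by group
        _ = r₀⁻¹ * (x * r₀) * r₀⁻¹ := by rw [this]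
        _ = r₀⁻¹ * x := by group
    have h2 : x * (t * r₀ * t⁻¹) = (t * r₀ * t⁻¹) * x :=
      hCM R hR hRM (cj t R) (h.inv t htS R hR) (hcjM t htS) (Ne.symm hcjne) x hx _
        (conj_mem_cj hr₀R)
    calc x * w * x⁻¹ = (x * r₀⁻¹) * (t * r₀ * t⁻¹) * x⁻¹ := by rw [hw]; group
      _ = r₀⁻¹ * (x * (t * r₀ * t⁻¹)) * x⁻¹ := by rw [h1]; group
      _ = w := by rw [h2, hw]; group
  -- the abelian group generated by the centres of the conjugates of R
  let W : Set G := {x | ∃ s ∈ S, ∃ r ∈ R, (∀ y ∈ R, y * r = r * y) ∧ x = s * r * s⁻¹}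
  have hWcomm : ∀ x ∈ W, ∀ y ∈ W, x * y = y * x := by
    rintro _ ⟨s, hs, r, hr, hrc, rfl⟩ _ ⟨s', hs', r', hr', hrc', rfl⟩
    by_cases he : cj s R = cj s' R
    · have h1 : s' * r' * s'⁻¹ ∈ cj s R := by rw [he]; exact conj_mem_cj hr'
      rw [mem_cj] at h1
      have h2 := hrc _ h1
      calc s * r * s⁻¹ * (s' * r' * s'⁻¹) = s * (r * (s⁻¹ * (s' * r' * s'⁻¹) * s)) * s⁻¹ := by group
        _ = s * ((s⁻¹ * (s' * r' * s'⁻¹) * s) * r) * s⁻¹ := by rw [h2]
        _ = s' * r' * s'⁻¹ * (s * r * s⁻¹) := by group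
    · exact hCM _ (h.inv s hs R hR) (hcjM s hs) _ (h.inv s' hs' R hR) (hcjM s' hs') he _
        (conj_mem_cj hr) _ (conj_mem_cj hr')
  set NZ := Subgroup.closure W with hNZ
  have hNZc : ∀ x ∈ NZ, ∀ y ∈ NZ, x * y = y * x := by
    have := Subgroup.isMulCommutative_closure hWcomm
    intro x hx y hy
    exact congrArg Subtype.val (mul_comm' (⟨x, hx⟩ : NZ) ⟨y, hy⟩)
  have hNZS : NZ ≤ S := by
    rw [hNZ, Subgroup.closure_le]
    rintro _ ⟨s, hs, r, hr, _, rfl⟩
    exact S.mul_mem (S.mul_mem hs (h.sub R hR hr)) (S.inv_mem hs)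
  have hNZ2 : IsPGroup 2 NZ := hS.to_le hNZS
  have hNZconj : ∀ s ∈ S, ∀ x ∈ NZ, s * x * s⁻¹ ∈ NZ := by
    intro s hs x hx
    have : NZ ≤ NZ.comap (MulAut.conj s).toMonoidHom := by
      rw [hNZ, Subgroup.closure_le]
      rintro _ ⟨s', hs', r, hr, hrc, rfl⟩
      apply Subgroup.subset_closure
      refine ⟨s * s', S.mul_mem hs hs', r, hr, hrc, ?_⟩
      simp [MulAut.conj_apply, mul_assoc]
    simpa [MulAut.conj_apply] using this hx
  have hNZnorm : ∀ s ∈ S, s ∈ Subgroup.normalizer (NZ : Set G) := by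
    intro s hs
    rw [Subgroup.mem_normalizer_iff]
    intro x
    refine ⟨hNZconj s hs x, fun hx => ?_⟩
    have := hNZconj s⁻¹ (S.inv_mem hs) _ hx
    have e : s⁻¹ * (s * x * s⁻¹) * s⁻¹⁻¹ = x := by group
    rwa [e] at this
  have hZNZ : ∀ r ∈ R, (∀ y ∈ R, y * r = r * y) → r ∈ NZ := fun r hr hrc =>
    Subgroup.subset_closure ⟨1, S.one_mem, r, hr, hrc, by simp⟩
  obtain ⟨t₀, ht₀T, ht₀2⟩ := h.sq T hT
  have ht₀S : t₀ ∈ S := h.sub T hT ht₀T
  have ht₀1 : t₀ ≠ 1 := by rintro rfl; simp at ht₀2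
  obtain ⟨k, hk⟩ := hS ⟨t₀, ht₀S⟩
  have hk' : t₀ ^ (2 ^ k) = 1 := by
    have := congrArg Subtype.val hk
    simpa using this
  have hcent : ∀ b ∈ NZ, t₀ * b * t₀⁻¹ = b := by
    apply centralizes_of_sq NZ hNZ2 hNZc t₀ (hNZnorm t₀ ht₀S) k hk'
    intro b hb hb2
    have hbS : b ∈ S := hNZS hb
    have h1 : b * t₀ ^ 2 * b⁻¹ = t₀ ^ 2 := by
      calc b * t₀ ^ 2 * b⁻¹ = (t₀ ^ 2 * b * (t₀ ^ 2)⁻¹) * t₀ ^ 2 * b⁻¹ := by rw [hb2]
        _ = t₀ ^ 2 := by group
    have hbN : cj b T = T := h.norm_of_comm hT (T.pow_mem ht₀T 2) ht₀2 hbS h1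
    by_contra hne
    set w := b * t₀ * b⁻¹ * t₀⁻¹ with hw
    have hwT : w ∈ T := by
      have : b * t₀ * b⁻¹ ∈ T := by
        have := conj_mem_cj (g := b) ht₀T
        rwa [hbN] at this
      exact T.mul_mem this (T.inv_mem ht₀T)
    have hwNZ : w ∈ NZ := by
      have : w = b * (t₀ * b⁻¹ * t₀⁻¹) := by rw [hw]; group
      rw [this]
      exact NZ.mul_mem hb (hNZconj t₀ ht₀S _ (NZ.inv_mem hb))
    have hw1 : w ≠ 1 := by
      intro hw1
      apply hne
      calc t₀ * b * t₀⁻¹ = w⁻¹ * b := by rw [hw]; group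
        _ = b := by rw [hw1]; simp
    apply claimA
    intro r hr hrc
    rw [← cj_eq_self_iff]
    apply h.norm_of_comm hT hwT hw1 (h.sub R hR hr)
    rw [hNZc r (hZNZ r hr hrc) w hwNZ]; group
  apply claimA
  intro r hr hrc
  rw [← cj_eq_self_iff]
  apply h.norm_of_comm hT ht₀T ht₀1 (h.sub R hR hr)
  have := hcent r (hZNZ r hr hrc)
  calc r * t₀ * r⁻¹ = (t₀ * r * t₀⁻¹) * t₀ * r⁻¹ := by rw [this]
    _ = t₀ := by group

/-- A finite group of exponent 2 has trivial Frattini subgroup. -/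
theorem frattini_eq_bot_of_sq {R : Type*} [Group R] [Finite R] (h : ∀ x : R, x ^ 2 = 1) :
    frattini R = ⊥ := by
  have hinv : ∀ x : R, x⁻¹ = x := fun x => by
    rw [inv_eq_iff_mul_eq_one, ← pow_two]; exact h x
  have hcomm : ∀ x y : R, x * y = y * x := fun x y => by
    calc x * y = (x * y)⁻¹ := (hinv _).symm
      _ = y⁻¹ * x⁻¹ := mul_inv_rev x y
      _ = y * x := by rw [hinv, hinv]
  rw [eq_bot_iff]
  intro x hx
  rw [Subgroup.mem_bot]
  by_contra hx1
  obtain ⟨H, hH⟩ := (Set.toFinite {H : Subgroup R | x ∉ H}).exists_maximal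
    ⟨⊥, by simpa [Subgroup.mem_bot] using hx1⟩
  have hxH : x ∉ H := hH.prop
  have hco : IsCoatom H := by
    refine ⟨fun e => hxH (e ▸ Subgroup.mem_top x), ?_⟩
    intro K hK
    have hxK : x ∈ K := by
      by_contra hxK
      exact absurd (hH.le_of_ge (y := K) hxK hK.le) (not_le_of_gt hK)
    rw [eq_top_iff]
    intro y _
    by_cases hy : y ∈ H
    · exact hK.le hy
    · -- the subgroup H ∪ yH
      let L : Subgroup R :=
        { carrier := {u | u ∈ H ∨ y * u ∈ H}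
          one_mem' := Or.inl H.one_mem
          mul_mem' := by
            rintro a b (ha | ha) (hb | hb)
            · exact Or.inl (H.mul_mem ha hb)
            · right
              have : y * (a * b) = a * (y * b) := by rw [← mul_assoc, hcomm y a, mul_assoc]
              rw [this]; exact H.mul_mem ha hb
            · right
              rw [← mul_assoc]; exact H.mul_mem ha hb
            · left
              have : a * b = (y * a) * (y * b) := by
                calc a * b = (y * y) * (a * b) := by rw [← pow_two, h y, one_mul]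
                  _ = (y * a) * (y * b) := by
                    rw [mul_assoc, mul_assoc, ← mul_assoc y a b, hcomm y a, mul_assoc]
              rw [this]; exact H.mul_mem ha hb
          inv_mem' := by
            intro a ha
            rw [hinv]; exact ha }
      have hHL : H ≤ L := fun u hu => Or.inl hu
      have hyL : y ∈ L := Or.inr (by rw [← pow_two, h y]; exact H.one_mem)
      have hxL : x ∈ L := by
        by_contra hxL
        exact hy (hH.le_of_ge (y := L) hxL hHL hyL)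
      rcases hxL with hxL | hxL
      · exact absurd hxL hxH
      · have : y = (y * x) * x := by rw [mul_assoc, ← pow_two, h x, mul_one]
        rw [this]
        exact K.mul_mem (hK.le hxL) hxK
  exact hxH (frattini_le_coatom hco hx)

/-- Let S be a finite 2-group and Δ a set of subgroups of S closed under conjugation by S, all of the same order, each with nontrivial Frattini subgroup, and such that two distinct members of Δ meet trivially. Then any two distinct members of Δ commute elementwise. -/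
theorem result {S : Type*} [Group S] [Finite S] (hS : IsPGroup 2 S)
    (Δ : Set (Subgroup S)) (hinv : ∀ s : S, ∀ R ∈ Δ, R.map (MulAut.conj s).toMonoidHom ∈ Δ)
    (hΦ : ∀ R ∈ Δ, frattini ↥R ≠ ⊥) (hord : ∀ R ∈ Δ, ∀ T ∈ Δ, Nat.card ↥R = Nat.card ↥T)
    (hti : ∀ R ∈ Δ, ∀ T ∈ Δ, R = T ∨ R ⊓ T = ⊥) :
    ∀ R ∈ Δ, ∀ T ∈ Δ, R ≠ T → ⁅R, T⁆ = ⊥ := by
  intro R hR T hT hne
  have hFam : Fam (⊤ : Subgroup S) Δ :=
    { sub := fun _ _ => le_top
      inv := fun s _ R hR => hinv s R hR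
      sq := fun R hR => by
        by_contra hcon
        push_neg at hcon
        apply hΦ R hR
        apply frattini_eq_bot_of_sq
        intro x
        apply Subtype.ext
        simpa using hcon x x.2
      ord := hord
      ti := hti }
  have := main _ (⊤ : Subgroup S) rfl (hS.to_subgroup ⊤) Δ hFam R hR T hT hne
  rw [Subgroup.commutator_eq_bot_iff_le_centralizer]
  intro x hx
  rw [Subgroup.mem_centralizer_iff]
  intro b hb
  exact (this x hx b hb).symm

end Cfsg.Agent.S1782
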