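import Cfsg.Statements.S1783
import Cfsg.Agent.Lib.Helper36Stab
import Cfsg.Agent.Lib.Helper28Layer
import Cfsg.Agent.S1782

set_option autoImplicit false
open Cfsg

namespace Cfsg.Agent.S1783

open Cfsg.Agent.Lib.Helper36TI Cfsg.Agent.Lib.Helper36Stab

/-- Let X be a finite group whose generalized Fitting subgroup equals its largest normal 2-subgroup Q, and let A be an abelian 2-subgroup of X such that every conjugate of A equals A or meets A trivially. Let B be the subgroup generated by the squares of the elements of A. Then B lies in Q, and if B is not an elementary abelian 2-group then the normal closure of B in X is commutative. -/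
theorem result {X : Type*} [Group X] [Finite X]
    (hX : Cfsg.generalizedFittingSubgroup X = Cfsg.pCore 2 X) (A : Subgroup X) (hA2 : IsPGroup 2 ↥A) (hAa : IsMulCommutative ↥A)
    (hti : ∀ h : X, A.map (MulAut.conj h).toMonoidHom = A ∨ A.map (MulAut.conj h).toMonoidHom ⊓ A = ⊥) :
    Subgroup.closure ((fun a : X => a ^ 2) '' (A : Set X)) ≤ Cfsg.pCore 2 X ∧
      (¬ Cfsg.IsElementaryAbelian 2 (Subgroup.closure ((fun a : X => a ^ 2) '' (A : Set X))) →
        IsMulCommutative ↥(Subgroup.normalClosure ((fun a : X => a ^ 2) '' (A : Set X)))) := by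
  have hAc : ∀ x ∈ A, ∀ y ∈ A, x * y = y * x := fun x hx y hy =>
    congrArg Subtype.val (mul_comm' (⟨x, hx⟩ : A) ⟨y, hy⟩)
  have hC : Subgroup.centralizer (pCore 2 X : Set X) ≤ pCore 2 X := by
    rw [← hX]; exact Cfsg.Agent.Lib.Helper28Layer.centralizer_gfit_le
  have hQ2 : IsPGroup 2 (pCore 2 X) := Cfsg.Agent.Lib.Helper28Fitting.pCore_isPGroup 2
  have hQn : (pCore 2 X).Normal := inferInstance
  have part1 : Subgroup.closure ((fun a : X => a ^ 2) '' (A : Set X)) ≤ Cfsg.pCore 2 X := by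
    rw [Subgroup.closure_le]
    rintro _ ⟨a, ha, rfl⟩
    simp only [SetLike.mem_coe]
    by_cases hex : ∀ a ∈ A, a ^ 2 = 1
    · rw [hex a ha]; exact Subgroup.one_mem _
    push_neg at hex
    obtain ⟨a₀, ha₀, ha₀2⟩ := hex
    set S := pCore 2 X ⊔ A with hS
    have hS2 : IsPGroup 2 S := IsPGroup.to_sup_of_normal_left hQ2 hA2
    have hAS : A ≤ S := le_sup_right
    have hQS : pCore 2 X ≤ S := le_sup_left
    have hFam : Cfsg.Agent.S1782.Fam S {R | ∃ s ∈ S, R = cj s A} :=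
      { sub := by
          rintro _ ⟨s, hs, rfl⟩
          have := cj_mono (g := s) hAS
          rwa [cj_eq_self_of_mem hs] at this
        inv := by
          rintro s hs _ ⟨s', hs', rfl⟩
          exact ⟨s * s', S.mul_mem hs hs', cj_cj _ _ _⟩
        sq := by
          rintro _ ⟨s, hs, rfl⟩
          refine ⟨s * a₀ * s⁻¹, conj_mem_cj ha₀, ?_⟩
          rw [conj_pow]
          intro e
          apply ha₀2
          calc a₀ ^ 2 = s⁻¹ * (s * a₀ ^ 2 * s⁻¹) * s := by group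
            _ = 1 := by rw [e]; group
        ord := by
          rintro _ ⟨s, hs, rfl⟩ _ ⟨s', hs', rfl⟩
          rw [card_cj, card_cj]
        ti := by
          rintro _ ⟨s, hs, rfl⟩ _ ⟨s', hs', rfl⟩
          exact ti_pair hti s s' }
    have hcomm : ∀ x ∈ pCore 2 X, ∀ b ∈ A, ∀ b' ∈ A, b * (x * b' * x⁻¹) = (x * b' * x⁻¹) * b := by
      intro x hx b hb b' hb'
      by_cases he : A = cj x A
      · have : x * b' * x⁻¹ ∈ A := by rw [he]; exact conj_mem_cj hb'
        exact hAc b hb _ this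
      · exact Cfsg.Agent.S1782.main _ S rfl hS2 _ hFam A ⟨1, S.one_mem, (cj_one A).symm⟩ (cj x A)
          ⟨x, hQS hx, rfl⟩ he b hb _ (conj_mem_cj hb')
    apply mem_pCore_of_stab hC
    intro H hH hHn x hx
    set d := a * x * a⁻¹ * x⁻¹ with hd
    have hdH : d ∈ H := H.mul_mem (hHn.conj_mem x hx a) (H.inv_mem hx)
    have had : a * d * a⁻¹ = d := by
      have h1 := hcomm x (hH hx) a ha a⁻¹ (A.inv_mem ha)
      calc a * d * a⁻¹ = a * (a * (x * a⁻¹ * x⁻¹)) * a⁻¹ := by rw [hd]; group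
        _ = a * ((x * a⁻¹ * x⁻¹) * a) * a⁻¹ := by rw [h1]
        _ = d := by rw [hd]; group
    have : a ^ 2 * x * (a ^ 2)⁻¹ * x⁻¹ = d ^ 2 := by
      calc a ^ 2 * x * (a ^ 2)⁻¹ * x⁻¹ = (a * (a * x * a⁻¹ * x⁻¹) * a⁻¹) * (a * x * a⁻¹ * x⁻¹) := by
            rw [pow_two]; group
        _ = d ^ 2 := by rw [← hd, had, pow_two]
    rw [this]
    exact sq_mem_sqS hdH
  refine ⟨part1, ?_⟩
  intro hne
  set B := sqS A with hB
  have hBA : B ≤ A := sqS_le A
  have hBc : ∀ x ∈ B, ∀ y ∈ B, x * y = y * x := fun x hx y hy => hAc x (hBA hx) y (hBA hy)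
  obtain ⟨b₀, hb₀, hb₀2⟩ : ∃ b ∈ B, b ^ 2 ≠ 1 := by
    by_contra hcon
    push_neg at hcon
    exact hne ⟨⟨⟨fun x y => Subtype.ext (hBc x x.2 y y.2)⟩⟩, hcon⟩
  have hFam : Cfsg.Agent.S1782.Fam (pCore 2 X) {R | ∃ g : X, R = cj g B} :=
    { sub := by
        rintro _ ⟨g, rfl⟩
        have := cj_mono (g := g) part1
        rwa [cj_of_normal hQn] at this
      inv := by
        rintro s _ _ ⟨g, rfl⟩
        exact ⟨s * g, cj_cj _ _ _⟩
      sq := by
        rintro _ ⟨g, rfl⟩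
        refine ⟨g * b₀ * g⁻¹, conj_mem_cj hb₀, ?_⟩
        rw [conj_pow]
        intro e
        apply hb₀2
        calc b₀ ^ 2 = g⁻¹ * (g * b₀ ^ 2 * g⁻¹) * g := by group
          _ = 1 := by rw [e]; group
      ord := by
        rintro _ ⟨g, rfl⟩ _ ⟨g', rfl⟩
        rw [card_cj, card_cj]
      ti := by
        rintro _ ⟨g, rfl⟩ _ ⟨g', rfl⟩
        rcases ti_pair hti g g' with e | e
        · left
          rw [hB, cj_sqS, cj_sqS, e]
        · right
          rw [eq_bot_iff, ← e]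
          exact inf_le_inf (cj_mono hBA) (cj_mono hBA) }
  apply Subgroup.isMulCommutative_closure
  intro x hx y hy
  obtain ⟨_, ⟨a, ha, rfl⟩, hax⟩ := Group.mem_conjugatesOfSet_iff.mp hx
  obtain ⟨_, ⟨a', ha', rfl⟩, hay⟩ := Group.mem_conjugatesOfSet_iff.mp hy
  obtain ⟨g, rfl⟩ := isConj_iff.mp hax
  obtain ⟨g', rfl⟩ := isConj_iff.mp hay
  have h1 : g * a ^ 2 * g⁻¹ ∈ cj g B := conj_mem_cj (sq_mem_sqS ha)
  have h2 : g' * a' ^ 2 * g'⁻¹ ∈ cj g' B := conj_mem_cj (sq_mem_sqS ha')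
  by_cases he : cj g B = cj g' B
  · rw [← he, mem_cj] at h2
    have h3 := hBc _ (sq_mem_sqS ha) _ h2
    simp only
    calc g * a ^ 2 * g⁻¹ * (g' * a' ^ 2 * g'⁻¹)
        = g * (a ^ 2 * (g⁻¹ * (g' * a' ^ 2 * g'⁻¹) * g)) * g⁻¹ := by group
      _ = g * ((g⁻¹ * (g' * a' ^ 2 * g'⁻¹) * g) * a ^ 2) * g⁻¹ := by rw [h3]
      _ = _ := by group
  · exact Cfsg.Agent.S1782.main _ (pCore 2 X) rfl hQ2 _ hFam _ ⟨g, rfl⟩ _ ⟨g', rfl⟩ he _ h1 _ h2

end Cfsg.Agent.S1783
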