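import Cfsg.Statements.S1784
import Cfsg.Agent.Lib.Helper36GF2

set_option autoImplicit false
open Cfsg

namespace Cfsg.Agent.S1784

open Cfsg.Agent.Lib.Helper36GF2 Cfsg.Agent.Lib.Helper36TI Cfsg.Agent.Lib.Helper36Extra

theorem β_sq {G : Type*} [Group G] (a b : G) : β a b * β a b = 1 := by
  by_cases h : a * b = b * a
  · rw [β_of_comm h]; simp
  · rw [β_of_not_comm h]; simp

theorem β_inv_left {G : Type*} [Group G] (a b : G) : β a⁻¹ b = β a b := by
  by_cases h : a * b = b * a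
  · rw [β_of_comm h, β_of_comm]
    calc a⁻¹ * b = a⁻¹ * (b * a) * a⁻¹ := by group
      _ = a⁻¹ * (a * b) * a⁻¹ := by rw [h]
      _ = b * a⁻¹ := by group
  · rw [β_of_not_comm h, β_of_not_comm]
    intro e
    apply h
    calc a * b = a * (b * a⁻¹) * a := by group
      _ = a * (a⁻¹ * b) * a := by rw [e]
      _ = b * a := by group

theorem core {G : Type*} [Group G] [Finite G] {Q : Subgroup G} {z : G} (h : Ex Q z)
    (α : G) (hαα : α * α = 1) (hαz : α * z = z * α) (hαN : ∀ q ∈ Q, α * q * α⁻¹ ∈ Q)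
    (hαC : ¬ ∀ q ∈ Q, α * q * α⁻¹ = q)
    (Q₀ : Subgroup G) (hQ₀ : ∀ q : G, q ∈ Q₀ ↔ (q ∈ Q ∧ (α * q * α⁻¹ * q⁻¹ = 1 ∨ α * q * α⁻¹ * q⁻¹ = z))) :
    Subgroup.closure ((fun q : G => α * q * α⁻¹ * q⁻¹) '' (Q : Set G)) =
      (Subgroup.center ↥Q₀).map Q₀.subtype := by
  have hαi : α⁻¹ = α := inv_eq_of_mul_eq_one_left hαα
  set K := Subgroup.closure ((fun q : G => α * q * α⁻¹ * q⁻¹) '' (Q : Set G)) with hK
  have hcQ : ∀ q ∈ Q, α * q * α⁻¹ * q⁻¹ ∈ Q := fun q hq => Q.mul_mem (hαN q hq) (Q.inv_mem hq)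
  have hcK : ∀ q ∈ Q, α * q * α⁻¹ * q⁻¹ ∈ K := fun q hq => Subgroup.subset_closure ⟨q, hq, rfl⟩
  have hKQ : K ≤ Q := by
    rw [hK, Subgroup.closure_le]
    rintro _ ⟨q, hq, rfl⟩
    exact hcQ q hq
  have hQ₀Q : Q₀ ≤ Q := fun q hq => ((hQ₀ q).mp hq).1
  -- identity (I)
  have hI : ∀ q ∈ Q, ∀ u ∈ Q, β (α * q * α⁻¹ * q⁻¹) u = β q (α * u * α⁻¹ * u⁻¹) := by
    intro q hq u hu
    have e1 : β (α * q * α⁻¹) u = β q (α * u * α⁻¹) := by
      have := β_conj α q (α * u * α⁻¹)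
      have e : α * (α * u * α⁻¹) * α⁻¹ = u := by
        rw [hαi]
        calc α * (α * u * α) * α = (α * α) * u * (α * α) := by group
          _ = u := by rw [hαα]; group
      rwa [e] at this
    have e2 : α * u * α⁻¹ = (α * u * α⁻¹ * u⁻¹) * u := by group
    rw [h.β_mul_left (hαN q hq) (Q.inv_mem hq) hu, β_inv_left, e1]
    conv_lhs => rw [e2]
    rw [h.β_mul_right hq (hcQ u hu) hu, mul_assoc, β_sq, mul_one]
  have hzQ₀ : z ∈ Q₀ := by
    rw [hQ₀]
    refine ⟨h.mem, Or.inl ?_⟩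
    rw [hαz]; group
  -- C_Q(K) = Q₀
  have hCK : Q ⊓ Subgroup.centralizer (K : Set G) = Q₀ := by
    ext u
    rw [Subgroup.mem_inf]
    constructor
    · rintro ⟨huQ, huC⟩
      rw [hQ₀]
      refine ⟨huQ, ?_⟩
      apply h.center _ (hcQ u huQ)
      intro b hb
      have h1 : β (α * b * α⁻¹ * b⁻¹) u = 1 :=
        β_of_comm (Subgroup.mem_centralizer_iff.mp huC _ (hcK b hb))
      rw [hI b hb u huQ] at h1
      exact (β_eq_one_iff.mp h1).symm
    · intro hu
      obtain ⟨huQ, hu1⟩ := (hQ₀ u).mp hu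
      refine ⟨huQ, ?_⟩
      have : K ≤ Subgroup.centralizer ({u} : Set G) := by
        rw [hK, Subgroup.closure_le]
        rintro _ ⟨q, hq, rfl⟩
        rw [SetLike.mem_coe, Subgroup.mem_centralizer_singleton_iff]
        rw [← β_eq_one_iff, hI q hq u huQ]
        apply β_of_comm
        rcases hu1 with e | e
        · rw [e]; simp
        · rw [e]; exact h.cen q hq
      rw [Subgroup.mem_centralizer_iff]
      intro k hk
      exact Subgroup.mem_centralizer_singleton_iff.mp (this hk)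
  -- z ∈ K
  have hconjK : ∀ x ∈ Q, ∀ q ∈ Q, x * (α * q * α⁻¹ * q⁻¹) * x⁻¹ ∈ K := by
    intro x hx q hq
    have : x * (α * q * α⁻¹ * q⁻¹) * x⁻¹ =
        (α * x * α⁻¹ * x⁻¹)⁻¹ * (α * (x * q) * α⁻¹ * (x * q)⁻¹) := by group
    rw [this]
    exact K.mul_mem (K.inv_mem (hcK x hx)) (hcK _ (Q.mul_mem hx hq))
  have hzK : z ∈ K := by
    push_neg at hαC
    obtain ⟨q, hq, hne⟩ := hαC
    set c := α * q * α⁻¹ * q⁻¹ with hc
    have hc1 : c ≠ 1 := fun e => hne (mul_inv_eq_one.mp e)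
    by_cases hcen : ∀ b ∈ Q, c * b = b * c
    · rcases h.center c (hcQ q hq) hcen with e | e
      · exact absurd e hc1
      · rw [← e]; exact hcK q hq
    · push_neg at hcen
      obtain ⟨x, hx, hxc⟩ := hcen
      have h1 : x * c = c * x * z := h.anti_of_ne hx (hcQ q hq) (fun e => hxc e.symm)
      have h2 : z = (x * c * x⁻¹) * c⁻¹ := by
        rw [h1]
        have hcz := h.cen c (hcQ q hq)
        calc z = (z * c) * c⁻¹ := by group
          _ = (c * z) * c⁻¹ := by rw [hcz]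
          _ = c * (z * x) * x⁻¹ * c⁻¹ := by group
          _ = c * (x * z) * x⁻¹ * c⁻¹ := by rw [h.cen x hx]
          _ = c * x * z * x⁻¹ * c⁻¹ := by group
      rw [h2]
      exact K.mul_mem (hconjK x hx q hq) (K.inv_mem (hcK q hq))
  have hc1 := h.cent_card K hKQ hzK
  have hc2 := h.cent_card Q₀ hQ₀Q hzQ₀
  rw [hCK] at hc1
  have hcard : Nat.card K = Nat.card ↥(Q ⊓ Subgroup.centralizer (Q₀ : Set G)) := by
    have hpos : 0 < Nat.card Q₀ := Nat.card_pos
    have : Nat.card Q₀ * Nat.card K = Nat.card Q₀ * Nat.card ↥(Q ⊓ Subgroup.centralizer (Q₀ : Set G)) := by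
      rw [hc2, ← hc1, mul_comm]
    exact Nat.eq_of_mul_eq_mul_left hpos this
  have hmemZ : ∀ x : G, x ∈ (Subgroup.center ↥Q₀).map Q₀.subtype ↔ (x ∈ Q₀ ∧ ∀ u ∈ Q₀, u * x = x * u) := by
    intro x
    constructor
    · rintro ⟨y, hy, rfl⟩
      refine ⟨y.2, fun u hu => ?_⟩
      exact congrArg Subtype.val (Subgroup.mem_center_iff.mp hy ⟨u, hu⟩)
    · rintro ⟨hx, hxc⟩
      refine ⟨⟨x, hx⟩, ?_, rfl⟩
      rw [SetLike.mem_coe, Subgroup.mem_center_iff]
      intro u
      exact Subtype.ext (hxc u u.2)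
  have hKQ₀ : K ≤ Q₀ := by
    rw [hK, Subgroup.closure_le]
    rintro _ ⟨q, hq, rfl⟩
    rw [SetLike.mem_coe, hQ₀]
    refine ⟨hcQ q hq, ?_⟩
    set c := α * q * α⁻¹ * q⁻¹ with hc
    have e1 : α * c * α⁻¹ = c⁻¹ := by
      rw [hc, hαi]
      calc α * (α * q * α * q⁻¹) * α = (α * α) * q * α * q⁻¹ * α := by group
        _ = q * α * q⁻¹ * α := by rw [hαα]; group
        _ = q * α⁻¹ * q⁻¹ * α⁻¹ := by rw [hαi]
        _ = (α * q * α * q⁻¹)⁻¹ := by group
    rw [e1]
    rcases h.sqr c (hcQ q hq) with e | e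
    · left
      calc c⁻¹ * c⁻¹ = (c * c)⁻¹ := by group
        _ = 1 := by rw [e]; simp
    · right
      calc c⁻¹ * c⁻¹ = (c * c)⁻¹ := by group
        _ = z⁻¹ := by rw [e]
        _ = z := inv_eq_of_mul_eq_one_left h.sq
  have hle1 : K ≤ (Subgroup.center ↥Q₀).map Q₀.subtype := by
    intro k hk
    rw [hmemZ]
    refine ⟨hKQ₀ hk, fun u hu => ?_⟩
    have : u ∈ Q ⊓ Subgroup.centralizer (K : Set G) := by rw [hCK]; exact hu
    exact (Subgroup.mem_centralizer_iff.mp this.2 k hk).symm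
  have hle2 : (Subgroup.center ↥Q₀).map Q₀.subtype ≤ Q ⊓ Subgroup.centralizer (Q₀ : Set G) := by
    intro x hx
    obtain ⟨hx1, hx2⟩ := (hmemZ x).mp hx
    exact ⟨hQ₀Q hx1, Subgroup.mem_centralizer_iff.mpr hx2⟩
  have heq : K = Q ⊓ Subgroup.centralizer (Q₀ : Set G) :=
    Subgroup.eq_of_le_of_card_ge (hle1.trans hle2) hcard.ge
  exact le_antisymm hle1 (heq ▸ hle2)

theorem mem_zpowers_iff_of_sq {G : Type*} [Group G] {z : G} (hz : z * z = 1) (x : G) :
    x ∈ Subgroup.zpowers z ↔ (x = 1 ∨ x = z) := by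
  constructor
  · rintro ⟨k, rfl⟩
    rcases Int.even_or_odd' k with ⟨m, rfl | rfl⟩
    · left
      simp only
      rw [zpow_mul, zpow_two, hz, one_zpow]
    · right
      simp only
      rw [zpow_add, zpow_mul, zpow_two, hz, one_zpow, zpow_one, one_mul]
  · rintro (rfl | rfl)
    · exact Subgroup.one_mem _
    · exact Subgroup.mem_zpowers _

/-- Let G be a finite group and let z be an involution of G such that Q, the generalized Fitting subgroup of the centralizer C of z, is a 2-group of symplectic type (every characteristic abelian subgroup of Q is cyclic); suppose Q is extraspecial, and view Q inside G. Let α be an involution of C that is not in Q, and let Q₀ be the subgroup of those q ∈ Q whose commutator with α lies in the subgroup generated by z. Then (a) the subgroup generated by the commutators α q α⁻¹ q⁻¹, q ∈ Q, equals the centre of Q₀; and (b) if Q₀ is not contained in the product of the centralizer of α in Q with the subgroup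 generated by z, then some element of Q conjugates α to α z. -/
theorem result {G : Type*} [Group G] [Finite G] (z : G) (hz : orderOf z = 2) (hQ : Cfsg.IsOfSymplecticType ↥(Cfsg.generalizedFittingSubgroup ↥(Subgroup.centralizer ({z} : Set G)))) (hE : Cfsg.IsExtraspecial 2 ↥(Cfsg.generalizedFittingSubgroup ↥(Subgroup.centralizer ({z} : Set G))))
    (α : G) (hα : orderOf α = 2) (hαC : α ∈ Subgroup.centralizer ({z} : Set G)) (hαQ : α ∉ (Cfsg.generalizedFittingSubgroup ↥(Subgroup.centralizer ({z} : Set G))).map (Subgroup.centralizer ({z} : Set G)).subtype)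
    (Q₀ : Subgroup G) (hQ₀ : ∀ q : G, q ∈ Q₀ ↔ (q ∈ (Cfsg.generalizedFittingSubgroup ↥(Subgroup.centralizer ({z} : Set G))).map (Subgroup.centralizer ({z} : Set G)).subtype ∧ α * q * α⁻¹ * q⁻¹ ∈ Subgroup.zpowers z)) :
    Subgroup.closure ((fun q : G => α * q * α⁻¹ * q⁻¹) '' ((Cfsg.generalizedFittingSubgroup ↥(Subgroup.centralizer ({z} : Set G))).map (Subgroup.centralizer ({z} : Set G)).subtype : Set G)) = (Subgroup.center ↥Q₀).map Q₀.subtype ∧
      (¬ Q₀ ≤ ((Cfsg.generalizedFittingSubgroup ↥(Subgroup.centralizer ({z} : Set G))).map (Subgroup.centralizer ({z} : Set G)).subtype ⊓ Subgroup.centralizer ({α} : Set G)) ⊔ Subgroup.zpowers z →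
        ∃ q ∈ (Cfsg.generalizedFittingSubgroup ↥(Subgroup.centralizer ({z} : Set G))).map (Subgroup.centralizer ({z} : Set G)).subtype, q * α * q⁻¹ = α * z) := by
  have hz1 : z ≠ 1 := by rintro rfl; simp at hz
  have h : Ex (QF z) z := ex_QF hz1 hE
  have hαα : α * α = 1 := by rw [← pow_two, ← hα]; exact pow_orderOf_eq_one α
  have hαi : α⁻¹ = α := inv_eq_of_mul_eq_one_left hαα
  have hQ₀' : ∀ q : G, q ∈ Q₀ ↔ (q ∈ QF z ∧ (α * q * α⁻¹ * q⁻¹ = 1 ∨ α * q * α⁻¹ * q⁻¹ = z)) := by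
    intro q
    rw [hQ₀, mem_zpowers_iff_of_sq h.sq]
  refine ⟨?_, ?_⟩
  · apply core h α hαα (mem_CC.mp hαC) (fun q hq => conj_mem_QF hαC hq) _ Q₀ hQ₀'
    intro hcen
    apply hαQ
    apply centralizer_QF_le z
    refine Subgroup.mem_inf.mpr ⟨hαC, ?_⟩
    rw [Subgroup.mem_centralizer_iff]
    intro q hq
    calc q * α = (α * q * α⁻¹) * α := by rw [hcen q hq]
      _ = α * q := by group
  · intro hnle
    obtain ⟨q, hq, hqn⟩ := SetLike.not_le_iff_exists.mp hnle
    obtain ⟨hqQ, hq1⟩ := (hQ₀' q).mp hq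
    refine ⟨q, hqQ, ?_⟩
    rcases hq1 with e | e
    · exfalso
      apply hqn
      apply Subgroup.mem_sup_left
      refine Subgroup.mem_inf.mpr ⟨hqQ, ?_⟩
      rw [Subgroup.mem_centralizer_singleton_iff]
      have : α * q * α⁻¹ = q := mul_inv_eq_one.mp e
      calc q * α = (α * q * α⁻¹) * α := by rw [this]
        _ = α * q := by group
    · calc q * α * q⁻¹ = α * (α * q * α * q⁻¹) := by
            rw [show α * (α * q * α * q⁻¹) = (α * α) * q * α * q⁻¹ by group, hαα]; group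
        _ = α * z := by rw [← e, hαi]

end Cfsg.Agent.S1784
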