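import Cfsg.Statements.S1850
import Cfsg.Agent.Lib.Helper36Local2

set_option autoImplicit false
open Cfsg

namespace Cfsg.Agent.S1850

/-- Let G be a non-abelian finite simple QTKE-group and T a Sylow 2-subgroup of G. If U is a nontrivial 2-subgroup of G with U ∩ Z(T) ≠ 1, then F*(N_G(U)) = O₂(N_G(U)). -/
theorem result {G : Type*} [Group G] [Finite G] [IsSimpleGroup G]
    (hG : ¬ IsMulCommutative G) (hQ : Cfsg.IsQTKE G) (T : Sylow 2 G) (U : Subgroup G)
    (hU : IsPGroup 2 ↥U) (hZ : U ⊓ ((T : Subgroup G) ⊓ Subgroup.centralizer ((T : Subgroup G) : Set G)) ≠ ⊥) :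
    Subgroup.normalizer (U : Set G) ∈ Cfsg.calHe G := by
  have : Fact (Nat.Prime 2) := ⟨Nat.prime_two⟩
  set V := U ⊓ ((T : Subgroup G) ⊓ Subgroup.centralizer ((T : Subgroup G) : Set G)) with hV
  change generalizedFittingSubgroup _ = pCore 2 _
  apply Cfsg.Agent.Lib.Helper36Local2.gfit_normalizer_eq_of_le hU (V := V) inf_le_left
  rw [Cfsg.Agent.Lib.Helper27Balance.gfit_eq_pCore_iff]
  apply hQ.2.2 _ ⟨V, hU.to_le inf_le_left, hZ, rfl⟩
  refine ⟨T, ?_⟩
  have h1 : V ≤ Subgroup.centralizer ((T : Subgroup G) : Set G) := inf_le_right.trans inf_le_right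
  have h2 : (T : Subgroup G) ≤ Subgroup.centralizer (V : Set G) := Subgroup.le_centralizer_iff.mp h1
  exact h2.trans (Cfsg.Agent.Lib.Helper27Basic.centralizer_le_normalizer' V)

end Cfsg.Agent.S1850
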