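import Cfsg.Statements.S1957
import Cfsg.Agent.Lib.Helper27NGc
import Cfsg.Agent.Lib.H27WfFix
import Cfsg.Agent.S0058

set_option autoImplicit false
open Cfsg

namespace Cfsg.Agent.S1957

open Subgroup Cfsg.Agent.Lib Cfsg.Agent.Lib.Helper27NGa Cfsg.Agent.Lib.Helper27NGb

/-- Let `G` be a finite non-abelian simple group in which every local subgroup is solvable and which is of characteristic 2 type. Let `P` be a Sylow 2-subgroup of `G` and `U` a normal subgroup of `P` that is a four-group, with `U` central in `P` if the centre of `P` is not cyclic. Then `U` centralizes every subgroup of odd order of `G` that it normalizes. -/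
theorem result {G : Type*} [Group G] [Finite G]
    [IsSimpleGroup G] (hna : ¬ IsMulCommutative G) (hN : Cfsg.IsNGroup G) (h2 : Cfsg.IsCharacteristicTwoType G)
    (P : Sylow 2 G) (U : Subgroup G) (hUP : U ≤ (P : Subgroup G)) (hUn : (P : Subgroup G) ≤ Subgroup.normalizer (U : Set G))
    (hU4 : IsKleinFour ↥U)
    (hUZ : ¬ IsCyclic ↥((P : Subgroup G) ⊓ Subgroup.centralizer ((P : Subgroup G) : Set G)) →
      U ≤ Subgroup.centralizer ((P : Subgroup G) : Set G))
    (K : Subgroup G) (hK : Odd (Nat.card K)) (hUK : U ≤ Subgroup.normalizer (K : Set G)) :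
    U ≤ Subgroup.centralizer (K : Set G) := by
  have := hU4
  have : Fact (Nat.Prime 2) := ⟨Nat.prime_two⟩
  have main : ∀ a ∈ U, a ≠ 1 → U ≤ O2C a := by
    intro a haU ha1
    by_cases hZ : U ≤ Subgroup.centralizer ((P : Subgroup G) : Set G)
    · exact claimA h2 P U hUn haU ha1 (fun x hx => (mem_centralizer_iff.mp (hZ haU)) x hx)
    · have hcyc : IsCyclic ↥((P : Subgroup G) ⊓ Subgroup.centralizer ((P : Subgroup G) : Set G)) := by
        by_contra h
        exact hZ (hUZ h)
      obtain ⟨u, ⟨huU, hu1⟩, huP⟩ := H27WfFix.exists_fixed (p := 2) (P : Subgroup G) P.isPGroup'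
        {s | s ∈ U ∧ s ≠ 1} (by
          intro x hx s hs
          refine ⟨(mem_normalizer_iff.mp (hUn hx) s).mp hs.1, fun h => hs.2 ?_⟩
          have := congrArg (fun t => x⁻¹ * t * x) h
          simpa [mul_assoc] using this) (by
          have e : {s | s ∈ U ∧ s ≠ 1} = (U : Set G) \ {1} := by
            ext s; simp
          rw [e, Nat.card_coe_set_eq, Set.ncard_sdiff_singleton_of_mem (one_mem U),
            ← Nat.card_coe_set_eq]
          have : Nat.card ↥U = 4 := IsKleinFour.card_four
          change ¬ 2 ∣ Nat.card ↥U - 1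
          rw [this]; decide)
      have huP' : ∀ x ∈ (P : Subgroup G), x * u = u * x := mem_centralizer_iff.mp huP
      by_cases hau : a ∈ zpowers u
      · rcases (mem_zpowers_iff (sq_eq_one huU)).mp hau with rfl | rfl
        · exact absurd rfl ha1
        · exact claimA h2 P U hUn haU ha1 huP'
      · exact Helper27NGc.caseW h2 P U hUP hUn hcyc huU hu1 huP' haU hau
  have : IsMulCommutative ↥U := IsKleinFour.isMulCommutative
  have hcop : (Nat.card ↥U).Coprime (Nat.card ↥K) := by
    have : Nat.card ↥U = 4 := IsKleinFour.card_four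
    rw [this]
    exact Nat.Coprime.pow_left 2 (Nat.coprime_two_left.mpr hK)
  have key := Cfsg.Agent.S0058.result U K IsKleinFour.not_isCyclic hUK hcop
  rw [le_centralizer_iff, ← key]
  refine iSup₂_le fun a ha => ?_
  exact claimB hK hUK (sq_eq_one ha.1) (main a ha.1 ha.2)

end Cfsg.Agent.S1957
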