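import Cfsg.Statements.S1959

import Cfsg.Agent.Lib.Helper39Control
set_option autoImplicit false
open Cfsg

namespace Cfsg.Agent.S1959

open Cfsg.Agent.Lib.Helper39Sylow Cfsg.Agent.Lib.Helper39Fusion Cfsg.Agent.Lib.Helper39Control
  Cfsg.Agent.Lib.Helper39WellPlaced

variable {G : Type*} [Group G]

/-- basic step: a centralizing element or an element of one of the normalizers -/
def StepL (𝓦 : Set (Subgroup G → Subgroup G)) (H T A : Subgroup G) (x : G) : Prop :=
  A ≤ T ∧ cj x A ≤ T ∧ (x ∈ Subgroup.centralizer (A : Set G) ∨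
    ∃ W ∈ 𝓦, x ∈ H ⊓ Subgroup.normalizer ((W T : Subgroup G) : Set G))

theorem StepL.symm {𝓦 : Set (Subgroup G → Subgroup G)} {H T : Subgroup G} (A : Subgroup G) (x : G)
    (h : StepL 𝓦 H T A x) : StepL 𝓦 H T (cj x A) x⁻¹ := by
  obtain ⟨h1, h2, h3⟩ := h
  refine ⟨h2, by rw [cj_inv_cj]; exact h1, ?_⟩
  rcases h3 with h3 | ⟨W, hW, h3⟩
  · left
    rw [cj_eq_of_mem_centralizer h3]
    exact inv_mem h3
  · right
    exact ⟨W, hW, inv_mem h3⟩

theorem StepL.mono {𝓦 : Set (Subgroup G → Subgroup G)} {H T : Subgroup G} (A B : Subgroup G) (x : G)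
    (hBA : B ≤ A) (h : StepL 𝓦 H T A x) : StepL 𝓦 H T B x := by
  obtain ⟨h1, h2, h3⟩ := h
  refine ⟨hBA.trans h1, (cj_mono hBA).trans h2, ?_⟩
  rcases h3 with h3 | h3
  · left; exact Subgroup.centralizer_le hBA h3
  · right; exact h3

/-- the chain data of the definition -/
def FData (𝓦 : Set (Subgroup G → Subgroup G)) (H T : Subgroup G) (A : Set G) (h : G) : Prop :=
  ∃ (n : ℕ) (c : Fin (n + 1) → G), c 0 = 1 ∧
        (∀ i : Fin n, ∃ W ∈ 𝓦,
          c i.succ * (c i.castSucc)⁻¹ ∈ H ⊓ Subgroup.normalizer ((W T : Subgroup G) : Set G)) ∧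
        (∀ i : Fin (n + 1), (fun a => c i * a * (c i)⁻¹) '' A ⊆ T) ∧
        ∀ a ∈ A, c (Fin.last n) * a * (c (Fin.last n))⁻¹ = h * a * h⁻¹

theorem fdata_of_gen {𝓦 : Set (Subgroup G → Subgroup G)} {H T A : Subgroup G} {g : G}
    (h : Gen (StepL 𝓦 H T) A g) (hAT : A ≤ T) : FData 𝓦 H T (A : Set G) g := by
  induction h with
  | nil A =>
    refine ⟨0, fun _ => 1, rfl, fun i => i.elim0, ?_, fun a _ => rfl⟩
    rintro i _ ⟨a, ha, rfl⟩
    simpa using hAT ha
  | cons A x g hs _ ih =>
    obtain ⟨h1, h2, h3⟩ := hs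
    obtain ⟨n, c, hc0, hstep, him, hlast⟩ := ih h2
    rcases h3 with h3 | ⟨W, hW, h3⟩
    · have e : cj x A = A := cj_eq_of_mem_centralizer h3
      rw [e] at him hlast
      refine ⟨n, c, hc0, hstep, him, fun a ha => ?_⟩
      rw [hlast a ha]
      have := h3 a ha
      have e2 : x * a * x⁻¹ = a := by rw [← this]; group
      calc g * a * g⁻¹ = g * (x * a * x⁻¹) * g⁻¹ := by rw [e2]
        _ = g * x * a * (g * x)⁻¹ := by group
    · refine ⟨n + 1, Fin.cons 1 (fun i => c i * x), rfl, ?_, ?_, ?_⟩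
      · intro i
        refine Fin.cases ?_ (fun j => ?_) i
        · refine ⟨W, hW, ?_⟩
          have : (Fin.cons 1 (fun i => c i * x) : Fin (n + 1 + 1) → G) (Fin.succ 0) *
              ((Fin.cons 1 (fun i => c i * x) : Fin (n + 1 + 1) → G) (Fin.castSucc 0))⁻¹ = x := by
            rw [Fin.cons_succ, Fin.castSucc_zero, Fin.cons_zero, hc0]; simp
          rw [this]; exact h3
        · obtain ⟨W', hW', h4⟩ := hstep j
          refine ⟨W', hW', ?_⟩
          have : (Fin.cons 1 (fun i => c i * x) : Fin (n + 1 + 1) → G) (Fin.succ j.succ) *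
              ((Fin.cons 1 (fun i => c i * x) : Fin (n + 1 + 1) → G) (Fin.castSucc j.succ))⁻¹
              = c j.succ * (c j.castSucc)⁻¹ := by
            rw [Fin.cons_succ, ← Fin.succ_castSucc, Fin.cons_succ]; group
          rw [this]; exact h4
      · intro i
        refine Fin.cases ?_ (fun j => ?_) i
        · rintro _ ⟨a, ha, rfl⟩
          simpa using h1 ha
        · rintro _ ⟨a, ha, rfl⟩
          have := him j ⟨x * a * x⁻¹, conj_mem_cj ha, rfl⟩
          simp only [Fin.cons_succ] at this ⊢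
          convert this using 1
          group
      · intro a ha
        have := hlast (x * a * x⁻¹) (conj_mem_cj ha)
        rw [← Fin.succ_last, Fin.cons_succ]
        calc c (Fin.last n) * x * a * (c (Fin.last n) * x)⁻¹
            = c (Fin.last n) * (x * a * x⁻¹) * (c (Fin.last n))⁻¹ := by group
          _ = g * (x * a * x⁻¹) * g⁻¹ := this
          _ = g * x * a * (g * x)⁻¹ := by group

theorem gen_of_fdata {𝓦 : Set (Subgroup G → Subgroup G)} {H T : Subgroup G} {A : Set G} {h : G}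
    (hd : FData 𝓦 H T A h) : Gen (StepL 𝓦 H T) (Subgroup.closure A) h := by
  obtain ⟨n, c, hc0, hstep, him, hlast⟩ := hd
  have him' : ∀ i, cj (c i) (Subgroup.closure A) ≤ T := fun i => image_conj_subset_iff.1 (him i)
  have key : ∀ (i : ℕ) (hi : i < n + 1), Gen (StepL 𝓦 H T) (Subgroup.closure A) (c ⟨i, hi⟩) := by
    intro i
    induction i with
    | zero => intro hi; have : c ⟨0, hi⟩ = 1 := hc0
              rw [this]; exact Gen.nil _
    | succ i ih =>
      intro hi
      have hi' : i < n := by omega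
      obtain ⟨W, hW, h4⟩ := hstep ⟨i, hi'⟩
      have e1 : (⟨i, hi'⟩ : Fin n).succ = ⟨i + 1, hi⟩ := rfl
      have e2 : (⟨i, hi'⟩ : Fin n).castSucc = ⟨i, by omega⟩ := rfl
      rw [e1, e2] at h4
      have h5 := ih (by omega)
      have e3 : c ⟨i + 1, hi⟩ = c ⟨i + 1, hi⟩ * (c ⟨i, by omega⟩)⁻¹ * c ⟨i, by omega⟩ := by group
      rw [e3]
      apply h5.trans
      apply Gen.single
      refine ⟨him' _, ?_, Or.inr ⟨W, hW, h4⟩⟩
      rw [← cj_mul, ← e3]
      exact him' _
  have hz : (c (Fin.last n))⁻¹ * h ∈ Subgroup.centralizer ((Subgroup.closure A : Subgroup G) : Set G) := by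
    rw [Subgroup.centralizer_closure]
    intro a ha
    exact conj_eq_conj_iff.1 (hlast a ha)
  have hAT : Subgroup.closure A ≤ T := by
    have := him' 0
    rwa [hc0, cj_one] at this
  have e : h = c (Fin.last n) * ((c (Fin.last n))⁻¹ * h) := by group
  rw [e]
  refine Gen.cons _ _ _ ⟨hAT, by rw [cj_eq_of_mem_centralizer hz]; exact hAT, Or.inl hz⟩ ?_
  rw [cj_eq_of_mem_centralizer hz]
  exact key n (by omega)

theorem gen_conj {p : ℕ} {𝓦 : Set (Subgroup G → Subgroup G)} (h𝓦 : ∀ W ∈ 𝓦, Cfsg.IsConjugacyFunctor p W)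
    {H T : Subgroup G} (hT : IsPGroup p T) {k : G} (hk : k ∈ H) {Q : Subgroup G} {h : G}
    (hg : Gen (StepL 𝓦 H T) Q h) : Gen (StepL 𝓦 H (cj k T)) (cj k Q) (k * h * k⁻¹) := by
  induction hg with
  | nil A => simp only [mul_one, mul_inv_cancel]; exact Gen.nil _
  | cons A x g hs _ ih =>
    obtain ⟨h1, h2, h3⟩ := hs
    have e : k * (g * x) * k⁻¹ = (k * g * k⁻¹) * (k * x * k⁻¹) := by group
    have e2 : cj (k * x * k⁻¹) (cj k A) = cj k (cj x A) := by
      rw [← cj_mul, ← cj_mul]; congr 1; group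
    rw [e]
    refine Gen.cons _ _ _ ⟨cj_mono h1, by rw [e2]; exact cj_mono h2, ?_⟩ (by rw [e2]; exact ih)
    rcases h3 with h3 | ⟨W, hW, h3⟩
    · left
      rw [centralizer_cj]; exact conj_mem_cj h3
    · right
      refine ⟨W, hW, H.mul_mem (H.mul_mem hk h3.1) (H.inv_mem hk), ?_⟩
      rw [W_cj (h𝓦 W hW) hT, normalizer_cj]
      exact conj_mem_cj h3.2

/-- control of strong fusion by a family, for a fixed Sylow subgroup -/
def FCSF (𝓦 : Set (Subgroup G → Subgroup G)) (H T : Subgroup G) : Prop :=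
  ∀ Q : Subgroup G, Q ≤ T → ∀ h ∈ H, cj h Q ≤ T → Gen (StepL 𝓦 H T) Q h

theorem family_iff [Finite G] {p : ℕ} [Fact p.Prime] {𝓦 : Set (Subgroup G → Subgroup G)}
    (h𝓦 : ∀ W ∈ 𝓦, Cfsg.IsConjugacyFunctor p W) {H T : Subgroup G} (hT : IsSyl p T H) :
    Cfsg.FamilyControlsStrongFusionIn p 𝓦 H ↔ FCSF 𝓦 H T := by
  constructor
  · rintro ⟨T', h1, h2, h3, h4⟩
    obtain ⟨k, hk, e⟩ := hT.exists_conj_eq (T' := T') ⟨h1, h2, h3⟩
    intro Q hQ h hh hhQ
    have hQ' : cj k⁻¹ Q ≤ T' := by rw [cj_le_iff, inv_inv, e]; exact hQ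
    have hd : FData 𝓦 H T' ((cj k⁻¹ Q : Subgroup G) : Set G) (k⁻¹ * h * k) := by
      apply h4 _ _ (H.mul_mem (H.mul_mem (H.inv_mem hk) hh) hk) hQ'
      rw [image_conj_subset_iff, Subgroup.closure_eq, ← cj_mul]
      have : k⁻¹ * h * k * k⁻¹ = k⁻¹ * h := by group
      rw [this, cj_mul, cj_le_iff, inv_inv, e]
      exact hhQ
    have h5 := gen_conj h𝓦 h2 hk (gen_of_fdata hd)
    rw [Subgroup.closure_eq, cj_cj_inv, e] at h5
    have : k * (k⁻¹ * h * k) * k⁻¹ = h := by group
    rwa [this] at h5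
  · intro hf
    refine ⟨T, hT.1, hT.2.1, hT.2.2, fun A h hh hA hAh => ?_⟩
    have hcl : Subgroup.closure A ≤ T := (Subgroup.closure_le _).2 hA
    obtain ⟨n, c, hc0, hstep, him, hlast⟩ :=
      fdata_of_gen (hf _ hcl h hh (image_conj_subset_iff.1 hAh)) hcl
    exact ⟨n, c, hc0, hstep, fun i => (Set.image_mono Subgroup.subset_closure).trans (him i),
      fun a ha => hlast a (Subgroup.subset_closure ha)⟩

theorem gen_bind {Step Step' : Subgroup G → G → Prop} {m : ℕ}
    (hb : ∀ (A : Subgroup G) (x : G), Nat.card A = m → Step A x → Gen Step' A x) {A : Subgroup G} {g : G}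
    (h : Gen Step A g) (hA : Nat.card A = m) : Gen Step' A g := by
  induction h with
  | nil A => exact Gen.nil _
  | cons A x g hs _ ih => exact (hb A x hA hs).trans (ih (by rw [card_cj]; exact hA))

/-- Let p be a prime, G a finite group with Sylow p-subgroup S, and 𝓦 a set of conjugacy functors for p on G. Suppose that 𝓦 controls strong fusion in N_G(T) for every nonidentity subgroup T of S for which N_S(T) is a Sylow p-subgroup of N_G(T). Then 𝓦 controls strong fusion in G. (A set of functors controls strong fusion in a subgroup H when, for a Sylow p-subgroup T' of H, every conjugation of a tuple of elements of T' into T' by an element of H is a composite of conjugations inside the normalizers N_H(W(T')), W ∈ 𝓦, all intermediate tuples staying in T'.) -/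
theorem result {G : Type*} [Group G] [Finite G] {p : ℕ} [Fact p.Prime] (S : Sylow p G) (𝓦 : Set (Subgroup G → Subgroup G)) (h𝓦 : ∀ W ∈ 𝓦, Cfsg.IsConjugacyFunctor p W) (hloc : ∀ T : Subgroup G, T ≤ (S : Subgroup G) → T ≠ ⊥ → ¬ p ∣ ((S : Subgroup G) ⊓ Subgroup.normalizer ((T : Subgroup G) : Set G)).relIndex (Subgroup.normalizer ((T : Subgroup G) : Set G)) → Cfsg.FamilyControlsStrongFusionIn p 𝓦 (Subgroup.normalizer ((T : Subgroup G) : Set G))) : Cfsg.FamilyControlsStrongFusionIn p 𝓦 ⊤ := by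
  have hS := isSyl_sylow S
  rw [family_iff h𝓦 hS]
  have hlocal : ∀ T : Subgroup G, T ≤ (S : Subgroup G) → T ≠ ⊥ →
      IsSyl p ((S : Subgroup G) ⊓ Subgroup.normalizer (T : Set G)) (Subgroup.normalizer (T : Set G)) →
      FCSF 𝓦 (Subgroup.normalizer (T : Set G)) ((S : Subgroup G) ⊓ Subgroup.normalizer (T : Set G)) :=
    fun T hT hne hsyl => (family_iff h𝓦 hsyl).1 (hloc T hT hne hsyl.2.2)
  suffices hmain : ∀ A : Subgroup G, A ≤ (S : Subgroup G) → ∀ g : G, cj g A ≤ (S : Subgroup G) →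
      Gen (StepL 𝓦 ⊤ (S : Subgroup G)) A g from fun Q hQ h _ hh => hmain Q hQ h hh
  apply alperin_induction (p := p) (S : Subgroup G) hS (Gen (StepL 𝓦 ⊤ (S : Subgroup G)))
    (fun A g h _ _ _ h1 h2 => h1.trans h2)
    (fun A g _ _ h1 => h1.symm StepL.symm)
    (fun A B g _ _ hBA h1 => h1.mono StepL.mono hBA) Set.univ
  · intro T hT
    obtain ⟨h, h1, h2, -⟩ := exists_tame_conj' hS hT
    exact ⟨_, trivial, h1, ⟨h, rfl⟩, h2⟩
  · intro U _ hUS hUsyl IH x hx
    have hxU : cj x U = U := mem_normalizer_iff_cj.1 hx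
    by_cases hUne : U = ⊥
    · apply Gen.single
      refine ⟨hUS, by rw [hxU]; exact hUS, Or.inl ?_⟩
      rw [hUne]
      intro a ha
      have : a = 1 := ha
      rw [this]; simp
    have hUcard : 1 < Nat.card U := by
      rw [Subgroup.one_lt_card_iff_ne_bot]; exact hUne
    have inner : ∀ R : Subgroup G, R ≤ (S : Subgroup G) → ∀ W ∈ 𝓦, ∀ B : Subgroup G, B ≤ R →
        Nat.card B = Nat.card U → ∀ z ∈ Subgroup.normalizer ((W R : Subgroup G) : Set G), cj z B ≤ R →
        Gen (StepL 𝓦 ⊤ (S : Subgroup G)) B z := by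
      intro R
      induction' hn : (Nat.card (S : Subgroup G) - Nat.card R) using Nat.strong_induction_on with n ih generalizing R
      intro hRS W hW B hBR hBc z hz hzB
      have hRp : IsPGroup p R := hS.2.1.to_le hRS
      rcases eq_or_lt_of_le hRS with hRe | hRlt
      · apply Gen.single
        rw [hRe] at hz
        exact ⟨hBR.trans hRS, hzB.trans hRS, Or.inr ⟨W, hW, trivial, hz⟩⟩
      · have hBcR : Nat.card B ≤ Nat.card R := Subgroup.card_le_of_le hBR
        have hRne : R ≠ ⊥ := by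
          intro hb
          rw [hb, Subgroup.card_bot] at hBcR
          omega
        set V := W R with hV
        have hWc := h𝓦 W hW
        have hVS : V ≤ (S : Subgroup G) := (W_le hWc hRp).trans hRS
        have hVne : V ≠ ⊥ := W_ne_bot hWc hRp hRne
        have hgrow : R < (S : Subgroup G) ⊓ Subgroup.normalizer (R : Set G) := lt_inf_normalizer hS.2.1 hRlt
        have hle2 : (S : Subgroup G) ⊓ Subgroup.normalizer (R : Set G) ≤
            (S : Subgroup G) ⊓ Subgroup.normalizer (V : Set G) :=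
          inf_le_inf_left _ (normalizer_le_normalizer_W hWc hRp)
        set R' := (S : Subgroup G) ⊓ Subgroup.normalizer (V : Set G) with hR'
        have hRR' : R ≤ R' := hgrow.le.trans hle2
        have hc1 : Nat.card R < Nat.card R' := lt_of_lt_of_le (card_lt_of_lt hgrow) (Subgroup.card_le_of_le hle2)
        obtain ⟨h, h1, h2, h3⟩ := exists_tame_conj' hS hVS
        set Rs := (S : Subgroup G) ⊓ Subgroup.normalizer ((cj h V : Subgroup G) : Set G) with hRs
        have hc2 : Nat.card R' ≤ Nat.card Rs := by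
          rw [← card_cj h R']; exact Subgroup.card_le_of_le h3
        have hc3 : Nat.card Rs ≤ Nat.card (S : Subgroup G) := Subgroup.card_le_of_le inf_le_left
        have hgood : Gen (StepL 𝓦 ⊤ (S : Subgroup G)) R' h :=
          IH R' inf_le_left (by omega) h (h3.trans inf_le_left)
        have g1 : Gen (StepL 𝓦 ⊤ (S : Subgroup G)) B h := hgood.mono StepL.mono (hBR.trans hRR')
        have g2 : Gen (StepL 𝓦 ⊤ (S : Subgroup G)) (cj z B) h := hgood.mono StepL.mono (hzB.trans hRR')
        have hzs : h * z * h⁻¹ ∈ Subgroup.normalizer ((cj h V : Subgroup G) : Set G) := by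
          rw [normalizer_cj]; exact conj_mem_cj hz
        have e4 : cj (h * z * h⁻¹) (cj h B) = cj h (cj z B) := by
          rw [← cj_mul, ← cj_mul]; congr 1; group
        have g3 : Gen (StepL 𝓦 (Subgroup.normalizer ((cj h V : Subgroup G) : Set G)) Rs) (cj h B) (h * z * h⁻¹) := by
          apply hlocal (cj h V) h1 (fun hb => hVne (cj_eq_bot_iff.1 hb)) h2 (cj h B)
            ((cj_mono (hBR.trans hRR')).trans h3) _ hzs
          rw [e4]
          exact (cj_mono (hzB.trans hRR')).trans h3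
        have g4 : Gen (StepL 𝓦 ⊤ (S : Subgroup G)) (cj h B) (h * z * h⁻¹) := by
          apply gen_bind (m := Nat.card U) _ g3 (by rw [card_cj]; exact hBc)
          rintro A y hAc ⟨s1, s2, s3⟩
          rcases s3 with s3 | ⟨W', hW', s3⟩
          · exact Gen.single ⟨s1.trans inf_le_left, s2.trans inf_le_left, Or.inl s3⟩
          · exact ih _ (by omega) Rs rfl inf_le_left W' hW' A s1 hAc y s3.2 s2
        have g5 := g1.trans g4
        have g6 := g2.symm StepL.symm
        have e5 : cj (h * z * h⁻¹ * h) B = cj h (cj z B) := by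
          rw [← cj_mul]; congr 1; group
        rw [← e5] at g6
        have g7 := g5.trans g6
        have e6 : h⁻¹ * (h * z * h⁻¹ * h) = z := by group
        rwa [e6] at g7
    have hURU : U ≤ (S : Subgroup G) ⊓ Subgroup.normalizer (U : Set G) := le_inf hUS Subgroup.le_normalizer
    have g0 := hlocal U hUS hUne hUsyl U hURU x hx (by rw [hxU]; exact hURU)
    apply gen_bind (m := Nat.card U) _ g0 rfl
    rintro A y hAc ⟨s1, s2, s3⟩
    rcases s3 with s3 | ⟨W', hW', s3⟩
    · exact Gen.single ⟨s1.trans inf_le_left, s2.trans inf_le_left, Or.inl s3⟩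
    · exact inner _ inf_le_left W' hW' A s1 hAc y s3.2 s2

end Cfsg.Agent.S1959
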