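import Cfsg.Statements.S1960

import Cfsg.Agent.Lib.Helper39Transfer
set_option autoImplicit false
open Cfsg

namespace Cfsg.Agent.S1960

open Cfsg.Agent.Lib.Helper39Sylow Cfsg.Agent.Lib.Helper39Fusion Cfsg.Agent.Lib.Helper39Transfer
  Cfsg.Agent.Lib.Helper39WellPlaced
open scoped commutatorElement

/-- control of transfer by a family, for a fixed Sylow subgroup -/
def FCT {G : Type*} [Group G] (𝓦 : Set (Subgroup G → Subgroup G)) (H T : Subgroup G) : Prop :=
  T ⊓ ⁅H, H⁆ = ⨆ W ∈ 𝓦, T ⊓ ⁅H ⊓ Subgroup.normalizer ((W T : Subgroup G) : Set G),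
    H ⊓ Subgroup.normalizer ((W T : Subgroup G) : Set G)⁆

theorem FCT.conj {G : Type*} [Group G] {p : ℕ} {𝓦 : Set (Subgroup G → Subgroup G)}
    (h𝓦 : ∀ W ∈ 𝓦, Cfsg.IsConjugacyFunctor p W) {H T : Subgroup G}
    (hT : IsPGroup p T) (h : FCT 𝓦 H T) {k : G} (hk : k ∈ H) : FCT 𝓦 H (cj k T) := by
  have h1 := congrArg (cj k) h
  rw [cj_inf, cj_commutator, cj_eq_of_mem hk] at h1
  unfold FCT
  rw [h1, cj, Subgroup.map_iSup]
  apply iSup_congr
  intro W
  rw [Subgroup.map_iSup]
  apply iSup_congr
  intro hWm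
  show cj k _ = _
  rw [cj_inf, cj_commutator, cj_inf, cj_eq_of_mem hk, ← normalizer_cj, ← W_cj (h𝓦 W hWm) hT]

theorem familyControlsTransferIn_iff {G : Type*} [Group G] [Finite G] {p : ℕ} [Fact p.Prime]
    {𝓦 : Set (Subgroup G → Subgroup G)} (h𝓦 : ∀ W ∈ 𝓦, Cfsg.IsConjugacyFunctor p W)
    {H T : Subgroup G} (hT : IsSyl p T H) :
    Cfsg.FamilyControlsTransferIn p 𝓦 H ↔ FCT 𝓦 H T := by
  constructor
  · rintro ⟨T', h1, h2, h3, h4⟩
    obtain ⟨k, hk, e⟩ := hT.exists_conj_eq (T' := T') ⟨h1, h2, h3⟩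
    rw [← e]
    exact FCT.conj h𝓦 h2 h4 hk
  · intro h
    exact ⟨T, hT.1, hT.2.1, hT.2.2, h⟩

/-- Let p be a prime, G a finite group with Sylow p-subgroup S, and 𝓦 a set of conjugacy functors for p on G. Suppose that 𝓦 controls transfer in N_G(T) for every nonidentity subgroup T of S for which N_S(T) is a Sylow p-subgroup of N_G(T): for a Sylow p-subgroup T' of N_G(T), the intersection of T' with the derived subgroup of N_G(T) is generated by its intersections with the derived subgroups of the normalizers in N_G(T) of the W(T'), W ∈ 𝓦. Then 𝓦 controls transfer in G: S ∩ G' is generated by the subgroups S ∩ (N_G(W(S)))', W ∈ 𝓦. -/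
theorem result {G : Type*} [Group G] [Finite G] {p : ℕ} [Fact p.Prime] (S : Sylow p G) (𝓦 : Set (Subgroup G → Subgroup G)) (h𝓦 : ∀ W ∈ 𝓦, Cfsg.IsConjugacyFunctor p W) (hloc : ∀ T : Subgroup G, T ≤ (S : Subgroup G) → T ≠ ⊥ → ¬ p ∣ ((S : Subgroup G) ⊓ Subgroup.normalizer ((T : Subgroup G) : Set G)).relIndex (Subgroup.normalizer ((T : Subgroup G) : Set G)) → Cfsg.FamilyControlsTransferIn p 𝓦 (Subgroup.normalizer ((T : Subgroup G) : Set G))) : Cfsg.FamilyControlsTransferIn p 𝓦 ⊤ := by
  have hS := isSyl_sylow S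
  rw [familyControlsTransferIn_iff h𝓦 hS]
  have hlocal : ∀ T : Subgroup G, T ≤ (S : Subgroup G) → T ≠ ⊥ →
      IsSyl p ((S : Subgroup G) ⊓ Subgroup.normalizer (T : Set G)) (Subgroup.normalizer (T : Set G)) →
      FCT 𝓦 (Subgroup.normalizer (T : Set G)) ((S : Subgroup G) ⊓ Subgroup.normalizer (T : Set G)) :=
    fun T hT hne hsyl => (familyControlsTransferIn_iff h𝓦 hsyl).1 (hloc T hT hne hsyl.2.2)
  set K : Subgroup G := ⨆ W ∈ 𝓦, (S : Subgroup G) ⊓ ⁅(⊤ : Subgroup G) ⊓ Subgroup.normalizer ((W (S : Subgroup G) : Subgroup G) : Set G),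
    (⊤ : Subgroup G) ⊓ Subgroup.normalizer ((W (S : Subgroup G) : Subgroup G) : Set G)⁆ with hK
  have hmain : ∀ A : Subgroup G, A ≤ (S : Subgroup G) → ∀ g : G, cj g A ≤ (S : Subgroup G) → CommIn K A g := by
    apply alperin_induction (p := p) (S : Subgroup G) hS (CommIn K)
      (fun A g h _ _ _ h1 h2 => h1.trans h2)
      (fun A g _ _ h1 => h1.symm)
      (fun A B g _ _ hBA h1 => h1.mono hBA) Set.univ
    · intro T hT
      obtain ⟨h, h1, h2, -⟩ := exists_tame_conj' hS hT
      exact ⟨_, trivial, h1, ⟨h, rfl⟩, h2⟩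
    · intro U _ hUS hUsyl IH x hx
      by_cases hUne : U = ⊥
      · intro a ha
        have : a = 1 := by rw [hUne] at ha; exact ha
        rw [this]; simp
      have inner : ∀ R : Subgroup G, R ≤ (S : Subgroup G) → Nat.card U ≤ Nat.card R → R ≠ ⊥ → ∀ W ∈ 𝓦,
          R ⊓ ⁅Subgroup.normalizer ((W R : Subgroup G) : Set G), Subgroup.normalizer ((W R : Subgroup G) : Set G)⁆ ≤ K := by
        intro R
        induction' hn : (Nat.card (S : Subgroup G) - Nat.card R) using Nat.strong_induction_on with n ih generalizing R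
        intro hRS hUR hRne W hW
        have hRp : IsPGroup p R := hS.2.1.to_le hRS
        rcases eq_or_lt_of_le hRS with hRe | hRlt
        · rw [hRe]
          refine le_trans ?_ (le_iSup₂ (f := fun W (_ : W ∈ 𝓦) => (S : Subgroup G) ⊓ ⁅(⊤ : Subgroup G) ⊓ Subgroup.normalizer ((W (S : Subgroup G) : Subgroup G) : Set G),
            (⊤ : Subgroup G) ⊓ Subgroup.normalizer ((W (S : Subgroup G) : Subgroup G) : Set G)⁆) W hW)
          rw [top_inf_eq]
        · set V := W R with hV
          have hWc := h𝓦 W hW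
          have hVS : V ≤ (S : Subgroup G) := (W_le hWc hRp).trans hRS
          have hVne : V ≠ ⊥ := W_ne_bot hWc hRp hRne
          have hgrow : R < (S : Subgroup G) ⊓ Subgroup.normalizer (R : Set G) := lt_inf_normalizer hS.2.1 hRlt
          have hle2 : (S : Subgroup G) ⊓ Subgroup.normalizer (R : Set G) ≤
              (S : Subgroup G) ⊓ Subgroup.normalizer (V : Set G) :=
            inf_le_inf_left _ (normalizer_le_normalizer_W hWc hRp)
          set R' := (S : Subgroup G) ⊓ Subgroup.normalizer (V : Set G) with hR'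
          have hc1 : Nat.card R < Nat.card R' := lt_of_lt_of_le (card_lt_of_lt hgrow) (Subgroup.card_le_of_le hle2)
          obtain ⟨h, h1, h2, h3⟩ := exists_tame_conj' hS hVS
          set Rs := (S : Subgroup G) ⊓ Subgroup.normalizer ((cj h V : Subgroup G) : Set G) with hRs
          have hc2 : Nat.card R' ≤ Nat.card Rs := by
            rw [← card_cj h R']; exact Subgroup.card_le_of_le h3
          have hc3 : Nat.card Rs ≤ Nat.card (S : Subgroup G) := Subgroup.card_le_of_le inf_le_left
          have hRsne : Rs ≠ ⊥ := by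
            intro hb
            rw [hb, Subgroup.card_bot] at hc2
            have : 0 < Nat.card R := Nat.card_pos
            omega
          have hstar : Rs ⊓ ⁅Subgroup.normalizer ((cj h V : Subgroup G) : Set G), Subgroup.normalizer ((cj h V : Subgroup G) : Set G)⁆ ≤ K := by
            rw [hlocal (cj h V) h1 (fun hb => hVne (cj_eq_bot_iff.1 hb)) h2]
            apply iSup₂_le
            intro W' hW'
            refine le_trans (inf_le_inf_left _ (Subgroup.commutator_mono inf_le_right inf_le_right)) ?_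
            exact ih _ (by omega) Rs rfl inf_le_left (by omega) hRsne W' hW'
          rintro z ⟨hzR, hzc⟩
          have hzR' : z ∈ R' := hle2 (hgrow.le hzR)
          have e1 : ⁅z, h⁆ ∈ K := IH R' inf_le_left (by omega) h (h3.trans inf_le_left) z hzR'
          have e2 : h * z * h⁻¹ ∈ K := by
            apply hstar
            refine ⟨h3 (conj_mem_cj hzR'), ?_⟩
            rw [normalizer_cj, ← cj_commutator]
            exact conj_mem_cj hzc
          have e3 : z = ⁅z, h⁆ * (h * z * h⁻¹) := by simp only [commutatorElement_def]; group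
          rw [e3]
          exact K.mul_mem e1 e2
      intro a ha
      have hURU : U ≤ (S : Subgroup G) ⊓ Subgroup.normalizer (U : Set G) := le_inf hUS Subgroup.le_normalizer
      have hmem : ⁅a, x⁆ ∈ ((S : Subgroup G) ⊓ Subgroup.normalizer (U : Set G)) ⊓
          ⁅Subgroup.normalizer (U : Set G), Subgroup.normalizer (U : Set G)⁆ := by
        refine ⟨hURU ?_, Subgroup.commutator_mem_commutator (Subgroup.le_normalizer ha) hx⟩
        rw [commutatorElement_def, mul_assoc, mul_assoc]
        refine U.mul_mem ha ?_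
        rw [← mul_assoc]
        exact (Subgroup.mem_normalizer_iff.1 hx _).1 (U.inv_mem ha)
      rw [hlocal U hUS hUne hUsyl] at hmem
      revert hmem
      apply (show _ ≤ K from ?_)
      apply iSup₂_le
      intro W' hW'
      refine le_trans (inf_le_inf_left _ (Subgroup.commutator_mono inf_le_right inf_le_right)) ?_
      exact inner _ inf_le_left (Subgroup.card_le_of_le hURU)
        (fun hb => hUne (le_bot_iff.1 (hb ▸ hURU))) W' hW'
  apply le_antisymm
  · exact inf_commutator_le_of_commIn S K hmain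
  · apply iSup₂_le
    intro W _
    exact inf_le_inf_left _ (Subgroup.commutator_mono le_top le_top)

end Cfsg.Agent.S1960
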