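import Cfsg.Statements.S1965

import Cfsg.Agent.Lib.Helper39Fusion
set_option autoImplicit false
open Cfsg

namespace Cfsg.Agent.S1965

open Cfsg.Agent.Lib.Helper39Sylow Cfsg.Agent.Lib.Helper39Fusion

/-- Let p be a prime, G a finite group with Sylow p-subgroup S and 𝓕 a set of subgroups of S. Suppose that every subgroup T of S is G-conjugate to some member U of 𝓕 for which N_S(U) is a Sylow p-subgroup of N_G(U). Then 𝓕 is a conjugation family for S in G. -/
theorem result {G : Type*} [Group G] [Finite G] {p : ℕ} [Fact p.Prime] (S : Sylow p G) (𝓕 : Set (Subgroup G)) (h𝓕 : ∀ U ∈ 𝓕, U ≤ (S : Subgroup G)) (h : ∀ T : Subgroup G, T ≤ (S : Subgroup G) → ∃ U ∈ 𝓕, (∃ g : G, T.map (MulAut.conj g).toMonoidHom = U) ∧ ¬ p ∣ ((S : Subgroup G) ⊓ Subgroup.normalizer ((U : Subgroup G) : Set G)).relIndex (Subgroup.normalizer ((U : Subgroup G) : Set G))) : Cfsg.IsConjugationFamily 𝓕 (S : Subgroup G) := by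
  rw [isConjugationFamily_iff]
  refine ⟨h𝓕, ?_⟩
  apply alperin_induction (p := p) (S : Subgroup G) (isSyl_sylow S) (Gen (StepF 𝓕))
    (fun A g h _ _ _ h1 h2 => h1.trans h2)
    (fun A g _ _ h1 => h1.symm StepF.symm)
    (fun A B g _ _ hBA h1 => h1.mono StepF.mono hBA) 𝓕
  · intro T hT
    obtain ⟨U, hU, hg, hidx⟩ := h T hT
    exact ⟨U, hU, h𝓕 U hU, hg, inf_le_right, S.isPGroup'.to_le inf_le_left, hidx⟩
  · intro U hU _ _ _ x hx
    exact Gen.single ⟨U, hU, le_rfl, hx⟩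

end Cfsg.Agent.S1965
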