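import Cfsg.Statements.S1966

import Cfsg.Agent.Lib.Helper39Fusion
import Cfsg.Agent.Lib.Helper39Core
set_option autoImplicit false
open Cfsg

namespace Cfsg.Agent.S1966

open Cfsg.Agent.Lib.Helper39Sylow Cfsg.Agent.Lib.Helper39Fusion Cfsg.Agent.Lib.Helper39Core

theorem gen_restrict {G : Type*} [Group G] {𝓕 : Set (Subgroup G)} {R : Subgroup G} (hR : R.Normal)
    {A : Subgroup G} {g : G} (h : Gen (StepF 𝓕) A g) (hRA : R ≤ A) :
    Gen (StepF {T : Subgroup G | T ∈ 𝓕 ∧ R ≤ T}) A g := by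
  induction h with
  | nil A => exact Gen.nil _
  | cons A x g hs _ ih =>
    obtain ⟨T, hT, hAT, hx⟩ := hs
    refine Gen.cons A x g ⟨T, ⟨hT, hRA.trans hAT⟩, hAT, hx⟩ (ih ?_)
    have := cj_mono (g := x) hRA
    rwa [cj_of_normal hR] at this

/-- Let p be a prime, G a finite group with Sylow p-subgroup S and 𝓕 a conjugation family for S in G. Then the members of 𝓕 containing O_p(G) still form a conjugation family for S in G. -/
theorem result {G : Type*} [Group G] [Finite G] {p : ℕ} [Fact p.Prime] (S : Sylow p G) (𝓕 : Set (Subgroup G)) (h : Cfsg.IsConjugationFamily 𝓕 (S : Subgroup G)) : Cfsg.IsConjugationFamily {T : Subgroup G | T ∈ 𝓕 ∧ Cfsg.pCore p G ≤ T} (S : Subgroup G) := by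
  rw [isConjugationFamily_iff] at h ⊢
  obtain ⟨h1, h2⟩ := h
  refine ⟨fun T hT => h1 T hT.1, fun A hA g hg => ?_⟩
  have hR := pCore_le_sylow (p := p) S
  have h3 : A ⊔ Cfsg.pCore p G ≤ (S : Subgroup G) := sup_le hA hR
  have h4 : cj g (A ⊔ Cfsg.pCore p G) ≤ (S : Subgroup G) := by
    rw [cj_sup, cj_pCore]
    exact sup_le hg hR
  exact (gen_restrict (pCore_normal p) (h2 _ h3 g h4) le_sup_right).mono StepF.mono le_sup_left

end Cfsg.Agent.S1966
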