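import Cfsg.Statements.S1969

import Cfsg.Agent.Lib.Helper39SecFusion
import Cfsg.Agent.Lib.Helper39SecTransport
set_option autoImplicit false
universe u
open Cfsg

namespace Cfsg.Agent.S1969

open Cfsg.Agent.Lib.Helper39Sylow Cfsg.Agent.Lib.Helper24Functor Cfsg.Agent.Lib.Helper39Section
  Cfsg.Agent.Lib.Helper39SecTransport Cfsg.Agent.Lib.Helper39SecFusion Cfsg.Agent.Lib.Helper39Control

/-- Let p be a prime, G a finite group and W an isomorphism-invariant p-group functor (W assigns to every group Q a subgroup W(Q), nontrivial whenever Q is a nontrivial finite p-group, and every isomorphism from a finite p-group Q onto a group R carries W(Q) onto W(R)). Suppose that W(S*) is normal in G* whenever G* = K/R is a section of G with C_{G*}(O_p(G*)) ≤ O_p(G*) and S* is a Sylow p-subgroup of G*. Then W controls strong fusion in every section of G: for every section K/R and every Sylow p-subgroup T of K/R, the subgroup W(T) controls strong fusion in K/R. -/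
theorem result {G : Type u} [Group G] [Finite G] {p : ℕ} [Fact p.Prime] (W : ∀ (Q : Type u) [Group Q], Subgroup Q) (hW : Cfsg.IsCharPFunctor.{u} p W) (hloc : ∀ (K R : Subgroup G) [hR : (R.subgroupOf K).Normal], Subgroup.centralizer ((Cfsg.pCore p (↥K ⧸ R.subgroupOf K) : Subgroup (↥K ⧸ R.subgroupOf K)) : Set (↥K ⧸ R.subgroupOf K)) ≤ Cfsg.pCore p (↥K ⧸ R.subgroupOf K) → ∀ T : Sylow p (↥K ⧸ R.subgroupOf K), (Cfsg.inducedFunctor (G := (↥K ⧸ R.subgroupOf K)) W ((T : Subgroup (↥K ⧸ R.subgroupOf K)))).Normal) : ∀ (K R : Subgroup G) [hR : (R.subgroupOf K).Normal], ∀ T : Sylow p (↥K ⧸ R.subgroupOf K), Cfsg.ControlsStrongFusion p (Cfsg.inducedFunctor (G := (↥K ⧸ R.subgroupOf K)) W ((T : Subgroup (↥K ⧸ R.subgroupOf K)))) := by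
  intro K R hR T
  have hall := csf_all (p := p) (W := W) hW (fun X _ => Cfsg.Involves X G)
    (fun X _ _ Y h => involves_sub X Y h)
    (fun X _ _ N _ h => involves_quot X N h)
    (by
      intro X _ _ hX hcon S hS
      obtain ⟨K', R', hR', ⟨e⟩⟩ := hX
      have hcon' := constrained_of_equiv (p := p) e hcon
      have hS' : IsSyl p (S.map e.symm.toMonoidHom) ⊤ :=
        isSyl_map_surjective hS e.symm.toMonoidHom e.symm.surjective
      have hn := hloc K' R' hcon' (toSylowTop hS')
      rw [coe_toSylowTop] at hn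
      have hn2 := hn.map e.toMonoidHom e.surjective
      rw [← ind_map_equiv hW e hS'.2.1, map_symm_map] at hn2
      exact hn2)
    (Nat.card (↥K ⧸ R.subgroupOf K)) (↥K ⧸ R.subgroupOf K) rfl (involves_section K R) T (isSyl_sylow T)
  rw [csf_iff_set] at hall
  refine ⟨T, ind_le _, fun A hA => ⟨hA, fun g hg => ?_⟩⟩
  obtain ⟨x, hx, hxa⟩ := hall A g (Subgroup.mem_top g) hA hg
  exact ⟨x, hx.2, fun a ha => (hxa a ha).symm⟩

end Cfsg.Agent.S1969
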