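import Cfsg.Statements.S1970

import Cfsg.Agent.Lib.Helper39SecTransfer
set_option autoImplicit false
universe u
open Cfsg

namespace Cfsg.Agent.S1970

open Cfsg.Agent.Lib.Helper39Sylow Cfsg.Agent.Lib.Helper24Functor Cfsg.Agent.Lib.Helper39Section
  Cfsg.Agent.Lib.Helper39SecTransport Cfsg.Agent.Lib.Helper39SecTransfer Cfsg.Agent.Lib.Helper39Transfer
  Cfsg.Agent.Lib.Helper24Section Cfsg.Agent.Lib.Helper39KInfFunctor

/-- Let p be a prime, G a finite group and W an isomorphism-invariant p-group functor (W assigns to every group Q a subgroup W(Q), nontrivial whenever Q is a nontrivial finite p-group, and every isomorphism from a finite p-group Q onto a group R carries W(Q) onto W(R)). Suppose that for every section G* = K/R of G with C_{G*}(O_p(G*)) ≤ O_p(G*) and every Sylow p-subgroup S* of G*, one has O_p(G*) ∩ (G*)' = O_p(G*) ∩ (N_{G*}(W(S*)))'. Then W controls transfer in every section G* of G: S* ∩ (G*)' = S* ∩ (N_{G*}(W(S*)))' for a Sylow p-subgroup S* of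 G*. -/
theorem result {G : Type u} [Group G] [Finite G] {p : ℕ} [Fact p.Prime] (W : ∀ (Q : Type u) [Group Q], Subgroup Q) (hW : Cfsg.IsCharPFunctor.{u} p W) (hloc : ∀ (K R : Subgroup G) [hR : (R.subgroupOf K).Normal], Subgroup.centralizer ((Cfsg.pCore p (↥K ⧸ R.subgroupOf K) : Subgroup (↥K ⧸ R.subgroupOf K)) : Set (↥K ⧸ R.subgroupOf K)) ≤ Cfsg.pCore p (↥K ⧸ R.subgroupOf K) → ∀ T : Sylow p (↥K ⧸ R.subgroupOf K), Cfsg.pCore p (↥K ⧸ R.subgroupOf K) ⊓ commutator (↥K ⧸ R.subgroupOf K) = Cfsg.pCore p (↥K ⧸ R.subgroupOf K) ⊓ ⁅Subgroup.normalizer ((Cfsg.inducedFunctor (G := (↥K ⧸ R.subgroupOf K)) W ((T : Subgroup (↥K ⧸ R.subgroupOf K))) : Subgroup (↥K ⧸ R.subgroupOf K)) : Set (↥K ⧸ R.subgroupOf K)), Subgroup.normalizer ((Cfsg.inducedFunctor (G := (↥K ⧸ R.subgroupOf K)) W ((T : Subgroup (↥K ⧸ R.subgroupOf K))) : Subgroup (↥K ⧸ R.subgroupOf K)) : Set (↥K ⧸ R.subgroupOf K))⁆) : ∀ (K R : Subgroup G) [hR : (R.subgroupOf K).Normal], Cfsg.ControlsTransferIn p (Cfsg.inducedFunctor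 (G := (↥K ⧸ R.subgroupOf K)) W) ⊤ := by
  intro K R hR
  obtain ⟨T⟩ : Nonempty (Sylow p (↥K ⧸ R.subgroupOf K)) := inferInstance
  have hall := ct_all (p := p) (W := W) hW (fun X _ => Cfsg.Involves X G)
    (fun X _ _ Y h => involves_sub X Y h)
    (fun X _ _ N _ h => involves_quot X N h)
    (by
      intro X _ _ hX hcon _ S hS
      obtain ⟨K', R', hR', ⟨e⟩⟩ := hX
      have hcon' := constrained_of_equiv (p := p) e hcon
      have hS' : IsSyl p (S.map e.symm.toMonoidHom) ⊤ :=
        isSyl_map_surjective hS e.symm.toMonoidHom e.symm.surjective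
      have hn := hloc K' R' hcon' (toSylowTop hS')
      rw [coe_toSylowTop] at hn
      have hn2 := congrArg (Subgroup.map e.toMonoidHom) hn
      rw [Subgroup.map_inf _ _ _ e.injective, Subgroup.map_inf _ _ _ e.injective, pCore_map_equiv' p e,
        commutator_def, Subgroup.map_commutator, Subgroup.map_commutator, map_normalizer_equiv,
        ← ind_map_equiv hW e hS'.2.1, map_symm_map, Subgroup.map_top_of_surjective _ e.surjective] at hn2
      rw [hn2]
      exact inf_le_right)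
    (Nat.card (↥K ⧸ R.subgroupOf K)) (↥K ⧸ R.subgroupOf K) rfl (involves_section K R) T (isSyl_sylow T)
  exact (controlsTransferIn_iff (isConjugacyFunctor_induced hW) (isSyl_sylow T)).2 hall

end Cfsg.Agent.S1970
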