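import Cfsg.Statements.S1981

import Cfsg.Agent.Lib.Helper39KInf
set_option autoImplicit false
open Cfsg

namespace Cfsg.Agent.S1981

/-- Let P be a finite p-group generated by its abelian normal subgroups. Then both K-infinity subgroups of P equal P. -/
theorem result {P : Type*} [Group P] [Finite P] {p : ℕ} [Fact p.Prime] (hP : IsPGroup p P) (hgen : ⨆ A ∈ {A : Subgroup P | A.Normal ∧ IsMulCommutative ↥A}, A = ⊤) : Cfsg.kInfLower P = ⊤ ∧ Cfsg.kInfUpper P = ⊤ := by
  constructor
  · rw [eq_top_iff, ← hgen]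
    apply iSup₂_le
    rintro A ⟨hn, hA⟩
    exact (Cfsg.Agent.Lib.Helper39KInf.abelian_normal_le_kSeqEven hA 0).trans (le_iSup (Cfsg.kSeqEven P) 0)
  · rw [eq_top_iff, ← hgen]
    apply iSup₂_le
    rintro A ⟨hn, hA⟩
    exact le_iInf (fun n => Cfsg.Agent.Lib.Helper39KInf.abelian_normal_le_kSeqOdd hA n)

end Cfsg.Agent.S1981
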