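import Cfsg.Statements.S1989

import Cfsg.Agent.S2795
import Cfsg.Agent.S1987
import Cfsg.Agent.S2763
import Cfsg.Agent.Lib.Helper51Qd
import Cfsg.Agent.Lib.Helper39SecTransport
import Cfsg.Agent.Lib.Helper39KInfFunctor
set_option autoImplicit false
universe u
open Cfsg

namespace Cfsg.Agent.S1989

open Cfsg.Agent.Lib.Helper39Sylow Cfsg.Agent.Lib.Helper24Functor Cfsg.Agent.Lib.Helper39Section
  Cfsg.Agent.Lib.Helper39SecTransport Cfsg.Agent.Lib.Helper24Section Cfsg.Agent.Lib.Helper39KInfFunctor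
  Cfsg.Agent.Lib.Helper39KInfMap Cfsg.Agent.Lib.Helper51Qd Cfsg.Agent.Lib.Helper39Core
  Cfsg.Agent.Lib.Helper39WellPlaced

universe v w

theorem map_kInfLower_univ {Q : Type v} {R : Type w} [Group Q] [Group R] (φ : Q ≃* R) :
    (Cfsg.kInfLower Q).map φ.toMonoidHom = Cfsg.kInfLower R := by
  unfold Cfsg.kInfLower
  rw [Subgroup.map_iSup]
  exact iSup_congr (fun n => map_kSeqEven φ n)

theorem ind_kInfLower_map {A : Type v} {B : Type w} [Group A] [Group B] (e : A ≃* B) (T : Subgroup A) :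
    Cfsg.inducedFunctor Cfsg.kInfLower (T.map e.toMonoidHom) =
      (Cfsg.inducedFunctor Cfsg.kInfLower T).map e.toMonoidHom := by
  unfold Cfsg.inducedFunctor
  have hb : Function.Bijective (e.toMonoidHom.subgroupMap T) := by
    refine ⟨?_, e.toMonoidHom.subgroupMap_surjective T⟩
    intro x y hxy
    have : e x = e y := congrArg Subtype.val hxy
    exact Subtype.ext (e.injective this)
  rw [← map_kInfLower_univ (MulEquiv.ofBijective (e.toMonoidHom.subgroupMap T) hb), Subgroup.map_map,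
    Subgroup.map_map]
  rfl

theorem qdOver_constrained (p : ℕ) [Fact p.Prime] :
    Subgroup.centralizer ((Cfsg.pCore p ↥(Cfsg.qdOver (ZMod p)) : Subgroup ↥(Cfsg.qdOver (ZMod p))) :
      Set ↥(Cfsg.qdOver (ZMod p))) ≤ Cfsg.pCore p ↥(Cfsg.qdOver (ZMod p)) := by
  rw [pCore_eq_ker (F := ZMod p) (p := p)]
  intro M hM
  obtain ⟨A, b, rfl⟩ : ∃ A b, mk A b = M := ⟨_, _, mk_blk_tr M⟩
  rw [mem_ker_blk_iff']
  have key : ∀ v : Fin 2 → ZMod p, (A : Matrix (Fin 2) (Fin 2) (ZMod p)).mulVec v = v := by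
    intro v
    have h1 := hM (mk 1 v) ((mem_ker_blk_iff' _).2 ⟨v, rfl⟩)
    rw [mk_mul_mk, mk_mul_mk] at h1
    have h2 := (mk_injective h1).2
    simp only [Matrix.SpecialLinearGroup.coe_one, Matrix.one_mulVec] at h2
    have h3 : b + v = (A : Matrix (Fin 2) (Fin 2) (ZMod p)).mulVec v + b := h2
    have h4 : (A : Matrix (Fin 2) (Fin 2) (ZMod p)).mulVec v + b = v + b := by rw [← h3, add_comm]
    exact add_right_cancel h4
  have hA : A = 1 := by
    apply Matrix.SpecialLinearGroup.ext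
    intro i j
    have := congrFun (key (Pi.single j 1)) i
    rw [Matrix.mulVec_single_one] at this
    rw [Matrix.SpecialLinearGroup.coe_one, Matrix.one_apply]
    simpa [Pi.single_apply, eq_comm] using this
  exact ⟨b, by rw [hA]⟩

theorem qd_constrained (p : ℕ) [Fact p.Prime] :
    Subgroup.centralizer ((Cfsg.pCore p ↥(Cfsg.qd p) : Subgroup ↥(Cfsg.qd p)) : Set ↥(Cfsg.qd p)) ≤
      Cfsg.pCore p ↥(Cfsg.qd p) := qdOver_constrained p

/-- Let p be an odd prime and G a finite group. Then Qd(p) (the natural semidirect product of an elementary abelian group of order p² by SL₂(p)) is not involved in G if and only if, in every section K/R of G and for every Sylow p-subgroup T of K/R, the lower K-infinity subgroup of T controls strong fusion in K/R. -/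
theorem result {G : Type u} [Group G] [Finite G] {p : ℕ} [Fact p.Prime] (hp : p ≠ 2) : ¬ Cfsg.Involves ↥(Cfsg.qd p) G ↔ ∀ (K R : Subgroup G) [hR : (R.subgroupOf K).Normal], ∀ T : Sylow p (↥K ⧸ R.subgroupOf K), Cfsg.ControlsStrongFusion p (Cfsg.inducedFunctor (G := (↥K ⧸ R.subgroupOf K)) Cfsg.kInfLower (T : Subgroup (↥K ⧸ R.subgroupOf K))) := by
  constructor
  · intro hfree K R hR T
    apply Cfsg.Agent.S1987.result hp _ T
    apply (Cfsg.Agent.S2795.result (G := ↥K ⧸ R.subgroupOf K) hp).1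
    intro hinv
    exact hfree (Cfsg.Agent.Lib.Helper24Section.Involves.trans hinv (involves_section K R))
  · rintro hall ⟨K, R, hR, ⟨e⟩⟩
    obtain ⟨T⟩ : Nonempty (Sylow p (↥K ⧸ R.subgroupOf K)) := inferInstance
    obtain ⟨T₁, hUT₁, hctl⟩ := hall K R T
    have hW := isCharPFunctor_kInfLower.{u} p
    have hcon := constrained_of_equiv (p := p) e (qd_constrained p)
    have hQn : (Cfsg.pCore p (↥K ⧸ R.subgroupOf K)).Normal := Cfsg.Agent.Lib.Helper39Core.pCore_normal p
    have hO1 : Cfsg.pCore p (↥K ⧸ R.subgroupOf K) ≤ T₁ :=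
      (isSyl_sylow T₁).normal_le le_top (pCore_isPGroup p) (top_le_normalizer hQn)
    have hO : Cfsg.pCore p (↥K ⧸ R.subgroupOf K) ≤ T :=
      (isSyl_sylow T).normal_le le_top (pCore_isPGroup p) (top_le_normalizer hQn)
    have hTN := le_normalizer_W (isConjugacyFunctor_induced (G := ↥K ⧸ R.subgroupOf K) hW) T.isPGroup'
    have htop : Subgroup.normalizer ((Cfsg.inducedFunctor Cfsg.kInfLower (T : Subgroup (↥K ⧸ R.subgroupOf K)) :
        Subgroup (↥K ⧸ R.subgroupOf K)) : Set (↥K ⧸ R.subgroupOf K)) = ⊤ := by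
      rw [eq_top_iff]
      intro g _
      obtain ⟨x, hx, hxa⟩ := (hctl _ hO1).2 g (by
        rintro _ ⟨a, ha, rfl⟩
        exact hO1 (hQn.conj_mem a ha g))
      have hc : x⁻¹ * g ∈ Subgroup.centralizer ((Cfsg.pCore p (↥K ⧸ R.subgroupOf K) :
          Subgroup (↥K ⧸ R.subgroupOf K)) : Set (↥K ⧸ R.subgroupOf K)) := by
        intro a ha
        have h1 := hxa a ha
        calc a * (x⁻¹ * g) = x⁻¹ * (x * a * x⁻¹) * g := by group
          _ = x⁻¹ * (g * a * g⁻¹) * g := by rw [h1]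
          _ = x⁻¹ * g * a := by group
      have h2 := hTN (hO (hcon hc))
      have h3 : g = x * (x⁻¹ * g) := by group
      rw [h3]
      exact Subgroup.mul_mem _ hx h2
    have hS : IsSyl p ((T : Subgroup (↥K ⧸ R.subgroupOf K)).map e.toMonoidHom) ⊤ :=
      isSyl_map_surjective (isSyl_sylow T) e.toMonoidHom e.surjective
    have hSne : ((toSylowTop hS : Sylow p ↥(Cfsg.qd p)) : Subgroup ↥(Cfsg.qd p)) ≠ ⊥ := by
      apply Sylow.ne_bot_of_dvd_card
      have h1 : Nat.card ↥(Cfsg.qd p) = _ := card_qdOver (F := ZMod p)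
      rw [h1, ZMod.card]
      exact Dvd.dvd.mul_right (Dvd.intro _ rfl) _
    have hnt : Nontrivial ↥((toSylowTop hS : Sylow p ↥(Cfsg.qd p)) : Subgroup ↥(Cfsg.qd p)) :=
      (Subgroup.nontrivial_iff_ne_bot _).2 hSne
    have h4 := Cfsg.Agent.S2763.result (toSylowTop hS)
      (Cfsg.kInfLower ↥((toSylowTop hS : Sylow p ↥(Cfsg.qd p)) : Subgroup ↥(Cfsg.qd p)))
      ((isCharPFunctor_kInfLower.{0} p).1 _ (toSylowTop hS).isPGroup' hnt)
      (Subgroup.characteristic_iff_map_eq.2 (fun φ => map_kInfLower φ))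
    apply h4.2
    rw [← h4.1]
    have h5 : (Cfsg.kInfLower ↥((toSylowTop hS : Sylow p ↥(Cfsg.qd p)) : Subgroup ↥(Cfsg.qd p))).map
        ((toSylowTop hS : Sylow p ↥(Cfsg.qd p)) : Subgroup ↥(Cfsg.qd p)).subtype =
        (Cfsg.inducedFunctor Cfsg.kInfLower (T : Subgroup (↥K ⧸ R.subgroupOf K))).map e.toMonoidHom :=
      ind_kInfLower_map e T
    rw [h5, ← map_normalizer_equiv, htop, Subgroup.map_top_of_surjective _ e.surjective]

end Cfsg.Agent.S1989
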