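import Cfsg.Statements.S1992
import Cfsg.Agent.S1991
import Cfsg.Agent.S0144
import Cfsg.Agent.Lib.Helper3PGroup

set_option autoImplicit false
open Cfsg

namespace Cfsg.Agent.S1992

theorem index_prime_of_coatom_normal {G : Type*} [Group G] [Finite G] {M : Subgroup G} (hM : IsCoatom M)
    [hn : M.Normal] : M.index.Prime := by
  have hne : Nat.card (G ⧸ M) ≠ 1 := by
    intro h
    exact hM.1 (Subgroup.index_eq_one.1 h)
  obtain ⟨p, hp, hdvd⟩ := Nat.exists_prime_and_dvd hne
  have := Fact.mk hp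
  obtain ⟨x, hx⟩ := exists_prime_orderOf_dvd_card' p hdvd
  have h1 : M < (Subgroup.zpowers x).comap (QuotientGroup.mk' M) := by
    refine lt_of_le_of_ne ?_ ?_
    · intro m hm
      rw [Subgroup.mem_comap]
      have : QuotientGroup.mk' M m = 1 := (QuotientGroup.eq_one_iff m).2 hm
      rw [this]; exact Subgroup.one_mem _
    · intro he
      obtain ⟨y, rfl⟩ := QuotientGroup.mk'_surjective M x
      have hy : y ∈ (Subgroup.zpowers (QuotientGroup.mk' M y)).comap (QuotientGroup.mk' M) :=
        Subgroup.mem_zpowers _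
      rw [← he] at hy
      have h2 : QuotientGroup.mk' M y = 1 := (QuotientGroup.eq_one_iff y).2 hy
      rw [h2, orderOf_one] at hx
      exact hp.one_lt.ne hx
  have h2 := hM.2 _ h1
  have h3 : Subgroup.zpowers x = ⊤ := by
    rw [← Subgroup.map_comap_eq_self_of_surjective (QuotientGroup.mk'_surjective M) (Subgroup.zpowers x), h2,
      Subgroup.map_top_of_surjective _ (QuotientGroup.mk'_surjective M)]
  have h4 : Nat.card (G ⧸ M) = p := by
    rw [← hx, ← Nat.card_zpowers, h3, Subgroup.card_top]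
  rw [Subgroup.index, h4]
  exact hp

theorem exists_normal_index_prime_of_solvable {G : Type*} [Group G] [Finite G] [Nontrivial G]
    (hs : Group.IsSolvable G) : ∃ N : Subgroup G, N.Normal ∧ N.index.Prime := by
  have h1 : commutator G < ⊤ := Group.IsSolvable.commutator_lt_top_of_nontrivial G
  obtain ⟨M, hM, hle⟩ := (eq_top_or_exists_le_coatom (commutator G)).resolve_left h1.ne
  have hn : M.Normal := Cfsg.Agent.Lib.Helper3PGroup.normal_of_commutator_le hle
  exact ⟨M, hn, index_prime_of_coatom_normal hM⟩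

theorem eq_two_pow_mul_three_pow {n : ℕ} (hn : n ≠ 0) (h : ∀ q : ℕ, q.Prime → q ∣ n → q = 2 ∨ q = 3) :
    ∃ a b : ℕ, n = 2 ^ a * 3 ^ b := by
  set m := ordCompl[2] n with hm
  have hm0 : m ≠ 0 := (Nat.ordCompl_pos 2 hn).ne'
  set m' := ordCompl[3] m with hm'
  have e1 : ordProj[2] n * m = n := Nat.ordProj_mul_ordCompl_eq_self n 2
  have e2 : ordProj[3] m * m' = m := Nat.ordProj_mul_ordCompl_eq_self m 3
  have h2 : ¬ 2 ∣ m := Nat.not_dvd_ordCompl Nat.prime_two hn
  have h3 : ¬ 3 ∣ m' := Nat.not_dvd_ordCompl Nat.prime_three hm0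
  have hd1 : m' ∣ m := Nat.ordCompl_dvd m 3
  have hd2 : m ∣ n := Nat.ordCompl_dvd n 2
  have h1 : m' = 1 := by
    by_contra hne
    obtain ⟨q, hq, hdvd⟩ := Nat.exists_prime_and_dvd hne
    rcases h q hq ((hdvd.trans hd1).trans hd2) with rfl | rfl
    · exact h2 (hdvd.trans hd1)
    · exact h3 hdvd
  refine ⟨n.factorization 2, m.factorization 3, ?_⟩
  rw [h1, mul_one] at e2
  rw [e2, e1]

theorem isPGroup_of_normal_index_prime {G : Type*} [Group G] [Finite G]
    (h : ∀ q : ℕ, q.Prime → q ∣ Nat.card G → ∀ Q : Sylow q G,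
      Subgroup.normalizer ((Q : Subgroup G) : Set G) = Q)
    (N : Subgroup G) [hN : N.Normal] {p : ℕ} (hp : p.Prime) (hidx : N.index = p) : IsPGroup p G := by
  have := Fact.mk hp
  by_contra hnp
  have h1 : ∃ q : ℕ, q.Prime ∧ q ∣ Nat.card G ∧ q ≠ p := by
    by_contra hcon
    push Not at hcon
    apply hnp
    rw [IsPGroup.iff_card]
    exact ⟨_, Nat.eq_prime_pow_of_unique_prime_dvd Nat.card_pos.ne' (fun {d} hd hdvd => hcon d hd hdvd)⟩
  obtain ⟨q, hq, hqd, hqp⟩ := h1
  have := Fact.mk hq
  obtain ⟨Q⟩ : Nonempty (Sylow q G) := inferInstance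
  have hQN : (Q : Subgroup G) ≤ N := by
    intro x hx
    obtain ⟨k, hk⟩ := (IsPGroup.iff_orderOf.1 Q.2) ⟨x, hx⟩
    rw [Subgroup.orderOf_mk] at hk
    have hco : p.Coprime (orderOf x) := by
      rw [hk]
      exact Nat.Coprime.pow_right k ((Nat.coprime_primes hp hq).2 (Ne.symm hqp))
    obtain ⟨m, hm⟩ := exists_pow_eq_self_of_coprime hco
    rw [← hm]
    apply N.pow_mem
    rw [← hidx]
    exact N.pow_index_mem x
  have h2 : Subgroup.normalizer ((Q : Subgroup G) : Set G) ⊔ N = ⊤ := Sylow.normalizer_sup_eq_top' Q hQN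
  rw [h q hq hqd Q, sup_eq_right.2 hQN] at h2
  rw [h2, Subgroup.index_top] at hidx
  exact hp.one_lt.ne hidx


/-- Let G be a finite group in which, for every prime q dividing the order of G, every Sylow q-subgroup is its own normalizer. Then the order of G is a power of a single prime (G is a q-group for some prime q; for G trivial any prime works). -/
theorem result {G : Type*} [Group G] [Finite G] (h : ∀ q : ℕ, q.Prime → q ∣ Nat.card G → ∀ Q : Sylow q G, Subgroup.normalizer ((Q : Subgroup G) : Set G) = Q) : ∃ q : ℕ, q.Prime ∧ IsPGroup q G := by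
  classical
  by_cases hnt : Nontrivial G
  swap
  · rw [not_nontrivial_iff_subsingleton] at hnt
    exact ⟨2, Nat.prime_two, IsPGroup.of_card (n := 0) (by simp)⟩
  have key : ∃ (N : Subgroup G) (p : ℕ), N.Normal ∧ p.Prime ∧ N.index = p := by
    by_cases h5 : ∃ p : ℕ, p.Prime ∧ 5 ≤ p ∧ p ∣ Nat.card G
    · obtain ⟨p, hp, hp5, hdvd⟩ := h5
      have := Fact.mk hp
      obtain ⟨S⟩ : Nonempty (Sylow p G) := inferInstance
      obtain ⟨N, hN, hidx⟩ := Cfsg.Agent.S1991.result hp5 S (S.ne_bot_of_dvd_card hdvd) (by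
        intro g hg hco
        rw [h p hp hdvd S] at hg
        obtain ⟨k, hk⟩ := (IsPGroup.iff_orderOf.1 S.2) ⟨g, hg⟩
        rw [Subgroup.orderOf_mk] at hk
        have h1 : orderOf g = 1 := by
          have h2 : (orderOf g).Coprime (p ^ k) := Nat.Coprime.pow_right k hco
          rw [← hk] at h2
          exact (Nat.coprime_self _).1 h2
        rw [orderOf_eq_one_iff] at h1
        rw [h1]
        exact Subgroup.one_mem _)
      exact ⟨N, p, hN, hp, hidx⟩
    · push Not at h5
      obtain ⟨a, b, hab⟩ := eq_two_pow_mul_three_pow (n := Nat.card G) Nat.card_pos.ne' (by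
        intro q hq hdvd
        have h1 : q < 5 := by
          by_contra hge
          exact h5 q hq (not_lt.1 hge) hdvd
        have h2 := hq.two_le
        interval_cases q
        · exact Or.inl rfl
        · exact Or.inr rfl
        · exact absurd hq (by norm_num))
      have hs := Cfsg.Agent.S0144.result (G := G) 2 3 a b Nat.prime_two Nat.prime_three hab
      obtain ⟨N, hN, hidx⟩ := exists_normal_index_prime_of_solvable hs
      exact ⟨N, N.index, hN, hidx, rfl⟩
  obtain ⟨N, p, hN, hp, hidx⟩ := key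
  exact ⟨p, hp, isPGroup_of_normal_index_prime h N hp hidx⟩

end Cfsg.Agent.S1992
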