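import Cfsg.Statements.S1995

import Cfsg.Agent.Lib.Helper39FamTransfer
set_option autoImplicit false
universe u
open Cfsg

namespace Cfsg.Agent.S1995

open Cfsg.Agent.Lib.Helper39Sylow Cfsg.Agent.Lib.Helper24Functor Cfsg.Agent.Lib.Helper39Section
  Cfsg.Agent.Lib.Helper39SecTransport Cfsg.Agent.Lib.Helper39SecTransfer Cfsg.Agent.Lib.Helper39Transfer
  Cfsg.Agent.Lib.Helper24Section Cfsg.Agent.Lib.Helper39KInfFunctor Cfsg.Agent.Lib.Helper39FamTransfer

/-- Let p be a prime, G a finite group and 𝓦 a set of isomorphism-invariant p-group functors (W assigns to every group Q a subgroup W(Q), nontrivial whenever Q is a nontrivial finite p-group, and every isomorphism from a finite p-group Q onto a group R carries W(Q) onto W(R)). If the conjugacy functors induced by 𝓦 control transfer in every section G* = K/R of G with C_{G*}(O_p(G*)) ≤ O_p(G*), then they control transfer in G: S ∩ G' is generated by the subgroups S ∩ (N_G(W(S)))', W ∈ 𝓦, for a Sylow p-subgroup S. -/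
theorem result {G : Type u} [Group G] [Finite G] {p : ℕ} [Fact p.Prime] (𝓦 : Set (∀ (Q : Type u) [Group Q], Subgroup Q)) (h𝓦 : ∀ W ∈ 𝓦, Cfsg.IsCharPFunctor.{u} p W) (hloc : ∀ (K R : Subgroup G) [hR : (R.subgroupOf K).Normal], Subgroup.centralizer ((Cfsg.pCore p (↥K ⧸ R.subgroupOf K) : Subgroup (↥K ⧸ R.subgroupOf K)) : Set (↥K ⧸ R.subgroupOf K)) ≤ Cfsg.pCore p (↥K ⧸ R.subgroupOf K) → Cfsg.FamilyControlsTransferIn p ((fun W => Cfsg.inducedFunctor (G := (↥K ⧸ R.subgroupOf K)) W) '' 𝓦) ⊤) : Cfsg.FamilyControlsTransferIn p ((fun W => Cfsg.inducedFunctor (G := G) W) '' 𝓦) ⊤ := by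
  obtain ⟨S⟩ : Nonempty (Sylow p G) := inferInstance
  apply (familyControlsTransferIn_iff (ind_conj h𝓦 G) (isSyl_sylow S)).2
  apply fct_all (p := p) h𝓦 (fun X _ => Cfsg.Involves X G)
    (fun X _ _ Y h => involves_sub X Y h)
    (fun X _ _ N _ h => involves_quot X N h) _ (Nat.card G) G rfl (involves_self G) S (isSyl_sylow S)
  intro X _ _ hX hcon S hS
  obtain ⟨K', R', hR', ⟨e⟩⟩ := hX
  have hcon' := constrained_of_equiv (p := p) e hcon
  have hS' : IsSyl p (S.map e.symm.toMonoidHom) ⊤ :=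
    isSyl_map_surjective hS e.symm.toMonoidHom e.symm.surjective
  have h1 := (familyControlsTransferIn_iff (ind_conj h𝓦 _) hS').1 (hloc K' R' hcon')
  have h2 := fct_equiv h𝓦 e hS'.2.1 h1
  rwa [map_symm_map] at h2

end Cfsg.Agent.S1995
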