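import Cfsg.Statements.S1996

import Cfsg.Agent.Lib.Helper39FamFusion
set_option autoImplicit false
universe u
open Cfsg

namespace Cfsg.Agent.S1996

open Cfsg.Agent.Lib.Helper39Sylow Cfsg.Agent.Lib.Helper24Functor Cfsg.Agent.Lib.Helper39Section
  Cfsg.Agent.Lib.Helper39SecTransport Cfsg.Agent.Lib.Helper24Section Cfsg.Agent.Lib.Helper39KInfFunctor
  Cfsg.Agent.Lib.Helper39FamTransfer Cfsg.Agent.Lib.Helper39FamFusion

/-- Let p be a prime, G a finite group and W₁, W₂ two isomorphism-invariant p-group functors (W assigns to every group Q a subgroup W(Q), nontrivial whenever Q is a nontrivial finite p-group, and every isomorphism from a finite p-group Q onto a group R carries W(Q) onto W(R)). Suppose that G* = N_{G*}(W₁(S*)) N_{G*}(W₂(S*)) whenever G* = K/R is a section of G with C_{G*}(O_p(G*)) ≤ O_p(G*) and S* is a Sylow p-subgroup of G*. Then the pair {W₁, W₂} controls strong fusion in G. -/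
theorem result {G : Type u} [Group G] [Finite G] {p : ℕ} [Fact p.Prime] (W₁ W₂ : ∀ (Q : Type u) [Group Q], Subgroup Q) (hW₁ : Cfsg.IsCharPFunctor.{u} p W₁) (hW₂ : Cfsg.IsCharPFunctor.{u} p W₂) (hfac : ∀ (K R : Subgroup G) [hR : (R.subgroupOf K).Normal], Subgroup.centralizer ((Cfsg.pCore p (↥K ⧸ R.subgroupOf K) : Subgroup (↥K ⧸ R.subgroupOf K)) : Set (↥K ⧸ R.subgroupOf K)) ≤ Cfsg.pCore p (↥K ⧸ R.subgroupOf K) → ∀ T : Sylow p (↥K ⧸ R.subgroupOf K), ∀ x : (↥K ⧸ R.subgroupOf K), ∃ a ∈ Subgroup.normalizer ((Cfsg.inducedFunctor (G := (↥K ⧸ R.subgroupOf K)) W₁ (T : Subgroup (↥K ⧸ R.subgroupOf K)) : Subgroup (↥K ⧸ R.subgroupOf K)) : Set (↥K ⧸ R.subgroupOf K)), ∃ b ∈ Subgroup.normalizer ((Cfsg.inducedFunctor (G := (↥K ⧸ R.subgroupOf K)) W₂ (T : Subgroup (↥K ⧸ R.subgroupOf K)) : Subgroup (↥K ⧸ R.subgroupOf K)) : Set (↥K ⧸ R.subgroupOf K)), x = a * b) : Cfsg.FamilyControlsStrongFusionIn p {Cfsg.inducedFunctor (G := G) W₁, Cfsg.inducedFunctor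 (G := G) W₂} ⊤ := by
  obtain ⟨S⟩ : Nonempty (Sylow p G) := inferInstance
  have h𝓦 : ∀ W ∈ ({W₁, W₂} : Set (∀ (Q : Type u) [Group Q], Subgroup Q)), Cfsg.IsCharPFunctor.{u} p W := by
    rintro W (rfl | rfl)
    · exact hW₁
    · exact hW₂
  have himg : ({Cfsg.inducedFunctor (G := G) W₁, Cfsg.inducedFunctor (G := G) W₂} : Set (Subgroup G → Subgroup G)) =
      Ind {W₁, W₂} G := (Set.image_pair _ _ _).symm
  rw [himg]
  apply (familyControlsStrongFusionIn_iff (ind_conj h𝓦 G) (isSyl_sylow S)).2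
  apply fcsf_all (p := p) h𝓦 (fun X _ => Cfsg.Involves X G)
    (fun X _ _ Y h => involves_sub X Y h)
    (fun X _ _ N _ h => involves_quot X N h) _ (Nat.card G) G rfl (involves_self G) S (isSyl_sylow S)
  intro X _ _ hX hcon _ S hS
  obtain ⟨K', R', hR', ⟨e⟩⟩ := hX
  have hcon' := constrained_of_equiv (p := p) e hcon
  have hS' : IsSyl p (S.map e.symm.toMonoidHom) ⊤ :=
    isSyl_map_surjective hS e.symm.toMonoidHom e.symm.surjective
  have h1 := fcsf_of_factorization h𝓦 (W₁ := W₁) (W₂ := W₂) (Set.mem_insert _ _)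
    (Set.mem_insert_of_mem _ rfl) hS' (hfac K' R' hcon' (toSylowTop hS'))
  have h2 := fcsf_equiv h𝓦 e hS'.2.1 h1
  rwa [map_symm_map] at h2

end Cfsg.Agent.S1996
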