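import Cfsg.Statements.S1997

import Cfsg.Agent.Lib.Helper39Triple
import Cfsg.Agent.S1996
set_option autoImplicit false
universe u
open Cfsg

namespace Cfsg.Agent.S1997

open Cfsg.Agent.Lib.Helper39Sylow Cfsg.Agent.Lib.Helper24Functor Cfsg.Agent.Lib.Helper39Section
  Cfsg.Agent.Lib.Helper39SecTransport Cfsg.Agent.Lib.Helper24Section Cfsg.Agent.Lib.Helper39KInfFunctor
  Cfsg.Agent.Lib.Helper39FamTransfer Cfsg.Agent.Lib.Helper39FamFusion Cfsg.Agent.Lib.Helper39Triple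
  Cfsg.Agent.Lib.Helper39WellPlaced

/-- Let p be a prime, G a finite group with Sylow p-subgroup S, and W₁, W₂ two isomorphism-invariant p-group functors (W assigns to every group Q a subgroup W(Q), nontrivial whenever Q is a nontrivial finite p-group, and every isomorphism from a finite p-group Q onto a group R carries W(Q) onto W(R)). Suppose that G* = C_{G*}(Ω₁Z(S*)) N_{G*}(W₁(S*)) = C_{G*}(Ω₁Z(S*)) N_{G*}(W₂(S*)) = N_{G*}(W₁(S*)) N_{G*}(W₂(S*)) whenever G* = K/R is a section of G with C_{G*}(O_p(G*)) ≤ O_p(G*) and S* is a Sylow p-subgroup of G*, where Ω₁Z denotes the subgroup generated by the elements of order dividing p in the centre. Suppose also Ω₁Z(S) ≤ W₁(S) ∩ W₂(S), and let A be the normal closure of Ω₁Z(S) in N_G(W₁(S)). Then A is an elementary abelian subgroup of S, strongly closed in S with respect to G, and A controls strong fusion in G. -/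
theorem result {G : Type u} [Group G] [Finite G] {p : ℕ} [Fact p.Prime] (S : Sylow p G) (W₁ W₂ : ∀ (Q : Type u) [Group Q], Subgroup Q) (hW₁ : Cfsg.IsCharPFunctor.{u} p W₁) (hW₂ : Cfsg.IsCharPFunctor.{u} p W₂) (hfac : ∀ (K R : Subgroup G) [hR : (R.subgroupOf K).Normal], Subgroup.centralizer ((Cfsg.pCore p (↥K ⧸ R.subgroupOf K) : Subgroup (↥K ⧸ R.subgroupOf K)) : Set (↥K ⧸ R.subgroupOf K)) ≤ Cfsg.pCore p (↥K ⧸ R.subgroupOf K) → ∀ T : Sylow p (↥K ⧸ R.subgroupOf K), (∀ x : (↥K ⧸ R.subgroupOf K), ∃ a ∈ Subgroup.centralizer ((Cfsg.omegaOne p ((T : Subgroup (↥K ⧸ R.subgroupOf K)) ⊓ Subgroup.centralizer (((T : Subgroup (↥K ⧸ R.subgroupOf K)) : Subgroup (↥K ⧸ R.subgroupOf K)) : Set (↥K ⧸ R.subgroupOf K))) : Subgroup (↥K ⧸ R.subgroupOf K)) : Set (↥K ⧸ R.subgroupOf K)), ∃ b ∈ Subgroup.normalizer ((Cfsg.inducedFunctor (G := (↥K ⧸ R.subgroupOf K)) W₁ (T : Subgroup (↥K ⧸ R.subgroupOf K)) : Subgroup (↥K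 ⧸ R.subgroupOf K)) : Set (↥K ⧸ R.subgroupOf K)), x = a * b) ∧ (∀ x : (↥K ⧸ R.subgroupOf K), ∃ a ∈ Subgroup.centralizer ((Cfsg.omegaOne p ((T : Subgroup (↥K ⧸ R.subgroupOf K)) ⊓ Subgroup.centralizer (((T : Subgroup (↥K ⧸ R.subgroupOf K)) : Subgroup (↥K ⧸ R.subgroupOf K)) : Set (↥K ⧸ R.subgroupOf K))) : Subgroup (↥K ⧸ R.subgroupOf K)) : Set (↥K ⧸ R.subgroupOf K)), ∃ b ∈ Subgroup.normalizer ((Cfsg.inducedFunctor (G := (↥K ⧸ R.subgroupOf K)) W₂ (T : Subgroup (↥K ⧸ R.subgroupOf K)) : Subgroup (↥K ⧸ R.subgroupOf K)) : Set (↥K ⧸ R.subgroupOf K)), x = a * b) ∧ (∀ x : (↥K ⧸ R.subgroupOf K), ∃ a ∈ Subgroup.normalizer ((Cfsg.inducedFunctor (G := (↥K ⧸ R.subgroupOf K)) W₁ (T : Subgroup (↥K ⧸ R.subgroupOf K)) : Subgroup (↥K ⧸ R.subgroupOf K)) : Set (↥K ⧸ R.subgroupOf K)), ∃ b ∈ Subgroup.normalizer ((Cfsg.inducedFunctor (G := (↥K ⧸ R.subgroupOf K)) W₂ (T : Subgroup (↥K ⧸ R.subgroupOf K)) : Subgroup (↥K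 ⧸ R.subgroupOf K)) : Set (↥K ⧸ R.subgroupOf K)), x = a * b)) (hZ : Cfsg.omegaOne p ((S : Subgroup G) ⊓ Subgroup.centralizer (((S : Subgroup G) : Subgroup G) : Set G)) ≤ Cfsg.inducedFunctor (G := G) W₁ (S : Subgroup G) ⊓ Cfsg.inducedFunctor (G := G) W₂ (S : Subgroup G)) (N₁ : Subgroup G) (hN₁ : N₁ = Subgroup.normalizer ((Cfsg.inducedFunctor (G := G) W₁ (S : Subgroup G) : Subgroup G) : Set G)) (A : Subgroup G) (hA : A = (Subgroup.normalClosure (((Cfsg.omegaOne p ((S : Subgroup G) ⊓ Subgroup.centralizer (((S : Subgroup G) : Subgroup G) : Set G))).subgroupOf N₁ : Subgroup ↥N₁) : Set ↥N₁)).map N₁.subtype) : A ≤ (S : Subgroup G) ∧ Cfsg.IsElementaryAbelian p A ∧ Cfsg.IsStronglyClosed A (S : Subgroup G) ∧ Cfsg.ControlsStrongFusion p A := by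
  have h𝓦 : ∀ W ∈ ({W₁, W₂} : Set (∀ (Q : Type u) [Group Q], Subgroup Q)), Cfsg.IsCharPFunctor.{u} p W := by
    rintro W (rfl | rfl)
    · exact hW₁
    · exact hW₂
  have hS : IsSyl p (S : Subgroup G) ⊤ := isSyl_sylow S
  have himg : ({Cfsg.inducedFunctor (G := G) W₁, Cfsg.inducedFunctor (G := G) W₂} : Set (Subgroup G → Subgroup G)) =
      Ind {W₁, W₂} G := (Set.image_pair _ _ _).symm
  have hF0 := Cfsg.Agent.S1996.result (G := G) (p := p) W₁ W₂ hW₁ hW₂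
    (fun K R hR hcon T => (hfac K R hcon T).2.2)
  rw [himg] at hF0
  have hF : FCSF (Ind {W₁, W₂} G) ⊤ (S : Subgroup G) :=
    (familyControlsStrongFusionIn_iff (ind_conj h𝓦 G) hS).1 hF0
  have heq : AC p W₁ ⊤ (S : Subgroup G) = AC p W₂ ⊤ (S : Subgroup G) := by
    apply ac_eq (p := p) hW₁ hW₂ (fun X _ => Cfsg.Involves X G)
      (fun X _ _ Y h => involves_sub X Y h)
      (fun X _ _ N _ h => involves_quot X N h) _ (Nat.card G) G rfl (involves_self G) S hS hZ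
    intro X _ _ hX hcon T hT
    obtain ⟨K', R', hR', ⟨e⟩⟩ := hX
    have hcon' := constrained_of_equiv (p := p) e hcon
    have hT' : IsSyl p (T.map e.symm.toMonoidHom) ⊤ :=
      isSyl_map_surjective hT e.symm.toMonoidHom e.symm.surjective
    obtain ⟨f1, f2, -⟩ := hfac K' R' hcon' (toSylowTop hT')
    have g1 := fac_equiv hW₁ e hT'.2.1 f1
    have g2 := fac_equiv hW₂ e hT'.2.1 f2
    rw [map_symm_map] at g1 g2
    exact ⟨g1, g2⟩
  have hSN₁ : (S : Subgroup G) ≤ N₁ := by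
    rw [hN₁]
    exact le_normalizer_W (isConjugacyFunctor_induced hW₁) hS.2.1
  have hZN : OZ p (S : Subgroup G) ≤ N₁ := ((OZ_le p _).trans inf_le_left).trans hSN₁
  have hAeq : A = AC p W₁ ⊤ (S : Subgroup G) := by
    rw [hA]
    have := map_normalClosure_eq_CL hZN
    unfold AC
    rw [top_inf_eq, ← hN₁]
    exact this
  obtain ⟨c1, c2, c3, c4⟩ := triple_conclusion hW₁ hS (hZ.trans inf_le_left) heq hF
  rw [← hAeq] at c1 c2 c3 c4
  exact ⟨c1, c2, c3, S, c1, c4⟩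

end Cfsg.Agent.S1997
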