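import Cfsg.Statements.S1998

import Cfsg.Agent.Lib.Helper39FamTransfer
set_option autoImplicit false
universe u
open Cfsg

namespace Cfsg.Agent.S1998

open Cfsg.Agent.Lib.Helper39Sylow Cfsg.Agent.Lib.Helper24Functor Cfsg.Agent.Lib.Helper39Section
  Cfsg.Agent.Lib.Helper39SecTransport Cfsg.Agent.Lib.Helper39SecTransfer Cfsg.Agent.Lib.Helper39Transfer
  Cfsg.Agent.Lib.Helper24Section Cfsg.Agent.Lib.Helper39KInfFunctor Cfsg.Agent.Lib.Helper39FamTransfer

/-- Let p be a prime, G a finite group with Sylow p-subgroup S, and 𝓦 a nonempty set of isomorphism-invariant p-group functors (W assigns to every group Q a subgroup W(Q), nontrivial whenever Q is a nontrivial finite p-group, and every isomorphism from a finite p-group Q onto a group R carries W(Q) onto W(R)). Suppose the induced conjugacy functors control transfer in every section of G other than G itself, but not in G. Let T be the subgroup generated by the S ∩ (N_G(W(S)))', W ∈ 𝓦, and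 M = N_G(T ∩ O_p(G)). Then: C_G(O_p(G)) ≤ O_p(G); M is a proper subgroup of G containing every proper subgroup of G that contains S (the unique maximal subgroup over S); [O_p(G), M] ≤ O_p(G) ∩ M' ≤ O_p(G) ∩ T; and every element u of S outside O_p(G) satisfies [X, u, …, u] ≰ Y with p − 1 entries u, for some chief factor X/Y of G with X ≤ O_p(G). -/
theorem result {G : Type u} [Group G] [Finite G] {p : ℕ} [Fact p.Prime] (S : Sylow p G) (𝓦 : Set (∀ (Q : Type u) [Group Q], Subgroup Q)) (h𝓦 : ∀ W ∈ 𝓦, Cfsg.IsCharPFunctor.{u} p W) (hne : 𝓦.Nonempty) (hsec : ∀ (K R : Subgroup G) [hR : (R.subgroupOf K).Normal], (K = ⊤ → R ≠ ⊥) → Cfsg.FamilyControlsTransferIn p ((fun W => Cfsg.inducedFunctor (G := (↥K ⧸ R.subgroupOf K)) W) '' 𝓦) ⊤) (hG : ¬ Cfsg.FamilyControlsTransferIn p ((fun W => Cfsg.inducedFunctor (G := G) W) '' 𝓦) ⊤) (T M : Subgroup G) (hT : T = (⨆ W ∈ 𝓦, (S : Subgroup G) ⊓ ⁅Subgroup.normalizer ((Cfsg.inducedFunctor (G := G) W (S : Subgroup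 G) : Subgroup G) : Set G), Subgroup.normalizer ((Cfsg.inducedFunctor (G := G) W (S : Subgroup G) : Subgroup G) : Set G)⁆)) (hM : M = Subgroup.normalizer ((T ⊓ Cfsg.pCore p G : Subgroup G) : Set G)) : Subgroup.centralizer ((Cfsg.pCore p G : Subgroup G) : Set G) ≤ Cfsg.pCore p G ∧ (M ≠ ⊤ ∧ ∀ H : Subgroup G, (S : Subgroup G) ≤ H → H ≠ ⊤ → H ≤ M) ∧ (⁅Cfsg.pCore p G, M⁆ ≤ Cfsg.pCore p G ⊓ ⁅M, M⁆ ∧ Cfsg.pCore p G ⊓ ⁅M, M⁆ ≤ Cfsg.pCore p G ⊓ T) ∧ ∀ u : G, u ∈ (S : Subgroup G) → u ∉ Cfsg.pCore p G → ∃ U V : Subgroup G, Cfsg.IsChiefFactor U V ∧ U ≤ Cfsg.pCore p G ∧ ¬ Cfsg.iterCommutator U (Subgroup.zpowers u) (p - 1) ≤ V := by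
  have hS := isSyl_sylow S
  have hsec' : ∀ (X : Type u) [Group X] [Finite X] (K : Subgroup G) (f : K →* X), Function.Surjective f →
      (K = ⊤ → f.ker ≠ ⊥) → ∀ S' : Subgroup X, IsSyl p S' ⊤ → FCT (Ind 𝓦 X) ⊤ S' := by
    intro X _ _ K f hf hside S' hS'
    have hR : (f.ker.map K.subtype).subgroupOf K = f.ker :=
      Subgroup.comap_map_eq_self_of_injective K.subtype_injective _
    have hn : ((f.ker.map K.subtype).subgroupOf K).Normal := by rw [hR]; infer_instance
    let e : (↥K ⧸ (f.ker.map K.subtype).subgroupOf K) ≃* X :=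
      (QuotientGroup.quotientMulEquivOfEq hR).trans (QuotientGroup.quotientKerEquivOfSurjective f hf)
    have h0 := @hsec K (f.ker.map K.subtype) hn (by
      intro hK hb
      apply hside hK
      rw [← hR, hb]
      exact Subgroup.bot_subgroupOf K)
    have hS'' : IsSyl p (S'.map e.symm.toMonoidHom) ⊤ :=
      isSyl_map_surjective hS' e.symm.toMonoidHom e.symm.surjective
    have h1 := (familyControlsTransferIn_iff (ind_conj h𝓦 _) hS'').1 h0
    have h2 := fct_equiv h𝓦 e hS''.2.1 h1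
    rwa [map_symm_map] at h2
  have IHsub : ∀ H : Subgroup G, H ≠ ⊤ → ∀ T, IsSyl p T H → FCT (Ind 𝓦 G) H T := by
    intro H hH T' hT'
    apply fct_sub h𝓦 hT'.1 hT'.2.1
    exact hsec' H H (MonoidHom.id H) Function.surjective_id (fun h => absurd h hH) _ (isSyl_subgroupOf hT')
  have IHquot : ∀ (M : Subgroup G) [M.Normal], M ≠ ⊥ → ∀ T : Subgroup (G ⧸ M), IsSyl p T ⊤ →
      FCT (Ind 𝓦 (G ⧸ M)) ⊤ T := by
    intro M' _ hM' T' hT'
    apply hsec' (G ⧸ M') ⊤ ((QuotientGroup.mk' M').comp (⊤ : Subgroup G).subtype) _ _ T' hT'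
    · intro x
      obtain ⟨y, rfl⟩ := QuotientGroup.mk'_surjective M' x
      exact ⟨⟨y, trivial⟩, rfl⟩
    · intro _ hb
      apply hM'
      rw [eq_bot_iff]
      intro m hm
      have h1 : (⟨m, trivial⟩ : (⊤ : Subgroup G)) ∈
          ((QuotientGroup.mk' M').comp (⊤ : Subgroup G).subtype).ker := by
        rw [MonoidHom.mem_ker]
        exact (QuotientGroup.eq_one_iff m).2 hm
      rw [hb, Subgroup.mem_bot] at h1
      exact congrArg Subtype.val h1
  have hfail : ¬ FCT (Ind 𝓦 G) ⊤ (S : Subgroup G) :=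
    fun h => hG ((familyControlsTransferIn_iff (ind_conj h𝓦 G) hS).2 h)
  have hTK : T = FT (Ind 𝓦 G) ⊤ (S : Subgroup G) := by
    rw [hT, FT_ind]
    simp only [top_inf_eq]
  rw [hTK] at hM ⊢
  exact min_failure h𝓦 hne IHsub IHquot hS hfail M hM

end Cfsg.Agent.S1998
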