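import Cfsg.Statements.S2007
import Cfsg.Agent.Lib.Helper40NPC

set_option autoImplicit false
open Cfsg

namespace Cfsg.Agent.S2007

open Cfsg.Agent.Lib.Helper40NPC

/-- Abstract form: `T` a normal subgroup of `X` inside the Sylow subgroup `S`, with `C_S(T) ≤ T`, centralized by all
elements of order prime to `p`. -/
theorem abstract_form {X : Type*} [Group X] [Finite X] {p : ℕ} [Fact p.Prime] (S : Sylow p X) (T : Subgroup X)
    [T.Normal] (hTS : T ≤ (S : Subgroup X))
    (hC : (S : Subgroup X) ⊓ Subgroup.centralizer (T : Set X) ≤ T)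
    (hN : ∀ g : X, (orderOf g).Coprime p → g ∈ Subgroup.centralizer (T : Set X)) :
    Cfsg.HasNormalPComplement p X := by
  have hp : p.Prime := Fact.out
  set C : Subgroup X := Subgroup.centralizer (T : Set X) with hCdef
  have hCn : C.Normal := Subgroup.normal_centralizer
  -- every p-subgroup of C lies in T
  have hpel : ∀ Q : Subgroup X, IsPGroup p Q → Q ≤ C → Q ≤ T := by
    intro Q hQ hQC
    obtain ⟨R, hR⟩ := hQ.exists_le_sylow
    obtain ⟨g, hg⟩ := MulAction.exists_smul_eq X R S
    intro x hx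
    have h1 : g * x * g⁻¹ ∈ (S : Subgroup X) := by
      rw [← hg, Sylow.coe_subgroup_smul]
      rw [Subgroup.mem_pointwise_smul_iff_inv_smul_mem]
      simp only [MulAut.smul_def, ← map_inv, MulAut.conj_apply]
      have : g⁻¹ * (g * x * g⁻¹) * g⁻¹⁻¹ = x := by group
      rw [this]; exact hR hx
    have h2 : g * x * g⁻¹ ∈ C := hCn.conj_mem x (hQC hx) g
    have h3 : g * x * g⁻¹ ∈ T := hC (Subgroup.mem_inf.mpr ⟨h1, h2⟩)
    have h4 := (inferInstance : T.Normal).conj_mem _ h3 g⁻¹
    have : g⁻¹ * (g * x * g⁻¹) * g⁻¹⁻¹ = x := by group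
    rwa [this] at h4
  obtain ⟨Q⟩ : Nonempty (Sylow p C) := inferInstance
  have hQT : ∀ x : C, x ∈ Q → (x : X) ∈ T := by
    intro x hx
    have hQ' : IsPGroup p ((Q : Subgroup C).map C.subtype) := Q.2.map _
    apply hpel _ hQ' (Subgroup.map_subtype_le _)
    exact ⟨x, hx, rfl⟩
  have hQc : Subgroup.normalizer ((Q : Subgroup C) : Set C) ≤ Subgroup.centralizer ((Q : Subgroup C) : Set C) := by
    intro c _
    rw [Subgroup.mem_centralizer_iff]
    intro x hx
    have h1 : (x : X) ∈ T := hQT x hx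
    have h2 : (c : X) ∈ Subgroup.centralizer (T : Set X) := c.2
    rw [Subgroup.mem_centralizer_iff] at h2
    exact Subtype.ext (h2 x h1)
  set φ := MonoidHom.transferSylow Q hQc with hφ
  have hnd : ¬ p ∣ Nat.card φ.ker := MonoidHom.not_dvd_card_ker_transferSylow Q hQc
  apply hasNormalPComplement_of_pPrime_elements (φ.ker.map C.subtype)
  intro x
  constructor
  · rintro ⟨c, hc, rfl⟩
    have hdvd : orderOf c ∣ Nat.card φ.ker := by
      have := orderOf_dvd_natCard (⟨c, hc⟩ : φ.ker)
      rwa [← Subgroup.orderOf_coe] at this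
    have : orderOf (C.subtype c) = orderOf c := Subgroup.orderOf_coe c
    rw [this]
    exact Nat.Coprime.coprime_dvd_left hdvd ((Nat.Prime.coprime_iff_not_dvd hp).mpr hnd).symm
  · intro hx
    have hxC : x ∈ C := hN x hx
    refine ⟨⟨x, hxC⟩, ?_, rfl⟩
    rw [SetLike.mem_coe, MonoidHom.mem_ker]
    obtain ⟨k, hk⟩ := Q.2 (φ ⟨x, hxC⟩)
    have h3 : orderOf (φ ⟨x, hxC⟩) ∣ p ^ k := orderOf_dvd_of_pow_eq_one hk
    have h4 : orderOf (φ ⟨x, hxC⟩) ∣ orderOf (⟨x, hxC⟩ : C) := orderOf_map_dvd φ _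
    have h6 : orderOf (⟨x, hxC⟩ : C) = orderOf x := by
      rw [← Subgroup.orderOf_coe]
    rw [h6] at h4
    have h5 : orderOf (φ ⟨x, hxC⟩) = 1 :=
      Nat.eq_one_of_dvd_coprimes (Nat.Coprime.pow_right k hx) h4 h3
    exact orderOf_eq_one_iff.mp h5

/-- Let p be a prime, G a finite group with Sylow p-subgroup S, and T a normal subgroup of S containing C_S(T). If N_G(T)/C_G(T) is a p-group (every element of N_G(T) of order prime to p centralizes T), then N_G(T) has a normal p-complement. -/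
theorem result {G : Type*} [Group G] [Finite G] {p : ℕ} [Fact p.Prime] (S : Sylow p G) (T : Subgroup G) (hTS : T ≤ (S : Subgroup G)) (hTn : (S : Subgroup G) ≤ Subgroup.normalizer ((T : Subgroup G) : Set G)) (hC : (S : Subgroup G) ⊓ Subgroup.centralizer ((T : Subgroup G) : Set G) ≤ T) (hN : ∀ g ∈ Subgroup.normalizer ((T : Subgroup G) : Set G), (orderOf g).Coprime p → g ∈ Subgroup.centralizer ((T : Subgroup G) : Set G)) : Cfsg.HasNormalPComplement p ↥(Subgroup.normalizer ((T : Subgroup G) : Set G)) := by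
  have hTnorm : (T.subgroupOf (Subgroup.normalizer ((T : Subgroup G) : Set G))).Normal := Subgroup.normal_in_normalizer
  apply abstract_form (S.subtype hTn) (T.subgroupOf (Subgroup.normalizer ((T : Subgroup G) : Set G)))
  · intro x hx
    rw [Sylow.coe_subtype, Subgroup.mem_subgroupOf]
    exact hTS (Subgroup.mem_subgroupOf.mp hx)
  · intro x hx
    obtain ⟨h1, h2⟩ := Subgroup.mem_inf.mp hx
    rw [Sylow.coe_subtype, Subgroup.mem_subgroupOf] at h1
    rw [Subgroup.mem_subgroupOf]
    apply hC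
    refine Subgroup.mem_inf.mpr ⟨h1, ?_⟩
    rw [Subgroup.mem_centralizer_iff] at h2 ⊢
    intro t ht
    have := h2 ⟨t, Subgroup.le_normalizer ht⟩ (by simpa [Subgroup.mem_subgroupOf] using ht)
    exact congrArg Subtype.val this
  · intro g hg
    have h1 := hN g g.2 (by rwa [Subgroup.orderOf_coe])
    rw [Subgroup.mem_centralizer_iff] at h1 ⊢
    intro t ht
    exact Subtype.ext (h1 t (by simpa [Subgroup.mem_subgroupOf] using ht))

end Cfsg.Agent.S2007
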