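import Cfsg.Statements.S2009
-- import your own Cfsg.Agent.* helpers here

set_option autoImplicit false
open Cfsg

namespace Cfsg.Agent.S2009

/-- If an element `e` with `e * e = 1` has trivial centralizer in a finite normal subgroup `N`,
then `e` inverts `N`. -/
theorem inverts_of_fpf {H : Type*} [Group H] [Finite H] (e : H) (he : e * e = 1) (N : Subgroup H) [N.Normal]
    (hfix : N ⊓ Subgroup.centralizer ({e} : Set H) = ⊥) : ∀ n ∈ N, e * n * e⁻¹ = n⁻¹ := by
  have heinv : e⁻¹ = e := by
    rw [inv_eq_iff_mul_eq_one]; exact he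
  let f : N → N := fun n => ⟨(n : H)⁻¹ * (e * n * e⁻¹), N.mul_mem (N.inv_mem n.2) (Subgroup.Normal.conj_mem inferInstance _ n.2 e)⟩
  have hinj : Function.Injective f := by
    intro a b hab
    have hab' : (a : H)⁻¹ * (e * a * e⁻¹) = (b : H)⁻¹ * (e * b * e⁻¹) := congrArg Subtype.val hab
    have hmem : (b : H) * (a : H)⁻¹ ∈ N ⊓ Subgroup.centralizer ({e} : Set H) := by
      refine Subgroup.mem_inf.mpr ⟨N.mul_mem b.2 (N.inv_mem a.2), ?_⟩
      rw [Subgroup.mem_centralizer_singleton_iff]
      have h1 : (b : H) * (a : H)⁻¹ * e = e * b * e⁻¹ * (e * a * e⁻¹)⁻¹ * e := by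
        have : (b : H) * (a : H)⁻¹ = e * b * e⁻¹ * (e * a * e⁻¹)⁻¹ := by
          have h2 : (b : H) * ((a : H)⁻¹ * (e * a * e⁻¹)) = e * b * e⁻¹ := by
            rw [hab']; group
          rw [← h2]; group
        rw [this]
      rw [h1]; group
    rw [hfix, Subgroup.mem_bot] at hmem
    have : (b : H) = a := by
      rw [mul_inv_eq_one] at hmem; exact hmem
    exact Subtype.ext this.symm
  have hsurj : Function.Surjective f := Finite.surjective_of_injective hinj
  intro n hn
  obtain ⟨m, hm⟩ := hsurj ⟨n, hn⟩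
  have hm' : (m : H)⁻¹ * (e * m * e⁻¹) = n := congrArg Subtype.val hm
  rw [← hm', heinv]
  have h1 : e * ((m : H)⁻¹ * (e * m * e)) * e = e * (m : H)⁻¹ * e * m * (e * e) := by group
  rw [h1, he]
  have h3 : ((m : H)⁻¹ * (e * m * e))⁻¹ = e⁻¹ * (m : H)⁻¹ * e⁻¹ * m := by group
  rw [h3, heinv, mul_one]

theorem normal_eq_bot {H : Type*} [Group H] [Finite H] (z : H) (hz : orderOf z = 2) (hN : ∀ N : Subgroup H, N.Normal → N ≠ ⊤ → N ⊓ Subgroup.centralizer ({z} : Set H) = ⊥) (E : Subgroup H) (hE : IsKleinFour ↥E) (hzE : z ∈ E) (hc : ∀ e ∈ E, e ≠ 1 → IsConj z e) (N : Subgroup H) (hNn : N.Normal) (hNt : N ≠ ⊤) : N = ⊥ := by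
  have key : ∀ e ∈ E, e ≠ 1 → ∀ n ∈ N, e * n * e⁻¹ = n⁻¹ := by
    intro e he he1
    obtain ⟨g, hg⟩ := isConj_iff.mp (hc e he he1)
    have hzz : z * z = 1 := by
      have := pow_orderOf_eq_one z
      rw [hz, pow_two] at this; exact this
    have hee : e * e = 1 := by
      rw [← hg]
      have : g * z * g⁻¹ * (g * z * g⁻¹) = g * (z * z) * g⁻¹ := by group
      rw [this, hzz]; group
    apply inverts_of_fpf e hee N
    rw [eq_bot_iff]
    intro x hx
    obtain ⟨hxN, hx2⟩ := Subgroup.mem_inf.mp hx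
    have hxc : x * e = e * x := by
      rw [Subgroup.mem_centralizer_singleton_iff] at hx2
      exact hx2
    have hmem : g⁻¹ * x * g ∈ N ⊓ Subgroup.centralizer ({z} : Set H) := by
      refine Subgroup.mem_inf.mpr ⟨?_, ?_⟩
      · have := Subgroup.Normal.conj_mem hNn x hxN g⁻¹
        simpa using this
      · rw [Subgroup.mem_centralizer_singleton_iff]
        have h1 : g⁻¹ * x * g * z = g⁻¹ * (x * (g * z * g⁻¹)) * g := by group
        have h2 : z * (g⁻¹ * x * g) = g⁻¹ * ((g * z * g⁻¹) * x) * g := by group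
        rw [h1, h2, hg, hxc]
    rw [hN N hNn hNt, Subgroup.mem_bot] at hmem
    rw [Subgroup.mem_bot]
    have : x = g * (g⁻¹ * x * g) * g⁻¹ := by group
    rw [this, hmem]; group
  have hz1 : z ≠ 1 := by
    intro h; rw [h, orderOf_one] at hz; omega
  have hcard : Nat.card E = 4 := hE.card_four
  obtain ⟨e, heE, he1, hez⟩ : ∃ e ∈ E, e ≠ 1 ∧ e ≠ z := by
    by_contra hcon
    push Not at hcon
    have hsub : ∀ x : E, x = 1 ∨ x = ⟨z, hzE⟩ := by
      intro x
      by_cases hx : (x : H) = 1
      · left; exact Subtype.ext hx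
      · right; exact Subtype.ext (hcon x x.2 hx)
    have : Nat.card E ≤ 2 := by
      have := Fintype.ofFinite E
      rw [Nat.card_eq_fintype_card]
      classical
      calc Fintype.card E = (Finset.univ : Finset E).card := rfl
        _ ≤ ({1, ⟨z, hzE⟩} : Finset E).card := by
            apply Finset.card_le_card
            intro x _
            rcases hsub x with h | h <;> simp [h]
        _ ≤ 2 := Finset.card_le_two
    omega
  have hze : z * e ∈ E := E.mul_mem hzE heE
  have hzz : z * z = 1 := by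
    have := pow_orderOf_eq_one z
    rw [hz, pow_two] at this; exact this
  have hze1 : z * e ≠ 1 := by
    intro h
    apply hez
    have : e = z * (z * e) := by rw [← mul_assoc, hzz, one_mul]
    rw [this, h, mul_one]
  rw [eq_bot_iff]
  intro n hn
  rw [Subgroup.mem_bot]
  have h1 := key z hzE hz1
  have h2 := key e heE he1
  have h3 := key (z * e) hze hze1 n hn
  have h4 : z * e * n * (z * e)⁻¹ = z * (e * n * e⁻¹) * z⁻¹ := by group
  rw [h4, h2 n hn, h1 n⁻¹ (N.inv_mem hn), inv_inv] at h3
  have hmem : n ∈ N ⊓ Subgroup.centralizer ({z} : Set H) := by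
    refine Subgroup.mem_inf.mpr ⟨hn, ?_⟩
    rw [Subgroup.mem_centralizer_singleton_iff]
    have h5 := h1 n hn
    rw [← h3] at h5
    have : z * n = z * n * z⁻¹ * z := by group
    rw [this, h5]
  rw [hN N hNn hNt, Subgroup.mem_bot] at hmem
  exact hmem

/-- Let H be a finite group and z an involution such that every proper normal subgroup of H meets the centralizer of z trivially, and suppose z lies in a Klein four-subgroup E of H all three of whose involutions are conjugate to z in H. Then H is simple. -/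
theorem result {H : Type*} [Group H] [Finite H] (z : H) (hz : orderOf z = 2) (hN : ∀ N : Subgroup H, N.Normal → N ≠ ⊤ → N ⊓ Subgroup.centralizer ({z} : Set H) = ⊥) (E : Subgroup H) (hE : IsKleinFour ↥E) (hzE : z ∈ E) (hc : ∀ e ∈ E, e ≠ 1 → IsConj z e) : IsSimpleGroup H := by
  have : Nontrivial H := by
    refine ⟨z, 1, ?_⟩
    intro h; rw [h, orderOf_one] at hz; omega
  refine ⟨fun N hNn => ?_⟩
  by_cases hNt : N = ⊤
  · right; exact hNt
  · left; exact normal_eq_bot z hz hN E hE hzE hc N hNn hNt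

end Cfsg.Agent.S2009
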