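import Cfsg.Statements.S2008
import Cfsg.Agent.S2009

set_option autoImplicit false
open Cfsg

namespace Cfsg.Agent.S2008

/-- Let H be a finite group and z an involution such that every proper normal subgroup of H meets the centralizer of z trivially, and suppose z lies in a Klein four-subgroup E of H all three of whose involutions are conjugate to z in H. Then H has no non-trivial abelian normal subgroup. -/
theorem result {H : Type*} [Group H] [Finite H] (z : H) (hz : orderOf z = 2) (hN : ∀ N : Subgroup H, N.Normal → N ≠ ⊤ → N ⊓ Subgroup.centralizer ({z} : Set H) = ⊥) (E : Subgroup H) (hE : IsKleinFour ↥E) (hzE : z ∈ E) (hc : ∀ e ∈ E, e ≠ 1 → IsConj z e) (N : Subgroup H) [N.Normal] (hab : IsMulCommutative ↥N) : N = ⊥ := by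
  by_cases hNt : N = ⊤
  · exfalso
    subst hNt
    have hcomm : ∀ a b : H, a * b = b * a := by
      intro a b
      have := hab.is_comm.comm (⟨a, Subgroup.mem_top a⟩ : (⊤ : Subgroup H)) ⟨b, Subgroup.mem_top b⟩
      exact congrArg Subtype.val this
    have hall : ∀ e ∈ E, e ≠ 1 → e = z := by
      intro e he he1
      obtain ⟨g, hg⟩ := isConj_iff.mp (hc e he he1)
      rw [← hg, hcomm g z, mul_assoc, mul_inv_cancel, mul_one]
    have hcard : Nat.card E = 4 := hE.card_four
    have hsub : ∀ x : E, x = 1 ∨ x = ⟨z, hzE⟩ := by
      intro x
      by_cases hx : (x : H) = 1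
      · left; exact Subtype.ext hx
      · right; exact Subtype.ext (hall x x.2 hx)
    have : Nat.card E ≤ 2 := by
      have := Fintype.ofFinite E
      rw [Nat.card_eq_fintype_card]
      classical
      calc Fintype.card E = (Finset.univ : Finset E).card := rfl
        _ ≤ ({1, ⟨z, hzE⟩} : Finset E).card := by
            apply Finset.card_le_card
            intro x _
            rcases hsub x with h | h <;> simp [h]
        _ ≤ 2 := Finset.card_le_two
    omega
  · exact Cfsg.Agent.S2009.normal_eq_bot z hz hN E hE hzE hc N inferInstance hNt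

end Cfsg.Agent.S2008
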