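import Cfsg.Statements.S2039
import Cfsg.Agent.Lib.Helper69Mult
import Cfsg.Agent.Lib.Helper64J1Spec

set_option autoImplicit false
open Cfsg

namespace Cfsg.Agent.S2039

open Cfsg.Agent.Lib.Helper69Mult Cfsg.Agent.Helper64J1 Cfsg.Spor

theorem good_conj' {Γ X : Type*} [Group Γ] [Group X] {τ : Γ →* X} {g x y : X} (hg : g ∈ τ.range)
    (h : g * y = x * g) (hy : Good τ y) : Good τ x :=
  good_conj (τ.range.inv_mem hg) (by
    have : x = g * y * g⁻¹ := by rw [h, mul_inv_cancel_right]
    rw [this]; group) hy

/-- an elementary abelian Sylow 2-subgroup of order eight, with an element of order seven -/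
theorem e8_case {Γ X : Type*} [Group Γ] [Finite Γ] [Group X] {τ : Γ →* X} {a : Γ} (E : Ext2 τ a)
    (hc : τ.ker ≤ Subgroup.center Γ) (hs : τ.ker ≤ commutator Γ) (hcard : Nat.card τ.ker = 2)
    (x0 x1 x2 u : X) (hu : u ∈ τ.range) (hx0 : x0 ∈ τ.range) (h0 : u * x0 = x1 * u)
    (h1 : u * x1 = x2 * u) (h2 : u * x2 = x0 * x1 * u) (hsq : x0 * x0 = 1)
    (c01 : x0 * x1 = x1 * x0) (c02 : x0 * x2 = x2 * x0) (U : Subgroup X)
    (hU : U ≤ Subgroup.closure {x0, x1, x2}) (hidx : ¬ 2 ∣ U.relIndex τ.range) : False := by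
  have G0 : Good τ x0 := E.good3 hu h0 h1 h2 hsq c01 c02
  have G1 : Good τ x1 := good_conj' hu h0 G0
  have G2 : Good τ x2 := good_conj' hu h1 G1
  have G01 : Good τ (x0 * x1) := good_conj' hu h2 G2
  have h3 : u * (x0 * x1) = (x1 * x2) * u := by
    rw [← mul_assoc, h0, mul_assoc, h1, mul_assoc]
  have G12 : Good τ (x1 * x2) := good_conj' hu h3 G01
  have h4 : u * (x1 * x2) = (x2 * (x0 * x1)) * u := by
    rw [← mul_assoc, h1, mul_assoc, h2, mul_assoc, mul_assoc, mul_assoc]
  have G5 : Good τ (x2 * (x0 * x1)) := good_conj' hu h4 G12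
  have hx1 : x1 * x1 = 1 := by
    have : x1 * x1 * u = 1 * u := by
      rw [mul_assoc, ← h0, ← mul_assoc, ← h0, mul_assoc, hsq, mul_one, one_mul]
    exact mul_right_cancel this
  have h5 : u * (x2 * (x0 * x1)) = (x0 * x2) * u := by
    calc u * (x2 * (x0 * x1)) = (u * x2) * (x0 * x1) := by rw [mul_assoc]
      _ = x0 * x1 * (u * (x0 * x1)) := by rw [h2, mul_assoc]
      _ = x0 * x1 * (x1 * x2 * u) := by rw [h3]
      _ = x0 * (x1 * x1) * x2 * u := by simp only [mul_assoc]
      _ = _ := by rw [hx1, mul_one]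
  have G02 : Good τ (x0 * x2) := good_conj' hu h5 G5
  obtain ⟨A0, hA0⟩ := hx0
  obtain ⟨Ul, hUl⟩ := hu
  have hA1 : τ (Ul * A0 * Ul⁻¹) = x1 := by
    rw [map_mul, map_mul, hA0, hUl, h0, map_inv, hUl, mul_inv_cancel_right]
  have hA2 : τ (Ul * (Ul * A0 * Ul⁻¹) * Ul⁻¹) = x2 := by
    rw [map_mul, map_mul, hA1, hUl, h1, map_inv, hUl, mul_inv_cancel_right]
  generalize Ul * (Ul * A0 * Ul⁻¹) * Ul⁻¹ = A2 at hA2
  generalize Ul * A0 * Ul⁻¹ = A1 at hA1
  have k01 : A0 * A1 = A1 * A0 := comm_of_good G0 G1 G01 hA0 hA1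
  have k02 : A0 * A2 = A2 * A0 := comm_of_good G0 G2 G02 hA0 hA2
  have k12 : A1 * A2 = A2 * A1 := comm_of_good G1 G2 G12 hA1 hA2
  refine abelian_case τ hc hs Nat.prime_two hcard {A0, A1, A2} ?_ U (hU.trans ?_) hidx
  · intro s hs t ht
    simp only [Set.mem_insert_iff, Set.mem_singleton_iff] at hs ht
    rcases hs with rfl | rfl | rfl <;> rcases ht with rfl | rfl | rfl
    · rfl
    · exact k01
    · exact k02
    · exact k01.symm
    · rfl
    · exact k12
    · exact k02.symm
    · exact k12.symm
    · rfl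
  · rw [Subgroup.closure_le]
    rintro x (rfl | rfl | rfl)
    · exact ⟨A0, Subgroup.subset_closure (by simp), hA0⟩
    · exact ⟨A1, Subgroup.subset_closure (by simp), hA1⟩
    · exact ⟨A2, Subgroup.subset_closure (by simp), hA2⟩

theorem evW_append (u v : List Bool) : evW (u ++ v) = evW u * evW v := by
  induction u with
  | nil => simp [evW]
  | cons b l ih => simp only [List.cons_append, evW, ih, mul_assoc]

theorem eq_of_codes {u v : List Bool} (h : evC u = evC v) : evW u = evW v :=
  (rep_evW u).ext ((rep_evW v).cast h.symm)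

def wU : List Bool := [false]
def w1 : List Bool := [false] ++ wE1 ++ [false, false, false, false, false, false]
def w2 : List Bool := [false, false] ++ wE1 ++ [false, false, false, false, false]

theorem card_EE : Nat.card EE = 8 := by
  have hP : IsPGroup 2 EE := by
    intro g
    refine ⟨1, ?_⟩
    apply Subtype.ext
    rw [pow_one, Subgroup.coe_pow, Subgroup.coe_one]
    exact EE_sq g.1 g.2
  obtain ⟨n, hn⟩ := IsPGroup.iff_card.1 hP
  have hd : 2 ^ n ∣ 175560 := by
    rw [← hn, ← card_J1]
    exact Subgroup.card_dvd_of_le EE_le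
  have h8 := card_EE_ge
  have hn3 : n ≤ 3 := by
    by_contra hlt
    have : 2 ^ 4 ∣ 175560 := (pow_dvd_pow 2 (by omega)).trans hd
    revert this
    norm_num
  rw [hn] at h8 ⊢
  interval_cases n <;> omega

set_option maxRecDepth 100000 in
/-- The Schur multiplier of the Janko group J₁ (the group generated by two explicit 7 × 7 matrices over the integers modulo 11) is trivial; here the Schur multiplier is described through stem extensions, as in the definitions: surjective homomorphisms onto the group from a finite group, whose kernel is central in that finite group and contained in that finite group's commutator subgroup. -/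
theorem result : Cfsg.HasCyclicSchurMultiplier ↥Cfsg.Spor.J1 1 := by
  apply of_subgroup
  intro p hp Γ _ _ τ hr hc hs hcard
  by_cases h2 : p = 2
  · subst h2
    obtain ⟨a, E⟩ := Ext2.of_card hc hcard
    refine e8_case E hc hs hcard (evW wE1) (evW w1) (evW w2) (evW wU) (hr ▸ evW_mem _)
      (hr ▸ evW_mem _) (mul_eq_of_codes (by decide +kernel)) (mul_eq_of_codes (by decide +kernel))
      ?_ ?_ (mul_eq_of_codes (by decide +kernel)) (mul_eq_of_codes (by decide +kernel)) EE ?_
      (hr ▸ not_dvd_relIndex EE_le card_EE (m := 21945) (by rw [card_J1]) (by norm_num)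
        (by decide))
    · rw [← evW_append wE1 w1]
      exact mul_eq_of_codes (by decide +kernel)
    · rw [← pow_two]
      exact sq_eq_one_of_codes (by decide +kernel)
    · unfold EE
      rw [Subgroup.closure_le]
      have m0 : evW wE1 ∈ Subgroup.closure ({evW wE1, evW w1, evW w2} : Set GL7) :=
        Subgroup.subset_closure (by simp)
      have m1 : evW w1 ∈ Subgroup.closure ({evW wE1, evW w1, evW w2} : Set GL7) :=
        Subgroup.subset_closure (by simp)
      have m2 : evW w2 ∈ Subgroup.closure ({evW wE1, evW w1, evW w2} : Set GL7) :=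
        Subgroup.subset_closure (by simp)
      rintro x (rfl | rfl | rfl)
      · exact m0
      · have : evW wE2 = evW wE1 * evW w2 := by
          rw [← evW_append]
          exact eq_of_codes (by decide +kernel)
        rw [this]
        exact Subgroup.mul_mem _ m0 m2
      · have : evW wE3 = evW wE1 * evW w1 := by
          rw [← evW_append]
          exact eq_of_codes (by decide +kernel)
        rw [this]
        exact Subgroup.mul_mem _ m0 m1
  · apply cyclic_case τ hc hs hp hcard
    rw [hr, card_J1]
    by_cases h3 : p = 3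
    · subst h3
      norm_num
    · exact not_sq_dvd (a := 3) (b := 1) (m := 7315) hp h2 h3 (by norm_num) (by decide +kernel)

end Cfsg.Agent.S2039
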