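import Cfsg.Statements.S2040
import Cfsg.Agent.Lib.Helper63J2Stem
import Cfsg.Agent.Lib.Helper63MJ2P2
import Cfsg.Agent.Lib.Helper63MJ2P3
import Cfsg.Agent.Lib.Helper63MJ2P5
import Cfsg.Agent.Lib.Helper63PCFin

set_option autoImplicit false
open Cfsg

namespace Cfsg.Agent.S2040

open Cfsg.Agent.Lib.Helper63PCDefs Cfsg.Agent.Lib.Helper17PCMult Cfsg.Agent.Lib.Helper63PCFin

theorem cases_of_dvd (p : ℕ) (hp : p.Prime) (h : p ∣ 604800) : p = 2 ∨ p = 3 ∨ p = 5 ∨ p = 7 := by
  have := mem_of_prime_dvd hp [2, 2, 2, 2, 2, 2, 2, 3, 3, 3, 5, 5, 7]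
    (by intro q hq; simp only [List.mem_cons, List.not_mem_nil, or_false] at hq
        rcases hq with h | h | h | h | h | h | h | h | h | h | h | h | h <;> subst h <;> norm_num)
    604800 (by norm_num) h
  simp only [List.mem_cons, List.not_mem_nil, or_false] at this
  tauto

/-- The Schur multiplier of the Hall–Janko group J₂ (the icosian reflection group modulo its centre) is cyclic of order 2; here the Schur multiplier is described through stem extensions, as in the definitions: surjective homomorphisms onto the group from a finite group, whose kernel is central in that finite group and contained in that finite group's commutator subgroup. -/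
theorem result : Cfsg.HasCyclicSchurMultiplier Cfsg.Spor.J2 2 := by
  have hfin : Finite Cfsg.Spor.J2 := by
    apply Nat.finite_of_card_ne_zero
    rw [Cfsg.Agent.S1619.card_J2]
    norm_num
  obtain ⟨e⟩ := Cfsg.Agent.Lib.Helper34IcoK.bridge
  refine final 2 (by norm_num) Cfsg.Agent.Lib.Helper63J2Stem.stem (fun p hp h => ?_) (fun p hp h h2 => ?_)
  · rw [Cfsg.Agent.S1619.card_J2] at h
    rcases cases_of_dvd p hp (dvd_trans (dvd_pow_self p two_ne_zero) h) with r | r | r | r <;> subst r
    · rw [Nat.Prime.factorization_self Nat.prime_two]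
      exact localBound_congr e.symm 2 1 Cfsg.Agent.Lib.Helper63MJ2P2.lb
    · rw [Nat.factorization_eq_zero_of_not_dvd (by norm_num)]
      exact localBound_congr e.symm 3 0 Cfsg.Agent.Lib.Helper63MJ2P3.lb
    · rw [Nat.factorization_eq_zero_of_not_dvd (by norm_num)]
      exact localBound_congr e.symm 5 0 Cfsg.Agent.Lib.Helper63MJ2P5.lb
    · norm_num at h
  · rw [Cfsg.Agent.S1619.card_J2] at h
    have := (Nat.prime_dvd_prime_iff_eq hp Nat.prime_two).1 h2
    subst this
    norm_num at h

end Cfsg.Agent.S2040
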