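import Cfsg.Statements.S2041
import Cfsg.Agent.Lib.Helper63MJ3P2
import Cfsg.Agent.Lib.Helper63MJ3P3

set_option autoImplicit false
open Cfsg

namespace Cfsg.Agent.S2041

open Cfsg.Spor Cfsg.Agent.Helper64J3 Cfsg.Agent.Lib.Helper63PCDefs Cfsg.Agent.Lib.Helper63PCFin
  Cfsg.Agent.Lib.Helper63PCCover Cfsg.Agent.Lib.Helper63MJ3M

theorem cases_of_dvd (p : ℕ) (hp : p.Prime) (h : p ∣ 150698880) :
    p = 2 ∨ p = 3 ∨ p = 5 ∨ p = 17 ∨ p = 19 := by
  have := mem_of_prime_dvd hp [2, 2, 2, 2, 2, 2, 2, 3, 3, 3, 3, 3, 3, 5, 17, 19]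
    (by intro q hq; simp only [List.mem_cons, List.not_mem_nil, or_false] at hq
        rcases hq with h | h | h | h | h | h | h | h | h | h | h | h | h | h | h | h <;>
          subst h <;> norm_num)
    150698880 (by norm_num) h
  simp only [List.mem_cons, List.not_mem_nil, or_false] at this
  tauto

theorem trivial_cover {F : Type*} [Field F] [Finite F] (ω : F) [Om F ω] :
    HasCyclicSchurMultiplier (HH ω) 1 := by
  refine final_one (fun p hp h => ?_)
  rw [card_GG] at h
  rcases cases_of_dvd p hp (dvd_trans (dvd_pow_self p two_ne_zero) h) with r | r | r | r | r <;> subst r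
  · exact Cfsg.Agent.Lib.Helper63MJ3P2.lb ω
  · exact Cfsg.Agent.Lib.Helper63MJ3P3.lb ω
  · norm_num at h
  · norm_num at h
  · norm_num at h

/-- The Schur multiplier of the Janko group J₃ is cyclic of order 3. -/
theorem result {F : Type*} [Field F] [Fintype F] (hF : Fintype.card F = 4) (ω : F) (hω : ω ^ 2 + ω + 1 = 0) : Cfsg.HasCyclicSchurMultiplier (Cfsg.Spor.J3 F ω) 3 := by
  haveI := om_of_card hF ω hω
  unfold J3
  rw [threeJ3_eq ω]
  haveI : Fact (Nat.Prime 3) := ⟨Nat.prime_three⟩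
  refine of_cover_prime (QuotientGroup.mk' (Subgroup.center (HH ω))) (stem ω) (trivial_cover ω) 3 ?_
  rw [QuotientGroup.ker_mk']
  exact card_center ω

end Cfsg.Agent.S2041
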