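import Cfsg.Statements.S2044
import Cfsg.Agent.Lib.Helper62Co2M2
import Cfsg.Agent.Lib.Helper62Co2M3
import Cfsg.Agent.Lib.Helper62Co2M5

set_option autoImplicit false
open Cfsg
open Cfsg.Agent.Lib.Helper33LFrame Cfsg.Agent.Lib.Helper33LCo0 Cfsg.Agent.Lib.Helper33LCo2
open Cfsg.Agent.Lib.Helper33LGood Cfsg.Agent.Lib.Helper33LCo2Thy Cfsg.Agent.Lib.Helper33LCo2Ord

namespace Cfsg.Agent.S2044

open Cfsg.Agent.Lib.Helper63PCFin

theorem cases_of_dvd (p : ℕ) (hp : p.Prime) (h : p ∣ 42305421312000) :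
    p = 2 ∨ p = 3 ∨ p = 5 ∨ p = 7 ∨ p = 11 ∨ p = 23 := by
  have := mem_of_prime_dvd hp [2, 2, 2, 2, 2, 2, 2, 2, 2, 2, 2, 2, 2, 2, 2, 2, 2, 2, 3, 3, 3, 3, 3, 3,
      5, 5, 5, 7, 11, 23]
    (by intro q hq; simp only [List.mem_cons, List.not_mem_nil, or_false] at hq
        rcases hq with h | h | h | h | h | h | h | h | h | h | h | h | h | h | h | h | h | h | h | h |
          h | h | h | h | h | h | h | h | h | h <;> subst h <;> norm_num)
    42305421312000 (by norm_num) h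
  simp only [List.mem_cons, List.not_mem_nil, or_false] at this
  tauto

theorem normU : sqNorm ((Spor.leechU : leechLattice) : GolayPt → ℤ) = 32 := by
  show sqNorm Spor.vecU = 32
  unfold sqNorm Spor.vecU
  decide

theorem sub_eq : (Spor.Co2).subgroupOf Co0 = fixG [Spor.leechU] := by
  ext k
  rw [Subgroup.mem_subgroupOf, mem_fixG]
  unfold Spor.Co2
  rw [Subgroup.mem_inf, MulAction.mem_stabilizer_iff]
  simp only [Fixes, List.mem_cons, List.not_mem_nil, or_false, forall_eq]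
  constructor
  · intro h; exact h.2
  · intro h; exact ⟨k.2, h⟩

theorem model : Cfsg.HasCyclicSchurMultiplier ↥(fixG [DL v0c]) 1 := by
  have hc : Nat.card ↥(fixG [DL v0c]) = 42305421312000 := goodCo2.2
  have hfin : Finite ↥(fixG [DL v0c]) := Nat.finite_of_card_ne_zero (by rw [hc]; norm_num)
  refine final_one (fun p hp h => ?_)
  rw [hc] at h
  rcases cases_of_dvd p hp (dvd_trans (dvd_pow_self p two_ne_zero) h) with r | r | r | r | r | r <;>
    subst r
  · exact Cfsg.Agent.Lib.Helper62Co2M2.lb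
  · exact Cfsg.Agent.Lib.Helper62Co2M3.lb
  · exact Cfsg.Agent.Lib.Helper62Co2M5.lb
  · norm_num at h
  · norm_num at h
  · norm_num at h

/-- The Schur multiplier of the Conway group Co₂ is trivial. -/
theorem result : Cfsg.HasCyclicSchurMultiplier ↥Cfsg.Spor.Co2 1 := by
  obtain ⟨g, hg⟩ := Cfsg.Agent.Lib.Helper33LMinTrans.min_trans Spor.leechU (DL v0c) normU (by
    rw [DL_coe v0_mem]; exact v0_norm)
  have hg' : mv g [Spor.leechU] = [DL v0c] := by
    simp [mv, hg]
  have e1 : ↥(fixG [Spor.leechU]) ≃* ↥Spor.Co2 :=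
    (MulEquiv.subgroupCongr sub_eq.symm).trans
      (Subgroup.subgroupOfEquivOfLe (show Spor.Co2 ≤ Co0 from inf_le_left))
  have e2 : ↥(fixG [Spor.leechU]) ≃* ↥(fixG [DL v0c]) :=
    (conjEquiv g [Spor.leechU]).trans (MulEquiv.subgroupCongr (congrArg fixG hg'))
  exact Cfsg.Agent.Lib.Helper63PCFin.congr (e2.symm.trans e1) 1 model

end Cfsg.Agent.S2044
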