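import Cfsg.Statements.S2045
import Cfsg.Agent.Lib.Helper62Co3M2
import Cfsg.Agent.Lib.Helper62Co3M3
import Cfsg.Agent.Lib.Helper62Co3M5

set_option autoImplicit false
open Cfsg
open Cfsg.Agent.Lib.Helper33LFrame Cfsg.Agent.Lib.Helper33LMcL Cfsg.Agent.Lib.Helper33LCo0
open Cfsg.Agent.Lib.Helper33LGood Cfsg.Agent.Lib.Helper33LBase Cfsg.Agent.Lib.Helper33LOrders

namespace Cfsg.Agent.S2045

open Cfsg.Agent.Lib.Helper63PCFin

theorem cases_of_dvd (p : ℕ) (hp : p.Prime) (h : p ∣ 495766656000) :
    p = 2 ∨ p = 3 ∨ p = 5 ∨ p = 7 ∨ p = 11 ∨ p = 23 := by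
  have := mem_of_prime_dvd hp [2, 2, 2, 2, 2, 2, 2, 2, 2, 2, 3, 3, 3, 3, 3, 3, 3, 5, 5, 5, 7, 11, 23]
    (by intro q hq; simp only [List.mem_cons, List.not_mem_nil, or_false] at hq
        rcases hq with h | h | h | h | h | h | h | h | h | h | h | h | h | h | h | h | h | h | h | h |
          h | h | h <;> subst h <;> norm_num)
    495766656000 (by norm_num) h
  simp only [List.mem_cons, List.not_mem_nil, or_false] at this
  tauto

theorem normV : sqNorm ((Spor.leechV : leechLattice) : GolayPt → ℤ) = 48 := by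
  show sqNorm Spor.vecV = 48
  unfold sqNorm Spor.vecV
  decide

theorem sub_eq : (Spor.Co3).subgroupOf Co0 = fixG [Spor.leechV] := by
  ext k
  rw [Subgroup.mem_subgroupOf, mem_fixG]
  unfold Spor.Co3
  rw [Subgroup.mem_inf, MulAction.mem_stabilizer_iff]
  simp only [Fixes, List.mem_cons, List.not_mem_nil, or_false, forall_eq]
  constructor
  · intro h; exact h.2
  · intro h; exact ⟨k.2, h⟩

theorem model : Cfsg.HasCyclicSchurMultiplier ↥(fixG [DL u0c]) 1 := by
  have hc : Nat.card ↥(fixG [DL u0c]) = 495766656000 := goodCo3.2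
  have hfin : Finite ↥(fixG [DL u0c]) := Nat.finite_of_card_ne_zero (by rw [hc]; norm_num)
  refine final_one (fun p hp h => ?_)
  rw [hc] at h
  rcases cases_of_dvd p hp (dvd_trans (dvd_pow_self p two_ne_zero) h) with r | r | r | r | r | r <;>
    subst r
  · exact Cfsg.Agent.Lib.Helper62Co3M2.lb
  · exact Cfsg.Agent.Lib.Helper62Co3M3.lb
  · exact Cfsg.Agent.Lib.Helper62Co3M5.lb
  · norm_num at h
  · norm_num at h
  · norm_num at h

/-- The Schur multiplier of the Conway group Co₃ (the stabiliser of a vector of the second shortest length in the rank-24 lattice) is trivial; here the Schur multiplier is described through stem extensions, as in the definitions: surjective homomorphisms onto the group from a finite group, whose kernel is central in that finite group and contained in that finite group's commutator subgroup. -/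
theorem result : Cfsg.HasCyclicSchurMultiplier ↥Cfsg.Spor.Co3 1 := by
  obtain ⟨g, hg⟩ := mvU Spor.leechV normV
  have e1 : ↥(fixG [Spor.leechV]) ≃* ↥Spor.Co3 :=
    (MulEquiv.subgroupCongr sub_eq.symm).trans
      (Subgroup.subgroupOfEquivOfLe (show Spor.Co3 ≤ Co0 from inf_le_left))
  have e2 : ↥(fixG [Spor.leechV]) ≃* ↥(fixG [DL u0c]) :=
    (conjEquiv g [Spor.leechV]).trans (MulEquiv.subgroupCongr (congrArg fixG hg))
  exact Cfsg.Agent.Lib.Helper63PCFin.congr (e2.symm.trans e1) 1 model

end Cfsg.Agent.S2045
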