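import Cfsg.Statements.S2049
import Cfsg.Agent.Lib.Helper63MHeP2
import Cfsg.Agent.Lib.Helper63MHeP3
import Cfsg.Agent.Lib.Helper63MHeP5
import Cfsg.Agent.Lib.Helper63MHeP7
import Cfsg.Agent.Lib.Helper63PCFin

set_option autoImplicit false
open Cfsg

namespace Cfsg.Agent.S2049

open Cfsg.Agent.Lib.Helper63PCDefs Cfsg.Agent.Lib.Helper17PCMult Cfsg.Agent.Lib.Helper63PCFin
  Cfsg.Agent.Lib.Helper63MHeM

theorem cases_of_dvd (p : ℕ) (hp : p.Prime) (h : p ∣ 4030387200) :
    p = 2 ∨ p = 3 ∨ p = 5 ∨ p = 7 ∨ p = 17 := by
  have := mem_of_prime_dvd hp [2, 2, 2, 2, 2, 2, 2, 2, 2, 2, 3, 3, 3, 5, 5, 7, 7, 7, 17]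
    (by intro q hq; simp only [List.mem_cons, List.not_mem_nil, or_false] at hq
        rcases hq with h | h | h | h | h | h | h | h | h | h | h | h | h | h | h | h | h | h | h <;>
          subst h <;> norm_num)
    4030387200 (by norm_num) h
  simp only [List.mem_cons, List.not_mem_nil, or_false] at this
  tauto

/-- The Schur multiplier of the Held group (the finitely presented group of the definitions) is trivial; here the Schur multiplier is described through stem extensions, as in the definitions: surjective homomorphisms onto the group from a finite group, whose kernel is central in that finite group and contained in that finite group's commutator subgroup. -/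
theorem result : Cfsg.HasCyclicSchurMultiplier Cfsg.Spor.He 1 := by
  have hfin : Finite KHe := by
    apply Nat.finite_of_card_ne_zero
    rw [cardK]
    norm_num
  refine congr iso.symm 1 (final_one (fun p hp h => ?_))
  rw [cardK] at h
  rcases cases_of_dvd p hp (dvd_trans (dvd_pow_self p two_ne_zero) h) with r | r | r | r | r <;> subst r
  · exact Cfsg.Agent.Lib.Helper63MHeP2.lb
  · exact Cfsg.Agent.Lib.Helper63MHeP3.lb
  · exact Cfsg.Agent.Lib.Helper63MHeP5.lb
  · exact Cfsg.Agent.Lib.Helper63MHeP7.lb
  · norm_num at h

end Cfsg.Agent.S2049
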