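import Cfsg.Statements.S2052
import Cfsg.Agent.Lib.Helper35ON3B
import Cfsg.Agent.Lib.Helper35ONMP2
import Cfsg.Agent.Lib.Helper35ONMP3
import Cfsg.Agent.Lib.Helper35ONMP7
import Cfsg.Agent.Lib.Helper63PCFin

set_option autoImplicit false
open Cfsg

namespace Cfsg.Agent.S2052

open Cfsg.Agent.Lib.Helper63PCDefs Cfsg.Agent.Lib.Helper63PCFin

theorem cases_of_dvd (p : ℕ) (hp : p.Prime) (h : p ∣ 460815505920) :
    p = 2 ∨ p = 3 ∨ p = 5 ∨ p = 7 ∨ p = 11 ∨ p = 19 ∨ p = 31 := by
  have := mem_of_prime_dvd hp [2, 2, 2, 2, 2, 2, 2, 2, 2, 3, 3, 3, 3, 5, 7, 7, 7, 11, 19, 31]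
    (by intro q hq; simp only [List.mem_cons, List.not_mem_nil, or_false] at hq
        rcases hq with h | h | h | h | h | h | h | h | h | h | h | h | h | h | h | h | h | h | h | h
          <;> subst h <;> norm_num)
    460815505920 (by norm_num) h
  simp only [List.mem_cons, List.not_mem_nil, or_false] at this
  tauto

theorem stem : ∃ (Γ : Type) (_ : Group Γ) (_ : Finite Γ) (σ : Γ →* Cfsg.Agent.Lib.Helper35ONM.G),
    IsStemExtension σ ∧ Nat.card σ.ker = 3 := by
  obtain ⟨σ, hσ, hc⟩ := Cfsg.Agent.Lib.Helper35ON3B.exists_cover'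
  exact ⟨Cfsg.Agent.Lib.Helper35ON3B.Gam, inferInstance, inferInstance, σ, hσ, hc⟩

theorem main : Cfsg.HasCyclicSchurMultiplier Cfsg.Agent.Lib.Helper35ONM.G 3 := by
  refine final 3 (by norm_num) stem (fun p hp h => ?_) (fun p hp h h2 => ?_)
  · rw [Cfsg.Agent.Lib.Helper35ONFin.card_eq] at h
    rcases cases_of_dvd p hp (dvd_trans (dvd_pow_self p two_ne_zero) h) with
      r | r | r | r | r | r | r <;> subst r
    · rw [Nat.factorization_eq_zero_of_not_dvd (by norm_num)]
      exact Cfsg.Agent.Lib.Helper35ONMP2.lb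
    · rw [Nat.Prime.factorization_self Nat.prime_three]
      exact Cfsg.Agent.Lib.Helper35ONMP3.lb
    · norm_num at h
    · rw [Nat.factorization_eq_zero_of_not_dvd (by norm_num)]
      exact Cfsg.Agent.Lib.Helper35ONMP7.lb
    · norm_num at h
    · norm_num at h
    · norm_num at h
  · rw [Cfsg.Agent.Lib.Helper35ONFin.card_eq] at h
    have := (Nat.prime_dvd_prime_iff_eq hp Nat.prime_three).1 h2
    subst this
    norm_num at h

/-- The Schur multiplier of the O'Nan group (the finitely presented group of the definitions) is cyclic of order 3; here the Schur multiplier is described through stem extensions, as in the definitions: surjective homomorphisms onto the group from a finite group, whose kernel is central in that finite group and contained in that finite group's commutator subgroup. -/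
theorem result : Cfsg.HasCyclicSchurMultiplier Cfsg.Spor.ON 3 := main

end Cfsg.Agent.S2052
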