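import Cfsg.Statements.S2101
import Cfsg.Agent.Lib.Helper47G23M3
import Cfsg.Agent.Lib.Helper47G23P2
import Cfsg.Agent.Lib.Helper47G23P3
import Cfsg.Agent.Lib.Helper47StemD
import Cfsg.Agent.Lib.Helper62ChevTransport
import Cfsg.Agent.Lib.Helper63PCFin

set_option autoImplicit false
open Cfsg

namespace Cfsg.Agent.S2101



open Cfsg.Agent.Lib.Helper63PCDefs Cfsg.Agent.Lib.Helper17PCMult Cfsg.Agent.Lib.Helper63PCFin
  Cfsg.Agent.Lib.Helper47G23PM Cfsg.Agent.Lib.Helper47StG2

theorem cases_of_dvd (p : ℕ) (hp : p.Prime) (h : p ∣ 4245696) :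
    p = 2 ∨ p = 3 ∨ p = 7 ∨ p = 13 := by
  have := mem_of_prime_dvd hp [2, 2, 2, 2, 2, 2, 3, 3, 3, 3, 3, 3, 7, 13]
    (by intro q hq; simp only [List.mem_cons, List.not_mem_nil, or_false] at hq
        rcases hq with h | h | h | h | h | h | h | h | h | h | h | h | h | h <;> subst h <;> norm_num)
    4245696 (by norm_num) h
  simp only [List.mem_cons, List.not_mem_nil, or_false] at this
  tauto

theorem f3 : (3 : ℕ).factorization 3 = 1 := Nat.Prime.factorization_self Nat.prime_three

theorem multSt : Cfsg.HasCyclicSchurMultiplier St 3 := by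
  have hfin : Finite St := finiteSt
  have hcard : Nat.card St = 4245696 := cardSt
  refine final 3 (by norm_num) Cfsg.Agent.Lib.Helper47G23M3.exists_cover (fun p hp h => ?_)
    (fun p hp h h2 => ?_)
  · rw [hcard] at h
    rcases cases_of_dvd p hp (dvd_trans (dvd_pow_self p two_ne_zero) h) with
      r | r | r | r <;> subst r
    · rw [Nat.factorization_eq_zero_of_not_dvd (by norm_num)]
      exact localBound_congr iso.symm 2 0 Cfsg.Agent.Lib.Helper47G23P2.lb
    · rw [f3]
      exact localBound_congr iso.symm 3 1 Cfsg.Agent.Lib.Helper47G23P3.lb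
    · norm_num at h
    · norm_num at h
  · rw [hcard] at h
    have := (Nat.prime_dvd_prime_iff_eq hp Nat.prime_three).1 h2
    subst this
    norm_num at h

/-- Exceptional Schur multiplier: over the field with 3 elements the Chevalley group of type G₂ has Schur multiplier cyclic of order 3 (here the Schur multiplier is described through stem extensions, as in the definitions). -/
theorem result {F : Type*} [Field F] [Fintype F] (hF : Fintype.card F = 3) : Cfsg.HasCyclicSchurMultiplier ↥(Cfsg.Lie.chevG2.group F) 3 := by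
  have hfin : Finite St := finiteSt
  obtain ⟨e1⟩ := isoSt
  have : Fact (Nat.Prime 3) := ⟨Nat.prime_three⟩
  let e : ZMod 3 ≃+* F := ZMod.ringEquivOfPrime F Nat.prime_three hF
  exact Cfsg.Agent.Lib.Helper47StemD.transport
    (e1.trans (Cfsg.Agent.Lib.Helper62ChevTransport.groupEquiv Cfsg.Lie.chevG2 e)) multSt

end Cfsg.Agent.S2101
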