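import Cfsg.Statements.S2105
import Cfsg.Agent.Lib.Helper23Un6
import Cfsg.Agent.Lib.Helper23EmE6
import Cfsg.Agent.S1078

set_option autoImplicit false
open Cfsg

namespace Cfsg.Agent.S2105

/-- Schur multipliers of the (adjoint, simple) Chevalley groups of type E₆: over a field with q elements the Schur multiplier is cyclic of order gcd(3, q − 1) (here the Schur multiplier is described through stem extensions, as in the definitions). -/
theorem result {F : Type*} [Field F] [Fintype F] {q : ℕ} (hF : Fintype.card F = q) : Cfsg.HasCyclicSchurMultiplier ↥(Cfsg.Lie.chevE6.group F) (Nat.gcd 3 (q - 1)) := by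
  have hD : Cfsg.Agent.Lib.Helper22ChevBasic.Std Cfsg.Lie.chevE6 := by simp [Cfsg.Agent.Lib.Helper22ChevBasic.Std]
  have hD8 : Cfsg.Agent.Lib.Helper22ChevBasic.Std Cfsg.Lie.chevE8 := by simp [Cfsg.Agent.Lib.Helper22ChevBasic.Std]
  have hp : commutator (Cfsg.Lie.chevE6.SteinbergCover F) = ⊤ :=
    Cfsg.Agent.S2395.result Cfsg.Lie.chevE6 (by simp) (fun h => by
      exfalso
      simp only [List.mem_cons, List.not_mem_nil, or_false] at h
      rcases h with h | h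
      · exact absurd (congrArg Cfsg.Lie.ChevalleyDatum.rank h) (by decide)
      · exact absurd (congrArg Cfsg.Lie.ChevalleyDatum.rank h) (by decide))
  have hc : Nat.card (Cfsg.Agent.Lib.Helper23St.scG hD F).θ.ker = Nat.gcd 3 (q - 1) := by
    rw [Cfsg.Agent.Lib.Helper23Em.card_ker_sc Cfsg.Agent.Lib.Helper22ChevTabE6.agree Cfsg.Agent.Lib.Helper23UnE6.chk
      Cfsg.Agent.Lib.Helper22ChevTabE8.agree Cfsg.Agent.Lib.Helper23UnE8.chk Cfsg.Agent.Lib.Helper23EmE6.chk hD hD8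
      (by decide) Cfsg.Agent.Lib.Helper23EmE6.hsim _ Cfsg.Agent.S1078.bE8
      Cfsg.Agent.Lib.Helper23AgrE6.U Cfsg.Agent.Lib.Helper23AgrE6.U' Cfsg.Agent.Lib.Helper23AgrE6.V
      Cfsg.Agent.Lib.Helper23AgrE6.V' Cfsg.Agent.Lib.Helper23AgrE6.d Cfsg.Agent.Lib.Helper23AgrE6.hU
      Cfsg.Agent.Lib.Helper23AgrE6.hV Cfsg.Agent.Lib.Helper23AgrE6.hS, Cfsg.Agent.Lib.Helper23AgrE6.prod_d, hF]
  obtain ⟨e⟩ := Cfsg.Agent.Lib.Helper23Em.equiv_zmod (p := 3) (by norm_num) (Nat.gcd_dvd_left 3 (q - 1)) hc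
  exact Cfsg.Agent.Lib.Helper23Un.schur_main Cfsg.Agent.Lib.Helper22ChevTabE6.agree Cfsg.Agent.Lib.Helper23UnE6.chk hD hp e

end Cfsg.Agent.S2105
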