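import Cfsg.Statements.S2106
import Cfsg.Agent.Lib.Helper23Un6
import Cfsg.Agent.Lib.Helper23EmE7
import Cfsg.Agent.S1078

set_option autoImplicit false
open Cfsg

namespace Cfsg.Agent.S2106

/-- Schur multipliers of the (adjoint, simple) Chevalley groups of type E₇: over a field with q elements the Schur multiplier is cyclic of order gcd(2, q − 1) (here the Schur multiplier is described through stem extensions, as in the definitions). -/
theorem result {F : Type*} [Field F] [Fintype F] {q : ℕ} (hF : Fintype.card F = q) : Cfsg.HasCyclicSchurMultiplier ↥(Cfsg.Lie.chevE7.group F) (Nat.gcd 2 (q - 1)) := by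
  have hD : Cfsg.Agent.Lib.Helper22ChevBasic.Std Cfsg.Lie.chevE7 := by simp [Cfsg.Agent.Lib.Helper22ChevBasic.Std]
  have hD8 : Cfsg.Agent.Lib.Helper22ChevBasic.Std Cfsg.Lie.chevE8 := by simp [Cfsg.Agent.Lib.Helper22ChevBasic.Std]
  have hp : commutator (Cfsg.Lie.chevE7.SteinbergCover F) = ⊤ :=
    Cfsg.Agent.S2395.result Cfsg.Lie.chevE7 (by simp) (fun h => by
      exfalso
      simp only [List.mem_cons, List.not_mem_nil, or_false] at h
      rcases h with h | h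
      · exact absurd (congrArg Cfsg.Lie.ChevalleyDatum.rank h) (by decide)
      · exact absurd (congrArg Cfsg.Lie.ChevalleyDatum.rank h) (by decide))
  have hc : Nat.card (Cfsg.Agent.Lib.Helper23St.scG hD F).θ.ker = Nat.gcd 2 (q - 1) := by
    rw [Cfsg.Agent.Lib.Helper23Em.card_ker_sc Cfsg.Agent.Lib.Helper22ChevTabE7.agree Cfsg.Agent.Lib.Helper23UnE7.chk
      Cfsg.Agent.Lib.Helper22ChevTabE8.agree Cfsg.Agent.Lib.Helper23UnE8.chk Cfsg.Agent.Lib.Helper23EmE7.chk hD hD8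
      (by decide) Cfsg.Agent.Lib.Helper23EmE7.hsim _ Cfsg.Agent.S1078.bE8
      Cfsg.Agent.Lib.Helper23AgrE7.U Cfsg.Agent.Lib.Helper23AgrE7.U' Cfsg.Agent.Lib.Helper23AgrE7.V
      Cfsg.Agent.Lib.Helper23AgrE7.V' Cfsg.Agent.Lib.Helper23AgrE7.d Cfsg.Agent.Lib.Helper23AgrE7.hU
      Cfsg.Agent.Lib.Helper23AgrE7.hV Cfsg.Agent.Lib.Helper23AgrE7.hS, Cfsg.Agent.Lib.Helper23AgrE7.prod_d, hF]
  obtain ⟨e⟩ := Cfsg.Agent.Lib.Helper23Em.equiv_zmod (p := 2) (by norm_num) (Nat.gcd_dvd_left 2 (q - 1)) hc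
  exact Cfsg.Agent.Lib.Helper23Un.schur_main Cfsg.Agent.Lib.Helper22ChevTabE7.agree Cfsg.Agent.Lib.Helper23UnE7.chk hD hp e

end Cfsg.Agent.S2106
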