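import Cfsg.Statements.S2111
import Cfsg.Agent.Lib.Helper8SzIso
import Cfsg.Agent.Lib.Helper8Sz6
import Cfsg.Agent.Lib.Helper8Schur

set_option autoImplicit false
open Cfsg

namespace Cfsg.Agent.S2111


open Cfsg.Agent.Lib.Helper8Sz Cfsg.Agent.Lib.Helper8Sz2 Cfsg.Agent.Lib.Helper8Sz3 Cfsg.Agent.Lib.Helper8Sz4
  Cfsg.Agent.Lib.Helper8Sz5 Cfsg.Agent.Lib.Helper8Sz6 Cfsg.Agent.Lib.Helper8SzIso Cfsg.Agent.Lib.Helper8Schur

theorem ker_eq_bot {F : Type*} [Field F] [Fintype F] {m : ℕ} (hm : 2 ≤ m)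
    (hF : Fintype.card F = 2 ^ (2 * m + 1)) {Γ : Type*} [Group Γ] [Finite Γ] (σ : Γ →* Sz F m)
    (hsurj : Function.Surjective σ) (hker : σ.ker ≤ Subgroup.center Γ)
    (hker' : σ.ker ≤ commutator Γ) : σ.ker = ⊥ := by
  classical
  have hm1 : 1 ≤ m := by omega
  have hfin : Finite (Sz F m) := Finite.of_surjective σ hsurj
  apply ker_eq_bot_of_local σ hsurj hker hker'
  intro p hp
  by_cases hp2 : p = 2
  · subst hp2
    refine ⟨Q hF hm1, index_Q hF hm1, ?_⟩
    have hc : 8 < Fintype.card F := by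
      rw [hF]
      calc 8 < 2 ^ 5 := by norm_num
        _ ≤ 2 ^ (2 * m + 1) := Nat.pow_le_pow_right (by norm_num) (by omega)
    apply inter_trivial σ hker (two_eq_zero hF) hc (Function.surjInv hsurj)
      (Function.surjInv_eq hsurj) (sg m) (sg_add hF) (sg_mul m) (T hF)
      (fun c => if h : c ≠ 0 then H hF c h else 1) (T_mul hF hm1)
    · intro b hb
      rw [← T_zero hF hm1] at hb
      exact (T_inj hF hb).2
    · intro d hd
      obtain ⟨c, rfl⟩ := (sg_bijective hF (m := m)).2 d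
      have hc0 : c ≠ 0 := by
        rintro rfl
        exact hd (sg_zero m)
      refine ⟨c, ?_⟩
      intro a b
      simp only [dif_pos hc0]
      rw [H_T_H hF hm1, sg_sg hF]
      congr 1
      ring
    · intro c c'
      by_cases h : c ≠ 0 <;> by_cases h' : c' ≠ 0
      · simp only [dif_pos h, dif_pos h']
        rw [← H_mul, ← H_mul]
        congr 1
        ring
      · simp [dif_neg h']
      · simp [dif_neg h]
      · simp [dif_neg h]
    · intro μ hμ
      exact norm_surj hF hμ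
    · intro g hg
      exact (mem_Q hF hm1).1 hg
  · have : Fact p.Prime := ⟨hp⟩
    let P : Sylow p (Sz F m) := default
    refine ⟨P, P.not_dvd_index, ?_⟩
    intro z hz _
    exact cyclic_local σ hker P (sylow_odd_cyclic hF hm1 hp2 P) z hz

/-- Schur multipliers of the Suzuki groups: for q = 2^(2m+1) with m ≥ 2 the Schur multiplier of Sz(q) is trivial (here the Schur multiplier is described through stem extensions, as in the definitions); q = 8 is exceptional. -/
theorem result {F : Type*} [Field F] [Fintype F] {m : ℕ} (hm : 2 ≤ m) (hF : Fintype.card F = 2 ^ (2 * m + 1)) : Cfsg.HasCyclicSchurMultiplier ↥(Cfsg.Lie.Sz F (2 ^ (m + 1))) 1 := by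
  have hm1 : 1 ≤ m := by omega
  let e := (szIso hF hm1).symm
  have : Finite ↥(Cfsg.Lie.Sz F (2 ^ (m + 1))) := inferInstance
  constructor
  · refine ⟨_, inferInstance, inferInstance, MonoidHom.id _, ⟨Function.surjective_id, ?_, ?_⟩, ⟨?_⟩⟩
    · rw [MonoidHom.ker_id]; exact bot_le
    · rw [MonoidHom.ker_id]; exact bot_le
    · rw [MonoidHom.ker_id]
      exact MulEquiv.ofUnique
  · intro Γ _ _ σ' hσ'
    have hk : (e.toMonoidHom.comp σ').ker = σ'.ker := by
      ext x
      rw [MonoidHom.mem_ker, MonoidHom.mem_ker]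
      show e (σ' x) = 1 ↔ _
      exact e.map_eq_one_iff
    have hbot : σ'.ker = ⊥ := by
      rw [← hk]
      apply ker_eq_bot hm hF
      · exact e.surjective.comp hσ'.1
      · rw [hk]; exact hσ'.2.1
      · rw [hk]; exact hσ'.2.2
    refine ⟨1, ?_⟩
    intro x
    refine ⟨1, ?_⟩
    have hx : (x : Γ) ∈ (⊥ : Subgroup Γ) := hbot ▸ x.2
    apply Subtype.ext
    rw [Subgroup.mem_bot] at hx
    rw [hx]; rfl

end Cfsg.Agent.S2111
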