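import Cfsg.Statements.S2112
import Cfsg.Agent.Lib.Helper34Sz8Ex
import Cfsg.Agent.Lib.H34SzBridge
import Cfsg.Agent.Lib.H34SzCard
import Cfsg.Agent.Lib.H34VHom22

set_option autoImplicit false
open Cfsg

namespace Cfsg.Agent.S2112

/-- Exceptional Schur multiplier: the Suzuki group Sz(8), built over the field with 8 elements using the map x ↦ x⁴, has Schur multiplier a four-group, the product of two cyclic groups of order 2 (here the Schur multiplier is described through stem extensions, as in the definitions). -/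
theorem result {F : Type*} [Field F] [Fintype F] (hF : Fintype.card F = 8) : Cfsg.HasSchurMultiplier ↥(Cfsg.Lie.Sz F 4) (Multiplicative (ZMod 2 × ZMod 2)) := by
  obtain ⟨ρ, ux, uy, hρ, hux, huy⟩ := Cfsg.Agent.Lib.H34SzBridge.bridge hF
  have hcard := Cfsg.Agent.Lib.H34SzCard.card_sz hF
  have hfin : Finite ↥(Cfsg.Lie.Sz F 4) :=
    Nat.finite_of_card_ne_zero (by rw [hcard]; norm_num)
  have M := Cfsg.Agent.Lib.Helper34Sz8Cert.model ρ hρ ux uy hux huy hcard
  refine Cfsg.Agent.Lib.H34VHom22.hasMult22 (fun Γ _ _ σ hσ => ?_)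
    (Cfsg.Agent.Lib.Helper34Sz8Ex.exists_stem ux uy M)
  obtain ⟨b₁, b₂, m₁, m₂, e₁, e₂, hg⟩ := Cfsg.Agent.Lib.Helper34Sz8Cert.bound ux uy M σ hσ
  exact ⟨b₁, b₂, m₁, m₂, by exact_mod_cast e₁, by exact_mod_cast e₂, hg⟩

end Cfsg.Agent.S2112
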