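import Cfsg.Statements.S2115
import Cfsg.Agent.Lib.Helper63TiColD
import Cfsg.Agent.Lib.Helper63TiCard
import Cfsg.Agent.Lib.Helper63TiP2
import Cfsg.Agent.Lib.Helper63TiP3
import Cfsg.Agent.Lib.Helper63TiP5
import Cfsg.Agent.Lib.Helper63PCFin

set_option autoImplicit false
open Cfsg

namespace Cfsg.Agent.S2115

open Cfsg.Agent.Lib.Helper63PCDefs Cfsg.Agent.Lib.Helper17PCMult Cfsg.Agent.Lib.Helper63PCFin
  Cfsg.Agent.Lib.Helper63TiM

theorem cases_of_dvd (p : ℕ) (hp : p.Prime) (h : p ∣ 17971200) :
    p = 2 ∨ p = 3 ∨ p = 5 ∨ p = 13 := by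
  have := mem_of_prime_dvd hp [2, 2, 2, 2, 2, 2, 2, 2, 2, 2, 2, 3, 3, 3, 5, 5, 13]
    (by intro q hq; simp only [List.mem_cons, List.not_mem_nil, or_false] at hq
        rcases hq with h | h | h | h | h | h | h | h | h | h | h | h | h | h | h | h | h <;>
          subst h <;> norm_num)
    17971200 (by norm_num) h
  simp only [List.mem_cons, List.not_mem_nil, or_false] at this
  tauto

/-- the order of the commutator subgroup divides half the order of `²F₄(2)` -/
theorem card_dvd : Nat.card ↥KK ∣ 17971200 := by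
  obtain ⟨j, hj⟩ := Cfsg.Agent.Lib.Helper63TiColD.even
  have h := Subgroup.card_mul_index KK
  rw [Cfsg.Agent.Lib.Helper63TiCard.cardH] at h
  have hj' : KK.index = 2 * j := hj
  rw [hj'] at h
  refine ⟨j, ?_⟩
  have h2 : Nat.card ↥KK * (2 * j) = 2 * (Nat.card ↥KK * j) := by ring
  rw [h2] at h
  omega

/-- The Tits group, the commutator subgroup of ²F₄(2), has trivial Schur multiplier (here the Schur multiplier is described through stem extensions, as in the definitions). -/
theorem result : Cfsg.HasCyclicSchurMultiplier Cfsg.Lie.TitsGroup 1 := by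
  have key : Cfsg.HasCyclicSchurMultiplier ↥KK 1 := by
    refine final_one (fun p hp h => ?_)
    have h0 := dvd_trans h card_dvd
    rcases cases_of_dvd p hp (dvd_trans (dvd_pow_self p two_ne_zero) h0) with r | r | r | r <;> subst r
    · exact Cfsg.Agent.Lib.Helper63TiP2.lb (fun h1 => by have := dvd_trans h1 card_dvd; norm_num at this)
    · exact Cfsg.Agent.Lib.Helper63TiP3.lb (fun h1 => by have := dvd_trans h1 card_dvd; norm_num at this)
    · exact Cfsg.Agent.Lib.Helper63TiP5.lb (fun h1 => by have := dvd_trans h1 card_dvd; norm_num at this)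
    · norm_num at h0
  exact key

end Cfsg.Agent.S2115
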