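import Cfsg.Statements.S3963
import Cfsg.Agent.Lib.Helper69Dih
import Cfsg.Agent.Lib.Helper69Schur

set_option autoImplicit false
open Cfsg

namespace Cfsg.Agent.S3963

open Cfsg.Agent.Lib.Helper69Dih Cfsg.Agent.Lib.Helper69Schur

theorem a_one_zpow (n : ℕ) (k : ℤ) : (QuaternionGroup.a 1 : QuaternionGroup n) ^ k = QuaternionGroup.a k := by
  have hinv : ∀ i : ZMod (2 * n), (QuaternionGroup.a i : QuaternionGroup n)⁻¹ = QuaternionGroup.a (-i) :=
    fun i => rfl
  cases k with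
  | ofNat m => simp
  | negSucc m =>
    rw [zpow_negSucc, QuaternionGroup.a_one_pow, hinv]
    congr 1
    simp [Int.negSucc_eq]

/-- For every `n ≥ 1` the dicyclic (generalized quaternion) group of order `4 n` has trivial Schur multiplier. -/
theorem result (n : ℕ) [NeZero n] : Cfsg.HasCyclicSchurMultiplier (QuaternionGroup n) 1 := by
  rw [hasTrivialMultiplier_iff]
  intro Γ _ _ σ hσ
  obtain ⟨x, hx⟩ := hσ.1 (QuaternionGroup.a 1)
  obtain ⟨y, hy⟩ := hσ.1 (QuaternionGroup.xa 0)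
  have hinvxa : (QuaternionGroup.xa 0 : QuaternionGroup n)⁻¹ = QuaternionGroup.xa (n + 0) := rfl
  have hinva : ∀ i : ZMod (2 * n), (QuaternionGroup.a i : QuaternionGroup n)⁻¹ = QuaternionGroup.a (-i) :=
    fun i => rfl
  have h2n : ((n : ℕ) : ZMod (2 * n)) + ((n : ℕ) : ZMod (2 * n)) = 0 := by
    rw [← Nat.cast_add, ZMod.natCast_eq_zero_iff]
    exact ⟨1, by ring⟩
  obtain ⟨c, h1, h2, h3⟩ := dihedral_type σ hσ x y (by
      intro g
      rw [hx, hy]
      rcases σ g with i | i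
      · obtain ⟨a, rfl⟩ := ZMod.intCast_surjective i
        exact ⟨a, 0, by simp [a_one_zpow]⟩
      · obtain ⟨a, rfl⟩ := ZMod.intCast_surjective i
        exact ⟨-a, 1, by simp [a_one_zpow, hinva]⟩)
    (by
      rw [hx, hy, hinvxa, hinva]
      simp only [QuaternionGroup.xa_mul_a, QuaternionGroup.xa_mul_xa]
      congr 1
      linear_combination h2n) n (by
      have : (y ^ 2)⁻¹ * x ^ n ∈ σ.ker := by
        rw [MonoidHom.mem_ker, map_mul, map_inv, map_pow, map_pow, hx, hy]; simp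
      have hc := Subgroup.mem_center_iff.1 (hσ.2.1 this) y
      have hx' : x ^ n = y ^ 2 * ((y ^ 2)⁻¹ * x ^ n) := by group
      rw [hx']
      exact ((Commute.refl y).pow_left 2).mul_left hc.symm)
  rw [eq_bot_iff]
  intro k hk
  obtain ⟨i, rfl⟩ := Subgroup.mem_zpowers_iff.1 (h3 k hk)
  rw [MonoidHom.mem_ker, map_zpow, h2, hx, ← zpow_natCast, ← zpow_mul, a_one_zpow,
    QuaternionGroup.one_def] at hk
  injection hk with hk
  rw [ZMod.intCast_zmod_eq_zero_iff_dvd] at hk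
  push_cast at hk
  have h5 : (n : ℤ) ∣ i := (mul_dvd_mul_iff_left (by norm_num : (2 : ℤ) ≠ 0)).1 hk
  obtain ⟨j, rfl⟩ := h5
  rw [Subgroup.mem_bot, zpow_mul, zpow_natCast, h1, one_zpow]

end Cfsg.Agent.S3963
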