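import Cfsg.Statements.S2117
-- import your own Cfsg.Agent.* helpers here
import Cfsg.Agent.Lib.Helper69Syl
import Cfsg.Agent.Lib.Helper69Mult
import Cfsg.Agent.Lib.Helper69SqForm
import Cfsg.Agent.Lib.Helper8Schur
import Cfsg.Agent.Lib.Helper7SL
import Cfsg.Agent.S0261
import Cfsg.Agent.S0262
import Cfsg.Agent.S3963

set_option autoImplicit false
open Cfsg

namespace Cfsg.Agent.S2117

open Cfsg.Agent.Lib.Helper69Syl Cfsg.Agent.Lib.Helper69Mult Cfsg.Agent.Lib.Helper69SqForm
  Cfsg.Agent.Lib.Helper8Schur Matrix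
open scoped commutatorElement IsMulCommutative

section mat

variable {F : Type*} [Field F]

def uu (x : F) : SpecialLinearGroup (Fin 2) F := ⟨!![1, x; 0, 1], by simp [Matrix.det_fin_two]⟩

def hh (t : F) (ht : t ≠ 0) : SpecialLinearGroup (Fin 2) F :=
  ⟨!![t, 0; 0, t⁻¹], by simp [Matrix.det_fin_two, ht]⟩

theorem uu_add (x y : F) : uu (x + y) = uu x * uu y := by
  apply Subtype.ext
  change (!![1, x + y; 0, 1] : Matrix (Fin 2) (Fin 2) F) = !![1, x; 0, 1] * !![1, y; 0, 1]
  rw [Matrix.mul_fin_two]
  simp [add_comm]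

theorem hh_uu (t : F) (ht : t ≠ 0) (x : F) : hh t ht * uu x = uu (t ^ 2 * x) * hh t ht := by
  apply Subtype.ext
  change (!![t, 0; 0, t⁻¹] : Matrix (Fin 2) (Fin 2) F) * !![1, x; 0, 1] =
    !![1, t ^ 2 * x; 0, 1] * !![t, 0; 0, t⁻¹]
  rw [Matrix.mul_fin_two, Matrix.mul_fin_two]
  congr 1
  simp
  field_simp

theorem uu_injective : Function.Injective (uu : F → SpecialLinearGroup (Fin 2) F) := by
  intro x y h
  have := congrArg (fun A : SpecialLinearGroup (Fin 2) F => A.1 0 1) h
  simpa [uu] using this

def uuHom : Multiplicative F →* SpecialLinearGroup (Fin 2) F :=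
  MonoidHom.mk' (fun x => uu x.toAdd) (fun _ _ => uu_add _ _)

theorem uu_comm (x y : F) : uu x * uu y = uu y * uu x := by
  rw [← uu_add, ← uu_add, add_comm]

theorem index_range [Fintype F] :
    (uuHom : Multiplicative F →* SpecialLinearGroup (Fin 2) F).range.index = Fintype.card F ^ 2 - 1 := by
  have hinj : Function.Injective (uuHom : Multiplicative F →* SpecialLinearGroup (Fin 2) F) :=
    fun x y h => Multiplicative.toAdd.injective (uu_injective h)
  have h1 : Nat.card (uuHom : Multiplicative F →* SpecialLinearGroup (Fin 2) F).range = Fintype.card F := by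
    rw [← Nat.card_congr (MonoidHom.ofInjective hinj).toEquiv, Nat.card_eq_fintype_card,
      Fintype.card_multiplicative]
  have h2 := (uuHom : Multiplicative F →* SpecialLinearGroup (Fin 2) F).range.card_mul_index
  rw [h1, Cfsg.Agent.Lib.Helper7SL.card_SL_two] at h2
  exact Nat.eq_of_mul_eq_mul_left Fintype.card_pos h2

end mat

section pairing

variable {F : Type*} [Field F] {Γ : Type*} [Group Γ]
  (σ : Γ →* SpecialLinearGroup (Fin 2) F) (hsurj : Function.Surjective σ)
  (hker : σ.ker ≤ Subgroup.center Γ)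

/-- the commutator pairing on the root subgroup -/
noncomputable def cc (x y : F) : Γ :=
  ⁅Function.surjInv hsurj (uu x), Function.surjInv hsurj (uu y)⁆

theorem map_cc (x y : F) : σ (cc σ hsurj x y) = 1 := by
  rw [cc, map_commutatorElement, Function.surjInv_eq hsurj, Function.surjInv_eq hsurj,
    commutatorElement_eq_one_iff_mul_comm, uu_comm]

include hker

theorem cc_mem_center (x y : F) : cc σ hsurj x y ∈ Subgroup.center Γ :=
  hker (map_cc σ hsurj x y)

theorem cc_eq {X Y : Γ} {x y : F} (hX : σ X = uu x) (hY : σ Y = uu y) :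
    ⁅X, Y⁆ = cc σ hsurj x y :=
  comm_congr σ hker (by rw [hX, Function.surjInv_eq hsurj]) (by rw [hY, Function.surjInv_eq hsurj])

theorem cc_add_left (x x' y : F) :
    cc σ hsurj (x + x') y = cc σ hsurj x y * cc σ hsurj x' y := by
  have h1 : ⁅Function.surjInv hsurj (uu x') * Function.surjInv hsurj (uu x),
      Function.surjInv hsurj (uu y)⁆ = cc σ hsurj (x + x') y :=
    cc_eq σ hsurj hker (by rw [map_mul, Function.surjInv_eq hsurj, Function.surjInv_eq hsurj, ← uu_add, add_comm])
      (Function.surjInv_eq hsurj _)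
  rw [← h1, comm_mul_left]
  · rfl
  · exact central_of_map_eq_one σ hker (map_cc σ hsurj x y) _

theorem cc_add_right (x y y' : F) :
    cc σ hsurj x (y + y') = cc σ hsurj x y * cc σ hsurj x y' := by
  have h1 : ⁅Function.surjInv hsurj (uu x),
      Function.surjInv hsurj (uu y) * Function.surjInv hsurj (uu y')⁆ = cc σ hsurj x (y + y') :=
    cc_eq σ hsurj hker (Function.surjInv_eq hsurj _)
      (by rw [map_mul, Function.surjInv_eq hsurj, Function.surjInv_eq hsurj, ← uu_add])
  rw [← h1, comm_mul_right]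
  · rfl
  · exact central_of_map_eq_one σ hker (map_cc σ hsurj x y') _

theorem cc_inv (t : F) (ht : t ≠ 0) (x y : F) :
    cc σ hsurj (t ^ 2 * x) (t ^ 2 * y) = cc σ hsurj x y := by
  obtain ⟨H, hH⟩ := hsurj (hh t ht)
  have h1 := conj_central σ hker (map_cc σ hsurj x y) H
  rw [← h1]
  unfold cc
  rw [← comm_conj]
  symm
  apply cc_eq σ hsurj hker
  · rw [map_mul, map_mul, Function.surjInv_eq hsurj, hH, hh_uu, map_inv, hH, mul_inv_cancel_right]
  · rw [map_mul, map_mul, Function.surjInv_eq hsurj, hH, hh_uu, map_inv, hH, mul_inv_cancel_right]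

/-- the pairing as a biadditive map -/
noncomputable def bb : F →+ F →+ Additive (Subgroup.center Γ) :=
  AddMonoidHom.mk' (fun x => AddMonoidHom.mk'
    (fun y => Additive.ofMul ⟨cc σ hsurj x y, cc_mem_center σ hsurj hker x y⟩)
    (fun y y' => by
      apply Additive.toMul.injective
      apply Subtype.ext
      exact cc_add_right σ hsurj hker x y y'))
    (fun x x' => by
      apply AddMonoidHom.ext
      intro y
      apply Additive.toMul.injective
      apply Subtype.ext
      exact cc_add_left σ hsurj hker x x' y)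

theorem bb_apply (x y : F) : bb σ hsurj hker x y =
    Additive.ofMul ⟨cc σ hsurj x y, cc_mem_center σ hsurj hker x y⟩ := rfl

theorem cc_eq_one [Fintype F] (p : ℕ) [Fact p.Prime] [CharP F p] (h4 : Fintype.card F ≠ 4)
    (h9 : Fintype.card F ≠ 9) (hqp : Fintype.card F ≠ p) (hcard : Nat.card σ.ker = p) (x y : F) :
    cc σ hsurj x y = 1 := by
  have h := beta_zero p h4 h9 hqp (bb σ hsurj hker) ?_ ?_ x y
  · rw [bb_apply] at h
    have h1 := congrArg (fun a => ((Additive.toMul a : Subgroup.center Γ) : Γ)) h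
    simpa using h1
  · intro x y
    rw [bb_apply]
    apply Additive.toMul.injective
    apply Subtype.ext
    change (cc σ hsurj x y) ^ p = 1
    have h2 : (⟨cc σ hsurj x y, map_cc σ hsurj x y⟩ : σ.ker) ^ p = 1 := by
      rw [← hcard]; exact pow_card_eq_one'
    exact congrArg Subtype.val h2
  · intro t x y ht
    rw [bb_apply, bb_apply]
    congr 2
    exact cc_inv σ hsurj hker t ht x y

end pairing

/-- For a finite field with q elements, q ≠ 4 and q ≠ 9, the special linear group SL₂ has trivial Schur multiplier (here the Schur multiplier is described through stem extensions, as in the definitions). -/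
theorem result {F : Type*} [Field F] [Fintype F] (h4 : Fintype.card F ≠ 4) (h9 : Fintype.card F ≠ 9) : Cfsg.HasCyclicSchurMultiplier (Matrix.SpecialLinearGroup (Fin 2) F) 1 := by
  obtain ⟨p, hchar⟩ := CharP.exists F
  have hpp : Fact p.Prime := ⟨CharP.char_is_prime F p⟩
  have hfin : Finite (SpecialLinearGroup (Fin 2) F) := inferInstance
  obtain ⟨n, -, hn⟩ := FiniteField.card F p
  apply trivial_of_prime
  intro r hr Γ _ _ σ hσ hcard
  obtain ⟨A, _, hfA, hA⟩ := exists_mult (SpecialLinearGroup (Fin 2) F)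
  have hdvd : r ∣ Nat.card A := hcard ▸ card_ker_dvd hA σ hσ.1 hσ.2.1 hσ.2.2
  have hfr : Fact r.Prime := ⟨hr⟩
  by_cases hrp : r = p
  · subst hrp
    by_cases hqp : Fintype.card F = r
    · -- the Sylow subgroup has prime order
      apply not_dvd_of_not_sq_dvd hA hr _ hdvd
      rw [Cfsg.Agent.Lib.Helper7SL.card_SL_two, hqp, pow_two]
      intro hd
      have h1 : r ∣ r * r - 1 := Nat.dvd_of_mul_dvd_mul_left hr.pos hd
      have h2 : r ∣ r * r := Dvd.intro _ rfl
      have h3 : r ∣ 1 := by
        have := (Nat.dvd_sub h2 h1)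
        have h5 : r * r - (r * r - 1) = 1 := by
          have : 1 ≤ r * r := Nat.mul_pos hr.pos hr.pos
          omega
        rwa [h5] at this
      exact hr.one_lt.ne' (Nat.dvd_one.1 h3)
    · refine abelian_case σ hσ.2.1 hσ.2.2 hr hcard {X | σ X ∈ (uuHom : Multiplicative F →* _).range}
        ?_ (uuHom : Multiplicative F →* _).range ?_ ?_
      · rintro X ⟨x, hx⟩ Y ⟨y, hy⟩
        rw [← commutatorElement_eq_one_iff_mul_comm,
          cc_eq σ hσ.1 hσ.2.1 (x := x.toAdd) (y := y.toAdd) hx.symm hy.symm]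
        exact cc_eq_one σ hσ.1 hσ.2.1 r h4 h9 hqp hcard _ _
      · intro g hg
        obtain ⟨X, rfl⟩ := hσ.1 g
        exact ⟨X, Subgroup.subset_closure hg, rfl⟩
      · rw [MonoidHom.range_eq_top.2 hσ.1, Subgroup.relIndex_top_right, index_range, hn]
        intro hd
        have h2 : r ∣ (r ^ (n : ℕ)) ^ 2 := by
          rw [← pow_mul]
          exact dvd_pow_self r (by have := n.pos; positivity)
        have h3 : r ∣ 1 := by
          have := (Nat.dvd_sub h2 hd)
          have h5 : (r ^ (n : ℕ)) ^ 2 - ((r ^ (n : ℕ)) ^ 2 - 1) = 1 := by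
            have : 1 ≤ (r ^ (n : ℕ)) ^ 2 := Nat.one_le_pow _ _ (Nat.pow_pos hr.pos)
            omega
          rwa [h5] at this
        exact hr.one_lt.ne' (Nat.dvd_one.1 h3)
  · by_cases h2 : r = 2
    · subst h2
      have hodd : Odd (Fintype.card F) := by
        rw [hn]
        apply Odd.pow
        exact hpp.out.odd_of_ne_two (Ne.symm hrp)
      let P : Sylow 2 (SpecialLinearGroup (Fin 2) F) := default
      obtain ⟨k, hk, ⟨e⟩⟩ := Cfsg.Agent.S0261.result hodd P
      have hB : HasSchurMultiplier (P : Subgroup (SpecialLinearGroup (Fin 2) F))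
          (Multiplicative (ZMod 1)) :=
        hasSchurMultiplier_of_mulEquiv e.symm (Cfsg.Agent.S3963.result (2 ^ k))
      have := pow_dvd_of_index (P : Subgroup (SpecialLinearGroup (Fin 2) F)) hA hB Nat.prime_two
        P.not_dvd_index (k := 1) (by simpa using hdvd)
      have h5 : Nat.card (Multiplicative (ZMod 1)) = 1 := Nat.card_unique
      rw [h5] at this
      revert this
      decide
    · let R : Sylow r (SpecialLinearGroup (Fin 2) F) := default
      have hcyc := Cfsg.Agent.S0262.result p r h2 hrp R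
      exact not_dvd_of_cyclic (R : Subgroup (SpecialLinearGroup (Fin 2) F)) hA hr R.not_dvd_index hdvd

end Cfsg.Agent.S2117
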