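import Cfsg.Statements.S2121

import Cfsg.Agent.Lib.LeadAutOut
import Cfsg.Agent.S1099
set_option autoImplicit false
open Cfsg

namespace Cfsg.Agent.S2121

open Cfsg.Lie Cfsg.Lie.ChevalleyDatum
open Cfsg.Agent.Lib.Helper23Grp Cfsg.Agent.Lib.Helper23RG Cfsg.Agent.Lib.Helper23RG.RG
  Cfsg.Agent.Lib.Helper23Weyl Cfsg.Agent.Lib.LeadAutDefs Cfsg.Agent.Lib.LeadAutMain
  Cfsg.Agent.Lib.Helper23Table Cfsg.Agent.Lib.Helper23Chev Cfsg.Agent.Lib.LeadAutConc Cfsg.Agent.Lib.LeadAutChev
  Cfsg.Agent.Lib.LeadAutOut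
open scoped MatrixGroups Matrix

def sw : Equiv.Perm (Fin chevG2.rank) := (Equiv.swap (0 : Fin 2) (1 : Fin 2) : Equiv.Perm (Fin 2))

theorem perm_two' (ρ : Equiv.Perm (Fin 2)) : ρ = 1 ∨ ρ = Equiv.swap 0 1 := by
  revert ρ; decide

theorem perm_two (ρ : Equiv.Perm (Fin chevG2.rank)) : ρ = 1 ∨ ρ = sw := perm_two' ρ

theorem graph_three {F : Type*} [Field F] [Fintype F] [CharP F 3] (hT : TableOK chevG2) (hR : Rel chevG2 F) :
    ∃ g : ↥(chevG2.group F) ≃* ↥(chevG2.group F),
      Acts (SG hT hR) g sw (fun i t => t ^ chevG2.graphExp (ringChar F) i (sw i)) := by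
  have hperf : ∀ x : F, ∃ y : F, y ^ 3 = x := by
    intro x
    have : Fact (Nat.Prime 3) := ⟨by norm_num⟩
    obtain ⟨y, hy⟩ := (frobeniusEquiv F 3).surjective x
    exact ⟨y, by simpa [frobeniusEquiv_apply, frobenius_def] using hy⟩
  obtain ⟨α, hα⟩ := Cfsg.Agent.S1099.result (K := F) hperf
  refine ⟨α, acts_of_graph hT hR α _ ?_⟩
  have hc : ringChar F = 3 := ringChar.eq F 3
  intro g' i t
  rw [hc]
  obtain ⟨h1, h2, h3, h4⟩ := hα g' t
  obtain ⟨i, hi⟩ := i
  have hi2 : i < 2 := hi
  interval_cases i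
  · refine ⟨fun h => ?_, fun h => ?_⟩
    · exact h1 h
    · exact h3 h
  · refine ⟨fun h => ?_, fun h => ?_⟩
    · have := h2 h
      rw [this]
      show _ = chevG2.x F g2a (t ^ 1)
      rw [pow_one]
    · have := h4 h
      rw [this]
      show _ = chevG2.x F g2ma (t ^ 1)
      rw [pow_one]

/-- Outer automorphisms of the Chevalley groups of type G₂: over a field with q = p^f (p prime) ≥ 3 elements, the outer automorphism group of G₂(q) has order f when p ≠ 3 and 2f when p = 3 (field automorphisms, and in characteristic 3 also the exceptional graph automorphism). -/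
theorem result {F : Type*} [Field F] [Fintype F] (p f : ℕ) [Fact p.Prime] [CharP F p] (hF : Fintype.card F = p ^ f) (hq : 3 ≤ p ^ f) : Nat.card (Cfsg.Out ↥(Cfsg.Lie.chevG2.group F)) = (if p = 3 then 2 * f else f) := by
  have hD : chevG2 ∈ [chevG2, chevB2, chevD4, chevF4, chevE6, chevE7, chevE8] := by simp
  have hT := Cfsg.Agent.Lib.Helper23All.tab hD
  have hR : Rel chevG2 F := Cfsg.Agent.Lib.Helper23All.rel hD
  have h2 : chevG2 = chevG2 ∨ chevG2 = chevB2 → ∃ a : F, a ≠ 0 ∧ a ≠ 1 := by
    intro _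
    classical
    by_contra hcon
    push Not at hcon
    have hle : Fintype.card F ≤ 2 := by
      have : (Finset.univ : Finset F) ⊆ {0, 1} := by
        intro a _
        by_cases ha : a = 0
        · simp [ha]
        · simp [hcon a ha]
      calc Fintype.card F = (Finset.univ : Finset F).card := rfl
        _ ≤ ({0, 1} : Finset F).card := Finset.card_le_card this
        _ ≤ 2 := Finset.card_le_two
    omega
  have hd := Cfsg.Agent.S1035.result hF (chevG2, 1) (by simp)
  by_cases hp3 : p = 3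
  · subst hp3
    have := card_out_chev 3 f hF hD h2 hT hR Finset.univ
      (fun θ ρ f hA => Finset.mem_univ _)
      (fun ρ _ => by
        rcases perm_two ρ with rfl | rfl
        · exact ⟨_, acts_refl hT hR⟩
        · exact graph_three hT hR)
      1 hd
    rw [this, if_pos rfl]
    have hc : (Finset.univ : Finset (Equiv.Perm (Fin chevG2.rank))).card = 2 := by decide
    rw [hc]
  · have := card_out_chev p f hF hD h2 hT hR {1}
      (fun θ ρ f hA => by
        rw [Finset.mem_singleton]
        by_contra hne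
        have h3 : (3 : F) = 0 := g2_swap hT hR (adata hD hT hR).ok θ ρ f hA hne
        have h3' : ((3 : ℕ) : F) = 0 := by exact_mod_cast h3
        rw [CharP.cast_eq_zero_iff F p 3] at h3'
        exact hp3 ((Nat.prime_dvd_prime_iff_eq Fact.out (by norm_num)).mp h3'))
      (fun ρ hρ => by
        rw [Finset.mem_singleton] at hρ; subst hρ; exact ⟨_, acts_refl hT hR⟩)
      1 hd
    rw [this, if_neg hp3]
    simp

end Cfsg.Agent.S2121
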