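import Cfsg.Statements.S2122

import Cfsg.Agent.Lib.LeadAutOut
import Cfsg.Agent.Lib.LeadF4Graph
set_option autoImplicit false
open Cfsg

namespace Cfsg.Agent.S2122

open Cfsg.Lie Cfsg.Lie.ChevalleyDatum
open Cfsg.Agent.Lib.Helper23Grp Cfsg.Agent.Lib.Helper23RG Cfsg.Agent.Lib.Helper23RG.RG
  Cfsg.Agent.Lib.Helper23Weyl Cfsg.Agent.Lib.LeadAutDefs Cfsg.Agent.Lib.LeadAutMain
  Cfsg.Agent.Lib.Helper23Table Cfsg.Agent.Lib.Helper23Chev Cfsg.Agent.Lib.LeadAutConc Cfsg.Agent.Lib.LeadAutChev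
  Cfsg.Agent.Lib.LeadAutOut
open scoped MatrixGroups Matrix

def rv : Equiv.Perm (Fin chevF4.rank) := (Fin.revPerm : Equiv.Perm (Fin 4))

theorem rv_ne : rv ≠ 1 := by
  intro h
  have := congrArg (fun e : Equiv.Perm (Fin 4) => e 0) h
  revert this
  decide

theorem sym_four (ρ : Equiv.Perm (Fin chevF4.rank)) (h : chevF4.IsDiagramSymmetry ρ) : ρ = 1 ∨ ρ = rv := by
  have key : ∀ ρ : Equiv.Perm (Fin 4),
      (∀ i j : Fin 4, i ≠ j → chevF4.bonds (ρ i) (ρ j) = chevF4.bonds i j) → ρ = 1 ∨ ρ = Fin.revPerm := by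
    decide +kernel
  exact key ρ h

set_option maxRecDepth 100000 in
theorem tabF4 : ∀ i : Fin chevF4.rank,
    Cfsg.Agent.Lib.Helper22ChevGr.gW Cfsg.Agent.Lib.Helper22Iso.pF4 (chevF4.simple i) = chevF4.simple (rv i) ∧
    Cfsg.Agent.Lib.Helper22Iso.lam Cfsg.Agent.Lib.Helper22Iso.pF4 (chevF4.simple i) = chevF4.graphExp 2 i (rv i) ∧
    Cfsg.Agent.Lib.Helper22ChevGr.gW Cfsg.Agent.Lib.Helper22Iso.pF4 (chevF4.neg (chevF4.simple i)) =
      chevF4.neg (chevF4.simple (rv i)) ∧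
    Cfsg.Agent.Lib.Helper22Iso.lam Cfsg.Agent.Lib.Helper22Iso.pF4 (chevF4.neg (chevF4.simple i)) =
      chevF4.graphExp 2 i (rv i) ∧
    chevF4.simple i < chevF4.nroots ∧ chevF4.neg (chevF4.simple i) < chevF4.nroots := by
  have key : ∀ i : Fin 4,
    Cfsg.Agent.Lib.Helper22ChevGr.gW Cfsg.Agent.Lib.Helper22Iso.pF4 (chevF4.simple i) =
      chevF4.simple ((Fin.revPerm : Equiv.Perm (Fin 4)) i) ∧
    Cfsg.Agent.Lib.Helper22Iso.lam Cfsg.Agent.Lib.Helper22Iso.pF4 (chevF4.simple i) =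
      chevF4.graphExp 2 i ((Fin.revPerm : Equiv.Perm (Fin 4)) i) ∧
    Cfsg.Agent.Lib.Helper22ChevGr.gW Cfsg.Agent.Lib.Helper22Iso.pF4 (chevF4.neg (chevF4.simple i)) =
      chevF4.neg (chevF4.simple ((Fin.revPerm : Equiv.Perm (Fin 4)) i)) ∧
    Cfsg.Agent.Lib.Helper22Iso.lam Cfsg.Agent.Lib.Helper22Iso.pF4 (chevF4.neg (chevF4.simple i)) =
      chevF4.graphExp 2 i ((Fin.revPerm : Equiv.Perm (Fin 4)) i) ∧
    chevF4.simple i < chevF4.nroots ∧ chevF4.neg (chevF4.simple i) < chevF4.nroots := by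
    decide +kernel
  exact key

theorem graph_two {F : Type*} [Field F] [Fintype F] [CharP F 2] (hT : TableOK chevF4) (hR : Rel chevF4 F) :
    ∃ g : ↥(chevF4.group F) ≃* ↥(chevF4.group F),
      Acts (SG hT hR) g rv (fun i t => t ^ chevF4.graphExp (ringChar F) i (rv i)) := by
  have hperf : ∀ x : F, ∃ y : F, y ^ 2 = x := by
    intro x
    have : Fact (Nat.Prime 2) := ⟨by norm_num⟩
    obtain ⟨y, hy⟩ := (frobeniusEquiv F 2).surjective x
    exact ⟨y, by simpa [frobeniusEquiv_apply, frobenius_def] using hy⟩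
  have h20 : (2 : F) = 0 := by
    have := CharP.cast_eq_zero F 2
    exact_mod_cast this
  obtain ⟨α, hα⟩ := Cfsg.Agent.Lib.LeadF4Graph.graphF4 (K := F) h20 hperf
  refine ⟨α, acts_of_graph hT hR α _ ?_⟩
  have hc : ringChar F = 2 := ringChar.eq F 2
  intro g' i t
  rw [hc]
  obtain ⟨h1, h2, h3, h4, h5, h6⟩ := tabF4 i
  have a1 := hα g' (chevF4.simple i) t h5
  have a2 := hα g' (chevF4.neg (chevF4.simple i)) t h6
  rw [h1, h2] at a1
  rw [h3, h4] at a2
  exact ⟨a1, a2⟩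

/-- Outer automorphisms of the Chevalley groups of type F₄: over a field with q = p^f (p prime) elements, the outer automorphism group of F₄(q) has order gcd(2, p) · f (field automorphisms, and in characteristic 2 also the exceptional graph automorphism). -/
theorem result {F : Type*} [Field F] [Fintype F] (p f : ℕ) [Fact p.Prime] [CharP F p] (hF : Fintype.card F = p ^ f) : Nat.card (Cfsg.Out ↥(Cfsg.Lie.chevF4.group F)) = Nat.gcd 2 p * f := by
  have hD : chevF4 ∈ [chevG2, chevB2, chevD4, chevF4, chevE6, chevE7, chevE8] := by simp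
  have hT := Cfsg.Agent.Lib.Helper23All.tab hD
  have hR : Rel chevF4 F := Cfsg.Agent.Lib.Helper23All.rel hD
  have h2 : chevF4 = chevG2 ∨ chevF4 = chevB2 → ∃ a : F, a ≠ 0 ∧ a ≠ 1 := by
    intro h
    rcases h with h | h <;> exact absurd (congrArg ChevalleyDatum.rank h) (by decide)
  have hd := Cfsg.Agent.S1035.result hF (chevF4, 1) (by simp)
  by_cases hp2 : p = 2
  · subst hp2
    have := card_out_chev 2 f hF hD h2 hT hR {1, rv}
      (fun θ ρ f hA => by
        rcases sym_four ρ (acts_diag_sym hD hT hR hA) with rfl | rfl <;> simp)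
      (fun ρ hρ => by
        rw [Finset.mem_insert, Finset.mem_singleton] at hρ
        rcases hρ with rfl | rfl
        · exact ⟨_, acts_refl hT hR⟩
        · exact graph_two hT hR)
      1 hd
    rw [this, Finset.card_pair (Ne.symm rv_ne)]
    simp
  · have := card_out_chev p f hF hD h2 hT hR {1}
      (fun θ ρ f hA => by
        rw [Finset.mem_singleton]
        by_contra hne
        obtain ⟨σ, hσ⟩ := acts_rel hD hT hR hA
        have h3 : (2 : F) = 0 := f4_char ρ (acts_diag_sym hD hT hR hA) σ hσ hne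
        have h3' : ((2 : ℕ) : F) = 0 := by exact_mod_cast h3
        rw [CharP.cast_eq_zero_iff F p 2] at h3'
        exact hp2 ((Nat.prime_dvd_prime_iff_eq Fact.out (by norm_num)).mp h3'))
      (fun ρ hρ => by
        rw [Finset.mem_singleton] at hρ; subst hρ; exact ⟨_, acts_refl hT hR⟩)
      1 hd
    rw [this]
    have hg : Nat.gcd 2 p = 1 := by
      rw [← Nat.coprime_iff_gcd_eq_one]
      exact (Nat.coprime_primes (by norm_num) Fact.out).mpr (Ne.symm hp2)
    rw [hg]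
    simp

end Cfsg.Agent.S2122
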