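import Cfsg.Statements.S2123
import Cfsg.Agent.Lib.LeadAutOut

set_option autoImplicit false
open Cfsg

namespace Cfsg.Agent.S2123

theorem graphExp_E6 (c : ℕ) : ∀ i j : Fin 6, Cfsg.Lie.chevE6.graphExp c i j = 1 := by
  intro i j
  have h : ∀ j : Fin 6, Cfsg.Lie.chevE6.isLong (Cfsg.Lie.chevE6.simple j) = false := by decide +kernel
  unfold Cfsg.Lie.ChevalleyDatum.graphExp
  rw [h j]
  simp

open Cfsg.Lie Cfsg.Lie.ChevalleyDatum Cfsg.Agent.Lib.LeadAutOut Cfsg.Agent.Lib.Helper23Table
  Cfsg.Agent.Lib.Helper23Chev in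
/-- Outer automorphisms of the (adjoint, simple) Chevalley groups of type E₆: over a field with q = p^f (p prime) elements, the outer automorphism group of E₆(q) has order 2 · gcd(3, q − 1) · f (diagonal, field and graph automorphisms). -/
theorem result {F : Type*} [Field F] [Fintype F] (p f : ℕ) [Fact p.Prime] [CharP F p] (hF : Fintype.card F = p ^ f) : Nat.card (Cfsg.Out ↥(Cfsg.Lie.chevE6.group F)) = 2 * Nat.gcd 3 (p ^ f - 1) * f := by
  have hD : chevE6 ∈ [chevG2, chevB2, chevD4, chevF4, chevE6, chevE7, chevE8] := by simp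
  have hT := Cfsg.Agent.Lib.Helper23All.tab hD
  have hR : Rel chevE6 F := Cfsg.Agent.Lib.Helper23All.rel hD
  obtain ⟨ρ6, hne, hsym, g, hg⟩ := graph_E6 hT hR
  have := card_out_chev p f hF hD (by
      intro h
      rcases h with h | h <;> exact absurd (congrArg ChevalleyDatum.rank h) (by decide)) hT hR {1, ρ6}
    (fun θ ρ f hA => by
      rw [Finset.mem_insert, Finset.mem_singleton]; exact hsym ρ (acts_diag_sym hD hT hR hA))
    (fun ρ hρ => by
      rw [Finset.mem_insert, Finset.mem_singleton] at hρ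
      rcases hρ with rfl | rfl
      · exact ⟨_, acts_refl hT hR⟩
      · refine ⟨g, ?_⟩
        have e : (fun (i : Fin chevE6.rank) (t : F) => t ^ chevE6.graphExp (ringChar F) i (ρ i)) = fun _ t => t := by
          funext i t
          rw [graphExp_E6 (ringChar F) i (ρ i), pow_one]
        rw [e]; exact hg)
    (Nat.gcd 3 (p ^ f - 1)) (Cfsg.Agent.S1035.result hF (chevE6, Nat.gcd 3 (p ^ f - 1)) (by simp))
  rw [this, Finset.card_pair (Ne.symm hne)]

end Cfsg.Agent.S2123
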