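import Cfsg.Statements.S2124
import Cfsg.Agent.Lib.LeadAutOut

set_option autoImplicit false
open Cfsg

namespace Cfsg.Agent.S2124

open Cfsg.Lie Cfsg.Lie.ChevalleyDatum Cfsg.Agent.Lib.LeadAutOut Cfsg.Agent.Lib.Helper23Table
  Cfsg.Agent.Lib.Helper23Chev in
/-- Outer automorphisms of the (adjoint, simple) Chevalley groups of type E₇: over a field with q = p^f (p prime) elements, the outer automorphism group of E₇(q) has order gcd(2, q − 1) · f (diagonal and field automorphisms). -/
theorem result {F : Type*} [Field F] [Fintype F] (p f : ℕ) [Fact p.Prime] [CharP F p] (hF : Fintype.card F = p ^ f) : Nat.card (Cfsg.Out ↥(Cfsg.Lie.chevE7.group F)) = Nat.gcd 2 (p ^ f - 1) * f := by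
  have hD : chevE7 ∈ [chevG2, chevB2, chevD4, chevF4, chevE6, chevE7, chevE8] := by simp
  have hT := Cfsg.Agent.Lib.Helper23All.tab hD
  have hR : Rel chevE7 F := Cfsg.Agent.Lib.Helper23All.rel hD
  have := card_out_chev p f hF hD (by
      intro h
      rcases h with h | h <;> exact absurd (congrArg ChevalleyDatum.rank h) (by decide)) hT hR {1}
    (fun θ ρ f hA => by
      rw [Finset.mem_singleton]; exact diag_sym_E7 ρ (acts_diag_sym hD hT hR hA))
    (fun ρ hρ => by
      rw [Finset.mem_singleton] at hρ; subst hρ; exact ⟨_, acts_refl hT hR⟩)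
    (Nat.gcd 2 (p ^ f - 1)) (Cfsg.Agent.S1035.result hF (chevE7, Nat.gcd 2 (p ^ f - 1)) (by simp))
  simpa using this

end Cfsg.Agent.S2124
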