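import Cfsg.Statements.S2128
import Cfsg.Agent.Lib.Helper22RoG
import Cfsg.Agent.Lib.Helper22RoC2
import Cfsg.Agent.Lib.Helper22F4T4
import Cfsg.Agent.Lib.Helper22F4T3
import Cfsg.Agent.Lib.Helper50Out

set_option autoImplicit false
open Cfsg

namespace Cfsg.Agent.S2128

/-- Outer automorphisms of the large Ree groups: for q = 2^(2m+1) with m ≥ 1 the outer automorphism group of ²F₄(q) has order 2m + 1 (field automorphisms only). -/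
theorem result {K : Type*} [Field K] [Fintype K] {m : ℕ} (hm : 1 ≤ m) (hK : Fintype.card K = 2 ^ (2 * m + 1)) : Nat.card (Cfsg.Out ↥(Cfsg.Lie.twistedF4 K (2 ^ m))) = 2 * m + 1 := by
  obtain ⟨θ, fs⟩ := Cfsg.Agent.Lib.Helper22F4.exists_fs hK
  obtain ⟨ζ, hζ⟩ := Cfsg.Agent.Lib.Helper22F4.exists_zeta hm hK
  have e : Cfsg.Lie.twistedF4 K (2 ^ m) = Cfsg.Agent.Lib.Helper22F4.G1 Cfsg.Lie.chevF4 θ :=
    (Cfsg.Agent.Lib.Helper22F4.G1_eq (Cfsg.Agent.Lib.Helper23All.rel (F := K) Cfsg.Agent.Lib.Helper22F4.stdF4) θ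
      fs.h0 fs.h1).symm
  rw [e]
  haveI : Fact (Nat.Prime 2) := ⟨Nat.prime_two⟩
  rw [← (Cfsg.Agent.Lib.Helper50Out.ringAut_cyclic_card (p := 2) hK).2]
  exact Cfsg.Agent.Lib.Helper22RoG.card_out Cfsg.Agent.Lib.Helper22F4.stdF4 Cfsg.Agent.Lib.Helper22ChevTabF4.agree
    Cfsg.Agent.Lib.Helper22F4.ptabF4 (Cfsg.Agent.Lib.Helper23All.tab Cfsg.Agent.Lib.Helper22F4.stdF4)
    (Cfsg.Agent.Lib.Helper23All.rel (F := K) Cfsg.Agent.Lib.Helper22F4.stdF4) fs.h2 θ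
    Cfsg.Agent.Lib.Helper22F4.qfF4 fs.hθ fs.h10 fs.h01 (Cfsg.Agent.Lib.Helper22F4.sgF4_ok θ fs)
    Cfsg.Agent.Lib.Helper22TwEnumF4.chk_eq Cfsg.Agent.Lib.Helper22F4.qlF4
    (Cfsg.Agent.Lib.Helper23All.cartanRefl Cfsg.Agent.Lib.Helper22F4.stdF4) Cfsg.Agent.Lib.Helper22F4.qhF4
    Cfsg.Agent.Lib.Helper22F4.qwF4 Cfsg.Agent.Lib.Helper22RoC.qcF4 (by decide) fs.h0 ζ hζ (2 * m + 1) (by omega)
    (by rw [Nat.card_eq_fintype_card, hK]) (Cfsg.Agent.Lib.Helper22F4.card_units hK)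
    Cfsg.Agent.Lib.Helper22F4.hMF4 Cfsg.Agent.Lib.Helper22F4.csF4_eq

end Cfsg.Agent.S2128
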