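import Cfsg.Statements.S2136
import Cfsg.Agent.Lib.Helper33LI2F
import Cfsg.Agent.Lib.H33I2Transport
import Cfsg.Agent.Lib.Helper33LMinTrans

set_option autoImplicit false
open Cfsg
open Cfsg.Agent.Lib.Helper33LFrame Cfsg.Agent.Lib.Helper33LCo0
open Cfsg.Agent.Lib.Helper33LGood Cfsg.Agent.Lib.Helper33LCo2Thy
open Cfsg.Agent.Lib.Helper33LCo2 Cfsg.Agent.Lib.Helper33LCo2Ord

namespace Cfsg.Agent.S2136

theorem normU : sqNorm ((Spor.leechU : leechLattice) : GolayPt → ℤ) = 32 := by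
  show sqNorm Spor.vecU = 32
  unfold sqNorm Spor.vecU
  decide

theorem sub_eq : (Spor.Co2).subgroupOf Co0 = fixG [Spor.leechU] := by
  ext k
  rw [Subgroup.mem_subgroupOf, mem_fixG]
  unfold Spor.Co2
  rw [Subgroup.mem_inf, MulAction.mem_stabilizer_iff]
  simp only [Fixes, List.mem_cons, List.not_mem_nil, or_false, forall_eq]
  constructor
  · intro h; exact h.2
  · intro h; exact ⟨k.2, h⟩

/-- The Conway group Co₂ (the stabiliser of a minimal vector of the rank-24 lattice) has an involution whose centraliser C has largest normal 2-subgroup extraspecial of order 2^9 with quotient C / O₂(C) isomorphic to the symplectic group Sp(6, 2) (shape 2^{1+8}Sp(6, 2)). -/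
theorem result : ∃ t : ↥Cfsg.Spor.Co2, orderOf t = 2 ∧ Cfsg.IsExtraspecial 2 (Cfsg.pCore 2 ↥(Subgroup.centralizer ({t} : Set ↥Cfsg.Spor.Co2))) ∧ Nat.card (Cfsg.pCore 2 ↥(Subgroup.centralizer ({t} : Set ↥Cfsg.Spor.Co2))) = 2 ^ 9 ∧ Nonempty (↥(Subgroup.centralizer ({t} : Set ↥Cfsg.Spor.Co2)) ⧸ Cfsg.pCore 2 ↥(Subgroup.centralizer ({t} : Set ↥Cfsg.Spor.Co2)) ≃* Matrix.symplecticGroup (Fin 3) (ZMod 2)) := by
  obtain ⟨g, hg⟩ := Cfsg.Agent.Lib.Helper33LMinTrans.min_trans Spor.leechU (DL v0c) normU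
    Cfsg.Agent.Lib.Helper33LCo1.normV0
  have hg' : mv g [Spor.leechU] = [DL v0c] := by
    simp [mv, hg]
  have e1 : ↥(fixG [Spor.leechU]) ≃* ↥Spor.Co2 :=
    (MulEquiv.subgroupCongr sub_eq.symm).trans
      (Subgroup.subgroupOfEquivOfLe (show Spor.Co2 ≤ Co0 from inf_le_left))
  have e2 : ↥(fixG [Spor.leechU]) ≃* ↥(fixG [DL v0c]) :=
    (conjEquiv g [Spor.leechU]).trans (MulEquiv.subgroupCongr (congrArg fixG hg'))
  exact Cfsg.Agent.Lib.H33I2Transport.transport (e2.symm.trans e1) _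
    Cfsg.Agent.Lib.Helper33LI2F.hasInv

end Cfsg.Agent.S2136
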