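import Cfsg.Statements.S2149
import Cfsg.Agent.Lib.H10U35Lower
import Cfsg.Agent.Lib.H10U35Hom
import Cfsg.Agent.Lib.H10U35Card
import Cfsg.Agent.Lib.H10U35Ex

set_option autoImplicit false
open Cfsg

namespace Cfsg.Agent.S2149

/-- Minimal index of a proper subgroup of PSU₃(5), realised over the field with 25 elements: every proper subgroup has index at least 50, and that index is attained. -/
theorem result {F : Type*} [Field F] [Fintype F] (hF : Fintype.card F = 25) : (∀ H : Subgroup (Cfsg.PSU 3 F 5), H ≠ ⊤ → 50 ≤ H.index) ∧ (∃ H : Subgroup (Cfsg.PSU 3 F 5), H.index = 50) := by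
  obtain ⟨M⟩ := Cfsg.Agent.Lib.H10U35Hom.bridge hF
  have hc := Cfsg.Agent.Lib.H10U35Card.card_psu hF
  haveI := Cfsg.Agent.Lib.H10U35Card.simple_psu hF
  haveI : Finite (Cfsg.PSU 3 F 5) := Nat.finite_of_card_ne_zero (by rw [hc]; norm_num)
  have hl : ∀ H : Subgroup (Cfsg.PSU 3 F 5), H ≠ ⊤ → 50 ≤ H.index := fun H hH =>
    Cfsg.Agent.Lib.H10U35Lower.lower (Cfsg.Agent.Lib.H10U35Lower.dat M) hc H hH
  exact ⟨hl, Cfsg.Agent.Lib.H10U35Ex.exists50 M hc hl⟩

end Cfsg.Agent.S2149
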