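import Cfsg.Statements.S2156
import Cfsg.Agent.Lib.LeadAutChev

set_option autoImplicit false
open Cfsg

namespace Cfsg.Agent.S2156

open Cfsg Cfsg.Lie Cfsg.Lie.ChevalleyDatum
open Subgroup Cfsg.Agent.Lib.Helper23Grp Cfsg.Agent.Lib.Helper23RG Cfsg.Agent.Lib.Helper23RG.RG
  Cfsg.Agent.Lib.Helper23Weyl Cfsg.Agent.Lib.LeadAutDefs Cfsg.Agent.Lib.LeadAutMain
  Cfsg.Agent.Lib.Helper23Table Cfsg.Agent.Lib.Helper23Chev Cfsg.Agent.Lib.LeadAutConc Cfsg.Agent.Lib.LeadAutChev
open scoped MatrixGroups Matrix

/-- Over a finite field, every automorphism of the Chevalley group of type G₂, B₂, D₄, F₄, E₆, E₇ or E₈ is the composite of a field automorphism, a graph automorphism, a diagonal automorphism and an inner automorphism: `θ y = x · d(g(f y)) · x⁻¹` for some group element `x`, diagonal `d`, graph `g` and field `f` (each possibly the identity; diagonal here includes conjugation by elements of the diagonal subgroup H). -/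
theorem result {F : Type*} [Field F] [Finite F] (D : Cfsg.Lie.ChevalleyDatum) (hD : D ∈ [Cfsg.Lie.chevG2, Cfsg.Lie.chevB2, Cfsg.Lie.chevD4, Cfsg.Lie.chevF4, Cfsg.Lie.chevE6, Cfsg.Lie.chevE7, Cfsg.Lie.chevE8]) (θ : ↥(D.group F) ≃* ↥(D.group F)) :
    ∃ (x : ↥(D.group F)) (d g f : ↥(D.group F) ≃* ↥(D.group F)),
      D.IsDiagonalAut d ∧ D.IsGraphAut g ∧ D.IsFieldAut f ∧ ∀ y : ↥(D.group F), θ y = x * d (g (f y)) * x⁻¹ := by
  have hT := Cfsg.Agent.Lib.Helper23All.tab hD
  have hR : Rel D F := Cfsg.Agent.Lib.Helper23All.rel hD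
  have h := adata hD hT hR
  obtain ⟨y, hy⟩ := exists_nrm h θ
  obtain ⟨ρ, c, σ0, hρ, hA⟩ := nrm_form hD hT hR hy
  obtain ⟨χ, hχ, hχc⟩ := exists_char hD (fun k => c (ρ.symm k))
  obtain ⟨d, hd, hdx⟩ := diagAut hD hT hR χ hχ
  obtain ⟨f, hf, hfx⟩ := fieldAut hT hR σ0
  refine ⟨y⁻¹, d, f.symm.trans ((θ.trans (MulAut.conj y)).trans d.symm), f, hd, ⟨ρ, hρ, ?_⟩, hf, ?_⟩
  · intro g i t
    have hneg := Acts.neg' (τ := fun i t => (σ0 t) ^ D.graphExp (ringChar F) i (ρ i)) h.ok
      (fun i => by
        have : D.graphExp (ringChar F) i (ρ i) ≠ 0 := by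
          unfold graphExp
          split_ifs
          · exact (CharP.char_is_prime F (ringChar F)).ne_zero
          · exact one_ne_zero
        simp [this])
      (fun i t => by
        unfold graphExp
        split_ifs
        · haveI : Fact (ringChar F).Prime := ⟨CharP.char_is_prime F (ringChar F)⟩
          rw [map_neg]
          exact (frobenius F (ringChar F)).map_neg _
        · simp)
      (fun i t => by simp) hA
    constructor
    · intro hg
      rw [show D.simple i = (((SG hT hR).simple i : Fin D.nroots) : ℕ) from rfl, eq_SG_x_iff hT hR] at hg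
      rw [show D.simple (ρ i) = (((SG hT hR).simple (ρ i) : Fin D.nroots) : ℕ) from rfl, eq_SG_x_iff hT hR]
      subst hg
      have e1 : f.symm ((SG hT hR).x ((SG hT hR).simple i) t) = (SG hT hR).x ((SG hT hR).simple i) (σ0.symm t) := by
        rw [MulEquiv.symm_apply_eq, hfx, RingEquiv.apply_symm_apply]
      simp only [MulEquiv.trans_apply]
      rw [e1, MulEquiv.symm_apply_eq, hdx]
      have := hA.pos i (σ0.symm t)
      simp only [MulEquiv.trans_apply, RingEquiv.apply_symm_apply] at this
      rw [this]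
      congr 2
      have := hχc (ρ i)
      simp only [Equiv.symm_apply_apply] at this
      rw [← this]; rfl
    · intro hg
      rw [show D.neg (D.simple i) = (((SG hT hR).neg ((SG hT hR).simple i) : Fin D.nroots) : ℕ) from rfl,
        eq_SG_x_iff hT hR] at hg
      rw [show D.neg (D.simple (ρ i)) = (((SG hT hR).neg ((SG hT hR).simple (ρ i)) : Fin D.nroots) : ℕ) from rfl,
        eq_SG_x_iff hT hR]
      subst hg
      have e1 : f.symm ((SG hT hR).x ((SG hT hR).neg ((SG hT hR).simple i)) t) =
          (SG hT hR).x ((SG hT hR).neg ((SG hT hR).simple i)) (σ0.symm t) := by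
        rw [MulEquiv.symm_apply_eq, hfx, RingEquiv.apply_symm_apply]
      simp only [MulEquiv.trans_apply]
      rw [e1, MulEquiv.symm_apply_eq, hdx]
      have := hneg i (σ0.symm t)
      simp only [MulEquiv.trans_apply, RingEquiv.apply_symm_apply] at this
      rw [this]
      congr 2
      have h1 := hχc (ρ i)
      simp only [Equiv.symm_apply_apply] at h1
      have h2 := hχ.1 (D.simple (ρ i)) (hT.simple_lt _ (ρ i).2)
      rw [h1] at h2
      show _ = ((χ (D.neg (D.simple (ρ i))) : Fˣ) : F)
      rw [h2]; simp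
  · intro z
    simp [mul_assoc]


end Cfsg.Agent.S2156
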