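import Cfsg.Statements.S2160
import Cfsg.Agent.Lib.Helper72ChevGen
import Cfsg.Agent.Lib.Helper23All

set_option autoImplicit false
open Cfsg

namespace Cfsg.Agent.S2160

open Cfsg.Agent.Lib.Helper23Table Cfsg.Agent.Lib.Helper23Chev Cfsg.Agent.Lib.Helper72ChevGen

/-- In a Chevalley group of type G₂, B₂, D₄, F₄, E₆, E₇ or E₈ over a finite field, every field automorphism commutes with every graph automorphism. -/
theorem result {F : Type*} [Field F] [Finite F] (D : Cfsg.Lie.ChevalleyDatum) (hD : D ∈ [Cfsg.Lie.chevG2, Cfsg.Lie.chevB2, Cfsg.Lie.chevD4, Cfsg.Lie.chevF4, Cfsg.Lie.chevE6, Cfsg.Lie.chevE7, Cfsg.Lie.chevE8]) (f g : ↥(D.group F) ≃* ↥(D.group F))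
    (hf : D.IsFieldAut f) (hg : D.IsGraphAut g) (y : ↥(D.group F)) : f (g y) = g (f y) := by
  have hT : TableOK D := Cfsg.Agent.Lib.Helper23All.tab hD
  have hR : Rel D F := Cfsg.Agent.Lib.Helper23All.rel hD
  obtain ⟨σ, hσ⟩ := hf
  obtain ⟨π, -, hπ⟩ := hg
  refine hom_eq_of_simple (rg_ok hT hR) (D.group F) (G_eq hT hR).symm
    (f.toMonoidHom.comp g.toMonoidHom) (g.toMonoidHom.comp f.toMonoidHom) ?_ y
  rintro z ⟨i, t, hz | hz⟩
  · have h1 : ((z : GL D.Idx F) : Matrix D.Idx D.Idx F) = D.x F (D.simple i) t := by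
      rw [hz]; exact coe_xg hR _ _
    have h2 := (hπ z i t).1 h1
    have h3 := hσ (g z) (D.simple (π i)) _ (hT.simple_lt _ (π i).2) h2
    have h4 := hσ z (D.simple i) t (hT.simple_lt _ i.2) h1
    have h5 := (hπ (f z) i (σ t)).1 h4
    apply Subtype.ext
    apply Units.ext
    show ((f (g z) : GL D.Idx F) : Matrix D.Idx D.Idx F) = ((g (f z) : GL D.Idx F) : Matrix D.Idx D.Idx F)
    rw [h3, h5, map_pow]
  · have h1 : ((z : GL D.Idx F) : Matrix D.Idx D.Idx F) = D.x F (D.neg (D.simple i)) t := by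
      rw [hz]; exact coe_xg hR _ _
    have h2 := (hπ z i t).2 h1
    have h3 := hσ (g z) (D.neg (D.simple (π i))) _
      (hT.neg_lt _ (hT.simple_lt _ (π i).2)) h2
    have h4 := hσ z (D.neg (D.simple i)) t (hT.neg_lt _ (hT.simple_lt _ i.2)) h1
    have h5 := (hπ (f z) i (σ t)).2 h4
    apply Subtype.ext
    apply Units.ext
    show ((f (g z) : GL D.Idx F) : Matrix D.Idx D.Idx F) = ((g (f z) : GL D.Idx F) : Matrix D.Idx D.Idx F)
    rw [h3, h5, map_pow]

end Cfsg.Agent.S2160
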