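import Cfsg.Statements.S2161
import Cfsg.Agent.Lib.Helper72ChevGen
import Cfsg.Agent.Lib.Helper72ChevPermTab
import Cfsg.Agent.Lib.Helper23All

set_option autoImplicit false
open Cfsg

namespace Cfsg.Agent.S2161

open Cfsg.Lie Cfsg.Agent.Lib.Helper23RG Cfsg.Agent.Lib.Helper23RG.RG Cfsg.Agent.Lib.Helper23Table Cfsg.Agent.Lib.Helper23Chev
  Cfsg.Agent.Lib.Helper72ChevGen Cfsg.Agent.Lib.Helper72ChevPermTab

/-- For the Chevalley groups of types D₄ and E₆ (one root length) over any field: if `π` is a symmetry of the Dynkin diagram and `φ` is an automorphism sending `x_{p_i}(t)` to `x_{p_{π i}}(t)` and `x_{-p_i}(t)` to `x_{-p_{π i}}(t)` for every fundamental root `p_i`, then for every root `r` there is a sign `ε = ±1` with `φ(x_r(t)) = x_{π·r}(ε t)` for all `t`, where `π·r` is the root whose coefficients are those of `r` permuted by `π`. -/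
theorem result {F : Type*} [Field F] (D : Cfsg.Lie.ChevalleyDatum) (hD : D ∈ [Cfsg.Lie.chevD4, Cfsg.Lie.chevE6])
    (π : Equiv.Perm (Fin D.rank)) (hπ : D.IsDiagramSymmetry π) (φ : ↥(D.group F) ≃* ↥(D.group F))
    (hφ : ∀ (g : ↥(D.group F)) (i : Fin D.rank) (t : F),
      (((g : GL D.Idx F) : Matrix D.Idx D.Idx F) = D.x F (D.simple i) t →
        ((φ g : GL D.Idx F) : Matrix D.Idx D.Idx F) = D.x F (D.simple (π i)) t) ∧
      (((g : GL D.Idx F) : Matrix D.Idx D.Idx F) = D.x F (D.neg (D.simple i)) t →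
        ((φ g : GL D.Idx F) : Matrix D.Idx D.Idx F) = D.x F (D.neg (D.simple (π i))) t))
    (r : ℕ) (hr : r < D.nroots) :
    ∃ ε : F, (ε = 1 ∨ ε = -1) ∧ ∀ (g : ↥(D.group F)) (t : F),
      ((g : GL D.Idx F) : Matrix D.Idx D.Idx F) = D.x F r t →
        ((φ g : GL D.Idx F) : Matrix D.Idx D.Idx F) = D.x F (D.permRoot π r) (ε * t) := by
  have hD' : D ∈ [chevG2, chevB2, chevD4, chevF4, chevE6, chevE7, chevE8] := by
    simp only [List.mem_cons, List.not_mem_nil, or_false] at hD ⊢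
    rcases hD with rfl | rfl <;> simp
  have hT : TableOK D := Cfsg.Agent.Lib.Helper23All.tab hD'
  have hR : Rel D F := Cfsg.Agent.Lib.Helper23All.rel hD'
  have htab : (∀ i : Fin D.rank, D.permRoot π (D.simple i) = D.simple (π i)) ∧
      (∀ r : Fin D.nroots, D.permRoot π r < D.nroots) ∧
      (∀ (i : Fin D.rank) (r : Fin D.nroots),
        D.permRoot π (D.reflectRoot i r) = D.reflectRoot (π i) (D.permRoot π r)) := by
    simp only [List.mem_cons, List.not_mem_nil, or_false] at hD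
    rcases hD with rfl | rfl
    · exact tabD4 π hπ
    · exact tabE6 π hπ
  obtain ⟨T1, T3, T2⟩ := htab
  have hx : ∀ (r : Fin D.nroots) (t : F), (rg hT hR).x r t ∈ D.group F := by
    intro r t
    rw [← G_eq hT hR]; exact x_mem_G r t
  obtain ⟨ε, hε, h⟩ := exists_sign (rg_ok hT hR) (D.group F) hx φ.toMonoidHom π
    (fun r => ⟨D.permRoot π r, T3 r⟩)
    (fun i t => (eq_xg_iff hR _ _ _).1 ((hφ ⟨(rg hT hR).x ((rg hT hR).simple i) t, hx _ _⟩ i t).1
      (coe_xg hR _ _)))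
    (fun i t => (eq_xg_iff hR _ _ _).1
      ((hφ ⟨(rg hT hR).x ((rg hT hR).neg ((rg hT hR).simple i)) t, hx _ _⟩ i t).2 (coe_xg hR _ _)))
    (fun i => Fin.ext (T1 i)) (fun i r => Fin.ext (T2 i r)) ⟨r, hr⟩
  refine ⟨ε, hε, fun g t hg => ?_⟩
  have e : g = ⟨(rg hT hR).x ⟨r, hr⟩ t, hx _ _⟩ := Subtype.ext ((eq_xg_iff hR _ _ _).1 hg)
  have h1 := h t
  rw [← e] at h1
  have h2 : ((φ g : GL D.Idx F) : Matrix D.Idx D.Idx F)
      = (((rg hT hR).x ⟨D.permRoot π r, T3 ⟨r, hr⟩⟩ (ε * t) : GL D.Idx F) : Matrix D.Idx D.Idx F) :=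
    congrArg (fun u : GL D.Idx F => (u : Matrix D.Idx D.Idx F)) h1
  rw [h2]
  exact coe_xg hR _ _

end Cfsg.Agent.S2161
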