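import Cfsg.Statements.S2300
import Cfsg.Agent.Lib.Helper46SL2CharL
-- import your own Cfsg.Agent.* helpers here

set_option autoImplicit false
open Cfsg

namespace Cfsg.Agent.S2300

open Cfsg.Agent.Lib.Helper46SL2 Cfsg.Agent.Lib.Helper46Borel Cfsg.Agent.S2432
open Cfsg.Agent.Lib.Helper4Char
open Cfsg.Agent.Lib.Helper46SL2CharA Cfsg.Agent.Lib.Helper46SL2CharB Cfsg.Agent.Lib.Helper46SL2CharC
open Cfsg.Agent.Lib.Helper46SL2CharD Cfsg.Agent.Lib.Helper46SL2CharE Cfsg.Agent.Lib.Helper46SL2CharF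
open Cfsg.Agent.Lib.Helper46SL2CharJ Cfsg.Agent.Lib.Helper46SL2CharK Cfsg.Agent.Lib.Helper46SL2CharL

/-- Over a finite field F with q elements, q even, every irreducible complex character of SL₂ has degree 1, q − 1, q or q + 1; and when q ≥ 4 (so that these four numbers are distinct) there are exactly one irreducible character of degree 1, one of degree q, (q − 2)/2 of degree q + 1 and q/2 of degree q − 1. -/
theorem result {F : Type*} [Field F] [Fintype F] [CharP F 2] :
    (∀ χ : Matrix.SpecialLinearGroup (Fin 2) F → ℂ, Cfsg.IsIrrCharacter (Matrix.SpecialLinearGroup (Fin 2) F) χ →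
      χ 1 = 1 ∨ χ 1 = (Fintype.card F : ℂ) - 1 ∨ χ 1 = (Fintype.card F : ℂ) ∨ χ 1 = (Fintype.card F : ℂ) + 1) ∧
    (4 ≤ Fintype.card F →
      Nat.card {χ : Cfsg.IrrCharacter (Matrix.SpecialLinearGroup (Fin 2) F) // (χ : Matrix.SpecialLinearGroup (Fin 2) F → ℂ) 1 = 1} = 1 ∧
      Nat.card {χ : Cfsg.IrrCharacter (Matrix.SpecialLinearGroup (Fin 2) F) // (χ : Matrix.SpecialLinearGroup (Fin 2) F → ℂ) 1 = (Fintype.card F : ℂ)} = 1 ∧
      Nat.card {χ : Cfsg.IrrCharacter (Matrix.SpecialLinearGroup (Fin 2) F) // (χ : Matrix.SpecialLinearGroup (Fin 2) F → ℂ) 1 = (Fintype.card F : ℂ) + 1} = (Fintype.card F - 2) / 2 ∧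
      Nat.card {χ : Cfsg.IrrCharacter (Matrix.SpecialLinearGroup (Fin 2) F) // (χ : Matrix.SpecialLinearGroup (Fin 2) F → ℂ) 1 = (Fintype.card F : ℂ) - 1} = Fintype.card F / 2) := by
  classical
  obtain ⟨C, hC⟩ := exists_isNS (F := F)
  have heven : ¬ Odd (Fintype.card F) := by
    rw [Nat.not_odd_iff_even]
    have h0 : ((Fintype.card F : ℕ) : F) = 0 := Nat.cast_card_eq_zero F
    have := (CharP.cast_eq_zero_iff F 2 (Fintype.card F)).mp h0
    exact even_iff_two_dvd.mpr this
  constructor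
  · intro χ hχ
    obtain ⟨n, hn, hcases⟩ := classify_deg hC hχ
    rw [hn]
    rcases hcases with ⟨h1, -⟩ | ⟨h1, -⟩ | ⟨h1, -⟩ | ⟨h1, -⟩ | ⟨h1, -⟩ | ⟨h1, -⟩
    · left; rw [h1]; simp
    · right; right; left; rw [h1]
    · right; right; right; rw [h1]; simp
    · right; left; rw [h1, cast_sub_one]
    · exact absurd h1 heven
    · exact absurd h1 heven
  · intro hq
    refine ⟨card_deg_one (by omega), card_deg_q, ?_, ?_⟩
    · have h1 := card_deg_add_one (F := F)
      rw [card_ne_inv, card_mulChar, card_mulChar_self_inv_even heven] at h1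
      omega
    · have h1 := card_deg_sub_one hC (by omega)
      have := finite_hom hC
      rw [card_ne_inv, card_hom hC, card_hom_self_inv_even heven hC] at h1
      omega

end Cfsg.Agent.S2300
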