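import Cfsg.Statements.S2301
import Mathlib
import Cfsg.Agent.Lib.Helper41SL2Unip2

set_option autoImplicit false
open Cfsg
open Cfsg.Agent.Lib.Helper41SL2 Cfsg.Agent.Lib.Helper46SL2

namespace Cfsg.Agent.S2301

/-- Over a finite field with q elements of odd characteristic p, the elements of order p of SL₂ (the non-identity unipotent elements) fall into exactly two conjugacy classes, each of size (q² − 1)/2; two upper unitriangular matrices with non-zero off-diagonal entries b and b′ are conjugate exactly when bb′ is a square. -/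
theorem result {F : Type*} [Field F] [Fintype F] (p : ℕ) [Fact p.Prime] [CharP F p] (hp : p ≠ 2) :
    Nat.card {C : ConjClasses (Matrix.SpecialLinearGroup (Fin 2) F) // ∃ g : Matrix.SpecialLinearGroup (Fin 2) F, orderOf g = p ∧ ConjClasses.mk g = C} = 2 ∧
    (∀ g : Matrix.SpecialLinearGroup (Fin 2) F, orderOf g = p → Nat.card (ConjClasses.mk g).carrier = (Fintype.card F ^ 2 - 1) / 2) ∧
    ∀ g h : Matrix.SpecialLinearGroup (Fin 2) F, (g : Matrix (Fin 2) (Fin 2) F) 0 0 = 1 → (g : Matrix (Fin 2) (Fin 2) F) 1 1 = 1 → (g : Matrix (Fin 2) (Fin 2) F) 1 0 = 0 → (g : Matrix (Fin 2) (Fin 2) F) 0 1 ≠ 0 →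
      (h : Matrix (Fin 2) (Fin 2) F) 0 0 = 1 → (h : Matrix (Fin 2) (Fin 2) F) 1 1 = 1 → (h : Matrix (Fin 2) (Fin 2) F) 1 0 = 0 → (h : Matrix (Fin 2) (Fin 2) F) 0 1 ≠ 0 →
      (IsConj g h ↔ IsSquare ((g : Matrix (Fin 2) (Fin 2) F) 0 1 * (h : Matrix (Fin 2) (Fin 2) F) 0 1)) := by
  classical
  have hodd : Odd (Fintype.card F) := by
    obtain ⟨n, -, hn⟩ := FiniteField.card F p
    rw [hn]
    exact Odd.pow ((Nat.Prime.eq_two_or_odd' Fact.out).resolve_left hp)
  have hpp : p.Prime := Fact.out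
  have key : ∀ g : Matrix.SpecialLinearGroup (Fin 2) F, orderOf g = p →
      g ∉ Subgroup.center (Matrix.SpecialLinearGroup (Fin 2) F) ∧ tr g = 2 := by
    intro g hg
    refine ⟨?_, tr_eq_two_of_pow_char p 1 (by rw [pow_one, ← hg, pow_orderOf_eq_one])⟩
    intro hc
    have h1 : g ^ 2 = 1 := by
      rcases mem_center_iff_eq.mp hc with rfl | rfl <;> simp
    have h2 := orderOf_dvd_of_pow_eq_one h1
    rw [hg] at h2
    exact hp ((Nat.prime_dvd_prime_iff_eq hpp Nat.prime_two).mp h2)
  obtain ⟨ν, hν⟩ := FiniteField.exists_nonsquare (ringChar_ne_two_of_odd hodd)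
  have hν0 : ν ≠ 0 := by rintro rfl; exact hν IsSquare.zero
  refine ⟨?_, ?_, ?_⟩
  · rw [Nat.card_eq_two_iff]
    refine ⟨⟨ConjClasses.mk (uu 1), uu 1, orderOf_uu p one_ne_zero, rfl⟩,
      ⟨ConjClasses.mk (uu ν), uu ν, orderOf_uu p hν0, rfl⟩, ?_, ?_⟩
    · intro h
      have h1 := congrArg Subtype.val h
      have h2 : IsConj (uu (1 : F)) (uu ν) := ConjClasses.mk_eq_mk_iff_isConj.mp h1
      rw [isConj_uu_iff one_ne_zero hν0, one_mul] at h2
      exact hν h2
    · rw [Set.eq_univ_iff_forall]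
      rintro ⟨C, g, hg, rfl⟩
      obtain ⟨hc, ht⟩ := key g hg
      obtain ⟨b, hb, hgb⟩ := exists_isConj_uu hc ht
      by_cases hs : IsSquare b
      · left
        apply Subtype.ext
        apply ConjClasses.mk_eq_mk_iff_isConj.mpr
        apply hgb.trans
        rw [isConj_uu_iff hb one_ne_zero, mul_one]; exact hs
      · right
        apply Subtype.ext
        apply ConjClasses.mk_eq_mk_iff_isConj.mpr
        apply hgb.trans
        rw [isConj_uu_iff hb hν0]
        exact isSquare_mul_of_not_isSquare hs hν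
  · intro g hg
    obtain ⟨hc, ht⟩ := key g hg
    have h1 := Cfsg.Agent.Lib.Helper41Conj.card_carrier_mul_card_centralizer g
    rw [card_centralizer_unip_odd hodd hc (by rw [ht]; norm_num),
      Cfsg.Agent.Lib.Helper7SL.card_SL_two] at h1
    have hq : 0 < Fintype.card F := Fintype.card_pos
    have h2 : Nat.card (ConjClasses.mk g).carrier * 2 = Fintype.card F ^ 2 - 1 := by
      apply Nat.eq_of_mul_eq_mul_left hq
      rw [← h1]; ring
    omega
  · intro g h g00 g11 g10 g01 h00 h11 h10 h01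
    have hg : g = uu (g 0 1) := eq_uu_of_mem ⟨g00, g10, g11⟩
    have hh : h = uu (h 0 1) := eq_uu_of_mem ⟨h00, h10, h11⟩
    have := isConj_uu_iff (b := g 0 1) (b' := h 0 1) g01 h01
    rw [← hg, ← hh] at this
    exact this

end Cfsg.Agent.S2301
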