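import Cfsg.Statements.S2302
import Mathlib
import Cfsg.Agent.Lib.Helper41SL2Even

set_option autoImplicit false
open Cfsg
open Cfsg.Agent.Lib.Helper41SL2 Cfsg.Agent.Lib.Helper46SL2

namespace Cfsg.Agent.S2302

/-- Over a finite field with q elements of characteristic 2, the involutions of SL₂ (the non-identity unipotent elements) form a single conjugacy class, of size q² − 1. -/
theorem result {F : Type*} [Field F] [Fintype F] [CharP F 2] (g h : Matrix.SpecialLinearGroup (Fin 2) F) (hg : orderOf g = 2) (hh : orderOf h = 2) :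
    IsConj g h ∧ Nat.card (ConjClasses.mk g).carrier = Fintype.card F ^ 2 - 1 := by
  have hg1 : g ≠ 1 := by rintro rfl; rw [orderOf_one] at hg; omega
  have hh1 : h ≠ 1 := by rintro rfl; rw [orderOf_one] at hh; omega
  have htg := tr_eq_zero_of_orderOf_two_char_two hg
  have hth := tr_eq_zero_of_orderOf_two_char_two hh
  refine ⟨isConj_of_tr_eq_char_two hg1 hh1 (htg.trans hth.symm), ?_⟩
  have h1 := Cfsg.Agent.Lib.Helper41Conj.card_carrier_mul_card_centralizer g
  rw [card_centralizer_unip_char_two hg1 htg, Cfsg.Agent.Lib.Helper7SL.card_SL_two, mul_comm] at h1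
  exact Nat.eq_of_mul_eq_mul_left Fintype.card_pos h1

end Cfsg.Agent.S2302
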