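import Cfsg.Statements.S2303
-- import your own Cfsg.Agent.* helpers here

set_option autoImplicit false
open Cfsg

namespace Cfsg.Agent.S2303


/-- Over a finite field with q elements: a diagonal element of GL₂ with two distinct diagonal entries has centralizer of order (q − 1)² (so q(q + 1) conjugates), and an element of GL₂ with no eigenvector in F² has centralizer of order q² − 1 (so q(q − 1) conjugates). -/
theorem result {F : Type*} [Field F] [Fintype F] (g : Matrix.GeneralLinearGroup (Fin 2) F) :
    ((g : Matrix (Fin 2) (Fin 2) F) 0 1 = 0 → (g : Matrix (Fin 2) (Fin 2) F) 1 0 = 0 → (g : Matrix (Fin 2) (Fin 2) F) 0 0 ≠ (g : Matrix (Fin 2) (Fin 2) F) 1 1 →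
      Nat.card (Subgroup.centralizer ({g} : Set (Matrix.GeneralLinearGroup (Fin 2) F))) = (Fintype.card F - 1) ^ 2) ∧
    ((∀ (c : F) (v : Fin 2 → F), v ≠ 0 → (g : Matrix (Fin 2) (Fin 2) F).mulVec v ≠ c • v) →
      Nat.card (Subgroup.centralizer ({g} : Set (Matrix.GeneralLinearGroup (Fin 2) F))) = Fintype.card F ^ 2 - 1) := by
  classical
  set M := (g : Matrix (Fin 2) (Fin 2) F) with hM
  have hcomm : ∀ h : Matrix.GeneralLinearGroup (Fin 2) F,
      h ∈ Subgroup.centralizer ({g} : Set (Matrix.GeneralLinearGroup (Fin 2) F)) ↔
        M * (h : Matrix (Fin 2) (Fin 2) F) = (h : Matrix (Fin 2) (Fin 2) F) * M := by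
    intro h
    rw [Subgroup.mem_centralizer_singleton_iff]
    constructor
    · intro e
      have := congrArg (fun x : Matrix.GeneralLinearGroup (Fin 2) F =>
        (x : Matrix (Fin 2) (Fin 2) F)) e
      simpa using this.symm
    · intro e
      apply Units.ext
      simpa using e.symm
  have hMeta := Matrix.eta_fin_two M
  constructor
  · intro h01 h10 hne
    let Φ : Fˣ × Fˣ → Subgroup.centralizer ({g} : Set (Matrix.GeneralLinearGroup (Fin 2) F)) :=
      fun p => ⟨Matrix.GeneralLinearGroup.mkOfDetNeZero !![(p.1 : F), 0; 0, (p.2 : F)]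
        (by rw [Matrix.det_fin_two_of]; simp), by
          rw [hcomm]
          show M * !![(p.1 : F), 0; 0, (p.2 : F)] = !![(p.1 : F), 0; 0, (p.2 : F)] * M
          rw [hMeta, h01, h10, Matrix.mul_fin_two, Matrix.mul_fin_two]
          ext i j
          fin_cases i <;> fin_cases j <;> simp [mul_comm]⟩
    have hbij : Function.Bijective Φ := by
      constructor
      · rintro ⟨x, y⟩ ⟨x', y'⟩ h
        have h1 := congrArg (fun z : Subgroup.centralizer
          ({g} : Set (Matrix.GeneralLinearGroup (Fin 2) F)) =>
          ((z : Matrix.GeneralLinearGroup (Fin 2) F) : Matrix (Fin 2) (Fin 2) F)) h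
        simp only [Φ] at h1
        change !![(x : F), 0; 0, (y : F)] = !![(x' : F), 0; 0, (y' : F)] at h1
        have e1 := congrFun (congrFun h1 0) 0
        have e2 := congrFun (congrFun h1 1) 1
        simp at e1 e2
        rw [Units.ext e1, Units.ext e2]
      · rintro ⟨h, hh⟩
        have hc := (hcomm h).mp hh
        set H := (h : Matrix (Fin 2) (Fin 2) F) with hH
        have hHeta := Matrix.eta_fin_two H
        rw [hMeta, hHeta, h01, h10, Matrix.mul_fin_two, Matrix.mul_fin_two] at hc
        have e1 := congrFun (congrFun hc 0) 1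
        have e2 := congrFun (congrFun hc 1) 0
        simp at e1 e2
        have hsub : M 0 0 - M 1 1 ≠ 0 := sub_ne_zero.mpr hne
        have k1 : H 0 1 = 0 := by
          have : (M 0 0 - M 1 1) * H 0 1 = 0 := by linear_combination e1
          exact (mul_eq_zero.mp this).resolve_left hsub
        have k2 : H 1 0 = 0 := by
          have : (M 0 0 - M 1 1) * H 1 0 = 0 := by linear_combination -e2
          exact (mul_eq_zero.mp this).resolve_left hsub
        have hd : H.det ≠ 0 := (Matrix.GeneralLinearGroup.det h).ne_zero
        rw [Matrix.det_fin_two, k1, k2] at hd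
        have n1 : H 0 0 ≠ 0 := by
          intro h0; apply hd; rw [h0]; ring
        have n2 : H 1 1 ≠ 0 := by
          intro h0; apply hd; rw [h0]; ring
        refine ⟨(Units.mk0 _ n1, Units.mk0 _ n2), ?_⟩
        apply Subtype.ext
        apply Units.ext
        show !![H 0 0, 0; 0, H 1 1] = H
        conv_rhs => rw [hHeta, k1, k2]
    rw [← Nat.card_congr (Equiv.ofBijective Φ hbij), Nat.card_eq_fintype_card, Fintype.card_prod,
      Fintype.card_units]
    ring
  · intro hell
    have hc0 : M 1 0 ≠ 0 := by
      intro hs
      apply hell (M 0 0) ![1, 0]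
      · intro h
        have := congrFun h 0
        simp at this
      · ext i
        fin_cases i
        · simp [Matrix.mulVec, dotProduct, Fin.sum_univ_two]
        · simp [Matrix.mulVec, dotProduct, Fin.sum_univ_two, hs]
    have hdet : ∀ p : F × F, p ≠ 0 → (p.1 • (1 : Matrix (Fin 2) (Fin 2) F) + p.2 • M).det ≠ 0 := by
      rintro ⟨x, y⟩ hp hd
      obtain ⟨v, hv, hv2⟩ := Matrix.exists_mulVec_eq_zero_iff.mpr hd
      simp only [Matrix.add_mulVec, Matrix.smul_mulVec, Matrix.one_mulVec] at hv2
      by_cases hy : y = 0
      · subst hy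
        simp only [zero_smul, add_zero] at hv2
        rcases smul_eq_zero.mp hv2 with h | h
        · apply hp; rw [h]; rfl
        · exact hv h
      · apply hell (-x / y) v hv
        have : y • M.mulVec v = -(x • v) := by
          rw [eq_neg_iff_add_eq_zero, add_comm]; exact hv2
        calc M.mulVec v = y⁻¹ • (y • M.mulVec v) := by rw [smul_smul, inv_mul_cancel₀ hy, one_smul]
          _ = (-x / y) • v := by
            rw [this, smul_neg, smul_smul, ← neg_smul]
            congr 1
            field_simp
    let Φ : {p : F × F // p ≠ 0} →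
        Subgroup.centralizer ({g} : Set (Matrix.GeneralLinearGroup (Fin 2) F)) :=
      fun p => ⟨Matrix.GeneralLinearGroup.mkOfDetNeZero
        (p.1.1 • (1 : Matrix (Fin 2) (Fin 2) F) + p.1.2 • M) (hdet p.1 p.2), by
          rw [hcomm]
          show M * (p.1.1 • (1 : Matrix (Fin 2) (Fin 2) F) + p.1.2 • M) =
            (p.1.1 • (1 : Matrix (Fin 2) (Fin 2) F) + p.1.2 • M) * M
          simp [Matrix.mul_add, Matrix.add_mul]⟩
    have hbij : Function.Bijective Φ := by
      constructor
      · rintro ⟨⟨x, y⟩, hp⟩ ⟨⟨x', y'⟩, hp'⟩ h
        have h1 := congrArg (fun z : Subgroup.centralizer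
          ({g} : Set (Matrix.GeneralLinearGroup (Fin 2) F)) =>
          ((z : Matrix.GeneralLinearGroup (Fin 2) F) : Matrix (Fin 2) (Fin 2) F)) h
        simp only [Φ] at h1
        change x • (1 : Matrix (Fin 2) (Fin 2) F) + y • M =
          x' • (1 : Matrix (Fin 2) (Fin 2) F) + y' • M at h1
        have e1 := congrFun (congrFun h1 0) 0
        have e2 := congrFun (congrFun h1 1) 0
        simp at e1 e2
        have hy : y = y' := e2.resolve_right hc0
        subst hy
        have hx : x = x' := by linear_combination e1
        subst hx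
        rfl
      · rintro ⟨h, hh⟩
        have hc := (hcomm h).mp hh
        set H := (h : Matrix (Fin 2) (Fin 2) F) with hH
        have hHeta := Matrix.eta_fin_two H
        rw [hMeta, hHeta, Matrix.mul_fin_two, Matrix.mul_fin_two] at hc
        have e1 := congrFun (congrFun hc 0) 0
        have e2 := congrFun (congrFun hc 1) 0
        simp at e1 e2
        have hform : (H 0 0 - H 1 0 / M 1 0 * M 0 0) • (1 : Matrix (Fin 2) (Fin 2) F) +
            (H 1 0 / M 1 0) • M = H := by
          ext i j
          fin_cases i <;> fin_cases j
          · simp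
          · simp
            field_simp
            linear_combination e1
          · simp
            field_simp
          · simp
            field_simp
            linear_combination e2
        have hne : ((H 0 0 - H 1 0 / M 1 0 * M 0 0, H 1 0 / M 1 0) : F × F) ≠ 0 := by
          intro h0
          have h1 := congrArg Prod.fst h0
          have h2 := congrArg Prod.snd h0
          simp only [Prod.fst_zero, Prod.snd_zero] at h1 h2
          rw [h1, h2] at hform
          have hd : H.det ≠ 0 := (Matrix.GeneralLinearGroup.det h).ne_zero
          apply hd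
          rw [← hform]
          simp
        refine ⟨⟨_, hne⟩, ?_⟩
        apply Subtype.ext
        apply Units.ext
        exact hform
    rw [← Nat.card_congr (Equiv.ofBijective Φ hbij), Nat.card_eq_fintype_card,
      Fintype.card_subtype_compl, Fintype.card_prod, Fintype.card_subtype_eq]
    ring_nf

end Cfsg.Agent.S2303
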