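import Cfsg.Statements.S2305
import Cfsg.Agent.Lib.Helper44GL2
-- import your own Cfsg.Agent.* helpers here

set_option autoImplicit false
open Cfsg

namespace Cfsg.Agent.S2305


/-- Over a finite field F, for multiplicative characters α, β, α′, β′ of F, the characters of GL₂ induced from the linear characters b ↦ α(b₁₁) β(b₂₂) and b ↦ α′(b₁₁) β′(b₂₂) of the upper triangular subgroup coincide exactly when {α, β} = {α′, β′} as unordered pairs. -/
theorem result {F : Type*} [Field F] [Fintype F] [DecidableEq F] (α β α' β' : MulChar F ℂ) :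
    Cfsg.indFun (Cfsg.upperTriangularGL 2 F) (fun b => α (((b : Matrix.GeneralLinearGroup (Fin 2) F) : Matrix (Fin 2) (Fin 2) F) 0 0) * β (((b : Matrix.GeneralLinearGroup (Fin 2) F) : Matrix (Fin 2) (Fin 2) F) 1 1)) = Cfsg.indFun (Cfsg.upperTriangularGL 2 F) (fun b => α' (((b : Matrix.GeneralLinearGroup (Fin 2) F) : Matrix (Fin 2) (Fin 2) F) 0 0) * β' (((b : Matrix.GeneralLinearGroup (Fin 2) F) : Matrix (Fin 2) (Fin 2) F) 1 1)) ↔
      (α = α' ∧ β = β') ∨ (α = β' ∧ β = α') := by
  rw [Cfsg.Agent.Lib.Helper44GL2.ps_eq, Cfsg.Agent.Lib.Helper44GL2.ps_eq]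
  constructor
  · intro h
    have h1 := Cfsg.Agent.Lib.Helper44GL2.ps_inner α β α β
    have h2 := Cfsg.Agent.Lib.Helper44GL2.ps_inner α β α' β'
    rw [← h, h1] at h2
    by_contra hc
    push Not at hc
    obtain ⟨c1, c2⟩ := hc
    by_cases e1 : α = α'
    · have e2 := c1 e1
      by_cases e3 : α = β'
      · have e4 := c2 e3
        simp only [e2, e4, if_true, if_false, mul_zero, add_zero, mul_one] at h2
        split_ifs at h2 <;> norm_num at h2
      · simp only [e2, e3, if_true, if_false, mul_zero, zero_mul, add_zero, mul_one] at h2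
        split_ifs at h2 <;> norm_num at h2
    · by_cases e3 : α = β'
      · have e4 := c2 e3
        simp only [e1, e4, if_true, if_false, mul_zero, zero_mul, add_zero, mul_one] at h2
        split_ifs at h2 <;> norm_num at h2
      · simp only [e1, e3, if_true, if_false, mul_zero, zero_mul, add_zero, mul_one] at h2
        split_ifs at h2 <;> norm_num at h2
  · rintro (⟨rfl, rfl⟩ | ⟨rfl, rfl⟩)
    · rfl
    · by_cases hab : α = β
      · rw [hab]
      · have i1 := Cfsg.Agent.Lib.Helper44GL2.ps_irr α β hab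
        have i2 := Cfsg.Agent.Lib.Helper44GL2.ps_irr β α (Ne.symm hab)
        by_contra hne
        have h0 := Cfsg.Agent.Lib.Helper4Char.classInner_irr_ne i1 i2 hne
        rw [Cfsg.Agent.Lib.Helper44GL2.ps_inner] at h0
        simp [hab] at h0

end Cfsg.Agent.S2305
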