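import Cfsg.Statements.S2306
import Cfsg.Agent.Lib.Helper44SL2
-- import your own Cfsg.Agent.* helpers here

set_option autoImplicit false
open Cfsg

namespace Cfsg.Agent.S2306


/-- Over a finite field F, for a multiplicative character α of F, the function induced to SL₂ from the linear character b ↦ α(b₁₁) of the upper triangular subgroup is an irreducible character if and only if α² ≠ 1. -/
theorem result {F : Type*} [Field F] [Fintype F] [DecidableEq F] (α : MulChar F ℂ) :
    Cfsg.IsIrrCharacter (Matrix.SpecialLinearGroup (Fin 2) F) (Cfsg.indFun ((Cfsg.upperTriangularGL 2 F).comap Matrix.SpecialLinearGroup.toGL) (fun b => α (((b : Matrix.SpecialLinearGroup (Fin 2) F) : Matrix (Fin 2) (Fin 2) F) 0 0))) ↔ α ^ 2 ≠ 1 := by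
  rw [Cfsg.Agent.Lib.Helper44SL2.ps_eq, Cfsg.Agent.Lib.Helper4Char4.isIrrCharacter_iff,
    Cfsg.Agent.Lib.Helper44SL2.ps_inner]
  have hiff : α = α⁻¹ ↔ α ^ 2 = 1 := by
    rw [eq_inv_iff_mul_eq_one, sq]
  constructor
  · rintro ⟨_, h⟩ hc
    rw [if_pos rfl, if_pos (hiff.mpr hc)] at h
    norm_num at h
  · intro h
    refine ⟨Cfsg.Agent.Lib.Helper44SL2.ps_isCharacter α, ?_⟩
    rw [if_pos rfl, if_neg (fun hc => h (hiff.mp hc))]
    norm_num

end Cfsg.Agent.S2306
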