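import Cfsg.Statements.S2307
import Cfsg.Agent.Lib.Helper46SL2CharK
-- import your own Cfsg.Agent.* helpers here

set_option autoImplicit false
open Cfsg

namespace Cfsg.Agent.S2307

open Cfsg.Agent.Lib.Helper46SL2 Cfsg.Agent.Lib.Helper46Borel Cfsg.Agent.S2432
open Cfsg.Agent.Lib.Helper4Char
open Cfsg.Agent.Lib.Helper46SL2CharA Cfsg.Agent.Lib.Helper46SL2CharB Cfsg.Agent.Lib.Helper46SL2CharC
open Cfsg.Agent.Lib.Helper46SL2CharD Cfsg.Agent.Lib.Helper46SL2CharE Cfsg.Agent.Lib.Helper46SL2CharF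
open Cfsg.Agent.Lib.Helper46SL2CharJ Cfsg.Agent.Lib.Helper46SL2CharK

/-- Over a finite field F with q elements, q odd, let α be the multiplicative character of F of order 2. The character of SL₂ induced from the linear character b ↦ α(b₁₁) of the upper triangular subgroup is the sum of two distinct irreducible characters, each of degree (q + 1)/2, which are conjugate under GL₂: some fixed element of GL₂ conjugates the one into the other. -/
theorem result {F : Type*} [Field F] [Fintype F] [DecidableEq F] (hodd : Odd (Fintype.card F)) (α : MulChar F ℂ)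
    (hα : α ^ 2 = 1) (hα1 : α ≠ 1) :
    ∃ χ₁ χ₂ : Matrix.SpecialLinearGroup (Fin 2) F → ℂ, Cfsg.IsIrrCharacter (Matrix.SpecialLinearGroup (Fin 2) F) χ₁ ∧ Cfsg.IsIrrCharacter (Matrix.SpecialLinearGroup (Fin 2) F) χ₂ ∧ χ₁ ≠ χ₂ ∧
      Cfsg.indFun ((Cfsg.upperTriangularGL 2 F).comap Matrix.SpecialLinearGroup.toGL) (fun b => α (((b : Matrix.SpecialLinearGroup (Fin 2) F) : Matrix (Fin 2) (Fin 2) F) 0 0)) = χ₁ + χ₂ ∧
      χ₁ 1 = (((Fintype.card F + 1) / 2 : ℕ) : ℂ) ∧ χ₂ 1 = (((Fintype.card F + 1) / 2 : ℕ) : ℂ) ∧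
      ∃ x : Matrix.GeneralLinearGroup (Fin 2) F, ∀ g h : Matrix.SpecialLinearGroup (Fin 2) F,
        Matrix.SpecialLinearGroup.toGL h = x * Matrix.SpecialLinearGroup.toGL g * x⁻¹ → χ₂ h = χ₁ g := by
  obtain ⟨C, hC⟩ := exists_isNS (F := F)
  have h1 : α = α⁻¹ := by
    rw [eq_inv_iff_mul_eq_one, ← sq]
    exact hα
  obtain ⟨χ₁, χ₂, hh⟩ := halves_RR hodd hC h1 hα1
  obtain ⟨ν, hν⟩ := exists_alpha_neg_one h1 hα1
  have hdeg : ∀ χ χ' : Matrix.SpecialLinearGroup (Fin 2) F → ℂ, Halves C (RR α) χ χ' →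
      χ 1 = (((Fintype.card F + 1) / 2 : ℕ) : ℂ) := by
    intro χ χ' hh
    have := hh.two_mul_one
    rw [RR_one] at this
    obtain ⟨k, hk⟩ := hodd
    have e : (Fintype.card F + 1) / 2 = k + 1 := by omega
    rw [e]
    rw [hk] at this
    push_cast at this ⊢
    linear_combination (1 / 2 : ℂ) * this
  refine ⟨χ₁, χ₂, hh.irr1, hh.irr2, hh.ne, hh.sum, hdeg _ _ hh, hdeg _ _ hh.symm, dGL ν, ?_⟩
  intro g h H
  rw [eq_sg_of_conj ν H]
  exact halves_RR_swap hodd hC h1 hα1 hh hν g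

end Cfsg.Agent.S2307
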