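import Cfsg.Statements.S2308
import Cfsg.Agent.Lib.Helper44P1
-- import your own Cfsg.Agent.* helpers here

set_option autoImplicit false
open Cfsg

namespace Cfsg.Agent.S2308


/-- Values of the permutation character of GL₂ over a finite field F with q elements on the cosets of its upper triangular subgroup (equivalently, the number of lines of F² that an element maps to themselves): q + 1 at a scalar matrix, 2 at a diagonal matrix with two different diagonal entries, 0 at an element with no eigenvector in F², and 1 at an upper triangular matrix with equal diagonal entries and non-zero upper right entry. -/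
theorem result {F : Type*} [Field F] [Fintype F] (g : Matrix.GeneralLinearGroup (Fin 2) F) :
    ((∃ a : F, (g : Matrix (Fin 2) (Fin 2) F) = a • (1 : Matrix (Fin 2) (Fin 2) F)) → Cfsg.fixedPointCharacter (Cfsg.upperTriangularGL 2 F) g = Fintype.card F + 1) ∧
    ((g : Matrix (Fin 2) (Fin 2) F) 0 1 = 0 → (g : Matrix (Fin 2) (Fin 2) F) 1 0 = 0 → (g : Matrix (Fin 2) (Fin 2) F) 0 0 ≠ (g : Matrix (Fin 2) (Fin 2) F) 1 1 →
      Cfsg.fixedPointCharacter (Cfsg.upperTriangularGL 2 F) g = 2) ∧
    ((∀ (c : F) (v : Fin 2 → F), v ≠ 0 → (g : Matrix (Fin 2) (Fin 2) F).mulVec v ≠ c • v) → Cfsg.fixedPointCharacter (Cfsg.upperTriangularGL 2 F) g = 0) ∧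
    ((g : Matrix (Fin 2) (Fin 2) F) 1 0 = 0 → (g : Matrix (Fin 2) (Fin 2) F) 0 0 = (g : Matrix (Fin 2) (Fin 2) F) 1 1 → (g : Matrix (Fin 2) (Fin 2) F) 0 1 ≠ 0 →
      Cfsg.fixedPointCharacter (Cfsg.upperTriangularGL 2 F) g = 1) := by
  classical
  have hSL : ∀ M : Matrix (Fin 2) (Fin 2) F, M.det = 1 →
      ∃ γ : Matrix.GeneralLinearGroup (Fin 2) F,
        Cfsg.Agent.Lib.Helper44P1.mat (MonoidHom.id _) γ = M := by
    intro M hM
    exact ⟨Matrix.GeneralLinearGroup.mkOfDetNeZero M (by rw [hM]; exact one_ne_zero), rfl⟩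
  have key := Cfsg.Agent.Lib.Helper44P1.perm_formula
    (MonoidHom.id (Matrix.GeneralLinearGroup (Fin 2) F)) hSL g
  have hB : Cfsg.Agent.Lib.Helper44P1.Bor (MonoidHom.id (Matrix.GeneralLinearGroup (Fin 2) F)) =
      Cfsg.upperTriangularGL 2 F := Subgroup.comap_id _
  rw [hB] at key
  have hm : Cfsg.Agent.Lib.Helper44P1.mat (MonoidHom.id (Matrix.GeneralLinearGroup (Fin 2) F)) g =
      (g : Matrix (Fin 2) (Fin 2) F) := rfl
  rw [hm] at key
  refine ⟨?_, ?_, ?_, ?_⟩
  · rintro ⟨a, ha⟩
    rw [key, ha]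
    simp
  · intro h01 h10 hne
    rw [key, h01, h10]
    have : ∀ s : F, (0 + ((g : Matrix (Fin 2) (Fin 2) F) 1 1 - (g : Matrix (Fin 2) (Fin 2) F) 0 0) * s
        - 0 * s ^ 2 = 0) ↔ s = 0 := by
      intro s
      constructor
      · intro h
        have h2 : ((g : Matrix (Fin 2) (Fin 2) F) 1 1 - (g : Matrix (Fin 2) (Fin 2) F) 0 0) * s = 0 := by
          linear_combination h
        rcases mul_eq_zero.mp h2 with h3 | h3
        · exact absurd (sub_eq_zero.mp h3).symm hne
        · exact h3
      · rintro rfl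
        ring
    simp only [this]
    simp
    norm_num
  · intro hell
    rw [key]
    have h1 : ∀ s : F, ¬ ((g : Matrix (Fin 2) (Fin 2) F) 1 0 +
        ((g : Matrix (Fin 2) (Fin 2) F) 1 1 - (g : Matrix (Fin 2) (Fin 2) F) 0 0) * s
        - (g : Matrix (Fin 2) (Fin 2) F) 0 1 * s ^ 2 = 0) := by
      intro s hs
      apply hell ((g : Matrix (Fin 2) (Fin 2) F) 0 0 + (g : Matrix (Fin 2) (Fin 2) F) 0 1 * s) ![1, s]
      · intro h
        have := congrFun h 0
        simp at this
      · ext i
        fin_cases i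
        · simp [Matrix.mulVec, dotProduct, Fin.sum_univ_two]
        · simp [Matrix.mulVec, dotProduct, Fin.sum_univ_two]
          linear_combination hs
    have h2 : ¬ ((g : Matrix (Fin 2) (Fin 2) F) 0 1 = 0) := by
      intro hs
      apply hell ((g : Matrix (Fin 2) (Fin 2) F) 1 1) ![0, 1]
      · intro h
        have := congrFun h 1
        simp at this
      · ext i
        fin_cases i
        · simp [Matrix.mulVec, dotProduct, Fin.sum_univ_two, hs]
        · simp [Matrix.mulVec, dotProduct, Fin.sum_univ_two]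
    simp [h1, h2]
  · intro h10 heq hne
    rw [key, h10, heq]
    have : ∀ s : F, (0 + ((g : Matrix (Fin 2) (Fin 2) F) 1 1 - (g : Matrix (Fin 2) (Fin 2) F) 1 1) * s
        - (g : Matrix (Fin 2) (Fin 2) F) 0 1 * s ^ 2 = 0) ↔ s = 0 := by
      intro s
      constructor
      · intro h
        have h2 : (g : Matrix (Fin 2) (Fin 2) F) 0 1 * s ^ 2 = 0 := by
          linear_combination -h
        rcases mul_eq_zero.mp h2 with h3 | h3
        · exact absurd h3 hne
        · exact pow_eq_zero_iff (two_ne_zero) |>.mp h3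
      · rintro rfl
        ring
    simp only [this]
    simp [hne]

end Cfsg.Agent.S2308
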