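import Cfsg.Statements.S2309
import Cfsg.Agent.Lib.Helper44GL2Loc
-- import your own Cfsg.Agent.* helpers here

set_option autoImplicit false
open Cfsg

namespace Cfsg.Agent.S2309

open Matrix Cfsg.Agent.Lib.Helper44P1 Cfsg.Agent.Lib.Helper44B Cfsg.Agent.Lib.Helper44PS
  Cfsg.Agent.Lib.Helper44GL2 Cfsg.Agent.Lib.Helper44GL2Loc Cfsg.Agent.Lib.Helper44Master

theorem arith (Q : ℤ) (hQ : 2 ≤ Q) (m0 m1 N : ℕ) (h1 : m0 ≤ N) (h2 : N ≤ m0 ^ 2)
    (h : ((m0 : ℤ) - 2 * m1) ^ 2 + (Q + 1) * N ≤ 2 * (Q + 1)) :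
    ((m0 : ℤ) + (Q - 1) * m1 = Q + 1 →
      ((m0 : ℤ) - 2 * m1) ^ 2 + (Q + 1) * N = 2 * (Q + 1)) ∧
    ((m0 : ℤ) + (Q - 1) * m1 = Q - 1 → 3 ≤ Q → m0 = 0) := by
  have hN : N ≤ 2 := by
    by_contra hc
    push Not at hc
    have h3 : (3 : ℤ) ≤ N := by exact_mod_cast hc
    nlinarith [sq_nonneg ((m0 : ℤ) - 2 * m1)]
  have hm0 : m0 ≤ 2 := le_trans h1 hN
  have hb : ∀ D : ℤ, D ≤ Q + 1 → (m0 : ℤ) + (Q - 1) * m1 = D → m1 ≤ 3 := by
    intro D hD he
    by_contra hc
    push Not at hc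
    have h3 : (4 : ℤ) ≤ m1 := by exact_mod_cast hc
    have h4 : (0 : ℤ) ≤ m0 := by positivity
    nlinarith
  refine ⟨?_, ?_⟩
  · intro hd
    have := hb _ (by linarith) hd
    interval_cases m0 <;> interval_cases m1 <;> interval_cases N <;> simp at * <;> omega
  · intro hd hQ3
    have := hb _ (by linarith) hd
    interval_cases m0 <;> interval_cases m1 <;> interval_cases N <;> simp at * <;> omega

/-- Over a finite field F with q elements: every irreducible complex character of GL₂ of degree q − 1 vanishes at every diagonal matrix with two distinct entries, and every irreducible complex character of degree q + 1 vanishes at every element with no eigenvector in F². -/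
theorem result {F : Type*} [Field F] [Fintype F] (χ : Matrix.GeneralLinearGroup (Fin 2) F → ℂ) (hχ : Cfsg.IsIrrCharacter (Matrix.GeneralLinearGroup (Fin 2) F) χ) (g : Matrix.GeneralLinearGroup (Fin 2) F) :
    (χ 1 = (Fintype.card F : ℂ) - 1 → (g : Matrix (Fin 2) (Fin 2) F) 0 1 = 0 → (g : Matrix (Fin 2) (Fin 2) F) 1 0 = 0 → (g : Matrix (Fin 2) (Fin 2) F) 0 0 ≠ (g : Matrix (Fin 2) (Fin 2) F) 1 1 → χ g = 0) ∧
    (χ 1 = (Fintype.card F : ℂ) + 1 → (∀ (c : F) (v : Fin 2 → F), v ≠ 0 → (g : Matrix (Fin 2) (Fin 2) F).mulVec v ≠ c • v) → χ g = 0) := by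
  classical
  have : Fintype (Tor (iG F)) := Fintype.ofFinite _
  obtain ⟨N, m0, m1, hN, hm0, h1, h2, h3, hdeg, hu1, hineq, hell⟩ := gl2_master χ hχ
  have hq2 : 2 ≤ Fintype.card F := Fintype.one_lt_card
  obtain ⟨a1, a2⟩ := arith (Fintype.card F : ℤ) (by exact_mod_cast hq2) m0 m1 N h1 h2 hineq
  have hcl := Cfsg.Agent.Lib.Helper4Char.IsIrrCharacter.isClassFunction hχ
  rw [hdeg]
  constructor
  · intro hd h01 h10 hne
    have hd' : (m0 : ℤ) + ((Fintype.card F : ℤ) - 1) * m1 = (Fintype.card F : ℤ) - 1 := by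
      exact_mod_cast hd
    let t : Tor (iG F) := ⟨g, ⟨h01, h10⟩⟩
    have hne' : ta (iG F) t ≠ td (iG F) t := hne
    have hq3 : 3 ≤ Fintype.card F := by
      by_contra hc
      have hq : Fintype.card F = 2 := by omega
      have hU : Fintype.card Fˣ = 1 := by rw [Fintype.card_units, hq]
      have hsub : Subsingleton Fˣ := Fintype.card_le_one_iff_subsingleton.mp hU.le
      apply hne'
      have := hsub.elim (Units.mk0 _ (ta_ne_zero (iG F) t)) (Units.mk0 _ (td_ne_zero (iG F) t))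
      exact congrArg (fun x : Fˣ => (x : F)) this
    have hm00 := a2 hd' (by exact_mod_cast hq3)
    have h4 := tau_ne (iG F) hSL_G hι_G χ hcl t hne'
    rw [h3 hm00] at h4
    exact h4.symm
  · intro hd hg
    have hd' : (m0 : ℤ) + ((Fintype.card F : ℤ) - 1) * m1 = (Fintype.card F : ℤ) + 1 := by
      exact_mod_cast hd
    exact hell (a1 hd') g (pif_elliptic (iG F) hSL_G g hg)

end Cfsg.Agent.S2309
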