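import Cfsg.Statements.S2310
import Cfsg.Agent.Lib.Helper44GL2Loc
-- import your own Cfsg.Agent.* helpers here

set_option autoImplicit false
open Cfsg

namespace Cfsg.Agent.S2310

open Matrix Cfsg.Agent.Lib.Helper44P1 Cfsg.Agent.Lib.Helper44B Cfsg.Agent.Lib.Helper44PS
  Cfsg.Agent.Lib.Helper44GL2 Cfsg.Agent.Lib.Helper44GL2Loc

theorem arith (Q : ℤ) (hQ : 3 ≤ Q) (m0 m1 N : ℕ) (h1 : m0 ≤ N) (h2 : N ≤ m0 ^ 2)
    (h : ((m0 : ℤ) - 2 * m1) ^ 2 + (Q + 1) * N ≤ 2 * (Q + 1)) :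
    ((m0 : ℤ) + (Q - 1) * m1 = 1 → (m0 : ℤ) - m1 = 1) ∧
    ((m0 : ℤ) + (Q - 1) * m1 = Q + 1 → (m0 : ℤ) - m1 = 1) ∧
    ((m0 : ℤ) + (Q - 1) * m1 = Q - 1 → (m0 : ℤ) - m1 = -1) ∧
    ((m0 : ℤ) + (Q - 1) * m1 = Q → (m0 : ℤ) - m1 = 0) := by
  have hN : N ≤ 2 := by
    by_contra hc
    push Not at hc
    have h3 : (3 : ℤ) ≤ N := by exact_mod_cast hc
    nlinarith [sq_nonneg ((m0 : ℤ) - 2 * m1)]
  have hm0 : m0 ≤ 2 := le_trans h1 hN
  have hb : ∀ D : ℤ, D ≤ Q + 1 → (m0 : ℤ) + (Q - 1) * m1 = D → m1 ≤ 2 := by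
    intro D hD he
    by_contra hc
    push Not at hc
    have h3 : (3 : ℤ) ≤ m1 := by exact_mod_cast hc
    have h4 : (0 : ℤ) ≤ m0 := by positivity
    nlinarith
  refine ⟨?_, ?_, ?_, ?_⟩
  · intro hd
    have := hb _ (by linarith) hd
    interval_cases m0 <;> interval_cases m1 <;> interval_cases N <;> simp at * <;> omega
  · intro hd
    have := hb _ (by linarith) hd
    interval_cases m0 <;> interval_cases m1 <;> interval_cases N <;> simp at * <;> omega
  · intro hd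
    have := hb _ (by linarith) hd
    interval_cases m0 <;> interval_cases m1 <;> interval_cases N <;> simp at * <;> omega
  · intro hd
    have := hb _ (by linarith) hd
    interval_cases m0 <;> interval_cases m1 <;> interval_cases N <;> simp at * <;> omega

/-- Over a finite field F with q ≥ 3 elements, let u be the upper unitriangular matrix of GL₂ with off-diagonal entry 1. An irreducible complex character χ of GL₂ takes at u the value 1 if χ has degree 1 or q + 1, the value −1 if χ has degree q − 1, and the value 0 if χ has degree q. -/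
theorem result {F : Type*} [Field F] [Fintype F] (hq : 3 ≤ Fintype.card F) (χ : Matrix.GeneralLinearGroup (Fin 2) F → ℂ) (hχ : Cfsg.IsIrrCharacter (Matrix.GeneralLinearGroup (Fin 2) F) χ)
    (u : Matrix.GeneralLinearGroup (Fin 2) F) (hu : (u : Matrix (Fin 2) (Fin 2) F) = !![1, 1; 0, 1]) :
    (χ 1 = 1 → χ u = 1) ∧ (χ 1 = (Fintype.card F : ℂ) + 1 → χ u = 1) ∧
    (χ 1 = (Fintype.card F : ℂ) - 1 → χ u = -1) ∧ (χ 1 = (Fintype.card F : ℂ) → χ u = 0) := by
  classical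
  have : Fintype (Tor (iG F)) := Fintype.ofFinite _
  obtain ⟨N, m0, m1, hN, hm0, h1, h2, h3, hdeg, hu1, hineq, _⟩ := gl2_master χ hχ
  have hueq : u = uu (iG F) hSL_G 1 := by
    apply mat_injective (iG F) hι_G
    rw [mat_uu]
    exact hu
  have hχu : χ u = (m0 : ℂ) - m1 := by
    rw [hueq]
    exact hu1 1 one_ne_zero
  obtain ⟨a1, a2, a3, a4⟩ := arith (Fintype.card F : ℤ) (by exact_mod_cast hq) m0 m1 N h1 h2 hineq
  rw [hχu, hdeg]
  refine ⟨?_, ?_, ?_, ?_⟩
  · intro hd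
    have : (m0 : ℤ) + ((Fintype.card F : ℤ) - 1) * m1 = 1 := by exact_mod_cast hd
    exact_mod_cast a1 this
  · intro hd
    have : (m0 : ℤ) + ((Fintype.card F : ℤ) - 1) * m1 = (Fintype.card F : ℤ) + 1 := by
      exact_mod_cast hd
    exact_mod_cast a2 this
  · intro hd
    have : (m0 : ℤ) + ((Fintype.card F : ℤ) - 1) * m1 = (Fintype.card F : ℤ) - 1 := by
      exact_mod_cast hd
    exact_mod_cast a3 this
  · intro hd
    have : (m0 : ℤ) + ((Fintype.card F : ℤ) - 1) * m1 = (Fintype.card F : ℤ) := by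
      exact_mod_cast hd
    exact_mod_cast a4 this

end Cfsg.Agent.S2310
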