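import Cfsg.Statements.S2317
import Cfsg.Agent.Lib.Helper48UnipOrder

set_option autoImplicit false
open Cfsg

namespace Cfsg.Agent.S2317

open Cfsg.Agent.Lib.Helper48JordanClass Cfsg.Agent.Lib.Helper48UnipOrder

/-- Over a finite field of characteristic p, the conjugacy classes of GL_n consisting of elements of p-power order (the unipotent classes) are as many as the partitions of n. -/
theorem result {F : Type*} [Field F] [Fintype F] (p : ℕ) [Fact p.Prime] [CharP F p] (n : ℕ) :
    Nat.card {C : ConjClasses (Matrix.GeneralLinearGroup (Fin n) F) //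
      ∃ g : Matrix.GeneralLinearGroup (Fin n) F, (∃ k : ℕ, orderOf g = p ^ k) ∧ ConjClasses.mk g = C} =
      Fintype.card (Nat.Partition n) := by
  have h := card_classes (G := GL (Fin n) F) (α := Nat.Partition n) GType
    (fun g => ∃ k : ℕ, orderOf g = p ^ k) (fun _ => True)
    (fun g hg => exists_gtype g ((orderOf_pow_iff p g).1 hg))
    gtype_conj gtype_unique
    (fun μ _ => by
      obtain ⟨g, hg, -⟩ := exists_of_partition (F := F) μ
      exact ⟨g, hg⟩)
    (fun g μ hg => by
      simp only [iff_true]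
      exact (orderOf_pow_iff p g).2 (gtype_nilpotent g μ hg))
  have e1 : {C : ConjClasses (Matrix.GeneralLinearGroup (Fin n) F) //
      ∃ g : Matrix.GeneralLinearGroup (Fin n) F, (∃ k : ℕ, orderOf g = p ^ k) ∧ ConjClasses.mk g = C} ≃
      {C : ConjClasses (GL (Fin n) F) // ∃ g, ConjClasses.mk g = C ∧ ∃ k : ℕ, orderOf g = p ^ k} :=
    Equiv.subtypeEquivRight (fun C => by
      constructor
      · rintro ⟨g, h1, h2⟩; exact ⟨g, h2, h1⟩
      · rintro ⟨g, h1, h2⟩; exact ⟨g, h2, h1⟩)
  rw [Nat.card_congr e1, h, Nat.card_congr (Equiv.subtypeUnivEquiv (fun _ => trivial)),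
    Nat.card_eq_fintype_card]

end Cfsg.Agent.S2317
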