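import Cfsg.Statements.S2320
import Cfsg.Agent.Lib.Helper44GL2Loc
import Cfsg.Agent.Lib.Helper44St
-- import your own Cfsg.Agent.* helpers here

set_option autoImplicit false
open Cfsg

namespace Cfsg.Agent.S2320

open Matrix Cfsg.Agent.Lib.Helper44P1 Cfsg.Agent.Lib.Helper44B Cfsg.Agent.Lib.Helper44PS
  Cfsg.Agent.Lib.Helper44GL2 Cfsg.Agent.Lib.Helper44GL2Loc Cfsg.Agent.Lib.Helper44Master
  Cfsg.Agent.Lib.Helper44St

theorem arith (Q : ℤ) (hQ : 2 ≤ Q) (m0 m1 N : ℕ) (h1 : m0 ≤ N) (h2 : N ≤ m0 ^ 2)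
    (h : ((m0 : ℤ) - 2 * m1) ^ 2 + (Q + 1) * N ≤ 2 * (Q + 1)) :
    ((m0 : ℤ) + (Q - 1) * m1 = Q → m0 = 1) := by
  have hN : N ≤ 2 := by
    by_contra hc
    push Not at hc
    have h3 : (3 : ℤ) ≤ N := by exact_mod_cast hc
    nlinarith [sq_nonneg ((m0 : ℤ) - 2 * m1)]
  have hm0 : m0 ≤ 2 := le_trans h1 hN
  have hb : ∀ D : ℤ, D ≤ Q + 1 → (m0 : ℤ) + (Q - 1) * m1 = D → m1 ≤ 3 := by
    intro D hD he
    by_contra hc
    push Not at hc
    have h3 : (4 : ℤ) ≤ m1 := by exact_mod_cast hc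
    have h4 : (0 : ℤ) ≤ m0 := by positivity
    nlinarith
  intro hd
  have := hb _ (by linarith) hd
  interval_cases m0 <;> interval_cases m1 <;> interval_cases N <;> simp at * <;> omega

/-- Over a finite field F with q elements, every irreducible complex character of GL₂ of degree q takes a value of absolute value 1 at every diagonal matrix with two different diagonal entries and at every element with no eigenvector in F². -/
theorem result {F : Type*} [Field F] [Fintype F] (χ : Matrix.GeneralLinearGroup (Fin 2) F → ℂ) (hχ : Cfsg.IsIrrCharacter (Matrix.GeneralLinearGroup (Fin 2) F) χ) (hdeg : χ 1 = (Fintype.card F : ℂ)) (g : Matrix.GeneralLinearGroup (Fin 2) F) :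
    ((g : Matrix (Fin 2) (Fin 2) F) 0 1 = 0 → (g : Matrix (Fin 2) (Fin 2) F) 1 0 = 0 → (g : Matrix (Fin 2) (Fin 2) F) 0 0 ≠ (g : Matrix (Fin 2) (Fin 2) F) 1 1 → ‖χ g‖ = 1) ∧
    ((∀ (c : F) (v : Fin 2 → F), v ≠ 0 → (g : Matrix (Fin 2) (Fin 2) F).mulVec v ≠ c • v) → ‖χ g‖ = 1) := by
  classical
  have : Fintype (Tor (iG F)) := Fintype.ofFinite _
  obtain ⟨N, m0, m1, hN, hm0, h1, h2, h3, hdeg', hu1, hineq, hell⟩ := gl2_master χ hχ
  have hq2 : 2 ≤ Fintype.card F := Fintype.one_lt_card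
  have a1 := arith (Fintype.card F : ℤ) (by exact_mod_cast hq2) m0 m1 N h1 h2 hineq
  have hcl := Cfsg.Agent.Lib.Helper4Char.IsIrrCharacter.isClassFunction hχ
  rw [hdeg'] at hdeg
  have hd' : (m0 : ℤ) + ((Fintype.card F : ℤ) - 1) * m1 = (Fintype.card F : ℤ) := by
    exact_mod_cast hdeg
  have hm01 := a1 hd'
  rw [hm01, Nat.cast_one] at hm0
  rw [← hdeg'] at hdeg
  obtain ⟨hτ, lam, hlam, hlam1, hPhi⟩ := steinberg_like (iG F) hSL_G hι_G χ hχ hm0 hdeg
  constructor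
  · intro h01 h10 hne
    let t : Tor (iG F) := ⟨g, ⟨h01, h10⟩⟩
    have hne' : ta (iG F) t ≠ td (iG F) t := hne
    have h4 := tau_ne (iG F) hSL_G hι_G χ hcl t hne'
    have h5 : ‖tau (iG F) hSL_G χ t‖ = 1 :=
      Cfsg.Agent.Lib.Helper82Linear.irr_linear_norm ⟨_, hτ⟩ hm0 t
    rw [h4] at h5
    exact h5
  · intro hg
    have h4 := Phi_elliptic (iG F) hSL_G hι_G χ g (pif_elliptic (iG F) hSL_G g hg)
    rw [hPhi, Pi.add_apply] at h4
    have h5 : ‖lam g‖ = 1 := Cfsg.Agent.Lib.Helper82Linear.irr_linear_norm ⟨_, hlam⟩ hlam1 g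
    have h6 : χ g = - lam g := by linear_combination h4
    rw [h6, norm_neg]
    exact h5

end Cfsg.Agent.S2320
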