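import Cfsg.Statements.S2321
import Cfsg.Agent.Lib.Helper46SL2CharF
-- import your own Cfsg.Agent.* helpers here

set_option autoImplicit false
open Cfsg

namespace Cfsg.Agent.S2321

open Cfsg.Agent.Lib.Helper46SL2 Cfsg.Agent.Lib.Helper46Borel Cfsg.Agent.S2432
open Cfsg.Agent.Lib.Helper46SL2CharA Cfsg.Agent.Lib.Helper46SL2CharB Cfsg.Agent.Lib.Helper46SL2CharC
open Cfsg.Agent.Lib.Helper46SL2CharD Cfsg.Agent.Lib.Helper46SL2CharE Cfsg.Agent.Lib.Helper46SL2CharF

/-- Over a finite field F with q elements, an irreducible complex character of SL₂ of degree q (the Steinberg character) takes the value 1 at every diagonal matrix whose diagonal entry a has a² ≠ 1, the value −1 at every element with no eigenvector in F², and the value 0 at every upper triangular matrix with equal diagonal entries and non-zero upper right entry. -/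
theorem result {F : Type*} [Field F] [Fintype F] (χ : Matrix.SpecialLinearGroup (Fin 2) F → ℂ) (hχ : Cfsg.IsIrrCharacter (Matrix.SpecialLinearGroup (Fin 2) F) χ) (hdeg : χ 1 = (Fintype.card F : ℂ)) (g : Matrix.SpecialLinearGroup (Fin 2) F) :
    ((g : Matrix (Fin 2) (Fin 2) F) 0 1 = 0 → (g : Matrix (Fin 2) (Fin 2) F) 1 0 = 0 → (g : Matrix (Fin 2) (Fin 2) F) 0 0 ^ 2 ≠ 1 → χ g = 1) ∧
    ((∀ (c : F) (v : Fin 2 → F), v ≠ 0 → (g : Matrix (Fin 2) (Fin 2) F).mulVec v ≠ c • v) → χ g = -1) ∧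
    ((g : Matrix (Fin 2) (Fin 2) F) 1 0 = 0 → (g : Matrix (Fin 2) (Fin 2) F) 0 0 = (g : Matrix (Fin 2) (Fin 2) F) 1 1 → (g : Matrix (Fin 2) (Fin 2) F) 0 1 ≠ 0 → χ g = 0) := by
  classical
  have hSt := eq_St_of_deg hχ hdeg
  subst hSt
  refine ⟨?_, ?_, ?_⟩
  · intro h01 h10 h00
    obtain ⟨a, ha, hg⟩ := eq_mB_of_10 h10
    rw [hg]
    exact St_mB_of_sq_ne a _ (by rw [ha]; exact h00)
  · intro h
    exact St_noEig h
  · intro h10 h0011 h01
    obtain ⟨a, ha, hg⟩ := eq_mB_of_10 h10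
    have hdet := det2 g
    rw [hg]
    apply St_mB_unip a _ _ h01
    rw [ha]
    rw [h10, ← h0011] at hdet
    linear_combination hdet

end Cfsg.Agent.S2321
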