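import Cfsg.Statements.S2322
import Cfsg.Agent.Lib.Helper46SL2CharH
-- import your own Cfsg.Agent.* helpers here

set_option autoImplicit false
open Cfsg

namespace Cfsg.Agent.S2322

open Cfsg.Agent.Lib.Helper46SL2 Cfsg.Agent.Lib.Helper46Borel Cfsg.Agent.S2432
open Cfsg.Agent.Lib.Helper46SL2CharA Cfsg.Agent.Lib.Helper46SL2CharB Cfsg.Agent.Lib.Helper46SL2CharC
open Cfsg.Agent.Lib.Helper46SL2CharD Cfsg.Agent.Lib.Helper46SL2CharE Cfsg.Agent.Lib.Helper46SL2CharF
open Cfsg.Agent.Lib.Helper46SL2CharG Cfsg.Agent.Lib.Helper46SL2CharH Cfsg.Agent.Lib.Helper4Char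

/-- Over a finite field F with q elements, q odd: every irreducible complex character of SL₂ of degree q − 1 or (q − 1)/2 vanishes at every diagonal matrix whose diagonal entry a has a² ≠ 1, and every irreducible complex character of degree q + 1 or (q + 1)/2 vanishes at every element with no eigenvector in F². -/
theorem result {F : Type*} [Field F] [Fintype F] (hodd : Odd (Fintype.card F)) (χ : Matrix.SpecialLinearGroup (Fin 2) F → ℂ) (hχ : Cfsg.IsIrrCharacter (Matrix.SpecialLinearGroup (Fin 2) F) χ) (g : Matrix.SpecialLinearGroup (Fin 2) F) :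
    ((χ 1 = (Fintype.card F : ℂ) - 1 ∨ χ 1 = (((Fintype.card F - 1) / 2 : ℕ) : ℂ)) →
      (g : Matrix (Fin 2) (Fin 2) F) 0 1 = 0 → (g : Matrix (Fin 2) (Fin 2) F) 1 0 = 0 → (g : Matrix (Fin 2) (Fin 2) F) 0 0 ^ 2 ≠ 1 → χ g = 0) ∧
    ((χ 1 = (Fintype.card F : ℂ) + 1 ∨ χ 1 = (((Fintype.card F + 1) / 2 : ℕ) : ℂ)) →
      (∀ (c : F) (v : Fin 2 → F), v ≠ 0 → (g : Matrix (Fin 2) (Fin 2) F).mulVec v ≠ c • v) → χ g = 0) := by
  classical
  obtain ⟨C, hC⟩ := exists_isNS (F := F)
  have h2 := two_le_card (F := F)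
  have hq35 : Fintype.card F = 3 ∨ 5 ≤ Fintype.card F := by
    obtain ⟨k, hk⟩ := hodd
    omega
  constructor
  · intro hdeg h01 h10 h00
    obtain ⟨a, ha, hg⟩ := eq_mB_of_10 h10
    rcases hq35 with hq | hq
    · exact absurd (by rw [← ha]; exact unit_sq_of_card_three hq a) h00
    · rcases hdeg with h | h
      · obtain ⟨θ, α, -, -, rfl⟩ := of_deg_sub_one hC (by omega) hχ h
        rw [hg]
        exact cusp_mB_of_sq_ne hC θ α a _ (by rw [ha]; exact h00)
      · obtain ⟨θ, α, χ', -, -, -, hh⟩ := of_deg_half_sub hC hq hχ h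
        rw [hg]
        exact halfC_D hC hh a _ (by rw [ha]; exact h00)
  · intro hdeg hne
    rcases hdeg with h | h
    · obtain ⟨α, -, rfl⟩ := of_deg_add_one hχ h
      exact RR_noEig α hne
    · rcases hq35 with hq | hq
      · obtain ⟨n, hn, hcases⟩ := classify_deg hC hχ
        have e : n = (Fintype.card F + 1) / 2 := by
          rw [hn] at h
          exact_mod_cast h
        rcases hcases with ⟨h1, -⟩ | ⟨h1, -⟩ | ⟨h1, -⟩ | ⟨-, θ, α, -, hθ, rfl⟩ | ⟨-, -, α, χ', -, -, hh⟩ | ⟨-, h1, -⟩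
        · omega
        · omega
        · omega
        · obtain ⟨c, x, hc, hcz⟩ := exists_conj_C hC (g := g) hne
          rw [← cusp_isClassFunction θ α g x, hc, cusp_mem hC θ α c hcz,
            theta_add_inv_of_card_three hq hC hθ c hcz, neg_zero]
        · exact halfP_noEig hC hh hne
        · omega
      · obtain ⟨α, χ', -, -, hh⟩ := of_deg_half_add hC hq hχ h
        exact halfP_noEig hC hh hne

end Cfsg.Agent.S2322
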