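import Cfsg.Statements.S2323
import Cfsg.Agent.Lib.Helper46SL2CharF
-- import your own Cfsg.Agent.* helpers here

set_option autoImplicit false
open Cfsg

namespace Cfsg.Agent.S2323

open Cfsg.Agent.Lib.Helper46SL2 Cfsg.Agent.Lib.Helper46Borel Cfsg.Agent.S2432
open Cfsg.Agent.Lib.Helper46SL2CharA Cfsg.Agent.Lib.Helper46SL2CharB Cfsg.Agent.Lib.Helper46SL2CharC
open Cfsg.Agent.Lib.Helper46SL2CharD Cfsg.Agent.Lib.Helper46SL2CharE Cfsg.Agent.Lib.Helper46SL2CharF

/-- Over a finite field F with q ≥ 4 elements, let u be the upper unitriangular matrix of SL₂ with off-diagonal entry 1. An irreducible complex character of SL₂ takes at u the value 1 if its degree is q + 1 and the value −1 if its degree is q − 1. -/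
theorem result {F : Type*} [Field F] [Fintype F] (hq : 4 ≤ Fintype.card F) (χ : Matrix.SpecialLinearGroup (Fin 2) F → ℂ) (hχ : Cfsg.IsIrrCharacter (Matrix.SpecialLinearGroup (Fin 2) F) χ)
    (u : Matrix.SpecialLinearGroup (Fin 2) F) (hu : (u : Matrix (Fin 2) (Fin 2) F) = !![1, 1; 0, 1]) :
    (χ 1 = (Fintype.card F : ℂ) + 1 → χ u = 1) ∧ (χ 1 = (Fintype.card F : ℂ) - 1 → χ u = -1) := by
  classical
  obtain ⟨C, hC⟩ := exists_isNS (F := F)
  have hu' : u = (mB ((1 : Fˣ), (1 : F)) : Matrix.SpecialLinearGroup (Fin 2) F) := by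
    apply ext2
    · have := congrFun (congrFun hu 0) 0
      simpa [mB_00] using this
    · have := congrFun (congrFun hu 0) 1
      simpa [mB_01] using this
    · have := congrFun (congrFun hu 1) 0
      simpa [mB_10] using this
    · have := congrFun (congrFun hu 1) 1
      simpa [mB_11] using this
  constructor
  · intro h
    obtain ⟨α, -, rfl⟩ := of_deg_add_one hχ h
    rw [hu', RR_mB_unip α 1 1 (by simp) one_ne_zero]
    simp
  · intro h
    obtain ⟨θ, α, -, -, rfl⟩ := of_deg_sub_one hC hq hχ h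
    rw [hu', cusp_mB_unip hC θ α 1 1 (by simp) one_ne_zero]
    simp

end Cfsg.Agent.S2323
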