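import Cfsg.Statements.S2324
import Cfsg.Agent.Lib.Helper46SL2CharJ
-- import your own Cfsg.Agent.* helpers here

set_option autoImplicit false
open Cfsg

namespace Cfsg.Agent.S2324

open Cfsg.Agent.Lib.Helper46SL2 Cfsg.Agent.Lib.Helper46Borel Cfsg.Agent.S2432
open Cfsg.Agent.Lib.Helper4Char
open Cfsg.Agent.Lib.Helper46SL2CharA Cfsg.Agent.Lib.Helper46SL2CharB Cfsg.Agent.Lib.Helper46SL2CharC
open Cfsg.Agent.Lib.Helper46SL2CharD Cfsg.Agent.Lib.Helper46SL2CharE Cfsg.Agent.Lib.Helper46SL2CharF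
open Cfsg.Agent.Lib.Helper46SL2CharJ

theorem halves_other {F : Type*} [Field F] [Fintype F] [DecidableEq F]
    {C : Subgroup (Matrix.SpecialLinearGroup (Fin 2) F)}
    {Θ χ₁ χ₁' χ₂ χ₂' : Matrix.SpecialLinearGroup (Fin 2) F → ℂ} (h1 : Halves C Θ χ₁ χ₁')
    (h2 : Halves C Θ χ₂ χ₂') (hne : χ₁ ≠ χ₂) : χ₂ = χ₁' := by
  have : Cfsg.classInner χ₂ Θ ≠ 0 := by
    rw [h2.sum, classInner_add_right, classInner_irr_self h2.irr1, classInner_irr_ne h2.irr1 h2.irr2 h2.ne]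
    simp
  rcases h1.eq_or_eq h2.irr1 this with h | h
  · exact absurd h.symm hne
  · exact h

/-- Over a finite field F with q elements, q odd and q ≥ 5, let u be the upper unitriangular matrix of SL₂ with off-diagonal entry 1 and let δ = (−1)^((q−1)/2). Every irreducible complex character χ of SL₂ of degree (q + 1)/2 satisfies (2χ(u) − 1)² = δq, and every irreducible complex character χ of degree (q − 1)/2 satisfies (2χ(u) + 1)² = δq; that is, χ(u) = (1 ± √(δq))/2 in the first case and χ(u) = (−1 ± √(δq))/2 in the second. Moreover two different irreducible characters of degree (q + 1)/2 take the two different values (their values at u add up to 1), and likewise for degree (q − 1)/2 (values adding up to −1). -/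
theorem result {F : Type*} [Field F] [Fintype F] (hodd : Odd (Fintype.card F)) (hq : 5 ≤ Fintype.card F)
    (u : Matrix.SpecialLinearGroup (Fin 2) F) (hu : (u : Matrix (Fin 2) (Fin 2) F) = !![1, 1; 0, 1]) :
    (∀ χ : Matrix.SpecialLinearGroup (Fin 2) F → ℂ, Cfsg.IsIrrCharacter (Matrix.SpecialLinearGroup (Fin 2) F) χ → χ 1 = (((Fintype.card F + 1) / 2 : ℕ) : ℂ) → (2 * χ u - 1) ^ 2 = (-1 : ℂ) ^ ((Fintype.card F - 1) / 2) * (Fintype.card F : ℂ)) ∧
    (∀ χ : Matrix.SpecialLinearGroup (Fin 2) F → ℂ, Cfsg.IsIrrCharacter (Matrix.SpecialLinearGroup (Fin 2) F) χ → χ 1 = (((Fintype.card F - 1) / 2 : ℕ) : ℂ) → (2 * χ u + 1) ^ 2 = (-1 : ℂ) ^ ((Fintype.card F - 1) / 2) * (Fintype.card F : ℂ)) ∧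
    (∀ χ₁ χ₂ : Matrix.SpecialLinearGroup (Fin 2) F → ℂ, Cfsg.IsIrrCharacter (Matrix.SpecialLinearGroup (Fin 2) F) χ₁ → Cfsg.IsIrrCharacter (Matrix.SpecialLinearGroup (Fin 2) F) χ₂ → χ₁ ≠ χ₂ →
      χ₁ 1 = (((Fintype.card F + 1) / 2 : ℕ) : ℂ) → χ₂ 1 = (((Fintype.card F + 1) / 2 : ℕ) : ℂ) → χ₁ u + χ₂ u = 1) ∧
    (∀ χ₁ χ₂ : Matrix.SpecialLinearGroup (Fin 2) F → ℂ, Cfsg.IsIrrCharacter (Matrix.SpecialLinearGroup (Fin 2) F) χ₁ → Cfsg.IsIrrCharacter (Matrix.SpecialLinearGroup (Fin 2) F) χ₂ → χ₁ ≠ χ₂ →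
      χ₁ 1 = (((Fintype.card F - 1) / 2 : ℕ) : ℂ) → χ₂ 1 = (((Fintype.card F - 1) / 2 : ℕ) : ℂ) → χ₁ u + χ₂ u = -1) := by
  classical
  obtain ⟨C, hC⟩ := exists_isNS (F := F)
  have hu' : u = (mB ((1 : Fˣ), (1 : F)) : Matrix.SpecialLinearGroup (Fin 2) F) := by
    apply ext2
    · have := congrFun (congrFun hu 0) 0
      simpa [mB_00] using this
    · have := congrFun (congrFun hu 0) 1
      simpa [mB_01] using this
    · have := congrFun (congrFun hu 1) 0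
      simpa [mB_10] using this
    · have := congrFun (congrFun hu 1) 1
      simpa [mB_11] using this
  have sRR : ∀ (α : MulChar F ℂ) (χ χ' : Matrix.SpecialLinearGroup (Fin 2) F → ℂ),
      Halves C (RR α) χ χ' → χ u + χ' u = 1 := by
    intro α χ χ' hh
    have := congrFun hh.sum u
    rw [Pi.add_apply, hu', RR_mB_unip α 1 1 (by simp) one_ne_zero] at this
    rw [hu', ← this]
    simp
  have sC : ∀ (θ : C →* ℂˣ) (α : MulChar F ℂ) (χ χ' : Matrix.SpecialLinearGroup (Fin 2) F → ℂ),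
      Halves C (cusp θ α) χ χ' → χ u + χ' u = -1 := by
    intro θ α χ χ' hh
    have := congrFun hh.sum u
    rw [Pi.add_apply, hu', cusp_mB_unip hC θ α 1 1 (by simp) one_ne_zero] at this
    rw [hu', ← this]
    simp
  refine ⟨?_, ?_, ?_, ?_⟩
  · intro χ hχ h
    obtain ⟨α, χ', -, -, hh⟩ := of_deg_half_add hC hq hχ h
    have h1 := sRR α χ χ' hh
    have h2 := halves_D_sq hodd hC hh
    rw [← hu'] at h2
    rw [← h2]
    have : χ' u = 1 - χ u := by rw [← h1]; ring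
    rw [this]
    ring
  · intro χ hχ h
    obtain ⟨θ, α, χ', -, -, -, hh⟩ := of_deg_half_sub hC hq hχ h
    have h1 := sC θ α χ χ' hh
    have h2 := halves_D_sq hodd hC hh
    rw [← hu'] at h2
    rw [← h2]
    have : χ' u = -1 - χ u := by rw [← h1]; ring
    rw [this]
    ring
  · intro χ₁ χ₂ hχ₁ hχ₂ hne h1 h2
    obtain ⟨α, χ₁', a1, a2, hh⟩ := of_deg_half_add hC hq hχ₁ h1
    obtain ⟨α', χ₂', a1', a2', hh'⟩ := of_deg_half_add hC hq hχ₂ h2
    obtain rfl := mulChar_order_two_unique a1 a2 a1' a2'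
    rw [halves_other hh hh' hne]
    exact sRR α χ₁ χ₁' hh
  · intro χ₁ χ₂ hχ₁ hχ₂ hne h1 h2
    obtain ⟨θ, α, χ₁', c, a1, a2, hh⟩ := of_deg_half_sub hC hq hχ₁ h1
    obtain ⟨θ', α', χ₂', c', a1', a2', hh'⟩ := of_deg_half_sub hC hq hχ₂ h2
    obtain rfl := hom_order_two_unique' hC a1 a2 a1' a2'
    rw [cusp_congr hC c' c] at hh'
    rw [halves_other hh hh' hne]
    exact sC θ α χ₁ χ₁' hh

end Cfsg.Agent.S2324
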