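import Cfsg.Statements.S2329
import Cfsg.Agent.Lib.Helper44GL2Conj
-- import your own Cfsg.Agent.* helpers here

set_option autoImplicit false
open Cfsg

namespace Cfsg.Agent.S2329

open Cfsg.Agent.Lib.Helper44GL2Conj

theorem key {F : Type*} [Field F] (p : ℕ) [Fact p.Prime] [CharP F p]
    (g : Matrix.GeneralLinearGroup (Fin 2) F) (hg : orderOf g = p) :
    ¬ IsScalar (g : Matrix (Fin 2) (Fin 2) F) ∧ (g : Matrix (Fin 2) (Fin 2) F).trace = 2 ∧
      (g : Matrix (Fin 2) (Fin 2) F).det = 1 := by
  have hp : p.Prime := Fact.out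
  have : CharP (Matrix (Fin 2) (Fin 2) F) p := Matrix.charP p
  have hgp : g ^ p = 1 := by rw [← hg]; exact pow_orderOf_eq_one g
  have hM : (g : Matrix (Fin 2) (Fin 2) F) ^ p = 1 := by
    rw [← Units.val_pow_eq_pow_val, hgp]; rfl
  have hnil : IsNilpotent ((g : Matrix (Fin 2) (Fin 2) F) - 1) := by
    refine ⟨p, ?_⟩
    rw [sub_pow_char_of_commute p (Commute.one_right _), hM, one_pow, sub_self]
  have htr : ((g : Matrix (Fin 2) (Fin 2) F) - 1).trace = 0 :=
    (Matrix.isNilpotent_trace_of_isNilpotent hnil).eq_zero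
  have hdet : ((g : Matrix (Fin 2) (Fin 2) F) - 1).det = 0 := by
    obtain ⟨k, hk⟩ := hnil
    have := congrArg Matrix.det hk
    rw [Matrix.det_pow] at this
    have hk0 : k ≠ 0 := by
      rintro rfl
      simp at hk
    rw [Matrix.det_zero] at this
    exact pow_eq_zero_iff hk0 |>.mp this
  rw [Matrix.trace_fin_two] at htr
  rw [Matrix.det_fin_two] at hdet
  simp only [Matrix.sub_apply, Matrix.one_apply_eq, Matrix.one_apply_ne (show (0 : Fin 2) ≠ 1 by decide),
    Matrix.one_apply_ne (show (1 : Fin 2) ≠ 0 by decide), sub_zero] at htr hdet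
  have htr2 : (g : Matrix (Fin 2) (Fin 2) F).trace = 2 := by
    rw [Matrix.trace_fin_two]; linear_combination htr
  have hdet2 : (g : Matrix (Fin 2) (Fin 2) F).det = 1 := by
    rw [Matrix.det_fin_two]; linear_combination hdet + htr
  refine ⟨?_, htr2, hdet2⟩
  rintro ⟨h1, h2, h3⟩
  -- scalar: then (a-1)^2 = 0 so g = 1
  have ha : ((g : Matrix (Fin 2) (Fin 2) F) 0 0 - 1) ^ 2 = 0 := by
    rw [h1, h2, ← h3] at hdet
    linear_combination hdet
  have ha1 : (g : Matrix (Fin 2) (Fin 2) F) 0 0 = 1 := by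
    have := pow_eq_zero_iff (two_ne_zero) |>.mp ha
    linear_combination this
  have hg1 : g = 1 := by
    apply Units.ext
    ext i j
    fin_cases i <;> fin_cases j <;> simp [h1, h2, ← h3, ha1]
  rw [hg1, orderOf_one] at hg
  exact hp.one_lt.ne hg

/-- Over a finite field of characteristic p, any two elements of order p of GL₂ are conjugate: there is a single conjugacy class of non-identity unipotent elements. -/
theorem result {F : Type*} [Field F] [Fintype F] (p : ℕ) [Fact p.Prime] [CharP F p] (g h : Matrix.GeneralLinearGroup (Fin 2) F)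
    (hg : orderOf g = p) (hh : orderOf h = p) : IsConj g h := by
  obtain ⟨g1, g2, g3⟩ := key p g hg
  obtain ⟨h1, h2, h3⟩ := key p h hh
  exact isConj_of_trace_det g h g1 h1 (g2.trans h2.symm) (g3.trans h3.symm)

end Cfsg.Agent.S2329
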