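import Cfsg.Statements.S2330
import Cfsg.Agent.Lib.Helper44GL2Conj
-- import your own Cfsg.Agent.* helpers here

set_option autoImplicit false
open Cfsg

namespace Cfsg.Agent.S2330

open Cfsg.Agent.Lib.Helper44GL2Conj


/-- Over a finite field with q elements, the general linear group GL₂ has exactly q² − 1 conjugacy classes. -/
theorem result {F : Type*} [Field F] [Fintype F] :
    Nat.card (ConjClasses (Matrix.GeneralLinearGroup (Fin 2) F)) = Fintype.card F ^ 2 - 1 := by
  classical
  let Φ : Fˣ ⊕ (F × Fˣ) → ConjClasses (Matrix.GeneralLinearGroup (Fin 2) F) := fun x =>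
    match x with
    | Sum.inl a => ConjClasses.mk (Matrix.GeneralLinearGroup.scalar (Fin 2) a)
    | Sum.inr p => ConjClasses.mk (comp p.1 p.2)
  have hsc : ∀ a : Fˣ, IsScalar ((Matrix.GeneralLinearGroup.scalar (Fin 2) a :
      Matrix.GeneralLinearGroup (Fin 2) F) : Matrix (Fin 2) (Fin 2) F) := by
    intro a
    simp [IsScalar, Matrix.GeneralLinearGroup.coe_scalar]
  have hcomp : ∀ (t : F) (δ : Fˣ), ¬ IsScalar ((comp t δ :
      Matrix.GeneralLinearGroup (Fin 2) F) : Matrix (Fin 2) (Fin 2) F) := by
    intro t δ h
    have := h.2.1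
    rw [comp_coe] at this
    simp at this
  have hbij : Function.Bijective Φ := by
    constructor
    · rintro (a | ⟨t, δ⟩) (a' | ⟨t', δ'⟩) h
      · simp only [Φ] at h
        rw [ConjClasses.mk_eq_mk_iff_isConj, isConj_iff] at h
        obtain ⟨x, hx⟩ := h
        rw [isScalar_conj _ _ (hsc a)] at hx
        have h2 := congrArg (fun g : Matrix.GeneralLinearGroup (Fin 2) F =>
          (g : Matrix (Fin 2) (Fin 2) F) 0 0) hx
        simp [Matrix.GeneralLinearGroup.coe_scalar] at h2
        rw [Units.ext h2]
      · exfalso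
        simp only [Φ] at h
        rw [ConjClasses.mk_eq_mk_iff_isConj, isConj_iff] at h
        obtain ⟨x, hx⟩ := h
        rw [isScalar_conj _ _ (hsc a)] at hx
        apply hcomp t' δ'
        rw [← hx]
        exact hsc a
      · exfalso
        simp only [Φ] at h
        rw [ConjClasses.mk_eq_mk_iff_isConj, isConj_comm, isConj_iff] at h
        obtain ⟨x, hx⟩ := h
        rw [isScalar_conj _ _ (hsc a')] at hx
        apply hcomp t δ
        rw [← hx]
        exact hsc a'
      · simp only [Φ] at h
        rw [ConjClasses.mk_eq_mk_iff_isConj, isConj_iff] at h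
        obtain ⟨x, hx⟩ := h
        have h1 : ((comp t' δ' : Matrix.GeneralLinearGroup (Fin 2) F) :
            Matrix (Fin 2) (Fin 2) F) = (x : Matrix (Fin 2) (Fin 2) F) *
            ((comp t δ : Matrix.GeneralLinearGroup (Fin 2) F) : Matrix (Fin 2) (Fin 2) F) *
            ((x⁻¹ : Matrix.GeneralLinearGroup (Fin 2) F) : Matrix (Fin 2) (Fin 2) F) := by
          rw [← hx]; rfl
        have hxx : ((x⁻¹ : Matrix.GeneralLinearGroup (Fin 2) F) : Matrix (Fin 2) (Fin 2) F) *
            (x : Matrix (Fin 2) (Fin 2) F) = 1 := by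
          rw [← Matrix.GeneralLinearGroup.coe_mul, inv_mul_cancel]; rfl
        have htr := congrArg Matrix.trace h1
        rw [Matrix.trace_mul_comm, ← Matrix.mul_assoc, hxx, Matrix.one_mul, comp_coe, comp_coe,
          Matrix.trace_fin_two_of, Matrix.trace_fin_two_of] at htr
        have hdet := congrArg Matrix.det h1
        rw [Matrix.det_mul, Matrix.det_mul, mul_comm, ← mul_assoc, ← Matrix.det_mul, hxx,
          Matrix.det_one, one_mul, comp_coe, comp_coe, Matrix.det_fin_two_of,
          Matrix.det_fin_two_of] at hdet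
        have e1 : t = t' := by linear_combination -htr
        have e2 : δ = δ' := Units.ext (by linear_combination -hdet)
        rw [e1, e2]
    · intro c
      induction c using ConjClasses.mk_surjective.forall.mpr with | _ g => ?_
      by_cases hg : IsScalar (g : Matrix (Fin 2) (Fin 2) F)
      · have h0 : (g : Matrix (Fin 2) (Fin 2) F) 0 0 ≠ 0 := by
          intro h0
          have hd : (g : Matrix (Fin 2) (Fin 2) F).det ≠ 0 :=
            (Matrix.GeneralLinearGroup.det g).ne_zero
          apply hd
          rw [Matrix.det_fin_two, h0, hg.1]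
          ring
        refine ⟨Sum.inl (Units.mk0 _ h0), ?_⟩
        simp only [Φ]
        congr 1
        apply Units.ext
        ext i j
        fin_cases i <;> fin_cases j <;>
          simp [Matrix.GeneralLinearGroup.coe_scalar, hg.1, hg.2.1, hg.2.2]
      · refine ⟨Sum.inr ((g : Matrix (Fin 2) (Fin 2) F).trace, Matrix.GeneralLinearGroup.det g), ?_⟩
        simp only [Φ]
        rw [ConjClasses.mk_eq_mk_iff_isConj]
        exact (isConj_comp g hg _ _ rfl rfl).symm
  rw [← Nat.card_congr (Equiv.ofBijective Φ hbij), Nat.card_eq_fintype_card, Fintype.card_sum,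
    Fintype.card_prod, Fintype.card_units]
  have hq : 1 ≤ Fintype.card F := Fintype.card_pos
  obtain ⟨k, hk⟩ : ∃ k, Fintype.card F = k + 1 := ⟨Fintype.card F - 1, by omega⟩
  rw [hk]
  have : (k + 1) ^ 2 = k + (k + 1) * k + 1 := by ring
  rw [this]
  simp

end Cfsg.Agent.S2330
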