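import Cfsg.Statements.S2363
import Cfsg.Agent.Lib.Helper99LieOrd
import Cfsg.Agent.S0243
import Cfsg.Agent.S0245
import Cfsg.Agent.S0246
import Cfsg.Agent.S0280
import Cfsg.Agent.S0292
import Cfsg.Agent.S0293
import Cfsg.Agent.S0294
import Cfsg.Agent.S1059
import Cfsg.Agent.S1062
import Cfsg.Agent.S1063
import Cfsg.Agent.S1064
import Cfsg.Agent.S1065
import Cfsg.Agent.S1066
import Cfsg.Agent.S1067
import Cfsg.Agent.S1068
import Cfsg.Agent.S1069
import Cfsg.Agent.S1163

set_option autoImplicit false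
open Cfsg

namespace Cfsg.Agent.S2363

/-- Let G be a finite simple group of Lie type in characteristic p and let p^k be the exact power of p dividing the order of G. Then the order of G is less than p^(3k); and unless G is isomorphic to PSL(2, F) for the field F with p^k elements, the cube of the order of G is less than p^(8k) (that is, the order is below p^(8k/3)). -/
theorem result {G : Type*} [Group G] [Finite G] (p : ℕ) (hp : p.Prime) (hG : Cfsg.IsLieTypeChar p G) :
    Nat.card G < p ^ (3 * (Nat.card G).factorization p) ∧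
      ((¬ ∃ (F : Type) (_ : Field F) (_ : Fintype F), Fintype.card F = p ^ (Nat.card G).factorization p ∧
          Nonempty (G ≃* Matrix.ProjectiveSpecialLinearGroup (Fin 2) F)) →
        Nat.card G ^ 3 < p ^ (8 * (Nat.card G).factorization p)) := by
  have hg : 0 < Nat.card G := Nat.card_pos
  have key : ∀ {g : ℕ}, Helper99LieOrd.Good p g → ∀ (P : Prop),
      g < p ^ (3 * g.factorization p) ∧ (P → g ^ 3 < p ^ (8 * g.factorization p)) :=
    fun h _ => ⟨h.1, fun _ => h.2⟩
  rcases hG with h | h | h | h | h | h | h | h | h | h | h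
  · -- PSL
    obtain ⟨F, _, _, _, n, hn, -, ⟨e⟩⟩ := h
    obtain ⟨f, hf, hq⟩ := Helper99LieOrd.exists_pow (F := F) p (q := Fintype.card F) (e := 1)
      one_ne_zero (pow_one _).symm
    have h1 := Cfsg.Agent.S0243.result (F := F) rfl n hn
    rw [← Nat.card_congr e.toEquiv] at h1
    obtain ⟨h2, h3, h4⟩ := Helper99LieOrd.psl hp hq hf hg hn h1
    refine ⟨h2, fun hno => ?_⟩
    rcases Nat.lt_or_ge 2 n with h5 | h5
    · exact h3 h5
    · obtain rfl : n = 2 := by omega
      exact absurd ⟨F, inferInstance, inferInstance, h4 rfl, ⟨e⟩⟩ hno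
  · -- PSp
    obtain ⟨F, _, _, _, m, hm, -, ⟨e⟩⟩ := h
    obtain ⟨f, hf, hq⟩ := Helper99LieOrd.exists_pow (F := F) p (q := Fintype.card F) (e := 1)
      one_ne_zero (pow_one _).symm
    have h1 := Cfsg.Agent.S0245.result (F := F) rfl m
    have h2 := Cfsg.Agent.S0246.result (F := F) rfl m (by omega)
    have h3 := Subgroup.card_eq_card_quotient_mul_card_subgroup
      (Subgroup.center (Matrix.symplecticGroup (Fin m) F))
    rw [h1, h2] at h3
    have h4 : Nat.card G = Nat.card (Matrix.symplecticGroup (Fin m) F ⧸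
      Subgroup.center (Matrix.symplecticGroup (Fin m) F)) := Nat.card_congr e.toEquiv
    rw [← h4, mul_comm (Nat.card G)] at h3
    exact key (Helper99LieOrd.sp hp hq hf hg hm
      (Helper99LieOrd.cop_gcd (Helper99LieOrd.cop_sub_one Fintype.card_pos)) h3.symm) _
  · -- PSU
    obtain ⟨F, _, _, _, n, q, hF, hn, -, ⟨e⟩⟩ := h
    obtain ⟨f, hf, hq⟩ := Helper99LieOrd.exists_pow (F := F) p (q := q) (e := 2) two_ne_zero hF
    have h1 := Cfsg.Agent.S0280.result (F := F) hF n (by omega)
    rw [← Nat.card_congr e.toEquiv] at h1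
    exact key (Helper99LieOrd.psu hp hq hf hg hn h1) _
  · -- odd orthogonal
    obtain ⟨F, _, _, _, m, hm, hodd, ⟨e⟩⟩ := h
    obtain ⟨f, hf, hq⟩ := Helper99LieOrd.exists_pow (F := F) p (q := Fintype.card F) (e := 1)
      one_ne_zero (pow_one _).symm
    have h1 := Cfsg.Agent.S0292.result (F := F) rfl hodd m hm
    rw [← Nat.card_congr e.toEquiv] at h1
    exact key (Helper99LieOrd.sp hp hq hf hg (by omega)
      (Nat.coprime_two_left.2 hodd) h1) _
  · -- plus type
    obtain ⟨F, _, _, _, m, hm, ⟨e⟩⟩ := h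
    obtain ⟨f, hf, hq⟩ := Helper99LieOrd.exists_pow (F := F) p (q := Fintype.card F) (e := 1)
      one_ne_zero (pow_one _).symm
    have h1 := Cfsg.Agent.S0293.result (F := F) rfl m hm
    rw [← Nat.card_congr e.toEquiv] at h1
    exact key (Helper99LieOrd.oplus hp hq hf hg hm
      (Helper99LieOrd.cop_gcd (Helper99LieOrd.cop_pow_sub_one Fintype.card_pos (by omega))) h1) _
  · -- minus type
    obtain ⟨F, _, _, _, m, a, b, hm, hab, ⟨e⟩⟩ := h
    obtain ⟨f, hf, hq⟩ := Helper99LieOrd.exists_pow (F := F) p (q := Fintype.card F) (e := 1)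
      one_ne_zero (pow_one _).symm
    have h1 := Cfsg.Agent.S0294.result (F := F) rfl m hm a b hab
    rw [← Nat.card_congr e.toEquiv] at h1
    exact key (Helper99LieOrd.ominus hp hq hf hg hm
      (Helper99LieOrd.cop_gcd (Helper99LieOrd.cop_pow_add_one (by omega))) h1) _
  · -- exceptional Chevalley groups
    obtain ⟨F, _, _, _, h⟩ := h
    obtain ⟨f, hf, hq⟩ := Helper99LieOrd.exists_pow (F := F) p (q := Fintype.card F) (e := 1)
      one_ne_zero (pow_one _).symm
    rcases h with ⟨-, ⟨e⟩⟩ | ⟨⟨e⟩⟩ | ⟨⟨e⟩⟩ | ⟨⟨e⟩⟩ | ⟨⟨e⟩⟩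
    · have h1 := Cfsg.Agent.S1059.result (F := F) rfl
      rw [← Nat.card_congr e.toEquiv] at h1
      exact key (Helper99LieOrd.g2 hp hq hf hg h1) _
    · have h1 := Cfsg.Agent.S1062.result (F := F) rfl
      rw [← Nat.card_congr e.toEquiv] at h1
      exact key (Helper99LieOrd.f4 hp hq hf hg h1) _
    · have h1 := Cfsg.Agent.S1063.result (F := F) rfl
      rw [← Nat.card_congr e.toEquiv] at h1
      exact key (Helper99LieOrd.e6 hp hq hf hg
        (Helper99LieOrd.cop_gcd (Helper99LieOrd.cop_sub_one Fintype.card_pos)) h1) _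
    · have h1 := Cfsg.Agent.S1064.result (F := F) rfl
      rw [← Nat.card_congr e.toEquiv] at h1
      exact key (Helper99LieOrd.e7 hp hq hf hg
        (Helper99LieOrd.cop_gcd (Helper99LieOrd.cop_sub_one Fintype.card_pos)) h1) _
    · have h1 := Cfsg.Agent.S1065.result (F := F) rfl
      rw [← Nat.card_congr e.toEquiv] at h1
      exact key (Helper99LieOrd.e8 hp hq hf hg h1) _
  · -- twisted E6, D4
    obtain ⟨K, _, _, _, q, hpp, h⟩ := h
    rcases h with ⟨hK, ⟨e⟩⟩ | ⟨hK, ⟨e⟩⟩
    · obtain ⟨f, hf, hq⟩ := Helper99LieOrd.exists_pow (F := K) p (q := q) (e := 2) two_ne_zero hK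
      have h1 := Cfsg.Agent.S1066.result (K := K) hpp hK
      rw [← Nat.card_congr e.toEquiv] at h1
      exact key (Helper99LieOrd.tE6 hp hq hf hg
        (Helper99LieOrd.cop_gcd (by simp)) h1) _
    · obtain ⟨f, hf, hq⟩ := Helper99LieOrd.exists_pow (F := K) p (q := q) (e := 3) three_ne_zero hK
      have h1 := Cfsg.Agent.S1067.result (K := K) hpp hK
      rw [← Nat.card_congr e.toEquiv] at h1
      exact key (Helper99LieOrd.tD4 hp hq hf hg h1) _
  · -- Suzuki
    obtain ⟨rfl, F, _, _, m, hm, hF, ⟨e⟩⟩ := h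
    have h1 := (Cfsg.Agent.S1163.result (F := F) hm hF).1
    rw [← Nat.card_congr e.toEquiv] at h1
    exact key (Helper99LieOrd.tB2 (q := 2 ^ (2 * m + 1)) hp rfl (by omega) hg h1) _
  · -- 2F4
    obtain ⟨rfl, K, _, _, m, hm, hK, ⟨e⟩⟩ := h
    have h1 := Cfsg.Agent.S1068.result (K := K) hK
    rw [← Nat.card_congr e.toEquiv] at h1
    exact key (Helper99LieOrd.tF4 (q := 2 ^ (2 * m + 1)) hp rfl (by omega) hg h1) _
  · -- Ree
    obtain ⟨rfl, K, _, _, m, hm, hK, ⟨e⟩⟩ := h
    have h1 := Cfsg.Agent.S1069.result (K := K) hK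
    rw [← Nat.card_congr e.toEquiv] at h1
    exact key (Helper99LieOrd.tG2 (q := 3 ^ (2 * m + 1)) hp rfl (by omega) hg h1) _

end Cfsg.Agent.S2363
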