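import Mathlib
import Cfsg.Statements.S2364
import Cfsg.Agent.Lib.Helper7SL

set_option autoImplicit false
open Cfsg

namespace Cfsg.Agent.S2364

open Module

section abstract

variable {F V : Type*} [Field F] [Fintype F] [AddCommGroup V] [Module F V] [Module.Finite F V]

/-- counting lemma for an invariant subspace of an `r`-element. -/
theorem le_fix (r e m : ℕ) [hr : Fact r.Prime] (hq : ¬ r ∣ Fintype.card F)
    (hri : ∀ i, 1 ≤ i → i ≤ m → ¬ r ∣ Fintype.card F ^ i - 1)
    (f : Module.End F V) (hf : f ^ r ^ e = 1) (X : Submodule F V) (hX : ∀ x ∈ X, f x ∈ X)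
    (hdim : finrank F X ≤ finrank F (X ⊓ LinearMap.ker (f - 1) : Submodule F V) + m) :
    X ≤ LinearMap.ker (f - 1) := by
  classical
  have : Finite V := Module.finite_of_finite F
  have : Fintype V := Fintype.ofFinite V
  set Y : Submodule F V := X ⊓ LinearMap.ker (f - 1) with hY
  let g : Function.End X := fun x => ⟨f x, hX x x.2⟩
  have hgpow : ∀ k : ℕ, ∀ x : X, ((g ^ k) x : V) = (f ^ k) x := by
    intro k
    induction k with
    | zero => intro x; rfl
    | succ k ih =>
      intro x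
      rw [pow_succ', pow_succ']
      change f ((g ^ k) x : V) = f ((f ^ k) x)
      rw [ih]
  have hg : g ^ r ^ e = 1 := by
    funext x
    apply Subtype.ext
    rw [hgpow, hf]
    rfl
  have h1 := Equiv.Perm.card_fixedPoints_modEq hg
  have e1 : Fintype.card X = Fintype.card F ^ finrank F X := Module.card_eq_pow_finrank
  have e2 : Fintype.card (Function.fixedPoints g) = Fintype.card F ^ finrank F Y := by
    rw [← Module.card_eq_pow_finrank (K := F) (V := Y)]
    apply Fintype.card_congr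
    refine ⟨fun x => ⟨x.1.1, x.1.2, ?_⟩, fun y => ⟨⟨y.1, y.2.1⟩, ?_⟩, fun x => rfl, fun y => rfl⟩
    · have := congrArg Subtype.val x.2
      change x.1.1 ∈ LinearMap.ker (f - 1)
      rw [LinearMap.mem_ker, LinearMap.sub_apply, sub_eq_zero]
      exact this
    · have : y.1 ∈ LinearMap.ker (f - 1) := y.2.2
      rw [LinearMap.mem_ker, LinearMap.sub_apply, sub_eq_zero] at this
      exact Subtype.ext this
  rw [e1, e2] at h1
  have hle : finrank F Y ≤ finrank F X := Submodule.finrank_mono inf_le_left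
  have heq : finrank F Y = finrank F X := by
    by_contra hne
    have hlt : finrank F Y < finrank F X := lt_of_le_of_ne hle hne
    obtain ⟨d, hd⟩ : ∃ d, finrank F X = finrank F Y + d := ⟨_, (Nat.add_sub_cancel' hle).symm⟩
    have hd1 : 1 ≤ d := by omega
    have hdm : d ≤ m := by omega
    rw [hd, pow_add] at h1
    have h2 : r ∣ Fintype.card F ^ finrank F Y * Fintype.card F ^ d - Fintype.card F ^ finrank F Y :=
      (Nat.modEq_iff_dvd' (Nat.le_mul_of_pos_right _ (pow_pos Fintype.card_pos _))).1 h1.symm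
    have h3 : Fintype.card F ^ finrank F Y * Fintype.card F ^ d - Fintype.card F ^ finrank F Y =
        Fintype.card F ^ finrank F Y * (Fintype.card F ^ d - 1) := by
      rw [Nat.mul_sub, mul_one]
    rw [h3] at h2
    rcases (Nat.Prime.dvd_mul hr.out).1 h2 with h4 | h4
    · exact hq (hr.out.dvd_of_dvd_pow h4)
    · exact hri d hd1 hdm h4
  have : Y = X := Submodule.eq_of_le_of_finrank_eq inf_le_left heq
  rw [← this]
  exact inf_le_right

theorem eq_one_of_commute (r e n : ℕ) [hr : Fact r.Prime] (hn : 4 ≤ n) (hV : finrank F V = n)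
    (hq : ¬ r ∣ Fintype.card F)
    (hri : ∀ i, 1 ≤ i → i ≤ n - 2 → ¬ r ∣ Fintype.card F ^ i - 1)
    (f N : Module.End F V) (hf : f ^ r ^ e = 1) (hN : IsNilpotent N) (hN0 : N ≠ 0)
    (hc : Commute f N) : f = 1 := by
  set Fix := LinearMap.ker (f - 1) with hFix
  set K := LinearMap.ker N with hK
  set I := LinearMap.range N with hI
  have hKinv : ∀ x ∈ K, f x ∈ K := by
    intro x hx
    rw [hK, LinearMap.mem_ker] at hx ⊢
    have : N (f x) = f (N x) := by
      have := congrArg (fun g : Module.End F V => g x) hc.eq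
      exact this.symm
    rw [this, hx, map_zero]
  have hIinv : ∀ x ∈ I, f x ∈ I := by
    rintro _ ⟨y, rfl⟩
    have : f (N y) = N (f y) := congrArg (fun g : Module.End F V => g y) hc.eq
    rw [this]
    exact ⟨_, rfl⟩
  -- nonzero vector in K ⊓ I
  obtain ⟨y, hyK, hyI, hy0⟩ : ∃ y, y ∈ K ∧ y ∈ I ∧ y ≠ 0 := by
    obtain ⟨k, hk⟩ := hN
    have hex : ∃ k, N ^ k = 0 := ⟨k, hk⟩
    classical
    set j := Nat.find hex with hj
    have hj0 : N ^ j = 0 := Nat.find_spec hex
    have hj2 : 2 ≤ j := by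
      by_contra hlt
      have : j = 0 ∨ j = 1 := by omega
      rcases this with h | h
      · rw [h, pow_zero] at hj0
        apply hN0
        have : N = N * 1 := (mul_one N).symm
        rw [this, hj0, mul_zero]
      · rw [h, pow_one] at hj0
        exact hN0 hj0
    have hj1 : N ^ (j - 1) ≠ 0 := Nat.find_min hex (by omega)
    obtain ⟨v, hv⟩ : ∃ v, (N ^ (j - 1)) v ≠ 0 := by
      by_contra hall
      push Not at hall
      exact hj1 (LinearMap.ext hall)
    refine ⟨(N ^ (j - 1)) v, ?_, ?_, hv⟩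
    · rw [hK, LinearMap.mem_ker]
      have : N ((N ^ (j - 1)) v) = (N ^ j) v := by
        conv_rhs => rw [show j = (j - 1) + 1 by omega, pow_succ']
        rfl
      rw [this, hj0]
      rfl
    · refine ⟨(N ^ (j - 2)) v, ?_⟩
      conv_rhs => rw [show j - 1 = (j - 2) + 1 by omega, pow_succ']
      rfl
  have hsum : finrank F I + finrank F K = n := by
    rw [← hV]; exact LinearMap.finrank_range_add_finrank_ker N
  set Y := K ⊓ I with hYdef
  have hYpos : 1 ≤ finrank F Y := by
    have : Y ≠ ⊥ := fun h => hy0 (by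
      have : y ∈ Y := ⟨hyK, hyI⟩
      rw [h] at this
      simpa using this)
    exact Nat.one_le_iff_ne_zero.2 (fun h => this (Submodule.finrank_eq_zero.1 h))
  have hYK : finrank F Y ≤ finrank F K := Submodule.finrank_mono inf_le_left
  have hYI : finrank F Y ≤ finrank F I := Submodule.finrank_mono inf_le_right
  have hYinv : ∀ x ∈ Y, f x ∈ Y := fun x hx => ⟨hKinv x hx.1, hIinv x hx.2⟩
  have hYfix : Y ≤ Fix := le_fix r e (n - 2) hq hri f hf Y hYinv (by omega)
  have hKfix : K ≤ Fix := by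
    apply le_fix r e (n - 2) hq hri f hf K hKinv
    rw [← hFix]
    have : finrank F Y ≤ finrank F (K ⊓ Fix : Submodule F V) :=
      Submodule.finrank_mono (le_inf inf_le_left hYfix)
    omega
  have hIfix : I ≤ Fix := by
    apply le_fix r e (n - 2) hq hri f hf I hIinv
    rw [← hFix]
    have : finrank F Y ≤ finrank F (I ⊓ Fix : Submodule F V) :=
      Submodule.finrank_mono (le_inf inf_le_right hYfix)
    omega
  have htop : (⊤ : Submodule F V) ≤ Fix := by
    apply le_fix r e (n - 2) hq hri f hf ⊤ (fun _ _ => trivial)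
    rw [finrank_top, hV, top_inf_eq, ← hFix]
    have h1 : finrank F K ≤ finrank F Fix := Submodule.finrank_mono hKfix
    have h2 : finrank F I ≤ finrank F Fix := Submodule.finrank_mono hIfix
    omega
  ext v
  have : v ∈ Fix := htop trivial
  rw [hFix, LinearMap.mem_ker, LinearMap.sub_apply, sub_eq_zero] at this
  exact this

end abstract

section card

variable {F : Type*} [Field F] [Fintype F]

theorem card_SL (m : ℕ) :
    Nat.card (Matrix.SpecialLinearGroup (Fin (m + 1)) F) =
      (∏ i : Fin m, (Fintype.card F ^ (m + 1) - Fintype.card F ^ (i : ℕ))) * Fintype.card F ^ m := by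
  classical
  have h1 := Cfsg.Agent.Lib.Helper7SL.card_GL_eq_card_SL_mul_card_units (n := Fin (m + 1)) (R := F)
  rw [Matrix.card_GL_field, Fin.prod_univ_castSucc, Nat.card_eq_fintype_card (α := Fˣ),
    Fintype.card_units] at h1
  have hq : 1 < Fintype.card F := Fintype.one_lt_card
  have h2 : Fintype.card F ^ (m + 1) - Fintype.card F ^ ((Fin.last m : Fin (m + 1)) : ℕ) =
      Fintype.card F ^ m * (Fintype.card F - 1) := by
    rw [Fin.val_last, pow_succ, Nat.mul_sub, mul_one]
  rw [h2, ← mul_assoc] at h1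
  have h3 := Nat.eq_of_mul_eq_mul_right (by omega) h1
  rw [← h3]
  rfl

theorem dvd_card_SL_of_dvd_card (m r : ℕ) (hm : 2 ≤ m) (h : r ∣ Fintype.card F) :
    r ∣ Nat.card (Matrix.SpecialLinearGroup (Fin m) F) := by
  obtain ⟨m', rfl⟩ : ∃ m', m = m' + 1 := ⟨m - 1, by omega⟩
  rw [card_SL]
  exact Dvd.dvd.mul_left (dvd_trans h (dvd_pow_self _ (by omega))) _

theorem dvd_card_SL_of_dvd_pow_sub_one' (m r i : ℕ) (hi : 2 ≤ i) (him : i ≤ m)
    (h : r ∣ Fintype.card F ^ i - 1) :
    r ∣ Nat.card (Matrix.SpecialLinearGroup (Fin m) F) := by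
  obtain ⟨m', rfl⟩ : ∃ m', m = m' + 1 := ⟨m - 1, by omega⟩
  rw [card_SL]
  apply Dvd.dvd.mul_right
  have hj : m' + 1 - i < m' := by omega
  apply dvd_trans _ (Finset.dvd_prod_of_mem _ (Finset.mem_univ (⟨m' + 1 - i, hj⟩ : Fin m')))
  have : Fintype.card F ^ (m' + 1) - Fintype.card F ^ (m' + 1 - i) =
      Fintype.card F ^ (m' + 1 - i) * (Fintype.card F ^ i - 1) := by
    rw [Nat.mul_sub, mul_one, ← pow_add]
    congr 2
    omega
  simp only
  rw [this]
  exact Dvd.dvd.mul_left h _

theorem dvd_card_SL_of_dvd_pow_sub_one (m r i : ℕ) (hm : 2 ≤ m) (hi : 1 ≤ i) (him : i ≤ m)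
    (h : r ∣ Fintype.card F ^ i - 1) :
    r ∣ Nat.card (Matrix.SpecialLinearGroup (Fin m) F) := by
  rcases Nat.lt_or_ge i 2 with h1 | h1
  · obtain rfl : i = 1 := by omega
    apply dvd_card_SL_of_dvd_pow_sub_one' m r 2 le_rfl hm
    rw [pow_one] at h
    have hq : 1 < Fintype.card F := Fintype.one_lt_card
    have : Fintype.card F ^ 2 - 1 = (Fintype.card F - 1) * (Fintype.card F + 1) := by
      obtain ⟨c, hc⟩ : ∃ c, Fintype.card F = c + 1 := ⟨Fintype.card F - 1, by omega⟩
      rw [hc]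
      simp only [Nat.add_sub_cancel]
      have : (c + 1) ^ 2 = c * (c + 1 + 1) + 1 := by ring
      rw [this, Nat.add_sub_cancel]
    rw [this]
    exact Dvd.dvd.mul_right h _
  · exact dvd_card_SL_of_dvd_pow_sub_one' m r i h1 him h

end card

section main

variable {F : Type*} [Field F] [Fintype F]

theorem center_pow (n : ℕ) (z : Matrix.SpecialLinearGroup (Fin n) F)
    (hz : z ∈ Subgroup.center (Matrix.SpecialLinearGroup (Fin n) F)) :
    z ^ (Fintype.card F - 1) = 1 := by
  obtain ⟨c, hc, hcz⟩ := Matrix.SpecialLinearGroup.mem_center_iff.1 hz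
  rcases Nat.eq_zero_or_pos n with rfl | hn
  · exact Subsingleton.elim _ _
  have hc0 : c ≠ 0 := by
    rintro rfl
    rw [Fintype.card_fin, zero_pow (by omega)] at hc
    exact zero_ne_one hc
  apply Subtype.ext
  rw [Matrix.SpecialLinearGroup.coe_pow, ← hcz, ← map_pow, FiniteField.pow_card_sub_one_eq_one c hc0]
  simp

/-- the matrix statement. -/
theorem key (p : ℕ) [Fact p.Prime] [CharP F p] (n : ℕ) (hn : 4 ≤ n) (r e : ℕ) [hr : Fact r.Prime]
    (hq : ¬ r ∣ Fintype.card F)
    (hri : ∀ i, 1 ≤ i → i ≤ n - 2 → ¬ r ∣ Fintype.card F ^ i - 1)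
    (s u : Matrix.SpecialLinearGroup (Fin n) F) (hs : s ^ r ^ e = 1) (hu : u ^ p = 1) (hu1 : u ≠ 1)
    (hc : Commute s u) : s = 1 := by
  have : Nonempty (Fin n) := ⟨⟨0, by omega⟩⟩
  let φ := Matrix.toLinAlgEquiv' (R := F) (n := Fin n)
  have hV : Module.finrank F (Fin n → F) = n := by simp
  have h1 : (φ (s : Matrix (Fin n) (Fin n) F)) ^ r ^ e = 1 := by
    rw [← map_pow, ← Matrix.SpecialLinearGroup.coe_pow, hs]
    simp
  have h2 : IsNilpotent (φ ((u : Matrix (Fin n) (Fin n) F) - 1)) := by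
    refine ⟨p, ?_⟩
    rw [← map_pow, sub_pow_char_of_commute p (Commute.one_right _),
      ← Matrix.SpecialLinearGroup.coe_pow, hu]
    simp
  have h3 : φ ((u : Matrix (Fin n) (Fin n) F) - 1) ≠ 0 := by
    intro h
    rw [map_eq_zero_iff φ φ.injective, sub_eq_zero] at h
    exact hu1 (Subtype.ext h)
  have h4 : Commute (φ (s : Matrix (Fin n) (Fin n) F)) (φ ((u : Matrix (Fin n) (Fin n) F) - 1)) := by
    apply Commute.map _ φ
    apply Commute.sub_right _ (Commute.one_right _)
    have := congrArg (fun g : Matrix.SpecialLinearGroup (Fin n) F =>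
      (g : Matrix (Fin n) (Fin n) F)) hc.eq
    simp only [Matrix.SpecialLinearGroup.coe_mul] at this
    exact this
  have h5 := eq_one_of_commute r e n hn hV hq hri _ _ h1 h2 h3 h4
  have h6 : (s : Matrix (Fin n) (Fin n) F) = 1 := φ.injective (by rw [h5, map_one])
  exact Subtype.ext h6

end main

/-- Let F be a finite field of characteristic p, n ≥ 4, and let a, b be commuting elements of PSL(n, F) with a of order p. Then every prime divisor of the order of b divides the order of SL(n − 2, F). -/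
theorem result {F : Type*} [Field F] [Fintype F] (p : ℕ) [Fact p.Prime] [CharP F p] (n : ℕ) (hn : 4 ≤ n)
    (a b : Matrix.ProjectiveSpecialLinearGroup (Fin n) F) (ha : orderOf a = p) (hab : Commute a b) :
    (orderOf b).primeFactors ⊆ (Nat.card (Matrix.SpecialLinearGroup (Fin (n - 2)) F)).primeFactors := by
  classical
  intro r hr
  have hrp : r.Prime := Nat.prime_of_mem_primeFactors hr
  have hrb : r ∣ orderOf b := Nat.dvd_of_mem_primeFactors hr
  have : Fact r.Prime := ⟨hrp⟩
  have hp : p.Prime := Fact.out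
  rw [Nat.mem_primeFactors]
  refine ⟨hrp, ?_, Nat.card_pos.ne'⟩
  by_contra hnd
  set q := Fintype.card F with hqdef
  have hq1 : 1 < q := Fintype.one_lt_card
  have hpq : p ∣ q := by
    obtain ⟨k, -, hk⟩ := FiniteField.card F p
    rw [hqdef, hk]
    exact dvd_pow_self p k.ne_zero
  have hq : ¬ r ∣ q := fun h => hnd (dvd_card_SL_of_dvd_card (n - 2) r (by omega) h)
  have hri : ∀ i, 1 ≤ i → i ≤ n - 2 → ¬ r ∣ q ^ i - 1 :=
    fun i h1 h2 h => hnd (dvd_card_SL_of_dvd_pow_sub_one (n - 2) r i (by omega) h1 h2 h)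
  obtain ⟨A, rfl⟩ := QuotientGroup.mk_surjective a
  obtain ⟨B, rfl⟩ := QuotientGroup.mk_surjective b
  set Z := Subgroup.center (Matrix.SpecialLinearGroup (Fin n) F) with hZ
  have hAp : A ^ p ∈ Z := by
    rw [← QuotientGroup.eq_one_iff, QuotientGroup.mk_pow, ← ha, pow_orderOf_eq_one]
  set u := A ^ ((q - 1) ^ 2) with hu
  have hup : u ^ p = 1 := by
    rw [hu, ← pow_mul, mul_comm, pow_mul, pow_two, pow_mul, center_pow n _ hAp, one_pow]
  have hmod : (q - 1) ^ 2 ≡ 1 [MOD p] := by
    obtain ⟨c, hc⟩ : ∃ c, q = c + 2 := ⟨q - 2, by omega⟩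
    have e : (q - 1) ^ 2 = q * c + 1 := by
      rw [hc]
      simp only [show c + 2 - 1 = c + 1 by omega]
      ring
    rw [e]
    have : q * c ≡ 0 [MOD p] := (Nat.modEq_zero_iff_dvd.2 (Dvd.dvd.mul_right hpq c))
    simpa using this.add_right 1
  have hua : (QuotientGroup.mk u : Matrix.ProjectiveSpecialLinearGroup (Fin n) F) = QuotientGroup.mk A := by
    rw [hu, QuotientGroup.mk_pow]
    conv_rhs => rw [← pow_one (QuotientGroup.mk A : Matrix.ProjectiveSpecialLinearGroup (Fin n) F)]
    rw [pow_eq_pow_iff_modEq, ha]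
    exact hmod
  have hu1 : u ≠ 1 := by
    intro h
    rw [h] at hua
    have : orderOf (QuotientGroup.mk A : Matrix.ProjectiveSpecialLinearGroup (Fin n) F) = 1 := by
      rw [← hua]; simp
    rw [ha] at this
    exact hp.one_lt.ne' this
  -- B commutes with u
  have hζ : B * u * B⁻¹ * u⁻¹ ∈ Z := by
    rw [← QuotientGroup.eq_one_iff]
    simp only [QuotientGroup.mk_mul, QuotientGroup.mk_inv]
    have hua' : ((u : Matrix.SpecialLinearGroup (Fin n) F) : Matrix.SpecialLinearGroup (Fin n) F ⧸ Z) =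
      (A : Matrix.SpecialLinearGroup (Fin n) F ⧸ Z) := hua
    rw [hua']
    have hab' : (A : Matrix.SpecialLinearGroup (Fin n) F ⧸ Z) * (B : Matrix.SpecialLinearGroup (Fin n) F ⧸ Z) =
      (B : Matrix.SpecialLinearGroup (Fin n) F ⧸ Z) * (A : Matrix.SpecialLinearGroup (Fin n) F ⧸ Z) := hab.eq
    rw [← hab']
    group
  set ζ := B * u * B⁻¹ * u⁻¹ with hζdef
  have hζu : B * u * B⁻¹ = ζ * u := by rw [hζdef]; group
  have hζc : Commute ζ u := (Subgroup.mem_center_iff.1 hζ u).symm
  have hζp : ζ ^ p = 1 := by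
    have h1 : (B * u * B⁻¹) ^ p = 1 := by rw [conj_pow, hup]; group
    rw [hζu, hζc.mul_pow, hup, mul_one] at h1
    exact h1
  have hζ1 : ζ = 1 := by
    have h1 := orderOf_dvd_of_pow_eq_one hζp
    have h2 := orderOf_dvd_of_pow_eq_one (center_pow n ζ hζ)
    have hcop : Nat.Coprime p (q - 1) := by
      rw [Nat.Prime.coprime_iff_not_dvd hp]
      intro h
      have := (Nat.dvd_sub (m := q) (n := q - 1) hpq h)
      rw [show q - (q - 1) = 1 by omega] at this
      exact hp.one_lt.ne' (Nat.dvd_one.1 this)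
    have := Nat.dvd_gcd h1 h2
    rw [hcop.gcd_eq_one, Nat.dvd_one] at this
    exact orderOf_eq_one_iff.1 this
  have hBu : Commute B u := by
    rw [hζ1, one_mul] at hζu
    exact mul_inv_eq_iff_eq_mul.1 hζu
  -- the r-part of B
  have hrB : r ∣ orderOf B := dvd_trans hrb (orderOf_map_dvd (QuotientGroup.mk' Z) B)
  have hoB : orderOf B ≠ 0 := (orderOf_pos B).ne'
  obtain ⟨e, o', ho', hoe⟩ := Nat.exists_eq_pow_mul_and_not_dvd hoB r hrp.ne_one
  have hs : (B ^ o') ^ r ^ e = 1 := by
    rw [← pow_mul, mul_comm, ← hoe, pow_orderOf_eq_one]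
  have hsu : Commute (B ^ o') u := hBu.pow_left o'
  have hs1 := key p n hn r e hq hri (B ^ o') u hs hup hu1 hsu
  have h7 : orderOf B ∣ o' := orderOf_dvd_of_pow_eq_one hs1
  exact ho' (dvd_trans hrB h7)

end Cfsg.Agent.S2364
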