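import Cfsg.Statements.S2646
import Cfsg.Agent.Lib.Helper48GUCentE

set_option autoImplicit false
open Cfsg

namespace Cfsg.Agent.S2646

open Matrix Cfsg.Agent.Lib.Helper48GUCentA Cfsg.Agent.Lib.Helper48GUCentB
  Cfsg.Agent.Lib.Helper48GUCentC Cfsg.Agent.Lib.Helper48GUCentD Cfsg.Agent.Lib.Helper48GUCentE
  Cfsg.Agent.S2581 Cfsg.Agent.Lib.Helper48WallU Cfsg.Agent.Lib.Helper48Wall
  Cfsg.Agent.Lib.Helper7Herm Cfsg.Agent.Lib.Helper7GU

theorem cast_factor (q i : ℕ) (hq : 1 ≤ q) :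
    (((if Even i then q ^ (i + 1) + 1 else q ^ (i + 1) - 1 : ℕ)) : ℤ)
      = (q : ℤ) ^ (i + 1) - (-1) ^ (i + 1) := by
  have h1 : 1 ≤ q ^ (i + 1) := Nat.one_le_pow _ _ hq
  by_cases h : Even i
  · rw [if_pos h, (Even.add_one h).neg_one_pow]
    push_cast; ring
  · rw [if_neg h, (Nat.not_even_iff_odd.1 h).add_one.neg_one_pow, Nat.cast_sub h1]
    push_cast; ring

theorem nat_main {K : Type*} [Field K] [Fintype K] {q n t : ℕ} (hK : Fintype.card K = q ^ 2)
    (d : Fin t → ℕ) (hd : ∀ k, 1 ≤ d k) (e : ((k : Fin t) × Fin (d k)) ≃ Fin n)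
    (u : ↥(Cfsg.GU n K q))
    (hu : IsConj (Matrix.reindex e e (Cfsg.jordanTypeMatrix d K))
      ((u : GL (Fin n) K) : Matrix (Fin n) (Fin n) K)) (N : ℕ) (hn : ∀ k, d k < N) :
    Nat.card ↥(Subgroup.centralizer ({u} : Set ↥(Cfsg.GU n K q)))
      = q ^ (Fintype.card (RR d)) * ∏ a : Fin N,
        Nat.card (Cfsg.GU (Finset.univ.filter (fun k : Fin t => d k = a.val)).card K q) := by
  classical
  obtain ⟨φ, hφq, hφ2, ω, hω⟩ := exists_frob hK
  have hq := two_le_q hK
  set ω₀ := ω - φ ω with hω₀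
  have h0 : ω₀ ≠ 0 := sub_ne_zero.2 hω.symm
  have hφω₀ : φ ω₀ = -ω₀ := by rw [hω₀, map_sub, hφ2]; ring
  rw [card_centralizer hK d hd e u hu φ hφq hφ2 ω hω ω₀ h0 hφω₀]
  have hsplit := card_units_split (A := Matrix (II d) (II d) K) (dag d φ ω₀) (dag_mul φ ω₀ h0)
    (dag_one φ ω₀ h0) (dag_dag φ hφ2 ω₀ h0 hφω₀) (fun X => X * NN K d = NN K d * X)
    (by
      intro a b ha hb
      show a * b * NN K d = NN K d * (a * b)
      rw [mul_assoc, hb, ← mul_assoc, ha, mul_assoc])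
    (by
      intro X hX
      have h1 : Commute X.1 (NN K d) := hX
      exact h1.units_inv_left.eq)
    (fun a ha => dag_comm φ ω₀ h0 a ha)
    (by
      rintro Y ⟨hY1, hY2⟩
      obtain ⟨Z, Z', h1, h2, h3, h4⟩ := exists_herm_sqrt φ hφ2 ω hω (dag d φ ω₀) (dag_mul φ ω₀ h0)
        (dag_one φ ω₀ h0) (dag_smul φ ω₀) Y.1 (Y⁻¹ : (Matrix (II d) (II d) K)ˣ).1
        (Units.mul_inv Y) (Units.inv_mul Y) hY2
      exact ⟨⟨Z, Z', h1, h2⟩, (h4 _ hY1).1.eq, h3⟩)
  rw [card_comm hd N hn, card_herm hd φ ω₀ h0 N hn] at hsplit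
  have hfix := card_fix_sq φ hφ2 ω hω (tau hd φ ω₀) (tau_smul hd φ ω₀)
    (tau_tau hd φ ω₀ hφ2 h0 hφω₀)
  rw [Nat.card_fun, Nat.card_eq_fintype_card (α := K), Nat.card_eq_fintype_card (α := RR d), hK,
    ← pow_mul, mul_comm 2, pow_mul, sq] at hfix
  have hf : Nat.card {r : RR d → K // tau hd φ ω₀ r = r} = q ^ Fintype.card (RR d) :=
    Nat.mul_self_inj.1 hfix
  have hg : ∀ a : Fin N,
      Nat.card {M : Matrix {k // d k = a.val} {k // d k = a.val} K // M.det ≠ 0}
      = Nat.card (Cfsg.GU (Finset.univ.filter (fun k : Fin t => d k = a.val)).card K q) *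
        Nat.card {M : {M : Matrix {k // d k = a.val} {k // d k = a.val} K // M.det ≠ 0} //
          cs φ M.1 = M.1} :=
    fun a => card_gl_split hK φ hφq hφ2 ω hω _ (Fintype.card_subtype _)
  have hpos : ∀ a : Fin N, 0 < Nat.card {M : {M : Matrix {k // d k = a.val} {k // d k = a.val} K //
      M.det ≠ 0} // cs φ M.1 = M.1} := by
    intro a
    have : Nonempty {M : {M : Matrix {k // d k = a.val} {k // d k = a.val} K //
      M.det ≠ 0} // cs φ M.1 = M.1} := ⟨⟨⟨1, by rw [Matrix.det_one]; exact one_ne_zero⟩, cs_one φ⟩⟩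
    exact Nat.card_pos
  rw [Finset.prod_congr rfl (fun a _ => hg a), Finset.prod_mul_distrib, hf, Nat.card_fun,
    Nat.card_eq_fintype_card (α := K), Nat.card_eq_fintype_card (α := RR d), hK, ← pow_mul,
    mul_comm 2, pow_mul, sq] at hsplit
  have hP : 0 < q ^ Fintype.card (RR d) * ∏ a : Fin N,
      Nat.card {M : {M : Matrix {k // d k = a.val} {k // d k = a.val} K // M.det ≠ 0} //
          cs φ M.1 = M.1} :=
    Nat.mul_pos (pow_pos (by omega) _) (Finset.prod_pos (fun a _ => hpos a))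
  apply Nat.eq_of_mul_eq_mul_right hP
  rw [← hsplit]
  ring

/-- Order of the centraliser in the general unitary group GU_n(q) of a unipotent element of given Jordan type: if u ∈ GU_n(q) (isometries of Σ u_i v_i^q over the field with q² elements) is similar to the unipotent matrix with a_i Jordan blocks of size i (all sizes at least 1), then its centraliser in GU_n(q) has order q^γ · Π_i |GU_(a_i)(q)| with γ = 2 Σ_(i<j) i a_i a_j + Σ_i (i − 1) a_i², the same exponent as in GL_n(q), where |GU_a(q)| = q^(a(a−1)/2) Π_(k=1)^a (q^k − (−1)^k). -/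
theorem result {K : Type*} [Field K] [Fintype K] {q n t : ℕ} (hK : Fintype.card K = q ^ 2) (d : Fin t → ℕ) (hd : ∀ k, 1 ≤ d k) (e : ((k : Fin t) × Fin (d k)) ≃ Fin n) (u : ↥(Cfsg.GU n K q)) (hu : IsConj (Matrix.reindex e e (Cfsg.jordanTypeMatrix d K)) ((u : GL (Fin n) K) : Matrix (Fin n) (Fin n) K)) : (Nat.card ↥(Subgroup.centralizer ({u} : Set ↥(Cfsg.GU n K q))) : ℤ) = (q : ℤ) ^ (2 * (∑ i ∈ Finset.range (Finset.univ.sup d + 1), ∑ j ∈ Finset.range (Finset.univ.sup d + 1), if i < j then i * (Finset.univ.filter (fun k : Fin t => d k = i)).card * (Finset.univ.filter (fun k : Fin t => d k = j)).card else 0) + ∑ i ∈ Finset.range (Finset.univ.sup d + 1), (i - 1) * (Finset.univ.filter (fun k : Fin t => d k = i)).card ^ 2) * ∏ i ∈ Finset.range (Finset.univ.sup d + 1), ((q : ℤ) ^ ((Finset.univ.filter (fun k : Fin t => d k = i)).card * ((Finset.univ.filter (fun k : Fin t => d k = i)).card - 1) / 2) * ∏ j : Fin (Finset.univ.filter (fun k : Fin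 t => d k = i)).card, ((q : ℤ) ^ ((j : ℕ) + 1) - (-1) ^ ((j : ℕ) + 1))) := by
  have hn : ∀ k, d k < Finset.univ.sup d + 1 :=
    fun k => Nat.lt_succ_of_le (Finset.le_sup (f := d) (Finset.mem_univ k))
  have hq := two_le_q hK
  rw [nat_main hK d hd e u hu _ hn, card_RR hd, gamma_eq d _ hn, Finset.prod_range]
  push_cast
  congr 1
  apply Finset.prod_congr rfl
  intro a _
  rw [card_GU hK]
  push_cast
  congr 1
  rw [Finset.prod_range]
  apply Finset.prod_congr rfl
  intro j _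
  have := cast_factor q j.val (by omega)
  rw [← this]
  push_cast
  rfl

end Cfsg.Agent.S2646
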