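import Cfsg.Statements.S2365
import Cfsg.Agent.S2646
import Cfsg.Agent.Lib.Helper7SU

set_option autoImplicit false
open Cfsg

namespace Cfsg.Agent.S2365

open Matrix Cfsg.Agent.S2581 Cfsg.Agent.Lib.Helper48RankSeq Cfsg.Agent.Lib.Helper48Chain3
  Cfsg.Agent.Lib.Helper7Herm Cfsg.Agent.Lib.Helper7GU Cfsg.Agent.Lib.Helper7SU

theorem lift_pair {G : Type*} [Group G] [Finite G] (p r : ℕ) (hp : p.Prime) (hr : r.Prime)
    (hpr : p ≠ r) (a b : G ⧸ Subgroup.center G) (ha : orderOf a = p) (hab : Commute a b)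
    (hrb : r ∣ orderOf b) :
    ∃ (u s : G) (f : ℕ), u ≠ 1 ∧ u ^ p ^ f = 1 ∧ r ∣ orderOf s ∧ Commute s u := by
  obtain ⟨A, rfl⟩ := QuotientGroup.mk_surjective a
  obtain ⟨B, rfl⟩ := QuotientGroup.mk_surjective b
  set Z := Subgroup.center G with hZ
  obtain ⟨f, o', ho', hof⟩ := Nat.exists_eq_pow_mul_and_not_dvd (orderOf_pos A).ne' p hp.ne_one
  have hcop : Nat.Coprime o' p := ((Nat.Prime.coprime_iff_not_dvd hp).2 ho').symm
  obtain ⟨k, -, hk⟩ := Nat.exists_mul_mod_eq_one_of_coprime hcop hp.one_lt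
  set u := A ^ (o' * k) with hu
  have hup : u ^ p ^ f = 1 := by
    rw [hu, ← pow_mul, show o' * k * p ^ f = (p ^ f * o') * k by ring, ← hof, pow_mul,
      pow_orderOf_eq_one, one_pow]
  have hua : (QuotientGroup.mk u : G ⧸ Z) = QuotientGroup.mk A := by
    rw [hu, QuotientGroup.mk_pow]
    conv_rhs => rw [← pow_one (QuotientGroup.mk A : G ⧸ Z)]
    rw [pow_eq_pow_iff_modEq, ha]
    show o' * k % p = 1 % p
    rw [hk, Nat.mod_eq_of_lt hp.one_lt]
  have hu1 : u ≠ 1 := by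
    intro h
    rw [h] at hua
    have : orderOf (QuotientGroup.mk A : G ⧸ Z) = 1 := by
      rw [← hua]; simp
    rw [ha] at this
    exact hp.one_lt.ne' this
  obtain ⟨e, o'', ho'', hoe⟩ := Nat.exists_eq_pow_mul_and_not_dvd (orderOf_pos B).ne' r hr.ne_one
  set s := B ^ o'' with hs
  have hsr : s ^ r ^ e = 1 := by
    rw [hs, ← pow_mul, mul_comm, ← hoe, pow_orderOf_eq_one]
  have hrB : r ∣ orderOf B := dvd_trans hrb (orderOf_map_dvd (QuotientGroup.mk' Z) B)
  have hs1 : s ≠ 1 := fun h => ho'' (dvd_trans hrB (orderOf_dvd_of_pow_eq_one h))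
  have hrs : r ∣ orderOf s := by
    obtain ⟨j, -, hj⟩ := (Nat.dvd_prime_pow hr).1 (orderOf_dvd_of_pow_eq_one hsr)
    rw [hj]
    apply dvd_pow_self
    rintro rfl
    rw [pow_zero, orderOf_eq_one_iff] at hj
    exact hs1 hj
  have hc : Commute (QuotientGroup.mk s : G ⧸ Z) (QuotientGroup.mk u) := by
    rw [hua, hs, QuotientGroup.mk_pow]
    exact hab.symm.pow_left o''
  set ζ := s * u * s⁻¹ * u⁻¹ with hζdef
  have hζ : ζ ∈ Z := by
    rw [← QuotientGroup.eq_one_iff, hζdef]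
    simp only [QuotientGroup.mk_mul, QuotientGroup.mk_inv]
    have hc' : (s : G ⧸ Z) * (u : G ⧸ Z) = (u : G ⧸ Z) * (s : G ⧸ Z) := hc.eq
    rw [hc']
    group
  have hζu : s * u * s⁻¹ = ζ * u := by rw [hζdef]; group
  have hζc : Commute ζ u := (Subgroup.mem_center_iff.1 hζ u).symm
  have hζp : ζ ^ p ^ f = 1 := by
    have h1 : (s * u * s⁻¹) ^ p ^ f = 1 := by rw [conj_pow, hup]; group
    rw [hζu, hζc.mul_pow, hup, mul_one] at h1
    exact h1
  have hζs : u * s * u⁻¹ = ζ⁻¹ * s := by rw [hζdef]; group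
  have hζc0 : Commute ζ s := (Subgroup.mem_center_iff.1 hζ s).symm
  have hζc' : Commute ζ⁻¹ s := hζc0.inv_left
  have hζr : ζ ^ r ^ e = 1 := by
    have h1 : (u * s * u⁻¹) ^ r ^ e = 1 := by rw [conj_pow, hsr]; group
    rw [hζs, hζc'.mul_pow, hsr, mul_one, inv_pow, inv_eq_one] at h1
    exact h1
  have hζ1 : ζ = 1 := by
    have h1 := orderOf_dvd_of_pow_eq_one hζp
    have h2 := orderOf_dvd_of_pow_eq_one hζr
    have hcop : Nat.Coprime (p ^ f) (r ^ e) := Nat.Coprime.pow _ _ ((Nat.coprime_primes hp hr).2 hpr)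
    have := Nat.dvd_gcd h1 h2
    rw [hcop.gcd_eq_one, Nat.dvd_one] at this
    exact orderOf_eq_one_iff.1 this
  refine ⟨u, s, f, hu1, hup, hrs, ?_⟩
  rw [hζ1, one_mul] at hζu
  exact mul_inv_eq_iff_eq_mul.1 hζu

theorem exists_jordan {F : Type*} [Field F] {m : ℕ} (M : Matrix (Fin m) (Fin m) F)
    (hM : IsNilpotent (M - 1)) (hM1 : M ≠ 1) :
    ∃ (t : ℕ) (d : Fin t → ℕ) (e : ((k : Fin t) × Fin (d k)) ≃ Fin m), (∀ k, 1 ≤ d k) ∧
      IsConj (Matrix.reindex e e (Cfsg.jordanTypeMatrix d F)) M ∧ ∑ k, d k = m ∧ ∃ k₀, 2 ≤ d k₀ := by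
  obtain ⟨s, hs⟩ := exists_type (Matrix.toLin' (M - 1)) (hM.map (Matrix.toLinAlgEquiv' (R := F)))
  have hrs : RankSeq M s := by
    intro k
    rw [← finrank_range_pow, hs.rank k]
  have h0 := hs.zero_notMem
  obtain ⟨t, d, b, hb, hd, rfl⟩ := hs
  have hJ := rankSeq_jordan (F := F) d
  have hsum : (Finset.univ.val.map d).sum = ∑ k, d k := rfl
  have hcard : Fintype.card ((k : Fin t) × Fin (d k)) = m := by
    rw [hJ.card, ← hrs.card, Fintype.card_fin]
  have hm : ∑ k, d k = m := by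
    rw [← hsum, ← hrs.card, Fintype.card_fin]
  refine ⟨t, d, Fintype.equivFinOfCardEq hcard, fun k => Nat.one_le_iff_ne_zero.2 (hd k),
    (hJ.reindex _).isConj hrs h0, hm, ?_⟩
  by_contra hcon
  push Not at hcon
  apply hM1
  have h1 := hrs 1
  rw [pow_one, Multiset.sum_eq_zero] at h1
  · exact sub_eq_zero.1 (eq_zero_of_rank _ h1)
  · intro x hx
    obtain ⟨a, ha, rfl⟩ := Multiset.mem_map.1 hx
    obtain ⟨k, -, rfl⟩ := Multiset.mem_map.1 ha
    have := hcon k
    omega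

theorem card_filter_le {t m : ℕ} (d : Fin t → ℕ) (hm : ∑ k, d k = m) (hm4 : 4 ≤ m)
    (hd : ∀ k, 1 ≤ d k) (k₀ : Fin t) (hk₀ : 2 ≤ d k₀) (i : ℕ) :
    (Finset.univ.filter (fun k : Fin t => d k = i)).card ≤ m - 2 := by
  classical
  have h1 := Finset.sum_filter_add_sum_filter_not Finset.univ (fun k : Fin t => d k = i) d
  rw [hm] at h1
  have h2 : ∑ k ∈ Finset.univ.filter (fun k : Fin t => d k = i), d k
      = (Finset.univ.filter (fun k : Fin t => d k = i)).card * i := by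
    rw [Finset.sum_congr rfl (fun k hk => (Finset.mem_filter.1 hk).2), Finset.sum_const, smul_eq_mul]
  rw [h2] at h1
  set c := (Finset.univ.filter (fun k : Fin t => d k = i)).card with hc
  rcases Nat.lt_or_ge i 2 with hi | hi
  · have h3 : d k₀ ≤ ∑ k ∈ Finset.univ.filter (fun k : Fin t => ¬ d k = i), d k :=
      Finset.single_le_sum (f := d) (fun _ _ => Nat.zero_le _)
        (Finset.mem_filter.2 ⟨Finset.mem_univ _, by omega⟩)
    rcases Nat.eq_zero_or_pos i with rfl | hi0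
    · have : c = 0 := by
        rw [hc, Finset.card_eq_zero, Finset.filter_eq_empty_iff]
        intro k _
        have := hd k
        omega
      omega
    · obtain rfl : i = 1 := by omega
      omega
  · have : c * 2 ≤ c * i := Nat.mul_le_mul_left _ hi
    omega

section arith

variable {F : Type*} [Field F] [Fintype F] {q : ℕ}

theorem card_GU_dvd (hF : Fintype.card F = q ^ 2) (a b : ℕ) (hab : a ≤ b) :
    Nat.card (Cfsg.GU a F q) ∣ Nat.card (Cfsg.GU b F q) := by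
  rw [card_GU hF, card_GU hF]
  apply mul_dvd_mul
  · apply pow_dvd_pow
    apply Nat.div_le_div_right
    exact Nat.mul_le_mul hab (by omega)
  · apply Finset.prod_dvd_prod_of_subset
    exact Finset.range_subset_range.2 hab

theorem dvd_card_SU (hF : Fintype.card F = q ^ 2) (n : ℕ) (hn : 2 ≤ n) :
    q * (q + 1) ∣ Nat.card (Cfsg.SU n F q) := by
  have hq := two_le_q hF
  obtain ⟨k, rfl⟩ : ∃ k, n = k + 2 := ⟨n - 2, by omega⟩
  have h1 := card_SU_mul (n := k + 2) hF (by omega)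
  rw [card_GU hF, Finset.prod_range_succ', Finset.prod_range_succ'] at h1
  simp only [Nat.even_add_one, Nat.not_even_one, not_false_eq_true, zero_add, pow_one,
    Even.zero, if_true, if_false, not_true_eq_false] at h1
  have h2 : q ^ (1 + 1) - 1 = (q + 1) * (q - 1) := by
    obtain ⟨c, rfl⟩ : ∃ c, q = c + 1 := ⟨q - 1, by omega⟩
    simp only [Nat.add_sub_cancel]
    have : (c + 1) ^ (1 + 1) = (c + 1 + 1) * c + 1 := by ring
    rw [this, Nat.add_sub_cancel]
  obtain ⟨j, hj⟩ : ∃ j, (k + 2) * (k + 2 - 1) / 2 = j + 1 := by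
    have : 1 ≤ (k + 2) * (k + 2 - 1) / 2 := by
      rw [Nat.le_div_iff_mul_le (by omega)]
      have : 2 * 1 ≤ (k + 2) * (k + 2 - 1) := Nat.mul_le_mul (by omega) (by omega)
      omega
    exact ⟨_, (Nat.sub_add_cancel this).symm⟩
  rw [hj, h2, pow_succ] at h1
  set P := ∏ x ∈ Finset.range k, if ¬¬Even x then q ^ (x + 1 + 1 + 1) + 1 else q ^ (x + 1 + 1 + 1) - 1
  have h3 : (q + 1) * Nat.card ↥(SU (k + 2) F q) = (q + 1) * (q * (q + 1) * (q ^ j * P * (q - 1))) := by
    rw [h1]; ring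
  exact ⟨_, Nat.eq_of_mul_eq_mul_left (by omega) h3⟩

end arith

/-- Let q be a power of the prime p, F the field with q² elements, m ≥ 4, and let a, b be commuting elements of PSU(m, q) with a of order p. Then every prime divisor of the order of b divides the order of SU(m − 2, q). -/
theorem result {F : Type*} [Field F] [Fintype F] (p : ℕ) [Fact p.Prime] [CharP F p] (m q : ℕ) (hm : 4 ≤ m) (hF : Fintype.card F = q ^ 2)
    (a b : Cfsg.PSU m F q) (ha : orderOf a = p) (hab : Commute a b) :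
    (orderOf b).primeFactors ⊆ (Nat.card ↥(Cfsg.SU (m - 2) F q)).primeFactors := by
  classical
  intro r hr
  have hrp : r.Prime := Nat.prime_of_mem_primeFactors hr
  have hrb : r ∣ orderOf b := Nat.dvd_of_mem_primeFactors hr
  have hp : p.Prime := Fact.out
  rw [Nat.mem_primeFactors]
  refine ⟨hrp, ?_, Nat.card_pos.ne'⟩
  have hq := two_le_q hF
  have hqS := dvd_card_SU hF (m - 2) (by omega)
  have hqS1 : q ∣ Nat.card ↥(Cfsg.SU (m - 2) F q) := dvd_trans (Dvd.intro _ rfl) hqS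
  have hqS2 : q + 1 ∣ Nat.card ↥(Cfsg.SU (m - 2) F q) := dvd_trans (Dvd.intro_left _ rfl) hqS
  have hpq : p ∣ q := by
    obtain ⟨k, -, hk⟩ := FiniteField.card F p
    have h1 : p ∣ q ^ 2 := by
      rw [← hF, hk]
      exact dvd_pow_self p k.ne_zero
    exact hp.dvd_of_dvd_pow h1
  by_cases hpr : p = r
  · subst hpr
    exact dvd_trans hpq hqS1
  obtain ⟨u, s, f, hu1, hup, hrs, hsu⟩ := lift_pair p r hp hrp hpr a b ha hab hrb
  let ι : ↥(Cfsg.SU m F q) →* ↥(Cfsg.GU m F q) :=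
    (Matrix.SpecialLinearGroup.toGL.comp (Cfsg.SU m F q).subtype).codRestrict (Cfsg.GU m F q)
      (fun s => (mem_GU_iff hF _).mpr ((mem_SU_iff hF s.1).mp s.2))
  have hι : Function.Injective ι := by
    intro x y hxy
    have := congrArg (fun g : ↥(Cfsg.GU m F q) => (g.1.1 : Matrix (Fin m) (Fin m) F)) hxy
    exact Subtype.ext (Subtype.ext this)
  have hM : (ι u).1.1 = u.1.1 := rfl
  have : Nonempty (Fin m) := ⟨⟨0, by omega⟩⟩
  have hnil : IsNilpotent ((ι u).1.1 - 1) := by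
    refine ⟨p ^ f, ?_⟩
    rw [hM, sub_pow_char_pow_of_commute p f (Commute.one_right _), one_pow, sub_eq_zero]
    have := congrArg (fun g : ↥(Cfsg.SU m F q) => (g.1.1 : Matrix (Fin m) (Fin m) F)) hup
    simpa using this
  have hne : (ι u).1.1 ≠ 1 := by
    intro h
    apply hu1
    exact Subtype.ext (Subtype.ext h)
  obtain ⟨t, d, e, hd, hconj, hsum, k₀, hk₀⟩ := exists_jordan (ι u).1.1 hnil hne
  have hn : ∀ k, d k < Finset.univ.sup d + 1 :=
    fun k => Nat.lt_succ_of_le (Finset.le_sup (f := d) (Finset.mem_univ k))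
  have hmain := S2646.nat_main hF d hd e (ι u) hconj _ hn
  have hmem : ι s ∈ Subgroup.centralizer ({ι u} : Set ↥(Cfsg.GU m F q)) := by
    rw [Subgroup.mem_centralizer_singleton_iff]
    exact (hsu.map ι).eq
  have hord : r ∣ Nat.card ↥(Subgroup.centralizer ({ι u} : Set ↥(Cfsg.GU m F q))) := by
    have h1 : orderOf (⟨ι s, hmem⟩ : ↥(Subgroup.centralizer ({ι u} : Set ↥(Cfsg.GU m F q))))
        = orderOf s := by
      rw [Subgroup.orderOf_mk, orderOf_injective ι hι]
    rw [← h1] at hrs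
    exact dvd_trans hrs (orderOf_dvd_natCard _)
  rw [hmain] at hord
  rcases (Nat.Prime.dvd_mul hrp).1 hord with h | h
  · exact dvd_trans (hrp.dvd_of_dvd_pow h) hqS1
  · obtain ⟨a, -, ha⟩ := (Prime.dvd_finsetProd_iff hrp.prime _).1 h
    have h1 := dvd_trans ha (card_GU_dvd hF _ (m - 2) (card_filter_le d hsum hm hd k₀ hk₀ a.val))
    rw [← card_SU_mul hF (by omega)] at h1
    rcases (Nat.Prime.dvd_mul hrp).1 h1 with h2 | h2
    · exact dvd_trans h2 hqS2
    · exact h2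

end Cfsg.Agent.S2365
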