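import Mathlib
import Cfsg.Statements.S2366
import Cfsg.Agent.Lib.Helper45SU3

set_option autoImplicit false
open Cfsg

namespace Cfsg.Agent.S2366

/-- The set of element orders of PSU(3, q) for an odd prime power q = p^n: writing d = gcd(3, q + 1), a positive integer is the order of some element exactly when it divides one of q + 1, p(q + 1)/d, (q² − 1)/d, (q² − q + 1)/d. -/
theorem result {F : Type*} [Field F] [Fintype F] (p : ℕ) [Fact p.Prime] [CharP F p] (hp : p ≠ 2) (q : ℕ) (hF : Fintype.card F = q ^ 2) :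
    Set.range (orderOf : Cfsg.PSU 3 F q → ℕ) =
      {s : ℕ | s ∣ q + 1} ∪ {s : ℕ | s ∣ p * (q + 1) / Nat.gcd 3 (q + 1)} ∪
        {s : ℕ | s ∣ (q ^ 2 - 1) / Nat.gcd 3 (q + 1)} ∪ {s : ℕ | s ∣ (q ^ 2 - q + 1) / Nat.gcd 3 (q + 1)} := by
  have hpp : p.Prime := Fact.out
  have hmul : p * (q + 1) / Nat.gcd 3 (q + 1) = p * ((q + 1) / Nat.gcd 3 (q + 1)) :=
    Nat.mul_div_assoc p (Nat.gcd_dvd_right 3 (q + 1))
  rw [hmul]
  obtain ⟨σ, hσ⟩ := Cfsg.Agent.Lib.Helper7Herm.exists_sigma hF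
  have hq2 := Cfsg.Agent.Lib.Helper7Herm.two_le_q hF
  obtain ⟨a, hq⟩ : ∃ a, q = p ^ a := by
    obtain ⟨n, -, hn⟩ := FiniteField.card F p
    have h1 : q ∣ p ^ (n : ℕ) := by
      rw [← hn, hF]
      exact Dvd.intro_left (q ^ 1) (by ring)
    obtain ⟨a, -, ha⟩ := (Nat.dvd_prime_pow hpp).1 h1
    exact ⟨a, ha⟩
  have ha : a ≠ 0 := by
    rintro rfl
    rw [pow_zero] at hq
    omega
  have : Finite (Cfsg.PSU 3 F q) := by
    unfold Cfsg.PSU
    infer_instance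
  ext s
  simp only [Set.mem_range, Set.mem_union, Set.mem_setOf_eq]
  constructor
  · rintro ⟨x, rfl⟩
    rcases Cfsg.Agent.Lib.Helper45SU3.orderOf_dvd hF p hp x with h | h | h | h
    · exact Or.inl (Or.inl (Or.inl h))
    · exact Or.inl (Or.inl (Or.inr h))
    · exact Or.inl (Or.inr h)
    · exact Or.inr h
  · rintro (((h | h) | h) | h)
    · obtain ⟨y, hy⟩ := Cfsg.Agent.Lib.Helper45SU3.exists_R1 hF hσ
      exact Cfsg.Agent.Lib.Helper45ProjOrder.exists_orderOf_eq_of_dvd y s (h.trans hy)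
    · obtain ⟨y, hy⟩ := Cfsg.Agent.Lib.Helper45SU3.exists_R2 hF hσ p a hq ha
      exact Cfsg.Agent.Lib.Helper45ProjOrder.exists_orderOf_eq_of_dvd y s (h.trans hy)
    · obtain ⟨y, hy⟩ := Cfsg.Agent.Lib.Helper45SU3.exists_R3 hF hσ p a hq
      exact Cfsg.Agent.Lib.Helper45ProjOrder.exists_orderOf_eq_of_dvd y s (h.trans hy)
    · obtain ⟨y, hy⟩ := Cfsg.Agent.Lib.Helper45SU3.exists_R4 hF hσ p a hq
      exact Cfsg.Agent.Lib.Helper45ProjOrder.exists_orderOf_eq_of_dvd y s (h.trans hy)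

end Cfsg.Agent.S2366
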