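import Cfsg.Statements.S2367

set_option autoImplicit false
open Cfsg

namespace Cfsg.Agent.S2367

open Nat in
theorem three_mul_le (p n : ℕ) (hp : p.Prime) (h3 : 3 ≤ p) (h : 3 ≤ (n !).factorization p) :
    3 * p ≤ n := by
  by_contra hlt
  push Not at hlt
  have hn : n < p ^ 2 := by nlinarith
  have hlog : Nat.log p n < 2 := Nat.log_lt_of_lt_pow' (by norm_num) hn
  rw [Nat.factorization_factorial hp hlog] at h
  simp at h
  have := (Nat.le_div_iff_mul_le hp.pos).1 h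
  omega

open Nat in
theorem pow_bound (p : ℕ) (hp : 4 ≤ p) : ∃ k, 2 ^ k ∣ (3 * p)! ∧ 2 * p ^ 3 < 2 ^ k := by
  induction p, hp using Nat.le_induction with
  | base => exact ⟨10, by decide, by norm_num⟩
  | succ p hp ih =>
    obtain ⟨k, hk, hlt⟩ := ih
    refine ⟨k + 1, ?_, ?_⟩
    · have e : (3 * (p + 1))! = (3 * p + 3) * (((3 * p + 1) * (3 * p + 1 + 1)) * (3 * p)!) := by
        have : 3 * (p + 1) = 3 * p + 1 + 1 + 1 := by ring
        rw [this, Nat.factorial_succ, Nat.factorial_succ, Nat.factorial_succ]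
        ring
      rw [e, pow_succ, mul_comm (2 ^ k) 2]
      apply Dvd.dvd.mul_left
      exact Nat.mul_dvd_mul (Nat.even_mul_succ_self _).two_dvd hk
    · have h1 : (p + 1) ^ 3 ≤ 2 * p ^ 3 := by nlinarith [mul_le_mul hp hp (by norm_num) (by omega)]
      have h2 : 2 ^ (k + 1) = 2 * 2 ^ k := by ring
      omega

open Nat in
theorem pow_bound' (p : ℕ) (hp : 3 ≤ p) : ∃ k, 2 ^ k ∣ (3 * p)! ∧ 2 * p ^ 3 < 2 ^ k := by
  rcases Nat.lt_or_ge p 4 with h | h
  · obtain rfl : p = 3 := by omega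
    exact ⟨7, by decide, by norm_num⟩
  · exact pow_bound p h

theorem prime_lt_of_dvd_prod (L : List ℕ) (B : ℕ) (hL : ∀ x ∈ L, x < B ∧ x ≠ 0) (p : ℕ) (hp : p.Prime)
    (h : p ∣ L.prod) : p < B := by
  obtain ⟨x, hx, hpx⟩ := (Prime.dvd_prod_iff hp.prime).1 h
  exact lt_of_le_of_lt (Nat.le_of_dvd (Nat.pos_of_ne_zero (hL x hx).2) hpx) (hL x hx).1

theorem spor (N a k B : ℕ) (L : List ℕ)
    (h : N ≠ 0 ∧ 2 ^ a ∣ N ∧ N ∣ L.prod ^ k ∧ (∀ x ∈ L, x < B ∧ x ≠ 0) ∧
      (∀ p ∈ Finset.range B, p.Prime → p ≠ 2 → p ^ 3 ∣ N → ¬ p ^ 4 ∣ N → p ^ 3 < 2 ^ a))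
    (p : ℕ) (hp : p.Prime) (hodd : p ≠ 2) (h3 : N.factorization p = 3) :
    p ^ 3 < 2 ^ N.factorization 2 := by
  obtain ⟨hN, ha, hk, hL, hchk⟩ := h
  have h1 : p ^ 3 ∣ N := (hp.pow_dvd_iff_le_factorization hN).2 h3.ge
  have h2 : ¬ p ^ 4 ∣ N := by
    rw [hp.pow_dvd_iff_le_factorization hN]; omega
  have h4 : p ∣ N := dvd_trans (dvd_pow_self p (by norm_num)) h1
  have hB : p < B := prime_lt_of_dvd_prod L B hL p hp (hp.dvd_of_dvd_pow (dvd_trans h4 hk))
  have h5 := hchk p (Finset.mem_range.2 hB) hp hodd h1 h2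
  have h6 : a ≤ N.factorization 2 := (Nat.prime_two.pow_dvd_iff_le_factorization hN).1 ha
  exact lt_of_lt_of_le h5 (Nat.pow_le_pow_right (by norm_num) h6)

open Nat in
theorem alt (n N : ℕ) (hN : 2 * N = n !) (p : ℕ) (hp : p.Prime) (hodd : p ≠ 2)
    (h3 : N.factorization p = 3) : p ^ 3 < 2 ^ N.factorization 2 := by
  have hN0 : N ≠ 0 := by
    rintro rfl
    exact (Nat.factorial_ne_zero n) (by simpa using hN.symm)
  have hp3 : 3 ≤ p := by
    have := hp.two_le
    omega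
  have e1 : (n !).factorization p = 3 := by
    rw [← hN, Nat.factorization_mul (by norm_num) hN0]
    simp [h3, Nat.factorization_eq_zero_of_not_dvd
      (fun h => hodd ((Nat.prime_dvd_prime_iff_eq hp Nat.prime_two).1 h))]
  have e2 : (n !).factorization 2 = 1 + N.factorization 2 := by
    rw [← hN, Nat.factorization_mul (by norm_num) hN0]
    simp [Nat.prime_two.factorization_self]
  have h3p : 3 * p ≤ n := three_mul_le p n hp hp3 e1.ge
  obtain ⟨k, hk, hlt⟩ := pow_bound' p hp3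
  have hk' : 2 ^ k ∣ n ! := dvd_trans hk (Nat.factorial_dvd_factorial h3p)
  have hk2 : k ≤ 1 + N.factorization 2 := by
    rw [← e2]
    exact (Nat.prime_two.pow_dvd_iff_le_factorization (Nat.factorial_ne_zero n)).1 hk'
  have h5 : 2 ^ k ≤ 2 ^ (1 + N.factorization 2) := Nat.pow_le_pow_right (by norm_num) hk2
  have h6 : 2 ^ (1 + N.factorization 2) = 2 * 2 ^ N.factorization 2 := by ring
  omega

/-- Let G be an alternating group of degree at least 5 or a simple group with the order of one of the 26 sporadic groups, and let p be an odd prime such that p³ is the exact power of p dividing the order of G. Then p³ is less than the 2-part of the order of G. -/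
theorem result {G : Type*} [Group G] [Finite G] (hG : Cfsg.IsAlternating G ∨ Cfsg.IsSporadic G)
    (p : ℕ) (hp : p.Prime) (hodd : p ≠ 2) (h3 : (Nat.card G).factorization p = 3) :
    p ^ 3 < 2 ^ (Nat.card G).factorization 2 := by
  rcases hG with ⟨n, hn, ⟨e⟩⟩ | hG
  · have : Nontrivial (Fin n) := Fin.nontrivial_iff_two_le.2 (by omega)
    have hc : 2 * Nat.card G = n.factorial := by
      rw [Nat.card_congr e.toEquiv, two_mul_nat_card_alternatingGroup, Nat.card_perm]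
      simp
    exact alt n _ hc p hp hodd h3
  · unfold Cfsg.IsSporadic at hG
    rcases hG with ⟨-, h⟩ | ⟨-, h⟩ | ⟨-, h⟩ | ⟨-, h⟩ | ⟨-, h⟩ | ⟨-, h⟩ | ⟨-, h⟩ | ⟨-, h⟩ | ⟨-, h⟩ | ⟨-, h⟩ | ⟨-, h⟩ | ⟨-, h⟩ | ⟨-, h⟩ | ⟨-, h⟩ | ⟨-, h⟩ | ⟨-, h⟩ | ⟨-, h⟩ | ⟨-, h⟩ | ⟨-, h⟩ | ⟨-, h⟩ | ⟨-, h⟩ | ⟨-, h⟩ | ⟨-, h⟩ | ⟨-, h⟩ | ⟨-, h⟩ | ⟨-, h⟩
    · rw [h] at h3 ⊢
      exact spor 7920 4 4 12 [2, 3, 5, 11] (by decide +kernel) p hp hodd h3
    · rw [h] at h3 ⊢
      exact spor 95040 6 6 12 [2, 3, 5, 11] (by decide +kernel) p hp hodd h3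
    · rw [h] at h3 ⊢
      exact spor 443520 7 7 12 [2, 3, 5, 7, 11] (by decide +kernel) p hp hodd h3
    · rw [h] at h3 ⊢
      exact spor 10200960 7 7 24 [2, 3, 5, 7, 11, 23] (by decide +kernel) p hp hodd h3
    · rw [h] at h3 ⊢
      exact spor 244823040 10 10 24 [2, 3, 5, 7, 11, 23] (by decide +kernel) p hp hodd h3
    · rw [h] at h3 ⊢
      exact spor 175560 3 3 20 [2, 3, 5, 7, 11, 19] (by decide +kernel) p hp hodd h3
    · rw [h] at h3 ⊢
      exact spor 604800 7 7 8 [2, 3, 5, 7] (by decide +kernel) p hp hodd h3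
    · rw [h] at h3 ⊢
      exact spor 50232960 7 7 20 [2, 3, 5, 17, 19] (by decide +kernel) p hp hodd h3
    · rw [h] at h3 ⊢
      exact spor 86775571046077562880 21 21 44 [2, 3, 5, 7, 11, 23, 29, 31, 37, 43] (by decide +kernel) p hp hodd h3
    · rw [h] at h3 ⊢
      exact spor 4157776806543360000 21 21 24 [2, 3, 5, 7, 11, 13, 23] (by decide +kernel) p hp hodd h3
    · rw [h] at h3 ⊢
      exact spor 42305421312000 18 18 24 [2, 3, 5, 7, 11, 23] (by decide +kernel) p hp hodd h3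
    · rw [h] at h3 ⊢
      exact spor 495766656000 10 10 24 [2, 3, 5, 7, 11, 23] (by decide +kernel) p hp hodd h3
    · rw [h] at h3 ⊢
      exact spor 64561751654400 17 17 14 [2, 3, 5, 7, 11, 13] (by decide +kernel) p hp hodd h3
    · rw [h] at h3 ⊢
      exact spor 4089470473293004800 18 18 24 [2, 3, 5, 7, 11, 13, 17, 23] (by decide +kernel) p hp hodd h3
    · rw [h] at h3 ⊢
      exact spor 1255205709190661721292800 21 21 30 [2, 3, 5, 7, 11, 13, 17, 23, 29] (by decide +kernel) p hp hodd h3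
    · rw [h] at h3 ⊢
      exact spor 44352000 9 9 12 [2, 3, 5, 7, 11] (by decide +kernel) p hp hodd h3
    · rw [h] at h3 ⊢
      exact spor 898128000 7 7 12 [2, 3, 5, 7, 11] (by decide +kernel) p hp hodd h3
    · rw [h] at h3 ⊢
      exact spor 4030387200 10 10 18 [2, 3, 5, 7, 17] (by decide +kernel) p hp hodd h3
    · rw [h] at h3 ⊢
      exact spor 145926144000 14 14 30 [2, 3, 5, 7, 13, 29] (by decide +kernel) p hp hodd h3
    · rw [h] at h3 ⊢
      exact spor 448345497600 13 13 14 [2, 3, 5, 7, 11, 13] (by decide +kernel) p hp hodd h3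
    · rw [h] at h3 ⊢
      exact spor 460815505920 9 9 32 [2, 3, 5, 7, 11, 19, 31] (by decide +kernel) p hp hodd h3
    · rw [h] at h3 ⊢
      exact spor 273030912000000 14 14 20 [2, 3, 5, 7, 11, 19] (by decide +kernel) p hp hodd h3
    · rw [h] at h3 ⊢
      exact spor 51765179004000000 8 8 68 [2, 3, 5, 7, 11, 31, 37, 67] (by decide +kernel) p hp hodd h3
    · rw [h] at h3 ⊢
      exact spor 90745943887872000 15 15 32 [2, 3, 5, 7, 13, 19, 31] (by decide +kernel) p hp hodd h3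
    · rw [h] at h3 ⊢
      exact spor 4154781481226426191177580544000000 41 41 48 [2, 3, 5, 7, 11, 13, 17, 19, 23, 31, 47] (by decide +kernel) p hp hodd h3
    · rw [h] at h3 ⊢
      exact spor 808017424794512875886459904961710757005754368000000000 46 46 72 [2, 3, 5, 7, 11, 13, 17, 19, 23, 29, 31, 41, 47, 59, 71] (by decide +kernel) p hp hodd h3

end Cfsg.Agent.S2367
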