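import Mathlib
import Cfsg.Statements.S2368

set_option autoImplicit false
open Cfsg

namespace Cfsg.Agent.S2368

theorem exists_pow (p m : ℕ) (hp : 1 < p) (hm : 1 ≤ m) : ∃ k, m ≤ p ^ k ∧ p ^ k < p * m := by
  rcases Nat.lt_or_ge 1 m with h | h
  · refine ⟨Nat.clog p m, Nat.le_pow_clog hp m, ?_⟩
    have h1 := Nat.pow_pred_clog_lt_self hp h
    have h2 : 0 < Nat.clog p m := Nat.clog_pos hp h
    obtain ⟨c, hc⟩ : ∃ c, Nat.clog p m = c + 1 := ⟨Nat.clog p m - 1, by omega⟩
    rw [hc] at h1 ⊢
    simp only [Nat.pred_eq_sub_one, Nat.add_sub_cancel] at h1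
    rw [pow_succ, mul_comm]
    exact Nat.mul_lt_mul_of_pos_left h1 (by omega)
  · obtain rfl : m = 1 := by omega
    exact ⟨0, by simp, by simpa using hp⟩

theorem nilp_pow {F : Type*} [Field F] (m : ℕ) (A : Matrix (Fin m) (Fin m) F) (h : IsNilpotent A) :
    A ^ m = 0 := by
  have h1 : A.charpoly = Polynomial.X ^ m := by
    have := (Matrix.isNilpotent_charpoly_sub_pow_of_isNilpotent h).eq_zero
    simpa [sub_eq_zero] using this
  have h2 := Matrix.aeval_self_charpoly A
  rw [h1] at h2
  simpa using h2

def shift (F : Type*) [Field F] (m : ℕ) : Matrix (Fin m) (Fin m) F :=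
  Matrix.of fun i j => if j.val = i.val + 1 then 1 else 0

theorem shift_apply (F : Type*) [Field F] (m : ℕ) (i j : Fin m) :
    shift F m i j = if j.val = i.val + 1 then 1 else 0 := rfl

theorem shift_pow (F : Type*) [Field F] (m k : ℕ) (i j : Fin m) :
    (shift F m ^ k) i j = if j.val = i.val + k then 1 else 0 := by
  induction k generalizing i j with
  | zero => simp [Matrix.one_apply, Fin.ext_iff, eq_comm]
  | succ k ih =>
    rw [pow_succ, Matrix.mul_apply]
    simp only [ih, shift_apply]
    by_cases h : j.val = i.val + (k + 1)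
    · rw [if_pos h]
      have hlt : i.val + k < m := by have := j.2; omega
      rw [Finset.sum_eq_single (⟨i.val + k, hlt⟩ : Fin m)]
      · simp [h]; omega
      · intro b _ hb
        have : b.val ≠ i.val + k := fun hh => hb (Fin.ext hh)
        simp [this]
      · simp
    · rw [if_neg h]
      apply Finset.sum_eq_zero
      intro b _
      by_cases h1 : b.val = i.val + k
      · have : j.val ≠ b.val + 1 := by omega
        simp [this]
      · simp [h1]

theorem shift_pow_eq_zero_iff (F : Type*) [Field F] (m k : ℕ) :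
    shift F m ^ k = 0 ↔ m ≤ k := by
  constructor
  · intro h
    by_contra hlt
    push Not at hlt
    have h0 : 0 < m := by omega
    have := congrFun (congrFun h ⟨0, h0⟩) ⟨k, hlt⟩
    rw [shift_pow] at this
    simp at this
  · intro h
    ext i j
    rw [shift_pow]
    have := j.2
    have : j.val ≠ i.val + k := by omega
    simp [this]

/-- Let F be a finite field of characteristic p and m ≥ 1. Every element of GL(m, F) of p-power order has order less than p·m, and GL(m, F) has an element of p-power order at least m; so the largest order of a p-element of GL(m, F) is the least power of p that is at least m. -/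
theorem result {F : Type*} [Field F] [Fintype F] (p : ℕ) [Fact p.Prime] [CharP F p] (m : ℕ) (hm : 1 ≤ m) :
    (∀ g : Matrix.GeneralLinearGroup (Fin m) F, (∃ j : ℕ, orderOf g = p ^ j) → orderOf g < p * m) ∧
      ∃ g : Matrix.GeneralLinearGroup (Fin m) F, (∃ j : ℕ, orderOf g = p ^ j) ∧ m ≤ orderOf g := by
  have hp : p.Prime := Fact.out
  have : Nonempty (Fin m) := ⟨⟨0, by omega⟩⟩
  obtain ⟨k, hk1, hk2⟩ := exists_pow p m hp.one_lt hm
  constructor
  · rintro g ⟨j, hj⟩
    have h1 : (g : Matrix (Fin m) (Fin m) F) ^ (p ^ j) = 1 := by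
      have := pow_orderOf_eq_one g
      rw [hj] at this
      have h2 := congrArg (fun x : Matrix.GeneralLinearGroup (Fin m) F => (x : Matrix (Fin m) (Fin m) F)) this
      simpa using h2
    have h2 : ((g : Matrix (Fin m) (Fin m) F) - 1) ^ (p ^ j) = 0 := by
      rw [sub_pow_char_pow_of_commute p _ (Commute.one_right _), h1]
      simp
    have h3 : ((g : Matrix (Fin m) (Fin m) F) - 1) ^ m = 0 := nilp_pow m _ ⟨_, h2⟩
    have h4 : ((g : Matrix (Fin m) (Fin m) F) - 1) ^ (p ^ k) = 0 := pow_eq_zero_of_le hk1 h3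
    rw [sub_pow_char_pow_of_commute p _ (Commute.one_right _)] at h4
    have h5 : g ^ (p ^ k) = 1 := by
      apply Units.ext
      simpa [sub_eq_zero] using h4
    exact lt_of_le_of_lt (Nat.le_of_dvd (pow_pos hp.pos _) (orderOf_dvd_of_pow_eq_one h5)) hk2
  · have hN : IsNilpotent (shift F m) := ⟨m, (shift_pow_eq_zero_iff F m m).2 le_rfl⟩
    let g : Matrix.GeneralLinearGroup (Fin m) F := (IsNilpotent.isUnit_one_add hN).unit
    have hg : (g : Matrix (Fin m) (Fin m) F) = 1 + shift F m := rfl
    have key : ∀ i : ℕ, g ^ (p ^ i) = 1 ↔ m ≤ p ^ i := by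
      intro i
      rw [← shift_pow_eq_zero_iff F m (p ^ i), Units.ext_iff]
      simp only [Units.val_pow_eq_pow_val, hg, Units.val_one]
      rw [add_pow_char_pow_of_commute p _ (Commute.one_left _)]
      simp
    have h1 : orderOf g ∣ p ^ k := orderOf_dvd_of_pow_eq_one ((key k).2 hk1)
    obtain ⟨j, -, hj⟩ := (Nat.dvd_prime_pow hp).1 h1
    refine ⟨g, ⟨j, hj⟩, ?_⟩
    rw [hj]
    apply (key j).1
    rw [← hj]
    exact pow_orderOf_eq_one g

end Cfsg.Agent.S2368
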