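import Cfsg.Statements.S2369
import Cfsg.Agent.Lib.Helper22RoH
import Cfsg.Agent.Lib.Helper22StB
import Cfsg.Agent.Lib.Helper22RoC2
import Cfsg.Agent.Lib.Helper22F4T4
import Cfsg.Agent.Lib.Helper22F4T3

set_option autoImplicit false
open Cfsg

namespace Cfsg.Agent.S2369

/-- Let q = 2^(2m+1) with m ≥ 1 and let a, b be commuting elements of the large Ree group ²F₄(q) with a an involution. Then every prime divisor of the order of b divides q(q⁴ − 1). -/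
theorem result {K : Type*} [Field K] [Fintype K] (m : ℕ) (hm : 1 ≤ m) (hK : Fintype.card K = 2 ^ (2 * m + 1))
    (a b : ↥(Cfsg.Lie.twistedF4 K (2 ^ m))) (ha : orderOf a = 2) (hab : Commute a b) :
    (orderOf b).primeFactors ⊆ (2 ^ (2 * m + 1) * ((2 ^ (2 * m + 1)) ^ 4 - 1)).primeFactors := by
  obtain ⟨θ, fs⟩ := Cfsg.Agent.Lib.Helper22F4.exists_fs hK
  have e : Cfsg.Lie.twistedF4 K (2 ^ m) = Cfsg.Agent.Lib.Helper22F4.G1 Cfsg.Lie.chevF4 θ :=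
    (Cfsg.Agent.Lib.Helper22F4.G1_eq (Cfsg.Agent.Lib.Helper23All.rel (F := K) Cfsg.Agent.Lib.Helper22F4.stdF4) θ
      fs.h0 fs.h1).symm
  revert a b
  rw [e]
  intro a b ha hab
  haveI : Finite (GL Cfsg.Lie.chevF4.Idx K) := by
    haveI : Finite (Matrix Cfsg.Lie.chevF4.Idx Cfsg.Lie.chevF4.Idx K) := by unfold Matrix; infer_instance
    exact Finite.of_injective (fun g : GL Cfsg.Lie.chevF4.Idx K => (g : Matrix Cfsg.Lie.chevF4.Idx Cfsg.Lie.chevF4.Idx K))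
      Units.val_injective
  obtain ⟨S, hTD, cU, cH, c0, c1, hBN, cG⟩ := Cfsg.Agent.Lib.Helper22RoH.exists_tg Cfsg.Agent.Lib.Helper22F4.stdF4
    Cfsg.Agent.Lib.Helper22ChevTabF4.agree
    Cfsg.Agent.Lib.Helper22F4.ptabF4 (Cfsg.Agent.Lib.Helper23All.tab Cfsg.Agent.Lib.Helper22F4.stdF4)
    (Cfsg.Agent.Lib.Helper23All.rel (F := K) Cfsg.Agent.Lib.Helper22F4.stdF4) fs.h2 θ
    Cfsg.Agent.Lib.Helper22F4.qfF4 fs.hθ fs.h10 fs.h01 (Cfsg.Agent.Lib.Helper22F4.sgF4_ok θ fs)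
    Cfsg.Agent.Lib.Helper22TwEnumF4.chk_eq Cfsg.Agent.Lib.Helper22F4.qlF4
    (Cfsg.Agent.Lib.Helper23All.cartanRefl Cfsg.Agent.Lib.Helper22F4.stdF4) Cfsg.Agent.Lib.Helper22F4.qhF4
    Cfsg.Agent.Lib.Helper22RoC.qcF4 (2 * m + 1) (by omega)
    (by rw [Nat.card_eq_fintype_card, hK]) (Cfsg.Agent.Lib.Helper22F4.card_units hK)
    Cfsg.Agent.Lib.Helper22F4.hMF4 Cfsg.Agent.Lib.Helper22F4.csF4_eq
  exact Cfsg.Agent.Lib.Helper22StB.main S hTD (2 * m + 1) (by omega) cU cH c0 c1 hBN _ cG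
    (Cfsg.Agent.Lib.Helper22RoG.odd_part _ (by omega)) a b ha hab

end Cfsg.Agent.S2369
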