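import Cfsg.Statements.S2370
import Cfsg.Agent.Lib.Helper60ChevUT
import Cfsg.Agent.Lib.Helper46ChevFacts

set_option autoImplicit false
open Cfsg

namespace Cfsg.Agent.S2370

open Cfsg.Lie Cfsg.Agent.Lib.Helper60Unitri Cfsg.Agent.Lib.Helper60ChevUT Cfsg.Agent.Lib.Helper22ChevBasic
  Cfsg.Agent.Lib.Helper46ChevSt Cfsg.Agent.Lib.Helper46ChevFacts
open scoped MatrixGroups Matrix

/-- `11 +` the height of the roots of type `F₄` -/
def tabF4 : Array ℕ :=
  #[0, 1, 2, 3, 4, 5, 6, 4, 5, 6, 7, 7, 8, 9, 10, 6, 7, 8, 8, 9, 10, 9, 10, 10,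
    12, 12, 13, 12, 13, 14, 14, 15, 16, 12, 13, 14, 15, 15, 16, 17, 18, 16, 17, 18, 19, 20, 21, 22]

theorem good : Good chevF4 11 tabF4 := by decide +kernel

theorem lvl_lt : ∀ i, lvlOf chevF4 11 tabF4 i < 23 := by
  intro i
  cases i with
  | inl _ => show 11 < 23; norm_num
  | inr s =>
    show tabF4.getD s.val 0 < 23
    revert s
    decide +kernel

theorem stdF4 : Std chevF4 := by simp

/-- a `p`-element of a finite group is conjugate into any `p`-subgroup of index prime to `p` -/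
theorem exists_conj_mem {G : Type*} [Group G] [Finite G] (p : ℕ) [Fact p.Prime] (P : Subgroup G)
    (hP : IsPGroup p P) (hidx : ¬ p ∣ P.index) (x : G) (hx : ∃ j : ℕ, orderOf x = p ^ j) :
    ∃ g : G, g * x * g⁻¹ ∈ P := by
  obtain ⟨j, hj⟩ := hx
  have hz : IsPGroup p (Subgroup.zpowers x) := by
    apply IsPGroup.of_card (n := j)
    rw [Nat.card_zpowers, hj]
  obtain ⟨Q, hQ⟩ := hz.exists_le_sylow
  obtain ⟨g, hg⟩ := MulAction.exists_smul_eq G Q (hP.toSylow hidx)
  refine ⟨g, ?_⟩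
  have h1 : x ∈ (Q : Subgroup G) := hQ (Subgroup.mem_zpowers x)
  have h2 : g * x * g⁻¹ ∈ ((g • Q : Sylow p G) : Subgroup G) := by
    rw [Sylow.coe_subgroup_smul]
    exact ⟨x, h1, rfl⟩
  rw [hg] at h2
  exact h2

/-- Let q = 2^(2m+1) with m ≥ 1. Every element of 2-power order of the large Ree group ²F₄(q) has order at most 32. -/
theorem result {K : Type*} [Field K] [Fintype K] (m : ℕ) (hm : 1 ≤ m) (hK : Fintype.card K = 2 ^ (2 * m + 1))
    (x : ↥(Cfsg.Lie.twistedF4 K (2 ^ m))) (hx : ∃ j : ℕ, orderOf x = 2 ^ j) : orderOf x ≤ 32 := by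
  classical
  have : Fact (Nat.Prime 2) := ⟨Nat.prime_two⟩
  -- characteristic 2
  have hchar : CharP K 2 := by
    obtain ⟨p, hpc⟩ := CharP.exists K
    obtain ⟨n, hp, hq⟩ := FiniteField.card K p
    rw [hK] at hq
    have h1 : p ∣ 2 ^ (2 * m + 1) := by rw [hq]; exact dvd_pow_self p n.ne_zero
    have h2 : p = 2 := (Nat.prime_dvd_prime_iff_eq hp Nat.prime_two).mp (hp.dvd_of_dvd_pow h1)
    rw [← h2]
    exact hpc
  have : Nonempty chevF4.Idx := ⟨Sum.inl ⟨0, by decide⟩⟩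
  -- the twisted group lies in the Chevalley group
  have hle : Cfsg.Lie.twistedF4 K (2 ^ m) ≤ chevF4.group K := by
    unfold Cfsg.Lie.twistedF4 ChevalleyDatum.genSubgroup
    rw [Subgroup.closure_le]
    rintro g ⟨w, _, hg⟩
    rw [eq_wordG_iff stdF4] at hg
    rw [hg]
    exact wordG_mem_group stdF4 w
  have hF := facts (F := K) stdF4
  obtain ⟨k, hk⟩ := exists_card_U (F := K) 2 stdF4
  have hU : IsPGroup 2 (chevF4.posUnipotent K) := IsPGroup.of_card hk
  have hidx := not_dvd_index hF 2 hU (not_dvd_card_H 2 stdF4)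
  have hUG : chevF4.posUnipotent K ≤ chevF4.group K := posUnipotent_le_group stdF4
  have hU' : IsPGroup 2 ((chevF4.posUnipotent K).subgroupOf (chevF4.group K)) :=
    hU.of_equiv (Subgroup.subgroupOfEquivOfLe hUG).symm
  let y : ↥(chevF4.group K) := ⟨x.1, hle x.2⟩
  have hy : orderOf y = orderOf x := by
    rw [← Subgroup.orderOf_coe y, ← Subgroup.orderOf_coe x]
  obtain ⟨g, hg⟩ := exists_conj_mem 2 _ hU' hidx y (by rw [hy]; exact hx)
  have h1 : ((g * y * g⁻¹ : ↥(chevF4.group K)) : GL chevF4.Idx K) ^ (2 ^ 5) = 1 :=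
    pow_eq_one_of_mem_posUnipotent good 2 lvl_lt (by norm_num) hg
  have h2 : (g * y * g⁻¹) ^ (2 ^ 5) = 1 := by
    apply Subtype.ext
    rw [Subgroup.coe_pow]
    exact h1
  have h3 : y ^ (2 ^ 5) = 1 := by
    rw [conj_pow] at h2
    have h4 := congrArg (fun z => g⁻¹ * z * g) h2
    simpa [mul_assoc] using h4
  rw [← hy]
  exact Nat.le_of_dvd (by norm_num) (orderOf_dvd_of_pow_eq_one h3)

end Cfsg.Agent.S2370
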