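import Cfsg.Statements.S2379
import Cfsg.Agent.Lib.Helper46SylNT
import Cfsg.Agent.Lib.Helper46SylEmb
import Cfsg.Agent.Lib.Helper7SL
-- import your own Cfsg.Agent.* helpers here

set_option autoImplicit false
open Cfsg

namespace Cfsg.Agent.S2379

open Cfsg.Agent.Lib.Helper46SylNT Cfsg.Agent.Lib.Helper46SylEmb

theorem card_mult (n d : ℕ) (hn : 1 ≤ n) :
    ((Finset.Icc 2 n).filter (fun i => d ∣ i)).card + (if d ∣ 1 then 1 else 0) = n / d := by
  rw [← Nat.card_multiples n d]
  have h1 : Finset.range n = insert 0 (Finset.Ico 1 n) := by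
    ext x
    simp only [Finset.mem_range, Finset.mem_insert, Finset.mem_Ico]
    omega
  have h2 : ((Finset.Icc 2 n).filter (fun i => d ∣ i)).card = ((Finset.Ico 1 n).filter (fun e => d ∣ e + 1)).card := by
    symm
    apply Finset.card_bij (fun e _ => e + 1)
    · intro e he
      simp only [Finset.mem_filter, Finset.mem_Ico, Finset.mem_Icc] at he ⊢
      exact ⟨by omega, he.2⟩
    · intro a _ b _ h
      omega
    · intro i hi
      simp only [Finset.mem_filter, Finset.mem_Icc] at hi
      refine ⟨i - 1, ?_, by omega⟩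
      simp only [Finset.mem_filter, Finset.mem_Ico]
      refine ⟨by omega, ?_⟩
      have : i - 1 + 1 = i := by omega
      rw [this]; exact hi.2
  rw [h1, h2, Finset.filter_insert]
  by_cases h : d ∣ 1
  · rw [if_pos h, if_pos (by simpa using h), Finset.card_insert_of_notMem (by simp)]
  · rw [if_neg h, if_neg (by simpa using h)]
    rfl

theorem fac_SL {F : Type*} [Field F] [Fintype F] {q : ℕ} (hq : Fintype.card F = q) {n : ℕ} (hn : 1 ≤ n)
    {r : ℕ} [Fact r.Prime] (hrn : n < r) (hrq : ¬ r ∣ q) :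
    (Nat.card (Matrix.SpecialLinearGroup (Fin n) F)).factorization r =
      ((Finset.Icc 2 n).filter (fun i => orderOf (q : ZMod r) ∣ i)).card *
        (q ^ orderOf (q : ZMod r) - 1).factorization r := by
  have hq2 : 2 ≤ q := hq ▸ Fintype.one_lt_card
  have : Nonempty (Fin n) := ⟨⟨0, hn⟩⟩
  have h1 := Cfsg.Agent.Lib.Helper7SL.card_GL_eq_card_SL_mul_card_units (n := Fin n) (R := F)
  have h2 : (Nat.card (GL (Fin n) F)).factorization r =
      (Nat.card (Matrix.SpecialLinearGroup (Fin n) F) * Nat.card Fˣ).factorization r := by rw [h1]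
  rw [Nat.factorization_mul Nat.card_pos.ne' Nat.card_pos.ne', Finsupp.add_apply, Matrix.card_GL_field, hq,
    fac_GL hrq hq2 hrn, Nat.card_units, Nat.card_eq_fintype_card (α := F), hq] at h2
  have h3 := fac_pow (q := q) (r := r) hrq (j := 1) one_pos (Fact.out : r.Prime).one_lt
  rw [pow_one] at h3
  rw [h3, ← card_mult n _ hn, add_mul] at h2
  split_ifs at h2 with h
  · rw [one_mul] at h2; omega
  · rw [zero_mul] at h2; omega

/-- Sylow subgroups of `SL_n(q)` for large primes. Let `F` be a field with `q` elements and `r` a prime with `r > n` and `r ∤ q` (so `r` does not divide the order `n!` of the Weyl group). Let `d` be the multiplicative order of `q` modulo `r`, `a` the number of integers `i` with `2 ≤ i ≤ n` divisible by `d` (the degrees of the Weyl group are `2, …, n`), and `m` the `r`-part of the value at `q` of the `d`-th cyclotomic polynomial. Then every Sylow `r`-subgroup of `SL_n(q)` is a direct product of `a` cyclic groups of order `m`. -/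
theorem result {F : Type*} [Field F] [Fintype F] {q : ℕ} (hq : Fintype.card F = q) (n : ℕ)
    (r : ℕ) [Fact r.Prime] (hrn : n < r) (hrq : ¬ r ∣ q) (P : Sylow r (Matrix.SpecialLinearGroup (Fin n) F)) :
    Nonempty (↥(P : Subgroup (Matrix.SpecialLinearGroup (Fin n) F)) ≃*
      (Fin ((Finset.Icc 2 n).filter (fun i => orderOf (q : ZMod r) ∣ i)).card →
        Multiplicative (ZMod (r ^ padicValNat r ((Polynomial.cyclotomic (orderOf (q : ZMod r)) ℤ).eval (q : ℤ)).natAbs)))) := by
  have hr := (Fact.out : r.Prime)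
  have hq2 : 2 ≤ q := hq ▸ Fintype.one_lt_card
  have hv := fac_cyclotomic (q := q) (r := r) hrq
  rcases Nat.eq_zero_or_pos n with rfl | hn
  · -- the trivial group
    have hA : Subsingleton (Fin ((Finset.Icc 2 0).filter (fun i => orderOf (q : ZMod r) ∣ i)).card →
        Multiplicative (ZMod (r ^ padicValNat r ((Polynomial.cyclotomic (orderOf (q : ZMod r)) ℤ).eval (q : ℤ)).natAbs))) := by
      have : ((Finset.Icc 2 0).filter (fun i => orderOf (q : ZMod r) ∣ i)).card = 0 := by simp
      rw [this]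
      infer_instance
    apply sylow_equiv 1 (fun a b _ => Subsingleton.elim a b) _ P
    have h1 : Nat.card (Matrix.SpecialLinearGroup (Fin 0) F) = 1 := by
      have : Subsingleton (Matrix.SpecialLinearGroup (Fin 0) F) := ⟨fun a b => Subtype.ext (Subsingleton.elim _ _)⟩
      exact Nat.card_unique
    rw [h1]
    simp
  have hcard : Nat.card (Fin ((Finset.Icc 2 n).filter (fun i => orderOf (q : ZMod r) ∣ i)).card →
      Multiplicative (ZMod (r ^ padicValNat r ((Polynomial.cyclotomic (orderOf (q : ZMod r)) ℤ).eval (q : ℤ)).natAbs))) =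
      r ^ (Nat.card (Matrix.SpecialLinearGroup (Fin n) F)).factorization r := by
    rw [card_pi_zmod _ _ (pow_ne_zero _ hr.ne_zero), fac_SL hq hn hrn hrq, ← pow_mul, hv, mul_comm]
  have hcm := card_mult n (orderOf (q : ZMod r)) hn
  by_cases hd : orderOf (q : ZMod r) ∣ 1
  · -- `d = 1`
    have hd1 : orderOf (q : ZMod r) = 1 := Nat.dvd_one.1 hd
    obtain ⟨k, rfl⟩ : ∃ k, n = k + 1 := ⟨n - 1, by omega⟩
    rw [if_pos hd, hd1, Nat.div_one] at hcm
    have hk : ((Finset.Icc 2 (k + 1)).filter (fun i => orderOf (q : ZMod r) ∣ i)).card = k := by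
      rw [hd1]; omega
    have hm : r ^ padicValNat r ((Polynomial.cyclotomic (orderOf (q : ZMod r)) ℤ).eval (q : ℤ)).natAbs ∣
        Nat.card F - 1 := by
      rw [Nat.card_eq_fintype_card, hq, hv, hd1, pow_one]
      exact Nat.ordProj_dvd _ _
    obtain ⟨φ, hφ⟩ := exists_cyclic_emb_units (F := F) hm
    obtain ⟨Φ, hΦ⟩ := exists_diag_emb (F := F) k
    rw [hk] at hcard ⊢
    obtain ⟨Ψ, hΨ⟩ := exists_pi_emb φ hφ Φ hΦ
    exact sylow_equiv Ψ hΨ hcard P
  · rw [if_neg hd, add_zero] at hcm
    rw [hcm] at hcard ⊢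
    have hm : r ^ padicValNat r ((Polynomial.cyclotomic (orderOf (q : ZMod r)) ℤ).eval (q : ℤ)).natAbs ∣
        Nat.card F ^ orderOf (q : ZMod r) - 1 := by
      rw [Nat.card_eq_fintype_card, hq, hv]
      exact Nat.ordProj_dvd _ _
    obtain ⟨φ, hφ⟩ := exists_cyclic_emb (F := F) (d_pos hrq) hm
    obtain ⟨Φ, hΦ⟩ := exists_block_emb (F := F) (a := n / orderOf (q : ZMod r)) (d := orderOf (q : ZMod r)) (n := n)
      (Nat.div_mul_le_self n _)
    obtain ⟨Ψ, hΨ⟩ := exists_pi_emb φ hφ Φ hΦ
    have hfin : Finite (Fin (n / orderOf (q : ZMod r)) →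
        Multiplicative (ZMod (r ^ padicValNat r ((Polynomial.cyclotomic (orderOf (q : ZMod r)) ℤ).eval (q : ℤ)).natAbs))) := by
      apply Nat.finite_of_card_ne_zero
      rw [hcard]
      exact pow_ne_zero _ hr.ne_zero
    obtain ⟨Ψ', hΨ'⟩ := exists_lift_SL Ψ hΨ (by
      rw [hcard, Nat.card_units, Nat.card_eq_fintype_card (α := F), hq]
      apply Nat.Coprime.pow_left
      rw [hr.coprime_iff_not_dvd]
      intro h
      apply hd
      have := (dvd_iff hrq 1).1 (by rwa [pow_one])
      exact this)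
    exact sylow_equiv Ψ' hΨ' hcard P

end Cfsg.Agent.S2379
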