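import Cfsg.Statements.S2380
import Cfsg.Agent.Lib.Helper46SylNT
import Cfsg.Agent.Lib.Helper46SylEmb
-- import your own Cfsg.Agent.* helpers here

set_option autoImplicit false
open scoped MatrixGroups
open Cfsg

namespace Cfsg.Agent.S2380

open Cfsg.Agent.Lib.Helper46SylNT Cfsg.Agent.Lib.Helper46SylEmb

/-- Sylow subgroups of `GL_n(q)` for large primes. Let `F` be a field with `q` elements and `r` a prime with `r > n` and `r ∤ q`. Let `d` be the multiplicative order of `q` modulo `r` and `m` the `r`-part of the value at `q` of the `d`-th cyclotomic polynomial. Then every Sylow `r`-subgroup of `GL_n(q)` is a direct product of `⌊n/d⌋` cyclic groups of order `m` (the degrees of the Weyl group being `1, …, n`). -/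
theorem result {F : Type*} [Field F] [Fintype F] {q : ℕ} (hq : Fintype.card F = q) (n : ℕ)
    (r : ℕ) [Fact r.Prime] (hrn : n < r) (hrq : ¬ r ∣ q) (P : Sylow r (GL (Fin n) F)) :
    Nonempty (↥(P : Subgroup (GL (Fin n) F)) ≃*
      (Fin (n / orderOf (q : ZMod r)) →
        Multiplicative (ZMod (r ^ padicValNat r ((Polynomial.cyclotomic (orderOf (q : ZMod r)) ℤ).eval (q : ℤ)).natAbs)))) := by
  have hq2 : 2 ≤ q := hq ▸ Fintype.one_lt_card
  have hv := fac_cyclotomic (q := q) (r := r) hrq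
  have hm : r ^ padicValNat r ((Polynomial.cyclotomic (orderOf (q : ZMod r)) ℤ).eval (q : ℤ)).natAbs ∣
      Nat.card F ^ orderOf (q : ZMod r) - 1 := by
    rw [Nat.card_eq_fintype_card, hq, hv]
    exact Nat.ordProj_dvd _ _
  obtain ⟨φ, hφ⟩ := exists_cyclic_emb (F := F) (d_pos hrq) hm
  obtain ⟨Φ, hΦ⟩ := exists_block_emb (F := F) (a := n / orderOf (q : ZMod r)) (d := orderOf (q : ZMod r)) (n := n)
    (Nat.div_mul_le_self n _)
  obtain ⟨Ψ, hΨ⟩ := exists_pi_emb φ hφ Φ hΦ
  apply sylow_equiv Ψ hΨ _ P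
  rw [card_pi_zmod _ _ (pow_ne_zero _ (Fact.out : r.Prime).ne_zero), Matrix.card_GL_field, hq,
    fac_GL hrq hq2 hrn, ← pow_mul, hv, mul_comm]

end Cfsg.Agent.S2380
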