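import Mathlib
import Cfsg.Statements.S2384
import Cfsg.Agent.Lib.Helper45SemisimpleCount
import Cfsg.Agent.S2388

set_option autoImplicit false
open Cfsg

namespace Cfsg.Agent.S2384

open Cfsg.Agent.Lib.Helper45Semisimple in
/-- In `SL_n(q)`, `q` a power of the prime `p`, the number of conjugacy classes of elements of order prime to `p` (the semisimple classes) is `q^(n-1)`. -/
theorem result {F : Type*} [Field F] [Fintype F] {q : ℕ} (hq : Fintype.card F = q) (p : ℕ) [Fact p.Prime] [CharP F p] (n : ℕ) (hn : 1 ≤ n) :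
    Nat.card {c : ConjClasses (Matrix.SpecialLinearGroup (Fin n) F) //
      ∃ g : Matrix.SpecialLinearGroup (Fin n) F, ConjClasses.mk g = c ∧ (orderOf g).Coprime p} = q ^ (n - 1) := by
  obtain ⟨m, rfl⟩ : ∃ m, n = m + 1 := ⟨n - 1, by omega⟩
  rw [Nat.add_sub_cancel, ← hq, ← Nat.card_eq_fintype_card,
    ← card_monic_coeff_zero_eq m ((-1 : F) ^ (m + 1))]
  apply card_classes_eq (fun g : Matrix.SpecialLinearGroup (Fin (m + 1)) F =>
      (g : Matrix (Fin (m + 1)) (Fin (m + 1)) F).charpoly)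
    (fun g => (orderOf g).Coprime p)
    (fun χ : Polynomial F => χ.Monic ∧ χ.natDegree = m + 1 ∧ χ.coeff 0 = (-1 : F) ^ (m + 1))
  · intro g _
    refine ⟨Matrix.charpoly_monic _, by rw [Matrix.charpoly_natDegree_eq_dim, Fintype.card_fin], ?_⟩
    have h1 := Matrix.det_eq_sign_charpoly_coeff (g : Matrix (Fin (m + 1)) (Fin (m + 1)) F)
    rw [g.2, Fintype.card_fin] at h1
    have h2 : ((-1 : F) ^ (m + 1)) * ((-1 : F) ^ (m + 1)) = 1 := by
      rw [← mul_pow]; simp
    calc (g : Matrix (Fin (m + 1)) (Fin (m + 1)) F).charpoly.coeff 0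
        = ((-1 : F) ^ (m + 1)) * (((-1 : F) ^ (m + 1)) *
            (g : Matrix (Fin (m + 1)) (Fin (m + 1)) F).charpoly.coeff 0) := by
          rw [← mul_assoc, h2, one_mul]
      _ = (-1 : F) ^ (m + 1) := by rw [← h1, mul_one]
  · intro g h hg hh hc
    exact Cfsg.Agent.S2388.result p (m + 1) g h hg hh hc
  · rintro χ ⟨hm, hd, h0⟩
    obtain ⟨g, hg, hg'⟩ := exists_sl_of_charpoly p (m + 1) χ hd hm h0
    exact ⟨g, hg', hg⟩
  · intro g h hgh
    obtain ⟨c, rfl⟩ := isConj_iff.1 hgh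
    symm
    show ((c : Matrix (Fin (m + 1)) (Fin (m + 1)) F) * g *
      (c⁻¹ : Matrix.SpecialLinearGroup (Fin (m + 1)) F)).charpoly = _
    rw [Matrix.charpoly_mul_comm, ← mul_assoc, ← Matrix.SpecialLinearGroup.coe_mul,
      inv_mul_cancel, Matrix.SpecialLinearGroup.coe_one, one_mul]

end Cfsg.Agent.S2384
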