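import Cfsg.Statements.S2389
import Cfsg.Agent.S2589
import Cfsg.Agent.Lib.Helper45Semisimple

set_option autoImplicit false
open Cfsg

namespace Cfsg.Agent.S2389

theorem result {F : Type*} [Field F] [Fintype F] (p : ℕ) [Fact p.Prime] [CharP F p] (n : ℕ)
    (g h : ↥(Matrix.symplecticGroup (Fin n) F)) (hg : (orderOf g).Coprime p) (hh : (orderOf h).Coprime p)
    (hc : (g : Matrix (Fin n ⊕ Fin n) (Fin n ⊕ Fin n) F).charpoly = (h : Matrix (Fin n ⊕ Fin n) (Fin n ⊕ Fin n) F).charpoly) :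
    IsConj g h := by
  rw [Cfsg.Agent.S2589.result g h hg]
  have hs : ∀ x : ↥(Matrix.symplecticGroup (Fin n) F), (orderOf x).Coprime p →
      Module.End.IsSemisimple (Matrix.toLin' x.1) := by
    intro x hx
    apply Cfsg.Agent.Lib.Helper45Semisimple.matrix_isSemisimple_of_pow_eq_one p _ _ hx
    have := congrArg Subtype.val (pow_orderOf_eq_one x)
    rwa [SubmonoidClass.coe_pow] at this
  obtain ⟨P, hP⟩ := Cfsg.Agent.Lib.Helper45Semisimple.matrix_exists_conj _ _ (hs g hg) (hs h hh) hc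
  exact ⟨P, hP⟩

end Cfsg.Agent.S2389
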