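import Cfsg.Statements.S2385
import Cfsg.Agent.Lib.Helper48SpSS
import Cfsg.Agent.S2389

set_option autoImplicit false
open Cfsg

namespace Cfsg.Agent.S2385

open Polynomial Cfsg.Agent.Lib.Helper48SpSS Cfsg.Agent.Lib.Helper45Semisimple

theorem monic_sq_inj {F : Type*} [Field F] (f g : F[X]) (hf : f.Monic) (hg : g.Monic)
    (h : f * f = g * g) : f = g := by
  rcases mul_self_eq_mul_self_iff.1 h with h1 | h1
  · exact h1
  · have h2 := hf.leadingCoeff
    rw [h1, leadingCoeff_neg, hg.leadingCoeff] at h2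
    rw [h1, ← neg_one_mul, ← C_1, ← C_neg, h2, C_1, one_mul]

/-- In the symplectic group `Sp_{2n}(q)`, `q` a power of the prime `p`, the number of conjugacy classes of elements of order prime to `p` is `q^n`. -/
theorem result {F : Type*} [Field F] [Fintype F] {q : ℕ} (hq : Fintype.card F = q) (p : ℕ) [Fact p.Prime] [CharP F p] (n : ℕ) :
    Nat.card {c : ConjClasses ↥(Matrix.symplecticGroup (Fin n) F) //
      ∃ g : ↥(Matrix.symplecticGroup (Fin n) F), ConjClasses.mk g = c ∧ (orderOf g).Coprime p} = q ^ n := by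
  have hcardfun : Nat.card (Fin n → F) = q ^ n := by
    rw [Nat.card_fun, Nat.card_fin, Nat.card_eq_fintype_card, hq]
  apply le_antisymm
  · rw [← hcardfun]
    choose rep hrep hcop using fun c : {c : ConjClasses ↥(Matrix.symplecticGroup (Fin n) F) //
      ∃ g : ↥(Matrix.symplecticGroup (Fin n) F), ConjClasses.mk g = c ∧ (orderOf g).Coprime p} => c.2
    apply Nat.card_le_card_of_injective
      (fun c (i : Fin n) => (rep c).1.charpoly.coeff ((i : ℕ) + 1))
    intro c c' h
    have hdeg : ∀ x : ↥(Matrix.symplecticGroup (Fin n) F), x.1.charpoly.natDegree = 2 * n := by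
      intro x
      rw [Matrix.charpoly_natDegree_eq_dim, Fintype.card_sum, Fintype.card_fin, two_mul]
    have h1 := eq_of_coeff n _ _ (Matrix.charpoly_monic (rep c).1) (Matrix.charpoly_monic (rep c').1)
      (hdeg _) (hdeg _) (reverse_charpoly_sp _) (reverse_charpoly_sp _) (fun i => congrFun h i)
    have h2 := Cfsg.Agent.S2389.result p n (rep c) (rep c') (hcop c) (hcop c') h1
    apply Subtype.ext
    rw [← hrep c, ← hrep c']
    exact ConjClasses.mk_eq_mk_iff_isConj.2 h2
  · rw [← hcardfun, ← Nat.card_congr (monicCoeffEquiv (F := F) n)]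
    have hex : ∀ χ : {χ : F[X] // χ.Monic ∧ χ.natDegree = n},
        ∃ s : Matrix.symplecticGroup (Fin n) F, (orderOf s).Coprime p ∧
          (s.1 + (s⁻¹).1).charpoly = χ.1 * χ.1 := by
      intro χ
      obtain ⟨x, hx⟩ := exists_sp n χ.1 χ.2.1 χ.2.2
      obtain ⟨s, hs, hsx⟩ := exists_semisimple p x
      exact ⟨s, hs, hsx.trans hx⟩
    choose s hs hsχ using hex
    apply Nat.card_le_card_of_injective (fun χ => (⟨ConjClasses.mk (s χ), s χ, rfl, hs χ⟩ :
      {c : ConjClasses ↥(Matrix.symplecticGroup (Fin n) F) //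
      ∃ g : ↥(Matrix.symplecticGroup (Fin n) F), ConjClasses.mk g = c ∧ (orderOf g).Coprime p}))
    intro χ χ' h
    have h1 := ConjClasses.mk_eq_mk_iff_isConj.1 (congrArg Subtype.val h)
    rw [isConj_iff] at h1
    obtain ⟨c, hc⟩ := h1
    have h2 : (s χ').1 + ((s χ')⁻¹).1 = c.1 * (((s χ).1 + ((s χ)⁻¹).1) * (c⁻¹).1) := by
      rw [← hc]
      have : (c * s χ * c⁻¹)⁻¹ = c * (s χ)⁻¹ * c⁻¹ := by group
      rw [this]
      change c.1 * (s χ).1 * (c⁻¹).1 + c.1 * ((s χ)⁻¹).1 * (c⁻¹).1 = _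
      rw [add_mul, mul_add, mul_assoc, mul_assoc]
    have h3 : χ'.1 * χ'.1 = χ.1 * χ.1 := by
      rw [← hsχ, ← hsχ, h2, Matrix.charpoly_mul_comm, mul_assoc,
        Cfsg.Agent.Lib.Helper48SpRegConj.coe_inv_mul, mul_one]
    exact Subtype.ext (monic_sq_inj _ _ χ.2.1 χ'.2.1 h3.symm)

end Cfsg.Agent.S2385
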