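import Cfsg.Statements.S2386
import Cfsg.Agent.Lib.Helper48SUCount
import Cfsg.Agent.S2390

set_option autoImplicit false
open Cfsg

namespace Cfsg.Agent.S2386

open Matrix Polynomial Cfsg.Agent.Lib.Helper48WallU Cfsg.Agent.Lib.Helper48SUConj
  Cfsg.Agent.Lib.Helper45Semisimple Cfsg.Agent.Lib.Helper48SUCount Cfsg.Agent.S2390

theorem result {F : Type*} [Field F] [Fintype F] {q : ℕ} (hF : Fintype.card F = q ^ 2) (p : ℕ) [Fact p.Prime] [CharP F p] (n : ℕ) (hn : 1 ≤ n) :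
    Nat.card {c : ConjClasses ↥(Cfsg.SU n F q) // ∃ g : ↥(Cfsg.SU n F q), ConjClasses.mk g = c ∧ (orderOf g).Coprime p} = q ^ (n - 1) := by
  obtain ⟨m, rfl⟩ : ∃ m, n = m + 1 := ⟨n - 1, by omega⟩
  obtain ⟨φ, hφq, hφ2, ω, hω⟩ := exists_frob hF
  set ε : F := (-1) ^ (m + 1) with hεdef
  have hε : φ ε = ε := by rw [hεdef, map_pow, map_neg, map_one]
  have hε2 : ε * ε = 1 := by rw [hεdef, ← mul_pow]; simp
  have hcoef : ∀ M : Matrix (Fin (m + 1)) (Fin (m + 1)) F, M.charpoly.coeff 0 = ε * M.det := by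
    intro M
    rw [Matrix.det_eq_sign_charpoly_coeff, Fintype.card_fin, ← mul_assoc, ← hεdef, hε2, one_mul]
  rw [card_classes_eq (G := ↥(Cfsg.SU (m + 1) F q)) (fun g => g.1.1.charpoly)
    (fun g => (orderOf g).Coprime p)
    (fun χ => χ.Monic ∧ χ.natDegree = m + 1 ∧ DD φ χ = χ ∧ χ.coeff 0 = ε)]
  · rw [Nat.card_congr (polyEquiv φ ε hε hε2 m),
      card_fix hF φ hφ2 ω hω Fin.rev Fin.rev_rev ε hε hε2, Fintype.card_fin, Nat.add_sub_cancel]
  · intro g _
    refine ⟨Matrix.charpoly_monic _, by rw [Matrix.charpoly_natDegree_eq_dim, Fintype.card_fin],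
      ?_, ?_⟩
    · exact (charpoly_dagger φ g.1.1 g.1.1 ((mem_GU_iff' hF φ hφq _).1 (emb_mem hF g))).symm
    · rw [hcoef, g.1.2, mul_one]
  · intro g h hg hh hc
    exact Cfsg.Agent.S2390.result hF p (m + 1) g h hg hh hc
  · rintro χ ⟨hm, hd, hD, h0⟩
    obtain ⟨g, hg, hgf, hgo⟩ := exists_GU_of_charpoly hF p φ hφq hφ2 ω hω (m + 1) χ hm hd
      (by
        rw [h0]
        intro h
        rw [h, mul_zero] at hε2
        exact zero_ne_one hε2) hD
    obtain ⟨t, ht⟩ := exists_emb hF g hg (by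
      have := hcoef g.1
      rw [hgf, h0] at this
      have h2 : ε * ε = ε * (ε * g.1.det) := by rw [← this]
      rw [← mul_assoc, hε2, one_mul] at h2
      exact h2.symm)
    refine ⟨t, ?_, ?_⟩
    · show (orderOf t).Coprime p
      rw [← orderOf_injective _ emb_inj, ht]
      exact hgo
    · show t.1.1.charpoly = χ
      rw [← emb_val, ht, hgf]
  · intro g h hgh
    rw [isConj_iff] at hgh
    obtain ⟨c, hc⟩ := hgh
    show g.1.1.charpoly = h.1.1.charpoly
    rw [← emb_val, ← emb_val, ← hc, map_mul, map_mul, map_inv, Units.val_mul, Units.val_mul,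
      Matrix.coe_units_inv, Matrix.charpoly_units_conj]

end Cfsg.Agent.S2386
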