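import Mathlib
import Cfsg.Statements.S2387
import Cfsg.Agent.Lib.Helper45SemisimpleCount

set_option autoImplicit false
open scoped MatrixGroups
open Cfsg

namespace Cfsg.Agent.S2387

open Cfsg.Agent.Lib.Helper45Semisimple in
/-- In `GL_n(q)` with `n ≥ 1`, `q` a power of the prime `p`, the number of conjugacy classes of elements of order prime to `p` (diagonalisable over the algebraic closure; determined by the characteristic polynomial) is `(q - 1) q^(n-1)`. -/
theorem result {F : Type*} [Field F] [Fintype F] {q : ℕ} (hq : Fintype.card F = q) (p : ℕ) [Fact p.Prime] [CharP F p] (n : ℕ) (hn : 1 ≤ n) :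
    Nat.card {c : ConjClasses (GL (Fin n) F) // ∃ g : GL (Fin n) F, ConjClasses.mk g = c ∧ (orderOf g).Coprime p} = (q - 1) * q ^ (n - 1) := by
  obtain ⟨m, rfl⟩ : ∃ m, n = m + 1 := ⟨n - 1, by omega⟩
  rw [Nat.add_sub_cancel, ← hq, ← Nat.card_eq_fintype_card, ← card_monic_coeff_zero_ne m]
  apply card_classes_eq (fun g : GL (Fin (m + 1)) F => (g : Matrix (Fin (m + 1)) (Fin (m + 1)) F).charpoly)
    (fun g => (orderOf g).Coprime p)
    (fun χ : Polynomial F => χ.Monic ∧ χ.natDegree = m + 1 ∧ χ.coeff 0 ≠ 0)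
  · intro g _
    refine ⟨Matrix.charpoly_monic _, by rw [Matrix.charpoly_natDegree_eq_dim, Fintype.card_fin], ?_⟩
    intro h0
    have h1 := Matrix.det_eq_sign_charpoly_coeff (g : Matrix (Fin (m + 1)) (Fin (m + 1)) F)
    rw [h0, mul_zero] at h1
    have := (Matrix.isUnit_iff_isUnit_det _).1 g.isUnit
    exact this.ne_zero h1
  · intro g h hg hh hc
    exact gl_isConj_of_charpoly_eq p g h hg hh hc
  · rintro χ ⟨hm, hd, h0⟩
    obtain ⟨g, hg, hg'⟩ := exists_gl_of_charpoly p (m + 1) χ hd hm h0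
    exact ⟨g, hg', hg⟩
  · intro g h hgh
    obtain ⟨c, rfl⟩ := isConj_iff.1 hgh
    symm
    show ((c : Matrix (Fin (m + 1)) (Fin (m + 1)) F) * g * (c⁻¹ : GL (Fin (m + 1)) F)).charpoly = _
    rw [Matrix.charpoly_mul_comm, ← mul_assoc, Units.inv_mul, one_mul]

end Cfsg.Agent.S2387
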