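import Cfsg.Statements.S2392
import Cfsg.Agent.Lib.Helper46Weight
-- import your own Cfsg.Agent.* helpers here

set_option autoImplicit false
open scoped MatrixGroups
open Cfsg

namespace Cfsg.Agent.S2392

open Matrix

variable {F : Type*} [Field F]

/-- the matrix `1 + e₀ (0, v)ᵀ`. -/
def xm {m : ℕ} (v : Fin m → F) : Matrix (Fin (m + 1)) (Fin (m + 1)) F :=
  fun k l => (if k = l then 1 else 0) + (if k = 0 then (Fin.cons 0 v : Fin (m + 1) → F) l else 0)

theorem xm_eq {m : ℕ} (v : Fin m → F) :
    xm v = 1 + vecMulVec (Pi.single 0 1) (Fin.cons 0 v : Fin (m + 1) → F) := by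
  ext k l
  simp only [xm, Matrix.add_apply, Matrix.one_apply, vecMulVec_apply, Pi.single_apply]
  split_ifs <;> simp

theorem xm_det {m : ℕ} (v : Fin m → F) : (xm v).det = 1 := by
  rw [xm_eq, vecMulVec_eq Unit, det_one_add_replicateCol_mul_replicateRow, dotProduct_single]
  simp

theorem cons_add {m : ℕ} (u v : Fin m → F) :
    (Fin.cons 0 (u + v) : Fin (m + 1) → F) = Fin.cons 0 u + Fin.cons 0 v := by
  funext i
  refine Fin.cases ?_ (fun j => ?_) i <;> simp

theorem xm_add {m : ℕ} (u v : Fin m → F) : xm (u + v) = xm u * xm v := by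
  rw [xm_eq, xm_eq, xm_eq, cons_add, vecMulVec_add, Matrix.add_mul, Matrix.mul_add, Matrix.mul_add,
    vecMulVec_mul_vecMulVec, dotProduct_single]
  simp only [Fin.cons_zero, zero_mul, zero_smul, vecMulVec_zero, add_zero, mul_one, one_mul]
  abel

/-- the root subgroup elements. -/
def xs {m : ℕ} (v : Fin m → F) : Matrix.SpecialLinearGroup (Fin (m + 1)) F := ⟨xm v, xm_det v⟩

/-- elementary transvections in the lower right corner. -/
def ts {m : ℕ} (a b : Fin m) (hab : a ≠ b) (c : F) : Matrix.SpecialLinearGroup (Fin (m + 1)) F :=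
  ⟨Matrix.transvection a.succ b.succ c, Matrix.det_transvection_of_ne _ _ (fun h => hab (Fin.succ_injective _ h)) c⟩

/-- the induced map on the parameters. -/
def Tm {m : ℕ} (a b : Fin m) (c : F) (v : Fin m → F) : Fin m → F := v - (c * v a) • Pi.single b 1

theorem Tm_apply_a {m : ℕ} {a b : Fin m} (hab : a ≠ b) (c : F) (v : Fin m → F) : Tm a b c v a = v a := by
  simp [Tm, Pi.single_apply, hab]

theorem Tm_bij {m : ℕ} {a b : Fin m} (hab : a ≠ b) (c : F) : Function.Bijective (Tm a b c) := by
  rw [Function.bijective_iff_has_inverse]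
  refine ⟨Tm a b (-c), ?_, ?_⟩
  · intro v
    have h := Tm_apply_a hab c v
    unfold Tm at h ⊢
    rw [h]
    funext i
    simp
  · intro v
    have h := Tm_apply_a hab (-c) v
    unfold Tm at h ⊢
    rw [h]
    funext i
    simp

theorem conj_xs {m : ℕ} {a b : Fin m} (hab : a ≠ b) (c : F) (v : Fin m → F) :
    ts a b hab c * xs v * (ts a b hab c)⁻¹ = xs (Tm a b c v) := by
  rw [mul_inv_eq_iff_eq_mul]
  apply Subtype.ext
  change Matrix.transvection a.succ b.succ c * xm v = xm (Tm a b c v) * Matrix.transvection a.succ b.succ c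
  have hs : a.succ ≠ b.succ := fun h => hab (Fin.succ_injective _ h)
  ext k l
  by_cases hk : k = a.succ
  · subst hk
    rw [Matrix.transvection_mul_apply_same]
    by_cases hl : l = b.succ
    · subst hl
      rw [Matrix.mul_transvection_apply_same]
      simp [xm, hs, hs.symm, Fin.succ_ne_zero]
    · rw [Matrix.mul_transvection_apply_of_ne _ _ _ _ hl]
      simp [xm, Fin.succ_ne_zero, Ne.symm hl]
  · rw [Matrix.transvection_mul_apply_of_ne _ _ _ _ hk]
    by_cases hl : l = b.succ
    · subst hl
      rw [Matrix.mul_transvection_apply_same]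
      by_cases h0 : k = 0
      · subst h0
        simp [xm, Tm, Pi.single_apply, hab, (Fin.succ_ne_zero _).symm]
      · simp [xm, h0, hk]
    · rw [Matrix.mul_transvection_apply_of_ne _ _ _ _ hl]
      by_cases h0 : k = 0
      · subst h0
        simp only [xm, if_true]
        congr 1
        refine Fin.cases ?_ (fun j hj => ?_) l hl
        · intro _; simp
        · have : j ≠ b := fun h => hj (congrArg Fin.succ h)
          simp [Tm, Pi.single_apply, this]
      · simp [xm, h0]

theorem dual_Tm {m : ℕ} {a b : Fin m} (hab : a ≠ b) (c : F) (w v : Fin m → F) :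
    (w + (c * w b) • Pi.single a 1) ⬝ᵥ Tm a b c v = w ⬝ᵥ v := by
  unfold Tm
  rw [dotProduct_sub, dotProduct_smul, dotProduct_single, add_dotProduct, smul_dotProduct, single_dotProduct]
  simp [Pi.single_apply, hab.symm]
  ring

theorem stepA {m : ℕ} (Ω : Set (Fin m → F))
    (hcl : ∀ (a b : Fin m) (c : F) (w : Fin m → F), a ≠ b → w ∈ Ω → w + (c * w b) • Pi.single a 1 ∈ Ω)
    {w : Fin m → F} (hw : w ∈ Ω) {b : Fin m} (hb : w b ≠ 0) (u : Fin m → F) (hu : u b = w b) : u ∈ Ω := by
  classical
  have key : ∀ s : Finset (Fin m), b ∉ s → (fun i => if i ∈ s then u i else w i) ∈ Ω := by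
    intro s
    induction s using Finset.induction_on with
    | empty => intro _; simpa using hw
    | insert a s ha ih =>
      intro hbs
      rw [Finset.mem_insert, not_or] at hbs
      have h1 := hcl a b ((u a - w a) / w b) _ (Ne.symm hbs.1) (ih hbs.2)
      convert h1 using 1
      funext i
      simp only [Pi.add_apply, Pi.smul_apply, Pi.single_apply, if_neg hbs.2, Finset.mem_insert, smul_eq_mul]
      by_cases hia : i = a
      · subst hia
        simp only [true_or, if_true, if_neg ha]
        field_simp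
        ring
      · simp [hia]
  have h := key (Finset.univ.erase b) (Finset.notMem_erase b _)
  convert h using 1
  funext i
  by_cases hi : i = b
  · subst hi; simp [hu]
  · simp [hi]

theorem closed_all {m : ℕ} (hm : 2 ≤ m) (Ω : Set (Fin m → F))
    (hcl : ∀ (a b : Fin m) (c : F) (w : Fin m → F), a ≠ b → w ∈ Ω → w + (c * w b) • Pi.single a 1 ∈ Ω)
    {w0 : Fin m → F} (h0 : w0 ∈ Ω) (hne : w0 ≠ 0) (w : Fin m → F) (hw : w ≠ 0) : w ∈ Ω := by
  classical
  obtain ⟨b, hb⟩ : ∃ b, w0 b ≠ 0 := by
    by_contra h; push Not at h; exact hne (funext h)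
  obtain ⟨k, hk⟩ : ∃ k, w k ≠ 0 := by
    by_contra h; push Not at h; exact hw (funext h)
  -- moving from coordinate `b` to a different coordinate `k`
  have move : ∀ (w1 : Fin m → F) (b k : Fin m) (t : F), w1 ∈ Ω → w1 b ≠ 0 → k ≠ b → t ≠ 0 →
      ∀ u : Fin m → F, u k = t → u ∈ Ω := by
    intro w1 b k t h1 hb1 hkb ht u hu
    have h2 : Function.update w1 k t ∈ Ω :=
      stepA Ω hcl h1 hb1 _ (by rw [Function.update_of_ne (Ne.symm hkb)])
    exact stepA Ω hcl h2 (b := k) (by rw [Function.update_self]; exact ht) u (by rw [Function.update_self, hu])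
  by_cases hkb : k = b
  · subst hkb
    obtain ⟨k', hk'⟩ : ∃ k' : Fin m, k' ≠ k := by
      by_cases h : k = ⟨0, by omega⟩
      · exact ⟨⟨1, by omega⟩, by rw [h]; simp [Fin.ext_iff]⟩
      · exact ⟨⟨0, by omega⟩, Ne.symm h⟩
    have h1 : Function.update (Function.update w0 k' 1) k (w k) ∈ Ω :=
      move w0 k k' 1 h0 hb hk' one_ne_zero _ (by
        rw [Function.update_of_ne hk', Function.update_self])
    exact stepA Ω hcl h1 (b := k) (by rw [Function.update_self]; exact hk) w (by rw [Function.update_self])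
  · exact move w0 b k (w k) h0 hb hkb hk w rfl

/-- A lower bound for representations in cross characteristic: for `n ≥ 3` and a field `F` with `q` elements, every homomorphism from `SL_n(F)` to `GL_d(K)`, `K` a field of characteristic different from that of `F`, whose kernel is central has `d ≥ q^(n-1) - 1`. -/
theorem result {F : Type*} [Field F] [Fintype F] {q : ℕ} (hq : Fintype.card F = q) (n : ℕ) (hn : 3 ≤ n)
    {K : Type*} [Field K] (hK : ringChar K ≠ ringChar F) {d : ℕ}
    (ρ : Matrix.SpecialLinearGroup (Fin n) F →* GL (Fin d) K) (hker : ρ.ker ≤ Subgroup.center (Matrix.SpecialLinearGroup (Fin n) F)) :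
    q ^ (n - 1) - 1 ≤ d := by
  classical
  obtain ⟨m, rfl⟩ : ∃ m, n = m + 1 := ⟨n - 1, by omega⟩
  have hm : 2 ≤ m := by omega
  obtain ⟨Ω, h1, h2, h3⟩ := Cfsg.Agent.Lib.Helper46Weight.exists_weights (F := F) (ι := Fin m) hK ρ xs
    (fun u v => Subtype.ext (xm_add u v))
  have hcl : ∀ (a b : Fin m) (c : F) (w : Fin m → F), a ≠ b → w ∈ Ω → w + (c * w b) • Pi.single a 1 ∈ Ω := by
    intro a b c w hab hw
    exact h3 (ts a b hab c) (Tm a b c) w _ (Tm_bij hab c) (conj_xs hab c) (dual_Tm hab c w) hw
  -- a non-trivial weight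
  let a0 : Fin m := ⟨0, by omega⟩
  have hne : ρ (xs (Pi.single a0 1 : Fin m → F)) ≠ 1 := by
    intro h
    have hc := hker (MonoidHom.mem_ker.2 h)
    rw [Matrix.SpecialLinearGroup.mem_center_iff] at hc
    obtain ⟨r, _, hr⟩ := hc
    have h4 := congrFun (congrFun hr 0) a0.succ
    change _ = xm (Pi.single a0 1 : Fin m → F) 0 a0.succ at h4
    simp [xm, Matrix.scalar_apply, Matrix.diagonal_apply, (Fin.succ_ne_zero _).symm] at h4
  obtain ⟨w0, hw0, hw0'⟩ := h2 _ hne
  have hw0ne : w0 ≠ 0 := by
    rintro rfl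
    simp at hw0'
  have hall := closed_all hm Ω hcl hw0 hw0ne
  have h5 := h1 (Finset.univ.erase 0) (by
    intro w hw
    rw [Finset.mem_coe, Finset.mem_erase] at hw
    exact hall w hw.1)
  rw [Finset.card_erase_of_mem (Finset.mem_univ _), Finset.card_univ, Fintype.card_fun, Fintype.card_fin, hq] at h5
  simpa using h5

end Cfsg.Agent.S2392
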