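import Cfsg.Statements.S2393
import Cfsg.Agent.Lib.Helper46Weight
-- import your own Cfsg.Agent.* helpers here

set_option autoImplicit false
open scoped MatrixGroups
open Cfsg

namespace Cfsg.Agent.S2393

open Matrix

set_option linter.unusedSectionVars false

variable {F : Type*} [Field F] {l : Type*} [Fintype l] [DecidableEq l]

theorem xS_mem (S : Matrix l l F) (hS : Sᵀ = S) : fromBlocks 1 S 0 1 ∈ Matrix.symplecticGroup l F := by
  rw [SymplecticGroup.mem_iff, Matrix.J, fromBlocks_multiply, fromBlocks_transpose, fromBlocks_multiply]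
  simp [hS]

theorem gAB_mem (A B : Matrix l l F) (h : A * Bᵀ = 1) : fromBlocks A 0 0 B ∈ Matrix.symplecticGroup l F := by
  have h' : B * Aᵀ = 1 := by
    have := congrArg Matrix.transpose h
    rwa [Matrix.transpose_mul, Matrix.transpose_transpose, Matrix.transpose_one] at this
  rw [SymplecticGroup.mem_iff, Matrix.J, fromBlocks_multiply, fromBlocks_transpose, fromBlocks_multiply]
  simp [h, h']

/-- the symmetric matrix `e vᵀ + v eᵀ`. -/
def Sm (e v : l → F) : Matrix l l F := vecMulVec e v + vecMulVec v e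

theorem Sm_transpose (e v : l → F) : (Sm e v)ᵀ = Sm e v := by
  ext i j
  simp [Sm, vecMulVec_apply, mul_comm, add_comm]

theorem Sm_add (e u v : l → F) : Sm e (u + v) = Sm e u + Sm e v := by
  unfold Sm
  rw [vecMulVec_add, add_vecMulVec]
  abel

/-- elements of the abelian subgroup. -/
def xs (e v : l → F) : ↥(Matrix.symplecticGroup l F) := ⟨fromBlocks 1 (Sm e v) 0 1, xS_mem _ (Sm_transpose e v)⟩

theorem xs_add (e u v : l → F) : xs e (u + v) = xs e u * xs e v := by
  apply Subtype.ext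
  change fromBlocks 1 (Sm e (u + v)) 0 1 = fromBlocks 1 (Sm e u) 0 1 * fromBlocks 1 (Sm e v) 0 1
  rw [fromBlocks_multiply, Sm_add]
  simp [add_comm]

/-- Levi elements. -/
def gs (A B : Matrix l l F) (h : A * Bᵀ = 1) : ↥(Matrix.symplecticGroup l F) := ⟨fromBlocks A 0 0 B, gAB_mem A B h⟩

theorem conj_gs (A B : Matrix l l F) (h : A * Bᵀ = 1) (e v v' : l → F) (hS : A * Sm e v = Sm e v' * B) :
    gs A B h * xs e v * (gs A B h)⁻¹ = xs e v' := by
  rw [mul_inv_eq_iff_eq_mul]
  apply Subtype.ext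
  change fromBlocks A 0 0 B * fromBlocks 1 (Sm e v) 0 1 = fromBlocks 1 (Sm e v') 0 1 * fromBlocks A 0 0 B
  rw [fromBlocks_multiply, fromBlocks_multiply]
  simp [hS]

/-! ### the torus element -/

/-- diagonal entries `(t, 1, …, 1)`. -/
def dv (i0 : l) (t : F) : l → F := Function.update 1 i0 t

theorem dv_mul (i0 : l) {t : F} (ht : t ≠ 0) : Matrix.diagonal (dv i0 t) * (Matrix.diagonal (dv i0 t⁻¹))ᵀ = 1 := by
  rw [Matrix.diagonal_transpose, Matrix.diagonal_mul_diagonal, ← Matrix.diagonal_one]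
  congr 1
  funext i
  by_cases hi : i = i0
  · subst hi; simp [dv, ht]
  · simp [dv, hi]

theorem torus_S (i0 : l) {t : F} (ht : t ≠ 0) (v : l → F) :
    Matrix.diagonal (dv i0 t) * Sm (Pi.single i0 1) v =
      Sm (Pi.single i0 1) (fun k => t * dv i0 t k * v k) * Matrix.diagonal (dv i0 t⁻¹) := by
  ext k j
  rw [Matrix.diagonal_mul, Matrix.mul_diagonal]
  simp only [Sm, Matrix.add_apply, vecMulVec_apply, Pi.single_apply, dv, Function.update_apply, Pi.one_apply]
  by_cases hk : k = i0 <;> by_cases hj : j = i0 <;> simp [hk, hj] <;> field_simp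

theorem torus_bij (i0 : l) {t : F} (ht : t ≠ 0) :
    Function.Bijective (fun (v : l → F) (k : l) => t * dv i0 t k * v k) := by
  have hd : ∀ k, t * dv i0 t k ≠ 0 := by
    intro k
    apply mul_ne_zero ht
    by_cases hk : k = i0
    · subst hk; simpa [dv] using ht
    · simp [dv, hk]
  rw [Function.bijective_iff_has_inverse]
  refine ⟨fun v k => (t * dv i0 t k)⁻¹ * v k, ?_, ?_⟩
  · intro v; funext k
    simp only
    rw [← mul_assoc, inv_mul_cancel₀ (hd k), one_mul]
  · intro v; funext k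
    simp only
    rw [← mul_assoc, mul_inv_cancel₀ (hd k), one_mul]

theorem torus_dual (i0 : l) {t : F} (ht : t ≠ 0) (w v : l → F) :
    (fun k => (t * dv i0 t k)⁻¹ * w k) ⬝ᵥ (fun k => t * dv i0 t k * v k) = w ⬝ᵥ v := by
  have hd : ∀ k, t * dv i0 t k ≠ 0 := by
    intro k
    apply mul_ne_zero ht
    by_cases hk : k = i0
    · subst hk; simpa [dv] using ht
    · simp [dv, hk]
  unfold dotProduct
  apply Finset.sum_congr rfl
  intro k _
  have := hd k
  calc (t * dv i0 t k)⁻¹ * w k * (t * dv i0 t k * v k)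
      = ((t * dv i0 t k)⁻¹ * (t * dv i0 t k)) * (w k * v k) := by ring
    _ = w k * v k := by rw [inv_mul_cancel₀ this, one_mul]

/-! ### the unipotent element -/

theorem unip_mul (i0 : l) (c : l → F) (hc : c i0 = 0) :
    (1 + vecMulVec (Pi.single i0 1) c) * (1 - vecMulVec c (Pi.single i0 1))ᵀ = 1 := by
  have : (1 - vecMulVec c (Pi.single i0 (1 : F)))ᵀ = 1 - vecMulVec (Pi.single i0 1) c := by
    ext i j
    simp [vecMulVec_apply, mul_comm, Matrix.one_apply, eq_comm]
  rw [this, Matrix.add_mul, Matrix.mul_sub, Matrix.mul_sub, vecMulVec_mul_vecMulVec, dotProduct_single, hc]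
  simp

theorem unip_S (i0 : l) (c : l → F) (hc : c i0 = 0) (v : l → F) :
    (1 + vecMulVec (Pi.single i0 1) c) * Sm (Pi.single i0 1) v =
      Sm (Pi.single i0 1) (v + (c ⬝ᵥ v) • Pi.single i0 1) * (1 - vecMulVec c (Pi.single i0 1)) := by
  ext k j
  simp only [Sm, Matrix.add_mul, Matrix.mul_add, Matrix.mul_sub, Matrix.one_mul, Matrix.mul_one,
    vecMulVec_mul_vecMulVec, dotProduct_single, single_dotProduct, add_dotProduct, smul_dotProduct, hc,
    Matrix.add_apply, Matrix.sub_apply, vecMulVec_apply, Pi.add_apply, Pi.smul_apply, smul_eq_mul,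
    dotProduct_comm v c]
  ring

theorem unip_bij (i0 : l) (c : l → F) (hc : c i0 = 0) :
    Function.Bijective (fun v : l → F => v + (c ⬝ᵥ v) • Pi.single i0 1) := by
  rw [Function.bijective_iff_has_inverse]
  refine ⟨fun v => v - (c ⬝ᵥ v) • Pi.single i0 1, ?_, ?_⟩
  · intro v
    simp only [dotProduct_add, dotProduct_smul, dotProduct_single, hc]
    simp
  · intro v
    simp only [dotProduct_sub, dotProduct_smul, dotProduct_single, hc]
    simp

theorem unip_dual (i0 : l) (c : l → F) (hc : c i0 = 0) (w v : l → F) :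
    (w - w i0 • c) ⬝ᵥ (v + (c ⬝ᵥ v) • Pi.single i0 1) = w ⬝ᵥ v := by
  simp only [dotProduct_add, dotProduct_smul, dotProduct_single, sub_dotProduct, smul_dotProduct, hc,
    Pi.sub_apply, Pi.smul_apply, smul_eq_mul]
  ring

theorem not_central (h2 : (2 : F) ≠ 0) (i0 : l) :
    xs (Pi.single i0 1) (Pi.single i0 (1 : F)) ∉ Subgroup.center ↥(Matrix.symplecticGroup l F) := by
  intro h
  rw [Subgroup.mem_center_iff] at h
  have h1 := congrArg Subtype.val (h ⟨Matrix.J l F, SymplecticGroup.J_mem l F⟩)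
  change Matrix.J l F * fromBlocks 1 (Sm (Pi.single i0 1) (Pi.single i0 (1 : F))) 0 1 =
    fromBlocks 1 (Sm (Pi.single i0 1) (Pi.single i0 (1 : F))) 0 1 * Matrix.J l F at h1
  rw [Matrix.J, fromBlocks_multiply, fromBlocks_multiply] at h1
  have h3 := congrFun (congrFun h1 (Sum.inl i0)) (Sum.inl i0)
  simp [Sm, vecMulVec_apply] at h3
  apply h2
  rw [← one_add_one_eq_two]
  exact h3.symm

theorem card_sq_image [Fintype F] [DecidableEq F] (a : F) (ha : a ≠ 0) :
    Fintype.card F - 1 ≤ 2 * ((Finset.univ.erase (0 : F)).image (fun t => (t * t)⁻¹ * a)).card := by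
  have h := Finset.card_le_mul_card_image (f := fun t : F => (t * t)⁻¹ * a) (Finset.univ.erase (0 : F)) 2 (by
    intro b hb
    obtain ⟨t1, ht1, rfl⟩ := Finset.mem_image.1 hb
    have ht1' := (Finset.mem_erase.1 ht1).1
    have : (Finset.univ.erase (0 : F)).filter (fun t => (t * t)⁻¹ * a = (t1 * t1)⁻¹ * a) ⊆ {t1, -t1} := by
      intro t ht
      rw [Finset.mem_filter, Finset.mem_erase] at ht
      have e := mul_right_cancel₀ ha ht.2
      have e2 : t * t = t1 * t1 := inv_injective e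
      rw [Finset.mem_insert, Finset.mem_singleton]
      exact mul_self_eq_mul_self_iff.1 e2
    exact (Finset.card_le_card this).trans Finset.card_le_two)
  rwa [Finset.card_erase_of_mem (Finset.mem_univ _), Finset.card_univ] at h

/-- A lower bound for representations in cross characteristic: for `n ≥ 2` and a field `F` with `q` elements, `q` odd, every homomorphism from the symplectic group `Sp_{2n}(F)` to `GL_d(K)`, `K` a field of characteristic different from that of `F`, whose kernel is central has `d ≥ q^(n-1)(q-1)/2`. -/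
theorem result {F : Type*} [Field F] [Fintype F] {q : ℕ} (hq : Fintype.card F = q) (hodd : Odd q) (n : ℕ) (hn : 2 ≤ n)
    {K : Type*} [Field K] (hK : ringChar K ≠ ringChar F) {d : ℕ}
    (ρ : ↥(Matrix.symplecticGroup (Fin n) F) →* GL (Fin d) K) (hker : ρ.ker ≤ Subgroup.center ↥(Matrix.symplecticGroup (Fin n) F)) :
    q ^ (n - 1) * (q - 1) / 2 ≤ d := by
  classical
  obtain ⟨m, rfl⟩ : ∃ m, n = m + 1 := ⟨n - 1, by omega⟩
  have h2 : (2 : F) ≠ 0 := by
    apply Ring.two_ne_zero
    intro h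
    have := FiniteField.even_card_of_char_two h
    rw [hq] at this
    rcases hodd with ⟨k, hk⟩
    omega
  let e0 : Fin (m + 1) → F := Pi.single 0 1
  obtain ⟨Ω, h1, h2', h3⟩ := Cfsg.Agent.Lib.Helper46Weight.exists_weights (F := F) (ι := Fin (m + 1)) hK ρ (xs e0)
    (xs_add e0)
  have hne : ρ (xs e0 e0) ≠ 1 := fun h => not_central h2 0 (hker (MonoidHom.mem_ker.2 h))
  obtain ⟨w0, hw0, hw0'⟩ := h2' _ hne
  have ha : w0 0 ≠ 0 := by
    simpa [e0, dotProduct_single] using hw0'
  -- the large orbit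
  have horb : ∀ (t : F) (u : Fin m → F), t ≠ 0 → (Fin.cons ((t * t)⁻¹ * w0 0) u : Fin (m + 1) → F) ∈ Ω := by
    intro t u ht
    have s1 : (fun k => (t * dv 0 t k)⁻¹ * w0 k) ∈ Ω :=
      h3 (gs _ _ (dv_mul 0 ht)) _ w0 _ (torus_bij 0 ht)
        (fun v => conj_gs _ _ _ e0 v _ (torus_S 0 ht v)) (torus_dual 0 ht w0) hw0
    set w1 : Fin (m + 1) → F := fun k => (t * dv 0 t k)⁻¹ * w0 k with hw1
    have hw10 : w1 0 = (t * t)⁻¹ * w0 0 := by simp [hw1, dv]
    have hw10' : w1 0 ≠ 0 := by
      rw [hw10]; exact mul_ne_zero (inv_ne_zero (mul_ne_zero ht ht)) ha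
    let c : Fin (m + 1) → F := (w1 0)⁻¹ • (w1 - Fin.cons ((t * t)⁻¹ * w0 0) u)
    have hc : c 0 = 0 := by simp [c, hw10]
    have s2 := h3 (gs _ _ (unip_mul 0 c hc)) _ w1 _ (unip_bij 0 c hc)
        (fun v => conj_gs _ _ _ e0 v _ (unip_S 0 c hc v)) (unip_dual 0 c hc w1) s1
    have e : w1 - w1 0 • c = Fin.cons ((t * t)⁻¹ * w0 0) u := by
      simp only [c]
      rw [smul_smul, mul_inv_cancel₀ hw10', one_smul, sub_sub_cancel]
    rwa [e] at s2
  let Q : Finset F := (Finset.univ.erase (0 : F)).image (fun t => (t * t)⁻¹ * w0 0)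
  let S : Finset (Fin (m + 1) → F) :=
    (Q ×ˢ (Finset.univ : Finset (Fin m → F))).image (fun p => Fin.cons p.1 p.2)
  have hS : S.card = Q.card * q ^ m := by
    rw [Finset.card_image_of_injective, Finset.card_product, Finset.card_univ, Fintype.card_fun, Fintype.card_fin, hq]
    intro p p' h
    have := Fin.cons_injective2 h
    exact Prod.ext this.1 this.2
  have hSd : S.card ≤ d := by
    apply h1
    intro w hw
    obtain ⟨⟨b, u⟩, hp, rfl⟩ := Finset.mem_image.1 (Finset.mem_coe.1 hw)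
    rw [Finset.mem_product] at hp
    obtain ⟨t, ht, rfl⟩ := Finset.mem_image.1 hp.1
    exact horb t u (Finset.mem_erase.1 ht).1
  have hQ := card_sq_image (w0 0) ha
  rw [hq] at hQ
  apply Nat.div_le_of_le_mul
  rw [Nat.add_sub_cancel]
  calc q ^ m * (q - 1) ≤ q ^ m * (2 * Q.card) := Nat.mul_le_mul_left _ hQ
    _ = 2 * (Q.card * q ^ m) := by ring
    _ = 2 * S.card := by rw [hS]
    _ ≤ 2 * d := Nat.mul_le_mul_left _ hSd

end Cfsg.Agent.S2393
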