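import Cfsg.Statements.S2398
import Cfsg.Agent.Lib.Helper23To11
import Cfsg.Agent.Lib.Helper23ToG2
import Cfsg.Agent.Lib.Helper23ToB2
import Cfsg.Agent.Lib.Helper23ToD4
import Cfsg.Agent.Lib.Helper23ToF4
import Cfsg.Agent.Lib.Helper23UnE6
import Cfsg.Agent.Lib.Helper23UnE7
import Cfsg.Agent.Lib.Helper23UnE8
import Cfsg.Agent.S2395

set_option autoImplicit false
open Cfsg

namespace Cfsg.Agent.S2398

/-- Universality of the group Δ presented by Steinberg's generators with relators (R1), (R2), over a field with more than four elements (types G₂, B₂, D₄, F₄, E₆, E₇, E₈): for every central extension `π₁ : E → G₁` (surjective, central kernel) and every homomorphism `σ : Δ → G₁` there is exactly one homomorphism `τ : Δ → E` with `π₁ ∘ τ = σ`. In particular every central extension of Δ splits; together with the fact that Δ maps onto the Chevalley group with central kernel, this makes Δ the universal central extension of the Chevalley group.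 -/
theorem result {K : Type*} [Field K] (hK5 : ∃ s : Finset K, 4 < s.card) (D : Cfsg.Lie.ChevalleyDatum) (hD : D ∈ [Cfsg.Lie.chevG2, Cfsg.Lie.chevB2, Cfsg.Lie.chevD4, Cfsg.Lie.chevF4, Cfsg.Lie.chevE6, Cfsg.Lie.chevE7, Cfsg.Lie.chevE8])
    {G₁ E : Type*} [Group G₁] [Group E] (π₁ : E →* G₁) (hπ : Function.Surjective π₁) (hc : π₁.ker ≤ Subgroup.center E)
    (σ : D.SteinbergCover K →* G₁) : ∃! τ : D.SteinbergCover K →* E, π₁.comp τ = σ := by
  have hp : commutator (D.SteinbergCover K) = ⊤ :=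
    Cfsg.Agent.S2395.result D hD (fun _ => by
      obtain ⟨x, h1, h2, -, -⟩ := Cfsg.Agent.Lib.Helper23To.exists_avoid hK5 0 1 0 0
      exact ⟨x, h1, h2⟩)
  have hK3 : ∃ s : Finset K, 3 < s.card := by
    obtain ⟨s, hs⟩ := hK5
    exact ⟨s, by omega⟩
  have hK2 : ∃ s : Finset K, 2 < s.card := by
    obtain ⟨s, hs⟩ := hK5
    exact ⟨s, by omega⟩
  have hex : ∃ τ : D.SteinbergCover K →* E, π₁.comp τ = σ := by
    simp only [List.mem_cons, List.not_mem_nil, or_false] at hD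
    rcases hD with rfl | rfl | rfl | rfl | rfl | rfl | rfl
    · exact Cfsg.Agent.Lib.Helper23To.lift_general Cfsg.Agent.Lib.Helper23ToG2.hD hp π₁ hπ hc σ
        (fun π h1 h2 => Cfsg.Agent.Lib.Helper23ToG2.lift hK5 h1 h2)
    · exact Cfsg.Agent.Lib.Helper23To.lift_general Cfsg.Agent.Lib.Helper23ToB2.hD hp π₁ hπ hc σ
        (fun π h1 h2 => Cfsg.Agent.Lib.Helper23ToB2.lift hK3 h1 h2)
    · exact Cfsg.Agent.Lib.Helper23To.lift_general Cfsg.Agent.Lib.Helper23ToD4.hD hp π₁ hπ hc σ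
        (fun π h1 h2 => Cfsg.Agent.Lib.Helper23ToD4.lift hK2 h1 h2)
    · exact Cfsg.Agent.Lib.Helper23To.lift_general Cfsg.Agent.Lib.Helper23ToF4.hD hp π₁ hπ hc σ
        (fun π h1 h2 => Cfsg.Agent.Lib.Helper23ToF4.lift hK2 h1 h2)
    · exact Cfsg.Agent.Lib.Helper23Un.exists_lift Cfsg.Agent.Lib.Helper22ChevTabE6.agree
        Cfsg.Agent.Lib.Helper23UnE6.chk (by simp [Cfsg.Agent.Lib.Helper22ChevBasic.Std]) π₁ hπ hc σ
    · exact Cfsg.Agent.Lib.Helper23Un.exists_lift Cfsg.Agent.Lib.Helper22ChevTabE7.agree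
        Cfsg.Agent.Lib.Helper23UnE7.chk (by simp [Cfsg.Agent.Lib.Helper22ChevBasic.Std]) π₁ hπ hc σ
    · exact Cfsg.Agent.Lib.Helper23Un.exists_lift Cfsg.Agent.Lib.Helper22ChevTabE8.agree
        Cfsg.Agent.Lib.Helper23UnE8.chk (by simp [Cfsg.Agent.Lib.Helper22ChevBasic.Std]) π₁ hπ hc σ
  obtain ⟨τ, hτ⟩ := hex
  exact ⟨τ, hτ, fun τ' hτ' => Cfsg.Agent.Lib.Helper23To.unique_lift hp π₁ hc τ' τ (hτ'.trans hτ.symm)⟩

end Cfsg.Agent.S2398
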