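import Cfsg.Statements.S2399
import Cfsg.Agent.Lib.Helper23To17
import Cfsg.Agent.Lib.Helper23ToP
import Cfsg.Agent.Lib.Helper23ToB23
import Cfsg.Agent.S2398

set_option autoImplicit false
open scoped MatrixGroups
open Cfsg

namespace Cfsg.Agent.S2399

/-- Projective representations in the natural characteristic lift: for each of the types G₂, B₂, D₄, F₄, E₆, E₇, E₈ over any field `K` (for types B₂ and G₂ the field must have more than two elements — the cases where the Chevalley group is not simple are set aside), every homomorphism from the Chevalley group to `PGL_n(L) = GL_n(L)/Z`, `L` a field of the same characteristic as `K`, lifts uniquely to a homomorphism from the group Δ presented by (R1), (R2) to `GL_n(L)`, compatibly with the projection Δ → Chevalley group sending x̄_r(t) to x_r(t). -/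
theorem result {K : Type*} [Field K] (D : Cfsg.Lie.ChevalleyDatum) (hD : D ∈ [Cfsg.Lie.chevG2, Cfsg.Lie.chevB2, Cfsg.Lie.chevD4, Cfsg.Lie.chevF4, Cfsg.Lie.chevE6, Cfsg.Lie.chevE7, Cfsg.Lie.chevE8]) (hK : D ∈ [Cfsg.Lie.chevB2, Cfsg.Lie.chevG2] → ∃ x : K, x ≠ 0 ∧ x ≠ 1)
    (θ : D.SteinbergCover K →* ↥(D.group K))
    (hθ : ∀ (r : ℕ) (t : K), r < D.nroots → ((θ (D.scGen K r t) : GL D.Idx K) : Matrix D.Idx D.Idx K) = D.x K r t)
    {L : Type*} [Field L] (hL : ringChar L = ringChar K) {n : ℕ}
    (φ : ↥(D.group K) →* GL (Fin n) L ⧸ Subgroup.center (GL (Fin n) L)) :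
    ∃! ψ : D.SteinbergCover K →* GL (Fin n) L, (QuotientGroup.mk' (Subgroup.center (GL (Fin n) L))).comp ψ = φ.comp θ := by
  classical
  have hπ : Function.Surjective (QuotientGroup.mk' (Subgroup.center (GL (Fin n) L))) := QuotientGroup.mk'_surjective _
  have hc : (QuotientGroup.mk' (Subgroup.center (GL (Fin n) L))).ker ≤ Subgroup.center (GL (Fin n) L) := by
    rw [QuotientGroup.ker_mk']
  by_cases hK5 : ∃ s : Finset K, 4 < s.card
  · exact Cfsg.Agent.S2398.result hK5 D hD _ hπ hc (φ.comp θ)
  have hfin : Finite K := by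
    by_contra h
    rw [not_finite_iff_infinite] at h
    obtain ⟨s, hs⟩ := Infinite.exists_subset_card_eq K 5
    exact hK5 ⟨s, by omega⟩
  obtain ⟨p, hpK⟩ := CharP.exists K
  have hprime : p.Prime := CharP.char_is_prime K p
  haveI : Fact p.Prime := ⟨hprime⟩
  have hpL : CharP L p := by
    have h1 : ringChar K = p := ringChar.eq K p
    have h2 := ringChar.charP L
    rw [hL, h1] at h2
    exact h2
  have hp0 : (p : K) = 0 := CharP.cast_eq_zero K p
  have hA₁ : ∀ z ∈ (QuotientGroup.mk' (Subgroup.center (GL (Fin n) L))).ker, z ^ p = 1 → z = 1 :=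
    fun z hz hzp => Cfsg.Agent.Lib.Helper23To.center_GL_torsion z (hc hz) hzp
  have hp : commutator (D.SteinbergCover K) = ⊤ := Cfsg.Agent.S2395.result D hD hK
  have hex : ∃ τ : D.SteinbergCover K →* GL (Fin n) L,
      (QuotientGroup.mk' (Subgroup.center (GL (Fin n) L))).comp τ = φ.comp θ := by
    simp only [List.mem_cons, List.not_mem_nil, or_false] at hD
    rcases hD with rfl | rfl | rfl | rfl | rfl | rfl | rfl
    · obtain ⟨x, hx0, hx1⟩ := hK (by simp)
      refine Cfsg.Agent.Lib.Helper23To.proj_lift Cfsg.Agent.Lib.Helper23ToG2.hD θ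
        (fun r t hr => Subtype.ext (Units.ext (hθ r t hr))) _ hπ hc φ hA₁ (fun π a1 a2 a3 => ?_)
      by_cases h2 : (2 : K) = 0
      · refine Cfsg.Agent.Lib.Helper23ToP.liftG2_four hp0 ⟨{0, 1, x, x + 1}, ?_⟩ a1 a2 a3
        have e1 : x + 1 ≠ 0 := by
          intro h
          apply hx1
          linear_combination h - h2
        have e2 : x + 1 ≠ 1 := by
          intro h
          apply hx0
          linear_combination h
        have e3 : x + 1 ≠ x := by
          intro h
          exact one_ne_zero (α := K) (by linear_combination h)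
        rw [Finset.card_insert_of_notMem, Finset.card_insert_of_notMem, Finset.card_insert_of_notMem,
          Finset.card_singleton]
        · norm_num
        · simp only [Finset.mem_singleton]; exact e3.symm
        · simp only [Finset.mem_insert, Finset.mem_singleton, not_or]; exact ⟨hx1.symm, e2.symm⟩
        · simp only [Finset.mem_insert, Finset.mem_singleton, not_or]
          exact ⟨zero_ne_one, hx0.symm, e1.symm⟩
      · exact Cfsg.Agent.Lib.Helper23ToP.liftG2_odd hp0 h2 a1 a2 a3
    · obtain ⟨x, hx0, hx1⟩ := hK (by simp)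
      refine Cfsg.Agent.Lib.Helper23To.lift_general Cfsg.Agent.Lib.Helper23ToB2.hD hp _ hπ hc (φ.comp θ)
        (fun π a1 a2 => ?_)
      by_cases hK3 : ∃ s : Finset K, 3 < s.card
      · exact Cfsg.Agent.Lib.Helper23ToB2.lift hK3 a1 a2
      · have key : ∀ t : K, t = 0 ∨ t = 1 ∨ t = x := by
          intro t
          by_contra h
          simp only [not_or] at h
          apply hK3
          refine ⟨{t, 0, 1, x}, ?_⟩
          rw [Finset.card_insert_of_notMem, Finset.card_insert_of_notMem, Finset.card_insert_of_notMem,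
            Finset.card_singleton]
          · norm_num
          · simp only [Finset.mem_singleton]; exact hx1.symm
          · simp only [Finset.mem_insert, Finset.mem_singleton, not_or]; exact ⟨zero_ne_one, hx0.symm⟩
          · simp only [Finset.mem_insert, Finset.mem_singleton, not_or]; exact h
        have h2 : (2 : K) ≠ 0 := by
          intro h2
          rcases key (x + 1) with h | h | h
          · apply hx1
            linear_combination h - h2
          · apply hx0
            linear_combination h
          · exact one_ne_zero (α := K) (by linear_combination h)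
        have hx : x = -1 := by
          rcases key (-1) with h | h | h
          · exact absurd h (neg_ne_zero.2 one_ne_zero)
          · exfalso
            apply h2
            linear_combination -h
          · exact h.symm
        exact Cfsg.Agent.Lib.Helper23ToB23.lift3 (fun t => hx ▸ key t) h2 a1 a2
    · exact Cfsg.Agent.Lib.Helper23To.proj_lift Cfsg.Agent.Lib.Helper23ToP.hD4 θ
        (fun r t hr => Subtype.ext (Units.ext (hθ r t hr))) _ hπ hc φ hA₁
        (fun π a1 a2 a3 => Cfsg.Agent.Lib.Helper23ToP.liftD4 hp0 a1 a2 a3)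
    · exact Cfsg.Agent.Lib.Helper23To.proj_lift Cfsg.Agent.Lib.Helper23ToP.hF4 θ
        (fun r t hr => Subtype.ext (Units.ext (hθ r t hr))) _ hπ hc φ hA₁
        (fun π a1 a2 a3 => Cfsg.Agent.Lib.Helper23ToP.liftF4 hp0 a1 a2 a3)
    · exact Cfsg.Agent.Lib.Helper23Un.exists_lift Cfsg.Agent.Lib.Helper22ChevTabE6.agree
        Cfsg.Agent.Lib.Helper23UnE6.chk (by simp [Cfsg.Agent.Lib.Helper22ChevBasic.Std]) _ hπ hc (φ.comp θ)
    · exact Cfsg.Agent.Lib.Helper23Un.exists_lift Cfsg.Agent.Lib.Helper22ChevTabE7.agree
        Cfsg.Agent.Lib.Helper23UnE7.chk (by simp [Cfsg.Agent.Lib.Helper22ChevBasic.Std]) _ hπ hc (φ.comp θ)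
    · exact Cfsg.Agent.Lib.Helper23Un.exists_lift Cfsg.Agent.Lib.Helper22ChevTabE8.agree
        Cfsg.Agent.Lib.Helper23UnE8.chk (by simp [Cfsg.Agent.Lib.Helper22ChevBasic.Std]) _ hπ hc (φ.comp θ)
  obtain ⟨τ, hτ⟩ := hex
  exact ⟨τ, hτ, fun τ' hτ' => Cfsg.Agent.Lib.Helper23To.unique_lift hp _ hc τ' τ (hτ'.trans hτ.symm)⟩

end Cfsg.Agent.S2399
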