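import Cfsg.Statements.S2400
import Cfsg.Agent.Lib.Helper23To14
import Cfsg.Agent.Lib.Helper23ToB23
import Cfsg.Agent.Lib.Helper23ToD4
import Cfsg.Agent.Lib.Helper23UnE6
import Cfsg.Agent.Lib.Helper23UnE7
import Cfsg.Agent.S2395

set_option autoImplicit false
open Cfsg

namespace Cfsg.Agent.S2400

/-- Over a finite field `K`, the group presented by Steinberg's relators (R1)–(R3) (the universal Chevalley group) of type E₆ or E₇, or of type B₂ or D₄ with `K` of more than two elements, has trivial Schur multiplier: every finite stem extension of it is an isomorphism (Schur multiplier described through stem extensions as in the definitions). Types G₂, F₄ and E₈ are not covered here. -/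
theorem result {K : Type*} [Field K] [Fintype K] (e : Cfsg.Lie.ChevalleyDatum × ℕ)
    (he : e ∈ [(Cfsg.Lie.chevE6, 0), (Cfsg.Lie.chevE7, 0), (Cfsg.Lie.chevB2, 2), (Cfsg.Lie.chevD4, 2)]) (hK : Fintype.card K ≠ e.2) :
    Cfsg.HasCyclicSchurMultiplier (e.1.SteinbergGroup K) 1 := by
  classical
  have notB : ∀ D : Cfsg.Lie.ChevalleyDatum, D.rank ≠ 2 → D ∈ [Cfsg.Lie.chevB2, Cfsg.Lie.chevG2] →
      ∃ x : K, x ≠ 0 ∧ x ≠ 1 := by
    intro D hD h
    exfalso
    simp only [List.mem_cons, List.not_mem_nil, or_false] at h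
    rcases h with rfl | rfl
    · exact hD (by decide)
    · exact hD (by decide)
  have h1 : 1 < Fintype.card K := Fintype.one_lt_card
  simp only [List.mem_cons, List.not_mem_nil, or_false] at he
  rcases he with rfl | rfl | rfl | rfl
  · have hD : Cfsg.Agent.Lib.Helper22ChevBasic.Std Cfsg.Lie.chevE6 := by simp [Cfsg.Agent.Lib.Helper22ChevBasic.Std]
    exact Cfsg.Agent.Lib.Helper23To.schur_steinberg hD
      (Cfsg.Agent.S2395.result Cfsg.Lie.chevE6 (by simp) (notB _ (by decide)))
      (fun Γ _ π₁ hπ hc σ => Cfsg.Agent.Lib.Helper23Un.exists_lift Cfsg.Agent.Lib.Helper22ChevTabE6.agree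
        Cfsg.Agent.Lib.Helper23UnE6.chk hD π₁ hπ hc σ)
  · have hD : Cfsg.Agent.Lib.Helper22ChevBasic.Std Cfsg.Lie.chevE7 := by simp [Cfsg.Agent.Lib.Helper22ChevBasic.Std]
    exact Cfsg.Agent.Lib.Helper23To.schur_steinberg hD
      (Cfsg.Agent.S2395.result Cfsg.Lie.chevE7 (by simp) (notB _ (by decide)))
      (fun Γ _ π₁ hπ hc σ => Cfsg.Agent.Lib.Helper23Un.exists_lift Cfsg.Agent.Lib.Helper22ChevTabE7.agree
        Cfsg.Agent.Lib.Helper23UnE7.chk hD π₁ hπ hc σ)
  · have hK' : Fintype.card K ≠ 2 := hK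
    have hp : commutator (Cfsg.Lie.chevB2.SteinbergCover K) = ⊤ := by
      refine Cfsg.Agent.S2395.result Cfsg.Lie.chevB2 (by simp) (fun _ => ?_)
      have hcard : ({0, 1} : Finset K).card < (Finset.univ : Finset K).card := by
        rw [Finset.card_univ]
        have : ({0, 1} : Finset K).card ≤ 2 := Finset.card_le_two
        omega
      obtain ⟨x, _, hx⟩ := Finset.exists_mem_notMem_of_card_lt_card hcard
      simp only [Finset.mem_insert, Finset.mem_singleton, not_or] at hx
      exact ⟨x, hx.1, hx.2⟩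
    refine Cfsg.Agent.Lib.Helper23To.schur_steinberg Cfsg.Agent.Lib.Helper23ToB2.hD hp
      (fun Γ _ π₁ hπ hc σ => Cfsg.Agent.Lib.Helper23To.lift_general Cfsg.Agent.Lib.Helper23ToB2.hD hp π₁ hπ hc σ
        (fun π a1 a2 => ?_))
    by_cases h3 : Fintype.card K = 3
    · have c3 : (3 : K) = 0 := by
        have := Nat.cast_card_eq_zero K
        rw [h3] at this
        exact_mod_cast this
      have h2 : (2 : K) ≠ 0 := by
        intro h
        have : (1 : K) = 0 := by linear_combination c3 - h
        exact one_ne_zero this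
      have ht : ∀ t : K, t = 0 ∨ t = 1 ∨ t = -1 := by
        intro t
        have := FiniteField.pow_card t
        rw [h3] at this
        have e : t * ((t - 1) * (t + 1)) = 0 := by linear_combination this
        rcases mul_eq_zero.1 e with h | h
        · exact Or.inl h
        · rcases mul_eq_zero.1 h with h | h
          · exact Or.inr (Or.inl (sub_eq_zero.1 h))
          · exact Or.inr (Or.inr (eq_neg_of_add_eq_zero_left h))
      exact Cfsg.Agent.Lib.Helper23ToB23.lift3 ht h2 a1 a2
    · exact Cfsg.Agent.Lib.Helper23ToB2.lift ⟨Finset.univ, by rw [Finset.card_univ]; omega⟩ a1 a2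
  · have hK' : Fintype.card K ≠ 2 := hK
    have hp : commutator (Cfsg.Lie.chevD4.SteinbergCover K) = ⊤ :=
      Cfsg.Agent.S2395.result Cfsg.Lie.chevD4 (by simp) (notB _ (by decide))
    exact Cfsg.Agent.Lib.Helper23To.schur_steinberg Cfsg.Agent.Lib.Helper23ToD4.hD hp
      (fun Γ _ π₁ hπ hc σ => Cfsg.Agent.Lib.Helper23To.lift_general Cfsg.Agent.Lib.Helper23ToD4.hD hp π₁ hπ hc σ
        (fun π a1 a2 => Cfsg.Agent.Lib.Helper23ToD4.lift ⟨Finset.univ, by rw [Finset.card_univ]; omega⟩ a1 a2))

end Cfsg.Agent.S2400
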