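import Mathlib
import Cfsg.Statements.S2402
import Cfsg.Agent.Lib.Helper45SLGen

set_option autoImplicit false
open Cfsg

namespace Cfsg.Agent.S2402

open Cfsg.Agent.Lib.Helper45SLGen

theorem exists_sq_sub_sq {K : Type*} [Field K] [Fintype K] (b : K) : ∃ u v : K, b = u ^ 2 - v ^ 2 := by
  by_cases h2 : (2 : K) = 0
  · have hc : ringChar K = 2 := CharP.ringChar_of_prime_eq_zero Nat.prime_two (by exact_mod_cast h2)
    obtain ⟨u, hu⟩ := FiniteField.isSquare_of_char_two hc b
    exact ⟨u, 0, by rw [hu]; ring⟩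
  · exact ⟨(b + 1) / 2, (b - 1) / 2, by field_simp; ring⟩

/-- abstract group computation. -/
theorem group_calc {G K : Type*} [Group G] [Field K] (T : K → G) (hT : ∀ a b, T (a + b) = T a * T b)
    (h h' : G) (α μ : K) (h1 : ∀ a, h * T a = T (α * a) * h) (h2 : ∀ a, T a * h' = h' * T (μ * a))
    (hc : h * h' = h' * h) :
    (T 1 * h' * (T 1)⁻¹)⁻¹ * (h * (T 1 * h' * (T 1)⁻¹) * h⁻¹) = T ((μ - 1) * (α - 1)) := by
  have hT0 : T 0 = 1 := by
    have := hT 0 0
    rw [add_zero] at this
    exact (mul_eq_left.1 this.symm)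
  have hTneg : ∀ a, (T a)⁻¹ = T (-a) := by
    intro a
    rw [inv_eq_iff_mul_eq_one, ← hT, add_neg_cancel, hT0]
  have e1 : h * (T 1 * h' * (T 1)⁻¹) * h⁻¹ = T α * h' * T (-α) := by
    rw [hTneg]
    have a1 := h1 1
    have a2 := h1 (-1)
    rw [mul_one] at a1
    rw [mul_neg, mul_one] at a2
    calc h * (T 1 * h' * T (-1)) * h⁻¹ = (h * T 1) * h' * T (-1) * h⁻¹ := by group
      _ = T α * (h * h') * T (-1) * h⁻¹ := by rw [a1]; group
      _ = T α * h' * (h * T (-1)) * h⁻¹ := by rw [hc]; group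
      _ = T α * h' * T (-α) := by rw [a2]; group
  rw [e1]
  have e2 : (T 1 * h' * (T 1)⁻¹)⁻¹ = T 1 * h'⁻¹ * T (-1) := by
    rw [hTneg]
    simp only [mul_inv_rev, hTneg, neg_neg, mul_assoc]
  rw [e2]
  have e3 : T (-1) * T α = T (α - 1) := by rw [← hT]; congr 1; ring
  have e4 := h2 (α - 1)
  calc T 1 * h'⁻¹ * T (-1) * (T α * h' * T (-α))
      = T 1 * h'⁻¹ * (T (-1) * T α) * h' * T (-α) := by group
    _ = T 1 * h'⁻¹ * (T (α - 1) * h') * T (-α) := by rw [e3]; group
    _ = T 1 * T (μ * (α - 1)) * T (-α) := by rw [e4]; group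
    _ = T ((μ - 1) * (α - 1)) := by rw [← hT, ← hT]; congr 1; ring

/-- Explicit two-element generation of `PSL_{n+1}(K)` for a finite field `K` with more than three elements: let `k` generate the multiplicative group of `K`, `h = diag(k, k⁻¹, 1, …, 1)`, `x = 1 + E₁₂` (the elementary transvection) and `w` the monomial matrix with entries `1` in positions `(i, i+1)` and `(−1)^n` in position `(n+1, 1)`. Then `h` and `x·w` generate `SL_{n+1}(K)` modulo its centre: the subgroup they generate together with the centre is everything. -/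
theorem result {K : Type*} [Field K] [Fintype K] (hK : 3 < Fintype.card K) (n : ℕ) (hn : 1 ≤ n)
    (k : Kˣ) (hk : ∀ u : Kˣ, u ∈ Subgroup.zpowers k)
    (h x w : Matrix.SpecialLinearGroup (Fin (n + 1)) K)
    (hh : (h : Matrix (Fin (n + 1)) (Fin (n + 1)) K) =
      Matrix.diagonal (fun i => if i.val = 0 then (k : K) else if i.val = 1 then ((k⁻¹ : Kˣ) : K) else 1))
    (hx : (x : Matrix (Fin (n + 1)) (Fin (n + 1)) K) = Matrix.transvection (0 : Fin (n + 1)) (1 : Fin (n + 1)) 1)
    (hw : (w : Matrix (Fin (n + 1)) (Fin (n + 1)) K) =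
      Matrix.of (fun i j => if j.val = i.val + 1 then 1 else if i.val = n ∧ j.val = 0 then (-1) ^ n else 0)) :
    Subgroup.closure ({h, x * w} : Set (Matrix.SpecialLinearGroup (Fin (n + 1)) K)) ⊔
      Subgroup.center (Matrix.SpecialLinearGroup (Fin (n + 1)) K) = ⊤ := by
  classical
  set H := Subgroup.closure ({h, x * w} : Set (Matrix.SpecialLinearGroup (Fin (n + 1)) K)) with hH
  have hhH : h ∈ H := Subgroup.subset_closure (by simp)
  have hgH : x * w ∈ H := Subgroup.subset_closure (by simp)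
  have v1 : ((1 : Fin (n + 1)) : ℕ) = 1 := by
    rw [Fin.val_one']; exact Nat.mod_eq_of_lt (by omega)
  have h01 : (0 : Fin (n + 1)) ≠ 1 := by
    intro e
    have := congrArg Fin.val e
    rw [v1] at this
    simp at this
  set δ : Fin (n + 1) → K :=
    fun i => if i.val = 0 then (k : K) else if i.val = 1 then ((k⁻¹ : Kˣ) : K) else 1 with hδ
  have δ0 : δ 0 = k := by simp [hδ]
  have δ1 : δ 1 = ((k⁻¹ : Kˣ) : K) := by
    rw [hδ]
    simp only [v1]
    norm_num
  let T : K → Matrix.SpecialLinearGroup (Fin (n + 1)) K :=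
    fun a => Matrix.SpecialLinearGroup.transvection h01 a
  have hT : ∀ a b, T (a + b) = T a * T b := fun a b => Matrix.SpecialLinearGroup.transvection_add h01 a b
  have hxT : x = T 1 := Subtype.ext hx
  have hkne : (k : K) ≠ 0 := k.ne_zero
  -- order of k
  have hord : orderOf k = Fintype.card K - 1 := by
    rw [orderOf_eq_card_of_forall_mem_zpowers hk, Nat.card_eq_fintype_card, Fintype.card_units]
  have hk2 : (k : K) ^ 2 ≠ 1 := by
    intro e
    have : k ^ 2 = 1 := Units.ext (by simpa using e)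
    have := Nat.le_of_dvd (by norm_num) (orderOf_dvd_of_pow_eq_one this)
    omega
  have hk1 : (k : K) ≠ 1 := fun e => hk2 (by rw [e]; simp)
  -- h conjugation
  have c1 : ∀ a, h * T a = T ((k : K) ^ 2 * a) * h := by
    intro a
    apply Subtype.ext
    have := diagonal_mul_transvection δ 0 1 ((k : K) * a)
    rw [δ0, δ1] at this
    have e : ((k⁻¹ : Kˣ) : K) * ((k : K) * a) = a := by simp
    rw [e] at this
    simp only [Matrix.SpecialLinearGroup.coe_mul, hh]
    rw [show (k : K) ^ 2 * a = (k : K) * ((k : K) * a) by ring]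
    exact this
  -- h'
  set h' := w * h * w⁻¹ with hh'
  have hh'c : (h' : Matrix (Fin (n + 1)) (Fin (n + 1)) K) = Matrix.diagonal (fun i => δ (i + 1)) := by
    have e1 : h' * w = w * h := by rw [hh']; group
    have e2 := congrArg (fun g : Matrix.SpecialLinearGroup (Fin (n + 1)) K =>
      (g : Matrix (Fin (n + 1)) (Fin (n + 1)) K)) e1
    simp only [Matrix.SpecialLinearGroup.coe_mul, hh] at e2
    have hw' : (w : Matrix (Fin (n + 1)) (Fin (n + 1)) K) = wMat K n := hw
    rw [hw', wMat_mul_diagonal, ← hw'] at e2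
    have e3 := congrArg (fun M => M * ((w⁻¹ : Matrix.SpecialLinearGroup (Fin (n + 1)) K) :
      Matrix (Fin (n + 1)) (Fin (n + 1)) K)) e2
    simp only [mul_assoc, ← Matrix.SpecialLinearGroup.coe_mul, mul_inv_cancel,
      Matrix.SpecialLinearGroup.coe_one, mul_one] at e3
    exact e3
  set μ : K := (k : K) * δ (1 + 1) with hμ
  have c2 : ∀ a, T a * h' = h' * T (μ * a) := by
    intro a
    apply Subtype.ext
    have := diagonal_mul_transvection (fun i => δ (i + 1)) 0 1 ((k : K) * a)
    simp only [zero_add, δ1] at this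
    have e : ((k⁻¹ : Kˣ) : K) * ((k : K) * a) = a := by simp
    rw [e] at this
    simp only [Matrix.SpecialLinearGroup.coe_mul, hh'c]
    rw [show μ * a = δ (1 + 1) * ((k : K) * a) by rw [hμ]; ring]
    exact this.symm
  have c3 : h * h' = h' * h := by
    apply Subtype.ext
    simp only [Matrix.SpecialLinearGroup.coe_mul, hh'c, hh, Matrix.diagonal_mul_diagonal]
    congr 1
    funext i
    ring
  have hμ1 : μ ≠ 1 := by
    rw [hμ, hδ]
    simp only
    split_ifs with a b
    · rw [← pow_two]; exact hk2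
    · exfalso
      -- (1+1).val = 1 impossible
      have : ((1 : Fin (n + 1)) + 1).val = (1 + 1) % (n + 1) := by
        rw [Fin.val_add, v1]
      rw [this] at a b
      rcases Nat.lt_or_ge 2 (n + 1) with hlt | hge
      · rw [Nat.mod_eq_of_lt hlt] at b; omega
      · have : n = 1 := by omega
        subst this
        simp at a
    · rw [mul_one]; exact hk1
  -- the element z
  have hz := group_calc T hT h h' ((k : K) ^ 2) μ c1 c2 c3
  have hy : T 1 * h' * (T 1)⁻¹ ∈ H := by
    have : T 1 * h' * (T 1)⁻¹ = (x * w) * h * (x * w)⁻¹ := by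
      rw [hh', hxT]; group
    rw [this]
    exact mul_mem (mul_mem hgH hhH) (inv_mem hgH)
  set a₀ : K := (μ - 1) * ((k : K) ^ 2 - 1) with ha₀
  have ha₀ne : a₀ ≠ 0 := mul_ne_zero (sub_ne_zero.2 hμ1) (sub_ne_zero.2 hk2)
  have hz' : T a₀ ∈ H := by
    rw [← hz]
    exact mul_mem (inv_mem hy) (mul_mem (mul_mem hhH hy) (inv_mem hhH))
  have hT0 : T 0 = 1 := Matrix.SpecialLinearGroup.transvection_coeff_zero h01
  have hpow : ∀ (i : ℕ) (a : K), T a ∈ H → T (((k : K) ^ i) ^ 2 * a) ∈ H := by
    intro i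
    induction i with
    | zero => intro a ha; simpa using ha
    | succ i ih =>
      intro a ha
      have h3 := ih a ha
      have h4 : T ((k : K) ^ 2 * (((k : K) ^ i) ^ 2 * a)) = h * T (((k : K) ^ i) ^ 2 * a) * h⁻¹ := by
        rw [c1]; group
      have e : ((k : K) ^ (i + 1)) ^ 2 * a = (k : K) ^ 2 * (((k : K) ^ i) ^ 2 * a) := by ring
      rw [e, h4]
      exact mul_mem (mul_mem hhH h3) (inv_mem hhH)
  have hsq : ∀ u : K, T (u ^ 2 * a₀) ∈ H := by
    intro u
    by_cases hu : u = 0
    · rw [hu]; simp only [ne_eq, OfNat.ofNat_ne_zero, not_false_eq_true, zero_pow, zero_mul, hT0]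
      exact one_mem _
    · obtain ⟨i, hi⟩ := (mem_powers_iff_mem_zpowers).2 (hk (Units.mk0 u hu))
      have : u = (k : K) ^ i := by
        have := congrArg (fun z : Kˣ => (z : K)) hi
        simpa using this.symm
      rw [this]
      exact hpow i a₀ hz'
  have hall : Q H 0 1 := by
    intro _ c
    obtain ⟨u, v, huv⟩ := exists_sq_sub_sq (c / a₀)
    have e : c = u ^ 2 * a₀ + -(v ^ 2 * a₀) := by
      have : c = (c / a₀) * a₀ := by field_simp
      rw [this, huv]; ring
    have hneg : T (-(v ^ 2 * a₀)) = (T (v ^ 2 * a₀))⁻¹ :=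
      (Matrix.SpecialLinearGroup.transvection_inv h01 _).symm
    change T c ∈ H
    rw [e, hT, hneg]
    exact mul_mem (hsq u) (inv_mem (hsq v))
  have hxH : x ∈ H := by rw [hxT]; exact hall h01 1
  have hwH : w ∈ H := by
    have : w = x⁻¹ * (x * w) := by group
    rw [this]
    exact mul_mem (inv_mem hxH) hgH
  rw [eq_top_of_Q hn w hw hwH hall, top_sup_eq]

end Cfsg.Agent.S2402
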