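import Mathlib
import Cfsg.Statements.S2403
import Cfsg.Agent.Lib.Helper45SLGen

set_option autoImplicit false
open Cfsg

namespace Cfsg.Agent.S2403

open Cfsg.Agent.Lib.Helper45SLGen

theorem exists_natCast {K : Type*} [Field K] [Fintype K] (hK : Fintype.card K ≤ 3) (a : K) :
    ∃ m : ℕ, a = (m : K) := by
  have h1 : 1 < Fintype.card K := Fintype.one_lt_card
  have hp : (Fintype.card K).Prime := by
    have : Fintype.card K = 2 ∨ Fintype.card K = 3 := by omega
    rcases this with h | h <;> rw [h] <;> norm_num
  let e := ZMod.ringEquivOfPrime K hp rfl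
  have : NeZero (Fintype.card K) := ⟨by omega⟩
  refine ⟨(e.symm a).val, ?_⟩
  have h2 : e ((e.symm a).val : ZMod (Fintype.card K)) = (((e.symm a).val : ℕ) : K) := map_natCast e _
  rw [← h2, ZMod.natCast_zmod_val, RingEquiv.apply_symm_apply]

theorem transvection_natCast {K : Type*} [Field K] {ι : Type*} [Fintype ι] [DecidableEq ι]
    {i j : ι} (h : i ≠ j) (m : ℕ) :
    Matrix.SpecialLinearGroup.transvection h (m : K) =
      (Matrix.SpecialLinearGroup.transvection h (1 : K)) ^ m := by
  induction m with
  | zero => simp [Matrix.SpecialLinearGroup.transvection_coeff_zero]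
  | succ m ih => rw [Nat.cast_succ, Matrix.SpecialLinearGroup.transvection_add, ih, pow_succ]

/-- Explicit two-element generation of `PSL_{n+1}(K)` over the fields with two or three elements: with `x = 1 + E₁₂` and `w` the monomial matrix with entries `1` in positions `(i, i+1)` and `(−1)^n` in position `(n+1, 1)`, the elements `x` and `w` generate `SL_{n+1}(K)` modulo its centre. -/
theorem result {K : Type*} [Field K] [Fintype K] (hK : Fintype.card K ≤ 3) (n : ℕ) (hn : 1 ≤ n)
    (x w : Matrix.SpecialLinearGroup (Fin (n + 1)) K)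
    (hx : (x : Matrix (Fin (n + 1)) (Fin (n + 1)) K) = Matrix.transvection (0 : Fin (n + 1)) (1 : Fin (n + 1)) 1)
    (hw : (w : Matrix (Fin (n + 1)) (Fin (n + 1)) K) =
      Matrix.of (fun i j => if j.val = i.val + 1 then 1 else if i.val = n ∧ j.val = 0 then (-1) ^ n else 0)) :
    Subgroup.closure ({x, w} : Set (Matrix.SpecialLinearGroup (Fin (n + 1)) K)) ⊔
      Subgroup.center (Matrix.SpecialLinearGroup (Fin (n + 1)) K) = ⊤ := by
  have key : Subgroup.closure ({x, w} : Set (Matrix.SpecialLinearGroup (Fin (n + 1)) K)) = ⊤ := by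
    apply eq_top_of_Q hn w hw (Subgroup.subset_closure (by simp))
    intro h c
    obtain ⟨m, rfl⟩ := exists_natCast hK c
    rw [transvection_natCast]
    apply pow_mem
    have : Matrix.SpecialLinearGroup.transvection h (1 : K) = x := Subtype.ext hx.symm
    rw [this]
    exact Subgroup.subset_closure (by simp)
  rw [key, top_sup_eq]

end Cfsg.Agent.S2403
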