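import Cfsg.Statements.S2408
import Cfsg.Agent.Lib.Helper22RoJ
import Cfsg.Agent.Lib.Helper22TgMain
import Cfsg.Agent.Lib.Helper22RoC2
import Cfsg.Agent.Lib.Helper22F4T4
import Cfsg.Agent.Lib.Helper22F4T3

set_option autoImplicit false
open Cfsg

namespace Cfsg.Agent.S2408

/-- The large Ree group ²F₄(2^(2m+1)) with `m ≥ 1` is generated by two of its elements. -/
theorem result {K : Type*} [Field K] [Fintype K] {m : ℕ} (hm : 1 ≤ m) (hK : Fintype.card K = 2 ^ (2 * m + 1)) :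
    ∃ a b : ↥(Cfsg.Lie.twistedF4 K (2 ^ m)), Subgroup.closure ({a, b} : Set ↥(Cfsg.Lie.twistedF4 K (2 ^ m))) = ⊤ := by
  obtain ⟨θ, fs⟩ := Cfsg.Agent.Lib.Helper22F4.exists_fs hK
  obtain ⟨ζ, hζ⟩ := Cfsg.Agent.Lib.Helper22F4.exists_zeta hm hK
  have e : Cfsg.Lie.twistedF4 K (2 ^ m) = Cfsg.Agent.Lib.Helper22F4.G1 Cfsg.Lie.chevF4 θ :=
    (Cfsg.Agent.Lib.Helper22F4.G1_eq (Cfsg.Agent.Lib.Helper23All.rel (F := K) Cfsg.Agent.Lib.Helper22F4.stdF4) θ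
      fs.h0 fs.h1).symm
  rw [e]
  haveI : Finite (Matrix.GeneralLinearGroup Cfsg.Lie.chevF4.Idx K) := by
    haveI : Finite (Matrix Cfsg.Lie.chevF4.Idx Cfsg.Lie.chevF4.Idx K) := by unfold Matrix; infer_instance
    exact Finite.of_injective (fun g : Matrix.GeneralLinearGroup Cfsg.Lie.chevF4.Idx K => (g : Matrix Cfsg.Lie.chevF4.Idx Cfsg.Lie.chevF4.Idx K))
      Units.val_injective
  obtain ⟨S, hTD, cH, hneg, ⟨P, hP, hXa, hXb, hYa, hYb, hH⟩, cG⟩ := Cfsg.Agent.Lib.Helper22RoJ.exists_tg3 Cfsg.Agent.Lib.Helper22F4.stdF4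
    Cfsg.Agent.Lib.Helper22ChevTabF4.agree
    Cfsg.Agent.Lib.Helper22F4.ptabF4 (Cfsg.Agent.Lib.Helper23All.tab Cfsg.Agent.Lib.Helper22F4.stdF4)
    (Cfsg.Agent.Lib.Helper23All.rel (F := K) Cfsg.Agent.Lib.Helper22F4.stdF4) fs.h2 θ
    Cfsg.Agent.Lib.Helper22F4.qfF4 fs.hθ fs.h10 fs.h01 (Cfsg.Agent.Lib.Helper22F4.sgF4_ok θ fs)
    Cfsg.Agent.Lib.Helper22TwEnumF4.chk_eq Cfsg.Agent.Lib.Helper22F4.qlF4
    (Cfsg.Agent.Lib.Helper23All.cartanRefl Cfsg.Agent.Lib.Helper22F4.stdF4) Cfsg.Agent.Lib.Helper22F4.qhF4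
    Cfsg.Agent.Lib.Helper22RoC.qcF4 fs.h0 ζ hζ (2 * m + 1) (by omega)
    (by rw [Nat.card_eq_fintype_card, hK]) (Cfsg.Agent.Lib.Helper22F4.card_units hK)
    Cfsg.Agent.Lib.Helper22F4.hMF4 Cfsg.Agent.Lib.Helper22F4.csF4_eq
  exact Cfsg.Agent.Lib.Helper22TgMain.two_gen S hTD.ok P hP hXa hXb hYa hYb hH hneg

end Cfsg.Agent.S2408
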