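import Cfsg.Statements.S2411
import Cfsg.Agent.Lib.Helper36SpTWire

set_option autoImplicit false
open Cfsg

namespace Cfsg.Agent.S2411

theorem two_gen_quot {G : Type*} [Group G] (N : Subgroup G) [N.Normal] (a b : G)
    (h : Subgroup.closure ({a, b} : Set G) = ⊤) :
    Subgroup.closure ({(QuotientGroup.mk a : G ⧸ N), (QuotientGroup.mk b : G ⧸ N)} : Set (G ⧸ N))
      = ⊤ := by
  have h1 := congrArg (Subgroup.map (QuotientGroup.mk' N)) h
  rw [MonoidHom.map_closure, ← MonoidHom.range_eq_map,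
    MonoidHom.range_eq_top.2 (QuotientGroup.mk'_surjective N), Set.image_pair] at h1
  exact h1

/-- The projective symplectic group `PSp_{2m}(q)` with `m ≥ 2` (and `q > 2` if `m = 2`) is generated by two of its elements. -/
theorem result {F : Type*} [Field F] [Fintype F] (m : ℕ) (hm : 2 ≤ m) (hF : m = 2 → 2 < Fintype.card F) :
    ∃ a b : Cfsg.PSp m F, Subgroup.closure ({a, b} : Set (Cfsg.PSp m F)) = ⊤ := by
  obtain ⟨a, b, hab⟩ := Cfsg.Agent.Lib.Helper36SpTWire.sp_two_gen (F := F) m hm hF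
  exact ⟨_, _, two_gen_quot (Subgroup.center _) a b hab⟩

end Cfsg.Agent.S2411
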