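import Cfsg.Statements.S2413
import Cfsg.Agent.Lib.H43OgHub
import Cfsg.Agent.Lib.H43OgGquot
import Cfsg.Agent.Lib.H43OgFodd
import Cfsg.Agent.Lib.H43OgFplus
import Cfsg.Agent.Lib.H43OgFminus
import Cfsg.Agent.Lib.H43OgFtwo

set_option autoImplicit false
open Cfsg

namespace Cfsg.Agent.S2413

open Cfsg.Agent.Lib.Helper43Og Cfsg.Agent.Lib.H43OgHub Cfsg.Agent.Lib.H43OgGquot Cfsg.Agent.Lib.H43OgFodd
  Cfsg.Agent.Lib.H43OgFplus Cfsg.Agent.Lib.H43OgFminus Cfsg.Agent.Lib.H43OgFtwo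

/-- The simple orthogonal group `PΩ_{2m+1}(q)` (commutator subgroup of the orthogonal group of `x₀² + Σ x_i y_i` modulo its centre) with `m ≥ 2` and `q` odd is generated by two of its elements. -/
theorem result {F : Type*} [Field F] [Fintype F] (hodd : Odd (Fintype.card F)) (m : ℕ) (hm : 2 ≤ m) :
    ∃ a b : Cfsg.POmega F (Cfsg.quadFormOdd m F), Subgroup.closure ({a, b} : Set (Cfsg.POmega F (Cfsg.quadFormOdd m F))) = ⊤ := by
  have h2 := two_ne_zero_of_odd hodd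
  obtain ⟨n, rfl⟩ : ∃ n, m = n + 2 := ⟨m - 2, by omega⟩
  obtain ⟨Φ, w0, h0, hQ0, hV, hB⟩ := exists_frame_odd (n + 2) F h2
  have h := og_B (Cfsg.Agent.Lib.Helper49OddForm.QOdd_nondegenerate h2 _)
    (by simp only [Fintype.card_sum, Fintype.card_fin, Fintype.card_unit]; omega) Φ w0 h0 hQ0 hV hB
  rw [Cfsg.Agent.Lib.Helper49Forms.coe_QOdd] at h
  exact two_gen_quot _ h

end Cfsg.Agent.S2413
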