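import Cfsg.Statements.S2415
import Cfsg.Agent.Lib.H43OgHub
import Cfsg.Agent.Lib.H43OgGquot
import Cfsg.Agent.Lib.H43OgFodd
import Cfsg.Agent.Lib.H43OgFplus
import Cfsg.Agent.Lib.H43OgFminus
import Cfsg.Agent.Lib.H43OgFtwo

set_option autoImplicit false
open Cfsg

namespace Cfsg.Agent.S2415

open Cfsg.Agent.Lib.Helper43Og Cfsg.Agent.Lib.H43OgHub Cfsg.Agent.Lib.H43OgGquot Cfsg.Agent.Lib.H43OgFodd
  Cfsg.Agent.Lib.H43OgFplus Cfsg.Agent.Lib.H43OgFminus Cfsg.Agent.Lib.H43OgFtwo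

/-- The simple orthogonal group `PΩ⁻_{2m}(q)` with `m ≥ 4` (commutator subgroup, modulo its centre, of the orthogonal group of `Σ_{i<m−1} x_i y_i + z₁² + a z₁z₂ + b z₂²` with the binary part anisotropic) is generated by two of its elements. -/
theorem result {F : Type*} [Field F] [Fintype F] (m : ℕ) (hm : 4 ≤ m) (a b : F)
    (hab : ∀ z₁ z₂ : F, z₁ ^ 2 + a * z₁ * z₂ + b * z₂ ^ 2 = 0 → z₁ = 0 ∧ z₂ = 0) :
    ∃ g h : Cfsg.POmega F (Cfsg.quadFormMinus (m - 1) F a b),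
      Subgroup.closure ({g, h} : Set (Cfsg.POmega F (Cfsg.quadFormMinus (m - 1) F a b))) = ⊤ := by
  obtain ⟨n, rfl⟩ : ∃ n, m = (n + 3) + 1 := ⟨m - 4, by omega⟩
  rw [Nat.add_sub_cancel]
  obtain ⟨Φ, w0, w1, h0, hQ0, h1, hV, hB, h4⟩ := exists_frame_minus (n + 3) F a b hab
  have h := og_D (Cfsg.Agent.Lib.Helper49Rank.QMinus_nondegenerate _ hab)
    (by simp only [Fintype.card_sum, Fintype.card_fin]; omega) Φ w0 w1 h0 hQ0 h1 hV hB
    (fun h2 => Or.inr (h4 h2))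
  rw [Cfsg.Agent.Lib.Helper49Forms.coe_QMinus] at h
  exact two_gen_quot _ h

end Cfsg.Agent.S2415
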