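import Cfsg.Statements.S2416
import Cfsg.Agent.Lib.Helper23Gen

set_option autoImplicit false
open scoped MatrixGroups
open Cfsg

namespace Cfsg.Agent.S2416

/-- A Chevalley group of type G₂, B₂, D₄, F₄, E₆, E₇ or E₈ over a finite field lies in (indeed equals) the subgroup generated by its monomial subgroup `N` and a single fundamental root subgroup `X_p`, where `p` is a short fundamental root if there are two root lengths (any fundamental root otherwise), provided the characteristic is not 2 for types B₂, F₄ and not 3 for type G₂ (and the field has more than two elements for B₂, G₂). -/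
theorem result {K : Type*} [Field K] [Finite K] (D : Cfsg.Lie.ChevalleyDatum) (hD : D ∈ [Cfsg.Lie.chevG2, Cfsg.Lie.chevB2, Cfsg.Lie.chevD4, Cfsg.Lie.chevF4, Cfsg.Lie.chevE6, Cfsg.Lie.chevE7, Cfsg.Lie.chevE8])
    (hK : D ∈ [Cfsg.Lie.chevB2, Cfsg.Lie.chevG2] → ∃ x : K, x ≠ 0 ∧ x ≠ 1)
    (h2 : D ∈ [Cfsg.Lie.chevB2, Cfsg.Lie.chevF4] → ringChar K ≠ 2) (h3 : D = Cfsg.Lie.chevG2 → ringChar K ≠ 3)
    (i : ℕ) (hi : i < D.rank) (hshort : D.isLong (D.simple i) = false) :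
    D.group K ≤ D.monomialSubgroup K ⊔ D.rootSubgroup K (D.simple i) := by
  have h0 : ∀ r ∈ [D.simple i], D.rootSubgroup K r ≤ D.monomialSubgroup K ⊔ D.rootSubgroup K (D.simple i) := by
    intro r hr
    rw [List.mem_singleton] at hr
    subst hr
    exact le_sup_right
  have one : ((1 : ℕ) : K) ≠ 0 := by rw [Nat.cast_one]; exact one_ne_zero
  have hD' := hD
  simp only [List.mem_cons, List.not_mem_nil, or_false] at hD'
  rcases hD' with rfl | rfl | rfl | rfl | rfl | rfl | rfl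
  · exact Cfsg.Agent.Lib.Helper23Gen.gen_of_cert hD _ le_sup_left 3
      (Cfsg.Agent.Lib.Helper23Gen.cast_ne_zero_of_ringChar Nat.prime_three (h3 rfl)) _ _ h0
      (fun j hj => Cfsg.Agent.Lib.Helper23Gen.chkG2 ⟨i, hi⟩ hshort ⟨j, hj⟩)
  · exact Cfsg.Agent.Lib.Helper23Gen.gen_of_cert hD _ le_sup_left 2
      (Cfsg.Agent.Lib.Helper23Gen.cast_ne_zero_of_ringChar Nat.prime_two (h2 (by simp))) _ _ h0
      (fun j hj => Cfsg.Agent.Lib.Helper23Gen.chkB2 ⟨i, hi⟩ hshort ⟨j, hj⟩)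
  · exact Cfsg.Agent.Lib.Helper23Gen.gen_of_cert hD _ le_sup_left 1 one _ _ h0
      (fun j hj => Cfsg.Agent.Lib.Helper23Gen.chkD4 ⟨i, hi⟩ hshort ⟨j, hj⟩)
  · exact Cfsg.Agent.Lib.Helper23Gen.gen_of_cert hD _ le_sup_left 2
      (Cfsg.Agent.Lib.Helper23Gen.cast_ne_zero_of_ringChar Nat.prime_two (h2 (by simp))) _ _ h0
      (fun j hj => Cfsg.Agent.Lib.Helper23Gen.chkF4 ⟨i, hi⟩ hshort ⟨j, hj⟩)
  · exact Cfsg.Agent.Lib.Helper23Gen.gen_of_cert hD _ le_sup_left 1 one _ _ h0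
      (fun j hj => Cfsg.Agent.Lib.Helper23Gen.chkE6 ⟨i, hi⟩ hshort ⟨j, hj⟩)
  · exact Cfsg.Agent.Lib.Helper23Gen.gen_of_cert hD _ le_sup_left 1 one _ _ h0
      (fun j hj => Cfsg.Agent.Lib.Helper23Gen.chkE7 ⟨i, hi⟩ hshort ⟨j, hj⟩)
  · exact Cfsg.Agent.Lib.Helper23Gen.gen_of_cert hD _ le_sup_left 1 one _ _ h0
      (fun j hj => Cfsg.Agent.Lib.Helper23Gen.chkE8 ⟨i, hi⟩ hshort ⟨j, hj⟩)

end Cfsg.Agent.S2416
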