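import Cfsg.Statements.S2417
import Cfsg.Agent.Lib.Helper23Gen

set_option autoImplicit false
open scoped MatrixGroups
open Cfsg

namespace Cfsg.Agent.S2417

/-- In the characteristics with an exceptional graph symmetry — type B₂ or F₄ in characteristic 2 (field of more than two elements for B₂) and type G₂ in characteristic 3 — the Chevalley group lies in the subgroup generated by its monomial subgroup `N` and the two fundamental root subgroups `X_a`, `X_b` of a short root `a` and a long root `b` joined in the Dynkin diagram. -/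
theorem result {K : Type*} [Field K] [Finite K] (e : Cfsg.Lie.ChevalleyDatum × ℕ)
    (he : e ∈ [(Cfsg.Lie.chevB2, 2), (Cfsg.Lie.chevF4, 2), (Cfsg.Lie.chevG2, 3)]) [CharP K e.2]
    (hK : e.1 = Cfsg.Lie.chevB2 → ∃ x : K, x ≠ 0 ∧ x ≠ 1)
    (i j : ℕ) (hi : i < e.1.rank) (hj : j < e.1.rank) (hshort : e.1.isLong (e.1.simple i) = false)
    (hlong : e.1.isLong (e.1.simple j) = true) (hbond : e.1.bonds i j ≠ 0) :
    e.1.group K ≤ e.1.monomialSubgroup K ⊔ e.1.rootSubgroup K (e.1.simple i) ⊔ e.1.rootSubgroup K (e.1.simple j) := by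
  have h0 : ∀ r ∈ [e.1.simple i, e.1.simple j], e.1.rootSubgroup K r ≤
      e.1.monomialSubgroup K ⊔ e.1.rootSubgroup K (e.1.simple i) ⊔ e.1.rootSubgroup K (e.1.simple j) := by
    intro r hr
    simp only [List.mem_cons, List.not_mem_nil, or_false] at hr
    rcases hr with rfl | rfl
    · exact le_sup_of_le_left le_sup_right
    · exact le_sup_right
  have one : ((1 : ℕ) : K) ≠ 0 := by rw [Nat.cast_one]; exact one_ne_zero
  have hN : e.1.monomialSubgroup K ≤
      e.1.monomialSubgroup K ⊔ e.1.rootSubgroup K (e.1.simple i) ⊔ e.1.rootSubgroup K (e.1.simple j) :=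
    le_sup_of_le_left le_sup_left
  simp only [List.mem_cons, List.not_mem_nil, or_false] at he
  rcases he with rfl | rfl | rfl
  · exact Cfsg.Agent.Lib.Helper23Gen.gen_of_cert (by simp) _ hN 1 one _ _ h0
      (fun k hk => Cfsg.Agent.Lib.Helper23Gen.chk2B2 ⟨i, hi⟩ ⟨j, hj⟩ hshort hlong hbond ⟨k, hk⟩)
  · exact Cfsg.Agent.Lib.Helper23Gen.gen_of_cert (by simp) _ hN 1 one _ _ h0
      (fun k hk => Cfsg.Agent.Lib.Helper23Gen.chk2F4 ⟨i, hi⟩ ⟨j, hj⟩ hshort hlong hbond ⟨k, hk⟩)
  · exact Cfsg.Agent.Lib.Helper23Gen.gen_of_cert (by simp) _ hN 1 one _ _ h0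
      (fun k hk => Cfsg.Agent.Lib.Helper23Gen.chk2G2 ⟨i, hi⟩ ⟨j, hj⟩ hshort hlong hbond ⟨k, hk⟩)

end Cfsg.Agent.S2417
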