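import Mathlib
import Cfsg.Statements.S2419

set_option autoImplicit false
open Cfsg

namespace Cfsg.Agent.S2419

section general

variable {B W : Type*} [Group W] {M : CoxeterMatrix B} (cs : CoxeterSystem M W)

theorem comm_of_two (i k : B) (h : M i k = 2) : Commute (cs.simple i) (cs.simple k) := by
  have h1 := cs.simple_mul_simple_pow i k
  rw [h, pow_two] at h1
  have h2 : cs.simple i * cs.simple k = (cs.simple i * cs.simple k)⁻¹ := eq_inv_of_mul_eq_one_left h1
  rw [mul_inv_rev, cs.inv_simple, cs.inv_simple] at h2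
  exact h2

theorem comm_word (L : List B) (k : B) (h : ∀ i ∈ L, M i k = 2) :
    Commute (cs.wordProd L) (cs.simple k) := by
  induction L with
  | nil => simp
  | cons a L ih =>
    rw [cs.wordProd_cons]
    exact (comm_of_two cs a k (h a (by simp))).mul_left (ih fun i hi => h i (by simp [hi]))

theorem braid3 (j k : B) (h : M j k = 3) :
    cs.simple k * (cs.simple j * cs.simple k * cs.simple j) * cs.simple k = cs.simple j := by
  have h1 := cs.simple_mul_simple_pow' j k
  rw [h, pow_succ, pow_two] at h1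
  have h2 : cs.simple k * cs.simple j * (cs.simple k * cs.simple j) * cs.simple k =
      (cs.simple j)⁻¹ := by
    rw [eq_inv_iff_mul_eq_one]
    simpa [mul_assoc] using h1
  rw [cs.inv_simple] at h2
  simpa [mul_assoc] using h2

theorem peel (H : Subgroup W) (L : List B) (j k : B) (hk : cs.simple k ∈ H)
    (hp : cs.wordProd (L ++ [j]) ∈ H) (hcomm : ∀ i ∈ L, M i k = 2) (hjk : M j k = 3) :
    cs.simple j ∈ H ∧ cs.wordProd L ∈ H := by
  rw [cs.wordProd_append, cs.wordProd_singleton] at hp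
  have hc := comm_word cs L k hcomm
  have h1 : (cs.wordProd L * cs.simple j)⁻¹ * cs.simple k * (cs.wordProd L * cs.simple j) ∈ H :=
    mul_mem (mul_mem (inv_mem hp) hk) hp
  have h2 : (cs.wordProd L * cs.simple j)⁻¹ * cs.simple k * (cs.wordProd L * cs.simple j) =
      cs.simple j * cs.simple k * cs.simple j := by
    rw [mul_inv_rev, cs.inv_simple]
    have : (cs.wordProd L)⁻¹ * cs.simple k * cs.wordProd L = cs.simple k := by
      rw [mul_assoc, ← hc.eq, inv_mul_cancel_left]
    calc cs.simple j * (cs.wordProd L)⁻¹ * cs.simple k * (cs.wordProd L * cs.simple j)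
        = cs.simple j * ((cs.wordProd L)⁻¹ * cs.simple k * cs.wordProd L) * cs.simple j := by
          simp only [mul_assoc]
      _ = _ := by rw [this]
  rw [h2] at h1
  have h3 : cs.simple j ∈ H := by
    rw [← braid3 cs j k hjk]
    exact mul_mem (mul_mem hk h1) hk
  refine ⟨h3, ?_⟩
  have := mul_mem hp h3
  rwa [cs.simple_mul_simple_cancel_right] at this

theorem drop_last (H : Subgroup W) (L : List B) (j : B) (hj : cs.simple j ∈ H)
    (hp : cs.wordProd (L ++ [j]) ∈ H) : cs.wordProd L ∈ H := by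
  rw [cs.wordProd_append, cs.wordProd_singleton] at hp
  have := mul_mem hp hj
  rwa [cs.simple_mul_simple_cancel_right] at this

/-- the bottom of the `E` diagrams: nodes `a - c - d`, `b - d`. -/
theorem tailE (H : Subgroup W) (a b c d : B) (hd : cs.simple d ∈ H)
    (hp : cs.wordProd [a, b, c] ∈ H) (hab : M a b = 2) (hbc : M b c = 2) (hac : M a c = 3)
    (had : M a d = 2) (hcd : M c d = 3) :
    cs.simple a ∈ H ∧ cs.simple b ∈ H ∧ cs.simple c ∈ H := by
  have e : cs.wordProd [a, b, c] = cs.simple b * (cs.simple a * cs.simple c) := by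
    simp only [cs.wordProd_cons, cs.wordProd_nil, mul_one]
    rw [← mul_assoc, (comm_of_two cs a b hab).eq, mul_assoc]
  have hcm : Commute (cs.simple b) (cs.simple a * cs.simple c) :=
    ((comm_of_two cs a b hab).symm).mul_right (comm_of_two cs b c hbc)
  have h3 : cs.wordProd [a, b, c] ^ 3 = cs.simple b := by
    rw [e, hcm.mul_pow]
    have := cs.simple_mul_simple_pow a c
    rw [hac] at this
    rw [this, mul_one, pow_succ, cs.simple_sq, one_mul]
  have hb : cs.simple b ∈ H := h3 ▸ pow_mem hp 3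
  have hac' : cs.wordProd ([a] ++ [c]) ∈ H := by
    have := mul_mem hb hp
    rw [e, cs.simple_mul_simple_cancel_left] at this
    simpa [cs.wordProd_cons] using this
  have := peel cs H [a] c d hd hac' (by simpa using had) hcd
  exact ⟨by simpa using this.2, hb, this.1⟩

theorem top_of_simple_mem (H : Subgroup W) (h : ∀ i, cs.simple i ∈ H) : H = ⊤ := by
  rw [eq_top_iff, ← cs.subgroup_closure_range_simple, Subgroup.closure_le]
  rintro _ ⟨i, rfl⟩
  exact h i

end general

theorem genE6 (H : Subgroup CoxeterMatrix.E₆.Group)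
    (hc : CoxeterMatrix.E₆.toCoxeterSystem.wordProd [0, 1, 2, 3, 4, 5] ∈ H)
    (ht : CoxeterMatrix.E₆.toCoxeterSystem.simple 5 ∈ H) : H = ⊤ := by
  set cs := CoxeterMatrix.E₆.toCoxeterSystem
  have p5 := drop_last cs H [0, 1, 2, 3, 4] 5 ht hc
  have p4 := peel cs H [0, 1, 2, 3] 4 5 ht p5 (by decide) (by decide)
  have p3 := peel cs H [0, 1, 2] 3 4 p4.1 p4.2 (by decide) (by decide)
  have p := tailE cs H 0 1 2 3 p3.1 p3.2 (by decide) (by decide) (by decide) (by decide) (by decide)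
  apply top_of_simple_mem cs
  intro i
  fin_cases i
  exacts [p.1, p.2.1, p.2.2, p3.1, p4.1, ht]

theorem genE7 (H : Subgroup CoxeterMatrix.E₇.Group)
    (hc : CoxeterMatrix.E₇.toCoxeterSystem.wordProd [0, 1, 2, 3, 4, 5, 6] ∈ H)
    (ht : CoxeterMatrix.E₇.toCoxeterSystem.simple 6 ∈ H) : H = ⊤ := by
  set cs := CoxeterMatrix.E₇.toCoxeterSystem
  have p6 := drop_last cs H [0, 1, 2, 3, 4, 5] 6 ht hc
  have p5 := peel cs H [0, 1, 2, 3, 4] 5 6 ht p6 (by decide) (by decide)
  have p4 := peel cs H [0, 1, 2, 3] 4 5 p5.1 p5.2 (by decide) (by decide)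
  have p3 := peel cs H [0, 1, 2] 3 4 p4.1 p4.2 (by decide) (by decide)
  have p := tailE cs H 0 1 2 3 p3.1 p3.2 (by decide) (by decide) (by decide) (by decide) (by decide)
  apply top_of_simple_mem cs
  intro i
  fin_cases i
  exacts [p.1, p.2.1, p.2.2, p3.1, p4.1, p5.1, ht]

theorem genE8 (H : Subgroup CoxeterMatrix.E₈.Group)
    (hc : CoxeterMatrix.E₈.toCoxeterSystem.wordProd [0, 1, 2, 3, 4, 5, 6, 7] ∈ H)
    (ht : CoxeterMatrix.E₈.toCoxeterSystem.simple 7 ∈ H) : H = ⊤ := by
  set cs := CoxeterMatrix.E₈.toCoxeterSystem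
  have p7 := drop_last cs H [0, 1, 2, 3, 4, 5, 6] 7 ht hc
  have p6 := peel cs H [0, 1, 2, 3, 4, 5] 6 7 ht p7 (by decide) (by decide)
  have p5 := peel cs H [0, 1, 2, 3, 4] 5 6 p6.1 p6.2 (by decide) (by decide)
  have p4 := peel cs H [0, 1, 2, 3] 4 5 p5.1 p5.2 (by decide) (by decide)
  have p3 := peel cs H [0, 1, 2] 3 4 p4.1 p4.2 (by decide) (by decide)
  have p := tailE cs H 0 1 2 3 p3.1 p3.2 (by decide) (by decide) (by decide) (by decide) (by decide)
  apply top_of_simple_mem cs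
  intro i
  fin_cases i
  exacts [p.1, p.2.1, p.2.2, p3.1, p4.1, p5.1, p6.1, ht]

theorem genF4 (H : Subgroup CoxeterMatrix.F₄.Group)
    (hc : CoxeterMatrix.F₄.toCoxeterSystem.wordProd [0, 1, 2, 3] ∈ H)
    (ht : CoxeterMatrix.F₄.toCoxeterSystem.simple 3 ∈ H)
    (ht' : CoxeterMatrix.F₄.toCoxeterSystem.simple 0 ∈ H) : H = ⊤ := by
  set cs := CoxeterMatrix.F₄.toCoxeterSystem
  have p3 := drop_last cs H [0, 1, 2] 3 ht hc
  have p2 := peel cs H [0, 1] 2 3 ht p3 (by decide) (by decide)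
  have p1 : cs.simple 1 ∈ H := by
    have := mul_mem ht' p2.2
    simpa [cs.wordProd_cons] using this
  apply top_of_simple_mem cs
  intro i
  fin_cases i
  exacts [ht', p1, p2.1, ht]

theorem genD4 (H : Subgroup Cfsg.Lie.coxeterD4.Group)
    (hc : Cfsg.Lie.coxeterD4.toCoxeterSystem.wordProd [0, 1, 2, 3] ∈ H)
    (ht : Cfsg.Lie.coxeterD4.toCoxeterSystem.simple 3 ∈ H)
    (ht' : Cfsg.Lie.coxeterD4.toCoxeterSystem.simple 2 ∈ H) : H = ⊤ := by
  set cs := Cfsg.Lie.coxeterD4.toCoxeterSystem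
  have p3 := drop_last cs H [0, 1, 2] 3 ht hc
  have p2 := drop_last cs H [0, 1] 2 ht' p3
  have p1 := peel cs H [0] 1 2 ht' p2 (by decide) (by decide)
  apply top_of_simple_mem cs
  intro i
  fin_cases i
  exacts [by simpa using p1.2, p1.1, ht', ht]

theorem genRank2 (M : CoxeterMatrix (Fin 2)) (H : Subgroup M.Group)
    (hc : M.toCoxeterSystem.wordProd [0, 1] ∈ H)
    (ht : M.toCoxeterSystem.simple 1 ∈ H) : H = ⊤ := by
  set cs := M.toCoxeterSystem
  have p1 := drop_last cs H [0] 1 ht hc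
  apply top_of_simple_mem cs
  intro i
  fin_cases i
  exacts [by simpa using p1, ht]

theorem neF4 : CoxeterMatrix.F₄.simple 3 ≠ CoxeterMatrix.F₄.simple 0 := by
  intro h
  let f : Fin 4 → ℤˣ := ![1, 1, -1, -1]
  have hf : CoxeterMatrix.F₄.IsLiftable f := by unfold CoxeterMatrix.IsLiftable; decide
  have h1 := congrArg (CoxeterMatrix.F₄.toCoxeterSystem.lift ⟨f, hf⟩) h
  rw [← CoxeterMatrix.toCoxeterSystem_simple, CoxeterSystem.lift_apply_simple,
    CoxeterSystem.lift_apply_simple] at h1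
  exact absurd h1 (by decide)

theorem neD4 : Cfsg.Lie.coxeterD4.simple 3 ≠ Cfsg.Lie.coxeterD4.simple 2 := by
  intro h
  let f : Fin 4 → Equiv.Perm (Fin 4) :=
    ![Equiv.swap 2 3, Equiv.swap 1 2, Equiv.swap 0 1, Equiv.swap 2 3]
  have hf : Cfsg.Lie.coxeterD4.IsLiftable f := by unfold CoxeterMatrix.IsLiftable; decide
  have h1 := congrArg (Cfsg.Lie.coxeterD4.toCoxeterSystem.lift ⟨f, hf⟩) h
  rw [← CoxeterMatrix.toCoxeterSystem_simple, CoxeterSystem.lift_apply_simple,
    CoxeterSystem.lift_apply_simple] at h1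
  exact absurd h1 (by decide)

theorem pack1 {n : ℕ} (M : CoxeterMatrix (Fin n)) (k : Fin n)
    (h : ∀ H : Subgroup M.Group, M.toCoxeterSystem.wordProd (List.finRange n) ∈ H →
      M.toCoxeterSystem.simple k ∈ H → H = ⊤) :
    ∃ T : Finset M.Group, T.card = 1 ∧
      (∀ t ∈ T, ∃ (g : M.Group) (i : Fin n), t = g * M.simple i * g⁻¹) ∧
      Subgroup.closure (({((List.finRange n).map M.simple).prod} : Set M.Group) ∪ ↑T) = ⊤ := by
  classical
  refine ⟨{M.simple k}, by simp, ?_, ?_⟩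
  · intro t ht
    rw [Finset.mem_singleton] at ht
    exact ⟨1, k, by simp [ht]⟩
  · apply h
    · apply Subgroup.subset_closure
      left
      rfl
    · apply Subgroup.subset_closure
      right
      simp [CoxeterMatrix.toCoxeterSystem_simple]

theorem pack2 {n : ℕ} (M : CoxeterMatrix (Fin n)) (k l : Fin n) (hne : M.simple k ≠ M.simple l)
    (h : ∀ H : Subgroup M.Group, M.toCoxeterSystem.wordProd (List.finRange n) ∈ H →
      M.toCoxeterSystem.simple k ∈ H → M.toCoxeterSystem.simple l ∈ H → H = ⊤) :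
    ∃ T : Finset M.Group, T.card = 2 ∧
      (∀ t ∈ T, ∃ (g : M.Group) (i : Fin n), t = g * M.simple i * g⁻¹) ∧
      Subgroup.closure (({((List.finRange n).map M.simple).prod} : Set M.Group) ∪ ↑T) = ⊤ := by
  classical
  refine ⟨{M.simple k, M.simple l}, Finset.card_pair hne, ?_, ?_⟩
  · intro t ht
    rw [Finset.mem_insert, Finset.mem_singleton] at ht
    rcases ht with ht | ht
    · exact ⟨1, k, by simp [ht]⟩
    · exact ⟨1, l, by simp [ht]⟩
  · apply h
    · apply Subgroup.subset_closure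
      left
      rfl
    · apply Subgroup.subset_closure
      right
      simp [CoxeterMatrix.toCoxeterSystem_simple]
    · apply Subgroup.subset_closure
      right
      simp [CoxeterMatrix.toCoxeterSystem_simple]

/-- The Coxeter groups of types B₂, G₂, E₆, E₇, E₈ are generated by the Coxeter element `s₁ s₂ ⋯ s_l` together with one suitable reflection (a conjugate of a simple reflection); for types D₄ and F₄ the Coxeter element together with two suitable reflections suffices. -/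
theorem result (c : (Σ n : ℕ, CoxeterMatrix (Fin n)) × ℕ)
    (hc : c ∈ [(⟨2, CoxeterMatrix.B 2⟩, 1), (⟨2, CoxeterMatrix.G₂⟩, 1), (⟨4, Cfsg.Lie.coxeterD4⟩, 2), (⟨4, CoxeterMatrix.F₄⟩, 2),
      (⟨6, CoxeterMatrix.E₆⟩, 1), (⟨7, CoxeterMatrix.E₇⟩, 1), (⟨8, CoxeterMatrix.E₈⟩, 1)]) :
    ∃ T : Finset c.1.2.Group, T.card = c.2 ∧ (∀ t ∈ T, ∃ (g : c.1.2.Group) (i : Fin c.1.1), t = g * c.1.2.simple i * g⁻¹) ∧
      Subgroup.closure (({((List.finRange c.1.1).map c.1.2.simple).prod} : Set c.1.2.Group) ∪ ↑T) = ⊤ := by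
  simp only [List.mem_cons, List.not_mem_nil, or_false] at hc
  rcases hc with rfl | rfl | rfl | rfl | rfl | rfl | rfl
  · exact pack1 (CoxeterMatrix.B 2) 1 (fun H h1 h2 => genRank2 _ H h1 h2)
  · exact pack1 CoxeterMatrix.G₂ 1 (fun H h1 h2 => genRank2 _ H h1 h2)
  · exact pack2 Cfsg.Lie.coxeterD4 3 2 neD4 (fun H h1 h2 h3 => genD4 H h1 h2 h3)
  · exact pack2 CoxeterMatrix.F₄ 3 0 neF4 (fun H h1 h2 h3 => genF4 H h1 h2 h3)
  · exact pack1 CoxeterMatrix.E₆ 5 (fun H h1 h2 => genE6 H h1 h2)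
  · exact pack1 CoxeterMatrix.E₇ 6 (fun H h1 h2 => genE7 H h1 h2)
  · exact pack1 CoxeterMatrix.E₈ 7 (fun H h1 h2 => genE8 H h1 h2)

end Cfsg.Agent.S2419
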