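import Cfsg.Statements.S2424
import Cfsg.Agent.Lib.Helper46Parab
-- import your own Cfsg.Agent.* helpers here

set_option autoImplicit false
open scoped MatrixGroups
open Cfsg

namespace Cfsg.Agent.S2424

open Cfsg.Agent.Lib.Helper46Parab

/-- q-integers. -/
def Q (q r : ℕ) : ℕ := ∑ l ∈ Finset.range r, q ^ l

/-- q-falling factorials. -/
def ff (q lam k : ℕ) : ℕ := ∏ r ∈ Finset.range k, Q q (lam - r)

theorem qfac_succ (q m : ℕ) : qfac q (m + 1) = qfac q m * Q q (m + 1) := by
  unfold qfac Q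
  rw [Finset.prod_range_succ]

theorem qfac_eq (q lam k : ℕ) (h : k ≤ lam) : qfac q lam = qfac q (lam - k) * ff q lam k := by
  induction k with
  | zero => simp [ff]
  | succ k ih =>
    rw [ih (by omega)]
    have h1 : lam - k = (lam - (k + 1)) + 1 := by omega
    have h2 : ff q lam (k + 1) = ff q lam k * Q q (lam - k) := by
      unfold ff
      rw [Finset.prod_range_succ]
    rw [h2]
    conv_lhs => rw [h1, qfac_succ, ← h1]
    ring

theorem ff_eq_zero (q lam k : ℕ) (h : lam < k) : ff q lam k = 0 := by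
  unfold ff
  apply Finset.prod_eq_zero (Finset.mem_range.mpr h)
  simp [Q]

theorem Q_add (q r s : ℕ) : Q q (r + s) = Q q r + q ^ r * Q q s := by
  unfold Q
  rw [Finset.sum_range_add, Finset.mul_sum]
  simp_rw [pow_add]

theorem key (q lam k : ℕ) :
    (q : ℂ) ^ (∑ r ∈ Finset.range k, r) * (ff q lam k : ℂ) =
      ∏ r ∈ Finset.range k, ((Q q lam : ℂ) - (Q q r : ℂ)) := by
  by_cases h : k ≤ lam
  · unfold ff
    rw [← Finset.prod_pow_eq_pow_sum, Nat.cast_prod, ← Finset.prod_mul_distrib]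
    apply Finset.prod_congr rfl
    intro r hr
    rw [Finset.mem_range] at hr
    have h1 := Q_add q r (lam - r)
    rw [show r + (lam - r) = lam by omega] at h1
    rw [h1]
    push_cast
    ring
  · rw [ff_eq_zero q lam k (by omega), Nat.cast_zero, mul_zero]
    symm
    apply Finset.prod_eq_zero (Finset.mem_range.mpr (show lam < k by omega))
    ring

theorem sum_tri (n : ℕ) : ∑ k ∈ Finset.range n, ∑ r ∈ Finset.range k, r = n * (n - 1) * (n - 2) / 6 := by
  symm
  apply Nat.div_eq_of_eq_mul_right (by norm_num)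
  induction n with
  | zero => rfl
  | succ m ih =>
    rw [Finset.sum_range_succ, mul_add, ← ih]
    have h2 := Finset.sum_range_id_mul_two m
    have h3 : 6 * ∑ r ∈ Finset.range m, r = 3 * (m * (m - 1)) := by omega
    rw [h3]
    cases m with
    | zero => rfl
    | succ k =>
      cases k with
      | zero => rfl
      | succ j =>
        simp only [Nat.add_sub_cancel, show j + 1 + 1 + 1 - 2 = j + 1 by omega, show j + 1 + 1 - 2 = j by omega]
        ring

theorem fpc_one {G : Type*} [Group G] (H : Subgroup G) :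
    Cfsg.fixedPointCharacter H 1 = (Nat.card (G ⧸ H) : ℂ) := by
  unfold Cfsg.fixedPointCharacter
  rw [MulAction.fixedBy_one_eq_univ, Nat.card_congr (Equiv.Set.univ _)]

theorem det_ff (q n : ℕ) (lam : Fin n → ℕ) :
    (q : ℂ) ^ (n * (n - 1) * (n - 2) / 6) *
      ∑ κ : Equiv.Perm (Fin n), ((Equiv.Perm.sign κ : ℤ) : ℂ) * ∏ i, (ff q (lam i) (κ i).val : ℂ) =
      ∏ i : Fin n, ∏ j ∈ Finset.univ.filter (fun j : Fin n => i < j),
        ((Q q (lam j) : ℂ) - (Q q (lam i) : ℂ)) := by
  have h1 := Matrix.det_eval_matrixOfPolynomials_eq_det_vandermonde (fun i => (Q q (lam i) : ℂ))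
    (fun k : Fin n => ∏ r ∈ Finset.range k.val, (Polynomial.X - Polynomial.C (Q q r : ℂ)))
    (by
      intro k
      rw [Polynomial.natDegree_prod_of_monic _ _ (fun r _ => Polynomial.monic_X_sub_C _)]
      simp_rw [Polynomial.natDegree_X_sub_C]
      simp)
    (by
      intro k
      exact Polynomial.monic_prod_of_monic _ _ (fun r _ => Polynomial.monic_X_sub_C _))
  rw [Matrix.det_vandermonde] at h1
  have h2 : ∀ i : Fin n, Finset.univ.filter (fun j : Fin n => i < j) = Finset.Ioi i := by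
    intro i
    ext j
    simp
  simp_rw [h2]
  rw [h1]
  have h3 : (Matrix.of fun (i k : Fin n) => Polynomial.eval (Q q (lam i) : ℂ)
      (∏ r ∈ Finset.range k.val, (Polynomial.X - Polynomial.C (Q q r : ℂ)))) =
      Matrix.of fun (i k : Fin n) => (q : ℂ) ^ (∑ r ∈ Finset.range k.val, r) *
        (Matrix.of fun (i k : Fin n) => (ff q (lam i) k.val : ℂ)) i k := by
    ext i k
    simp only [Matrix.of_apply]
    rw [key, Polynomial.eval_prod]
    simp
  rw [h3, Matrix.det_mul_row, Finset.prod_pow_eq_pow_sum,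
    Fin.sum_univ_eq_sum_range (fun k => ∑ r ∈ Finset.range k, r) n, sum_tri, ← Matrix.det_transpose,
    Matrix.det_apply']
  rfl

/-- Degrees of the partition-indexed irreducible characters of `GL_n(q)`: for `ν` a partition of `n` with `n` non-decreasing parts `ν_0 ≤ ⋯ ≤ ν_{n−1}` (zeros allowed; positions counted from 0) and `λ_i = ν_i + i`, write `Q(r)` for the q-integer `1 + q + ⋯ + q^(r−1)` and `Q!(r)` for `Q(1)Q(2)⋯Q(r)`; then the degree `γ(ν)` of the character satisfies `γ(ν) · q^(n(n−1)(n−2)/6) · ∏_i Q!(λ_i) = Q!(n) · ∏_{i<j} (Q(λ_j) − Q(λ_i))`. For `ν = (1,…,1)` this gives the Steinberg degree `q^(n(n−1)/2)`, for `ν = (0,…,0,n)` degree 1. -/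
theorem result {F : Type*} [Field F] [Fintype F] {q : ℕ} (hq : Fintype.card F = q) {n : ℕ} (ν : Fin n → ℕ) (hmono : Monotone ν) (hsum : ∑ i, ν i = n) :
    Cfsg.unipotentCharacterGL n F ν 1 * (q : ℂ) ^ (n * (n - 1) * (n - 2) / 6) *
        ∏ i : Fin n, ∏ j ∈ Finset.range (ν i + i.val), ((∑ l ∈ Finset.range (j + 1), q ^ l : ℕ) : ℂ) =
      (∏ j ∈ Finset.range n, ((∑ l ∈ Finset.range (j + 1), q ^ l : ℕ) : ℂ)) *
        ∏ i : Fin n, ∏ j ∈ Finset.univ.filter (fun j : Fin n => i < j),
          (((∑ l ∈ Finset.range (ν j + j.val), q ^ l : ℕ) : ℂ) - ((∑ l ∈ Finset.range (ν i + i.val), q ^ l : ℕ) : ℂ)) := by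
  subst hq
  set q := Fintype.card F with hq
  have hmain : ∀ κ : Equiv.Perm (Fin n),
      (if ∀ i : Fin n, (κ i).val ≤ ν i + i.val then
        ((Equiv.Perm.sign κ : ℤ) : ℂ) *
          Cfsg.fixedPointCharacter (Cfsg.parabolicGL n F fun i => ν i + i.val - (κ i).val) 1
      else 0) * ∏ i : Fin n, (qfac q (ν i + i.val) : ℂ) =
      (qfac q n : ℂ) * (((Equiv.Perm.sign κ : ℤ) : ℂ) * ∏ i, (ff q (ν i + i.val) (κ i).val : ℂ)) := by
    intro κ
    split_ifs with h
    · have hsum' : ∑ i : Fin n, (ν i + i.val - (κ i).val) = n := by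
        have h1 : ∑ i : Fin n, (ν i + i.val - (κ i).val) + ∑ i : Fin n, (κ i).val =
            ∑ i : Fin n, ν i + ∑ i : Fin n, i.val := by
          rw [← Finset.sum_add_distrib, ← Finset.sum_add_distrib]
          apply Finset.sum_congr rfl
          intro i _
          have := h i
          omega
        have h2 : ∑ i : Fin n, (κ i).val = ∑ i : Fin n, i.val :=
          Equiv.sum_comp κ (fun i : Fin n => i.val)
        omega
      have hidx := index_parabolic (F := F) (fun i => ν i + i.val - (κ i).val) hsum'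
      rw [fpc_one]
      have h3 : ∏ i : Fin n, (qfac q (ν i + i.val) : ℂ) =
          (∏ i : Fin n, (qfac q (ν i + i.val - (κ i).val) : ℂ)) * ∏ i, (ff q (ν i + i.val) (κ i).val : ℂ) := by
        rw [← Finset.prod_mul_distrib]
        apply Finset.prod_congr rfl
        intro i _
        rw [qfac_eq q _ _ (h i)]
        push_cast
        ring
      rw [h3, ← hidx]
      push_cast
      ring
    · push Not at h
      obtain ⟨i, hi⟩ := h
      rw [zero_mul, Finset.prod_eq_zero (Finset.mem_univ i), mul_zero, mul_zero]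
      rw [ff_eq_zero q _ _ hi, Nat.cast_zero]
  have hdet := det_ff q n (fun i => ν i + i.val)
  have e1 : ∏ i : Fin n, ∏ j ∈ Finset.range (ν i + i.val), ((∑ l ∈ Finset.range (j + 1), q ^ l : ℕ) : ℂ) =
      ∏ i : Fin n, (qfac q (ν i + i.val) : ℂ) := by
    apply Finset.prod_congr rfl
    intro i _
    unfold qfac
    rw [Nat.cast_prod]
  have e2 : (∏ j ∈ Finset.range n, ((∑ l ∈ Finset.range (j + 1), q ^ l : ℕ) : ℂ)) = (qfac q n : ℂ) := by
    unfold qfac
    rw [Nat.cast_prod]
  rw [e1, e2]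
  change _ = (qfac q n : ℂ) * ∏ i : Fin n, ∏ j ∈ Finset.univ.filter (fun j : Fin n => i < j),
        ((Q q (ν j + j.val) : ℂ) - (Q q (ν i + i.val) : ℂ))
  rw [← hdet]
  unfold Cfsg.unipotentCharacterGL
  rw [mul_right_comm, Finset.sum_mul, Finset.sum_congr rfl (fun κ _ => hmain κ), ← Finset.mul_sum]
  ring

end Cfsg.Agent.S2424
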