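import Cfsg.Statements.S2421
import Cfsg.Agent.Lib.Helper46Unip
import Cfsg.Agent.Lib.Helper32Virt
import Cfsg.Agent.Lib.Helper44P1
import Cfsg.Agent.S0148
import Cfsg.Agent.S2424
-- import your own Cfsg.Agent.* helpers here

set_option autoImplicit false
open scoped MatrixGroups
open Cfsg

namespace Cfsg.Agent.S2421

open Cfsg.Agent.Lib.Helper4Char Cfsg.Agent.Lib.Helper4Char2 Cfsg.Agent.Lib.Helper4Char4
open Cfsg.Agent.Lib.Helper32Virt

theorem fix_isCharacter {G : Type*} [Group G] [Fintype G] (H : Subgroup G) :
    Cfsg.IsCharacter G (Cfsg.fixedPointCharacter H) := by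
  have : Cfsg.fixedPointCharacter H = Cfsg.indFun H (fun _ => 1) := by
    funext g
    exact Cfsg.Agent.Lib.Helper44P1.fixedPointCharacter_eq_indFun H g
  rw [this]
  exact Cfsg.Agent.S0148.result H _ (IsCharacter.one (G := H))

theorem pos_aux (x : ℂ) (d A B : ℕ) (hx : -x = d) (h : x * A = B) (hB : B ≠ 0) : False := by
  have : ((d * A + B : ℕ) : ℂ) = 0 := by
    push_cast
    rw [← hx, ← h]; ring
  have h2 : d * A + B = 0 := by exact_mod_cast this
  omega

theorem Q_strictMono (q : ℕ) (hq : 1 ≤ q) : StrictMono fun r : ℕ => ∑ l ∈ Finset.range r, q ^ l := by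
  apply strictMono_nat_of_lt_succ
  intro r
  rw [Finset.sum_range_succ]
  have : 0 < q ^ r := Nat.pow_pos hq
  omega

/-- Irreducible characters of `GL_n(q)` indexed by partitions: for `ν` a partition of `n` written with `n` non-decreasing parts `ν_0 ≤ ⋯ ≤ ν_{n−1}` (zeros allowed; positions counted from 0) and `λ_i = ν_i + i`, the alternating sum over permutations `κ` of `{0, …, n−1}` of `sign κ` times the permutation character on partial flags of type `λ − κ` (terms with a negative entry omitted) is an irreducible complex character of `GL_n(q)`. For `ν = (1, …, 1)` this is the Steinberg character. -/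
theorem result {F : Type*} [Field F] [Fintype F] {n : ℕ} (ν : Fin n → ℕ) (hmono : Monotone ν) (hsum : ∑ i, ν i = n) :
    Cfsg.IsIrrCharacter (GL (Fin n) F) (Cfsg.unipotentCharacterGL n F ν) := by
  classical
  have hgen : Cfsg.IsGeneralizedCharacter (GL (Fin n) F) (Cfsg.unipotentCharacterGL n F ν) := by
    have : Cfsg.unipotentCharacterGL n F ν = ∑ κ : Equiv.Perm (Fin n),
        (if ∀ i : Fin n, (κ i).val ≤ ν i + i.val then
          ((Equiv.Perm.sign κ : ℤ) : ℂ) • Cfsg.fixedPointCharacter (Cfsg.parabolicGL n F fun i => ν i + i.val - (κ i).val)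
        else 0) := by
      funext g
      rw [Finset.sum_apply]
      unfold Cfsg.unipotentCharacterGL
      apply Finset.sum_congr rfl
      intro κ _
      split_ifs <;> rfl
    rw [this]
    apply gen_sum
    intro κ _
    split_ifs
    · exact gen_intCast_smul _ (gen_of_char (fix_isCharacter _))
    · exact gen_zero
  have hnorm := Cfsg.Agent.Lib.Helper46Unip.inner_unip (F := F) ν ν hmono hsum hmono hsum
  rw [if_pos rfl] at hnorm
  rcases gen_norm_one hgen hnorm with h | h
  · exact h
  · exfalso
    obtain ⟨d, hd0, hd⟩ := IsIrrCharacter.exists_degree h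
    have hdeg := Cfsg.Agent.S2424.result (F := F) rfl ν hmono hsum
    set q := Fintype.card F with hq
    have hq1 : 1 ≤ q := Fintype.card_pos
    have hQ := Q_strictMono q hq1
    have hl := Cfsg.Agent.Lib.Helper46Unip.strictMono_shift ν hmono
    apply pos_aux (Cfsg.unipotentCharacterGL n F ν 1) d
      (q ^ (n * (n - 1) * (n - 2) / 6) * ∏ i : Fin n, ∏ j ∈ Finset.range (ν i + i.val), ∑ l ∈ Finset.range (j + 1), q ^ l)
      ((∏ j ∈ Finset.range n, ∑ l ∈ Finset.range (j + 1), q ^ l) *
        ∏ i : Fin n, ∏ j ∈ Finset.univ.filter (fun j : Fin n => i < j),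
          ((∑ l ∈ Finset.range (ν j + j.val), q ^ l) - (∑ l ∈ Finset.range (ν i + i.val), q ^ l))) hd
    · rw [Nat.cast_mul, Nat.cast_mul, ← mul_assoc]
      have e1 : ((∏ i : Fin n, ∏ j ∈ Finset.univ.filter (fun j : Fin n => i < j),
          ((∑ l ∈ Finset.range (ν j + j.val), q ^ l) - (∑ l ∈ Finset.range (ν i + i.val), q ^ l)) : ℕ) : ℂ) =
          ∏ i : Fin n, ∏ j ∈ Finset.univ.filter (fun j : Fin n => i < j),
          (((∑ l ∈ Finset.range (ν j + j.val), q ^ l : ℕ) : ℂ) - ((∑ l ∈ Finset.range (ν i + i.val), q ^ l : ℕ) : ℂ)) := by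
        rw [Nat.cast_prod]
        apply Finset.prod_congr rfl
        intro i _
        rw [Nat.cast_prod]
        apply Finset.prod_congr rfl
        intro j hj
        rw [Finset.mem_filter] at hj
        rw [Nat.cast_sub (hQ (hl hj.2)).le]
      rw [e1]
      simp only [Nat.cast_prod, Nat.cast_pow]
      exact hdeg
    · apply mul_ne_zero
      · apply Finset.prod_ne_zero_iff.mpr
        intro j _
        have := hQ (Nat.succ_pos j)
        simp only [Finset.range_zero, Finset.sum_empty] at this
        exact this.ne'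
      · apply Finset.prod_ne_zero_iff.mpr
        intro i _
        apply Finset.prod_ne_zero_iff.mpr
        intro j hj
        rw [Finset.mem_filter] at hj
        have := hQ (hl hj.2)
        simp only at this
        omega

end Cfsg.Agent.S2421
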