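import Cfsg.Statements.S2427
import Cfsg.Agent.S0257

set_option autoImplicit false
open Cfsg

namespace Cfsg.Agent.S2427

open Subgroup Cfsg.Agent.S0257

theorem comm_aux : ∀ B : SL23, B ^ 4 = 1 → ∃ g h : SL23, B = g * h * g⁻¹ * h⁻¹ := by
  decide +kernel

theorem inv_central : ∀ t : SL23, t ^ 2 = 1 → ∀ g : SL23, g * t = t * g := by
  decide +kernel

theorem four_aux : ∀ x : SL23, x ^ 4 = 1 → x ^ 2 ≠ 1 →
    (∃ g : SL23, mA = g * x * g⁻¹) ∧ (∃ g : SL23, mX = g * x * g⁻¹) := by
  decide +kernel

theorem out_aux : ∀ x : SL23, x ^ 4 ≠ 1 →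
    (∃ g h : SL23, mA = (x * (g * x⁻¹ * g⁻¹)) * (x * (h * x⁻¹ * h⁻¹))) ∧
    (∃ g h : SL23, mX = (x * (g * x⁻¹ * g⁻¹)) * (x * (h * x⁻¹ * h⁻¹))) := by
  decide +kernel

theorem range_le (N : Subgroup SL23) (hA : mA ∈ N) (hX : mX ∈ N) : qhom.range ≤ N := by
  rintro _ ⟨q, rfl⟩
  change qf q ∈ N
  cases q with
  | a i => exact N.pow_mem hA _
  | xa i => exact N.mul_mem hX (N.pow_mem hA _)

theorem commutator_eq : commutator SL23 = qhom.range := by
  have hn : (qhom.range).Normal := range_normal
  apply le_antisymm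
  · have : Fact (Nat.Prime 3) := ⟨Nat.prime_three⟩
    have hc3 : Nat.card (SL23 ⧸ qhom.range) = 3 := by
      have h := index_range
      unfold Subgroup.index at h
      exact h
    have hcyc : IsCyclic (SL23 ⧸ qhom.range) := isCyclic_of_prime_card hc3
    let _ : CommGroup (SL23 ⧸ qhom.range) := hcyc.commGroup
    have := Abelianization.commutator_subset_ker (QuotientGroup.mk' qhom.range)
    rwa [QuotientGroup.ker_mk'] at this
  · intro B hB
    rw [mem_range_iff] at hB
    obtain ⟨g, h, rfl⟩ := comm_aux B hB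
    rw [commutator_def]
    exact commutator_mem_commutator (mem_top g) (mem_top h)

theorem result :
    Nat.card (Matrix.SpecialLinearGroup (Fin 2) (ZMod 3)) = 24 ∧
    Nat.card (Subgroup.center (Matrix.SpecialLinearGroup (Fin 2) (ZMod 3))) = 2 ∧
    Nat.card (commutator (Matrix.SpecialLinearGroup (Fin 2) (ZMod 3))) = 8 ∧
    Nonempty (commutator (Matrix.SpecialLinearGroup (Fin 2) (ZMod 3)) ≃* QuaternionGroup 2) ∧
    (∀ P : Sylow 3 (Matrix.SpecialLinearGroup (Fin 2) (ZMod 3)),
      Subgroup.IsComplement' (commutator (Matrix.SpecialLinearGroup (Fin 2) (ZMod 3)))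
        (P : Subgroup (Matrix.SpecialLinearGroup (Fin 2) (ZMod 3)))) ∧
    ∀ N : Subgroup (Matrix.SpecialLinearGroup (Fin 2) (ZMod 3)), N.Normal →
      N = ⊥ ∨ N = ⊤ ∨ N = Subgroup.center (Matrix.SpecialLinearGroup (Fin 2) (ZMod 3)) ∨
        N = commutator (Matrix.SpecialLinearGroup (Fin 2) (ZMod 3)) := by
  have : Fact (Nat.Prime 3) := ⟨Nat.prime_three⟩
  have hcZ : Nat.card (center SL23) = 2 := (Cfsg.Agent.S0257.result (F := ZMod 3) (by simp)).2
  have hc8 : Nat.card (commutator SL23) = 8 := by rw [commutator_eq, card_range]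
  refine ⟨card_SL23, hcZ, hc8, ?_, ?_, ?_⟩
  · have e1 := MonoidHom.ofInjective (f := qhom) (fun x y h => qf_inj x y h)
    exact ⟨((MulEquiv.subgroupCongr commutator_eq).trans e1.symm)⟩
  · intro P
    have hcP : Nat.card P = 3 := by
      obtain ⟨k, hk⟩ := IsPGroup.iff_card.mp P.2
      have h1 := (P : Subgroup SL23).card_mul_index
      rw [card_SL23] at h1
      have h2 := P.not_dvd_index
      have hk0 : k ≠ 0 := by
        rintro rfl
        rw [pow_zero] at hk
        rw [hk, one_mul] at h1
        rw [h1] at h2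
        exact h2 (by norm_num)
      have hk1 : k ≤ 1 := by
        by_contra hcon
        have h3 : 3 ^ 2 ∣ 3 ^ k := pow_dvd_pow 3 (by omega)
        rw [← hk] at h3
        have h4 : 3 ^ 2 ∣ 24 := h3.trans (Dvd.intro _ h1)
        norm_num at h4
      have : k = 1 := by omega
      rw [hk, this, pow_one]
    apply isComplement'_of_coprime
    · rw [hc8, hcP, card_SL23]
    · rw [hc8, hcP]; norm_num
  · intro N hN
    by_cases h1 : ∃ x ∈ N, x ^ 4 ≠ 1
    · right; left
      obtain ⟨x, hx, hx4⟩ := h1
      obtain ⟨⟨g, h, hA⟩, ⟨g', h', hX⟩⟩ := out_aux x hx4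
      have key : ∀ g : SL23, x * (g * x⁻¹ * g⁻¹) ∈ N :=
        fun g => N.mul_mem hx (hN.conj_mem _ (N.inv_mem hx) g)
      have hRN : qhom.range ≤ N := range_le N (by rw [hA]; exact N.mul_mem (key g) (key h))
        (by rw [hX]; exact N.mul_mem (key g') (key h'))
      have h2 := relIndex_mul_index hRN
      rw [index_range] at h2
      have h3 : N.index ∣ 3 := Dvd.intro_left _ h2
      rcases (Nat.dvd_prime Nat.prime_three).mp h3 with h | h
      · exact index_eq_one.mp h
      · exfalso
        rw [h] at h2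
        have h4 : (qhom.range).relIndex N = 1 := by omega
        have h5 := relIndex_eq_one.mp h4 hx
        rw [mem_range_iff] at h5
        exact hx4 h5
    · push Not at h1
      by_cases h2 : ∃ x ∈ N, x ^ 2 ≠ 1
      · right; right; right
        obtain ⟨x, hx, hx2⟩ := h2
        obtain ⟨⟨g, hA⟩, ⟨g', hX⟩⟩ := four_aux x (h1 x hx) hx2
        rw [commutator_eq]
        apply le_antisymm
        · intro y hy
          rw [mem_range_iff]; exact h1 y hy
        · exact range_le N (by rw [hA]; exact hN.conj_mem x hx g)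
            (by rw [hX]; exact hN.conj_mem x hx g')
      · push Not at h2
        have hNZ : N ≤ center SL23 := by
          intro x hx
          rw [mem_center_iff]
          exact inv_central x (h2 x hx)
        have h3 : Nat.card N ∣ 2 := by
          have := card_dvd_of_le hNZ
          rwa [hcZ] at this
        rcases (Nat.dvd_prime Nat.prime_two).mp h3 with h | h
        · left; exact (card_eq_one).mp h
        · right; right; left
          exact eq_of_le_of_card_ge hNZ (by rw [hcZ, h])

end Cfsg.Agent.S2427
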