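import Cfsg.Statements.S2429
import Cfsg.Agent.Lib.Helper46ToriNS

set_option autoImplicit false
open Cfsg

namespace Cfsg.Agent.S2429

/-- Let F be a finite field with q elements, q odd. Then SL₂ over F contains a cyclic subgroup T′ of order q + 1 (a non-split torus) with the following properties: T′ is its own centraliser, and indeed the centraliser of each element of T′ other than 1 and −1 is exactly T′; every element of SL₂ having no eigenvector in F² is conjugate to an element of T′; the normaliser of T′ has order 2(q + 1) and exactly (q + 7)/2 conjugacy classes; and every element of that normaliser outside T′ has square −1. -/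
theorem result {F : Type*} [Field F] [Fintype F] (hodd : Odd (Fintype.card F)) :
    ∃ T' : Subgroup (Matrix.SpecialLinearGroup (Fin 2) F), IsCyclic T' ∧ Nat.card T' = Fintype.card F + 1 ∧
      Subgroup.centralizer ((T' : Set (Matrix.SpecialLinearGroup (Fin 2) F))) = T' ∧
      (∀ g : Matrix.SpecialLinearGroup (Fin 2) F, g ∈ T' → (g : Matrix (Fin 2) (Fin 2) F) ≠ 1 → (g : Matrix (Fin 2) (Fin 2) F) ≠ -1 → Subgroup.centralizer ({g} : Set (Matrix.SpecialLinearGroup (Fin 2) F)) = T') ∧
      (∀ g : Matrix.SpecialLinearGroup (Fin 2) F, (∀ (c : F) (v : Fin 2 → F), v ≠ 0 → (g : Matrix (Fin 2) (Fin 2) F).mulVec v ≠ c • v) → ∃ h : Matrix.SpecialLinearGroup (Fin 2) F, h * g * h⁻¹ ∈ T') ∧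
      Nat.card (Subgroup.normalizer (T' : Set (Matrix.SpecialLinearGroup (Fin 2) F))) = 2 * (Fintype.card F + 1) ∧
      Nat.card (ConjClasses (Subgroup.normalizer (T' : Set (Matrix.SpecialLinearGroup (Fin 2) F)))) = (Fintype.card F + 7) / 2 ∧
      ∀ g : Matrix.SpecialLinearGroup (Fin 2) F, g ∈ Subgroup.normalizer (T' : Set (Matrix.SpecialLinearGroup (Fin 2) F)) → g ∉ T' → ((g * g) : Matrix (Fin 2) (Fin 2) F) = -1 := by
  have h2 : (2 : F) ≠ 0 := by
    apply Ring.two_ne_zero
    intro h
    have := FiniteField.even_card_of_char_two h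
    rw [Nat.odd_iff] at hodd
    omega
  obtain ⟨t0, z, hord, hz0, hsum⟩ := Lib.Helper46SL2.exists_nonsplit (F := F)
  refine ⟨Subgroup.centralizer {Lib.Helper46ToriNS.stdA t0}, Lib.Helper46ToriNS.isCyclic_T hord hz0 hsum,
    Lib.Helper46ToriNS.card_T hord hz0 hsum, ?_, ?_, Lib.Helper46ToriNS.exists_conj_mem_T hord hz0 hsum,
    Lib.Helper46ToriNS.card_normalizer_T hord hz0 hsum, ?_, ?_⟩
  · apply le_antisymm
    · intro h hh
      rw [Subgroup.mem_centralizer_iff] at hh
      rw [Subgroup.mem_centralizer_singleton_iff]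
      exact (hh _ (Lib.Helper46ToriNS.mem_centralizer_stdA.mpr (Lib.Helper46ToriNS.inC_stdA t0))).symm
    · intro h hh
      rw [Subgroup.mem_centralizer_iff]
      intro g hg
      exact Lib.Helper46ToriNS.T_comm g hg h hh
  · intro g hg h1 h1'
    apply Lib.Helper46ToriNS.centralizer_eq_of_inC (Lib.Helper46ToriNS.mem_centralizer_stdA.mp hg)
    rw [Lib.Helper46SL2.mem_center_iff_eq]
    rintro (rfl | rfl)
    · exact h1 (by simp)
    · exact h1' (by simp)
  · have := Lib.Helper46ToriNS.card_conjClasses_normalizer_T h2 hord hz0 hsum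
    omega
  · intro g hg hgT
    have := Lib.Helper46ToriNS.sq_of_normalizer_T hord hz0 hsum g hg hgT
    have h' := congrArg (fun A : Matrix.SpecialLinearGroup (Fin 2) F => (A : Matrix (Fin 2) (Fin 2) F)) this
    simpa using h'

end Cfsg.Agent.S2429
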