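import Cfsg.Statements.S2433
import Cfsg.Agent.Lib.Helper46Borel

set_option autoImplicit false
open Cfsg

namespace Cfsg.Agent.S2433

theorem sum_ite_single {F : Type*} [Fintype F] [Zero F] (P : F → Prop) [DecidablePred P] (f : F → ℂ)
    (h : ∀ c, P c ↔ c = 0) : ∑ c, (if P c then f c else 0) = f 0 := by
  rw [Finset.sum_eq_single 0]
  · rw [if_pos ((h 0).mpr rfl)]
  · intro c _ hc
    rw [if_neg (fun hp => hc ((h c).mp hp))]
  · intro h0
    exact absurd (Finset.mem_univ _) h0

/-- Let F be a finite field with q elements, q odd, α a multiplicative character of F, and R(α) the function on SL₂ induced from the linear character b ↦ α(b₁₁) of the upper triangular subgroup. Then R(α) takes the value α(a) + α(a⁻¹) at a diagonal element with entries a, a⁻¹, a² ≠ 1; the value 0 at every element with no eigenvector in F²; the value α(ε) at an upper triangular element with both diagonal entries ε and non-zero upper right entry; and the value (q + 1)α(ε) at the scalar element ε (ε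 = ±1). -/
theorem result {F : Type*} [Field F] [Fintype F] [DecidableEq F] (hodd : Odd (Fintype.card F)) (α : MulChar F ℂ) (g : Matrix.SpecialLinearGroup (Fin 2) F) :
    ((g : Matrix (Fin 2) (Fin 2) F) 0 1 = 0 → (g : Matrix (Fin 2) (Fin 2) F) 1 0 = 0 → (g : Matrix (Fin 2) (Fin 2) F) 0 0 ^ 2 ≠ 1 →
      (Cfsg.indFun ((Cfsg.upperTriangularGL 2 F).comap Matrix.SpecialLinearGroup.toGL) (fun b => α (((b : Matrix.SpecialLinearGroup (Fin 2) F) : Matrix (Fin 2) (Fin 2) F) 0 0))) g = α ((g : Matrix (Fin 2) (Fin 2) F) 0 0) + α ((g : Matrix (Fin 2) (Fin 2) F) 1 1)) ∧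
    ((∀ (c : F) (v : Fin 2 → F), v ≠ 0 → (g : Matrix (Fin 2) (Fin 2) F).mulVec v ≠ c • v) → (Cfsg.indFun ((Cfsg.upperTriangularGL 2 F).comap Matrix.SpecialLinearGroup.toGL) (fun b => α (((b : Matrix.SpecialLinearGroup (Fin 2) F) : Matrix (Fin 2) (Fin 2) F) 0 0))) g = 0) ∧
    ((g : Matrix (Fin 2) (Fin 2) F) 1 0 = 0 → (g : Matrix (Fin 2) (Fin 2) F) 0 0 = (g : Matrix (Fin 2) (Fin 2) F) 1 1 → (g : Matrix (Fin 2) (Fin 2) F) 0 1 ≠ 0 →
      (Cfsg.indFun ((Cfsg.upperTriangularGL 2 F).comap Matrix.SpecialLinearGroup.toGL) (fun b => α (((b : Matrix.SpecialLinearGroup (Fin 2) F) : Matrix (Fin 2) (Fin 2) F) 0 0))) g = α ((g : Matrix (Fin 2) (Fin 2) F) 0 0)) ∧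
    ((g : Matrix (Fin 2) (Fin 2) F) 0 1 = 0 → (g : Matrix (Fin 2) (Fin 2) F) 1 0 = 0 → (g : Matrix (Fin 2) (Fin 2) F) 0 0 = (g : Matrix (Fin 2) (Fin 2) F) 1 1 →
      (Cfsg.indFun ((Cfsg.upperTriangularGL 2 F).comap Matrix.SpecialLinearGroup.toGL) (fun b => α (((b : Matrix.SpecialLinearGroup (Fin 2) F) : Matrix (Fin 2) (Fin 2) F) 0 0))) g = ((Fintype.card F : ℂ) + 1) * α ((g : Matrix (Fin 2) (Fin 2) F) 0 0)) := by
  have hform := Lib.Helper46Borel.indFun_formula (fun x => α x) g
  have hdet := Lib.Helper46SL2.det2 g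
  refine ⟨?_, ?_, ?_, ?_⟩
  · intro h01 h10 ha
    rw [hform, h01, h10]
    have hne : (g : Matrix (Fin 2) (Fin 2) F) 1 1 - (g : Matrix (Fin 2) (Fin 2) F) 0 0 ≠ 0 := by
      intro h
      apply ha
      rw [h01] at hdet
      have e : (g : Matrix (Fin 2) (Fin 2) F) 1 1 = (g : Matrix (Fin 2) (Fin 2) F) 0 0 := by
        linear_combination h
      rw [e] at hdet
      linear_combination hdet
    have hc : ∀ c : F, (0 + ((g : Matrix (Fin 2) (Fin 2) F) 1 1 - (g : Matrix (Fin 2) (Fin 2) F) 0 0) * c - 0 * c ^ 2 = 0) ↔ c = 0 := by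
      intro c
      constructor
      · intro h
        have : ((g : Matrix (Fin 2) (Fin 2) F) 1 1 - (g : Matrix (Fin 2) (Fin 2) F) 0 0) * c = 0 := by
          linear_combination h
        exact (mul_eq_zero.mp this).resolve_left hne
      · rintro rfl; ring
    rw [sum_ite_single _ _ hc]
    simp
  · intro hno
    rw [hform]
    have h1 : ∀ c : F, ¬ ((g : Matrix (Fin 2) (Fin 2) F) 1 0 + ((g : Matrix (Fin 2) (Fin 2) F) 1 1 - (g : Matrix (Fin 2) (Fin 2) F) 0 0) * c - (g : Matrix (Fin 2) (Fin 2) F) 0 1 * c ^ 2 = 0) := by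
      intro c h
      apply hno ((g : Matrix (Fin 2) (Fin 2) F) 0 0 + (g : Matrix (Fin 2) (Fin 2) F) 0 1 * c) ![1, c]
      · intro h0
        have := congrFun h0 0
        simp at this
      · ext i
        fin_cases i
        · simp [Matrix.mulVec, dotProduct, Fin.sum_univ_two]
        · simp [Matrix.mulVec, dotProduct, Fin.sum_univ_two]
          linear_combination h
    have h2 : ¬ ((g : Matrix (Fin 2) (Fin 2) F) 0 1 = 0) := by
      intro h
      apply hno ((g : Matrix (Fin 2) (Fin 2) F) 1 1) ![0, 1]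
      · intro h0
        have := congrFun h0 1
        simp at this
      · ext i
        fin_cases i
        · simp [Matrix.mulVec, dotProduct, Fin.sum_univ_two, h]
        · simp [Matrix.mulVec, dotProduct, Fin.sum_univ_two]
    simp only [h1, h2, if_false, Finset.sum_const_zero, add_zero]
  · intro h10 heq h01
    rw [hform, h10, heq]
    have hc : ∀ c : F, (0 + ((g : Matrix (Fin 2) (Fin 2) F) 1 1 - (g : Matrix (Fin 2) (Fin 2) F) 1 1) * c - (g : Matrix (Fin 2) (Fin 2) F) 0 1 * c ^ 2 = 0) ↔ c = 0 := by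
      intro c
      constructor
      · intro h
        have : (g : Matrix (Fin 2) (Fin 2) F) 0 1 * c ^ 2 = 0 := by
          linear_combination (-1 : F) * h
        exact pow_eq_zero_iff (two_ne_zero) |>.mp ((mul_eq_zero.mp this).resolve_left h01)
      · rintro rfl; ring
    rw [sum_ite_single _ _ hc]
    simp [h01]
  · intro h01 h10 heq
    rw [hform, h10, h01, heq]
    simp only [sub_self, zero_mul, add_zero, if_true, Finset.sum_const, Finset.card_univ, nsmul_eq_mul]
    ring

end Cfsg.Agent.S2433
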