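import Cfsg.Statements.S2434
import Cfsg.Agent.Lib.Helper46SL2CharI
-- import your own Cfsg.Agent.* helpers here

set_option autoImplicit false
open Cfsg

namespace Cfsg.Agent.S2434

open Cfsg.Agent.Lib.Helper46SL2 Cfsg.Agent.Lib.Helper46Borel Cfsg.Agent.S2432
open Cfsg.Agent.Lib.Helper46SL2CharA Cfsg.Agent.Lib.Helper46SL2CharB Cfsg.Agent.Lib.Helper46SL2CharC
open Cfsg.Agent.Lib.Helper46SL2CharD Cfsg.Agent.Lib.Helper46SL2CharE Cfsg.Agent.Lib.Helper46SL2CharF
open Cfsg.Agent.Lib.Helper46SL2CharG Cfsg.Agent.Lib.Helper46SL2CharH Cfsg.Agent.Lib.Helper46SL2CharI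
open Cfsg.Agent.Lib.Helper4Char

theorem exists_hom_apply_ne_one {H : Type*} [Group H] [Finite H] (hcomm : ∀ a b : H, a * b = b * a) {a : H}
    (ha : a ≠ 1) : ∃ θ : H →* ℂˣ, θ a ≠ 1 := by
  let _ : CommGroup H := { ‹Group H› with mul_comm := hcomm }
  exact CommGroup.exists_apply_ne_one_of_hasEnoughRootsOfUnity H ℂ ha

theorem inv_ne_of_exists {H : Type*} [Group H] {θ : H →* ℂˣ} (h : ∃ c, θ c ^ 2 ≠ 1) : θ⁻¹ ≠ θ := by
  obtain ⟨c, hc⟩ := h
  intro h1
  apply hc
  have h2 : (θ c)⁻¹ = θ c := by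
    conv_rhs => rw [← h1]
    rfl
  rw [sq]
  nth_rewrite 1 [← h2]
  exact inv_mul_cancel _

theorem exists_of_inv_ne {H : Type*} [Group H] {θ : H →* ℂˣ} (h : θ⁻¹ ≠ θ) : ∃ c, θ c ^ 2 ≠ 1 := by
  by_contra hcon
  push Not at hcon
  apply h
  ext c
  rw [MonoidHom.inv_apply]
  congr 1
  rw [inv_eq_iff_mul_eq_one, ← sq]
  exact hcon c

/-- Let F be a finite field with q elements, q odd, and C a cyclic subgroup of order q + 1 of SL₂ over F (a non-split torus; it contains the centre). For every homomorphism θ from C to the non-zero complex numbers with θ² ≠ 1 there is an irreducible complex character χ of degree q − 1 such that χ(c) = −θ(c) − θ(c)⁻¹ for every non-central c in C, χ(zg) = θ(z)χ(g) for central z in C, χ vanishes at diagonal elements with entry a, a² ≠ 1, and χ takes the value −1 at every upper unitriangular element other than 1. Conversely every irreducible character of degree q − 1 has, for some such θ, the values −θ(c) − θ(c)⁻¹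 at the non-central elements c of C (for q ≥ 5 these are exactly the cuspidal characters of degree q − 1). -/
theorem result {F : Type*} [Field F] [Fintype F] (hodd : Odd (Fintype.card F))
    (C : Subgroup (Matrix.SpecialLinearGroup (Fin 2) F)) (hC : IsCyclic C) (hcard : Nat.card C = Fintype.card F + 1) :
    (∀ θ : C →* ℂˣ, (∃ c : C, θ c ^ 2 ≠ 1) →
      ∃ χ : Matrix.SpecialLinearGroup (Fin 2) F → ℂ, Cfsg.IsIrrCharacter (Matrix.SpecialLinearGroup (Fin 2) F) χ ∧ χ 1 = (Fintype.card F : ℂ) - 1 ∧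
        (∀ c : C, (c : Matrix.SpecialLinearGroup (Fin 2) F) ∉ Subgroup.center (Matrix.SpecialLinearGroup (Fin 2) F) → χ c = -((θ c).val + (θ c)⁻¹.val)) ∧
        (∀ c : C, (c : Matrix.SpecialLinearGroup (Fin 2) F) ∈ Subgroup.center (Matrix.SpecialLinearGroup (Fin 2) F) → ∀ g : Matrix.SpecialLinearGroup (Fin 2) F, χ ((c : Matrix.SpecialLinearGroup (Fin 2) F) * g) = (θ c).val * χ g) ∧
        (∀ g : Matrix.SpecialLinearGroup (Fin 2) F, (g : Matrix (Fin 2) (Fin 2) F) 0 1 = 0 → (g : Matrix (Fin 2) (Fin 2) F) 1 0 = 0 → (g : Matrix (Fin 2) (Fin 2) F) 0 0 ^ 2 ≠ 1 → χ g = 0) ∧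
        (∀ g : Matrix.SpecialLinearGroup (Fin 2) F, (g : Matrix (Fin 2) (Fin 2) F) 1 0 = 0 → (g : Matrix (Fin 2) (Fin 2) F) 0 0 = 1 → (g : Matrix (Fin 2) (Fin 2) F) 1 1 = 1 → (g : Matrix (Fin 2) (Fin 2) F) 0 1 ≠ 0 → χ g = -1)) ∧
    (∀ χ : Matrix.SpecialLinearGroup (Fin 2) F → ℂ, Cfsg.IsIrrCharacter (Matrix.SpecialLinearGroup (Fin 2) F) χ → χ 1 = (Fintype.card F : ℂ) - 1 →
      ∃ θ : C →* ℂˣ, (∃ c : C, θ c ^ 2 ≠ 1) ∧
        ∀ c : C, (c : Matrix.SpecialLinearGroup (Fin 2) F) ∉ Subgroup.center (Matrix.SpecialLinearGroup (Fin 2) F) → χ c = -((θ c).val + (θ c)⁻¹.val)) := by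
  classical
  have hNS : IsNS C := isNS_of_cyclic C hC hcard
  have h2 := two_le_card (F := F)
  have hq35 : Fintype.card F = 3 ∨ 5 ≤ Fintype.card F := by
    obtain ⟨k, hk⟩ := hodd
    omega
  constructor
  · intro θ hθ
    obtain ⟨α, hα⟩ := exists_compat hNS θ
    refine ⟨cusp θ α, cusp_irr hNS hα (inv_ne_of_exists hθ), ?_, ?_, ?_, ?_, ?_⟩
    · rw [cusp_one hNS hα, cast_sub_one]
    · intro c hc
      rw [cusp_mem hNS θ α c hc, map_inv]
    · intro c hc g
      rcases mem_center_iff_eq.mp hc with h1 | h1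
      · have : c = 1 := Subtype.ext h1
        rw [this]
        simp
      · have : c = zm hNS := Subtype.ext h1
        rw [h1, neg_one_mul, cusp_neg hNS hα, (compat_iff hNS θ α).mp hα, this]
    · intro g h01 h10 h00
      obtain ⟨a, ha, hg⟩ := eq_mB_of_10 h10
      rw [hg]
      exact cusp_mB_of_sq_ne hNS θ α a _ (by rw [ha]; exact h00)
    · intro g h10 h00 h11 h01
      obtain ⟨a, ha, hg⟩ := eq_mB_of_10 h10
      rw [hg, cusp_mB_unip hNS θ α a _ (by rw [ha, h00]; ring) h01, ha, h00]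
      simp
  · intro χ hχ hdeg
    have key : ∀ (θ : C →* ℂˣ) (α : MulChar F ℂ), θ⁻¹ ≠ θ → χ = cusp θ α →
        ∃ θ : C →* ℂˣ, (∃ c : C, θ c ^ 2 ≠ 1) ∧
          ∀ c : C, (c : Matrix.SpecialLinearGroup (Fin 2) F) ∉ Subgroup.center (Matrix.SpecialLinearGroup (Fin 2) F) →
            χ c = -((θ c).val + (θ c)⁻¹.val) := by
      intro θ α hθ hχe
      refine ⟨θ, exists_of_inv_ne hθ, ?_⟩
      intro c hc
      rw [hχe, cusp_mem hNS θ α c hc, map_inv]
    rcases hq35 with hq | hq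
    · obtain ⟨n, hn, hcases⟩ := classify_deg hNS hχ
      have e : n = Fintype.card F - 1 := by
        rw [hn, cast_sub_one] at hdeg
        exact_mod_cast hdeg
      rcases hcases with ⟨h1, -⟩ | ⟨h1, -⟩ | ⟨h1, -⟩ | ⟨-, θ, α, -, hθ, hχe⟩ | ⟨-, -, α, χ', -, -, hh⟩ | ⟨-, h1, -⟩
      · omega
      · omega
      · omega
      · exact key θ α hθ hχe
      · -- the characters of degree `(q + 1) / 2 = 2`
        obtain ⟨c0, hc0⟩ := hC.exists_generator
        have hord : orderOf c0 = 4 := by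
          rw [orderOf_eq_card_of_forall_mem_zpowers hc0, hcard, hq]
        have hc2 : c0 ^ 2 ≠ 1 := by
          intro h
          have := orderOf_dvd_of_pow_eq_one h
          rw [hord] at this
          norm_num at this
        obtain ⟨θ, hθ⟩ := exists_hom_apply_ne_one (fun a b : C => Subtype.ext (hNS.comm _ a.2 _ b.2)) hc2
        have hex : ∃ c : C, θ c ^ 2 ≠ 1 := ⟨c0, by rwa [← map_pow]⟩
        refine ⟨θ, hex, ?_⟩
        intro c hc
        have h0 := theta_add_inv_of_card_three hq hNS (inv_ne_of_exists hex) c hc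
        rw [map_inv] at h0
        rw [h0, neg_zero]
        exact halfP_noEig hNS hh (hNS.noEig _ c.2 hc)
      · omega
    · obtain ⟨θ, α, -, hθ, hχe⟩ := of_deg_sub_one hNS (by omega) hχ hdeg
      exact key θ α hθ hχe

end Cfsg.Agent.S2434
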