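import Cfsg.Statements.S2435
import Cfsg.Agent.Lib.Helper46SL2CharG
-- import your own Cfsg.Agent.* helpers here

set_option autoImplicit false
open Cfsg

namespace Cfsg.Agent.S2435

open Cfsg.Agent.Lib.Helper46SL2 Cfsg.Agent.Lib.Helper46Borel Cfsg.Agent.S2432
open Cfsg.Agent.Lib.Helper46SL2CharA Cfsg.Agent.Lib.Helper46SL2CharB Cfsg.Agent.Lib.Helper46SL2CharC
open Cfsg.Agent.Lib.Helper46SL2CharD Cfsg.Agent.Lib.Helper46SL2CharE Cfsg.Agent.Lib.Helper46SL2CharF
open Cfsg.Agent.Lib.Helper46SL2CharG Cfsg.Agent.Lib.Helper4Char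

/-- Let F be a finite field with q elements, q odd and q ≥ 5, and χ an irreducible complex character of SL₂ over F. If χ has degree (q + 1)/2, then at a diagonal element with entry a, a² ≠ 1, χ takes the value 1 when a is a square in F and −1 otherwise. If χ has degree (q − 1)/2, then at an element g with no eigenvector in F² (so g has order dividing q + 1), χ takes the value −1 when g raised to the power (q + 1)/2 is the identity and the value 1 otherwise. -/
theorem result {F : Type*} [Field F] [Fintype F] (hodd : Odd (Fintype.card F)) (hq : 5 ≤ Fintype.card F)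
    (χ : Matrix.SpecialLinearGroup (Fin 2) F → ℂ) (hχ : Cfsg.IsIrrCharacter (Matrix.SpecialLinearGroup (Fin 2) F) χ) (g : Matrix.SpecialLinearGroup (Fin 2) F) :
    (χ 1 = (((Fintype.card F + 1) / 2 : ℕ) : ℂ) → (g : Matrix (Fin 2) (Fin 2) F) 0 1 = 0 → (g : Matrix (Fin 2) (Fin 2) F) 1 0 = 0 → (g : Matrix (Fin 2) (Fin 2) F) 0 0 ^ 2 ≠ 1 →
      (IsSquare ((g : Matrix (Fin 2) (Fin 2) F) 0 0) → χ g = 1) ∧ (¬ IsSquare ((g : Matrix (Fin 2) (Fin 2) F) 0 0) → χ g = -1)) ∧
    (χ 1 = (((Fintype.card F - 1) / 2 : ℕ) : ℂ) → (∀ (c : F) (v : Fin 2 → F), v ≠ 0 → (g : Matrix (Fin 2) (Fin 2) F).mulVec v ≠ c • v) →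
      (((g ^ ((Fintype.card F + 1) / 2)) : Matrix (Fin 2) (Fin 2) F) = 1 → χ g = -1) ∧ (((g ^ ((Fintype.card F + 1) / 2)) : Matrix (Fin 2) (Fin 2) F) ≠ 1 → χ g = 1)) := by
  classical
  obtain ⟨C, hC⟩ := exists_isNS (F := F)
  constructor
  · intro h h01 h10 h00
    obtain ⟨α, χ', h1, h2, hh⟩ := of_deg_half_add hC hq hχ h
    obtain ⟨a, ha, hg⟩ := eq_mB_of_10 h10
    have hval : χ g = α (a : F) := by
      rw [hg]
      exact halfP_D h1 hh a _ (by rw [ha]; exact h00)
    rw [hval]
    constructor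
    · intro hs
      exact (alpha_eq_one_iff hodd h1 h2 a).mpr (by rw [ha]; exact hs)
    · intro hs
      exact alpha_eq_neg_one hodd h1 h2 a (by rw [ha]; exact hs)
  · intro h hne
    obtain ⟨θ, α, χ', hθα, h1, h2, hh⟩ := of_deg_half_sub hC hq hχ h
    obtain ⟨c, x, hc, hcz⟩ := exists_conj_C hC (g := g) hne
    have hval : χ g = -((θ c : ℂˣ) : ℂ) := by
      rw [← IsIrrCharacter.isClassFunction hχ g x, hc]
      exact halfC_C hC h1 hh c hcz
    have hpow : c ^ ((Fintype.card F + 1) / 2) = 1 ↔ g ^ ((Fintype.card F + 1) / 2) = 1 := by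
      rw [← Subtype.coe_inj, Subgroup.coe_pow, ← hc, conj_pow, Subgroup.coe_one]
      constructor
      · intro h3
        have : g ^ ((Fintype.card F + 1) / 2) = x⁻¹ * (x * g ^ ((Fintype.card F + 1) / 2) * x⁻¹) * x := by group
        rw [this, h3]
        group
      · intro h3
        rw [h3]
        group
    rw [hval]
    constructor
    · intro h3
      have h4 : g ^ ((Fintype.card F + 1) / 2) = 1 := by
        apply Subtype.ext
        rw [Matrix.SpecialLinearGroup.coe_pow]
        exact h3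
      rw [(theta_eq_one_iff hodd hC h1 h2 c).mpr (hpow.mpr h4)]
      simp
    · intro h3
      have h4 : c ^ ((Fintype.card F + 1) / 2) ≠ 1 := by
        intro h5
        apply h3
        rw [← Matrix.SpecialLinearGroup.coe_pow, hpow.mp h5]
        rfl
      rw [theta_eq_neg_one hodd hC h1 h2 c h4]
      simp

end Cfsg.Agent.S2435
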