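import Cfsg.Statements.S2438
import Cfsg.Agent.Lib.Helper46SL2CharF
-- import your own Cfsg.Agent.* helpers here

set_option autoImplicit false
open Cfsg

namespace Cfsg.Agent.S2438

open Cfsg.Agent.Lib.Helper46SL2 Cfsg.Agent.Lib.Helper46Borel Cfsg.Agent.S2432
open Cfsg.Agent.Lib.Helper46SL2CharA Cfsg.Agent.Lib.Helper46SL2CharB Cfsg.Agent.Lib.Helper46SL2CharC
open Cfsg.Agent.Lib.Helper46SL2CharD Cfsg.Agent.Lib.Helper46SL2CharE Cfsg.Agent.Lib.Helper46SL2CharF

theorem sum_U {F : Type*} [Field F] [Fintype F] [DecidableEq F]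
    (χ : Matrix.SpecialLinearGroup (Fin 2) F → ℂ) :
    (∑ g : Matrix.SpecialLinearGroup (Fin 2) F, if (g : Matrix (Fin 2) (Fin 2) F) 1 0 = 0 ∧ (g : Matrix (Fin 2) (Fin 2) F) 0 0 = 1 ∧ (g : Matrix (Fin 2) (Fin 2) F) 1 1 = 1 then χ g else 0) =
      ∑ e : F, χ (mB ((1 : Fˣ), e) : Matrix.SpecialLinearGroup (Fin 2) F) := by
  symm
  apply Finset.sum_of_injOn (fun e : F => (mB ((1 : Fˣ), e) : Matrix.SpecialLinearGroup (Fin 2) F))
  · intro e _ e' _ h
    exact congrArg (fun A : Matrix.SpecialLinearGroup (Fin 2) F => A 0 1) h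
  · intro e _
    exact Finset.mem_coe.mpr (Finset.mem_univ _)
  · intro g _ hg
    rw [if_neg]
    rintro ⟨h10, h00, h11⟩
    apply hg
    refine ⟨g 0 1, Finset.mem_coe.mpr (Finset.mem_univ _), ?_⟩
    apply ext2
    · rw [mB_00, h00]; simp
    · rw [mB_01]
    · rw [mB_10, h10]
    · rw [mB_11, h11]; simp
  · intro e _
    rw [if_pos]
    refine ⟨rfl, ?_, ?_⟩
    · change ((1 : Fˣ) : F) = 1
      simp
    · change ((1 : Fˣ) : F)⁻¹ = 1
      simp

theorem sum_RR {F : Type*} [Field F] [Fintype F] [DecidableEq F] (α : MulChar F ℂ) :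
    ∑ e : F, RR α (mB ((1 : Fˣ), e) : Matrix.SpecialLinearGroup (Fin 2) F) = 2 * (Fintype.card F : ℂ) := by
  have := inner_sum α 1
  rw [show (∑ e : F, RR α (mB ((1 : Fˣ), e) : Matrix.SpecialLinearGroup (Fin 2) F)) = _ from this]
  simp
  ring

/-- Let F be a finite field with q elements, q odd, q ≥ 5, U the upper unitriangular subgroup of SL₂ over F, and χ an irreducible complex character. The sum of the values of χ over U equals 2q, q, 0, q, 0 according as the degree of χ is q + 1, q, q − 1, (q + 1)/2, (q − 1)/2; so among these five degrees the sum vanishes exactly for the degrees q − 1 and (q − 1)/2, i.e. the irreducible characters of those two degrees are the ones whose restriction to U does not contain the trivial character (the cuspidal characters), while those of degree q + 1, q and (q + 1)/2 are not cuspidal. -/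
theorem result {F : Type*} [Field F] [Fintype F] [DecidableEq F] (hodd : Odd (Fintype.card F)) (hq : 5 ≤ Fintype.card F)
    (χ : Matrix.SpecialLinearGroup (Fin 2) F → ℂ) (hχ : Cfsg.IsIrrCharacter (Matrix.SpecialLinearGroup (Fin 2) F) χ) :
    (χ 1 = (Fintype.card F : ℂ) + 1 →
      (∑ g : Matrix.SpecialLinearGroup (Fin 2) F, if (g : Matrix (Fin 2) (Fin 2) F) 1 0 = 0 ∧ (g : Matrix (Fin 2) (Fin 2) F) 0 0 = 1 ∧ (g : Matrix (Fin 2) (Fin 2) F) 1 1 = 1 then χ g else 0) = 2 * (Fintype.card F : ℂ)) ∧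
    (χ 1 = (Fintype.card F : ℂ) →
      (∑ g : Matrix.SpecialLinearGroup (Fin 2) F, if (g : Matrix (Fin 2) (Fin 2) F) 1 0 = 0 ∧ (g : Matrix (Fin 2) (Fin 2) F) 0 0 = 1 ∧ (g : Matrix (Fin 2) (Fin 2) F) 1 1 = 1 then χ g else 0) = (Fintype.card F : ℂ)) ∧
    (χ 1 = (Fintype.card F : ℂ) - 1 →
      (∑ g : Matrix.SpecialLinearGroup (Fin 2) F, if (g : Matrix (Fin 2) (Fin 2) F) 1 0 = 0 ∧ (g : Matrix (Fin 2) (Fin 2) F) 0 0 = 1 ∧ (g : Matrix (Fin 2) (Fin 2) F) 1 1 = 1 then χ g else 0) = 0) ∧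
    (χ 1 = (((Fintype.card F + 1) / 2 : ℕ) : ℂ) →
      (∑ g : Matrix.SpecialLinearGroup (Fin 2) F, if (g : Matrix (Fin 2) (Fin 2) F) 1 0 = 0 ∧ (g : Matrix (Fin 2) (Fin 2) F) 0 0 = 1 ∧ (g : Matrix (Fin 2) (Fin 2) F) 1 1 = 1 then χ g else 0) = (Fintype.card F : ℂ)) ∧
    (χ 1 = (((Fintype.card F - 1) / 2 : ℕ) : ℂ) →
      (∑ g : Matrix.SpecialLinearGroup (Fin 2) F, if (g : Matrix (Fin 2) (Fin 2) F) 1 0 = 0 ∧ (g : Matrix (Fin 2) (Fin 2) F) 0 0 = 1 ∧ (g : Matrix (Fin 2) (Fin 2) F) 1 1 = 1 then χ g else 0) = 0) := by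
  obtain ⟨C, hC⟩ := exists_isNS (F := F)
  rw [sum_U]
  refine ⟨?_, ?_, ?_, ?_, ?_⟩
  · intro h
    obtain ⟨α, -, rfl⟩ := of_deg_add_one hχ h
    exact sum_RR α
  · intro h
    have := eq_St_of_deg hχ h
    subst this
    simp only [St_apply, Finset.sum_sub_distrib, sum_RR, Finset.sum_const, Finset.card_univ, nsmul_eq_mul]
    ring
  · intro h
    obtain ⟨θ, α, hθα, -, rfl⟩ := of_deg_sub_one hC (by omega) hχ h
    exact sum_cusp_mB hC hθα 1
  · intro h
    obtain ⟨α, χ', -, -, hh⟩ := of_deg_half_add hC hq hχ h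
    have := hh.two_mul_U 1
    rw [sum_RR] at this
    linear_combination (1 / 2 : ℂ) * this
  · intro h
    obtain ⟨θ, α, χ', hθα, -, -, hh⟩ := of_deg_half_sub hC hq hχ h
    have := hh.two_mul_U 1
    rw [sum_cusp_mB hC hθα] at this
    linear_combination (1 / 2 : ℂ) * this

end Cfsg.Agent.S2438
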