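import Cfsg.Statements.S2531
import Mathlib

set_option autoImplicit false
open Cfsg

namespace Cfsg.Agent.S2531



section aux
open scoped LinearAlgebra.Projectivization
variable {F : Type*} [Field F] {V : Type*} [AddCommGroup V] [Module F V]

theorem on_mk (W : Submodule F V) (v : V) (hv : v ≠ 0) :
    (Projectivization.mk F v hv).submodule ≤ W ↔ v ∈ W := by
  rw [Projectivization.submodule_mk, Submodule.span_singleton_le_iff_mem]

open Classical in
theorem card_on [Fintype F] [Finite V] [Fintype (ℙ F V)] (W : Submodule F V) (hW : W ≠ ⊥) :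
    (((Finset.univ.filter (fun x : ℙ F V => x.submodule ≤ W)).card : ℕ) : ZMod (Fintype.card F)) = 1 := by
  have : Fintype (ℙ F W) := Fintype.ofFinite _
  have himg : Finset.univ.filter (fun x : ℙ F V => x.submodule ≤ W) =
      Finset.univ.image (Projectivization.map W.subtype W.injective_subtype) := by
    ext x
    simp only [Finset.mem_filter, Finset.mem_univ, true_and, Finset.mem_image]
    constructor
    · induction x using Projectivization.ind with
      | h v hv =>
        intro h
        rw [on_mk] at h
        refine ⟨Projectivization.mk F (⟨v, h⟩ : W) (by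
          intro h0
          exact hv (congrArg Subtype.val h0)), ?_⟩
        rw [Projectivization.map_mk]
        rfl
    · rintro ⟨y, rfl⟩
      induction y using Projectivization.ind with
      | h w hw =>
        rw [Projectivization.map_mk, on_mk]
        exact w.2
  rw [himg, Finset.card_image_of_injective _ (Projectivization.map_injective _ _), Finset.card_univ]
  have h1 := Projectivization.card' F W
  have h2 : Nat.card W = Nat.card F ^ Module.finrank F W := Module.natCard_eq_pow_finrank
  have hpos : 0 < Module.finrank F W := by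
    rw [Module.finrank_pos_iff]
    exact (Submodule.nontrivial_iff_ne_bot).mpr hW
  rw [h2, Nat.card_eq_fintype_card, Nat.card_eq_fintype_card] at h1
  have h3 := congrArg (fun m : ℕ => (m : ZMod (Fintype.card F))) h1
  have hq : 1 ≤ Fintype.card F := Fintype.card_pos
  simp only [Nat.cast_pow, Nat.cast_add, Nat.cast_mul, Nat.cast_one, Nat.cast_sub hq, ZMod.natCast_self] at h3
  rw [zero_pow hpos.ne'] at h3
  linear_combination h3


section comb
variable {P : Type*} [Fintype P] [DecidableEq P]

open Classical in
theorem lcount (S : Set (Equiv.Perm P))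
    (h2 : ∀ a b c d : P, a ≠ b → c ≠ d → ∃! s, s ∈ S ∧ s a = c ∧ s b = d)
    (a0 b : P) (hb : b ≠ a0) (D : Finset P) (hD : a0 ∉ D) :
    ((Finset.univ.filter (fun s : Equiv.Perm P => s ∈ S ∧ s a0 = a0)).filter
      (fun s => s b ∈ D)).card = D.card := by
  apply Finset.card_bij (fun s _ => s b)
  · intro s hs
    exact (Finset.mem_filter.mp hs).2
  · intro s hs t ht hst
    simp only [Finset.mem_filter, Finset.mem_univ, true_and] at hs ht
    have hne : a0 ≠ s b := fun h => hD (h ▸ hs.2)
    obtain ⟨u, _, hu⟩ := h2 a0 b a0 (s b) hb.symm hne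
    rw [hu s ⟨hs.1.1, hs.1.2, rfl⟩, hu t ⟨ht.1.1, ht.1.2, hst.symm⟩]
  · intro d hd
    have hne : a0 ≠ d := fun h => hD (h ▸ hd)
    obtain ⟨u, hu, _⟩ := h2 a0 b a0 d hb.symm hne
    refine ⟨u, ?_, hu.2.2⟩
    simp only [Finset.mem_filter, Finset.mem_univ, true_and]
    exact ⟨⟨hu.1, hu.2.1⟩, hu.2.2 ▸ hd⟩

open Classical in
theorem card_Sa (S : Set (Equiv.Perm P))
    (h2 : ∀ a b c d : P, a ≠ b → c ≠ d → ∃! s, s ∈ S ∧ s a = c ∧ s b = d)
    (a0 b : P) (hb : b ≠ a0) :
    (Finset.univ.filter (fun s : Equiv.Perm P => s ∈ S ∧ s a0 = a0)).card + 1 = Fintype.card P := by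
  have h := lcount S h2 a0 b hb (Finset.univ.erase a0) (Finset.notMem_erase _ _)
  rw [Finset.filter_true_of_mem] at h
  · rw [h, Finset.card_erase_of_mem (Finset.mem_univ _), Finset.card_univ]
    have : 0 < Fintype.card P := Fintype.card_pos_iff.mpr ⟨a0⟩
    omega
  · intro s hs
    simp only [Finset.mem_filter, Finset.mem_univ, true_and] at hs
    simp only [Finset.mem_erase, Finset.mem_univ, and_true]
    intro h
    apply hb
    apply s.injective
    rw [h, hs.2]

open Classical in
theorem double_count (S : Set (Equiv.Perm P))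
    (h2 : ∀ a b c d : P, a ≠ b → c ≠ d → ∃! s, s ∈ S ∧ s a = c ∧ s b = d)
    (a0 : P) (D : Finset P) (hD : a0 ∉ D) :
    ∑ s ∈ Finset.univ.filter (fun s : Equiv.Perm P => s ∈ S ∧ s a0 = a0),
      (D.filter (fun b => s b ∈ D)).card = D.card * D.card := by
  have h := Finset.sum_card_bipartiteAbove_eq_sum_card_bipartiteBelow
    (s := Finset.univ.filter (fun s : Equiv.Perm P => s ∈ S ∧ s a0 = a0)) (t := D)
    (fun (s : Equiv.Perm P) (b : P) => s b ∈ D)
  simp only [Finset.bipartiteAbove, Finset.bipartiteBelow] at h
  rw [h]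
  rw [Finset.sum_congr rfl (fun b hb => lcount S h2 a0 b (fun h => hD (h ▸ hb)) D hD)]
  simp

end comb

theorem exists_ker [Finite F] (n : ℕ) (hn : 3 ≤ n) (g : (Fin n → F) →+ F × F) :
    ∃ v : Fin n → F, v ≠ 0 ∧ g v = 0 := by
  classical
  have : Fintype F := Fintype.ofFinite F
  have hq : 1 < Fintype.card F := Fintype.one_lt_card
  have hlt : Fintype.card (F × F) < Fintype.card (Fin n → F) := by
    rw [Fintype.card_prod, Fintype.card_fun, Fintype.card_fin, ← sq]
    exact Nat.pow_lt_pow_right hq (by omega)
  obtain ⟨v, w, hvw, h⟩ := Fintype.exists_ne_map_eq_of_card_lt g hlt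
  exact ⟨v - w, sub_ne_zero.mpr hvw, by rw [map_sub, h, sub_self]⟩

end aux


/-- Let `F` be a finite field and `n ≥ 3`. No set of permutations of the points of the projective space of `Fⁿ`, each induced by an invertible semilinear transformation of `Fⁿ` (so a subset of the full projective semilinear group), is sharply 2-transitive on the points: it is impossible that for all pairs of distinct points `(a, b)` and `(c, d)` exactly one member of the set sends `a` to `c` and `b` to `d`. -/
theorem result {F : Type*} [Field F] [Finite F]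
    (n : ℕ) (hn : 3 ≤ n) (S : Set (Equiv.Perm (Projectivization F (Fin n → F))))
    (hS : ∀ s ∈ S, ∃ (σ : F ≃+* F) (f : (Fin n → F) →ₛₗ[(σ : F →+* F)] (Fin n → F)) (hf : Function.Injective f),
      ∀ x, s x = Projectivization.map f hf x) :
    ¬ (∀ a b c d : Projectivization F (Fin n → F), a ≠ b → c ≠ d →
        ∃! s, s ∈ S ∧ s a = c ∧ s b = d) := by
  classical
  intro h2
  have : Fintype F := Fintype.ofFinite F
  have : Fintype (Projectivization F (Fin n → F)) := Fintype.ofFinite _
  have hq : 1 < Fintype.card F := Fintype.one_lt_card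
  have : Fact (1 < Fintype.card F) := ⟨hq⟩
  let i0 : Fin n := ⟨0, by omega⟩
  let i1 : Fin n := ⟨1, by omega⟩
  have hi : i1 ≠ i0 := by
    intro h
    have := congrArg Fin.val h
    simp [i0, i1] at this
  let W0 : Submodule F (Fin n → F) := LinearMap.ker (LinearMap.proj i0 : (Fin n → F) →ₗ[F] F)
  have hW0mem : ∀ v : Fin n → F, v ∈ W0 ↔ v i0 = 0 := by
    intro v
    simp [W0]
  have he0 : (Pi.single i0 1 : Fin n → F) ≠ 0 := by
    intro h
    have := congrFun h i0
    simp at this
  have he1 : (Pi.single i1 1 : Fin n → F) ≠ 0 := by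
    intro h
    have := congrFun h i1
    simp at this
  let a0 : Projectivization F (Fin n → F) := Projectivization.mk F _ he0
  let b0 : Projectivization F (Fin n → F) := Projectivization.mk F _ he1
  let D : Finset (Projectivization F (Fin n → F)) := Finset.univ.filter (fun x => x.submodule ≤ W0)
  have ha0 : a0 ∉ D := by
    simp only [D, Finset.mem_filter, Finset.mem_univ, true_and, a0]
    rw [on_mk, hW0mem]
    simp
  have hb0 : b0 ∈ D := by
    simp only [D, Finset.mem_filter, Finset.mem_univ, true_and, b0]
    rw [on_mk, hW0mem]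
    simp [hi]
  have hb0a0 : b0 ≠ a0 := fun h => ha0 (h ▸ hb0)
  have hW0 : W0 ≠ ⊥ := by
    intro h
    have h1 : (Pi.single i1 1 : Fin n → F) ∈ W0 := by
      rw [hW0mem]; simp [hi]
    rw [h, Submodule.mem_bot] at h1
    exact he1 h1
  have hD : ((D.card : ℕ) : ZMod (Fintype.card F)) = 1 := card_on W0 hW0
  have hN : ((Fintype.card (Projectivization F (Fin n → F)) : ℕ) : ZMod (Fintype.card F)) = 1 := by
    have h := card_on (⊤ : Submodule F (Fin n → F)) (by
      intro h
      have h1 : (Pi.single i1 1 : Fin n → F) ∈ (⊤ : Submodule F (Fin n → F)) := Submodule.mem_top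
      rw [h, Submodule.mem_bot] at h1
      exact he1 h1)
    rw [Finset.filter_true_of_mem (by intro x _; exact le_top), Finset.card_univ] at h
    exact h
  have hSa := card_Sa S h2 a0 b0 hb0a0
  have hdc := double_count S h2 a0 D ha0
  have hterm : ∀ s ∈ Finset.univ.filter (fun s : Equiv.Perm (Projectivization F (Fin n → F)) => s ∈ S ∧ s a0 = a0),
      (((D.filter (fun b => s b ∈ D)).card : ℕ) : ZMod (Fintype.card F)) = 1 := by
    intro s hs
    simp only [Finset.mem_filter, Finset.mem_univ, true_and] at hs
    obtain ⟨σ, f, hf, hsf⟩ := hS s hs.1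
    have heq : D.filter (fun b => s b ∈ D) =
        Finset.univ.filter (fun x => x.submodule ≤ W0 ⊓ W0.comap f) := by
      ext x
      simp only [D, Finset.mem_filter, Finset.mem_univ, true_and]
      induction x using Projectivization.ind with
      | h v hv =>
        rw [hsf, Projectivization.map_mk, on_mk, on_mk, on_mk, Submodule.mem_inf, Submodule.mem_comap]
    rw [heq]
    apply card_on
    obtain ⟨v, hv, hgv⟩ := exists_ker n hn
      (AddMonoidHom.prod (Pi.evalAddMonoidHom (fun _ : Fin n => F) i0)
        ((Pi.evalAddMonoidHom (fun _ : Fin n => F) i0).comp f.toAddMonoidHom))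
    intro hbot
    have hmem : v ∈ W0 ⊓ W0.comap f := by
      rw [Submodule.mem_inf, Submodule.mem_comap, hW0mem, hW0mem]
      have h1 := congrArg Prod.fst hgv
      have h2 := congrArg Prod.snd hgv
      exact ⟨h1, h2⟩
    rw [hbot, Submodule.mem_bot] at hmem
    exact hv hmem
  have h3 := congrArg (fun m : ℕ => (m : ZMod (Fintype.card F))) hdc
  simp only [Nat.cast_sum, Nat.cast_mul] at h3
  rw [Finset.sum_congr rfl hterm, hD] at h3
  simp only [Finset.sum_const, nsmul_eq_mul, mul_one] at h3
  have h4 := congrArg (fun m : ℕ => (m : ZMod (Fintype.card F))) hSa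
  simp only [Nat.cast_add, Nat.cast_one] at h4
  rw [h3, hN] at h4
  have : (1 : ZMod (Fintype.card F)) = 0 := by linear_combination h4
  exact one_ne_zero this


end Cfsg.Agent.S2531
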