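import Cfsg.Statements.S2532
import Mathlib

set_option autoImplicit false
open Cfsg

namespace Cfsg.Agent.S2532



section aux

/-- the hom `σ ↦ σ × id`. -/
def prodHom (A B : Type*) : Equiv.Perm A →* Equiv.Perm (A × B) where
  toFun σ := Equiv.prodCongr σ (Equiv.refl B)
  map_one' := by ext x <;> rfl
  map_mul' σ τ := by ext x <;> rfl

theorem prodHom_apply {A B : Type*} (σ : Equiv.Perm A) (a : A) (b : B) :
    prodHom A B σ (a, b) = (σ a, b) := rfl

theorem prodHom_injective (A B : Type*) [Nonempty B] : Function.Injective (prodHom A B) := by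
  intro σ τ h
  ext a
  obtain ⟨b⟩ := ‹Nonempty B›
  have := congrArg Prod.fst (DFunLike.congr_fun h (a, b))
  exact this

variable {H : Type*} [Group H] [Finite H] {X : Type*} [Fintype X] [MulAction H X]

theorem exists_points (r : ℕ) (hX : Nat.card H * 2 ^ Nat.card H * r ≤ Fintype.card X) :
    ∃ (H0 : Subgroup H) (x : Fin r → X), (∀ i, MulAction.stabilizer H (x i) = H0) ∧
      ∀ i j (h : H), h • x i = x j → i = j := by
  classical
  have : Fintype H := Fintype.ofFinite H
  let Q := MulAction.orbitRel.Quotient H X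
  have : Fintype Q := Fintype.ofFinite _
  have : Fintype (Subgroup H) := Fintype.ofFinite _
  have hn : 0 < Nat.card H := Nat.card_pos
  have h1 : Fintype.card X ≤ Fintype.card Q * Nat.card H := by
    rw [Nat.card_eq_fintype_card, ← Fintype.card_prod]
    apply Fintype.card_le_of_surjective (fun p : Q × H => p.2 • (Quotient.out p.1 : X))
    intro y
    have hy : (Quotient.out (Quotient.mk'' y : Q) : X) ∈ MulAction.orbit H y := by
      have := Quotient.out_eq (Quotient.mk'' y : Q)
      have h2 := Quotient.exact this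
      exact h2
    obtain ⟨h, hh⟩ := hy
    refine ⟨(Quotient.mk'' y, h⁻¹), ?_⟩
    simp only
    rw [← hh, inv_smul_smul]
  have h2 : Fintype.card (Subgroup H) ≤ 2 ^ Nat.card H := by
    rw [Nat.card_eq_fintype_card, ← Fintype.card_set]
    exact Fintype.card_le_of_injective (fun K : Subgroup H => (K : Set H)) SetLike.coe_injective
  have h3 : Fintype.card (Subgroup H) * r ≤ Fintype.card Q := by
    have : Nat.card H * (Fintype.card (Subgroup H) * r) ≤ Nat.card H * Fintype.card Q := by
      calc Nat.card H * (Fintype.card (Subgroup H) * r) ≤ Nat.card H * (2 ^ Nat.card H * r) := by gcongr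
        _ = Nat.card H * 2 ^ Nat.card H * r := by ring
        _ ≤ Fintype.card X := hX
        _ ≤ Fintype.card Q * Nat.card H := h1
        _ = Nat.card H * Fintype.card Q := by ring
    exact Nat.le_of_mul_le_mul_left this hn
  obtain ⟨H0, hH0⟩ := Fintype.exists_le_card_fiber_of_mul_le_card
    (fun o : Q => MulAction.stabilizer H (Quotient.out o : X)) h3
  obtain ⟨t, ht, htc⟩ := Finset.exists_subset_card_eq hH0
  let e : Fin r ≃ t := (Fintype.equivFinOfCardEq (by rw [Fintype.card_coe, htc])).symm
  refine ⟨H0, fun i => Quotient.out (e i : Q), ?_, ?_⟩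
  · intro i
    have := ht (e i).2
    simp only [Finset.mem_filter, Finset.mem_univ, true_and] at this
    exact this
  · intro i j h hij
    have h4 : ((e i : Q)) = (e j : Q) := by
      rw [← Quotient.out_eq (e i : Q), ← Quotient.out_eq (e j : Q)]
      apply Quotient.sound
      change _ ∈ MulAction.orbit H _
      refine ⟨h⁻¹, ?_⟩
      beta_reduce at hij ⊢
      rw [← hij, inv_smul_smul]
    exact e.injective (Subtype.ext h4)


theorem exists_hom (r : ℕ) (hX : Nat.card H * 2 ^ Nat.card H * r ≤ Fintype.card X) :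
    ∃ φ : Equiv.Perm (Fin r) →* Equiv.Perm X, Function.Injective φ ∧
      ∀ (σ : Equiv.Perm (Fin r)) (h : H) (y : X), φ σ (h • y) = h • φ σ y := by
  classical
  obtain ⟨H0, x, hst, hdis⟩ := exists_points (H := H) (X := X) r hX
  have hmem : ∀ (i : Fin r) (h : H), h • x i = x i ↔ h ∈ H0 := by
    intro i h
    rw [← hst i, MulAction.mem_stabilizer_iff]
  let ι0 : Fin r × (H ⧸ H0) → X := fun p => (Quotient.out p.2 : H) • x p.1
  have hι0 : ∀ (i : Fin r) (h : H), ι0 (i, (h : H ⧸ H0)) = h • x i := by
    intro i h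
    simp only [ι0]
    have h1 : ((Quotient.out (h : H ⧸ H0) : H) : H ⧸ H0) = (h : H ⧸ H0) := Quotient.out_eq' _
    rw [QuotientGroup.eq] at h1
    rw [← hmem i, mul_smul, inv_smul_eq_iff] at h1
    exact h1.symm
  have hinj : Function.Injective ι0 := by
    rintro ⟨i, q⟩ ⟨j, q'⟩ h
    induction q using QuotientGroup.induction_on with
    | H a =>
    induction q' using QuotientGroup.induction_on with
    | H b =>
    rw [hι0, hι0] at h
    have hij : i = j := by
      apply hdis i j (b⁻¹ * a)
      rw [mul_smul, h, inv_smul_smul]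
    subst hij
    congr 1
    rw [QuotientGroup.eq, ← hmem i, mul_smul, ← h, inv_smul_smul]
  let ι : Fin r × (H ⧸ H0) ↪ X := ⟨ι0, hinj⟩
  have hι : ∀ (i : Fin r) (h : H), ι (i, (h : H ⧸ H0)) = h • x i := hι0
  refine ⟨(Equiv.Perm.viaEmbeddingHom ι).comp (prodHom (Fin r) (H ⧸ H0)), ?_, ?_⟩
  · exact (Equiv.Perm.viaEmbeddingHom_injective ι).comp (prodHom_injective _ _)
  · intro σ h y
    simp only [MonoidHom.comp_apply, Equiv.Perm.viaEmbeddingHom_apply]
    by_cases hy : y ∈ Set.range ι
    · obtain ⟨⟨i, q⟩, rfl⟩ := hy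
      induction q using QuotientGroup.induction_on with
      | H a =>
      rw [Equiv.Perm.viaEmbedding_apply, prodHom_apply, hι, hι, ← mul_smul, ← hι,
        Equiv.Perm.viaEmbedding_apply, prodHom_apply, hι, mul_smul]
    · have hy' : h • y ∉ Set.range ι := by
        rintro ⟨⟨i, q⟩, hq⟩
        induction q using QuotientGroup.induction_on with
        | H a =>
        apply hy
        refine ⟨(i, ((h⁻¹ * a : H) : H ⧸ H0)), ?_⟩
        rw [hι] at hq ⊢
        rw [mul_smul, hq, inv_smul_smul]
      rw [Equiv.Perm.viaEmbedding_apply_of_notMem _ _ _ hy, Equiv.Perm.viaEmbedding_apply_of_notMem _ _ _ hy']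

theorem sign_trivial {r : ℕ} {X : Type*} [Fintype X] [DecidableEq X]
    (φ : Equiv.Perm (Fin r) →* Equiv.Perm X) (σ : Equiv.Perm (Fin r))
    (hσ : σ ∈ alternatingGroup (Fin r)) : φ σ ∈ alternatingGroup X := by
  have hle : alternatingGroup (Fin r) ≤ (alternatingGroup X).comap φ := by
    rw [← Equiv.Perm.closure_three_cycles_eq_alternating, Subgroup.closure_le]
    intro c hc
    have hc3 : c ^ 3 = 1 := by
      have := hc.orderOf
      rw [← this]
      exact pow_orderOf_eq_one c
    change φ c ∈ alternatingGroup X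
    rw [Equiv.Perm.mem_alternatingGroup]
    have h3 : (Equiv.Perm.sign (φ c)) ^ 3 = 1 := by
      rw [← map_pow, ← map_pow, hc3, map_one, map_one]
    rcases Int.units_eq_one_or (Equiv.Perm.sign (φ c)) with h | h
    · exact h
    · rw [h] at h3
      exact absurd h3 (by decide)
  exact hle hσ

end aux

/-- There is a function `f` of two natural-number arguments such that, whenever `m ≥ f(n, r)`, every subgroup of order `n` of the alternating group of degree `m` centralizes some subgroup of that alternating group isomorphic to the alternating group of degree `r`. -/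
theorem result :
    ∃ f : ℕ → ℕ → ℕ, ∀ (m r : ℕ) (H : Subgroup ↥(alternatingGroup (Fin m))), f (Nat.card H) r ≤ m →
      ∃ K : Subgroup ↥(alternatingGroup (Fin m)), Nonempty (↥K ≃* ↥(alternatingGroup (Fin r))) ∧
        K ≤ Subgroup.centralizer (H : Set ↥(alternatingGroup (Fin m))) := by
  refine ⟨fun n r => n * 2 ^ n * r, ?_⟩
  intro m r H hm
  obtain ⟨φ, hφ, hcomm⟩ := exists_hom (H := H) (X := Fin m) r (by simpa using hm)
  let ψ : ↥(alternatingGroup (Fin r)) →* ↥(alternatingGroup (Fin m)) :=
    (φ.comp (alternatingGroup (Fin r)).subtype).codRestrict (alternatingGroup (Fin m))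
      (fun σ => sign_trivial φ σ.1 σ.2)
  have hψ : Function.Injective ψ := by
    intro a b hab
    apply Subtype.ext
    apply hφ
    exact congrArg Subtype.val hab
  refine ⟨ψ.range, ⟨(MonoidHom.ofInjective hψ).symm⟩, ?_⟩
  rintro _ ⟨σ, rfl⟩
  rw [Subgroup.mem_centralizer_iff]
  intro h hh
  apply Subtype.ext
  ext y
  have := hcomm σ.1 ⟨h, hh⟩ y
  exact congrArg Fin.val this.symm


end Cfsg.Agent.S2532
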