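import Cfsg.Statements.S2533
import Cfsg.Agent.Lib.H90BkDefs
import Cfsg.Agent.Lib.H90BkCard
import Cfsg.Agent.Lib.H90BkHom
import Cfsg.Agent.Lib.H90BkGood
import Cfsg.Agent.Lib.H90BkQuot
import Cfsg.Agent.Lib.H90BkReidx
-- import your own Cfsg.Agent.* helpers here

set_option autoImplicit false
open Cfsg

namespace Cfsg.Agent.S2533

open Cfsg.Agent.Lib.H90BkDefs Cfsg.Agent.Lib.H90BkCard Cfsg.Agent.Lib.H90BkHom Cfsg.Agent.Lib.H90BkGood
  Cfsg.Agent.Lib.H90BkQuot Cfsg.Agent.Lib.H90BkReidx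

/-- For every odd prime `p` there is a finite group `H` of order `2p³` which, for infinitely many `n`, embeds in the projective special linear group `PSL(n, p)` as a subgroup with trivial centralizer. -/
theorem result
    (p : ℕ) [Fact p.Prime] (hp : p ≠ 2) :
    ∃ (H : Type) (_ : Group H) (_ : Finite H), Nat.card H = 2 * p ^ 3 ∧
      ∀ N : ℕ, ∃ n, N ≤ n ∧ ∃ φ : H →* Matrix.ProjectiveSpecialLinearGroup (Fin n) (ZMod p),
        Function.Injective φ ∧ Subgroup.centralizer (φ.range : Set (Matrix.ProjectiveSpecialLinearGroup (Fin n) (ZMod p))) = ⊥ := by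
  haveI : NeZero p := ⟨(Fact.out : p.Prime).ne_zero⟩
  refine ⟨GD p, inferInstance, finite_GD p, card_GD p, fun N => ?_⟩
  refine ⟨(2 * N + 3) + ((2 * N + 3) + 1), by omega, ?_⟩
  obtain ⟨ψ, hψ⟩ := exists_hom (p := p) (2 * N + 3) ⟨N + 1, by ring⟩
  have hg := good hp (2 * N + 3) (by omega) ψ hψ
  obtain ⟨e⟩ := exists_equiv (ZMod p)
    (finSumFinEquiv : Idx (2 * N + 3) ≃ Fin ((2 * N + 3) + ((2 * N + 3) + 1)))
  have hg' := good_congr e ψ hg
  exact ⟨_, (quot _ hg').1, (quot _ hg').2⟩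

end Cfsg.Agent.S2533
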