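import Cfsg.Statements.S2541
import Mathlib

set_option autoImplicit false
open Cfsg

namespace Cfsg.Agent.S2541

theorem perm_pow_sixty (σ : Equiv.Perm (Fin 6)) : σ ^ 60 = 1 := by
  rw [← orderOf_dvd_iff_pow_eq_one, ← Equiv.Perm.lcm_cycleType]
  apply Multiset.lcm_dvd.mpr
  intro n hn
  have h1 : n ≤ 6 := by
    have := Equiv.Perm.le_card_support_of_mem_cycleType hn
    have h2 : σ.support.card ≤ Fintype.card (Fin 6) := Finset.card_le_univ _
    simp at h2
    omega
  have h2 : 2 ≤ n := Equiv.Perm.two_le_of_mem_cycleType hn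
  interval_cases n <;> norm_num

/-- Let F be a field with 9 elements. The symmetric group S_6 is not isomorphic to PGL_2(F) (although both have index-2 subgroups isomorphic to A_6). -/
theorem result {F : Type*} [Field F] [Fintype F] (hF : Fintype.card F = 9) : ¬ Nonempty (Equiv.Perm (Fin 6) ≃* Matrix.ProjGenLinGroup (Fin 2) F) := by
  classical
  rintro ⟨e⟩
  have hall : ∀ g : Matrix.ProjGenLinGroup (Fin 2) F, g ^ 60 = 1 := by
    intro g
    obtain ⟨σ, rfl⟩ := e.surjective g
    rw [← map_pow, perm_pow_sixty, map_one]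
  obtain ⟨ζ, hζ⟩ := IsCyclic.exists_generator (α := Fˣ)
  have hord : orderOf ζ = 8 := by
    rw [orderOf_eq_card_of_forall_mem_zpowers hζ, Nat.card_eq_fintype_card, Fintype.card_units, hF]
  have hζ60 : ζ ^ 60 ≠ 1 := by
    intro h
    have := orderOf_dvd_of_pow_eq_one h
    rw [hord] at this
    norm_num at this
  let u : (Fin 2 → F)ˣ := MulEquiv.piUnits.symm ![ζ, 1]
  let D : GL (Fin 2) F := Units.map (Matrix.diagonalRingHom (Fin 2) F : (Fin 2 → F) →* Matrix (Fin 2) (Fin 2) F) u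
  have h1 := hall (Matrix.ProjGenLinGroup.mk D)
  rw [← map_pow, Matrix.ProjGenLinGroup.mk_eq_one, Matrix.GeneralLinearGroup.center_eq_range_scalar] at h1
  obtain ⟨r, hr⟩ := h1
  have h00 : ((D ^ 60 : GL (Fin 2) F) : Matrix (Fin 2) (Fin 2) F) 0 0 = (ζ : F) ^ 60 := by
    simp [D, u, Matrix.diagonal_pow]
  have h11 : ((D ^ 60 : GL (Fin 2) F) : Matrix (Fin 2) (Fin 2) F) 1 1 = 1 := by
    simp [D, u, Matrix.diagonal_pow]
  rw [← hr] at h00 h11
  simp at h00 h11
  apply hζ60
  apply Units.ext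
  push_cast
  rw [← h00, h11]
  simp

end Cfsg.Agent.S2541
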