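import Cfsg.Statements.S2550
import Cfsg.Agent.S0256
import Cfsg.Agent.Lib.Helper48TransvCount

set_option autoImplicit false
open Cfsg

namespace Cfsg.Agent.S2550

open Module Matrix Cfsg.Agent.Lib

variable {K : Type*} [Field K] [Fintype K]

theorem two_eq_zero (hK : Fintype.card K = 4) : (2 : K) = 0 := by
  have h1 : ((Fintype.card K : ℕ) : K) = 0 := Nat.cast_card_eq_zero K
  rw [hK] at h1
  have h2 : (2 : K) * 2 = 0 := by
    have : ((4 : ℕ) : K) = 2 * 2 := by norm_num
    rw [← this]; exact h1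
  simpa using h2

theorem cube_eq_one (hK : Fintype.card K = 4) (a : K) (ha : a ≠ 0) : a ^ 3 = 1 := by
  have := FiniteField.pow_card_sub_one_eq_one a ha
  rwa [hK] at this

theorem core (hK : Fintype.card K = 4) (Y : Matrix (Fin 3) (Fin 3) K)
    (hcomm : Commute (single (0 : Fin 3) (2 : Fin 3) (1 : K)) Y) (hdet : Y.det = 1) (c : K)
    (hc : Y ^ 3 = c • (1 : Matrix (Fin 3) (Fin 3) K)) : Y = Y 0 0 • (1 : Matrix (Fin 3) (Fin 3) K) := by
  obtain ⟨h1, h2, h3⟩ := Helper48TransvCount.commute_single_iff.1 hcomm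
  have h20 : Y 2 0 = 0 := h1 0 (by decide)
  have h21 : Y 2 1 = 0 := h1 1 (by decide)
  have h10 : Y 1 0 = 0 := h2 1 (by decide)
  have h2' := two_eq_zero hK
  have h22 : Y 2 2 = Y 0 0 := h3.symm
  set a := Y 0 0 with ha
  set b := Y 1 1 with hb
  set x := Y 0 1 with hx
  set z := Y 0 2 with hz
  set w := Y 1 2 with hw
  have hY : Y = !![a, x, z; 0, b, w; 0, 0, a] := by
    ext i j
    fin_cases i <;> fin_cases j <;> simp [ha, hb, hx, hz, hw, h20, h21, h10, h22]
  have hd : a * b * a = 1 := by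
    rw [hY, Matrix.det_fin_three] at hdet
    simp at hdet
    linear_combination hdet
  have ha0 : a ≠ 0 := by
    rintro h0
    rw [h0] at hd
    simp at hd
  have ha3 := cube_eq_one hK a ha0
  have hba : b = a := by
    have : a ^ 2 * b = a ^ 2 * a := by
      linear_combination hd - ha3
    exact mul_left_cancel₀ (pow_ne_zero 2 ha0) this
  rw [hba] at hY
  have e01 := congrFun (congrFun hc 0) 1
  have e12 := congrFun (congrFun hc 1) 2
  have e02 := congrFun (congrFun hc 0) 2
  rw [hY] at e01 e12 e02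
  simp [pow_succ, Matrix.mul_apply, Fin.sum_univ_three] at e01 e12 e02
  have hx0 : x = 0 := by
    have : a ^ 2 * x = 0 := by linear_combination e01 - a ^ 2 * x * h2'
    simpa [ha0] using this
  have hw0 : w = 0 := by
    have : a ^ 2 * w = 0 := by linear_combination e12 - a ^ 2 * w * h2'
    simpa [ha0] using this
  have hz0 : z = 0 := by
    rw [hx0] at e02
    have : a ^ 2 * z = 0 := by linear_combination e02 - a ^ 2 * z * h2'
    simpa [ha0] using this
  rw [hY, hx0, hw0, hz0]
  ext i j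
  fin_cases i <;> fin_cases j <;> simp


theorem scalar_of_commute (hK : Fintype.card K = 4) (T Y : Matrix (Fin 3) (Fin 3) K)
    (hT : T * T = 1) (hT1 : T ≠ 1) (hcomm : T * Y = Y * T) (hdet : Y.det = 1) (c : K)
    (hc : Y ^ 3 = c • (1 : Matrix (Fin 3) (Fin 3) K)) :
    ∃ a : K, Y = a • (1 : Matrix (Fin 3) (Fin 3) K) := by
  have h2' := two_eq_zero hK
  set N : Matrix (Fin 3) (Fin 3) K := T - 1 with hN
  have hNN : N * N = 0 := by
    have : N * N = T * T - (2 : K) • T + 1 := by
      rw [hN, two_smul]; noncomm_ring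
    rw [this, hT, h2', zero_smul, sub_zero]
    have : (1 : Matrix (Fin 3) (Fin 3) K) + 1 = (2 : K) • 1 := by rw [two_smul]
    rw [this, h2', zero_smul]
  have hN0 : N ≠ 0 := by
    intro h
    exact hT1 (sub_eq_zero.1 h)
  have hNY : N * Y = Y * N := by
    rw [hN, sub_mul, mul_sub, hcomm, one_mul, mul_one]
  set NL : End K (Fin 3 → K) := Matrix.toLinAlgEquiv' N with hNL
  have hsq : NL * NL = 0 := by
    rw [hNL, ← map_mul, hNN, map_zero]
  have hr : finrank K (LinearMap.range NL) = 1 := by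
    have h1 : LinearMap.range NL ≤ LinearMap.ker NL := by
      rintro _ ⟨x, rfl⟩
      rw [LinearMap.mem_ker]
      have := LinearMap.congr_fun hsq x
      simpa using this
    have h2 := Submodule.finrank_mono h1
    have h3 := LinearMap.finrank_range_add_finrank_ker NL
    rw [Module.finrank_fin_fun] at h3
    have h4 : finrank K (LinearMap.range NL) ≠ 0 := by
      intro h0
      rw [Submodule.finrank_eq_zero, LinearMap.range_eq_bot] at h0
      apply hN0
      apply Matrix.toLinAlgEquiv'.injective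
      rw [← hNL, h0, map_zero]
    omega
  set E : Matrix (Fin 3) (Fin 3) K := single (0 : Fin 3) (2 : Fin 3) (1 : K) with hE
  have hEE : E * E = 0 := by
    rw [hE, Matrix.single_mul_single_of_ne]
    decide
  obtain ⟨g, hg⟩ := Helper48Transv.exists_conj NL (Matrix.toLinAlgEquiv' E) hr hsq
    (Helper48TransvCount.rank_single 0 2) (by rw [← map_mul, hEE, map_zero])
  set P : Matrix (Fin 3) (Fin 3) K := LinearMap.toMatrix' g.toLinearMap with hP
  set Q : Matrix (Fin 3) (Fin 3) K := LinearMap.toMatrix' g.symm.toLinearMap with hQ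
  have hPQ : P * Q = 1 := by
    rw [hP, hQ, ← LinearMap.toMatrix'_comp]
    simp
  have hQP : Q * P = 1 := by
    rw [hP, hQ, ← LinearMap.toMatrix'_comp]
    simp
  have hPN : P * N = E * P := by
    have h1 : g.toLinearMap ∘ₗ NL = (Matrix.toLinAlgEquiv' E) ∘ₗ g.toLinearMap := by
      ext1 i
      apply LinearMap.ext
      intro x
      exact hg _
    have h2 := congrArg LinearMap.toMatrix' h1
    rw [LinearMap.toMatrix'_comp, LinearMap.toMatrix'_comp] at h2
    have hh : ∀ M : Matrix (Fin 3) (Fin 3) K,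
        LinearMap.toMatrix' (Matrix.toLinAlgEquiv' M : End K (Fin 3 → K)) = M :=
      fun M => LinearMap.toMatrix'_toLin' M
    rw [hNL, hh, hh] at h2
    exact h2
  have hNQ : N * Q = Q * E := by
    calc N * Q = Q * (P * N) * Q := by rw [← mul_assoc, hQP, one_mul]
      _ = Q * E * (P * Q) := by rw [hPN]; simp only [mul_assoc]
      _ = Q * E := by rw [hPQ, mul_one]
  have hcore := core hK (P * Y * Q) (by
      change E * (P * Y * Q) = (P * Y * Q) * E
      calc E * (P * Y * Q) = (E * P) * Y * Q := by simp only [mul_assoc]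
        _ = P * (N * Y) * Q := by rw [← hPN]; simp only [mul_assoc]
        _ = P * Y * (N * Q) := by rw [hNY]; simp only [mul_assoc]
        _ = (P * Y * Q) * E := by rw [hNQ]; simp only [mul_assoc])
    (by
      rw [Matrix.det_mul, Matrix.det_mul, hdet, mul_one, ← Matrix.det_mul, hPQ, Matrix.det_one]) c
    (by
      have h3 : (P * Y * Q) ^ 3 = P * Y ^ 3 * Q := by
        calc (P * Y * Q) ^ 3 = P * Y * (Q * P) * Y * (Q * P) * Y * Q := by
              simp only [pow_succ, pow_zero, one_mul, mul_assoc]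
          _ = P * Y ^ 3 * Q := by
              rw [hQP]; simp only [pow_succ, pow_zero, one_mul, mul_one, mul_assoc]
      rw [h3, hc, Matrix.mul_smul, mul_one, Matrix.smul_mul, hPQ])
  refine ⟨(P * Y * Q) 0 0, ?_⟩
  calc Y = Q * (P * Y * Q) * P := by
        rw [← mul_assoc, ← mul_assoc, hQP, one_mul, mul_assoc, hQP, mul_one]
    _ = _ := by
        rw [hcore]
        simp only [Matrix.smul_apply, Matrix.one_apply_eq, smul_eq_mul, mul_one, Matrix.mul_smul,
          Matrix.smul_mul, hQP]


theorem no_six (hK : Fintype.card K = 4) (z : Matrix.ProjectiveSpecialLinearGroup (Fin 3) K)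
    (h6 : z ^ 6 = 1) (h3 : z ^ 3 ≠ 1) : z ^ 2 = 1 := by
  obtain ⟨x, rfl⟩ := QuotientGroup.mk_surjective z
  rw [← QuotientGroup.mk_pow, QuotientGroup.eq_one_iff, Matrix.SpecialLinearGroup.mem_center_iff]
    at h6
  obtain ⟨r, hr, hx6⟩ := h6
  rw [Fintype.card_fin] at hr
  set X : Matrix (Fin 3) (Fin 3) K := (x : Matrix (Fin 3) (Fin 3) K) with hX
  have hX6 : X ^ 6 = r • (1 : Matrix (Fin 3) (Fin 3) K) := by
    have : ((x ^ 6 : Matrix.SpecialLinearGroup (Fin 3) K) : Matrix (Fin 3) (Fin 3) K) = X ^ 6 := by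
      simp [hX]
    rw [← this, ← hx6, Matrix.scalar_apply, ← Matrix.smul_one_eq_diagonal]
  have hr0 : r ≠ 0 := by
    rintro rfl
    simp at hr
  have hdetX : X.det = 1 := x.2
  obtain ⟨a, ha⟩ := scalar_of_commute hK (r • X ^ 3) (X ^ 2)
    (by
      have hr' : r * r * r = 1 := by linear_combination hr
      rw [Matrix.smul_mul, Matrix.mul_smul, smul_smul, ← pow_add, hX6, smul_smul, hr', one_smul])
    (by
      intro h
      apply h3
      rw [← QuotientGroup.mk_pow, QuotientGroup.eq_one_iff, Matrix.SpecialLinearGroup.mem_center_iff]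
      refine ⟨r⁻¹, by rw [Fintype.card_fin, inv_pow, hr, inv_one], ?_⟩
      have h4 : X ^ 3 = r⁻¹ • (1 : Matrix (Fin 3) (Fin 3) K) := by
        rw [← h, smul_smul, inv_mul_cancel₀ hr0, one_smul]
      rw [Matrix.scalar_apply, ← Matrix.smul_one_eq_diagonal, ← h4]
      simp [hX])
    (by
      rw [Matrix.smul_mul, Matrix.mul_smul, ← pow_add, ← pow_add])
    (by rw [Matrix.det_pow, hdetX, one_pow]) r
    (by rw [← pow_mul, hX6])
  rw [← QuotientGroup.mk_pow, QuotientGroup.eq_one_iff, Matrix.SpecialLinearGroup.mem_center_iff]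
  refine ⟨a, ?_, ?_⟩
  · have h5 : (X ^ 2).det = 1 := by rw [Matrix.det_pow, hdetX, one_pow]
    rw [ha, Matrix.det_smul, Matrix.det_one, mul_one] at h5
    exact h5
  · rw [Matrix.scalar_apply, ← Matrix.smul_one_eq_diagonal, ← ha]
    simp [hX]

theorem exists_six : ∃ s : alternatingGroup (Fin 8), s ^ 6 = 1 ∧ s ^ 3 ≠ 1 ∧ s ^ 2 ≠ 1 := by
  refine ⟨⟨Equiv.swap 0 1 * Equiv.swap 1 2 * Equiv.swap 3 4 * Equiv.swap 5 6, ?_⟩, ?_, ?_, ?_⟩
  · rw [Equiv.Perm.mem_alternatingGroup]
    decide +kernel
  · apply Subtype.ext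
    change (Equiv.swap (0 : Fin 8) 1 * Equiv.swap 1 2 * Equiv.swap 3 4 * Equiv.swap 5 6) ^ 6 = 1
    decide +kernel
  · intro h
    have h1 := congrArg Subtype.val h
    change (Equiv.swap (0 : Fin 8) 1 * Equiv.swap 1 2 * Equiv.swap 3 4 * Equiv.swap 5 6) ^ 3 = 1 at h1
    revert h1
    decide +kernel
  · intro h
    have h1 := congrArg Subtype.val h
    change (Equiv.swap (0 : Fin 8) 1 * Equiv.swap 1 2 * Equiv.swap 3 4 * Equiv.swap 5 6) ^ 2 = 1 at h1
    revert h1
    decide +kernel

/-- Let F be a field with 2 elements and K a field with 4 elements. PSL_4(F) and PSL_3(K) have the same order (20160) but are not isomorphic. -/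
theorem result {F K : Type*} [Field F] [Fintype F] [Field K] [Fintype K] (hF : Fintype.card F = 2) (hK : Fintype.card K = 4) : Nat.card (Matrix.ProjectiveSpecialLinearGroup (Fin 4) F) = Nat.card (Matrix.ProjectiveSpecialLinearGroup (Fin 3) K) ∧ ¬ Nonempty (Matrix.ProjectiveSpecialLinearGroup (Fin 4) F ≃* Matrix.ProjectiveSpecialLinearGroup (Fin 3) K) := by
  constructor
  · have h1 := S0243.result hF 4 (by norm_num)
    have h2 := S0243.result hK 3 (by norm_num)
    simp [Fin.prod_univ_succ] at h1 h2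
    omega
  · rintro ⟨e⟩
    obtain ⟨e₁⟩ := S0256.result hF
    obtain ⟨s, h6, h3, h2⟩ := exists_six
    let φ := e₁.symm.trans e
    apply h2
    apply φ.injective
    rw [map_pow, map_one]
    apply no_six hK
    · rw [← map_pow, h6, map_one]
    · intro h
      apply h3
      apply φ.injective
      rw [map_pow, map_one, h]

end Cfsg.Agent.S2550
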