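import Cfsg.Statements.S2551
import Cfsg.Agent.Lib.Helper88TwoTr
import Cfsg.Agent.Lib.H69G4GL3

set_option autoImplicit false
open Cfsg

namespace Cfsg.Agent.S2551

open Cfsg.Agent.Lib.Helper88TwoTr

section
variable {F : Type*} [Field F] [Fintype F]

/-- the natural action on vectors -/
@[reducible] def actV : MulAction (Matrix.GeneralLinearGroup (Fin 4) F) (Fin 4 → F) where
  smul g v := (g : Matrix (Fin 4) (Fin 4) F).mulVec v
  one_smul v := by
    show ((1 : Matrix.GeneralLinearGroup (Fin 4) F) : Matrix (Fin 4) (Fin 4) F).mulVec v = v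
    simp
  mul_smul g h v := by
    show ((g * h : Matrix.GeneralLinearGroup (Fin 4) F) : Matrix (Fin 4) (Fin 4) F).mulVec v
      = (g : Matrix (Fin 4) (Fin 4) F).mulVec ((h : Matrix (Fin 4) (Fin 4) F).mulVec v)
    simp [Matrix.mulVec_mulVec]

/-- the fixed space -/
def fixS (g : Matrix.GeneralLinearGroup (Fin 4) F) : AddSubgroup (Fin 4 → F) where
  carrier := {v | (g : Matrix (Fin 4) (Fin 4) F).mulVec v = v}
  zero_mem' := by simp
  add_mem' := by
    intro a b ha hb
    simp only [Set.mem_ofPred_eq] at ha hb ⊢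
    rw [Matrix.mulVec_add, ha, hb]
  neg_mem' := by
    intro a ha
    simp only [Set.mem_ofPred_eq] at ha ⊢
    rw [Matrix.mulVec_neg, ha]

theorem cardV (hF : Fintype.card F = 2) : Nat.card (Fin 4 → F) = 16 := by
  rw [Nat.card_eq_fintype_card, Fintype.card_fun, hF]; rfl

theorem fix_dvd (hF : Fintype.card F = 2) (g : Matrix.GeneralLinearGroup (Fin 4) F) :
    Nat.card (fixS g) ∣ 16 := by
  rw [← cardV hF]
  exact AddSubgroup.card_addSubgroup_dvd_card _

theorem fix_mod (hF : Fintype.card F = 2) (g : Matrix.GeneralLinearGroup (Fin 4) F) (p : ℕ)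
    [Fact p.Prime] (hg : g ^ p = 1) : 16 ≡ Nat.card (fixS g) [MOD p] := by
  letI := actV (F := F)
  have h := card_modEq_fix (α := Fin 4 → F) g p hg
  rw [cardV hF] at h
  exact h

theorem fix_ne_16 (hF : Fintype.card F = 2) (g : Matrix.GeneralLinearGroup (Fin 4) F) (hg : g ≠ 1) :
    Nat.card (fixS g) ≠ 16 := by
  intro h
  apply hg
  have htop : fixS g = ⊤ := by
    apply AddSubgroup.eq_top_of_card_eq
    rw [h, cardV hF]
  apply Units.ext
  apply Matrix.mulVec_injective
  funext v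
  have hv : v ∈ fixS g := htop ▸ AddSubgroup.mem_top v
  rw [show ((1 : Matrix.GeneralLinearGroup (Fin 4) F) : Matrix (Fin 4) (Fin 4) F) = 1 from rfl,
    Matrix.one_mulVec]
  exact hv

theorem dvd16 {n : ℕ} (h : n ∣ 16) : n = 1 ∨ n = 2 ∨ n = 4 ∨ n = 8 ∨ n = 16 := by
  have h1 : n ≤ 16 := Nat.le_of_dvd (by norm_num) h
  interval_cases n <;> omega

theorem fix5 (hF : Fintype.card F = 2) (g : Matrix.GeneralLinearGroup (Fin 4) F)
    (hg : orderOf g = 5) (v : Fin 4 → F) (hv : (g : Matrix (Fin 4) (Fin 4) F).mulVec v = v) :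
    v = 0 := by
  have : Fact (Nat.Prime 5) := ⟨by norm_num⟩
  have h1 := fix_mod hF g 5 (hg ▸ pow_orderOf_eq_one g)
  have h2 := fix_ne_16 hF g (by rintro rfl; simp at hg)
  have h3 := dvd16 (fix_dvd hF g)
  have h4 : 16 % 5 = Nat.card (fixS g) % 5 := h1
  have h5 : Nat.card (fixS g) = 1 := by omega
  have h6 : Subsingleton (fixS g) := (Nat.card_eq_one_iff_unique.1 h5).1
  have h7 : (⟨v, hv⟩ : fixS g) = 0 := Subsingleton.elim _ _
  exact congrArg Subtype.val h7

theorem fix7 (hF : Fintype.card F = 2) (g : Matrix.GeneralLinearGroup (Fin 4) F)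
    (hg : orderOf g = 7) (v w : Fin 4 → F) (hv : (g : Matrix (Fin 4) (Fin 4) F).mulVec v = v)
    (hw : (g : Matrix (Fin 4) (Fin 4) F).mulVec w = w) (hv0 : v ≠ 0) (hw0 : w ≠ 0) :
    v = w := by
  have : Fact (Nat.Prime 7) := ⟨by norm_num⟩
  have h1 := fix_mod hF g 7 (hg ▸ pow_orderOf_eq_one g)
  have h2 := fix_ne_16 hF g (by rintro rfl; simp at hg)
  have h3 := dvd16 (fix_dvd hF g)
  have h4 : 16 % 7 = Nat.card (fixS g) % 7 := h1
  have h5 : Nat.card (fixS g) = 2 := by omega
  obtain ⟨y, -, hy⟩ := (Nat.card_eq_two_iff' (0 : fixS g)).1 h5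
  have e1 := hy ⟨v, hv⟩ (fun h => hv0 (congrArg Subtype.val h))
  have e2 := hy ⟨w, hw⟩ (fun h => hw0 (congrArg Subtype.val h))
  exact congrArg Subtype.val (e1.trans e2.symm)

theorem fix2 (g : Matrix.GeneralLinearGroup (Fin 4) F)
    (hg : g ≠ 1) : ∃ v : Fin 4 → F, v ≠ 0 ∧ (g : Matrix (Fin 4) (Fin 4) F).mulVec v ≠ v := by
  by_contra hcon
  push Not at hcon
  apply hg
  apply Units.ext
  apply Matrix.mulVec_injective
  funext v
  rw [show ((1 : Matrix.GeneralLinearGroup (Fin 4) F) : Matrix (Fin 4) (Fin 4) F) = 1 from rfl,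
    Matrix.one_mulVec]
  by_cases hv : v = 0
  · subst hv; simp
  · exact hcon v hv

/-- the action on nonzero vectors -/
@[reducible] def actO (H : Subgroup (Matrix.GeneralLinearGroup (Fin 4) F)) :
    MulAction H {v : Fin 4 → F // v ≠ 0} where
  smul g v := ⟨(g.1 : Matrix (Fin 4) (Fin 4) F).mulVec v.1, by
    intro h
    apply v.2
    have h1 : ((g.1⁻¹ * g.1 : Matrix.GeneralLinearGroup (Fin 4) F) :
        Matrix (Fin 4) (Fin 4) F).mulVec v.1 = 0 := by
      rw [Units.val_mul, ← Matrix.mulVec_mulVec, h, Matrix.mulVec_zero]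
    rw [inv_mul_cancel] at h1
    simpa using h1⟩
  one_smul v := by
    apply Subtype.ext
    show ((1 : Matrix.GeneralLinearGroup (Fin 4) F) : Matrix (Fin 4) (Fin 4) F).mulVec v.1 = v.1
    simp
  mul_smul g h v := by
    apply Subtype.ext
    show ((g.1 * h.1 : Matrix.GeneralLinearGroup (Fin 4) F) : Matrix (Fin 4) (Fin 4) F).mulVec v.1
      = (g.1 : Matrix (Fin 4) (Fin 4) F).mulVec ((h.1 : Matrix (Fin 4) (Fin 4) F).mulVec v.1)
    simp [Matrix.mulVec_mulVec]

theorem cardO (hF : Fintype.card F = 2) : Nat.card {v : Fin 4 → F // v ≠ 0} = 15 := by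
  classical
  have h := cardV hF
  rw [Nat.card_eq_fintype_card] at h ⊢
  rw [Fintype.card_subtype_compl, h]
  simp

theorem part2 (hF : Fintype.card F = 2) (H : Subgroup (Matrix.GeneralLinearGroup (Fin 4) F))
    (hH : Nonempty (H ≃* alternatingGroup (Fin 7))) (v w v' w' : Fin 4 → F) (hv : v ≠ 0)
    (hw : w ≠ 0) (hvw : v ≠ w) (hv' : v' ≠ 0) (hw' : w' ≠ 0) (hvw' : v' ≠ w') :
    ∃ g ∈ H, (g : Matrix (Fin 4) (Fin 4) F).mulVec v = v' ∧
      (g : Matrix (Fin 4) (Fin 4) F).mulVec w = w' := by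
  obtain ⟨e⟩ := hH
  have hc : Nat.card H = 2520 := by
    rw [Nat.card_congr e.toEquiv, nat_card_alternatingGroup]
    simp [Nat.factorial]
  letI := actO H
  have : Finite H := Nat.finite_of_card_ne_zero (by omega)
  obtain ⟨g, h1, h2⟩ := two_transitive (H := H) (Ω := {v : Fin 4 → F // v ≠ 0}) hc (cardO hF)
    (fun g hg x hx => x.2 (fix5 hF g.1 (by rw [Subgroup.orderOf_coe]; exact hg) x.1
      (congrArg Subtype.val hx)))
    (fun g hg x y hx hy => Subtype.ext (fix7 hF g.1 (by rw [Subgroup.orderOf_coe]; exact hg) x.1 y.1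
      (congrArg Subtype.val hx) (congrArg Subtype.val hy) x.2 y.2))
    (fun g hg => by
      obtain ⟨u, hu0, hu⟩ := fix2 g.1 (by
        intro h
        have : g = 1 := Subtype.ext h
        rw [this] at hg
        simp at hg)
      exact ⟨⟨u, hu0⟩, fun h => hu (congrArg Subtype.val h)⟩)
    ⟨v, hv⟩ ⟨w, hw⟩ ⟨v', hv'⟩ ⟨w', hw'⟩ (fun h => hvw (congrArg Subtype.val h))
    (fun h => hvw' (congrArg Subtype.val h))
  exact ⟨g.1, g.2, congrArg Subtype.val h1, congrArg Subtype.val h2⟩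

end

/-- `A₇ → A₈` -/
noncomputable def emb78 : alternatingGroup (Fin 7) →* alternatingGroup (Fin 8) :=
  ((Equiv.Perm.extendDomainHom (finSuccAboveEquiv (Fin.last 7))).comp
    (alternatingGroup (Fin 7)).subtype).codRestrict (alternatingGroup (Fin 8)) (by
      intro x
      rw [Equiv.Perm.mem_alternatingGroup]
      show Equiv.Perm.sign (Equiv.Perm.extendDomain x.1 _) = 1
      rw [Equiv.Perm.sign_extendDomain]
      exact x.2)

theorem emb78_inj : Function.Injective emb78 := by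
  intro x y h
  have h1 := congrArg Subtype.val h
  exact Subtype.ext (Equiv.Perm.extendDomainHom_injective _ h1)

theorem part1 {F : Type*} [Field F] [Fintype F] (hF : Fintype.card F = 2) :
    ∃ H : Subgroup (Matrix.GeneralLinearGroup (Fin 4) F),
      Nonempty (H ≃* alternatingGroup (Fin 7)) := by
  obtain ⟨e1⟩ := Cfsg.Agent.Lib.H69G4GL3.gl4_equiv
  let r : ZMod 2 ≃+* F := ZMod.ringEquivOfPrime F (by norm_num) hF
  let e2 : Matrix.GeneralLinearGroup (Fin 4) (ZMod 2) ≃* Matrix.GeneralLinearGroup (Fin 4) F :=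
    Units.mapEquiv (RingEquiv.mapMatrix r).toMulEquiv
  let φ : alternatingGroup (Fin 7) →* Matrix.GeneralLinearGroup (Fin 4) F :=
    (e2.toMonoidHom.comp e1.symm.toMonoidHom).comp emb78
  have hφ : Function.Injective φ := by
    intro x y h
    exact emb78_inj (e1.symm.injective (e2.injective h))
  exact ⟨φ.range, ⟨(MonoidHom.ofInjective hφ).symm⟩⟩

/-- Let F be the field with 2 elements. GL_4(F) (≅ A_8) has a subgroup isomorphic to the alternating group A_7, and every such subgroup acts 2-transitively on the 15 non-zero vectors of F⁴: any ordered pair of distinct non-zero vectors is carried to any other by some element of the subgroup. -/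
theorem result {F : Type*} [Field F] [Fintype F] (hF : Fintype.card F = 2) : (∃ H : Subgroup (Matrix.GeneralLinearGroup (Fin 4) F), Nonempty (H ≃* alternatingGroup (Fin 7))) ∧ ∀ H : Subgroup (Matrix.GeneralLinearGroup (Fin 4) F), Nonempty (H ≃* alternatingGroup (Fin 7)) → ∀ v w v' w' : Fin 4 → F, v ≠ 0 → w ≠ 0 → v ≠ w → v' ≠ 0 → w' ≠ 0 → v' ≠ w' → ∃ g ∈ H, (g : Matrix (Fin 4) (Fin 4) F).mulVec v = v' ∧ (g : Matrix (Fin 4) (Fin 4) F).mulVec w = w' := by
  exact ⟨part1 hF, fun H hH v w v' w' => part2 hF H hH v w v' w'⟩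

end Cfsg.Agent.S2551
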