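import Cfsg.Statements.S2552

set_option autoImplicit false
open Cfsg

namespace Cfsg.Agent.S2552

open Module

theorem exists_equiv_map {K V : Type*} [Field K] [AddCommGroup V] [Module K V] [FiniteDimensional K V]
    (U₁ U₂ : Submodule K V) (h : finrank K U₁ = finrank K U₂) :
    ∃ e : V ≃ₗ[K] V, U₁.map e.toLinearMap = U₂ := by
  obtain ⟨C₁, h₁⟩ := Submodule.exists_isCompl U₁
  obtain ⟨C₂, h₂⟩ := Submodule.exists_isCompl U₂
  have hc : finrank K C₁ = finrank K C₂ := by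
    have a1 := Submodule.finrank_add_eq_of_isCompl h₁
    have a2 := Submodule.finrank_add_eq_of_isCompl h₂
    omega
  let e₁ : U₁ ≃ₗ[K] U₂ := LinearEquiv.ofFinrankEq _ _ h
  let e₂ : C₁ ≃ₗ[K] C₂ := LinearEquiv.ofFinrankEq _ _ hc
  let e : V ≃ₗ[K] V := (Submodule.prodEquivOfIsCompl U₁ C₁ h₁).symm ≪≫ₗ (e₁.prodCongr e₂) ≪≫ₗ
    (Submodule.prodEquivOfIsCompl U₂ C₂ h₂)
  have he : ∀ u : U₁, e u = e₁ u := by
    intro u
    simp [e]
  refine ⟨e, ?_⟩
  apply le_antisymm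
  · rintro _ ⟨u, hu, rfl⟩
    have := he ⟨u, hu⟩
    simp only [LinearEquiv.coe_coe] at this ⊢
    rw [this]
    exact (e₁ ⟨u, hu⟩).2
  · intro w hw
    refine ⟨e₁.symm ⟨w, hw⟩, (e₁.symm ⟨w, hw⟩).2, ?_⟩
    simp only [LinearEquiv.coe_coe]
    rw [he]
    simp

theorem exists_det_fix {K V : Type*} [Field K] [AddCommGroup V] [Module K V] [FiniteDimensional K V]
    [Nontrivial V] (U : Submodule K V) (c : K) :
    ∃ d : V →ₗ[K] V, LinearMap.det d = c ∧ ∀ u ∈ U, d u ∈ U := by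
  obtain ⟨x, hx0, hxU⟩ : ∃ x : V, x ≠ 0 ∧ (U = ⊥ ∨ x ∈ U) := by
    by_cases hU : U = ⊥
    · obtain ⟨x, hx⟩ := exists_ne (0 : V)
      exact ⟨x, hx, Or.inl hU⟩
    · obtain ⟨x, hx, hx0⟩ := Submodule.exists_mem_ne_zero_of_ne_bot hU
      exact ⟨x, hx0, Or.inr hx⟩
  obtain ⟨φ, hφ⟩ := Module.Projective.exists_dual_eq_one K hx0
  refine ⟨LinearMap.transvection ((c - 1) • φ) x, ?_, ?_⟩
  · rw [LinearMap.transvection.det]
    simp [hφ]
  · intro u hu
    rw [LinearMap.transvection.apply]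
    rcases hxU with h | h
    · rw [h, Submodule.mem_bot] at hu
      subst hu
      simp
    · exact U.add_mem hu (U.smul_mem _ h)

theorem result {F : Type*} [Field F] [Fintype F] (n : ℕ) (hn : 1 ≤ n) (U₁ U₂ : Submodule F (Fin n → F)) (h : Module.finrank F U₁ = Module.finrank F U₂) : ∃ g : Matrix.SpecialLinearGroup (Fin n) F, U₁.map ((Matrix.SpecialLinearGroup.toLin' g : (Fin n → F) ≃ₗ[F] (Fin n → F)) : (Fin n → F) →ₗ[F] (Fin n → F)) = U₂ := by
  have : Nonempty (Fin n) := ⟨⟨0, hn⟩⟩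
  obtain ⟨e, he⟩ := exists_equiv_map U₁ U₂ h
  have hdet : LinearMap.det e.toLinearMap ≠ 0 := (LinearEquiv.isUnit_det' e).ne_zero
  obtain ⟨d, hd1, hd2⟩ := exists_det_fix U₂ (LinearMap.det e.toLinearMap)⁻¹
  have hdet1 : LinearMap.det (d ∘ₗ e.toLinearMap) = 1 := by
    rw [LinearMap.det_comp, hd1, inv_mul_cancel₀ hdet]
  let g : Matrix.SpecialLinearGroup (Fin n) F :=
    ⟨LinearMap.toMatrix' (d ∘ₗ e.toLinearMap), by rw [LinearMap.det_toMatrix', hdet1]⟩
  have hg : ((Matrix.SpecialLinearGroup.toLin' g : (Fin n → F) ≃ₗ[F] (Fin n → F)) :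
      (Fin n → F) →ₗ[F] (Fin n → F)) = d ∘ₗ e.toLinearMap := by
    rw [Matrix.SpecialLinearGroup.toLin'_to_linearMap]
    exact Matrix.toLin'_toMatrix' _
  refine ⟨g, ?_⟩
  · rw [hg, Submodule.map_comp, he]
    apply Submodule.eq_of_le_of_finrank_eq
    · rintro _ ⟨u, hu, rfl⟩
      exact hd2 u hu
    · have hinj : Function.Injective d := by
        have hu : IsUnit (LinearMap.det d) := by
          rw [hd1]; exact (isUnit_iff_ne_zero.mpr (inv_ne_zero hdet))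
        have hu' := (LinearMap.isUnit_iff_isUnit_det d).mpr hu
        exact ((Module.End.isUnit_iff d).mp hu').injective
      exact (LinearEquiv.finrank_eq (Submodule.equivMapOfInjective d hinj U₂)).symm

end Cfsg.Agent.S2552
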