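import Cfsg.Statements.S2561
import Cfsg.Agent.Lib.Helper48F2Minus

set_option autoImplicit false
open Cfsg

namespace Cfsg.Agent.S2561

open Cfsg.Agent.Lib.Helper48F2Sum Cfsg.Agent.Lib.Helper48F2Quad Cfsg.Agent.Lib.Helper48F2Type
  Cfsg.Agent.Lib.Helper48F2Minus

theorem card_VV (m : ℕ) : Fintype.card (VV m) = 2 ^ (2 * m) := by
  simp [two_mul]

theorem part1 (m : ℕ) : Nat.card {q : VV m → ZMod 2 // IsQ m q} = 2 ^ (2 * m) := by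
  have h := card_param (m := m) (fun _ => True) (fun _ => True) (fun _ => Iff.rfl)
  have e1 : Nat.card {q : VV m → ZMod 2 // IsQ m q} = Nat.card {q : VV m → ZMod 2 // IsQ m q ∧ True} :=
    Nat.card_congr (Equiv.subtypeEquivRight (fun q => (and_iff_left trivial).symm))
  have e2 : Nat.card {w : VV m // True} = Nat.card (VV m) :=
    Nat.card_congr (Equiv.subtypeUnivEquiv (fun _ => trivial))
  rw [e1, h, e2, Nat.card_eq_fintype_card, card_VV]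

theorem part2 (k : ℕ) (q : VV (k + 1) → ZMod 2) (hq : IsQ (k + 1) q) : IsPlus (k + 1) q ∨ IsMinus k q := by
  obtain ⟨w, rfl⟩ := exists_qw q hq
  rcases zmod2_cases (Q0 (k + 1) w) with h | h
  · exact Or.inl ((isPlus_iff w).mpr h)
  · exact Or.inr ((isMinus_iff w).mpr h)

theorem part3 (k : ℕ) : Nat.card {q : VV (k + 1) → ZMod 2 // IsQ (k + 1) q ∧ IsPlus (k + 1) q} =
    2 ^ (2 * (k + 1) - 1) + 2 ^ (k + 1 - 1) := by
  rw [card_param (IsPlus (k + 1)) (fun w => Q0 (k + 1) w = 0) isPlus_iff]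
  have h := card_zeros (Q0 (k + 1))
  rw [S_Q0, card_VV] at h
  have e1 : 2 * (k + 1) - 1 = 2 * k + 1 := by omega
  have e2 : k + 1 - 1 = k := by omega
  rw [e1, e2]
  have e3 : 2 * (k + 1) = (2 * k + 1) + 1 := by ring
  rw [e3] at h
  push_cast at h
  have h' : (2 : ℤ) * (Nat.card {v // Q0 (k + 1) v = 0} : ℤ) = 2 * ((2 ^ (2 * k + 1) + 2 ^ k : ℕ) : ℤ) := by
    rw [h]; push_cast; ring
  have := mul_left_cancel₀ (by norm_num : (2 : ℤ) ≠ 0) h'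
  exact_mod_cast this

theorem part4 (k : ℕ) : Nat.card {q : VV (k + 1) → ZMod 2 // IsQ (k + 1) q ∧ IsMinus k q} =
    2 ^ (2 * (k + 1) - 1) - 2 ^ (k + 1 - 1) := by
  rw [card_param (IsMinus k) (fun w => Q0 (k + 1) w = 1) isMinus_iff]
  have h := card_ones (Q0 (k + 1))
  rw [S_Q0, card_VV] at h
  have e1 : 2 * (k + 1) - 1 = 2 * k + 1 := by omega
  have e2 : k + 1 - 1 = k := by omega
  rw [e1, e2]
  have e3 : 2 * (k + 1) = (2 * k + 1) + 1 := by ring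
  rw [e3] at h
  push_cast at h
  have hle : 2 ^ k ≤ 2 ^ (2 * k + 1) := Nat.pow_le_pow_right (by norm_num) (by omega)
  have h' : (2 : ℤ) * (Nat.card {v // Q0 (k + 1) v = 1} : ℤ) = 2 * ((2 ^ (2 * k + 1) - 2 ^ k : ℕ) : ℤ) := by
    rw [h, Nat.cast_sub hle]; push_cast; ring
  have := mul_left_cancel₀ (by norm_num : (2 : ℤ) ≠ 0) h'
  exact_mod_cast this

theorem result (m : ℕ) (hm : 1 ≤ m) :
    Nat.card {q : (Fin m ⊕ Fin m → ZMod 2) → ZMod 2 // (∀ u v : (Fin m ⊕ Fin m → ZMod 2), q (u + v) = q u + q v + (Cfsg.quadFormPlus m (ZMod 2) (u + v) - Cfsg.quadFormPlus m (ZMod 2) u - Cfsg.quadFormPlus m (ZMod 2) v))} = 2 ^ (2 * m) ∧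
    (∀ q : (Fin m ⊕ Fin m → ZMod 2) → ZMod 2, (∀ u v : (Fin m ⊕ Fin m → ZMod 2), q (u + v) = q u + q v + (Cfsg.quadFormPlus m (ZMod 2) (u + v) - Cfsg.quadFormPlus m (ZMod 2) u - Cfsg.quadFormPlus m (ZMod 2) v)) →
      (∃ g : (Fin m ⊕ Fin m → ZMod 2) ≃ₗ[ZMod 2] (Fin m ⊕ Fin m → ZMod 2), ∀ v, q v = Cfsg.quadFormPlus m (ZMod 2) (g v)) ∨
      (∃ g : (Fin m ⊕ Fin m → ZMod 2) ≃ₗ[ZMod 2] ((Fin (m - 1) ⊕ Fin (m - 1)) ⊕ Fin 2 → ZMod 2), ∀ v, q v = Cfsg.quadFormMinus (m - 1) (ZMod 2) 1 1 (g v))) ∧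
    Nat.card {q : (Fin m ⊕ Fin m → ZMod 2) → ZMod 2 // (∀ u v : (Fin m ⊕ Fin m → ZMod 2), q (u + v) = q u + q v + (Cfsg.quadFormPlus m (ZMod 2) (u + v) - Cfsg.quadFormPlus m (ZMod 2) u - Cfsg.quadFormPlus m (ZMod 2) v)) ∧ ∃ g : (Fin m ⊕ Fin m → ZMod 2) ≃ₗ[ZMod 2] (Fin m ⊕ Fin m → ZMod 2), ∀ v, q v = Cfsg.quadFormPlus m (ZMod 2) (g v)} = 2 ^ (2 * m - 1) + 2 ^ (m - 1) ∧
    Nat.card {q : (Fin m ⊕ Fin m → ZMod 2) → ZMod 2 // (∀ u v : (Fin m ⊕ Fin m → ZMod 2), q (u + v) = q u + q v + (Cfsg.quadFormPlus m (ZMod 2) (u + v) - Cfsg.quadFormPlus m (ZMod 2) u - Cfsg.quadFormPlus m (ZMod 2) v)) ∧ ∃ g : (Fin m ⊕ Fin m → ZMod 2) ≃ₗ[ZMod 2] ((Fin (m - 1) ⊕ Fin (m - 1)) ⊕ Fin 2 → ZMod 2), ∀ v, q v = Cfsg.quadFormMinus (m - 1) (ZMod 2) 1 1 (g v)} = 2 ^ (2 * m - 1) - 2 ^ (m - 1) := by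
  obtain ⟨k, rfl⟩ : ∃ k, m = k + 1 := ⟨m - 1, by omega⟩
  exact ⟨part1 (k + 1), part2 k, part3 k, part4 k⟩

end Cfsg.Agent.S2561
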