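import Cfsg.Statements.S2563
import Cfsg.Agent.Lib.Helper48F2Minus
import Cfsg.Agent.Lib.Helper7Exc

set_option autoImplicit false
open Cfsg

namespace Cfsg.Agent.S2563

open Cfsg.Agent.Lib.Helper48F2Sum Cfsg.Agent.Lib.Helper48F2Quad Cfsg.Agent.Lib.Helper48F2Type
  Cfsg.Agent.Lib.Helper48F2Minus

abbrev XX (N : ℕ) := Fin N → ZMod 2

/-- the weight -/
def wt {N : ℕ} (x : XX N) : ℕ := ∑ i, (x i).val

/-- half the weight mod 2 -/
def qq {N : ℕ} (x : XX N) : ZMod 2 := ((wt x / 2 : ℕ) : ZMod 2)

theorem val_add : ∀ a b : ZMod 2, (a + b).val + 2 * (a * b).val = a.val + b.val := by decide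

theorem wt_add {N : ℕ} (x y : XX N) : wt (x + y) + 2 * wt (x * y) = wt x + wt y := by
  unfold wt
  rw [Finset.mul_sum, ← Finset.sum_add_distrib, ← Finset.sum_add_distrib]
  exact Finset.sum_congr rfl (fun i _ => val_add (x i) (y i))

theorem wt_cast {N : ℕ} (x : XX N) : ((wt x : ℕ) : ZMod 2) = ∑ i, x i := by
  unfold wt
  rw [Nat.cast_sum]
  exact Finset.sum_congr rfl (fun i _ => ZMod.natCast_zmod_val (x i))

theorem dot_eq {N : ℕ} (x y : XX N) : x ⬝ᵥ y = ((wt (x * y) : ℕ) : ZMod 2) := by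
  rw [wt_cast]; rfl

theorem even_iff {N : ℕ} (x : XX N) : Even (wt x) ↔ ∑ i, x i = 0 := by
  rw [← wt_cast, ZMod.natCast_eq_zero_iff, even_iff_two_dvd]

theorem even_add {N : ℕ} (x y : XX N) (hx : Even (wt x)) (hy : Even (wt y)) : Even (wt (x + y)) := by
  rw [even_iff] at *
  simp only [Pi.add_apply, Finset.sum_add_distrib, hx, hy, add_zero]

theorem qq_add {N : ℕ} (x y : XX N) (hx : Even (wt x)) (hy : Even (wt y)) :
    qq (x + y) = qq x + qq y + x ⬝ᵥ y := by
  have h := wt_add x y
  obtain ⟨a, ha⟩ := hx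
  obtain ⟨b, hb⟩ := hy
  obtain ⟨c, hc⟩ := even_add x y ⟨a, ha⟩ ⟨b, hb⟩
  rw [dot_eq]
  unfold qq
  have e1 : wt (x + y) / 2 = c := by omega
  have e2 : wt x / 2 = a := by omega
  have e3 : wt y / 2 = b := by omega
  rw [e1, e2, e3]
  have e4 : c + wt (x * y) = a + b := by omega
  have e5 : ((c + wt (x * y) : ℕ) : ZMod 2) = ((a + b : ℕ) : ZMod 2) := by rw [e4]
  push_cast at e5
  have := zmod2_add_self ((wt (x * y) : ℕ) : ZMod 2)
  linear_combination e5 - this

/-- permutation action -/
def PP {N : ℕ} (σ : Equiv.Perm (Fin N)) : XX N →ₗ[ZMod 2] XX N :=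
  LinearMap.funLeft (ZMod 2) (ZMod 2) σ.symm

theorem PP_apply {N : ℕ} (σ : Equiv.Perm (Fin N)) (x : XX N) (i : Fin N) : PP σ x i = x (σ.symm i) := rfl

theorem wt_PP {N : ℕ} (σ : Equiv.Perm (Fin N)) (x : XX N) : wt (PP σ x) = wt x := by
  unfold wt
  exact Equiv.sum_comp σ.symm (fun i => (x i).val)

theorem PP_one' {N : ℕ} (σ : Equiv.Perm (Fin N)) : PP σ (1 : XX N) = 1 := rfl

theorem PP_mul {N : ℕ} (σ τ : Equiv.Perm (Fin N)) (x : XX N) : PP (σ * τ) x = PP σ (PP τ x) := rfl

theorem PP_id {N : ℕ} (x : XX N) : PP (1 : Equiv.Perm (Fin N)) x = x := rfl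

section basis

variable (k : ℕ)

def av (i : Fin (2 * k + 1)) : XX (4 * k + 4) :=
  Pi.single ⟨2 * i.val, by omega⟩ 1 + Pi.single ⟨2 * i.val + 1, by omega⟩ 1

def bv (i : Fin (2 * k + 1)) : XX (4 * k + 4) :=
  fun l => if l.val ≤ 2 * i.val ∨ l.val = 4 * k + 3 then 1 else 0

theorem av_dot (i : Fin (2 * k + 1)) (x : XX (4 * k + 4)) :
    av k i ⬝ᵥ x = x ⟨2 * i.val, by omega⟩ + x ⟨2 * i.val + 1, by omega⟩ := by
  unfold av
  rw [add_dotProduct, single_one_dotProduct, single_one_dotProduct]

theorem av_apply (i : Fin (2 * k + 1)) (l : Fin (4 * k + 4)) :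
    av k i l = if l.val = 2 * i.val ∨ l.val = 2 * i.val + 1 then 1 else 0 := by
  unfold av
  simp only [Pi.add_apply, Pi.single_apply, Fin.ext_iff]
  split_ifs <;> first | omega | simp

theorem av_av (i j : Fin (2 * k + 1)) : av k i ⬝ᵥ av k j = 0 := by
  rw [av_dot, av_apply, av_apply]
  simp only
  split_ifs <;> first | omega | decide

theorem av_bv (i j : Fin (2 * k + 1)) : av k i ⬝ᵥ bv k j = if i = j then 1 else 0 := by
  rw [av_dot]
  unfold bv
  simp only [Fin.ext_iff]
  have := i.2
  have := j.2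
  split_ifs <;> first | omega | decide

theorem wt_bv (i : Fin (2 * k + 1)) : wt (bv k i) = 2 * i.val + 2 := by
  unfold wt bv
  have h1 : ∀ l : Fin (4 * k + 4), ((if l.val ≤ 2 * i.val ∨ l.val = 4 * k + 3 then 1 else 0 : ZMod 2)).val
      = (fun l : ℕ => if l ≤ 2 * i.val ∨ l = 4 * k + 3 then 1 else 0) l.val := by
    intro l
    simp only
    split_ifs <;> rfl
  rw [Finset.sum_congr rfl (fun l _ => h1 l), Fin.sum_univ_eq_sum_range
    (fun l : ℕ => if l ≤ 2 * i.val ∨ l = 4 * k + 3 then 1 else 0), Finset.sum_boole]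
  have h2 : (Finset.range (4 * k + 4)).filter (fun l => l ≤ 2 * i.val ∨ l = 4 * k + 3)
      = insert (4 * k + 3) (Finset.range (2 * i.val + 1)) := by
    ext l
    have := i.2
    simp only [Finset.mem_filter, Finset.mem_range, Finset.mem_insert]
    omega
  rw [h2, Finset.card_insert_of_notMem, Finset.card_range]
  · rfl
  · have := i.2
    simp only [Finset.mem_range]
    omega

theorem wt_av (i : Fin (2 * k + 1)) : wt (av k i) = 2 := by
  unfold wt
  have h1 : ∀ l : Fin (4 * k + 4), (av k i l).val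
      = (fun l : ℕ => if l = 2 * i.val ∨ l = 2 * i.val + 1 then 1 else 0) l.val := by
    intro l
    rw [av_apply]
    simp only
    split_ifs <;> rfl
  rw [Finset.sum_congr rfl (fun l _ => h1 l), Fin.sum_univ_eq_sum_range
    (fun l : ℕ => if l = 2 * i.val ∨ l = 2 * i.val + 1 then 1 else 0), Finset.sum_boole]
  have h2 : (Finset.range (4 * k + 4)).filter (fun l => l = 2 * i.val ∨ l = 2 * i.val + 1)
      = {2 * i.val, 2 * i.val + 1} := by
    ext l
    have := i.2
    simp only [Finset.mem_filter, Finset.mem_range, Finset.mem_insert, Finset.mem_singleton]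
    omega
  rw [h2, Finset.card_pair (by omega)]
  rfl

theorem bv_bv (i j : Fin (2 * k + 1)) : bv k i ⬝ᵥ bv k j = 0 := by
  rw [dot_eq]
  have h : bv k i * bv k j = bv k (min i j) := by
    funext l
    unfold bv
    simp only [Pi.mul_apply]
    have : (min i j).val = min i.val j.val := Fin.coe_min i j
    rw [this]
    split_ifs <;> first | omega | decide
  rw [h, wt_bv]
  have : 2 * (min i j).val + 2 = 2 * ((min i j).val + 1) := by ring
  rw [this, Nat.cast_mul]
  have h2 : ((2 : ℕ) : ZMod 2) = 0 := rfl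
  rw [h2, zero_mul]

theorem sum_av (i : Fin (2 * k + 1)) : ∑ l, av k i l = 0 := by
  rw [← even_iff, wt_av]; decide

theorem sum_bv (i : Fin (2 * k + 1)) : ∑ l, bv k i l = 0 := by
  rw [← even_iff, wt_bv]; exact ⟨i.val + 1, by ring⟩

def TT : VV (2 * k + 1) →ₗ[ZMod 2] XX (4 * k + 4) where
  toFun v := ∑ i, (v (.inl i) • av k i + v (.inr i) • bv k i)
  map_add' u v := by
    rw [← Finset.sum_add_distrib]
    apply Finset.sum_congr rfl
    intro i _
    simp only [Pi.add_apply, add_smul]
    abel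
  map_smul' c v := by
    rw [RingHom.id_apply, Finset.smul_sum]
    apply Finset.sum_congr rfl
    intro i _
    simp only [Pi.smul_apply, smul_eq_mul, mul_smul, smul_add]

theorem TT_apply (v : VV (2 * k + 1)) : TT k v = ∑ i, (v (.inl i) • av k i + v (.inr i) • bv k i) := rfl

def CC : XX (4 * k + 4) →ₗ[ZMod 2] VV (2 * k + 1) where
  toFun x := Sum.elim (fun i => x ⬝ᵥ bv k i) (fun i => x ⬝ᵥ av k i)
  map_add' u v := by
    funext j
    rcases j with j | j <;> simp [add_dotProduct]
  map_smul' c v := by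
    funext j
    rcases j with j | j <;> simp [smul_dotProduct]

theorem CC_inl (x : XX (4 * k + 4)) (i : Fin (2 * k + 1)) : CC k x (.inl i) = x ⬝ᵥ bv k i := rfl
theorem CC_inr (x : XX (4 * k + 4)) (i : Fin (2 * k + 1)) : CC k x (.inr i) = x ⬝ᵥ av k i := rfl

theorem CC_TT (v : VV (2 * k + 1)) : CC k (TT k v) = v := by
  funext j
  rcases j with j | j
  · rw [CC_inl, TT_apply, sum_dotProduct, Finset.sum_eq_single j]
    · rw [add_dotProduct, smul_dotProduct, smul_dotProduct, av_bv, bv_bv]; simp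
    · intro i _ hi
      rw [add_dotProduct, smul_dotProduct, smul_dotProduct, av_bv, bv_bv, if_neg hi]; simp
    · intro h; exact absurd (Finset.mem_univ j) h
  · rw [CC_inr, TT_apply, sum_dotProduct, Finset.sum_eq_single j]
    · rw [add_dotProduct, smul_dotProduct, smul_dotProduct, av_av, dotProduct_comm (bv k j), av_bv]; simp
    · intro i _ hi
      rw [add_dotProduct, smul_dotProduct, smul_dotProduct, av_av, dotProduct_comm (bv k i), av_bv,
        if_neg (Ne.symm hi)]; simp
    · intro h; exact absurd (Finset.mem_univ j) h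

theorem dot_TT (u v : VV (2 * k + 1)) : TT k u ⬝ᵥ TT k v = pol (2 * k + 1) u v := by
  rw [pol_eq, TT_apply k u, sum_dotProduct]
  apply Finset.sum_congr rfl
  intro i _
  rw [add_dotProduct, smul_dotProduct, smul_dotProduct, dotProduct_comm (av k i), ← CC_inr,
    dotProduct_comm (bv k i), ← CC_inl, CC_TT]
  rfl

theorem even_TT (v : VV (2 * k + 1)) : Even (wt (TT k v)) := by
  rw [even_iff, TT_apply]
  simp only [Finset.sum_apply, Pi.add_apply, Pi.smul_apply, smul_eq_mul]
  rw [Finset.sum_comm]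
  apply Finset.sum_eq_zero
  intro i _
  rw [Finset.sum_add_distrib, ← Finset.mul_sum, ← Finset.mul_sum, sum_av, sum_bv]
  simp

theorem CC_one : CC k 1 = 0 := by
  funext j
  rcases j with j | j
  · rw [CC_inl, one_dotProduct, sum_bv]; rfl
  · rw [CC_inr, one_dotProduct, sum_av]; rfl

theorem zmod2_eq : ∀ a b : ZMod 2, a + b = 0 → a = b := by decide

theorem bv_succ (i : ℕ) (hi : i + 1 < 2 * k + 1) :
    bv k ⟨i + 1, hi⟩ + bv k ⟨i, by omega⟩
      = Pi.single ⟨2 * i + 1, by omega⟩ 1 + Pi.single ⟨2 * i + 2, by omega⟩ 1 := by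
  funext l
  unfold bv
  simp only [Pi.add_apply, Pi.single_apply, Fin.ext_iff]
  split_ifs <;> first | omega | decide

theorem bv_zero : bv k ⟨0, by omega⟩ = Pi.single ⟨0, by omega⟩ 1 + Pi.single ⟨4 * k + 3, by omega⟩ 1 := by
  funext l
  unfold bv
  simp only [Pi.add_apply, Pi.single_apply, Fin.ext_iff]
  split_ifs <;> first | omega | decide

theorem ker_CC (y : XX (4 * k + 4)) (hy : ∑ l, y l = 0) (hC : CC k y = 0) : y = 0 ∨ y = 1 := by
  have ha : ∀ i : Fin (2 * k + 1), y ⟨2 * i.val, by omega⟩ = y ⟨2 * i.val + 1, by omega⟩ := by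
    intro i
    apply zmod2_eq
    rw [← av_dot, dotProduct_comm, ← CC_inr, hC]; rfl
  have hb : ∀ i : Fin (2 * k + 1), y ⬝ᵥ bv k i = 0 := by
    intro i
    rw [← CC_inl, hC]; rfl
  have hb0 : y ⟨0, by omega⟩ = y ⟨4 * k + 3, by omega⟩ := by
    apply zmod2_eq
    have := hb ⟨0, by omega⟩
    rw [bv_zero, dotProduct_add, dotProduct_single_one, dotProduct_single_one] at this
    exact this
  have hbs : ∀ (i : ℕ) (hi : i + 1 < 2 * k + 1), y ⟨2 * i + 1, by omega⟩ = y ⟨2 * i + 2, by omega⟩ := by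
    intro i hi
    apply zmod2_eq
    have h1 := hb ⟨i + 1, hi⟩
    have h2 := hb ⟨i, by omega⟩
    have h3 : y ⬝ᵥ (bv k ⟨i + 1, hi⟩ + bv k ⟨i, by omega⟩) = 0 := by
      rw [dotProduct_add, h1, h2, add_zero]
    rw [bv_succ, dotProduct_add, dotProduct_single_one, dotProduct_single_one] at h3
    exact h3
  have hall : ∀ (n : ℕ) (hn : n ≤ 4 * k + 1), y ⟨n, by omega⟩ = y ⟨0, by omega⟩ := by
    intro n
    induction n with
    | zero => intro _; rfl
    | succ n ih =>
      intro hn
      rw [← ih (by omega)]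
      rcases Nat.even_or_odd' n with ⟨i, hi | hi⟩
      · subst hi
        exact (ha ⟨i, by omega⟩).symm
      · subst hi
        exact (hbs i (by omega)).symm
  set c := y ⟨0, by omega⟩ with hc
  have hne : ∀ l : Fin (4 * k + 4), l ≠ ⟨4 * k + 2, by omega⟩ → y l = c := by
    intro l hl
    have hl' : l.val ≠ 4 * k + 2 := fun h => hl (Fin.ext h)
    by_cases h1 : l.val ≤ 4 * k + 1
    · exact hall l.val h1
    · have h2 : l = ⟨4 * k + 3, by omega⟩ := Fin.ext (by have := l.2; simp only; omega)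
      rw [h2, ← hb0]
  have hlast : y ⟨4 * k + 2, by omega⟩ = c := by
    rw [← Finset.add_sum_erase Finset.univ y (Finset.mem_univ (⟨4 * k + 2, by omega⟩ : Fin (4 * k + 4))),
      Finset.sum_congr rfl (fun l hl => hne l (Finset.ne_of_mem_erase hl)), Finset.sum_const,
      Finset.card_erase_of_mem (Finset.mem_univ _), Finset.card_univ, Fintype.card_fin,
      nsmul_eq_mul] at hy
    have h3 : ((4 * k + 4 - 1 : ℕ) : ZMod 2) = 1 := by
      have : 4 * k + 4 - 1 = 2 * (2 * k + 1) + 1 := by omega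
      rw [this]
      push_cast
      have h2 : (2 : ZMod 2) = 0 := rfl
      rw [h2, zero_mul, zero_add]
    rw [h3, one_mul] at hy
    exact zmod2_eq _ _ hy
  have hconst : ∀ l, y l = c := by
    intro l
    by_cases h : l = ⟨4 * k + 2, by omega⟩
    · rw [h, hlast]
    · exact hne l h
  rcases zmod2_cases c with h | h
  · left; funext l; rw [hconst, h]; rfl
  · right; funext l; rw [hconst, h]; rfl

theorem TT_CC (x : XX (4 * k + 4)) (hx : Even (wt x)) : TT k (CC k x) = x ∨ TT k (CC k x) = x + 1 := by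
  have h1 : ∑ l, (TT k (CC k x) + x) l = 0 := by
    rw [← even_iff]
    exact even_add _ _ (even_TT k _) hx
  have h2 : CC k (TT k (CC k x) + x) = 0 := by
    rw [map_add, CC_TT]
    funext j
    exact zmod2_add_self _
  have hxx : x + x = 0 := by
    funext j
    exact zmod2_add_self _
  rcases ker_CC k _ h1 h2 with h | h
  · left
    calc TT k (CC k x) = (TT k (CC k x) + x) + x := by rw [add_assoc, hxx, add_zero]
      _ = x := by rw [h, zero_add]
  · right
    calc TT k (CC k x) = (TT k (CC k x) + x) + x := by rw [add_assoc, hxx, add_zero]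
      _ = x + 1 := by rw [h]; exact add_comm _ _

theorem wt_one : wt (1 : XX (4 * k + 4)) = 4 * k + 4 := by
  unfold wt
  have : ∀ i : Fin (4 * k + 4), ((1 : XX (4 * k + 4)) i).val = 1 := fun _ => rfl
  rw [Finset.sum_congr rfl (fun i _ => this i)]
  simp

theorem qq_add_one (x : XX (4 * k + 4)) (hx : Even (wt x)) : qq (x + 1) = qq x := by
  rw [qq_add x 1 hx (by rw [wt_one]; exact ⟨2 * k + 2, by ring⟩), dotProduct_one, (even_iff x).1 hx,
    add_zero]
  have : qq (1 : XX (4 * k + 4)) = 0 := by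
    unfold qq
    rw [wt_one]
    have : (4 * k + 4) / 2 = 2 * (k + 1) := by omega
    rw [this, Nat.cast_mul]
    have h2 : ((2 : ℕ) : ZMod 2) = 0 := rfl
    rw [h2, zero_mul]
  rw [this, add_zero]

theorem CC_PP (σ : Equiv.Perm (Fin (4 * k + 4))) (x : XX (4 * k + 4)) (hx : Even (wt x)) :
    CC k (PP σ (TT k (CC k x))) = CC k (PP σ x) := by
  rcases TT_CC k x hx with h | h
  · rw [h]
  · rw [h, map_add, map_add, PP_one', CC_one, add_zero]

def rho : Equiv.Perm (Fin (4 * k + 4)) →* Module.End (ZMod 2) (VV (2 * k + 1)) where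
  toFun σ := CC k ∘ₗ PP σ ∘ₗ TT k
  map_one' := by
    apply LinearMap.ext
    intro v
    show CC k (PP 1 (TT k v)) = v
    rw [PP_id, CC_TT]
  map_mul' σ τ := by
    apply LinearMap.ext
    intro v
    show CC k (PP (σ * τ) (TT k v)) = CC k (PP σ (TT k (CC k (PP τ (TT k v)))))
    rw [CC_PP k σ _ (by rw [wt_PP]; exact even_TT k v), PP_mul]

theorem rho_apply (σ : Equiv.Perm (Fin (4 * k + 4))) (v : VV (2 * k + 1)) :
    rho k σ v = CC k (PP σ (TT k v)) := rfl

theorem qq_rho (σ : Equiv.Perm (Fin (4 * k + 4))) (v : VV (2 * k + 1)) :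
    qq (TT k (rho k σ v)) = qq (TT k v) := by
  have he : Even (wt (PP σ (TT k v))) := by rw [wt_PP]; exact even_TT k v
  have h1 : qq (PP σ (TT k v)) = qq (TT k v) := by
    unfold qq
    rw [wt_PP]
  rw [rho_apply]
  rcases TT_CC k _ he with h | h
  · rw [h, h1]
  · rw [h, qq_add_one k _ he, h1]

theorem exists_notMem {N : ℕ} (s : Finset (Fin N)) (h : s.card < N) : ∃ l, l ∉ s := by
  by_contra hc
  push Not at hc
  have : s = Finset.univ := Finset.eq_univ_iff_forall.2 hc
  rw [this, Finset.card_univ, Fintype.card_fin] at h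
  omega

theorem rho_inj (hk : 1 ≤ k) : Function.Injective (rho k) := by
  rw [injective_iff_map_eq_one]
  intro σ hσ
  have key : ∀ x : XX (4 * k + 4), Even (wt x) → PP σ x + x = 0 ∨ PP σ x + x = 1 := by
    intro x hx
    have he : Even (wt (PP σ x)) := by rw [wt_PP]; exact hx
    apply ker_CC k
    · rw [← even_iff]
      exact even_add _ _ he hx
    · have h1 : rho k σ (CC k x) = CC k x := by rw [hσ]; rfl
      rw [rho_apply, CC_PP k σ x hx] at h1
      rw [map_add, h1]
      funext j
      exact zmod2_add_self _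
  have key2 : ∀ i j : Fin (4 * k + 4), i ≠ j → σ i = i ∨ σ i = j := by
    intro i j hij
    set x : XX (4 * k + 4) := Pi.single i 1 + Pi.single j 1 with hx
    have hxe : Even (wt x) := by
      rw [even_iff, hx]
      simp only [Pi.add_apply, Finset.sum_add_distrib, Finset.sum_pi_single', Finset.mem_univ, if_true]
      decide
    obtain ⟨l, hl⟩ := exists_notMem ({i, j, σ i, σ j} : Finset (Fin (4 * k + 4)))
      (lt_of_le_of_lt Finset.card_le_four (by omega))
    simp only [Finset.mem_insert, Finset.mem_singleton, not_or] at hl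
    have hxl : x l = 0 := by
      rw [hx]
      simp [hl.1, hl.2.1]
    have hxl' : x (σ.symm l) = 0 := by
      have h1 : σ.symm l ≠ i := fun h => hl.2.2.1 (by rw [← h, Equiv.apply_symm_apply])
      have h2 : σ.symm l ≠ j := fun h => hl.2.2.2 (by rw [← h, Equiv.apply_symm_apply])
      rw [hx]
      simp [h1, h2]
    have h0 : PP σ x + x = 0 := by
      rcases key x hxe with h | h
      · exact h
      · exfalso
        have := congrFun h l
        rw [Pi.add_apply, PP_apply, hxl, hxl', Pi.one_apply] at this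
        exact absurd this (by decide)
    have h1 := congrFun h0 (σ i)
    rw [Pi.add_apply, PP_apply, Equiv.symm_apply_apply, Pi.zero_apply] at h1
    have hxi : x i = 1 := by
      rw [hx]
      simp [hij]
    rw [hxi] at h1
    by_contra hcon
    push Not at hcon
    have : x (σ i) = 0 := by
      rw [hx]
      simp [hcon.1, hcon.2]
    rw [this] at h1
    exact absurd h1 (by decide)
  ext i
  obtain ⟨j, hj⟩ := exists_notMem ({i, σ i} : Finset (Fin (4 * k + 4)))
    (lt_of_le_of_lt Finset.card_le_two (by omega))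
  simp only [Finset.mem_insert, Finset.mem_singleton, not_or] at hj
  rcases key2 i j (Ne.symm hj.1) with h | h
  · rw [h]; rfl
  · exact absurd h.symm hj.2

theorem isQ_TT : IsQ (2 * k + 1) (fun v => qq (TT k v)) := by
  intro u v
  simp only
  rw [map_add, qq_add _ _ (even_TT k u) (even_TT k v), dot_TT]

theorem TT_inl (i : Fin (2 * k + 1)) : TT k (Pi.single (.inl i) 1) = av k i := by
  rw [TT_apply, Finset.sum_eq_single i]
  · simp
  · intro j _ hj
    simp [hj]
  · intro h; exact absurd (Finset.mem_univ i) h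

theorem TT_inr (i : Fin (2 * k + 1)) : TT k (Pi.single (.inr i) 1) = bv k i := by
  rw [TT_apply, Finset.sum_eq_single i]
  · simp
  · intro j _ hj
    simp [hj]
  · intro h; exact absurd (Finset.mem_univ i) h

theorem Q0_single (m : ℕ) (j : Fin m ⊕ Fin m) : Q0 m (Pi.single j 1) = 0 := by
  unfold Q0 Cfsg.quadFormPlus
  apply Finset.sum_eq_zero
  intro i _
  rcases j with j | j <;> simp

theorem sum_parity (k : ℕ) : ∑ i ∈ Finset.range (2 * k + 1), ((i + 1 : ℕ) : ZMod 2) = ((k + 1 : ℕ) : ZMod 2) := by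
  induction k with
  | zero => simp
  | succ k ih =>
    have : 2 * (k + 1) + 1 = (2 * k + 1) + 1 + 1 := by ring
    rw [this, Finset.sum_range_succ, Finset.sum_range_succ, ih]
    push_cast
    have h2 : (2 : ZMod 2) = 0 := rfl
    linear_combination (2 * (k : ZMod 2) + 2) * h2

theorem arf (w : VV (2 * k + 1)) (hw : (fun v => qq (TT k v)) = qw w) :
    Q0 (2 * k + 1) w = ((k + 1 : ℕ) : ZMod 2) := by
  have h1 : ∀ i, w (.inr i) = 1 := by
    intro i
    have := congrFun hw (Pi.single (.inl i) 1)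
    change qq (TT k _) = _ at this
    rw [TT_inl] at this
    unfold qw at this
    rw [Q0_single, pol_single_inl, zero_add] at this
    rw [← this]
    unfold qq
    rw [wt_av]
    rfl
  have h2 : ∀ i, w (.inl i) = ((i.val + 1 : ℕ) : ZMod 2) := by
    intro i
    have := congrFun hw (Pi.single (.inr i) 1)
    change qq (TT k _) = _ at this
    rw [TT_inr] at this
    unfold qw at this
    rw [Q0_single, pol_single_inr, zero_add] at this
    rw [← this]
    unfold qq
    rw [wt_bv]
    congr 1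
    omega
  unfold Q0 Cfsg.quadFormPlus
  rw [← sum_parity, ← Fin.sum_univ_eq_sum_range (fun i => ((i + 1 : ℕ) : ZMod 2))]
  apply Finset.sum_congr rfl
  intro i _
  rw [h1, h2, mul_one]

def cj {V W : Type*} [AddCommGroup V] [Module (ZMod 2) V] [AddCommGroup W] [Module (ZMod 2) W]
    (g : V ≃ₗ[ZMod 2] W) : Module.End (ZMod 2) V →* Module.End (ZMod 2) W where
  toFun f := g.toLinearMap ∘ₗ f ∘ₗ g.symm.toLinearMap
  map_one' := by
    apply LinearMap.ext
    intro v
    simp
  map_mul' a b := by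
    apply LinearMap.ext
    intro v
    simp

theorem final (hk : 1 ≤ k) {ι : Type} [Fintype ι] [DecidableEq ι] (Q : (ι → ZMod 2) → ZMod 2)
    (g : VV (2 * k + 1) ≃ₗ[ZMod 2] (ι → ZMod 2)) (hg : ∀ v, qq (TT k v) = Q (g v)) :
    ∃ φ : Equiv.Perm (Fin (4 * k + 4)) →* ↥(Cfsg.isometryGroup (ZMod 2) Q), Function.Injective φ := by
  refine ⟨Cfsg.Agent.Lib.Helper7Exc.toIso Q ((cj g).comp (rho k)) ?_, ?_⟩
  · intro σ v
    show Q (g (rho k σ (g.symm v))) = Q v
    rw [← hg, qq_rho, hg, LinearEquiv.apply_symm_apply]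
  · intro σ τ h
    rw [Cfsg.Agent.Lib.Helper7Exc.toIso_eq_iff] at h
    apply rho_inj k hk
    apply LinearMap.ext
    intro v
    have := LinearMap.congr_fun h (g v)
    have h2 : g (rho k σ (g.symm (g v))) = g (rho k τ (g.symm (g v))) := this
    rw [LinearEquiv.symm_apply_apply] at h2
    exact g.injective h2

end basis

/-- For k ≥ 1 the symmetric group of degree 4k + 4 embeds in a full orthogonal group in dimension 4k + 2 over the field of two elements: in the isometry group of the plus-type form Σ xᵢyᵢ when k is odd, and in that of the minus-type form Σ xᵢyᵢ + (z₁² + z₁z₂ + z₂²) when k is even (through its action on even partitions of a (4k+4)-set, with the form 'half the size of a part, modulo 2'). -/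
theorem result (k : ℕ) (hk : 1 ≤ k) :
    (Odd k → ∃ φ : Equiv.Perm (Fin (4 * k + 4)) →* ↥(Cfsg.isometryGroup (ZMod 2) (Cfsg.quadFormPlus (2 * k + 1) (ZMod 2))), Function.Injective φ) ∧
    (Even k → ∃ φ : Equiv.Perm (Fin (4 * k + 4)) →* ↥(Cfsg.isometryGroup (ZMod 2) (Cfsg.quadFormMinus (2 * k) (ZMod 2) 1 1)), Function.Injective φ) := by
  obtain ⟨w, hw⟩ := exists_qw _ (isQ_TT k)
  have ha := arf k w hw
  constructor
  · intro hodd
    have h0 : Q0 (2 * k + 1) w = 0 := by
      rw [ha, ZMod.natCast_eq_zero_iff]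
      exact even_iff_two_dvd.1 hodd.add_one
    obtain ⟨g, hg⟩ := (isPlus_iff w).2 h0
    exact final k hk _ g (fun v => (congrFun hw v).trans (hg v))
  · intro heven
    have h1 : Q0 (2 * k + 1) w = 1 := by
      rw [ha]
      obtain ⟨c, hc⟩ := heven
      have : k + 1 = 2 * c + 1 := by omega
      rw [this]
      push_cast
      have h2 : (2 : ZMod 2) = 0 := rfl
      rw [h2, zero_mul, zero_add]
    obtain ⟨g, hg⟩ := (isMinus_iff w).2 h1
    exact final k hk _ g (fun v => (congrFun hw v).trans (hg v))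

end Cfsg.Agent.S2563
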