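import Cfsg.Statements.S2564
import Cfsg.Agent.Lib.Helper48F2Quad

set_option autoImplicit false
open Cfsg

namespace Cfsg.Agent.S2564

open Cfsg.Agent.Lib.Helper48F2Sum Cfsg.Agent.Lib.Helper48F2Quad

theorem equiv_iff {m : ℕ} (q : VV m → ZMod 2) (hq : IsQ m q) (w : VV m) :
    (∃ g : VV m ≃ₗ[ZMod 2] VV m, ∀ v, q v + pol m v w = q (g v)) ↔ q w = 0 := by
  constructor
  · rintro ⟨g, hg⟩
    have h1 : S (fun v => q v + pol m v w) = S q := by
      have : (fun v => q v + pol m v w) = fun v => q (g v) := funext hg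
      rw [this]
      exact S_comp_equiv q g.toEquiv
    rw [hq.S_shift] at h1
    have h2 := hq.S_sq
    have h3 : S q ≠ 0 := by
      intro h0
      rw [h0] at h2
      have : (0 : ℤ) ^ 2 = 0 := by norm_num
      rw [this] at h2
      exact (pow_ne_zero _ (by norm_num : (2 : ℤ) ≠ 0)) h2.symm
    have h4 : chi (q w) = 1 := by
      have : (chi (q w) - 1) * S q = 0 := by rw [sub_mul, h1]; ring
      rcases mul_eq_zero.mp this with h | h
      · omega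
      · exact absurd h h3
    exact (chi_eq_one_iff _).mp h4
  · intro hw
    exact ⟨transv w, hq.transv w hw⟩

theorem result (m : ℕ) (hm : 1 ≤ m) (q : (Fin m ⊕ Fin m → ZMod 2) → ZMod 2) (hq : (∀ u v : (Fin m ⊕ Fin m → ZMod 2), q (u + v) = q u + q v + (Cfsg.quadFormPlus m (ZMod 2) (u + v) - Cfsg.quadFormPlus m (ZMod 2) u - Cfsg.quadFormPlus m (ZMod 2) v))) (w : (Fin m ⊕ Fin m → ZMod 2)) :
    (∀ u v : (Fin m ⊕ Fin m → ZMod 2), (q (u + v) + (Cfsg.quadFormPlus m (ZMod 2) (u + v + w) - Cfsg.quadFormPlus m (ZMod 2) (u + v) - Cfsg.quadFormPlus m (ZMod 2) w)) =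
        (q u + (Cfsg.quadFormPlus m (ZMod 2) (u + w) - Cfsg.quadFormPlus m (ZMod 2) u - Cfsg.quadFormPlus m (ZMod 2) w)) + (q v + (Cfsg.quadFormPlus m (ZMod 2) (v + w) - Cfsg.quadFormPlus m (ZMod 2) v - Cfsg.quadFormPlus m (ZMod 2) w)) +
        (Cfsg.quadFormPlus m (ZMod 2) (u + v) - Cfsg.quadFormPlus m (ZMod 2) u - Cfsg.quadFormPlus m (ZMod 2) v)) ∧
    ((∃ g : (Fin m ⊕ Fin m → ZMod 2) ≃ₗ[ZMod 2] (Fin m ⊕ Fin m → ZMod 2), ∀ v, q v + (Cfsg.quadFormPlus m (ZMod 2) (v + w) - Cfsg.quadFormPlus m (ZMod 2) v - Cfsg.quadFormPlus m (ZMod 2) w) = q (g v)) ↔ q w = 0) := by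
  have hq' : IsQ m q := hq
  exact ⟨hq'.shift w, equiv_iff q hq' w⟩

end Cfsg.Agent.S2564
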