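import Cfsg.Statements.S2567

set_option autoImplicit false
open Cfsg

namespace Cfsg.Agent.S2567

theorem center_pow {F : Type*} [Field F] [Fintype F] {n : ℕ}
    (z : GL (Fin n) F) (hz : z ∈ Subgroup.center (GL (Fin n) F)) :
    z ^ (Fintype.card F - 1) = 1 := by
  rw [Matrix.GeneralLinearGroup.center_eq_range_scalar] at hz
  obtain ⟨a, rfl⟩ := hz
  rw [← map_pow]
  have : a ^ (Fintype.card F - 1) = 1 := by
    classical
    rw [← Fintype.card_units]
    exact pow_card_eq_one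
  rw [this, map_one]

theorem lift_unique {G : Type*} [Group G] (k r : ℕ) (hr : r.Prime) (hk : ¬ r ∣ k)
    (hZ : ∀ z ∈ Subgroup.center G, z ^ k = 1)
    (x : G ⧸ Subgroup.center G) (hx : orderOf x = r) :
    ∃! g : G, (QuotientGroup.mk g : G ⧸ Subgroup.center G) = x ∧ orderOf g = r := by
  have hcop : Nat.Coprime r k := (Nat.Prime.coprime_iff_not_dvd hr).mpr hk
  haveI : Fact r.Prime := ⟨hr⟩
  obtain ⟨g0, rfl⟩ := QuotientGroup.mk_surjective x
  have hg0r : g0 ^ r ∈ Subgroup.center G := by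
    rw [← QuotientGroup.eq_one_iff, QuotientGroup.mk_pow, ← hx, pow_orderOf_eq_one]
  have hne : (QuotientGroup.mk g0 : G ⧸ Subgroup.center G) ≠ 1 := by
    intro h
    rw [h, orderOf_one] at hx
    exact hr.one_lt.ne hx
  -- Bezout: a * r ≡ 1 mod k
  obtain ⟨a, ha⟩ : ∃ a : ℕ, (r * a) % k = 1 % k := by
    by_cases hk1 : k = 1
    · exact ⟨0, by simp [hk1, Nat.mod_one]⟩
    by_cases hk0 : k = 0
    · subst hk0; simp at hk
    · obtain ⟨m, -, hm⟩ := Nat.exists_mul_mod_eq_one_of_coprime hcop (by omega)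
      exact ⟨m, by rw [hm, Nat.mod_eq_of_lt (by omega)]⟩
  have hpow : ∀ z ∈ Subgroup.center G, z ^ (r * a) = z := by
    intro z hz
    have h1 : z ^ (r * a) = z ^ ((r * a) % k) := by
      conv_lhs => rw [← Nat.div_add_mod (r * a) k, pow_add, pow_mul, hZ z hz, one_pow, one_mul]
    have h2 : z ^ 1 = z ^ (1 % k) := by
      conv_lhs => rw [← Nat.div_add_mod 1 k, pow_add, pow_mul, hZ z hz, one_pow, one_mul]
    rw [h1, ha, ← h2, pow_one]
  set w : G := (g0 ^ r) ^ a with hw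
  have hwc : w ∈ Subgroup.center G := Subgroup.pow_mem _ hg0r a
  have hwr : w ^ r = g0 ^ r := by
    rw [hw, ← pow_mul, mul_comm a r, pow_mul, ← pow_mul, hpow _ hg0r]
  have hcomm : Commute g0 w⁻¹ :=
    ((Subgroup.mem_center_iff.mp (Subgroup.inv_mem _ hwc)) g0)
  refine ⟨g0 * w⁻¹, ⟨?_, ?_⟩, ?_⟩
  · rw [QuotientGroup.eq]
    simpa using hwc
  · apply orderOf_eq_prime
    · rw [hcomm.mul_pow, inv_pow, hwr, mul_inv_cancel]
    · intro h
      apply hne
      rw [QuotientGroup.eq_one_iff]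
      have : g0 = w := by
        rw [mul_inv_eq_one] at h; exact h
      rw [this]; exact hwc
  · rintro g ⟨hg1, hg2⟩
    -- g = g0 * w⁻¹ * z
    have hz : (g0 * w⁻¹)⁻¹ * g ∈ Subgroup.center G := by
      rw [← QuotientGroup.eq]
      rw [hg1, QuotientGroup.eq]
      simpa using hwc
    set z := (g0 * w⁻¹)⁻¹ * g with hzdef
    have hgz : g = (g0 * w⁻¹) * z := by rw [hzdef]; group
    have hcz : Commute (g0 * w⁻¹) z := (Subgroup.mem_center_iff.mp hz) _
    have h1 : (g0 * w⁻¹) ^ r = 1 := by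
      rw [hcomm.mul_pow, inv_pow, hwr, mul_inv_cancel]
    have h2 : g ^ r = 1 := by rw [← hg2, pow_orderOf_eq_one]
    have h3 : z ^ r = 1 := by
      rw [hgz, hcz.mul_pow, h1, one_mul] at h2; exact h2
    have h4 : z = 1 := by
      rw [← hpow z hz, pow_mul, h3, one_pow]
    rw [hgz, h4, mul_one]

theorem result {F : Type*} [Field F] [Fintype F] {q n r : ℕ} (hF : Fintype.card F = q) (hr : r.Prime) (hdiv : ¬ r ∣ q - 1) (x : GL (Fin n) F ⧸ Subgroup.center (GL (Fin n) F)) (hx : orderOf x = r) : ∃! g : GL (Fin n) F, (QuotientGroup.mk g : GL (Fin n) F ⧸ Subgroup.center (GL (Fin n) F)) = x ∧ orderOf g = r := by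
  subst hF
  exact lift_unique (Fintype.card F - 1) r hr hdiv (fun z hz => center_pow z hz) x hx

end Cfsg.Agent.S2567
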