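import Cfsg.Statements.S2569

set_option autoImplicit false
open Cfsg
open Polynomial Module

namespace Cfsg.Agent.S2569

open DirectSum in
/-- a semisimple finite order endomorphism has a field summand -/
theorem exists_split {K V : Type*} [Field K] [AddCommGroup V] [Module K V] [FiniteDimensional K V]
    [Nontrivial V] (T : End K V) (k : ℕ) (hk : (k : K) ≠ 0) (hT : T ^ k = 1) :
    ∃ (π : K[X]) (_ : Irreducible π) (A : Submodule K[X] (AEval' T)),
      Nonempty ((A × (K[X] ⧸ Ideal.span {π})) ≃ₗ[K[X]] AEval' T) := by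
  classical
  have htors : Module.IsTorsion K[X] (Module.AEval' T) :=
    Module.AEval.isTorsion_of_finiteDimensional K V T
  obtain ⟨ι, _, p, hp, e, ⟨φ⟩⟩ := Module.equiv_directSum_of_isTorsion htors
  -- some exponent is nonzero
  obtain ⟨i, hi⟩ : ∃ i, e i ≠ 0 := by
    by_contra hall
    push Not at hall
    obtain ⟨v, hv⟩ := exists_ne (0 : V)
    apply hv
    have h0 : φ (AEval.of K V T v) = 0 := by
      ext j
      have hsub : Subsingleton (K[X] ⧸ K[X] ∙ (p j ^ e j)) := by
        rw [hall j, pow_zero]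
        rw [Submodule.Quotient.subsingleton_iff]
        exact Ideal.span_singleton_one
      exact Subsingleton.elim _ _
    simpa using h0
  have hann : ∀ x : AEval' T, (X ^ k - 1 : K[X]) • x = 0 := by
    intro x
    obtain ⟨v, rfl⟩ := (AEval.of K V T).surjective x
    rw [← AEval.of_aeval_smul]
    simp [hT]
  have hdvd : p i ^ e i ∣ X ^ k - 1 := by
    have h1 := hann (φ.symm (DirectSum.lof K[X] ι (fun i => K[X] ⧸ K[X] ∙ (p i ^ e i)) i (Submodule.Quotient.mk 1)))
    have h2 := congrArg φ h1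
    rw [map_smul, LinearEquiv.apply_symm_apply, map_zero, ← map_smul] at h2
    have h3 : (X ^ k - 1 : K[X]) • (Submodule.Quotient.mk 1 : K[X] ⧸ K[X] ∙ (p i ^ e i)) = 0 := by
      apply DirectSum.of_injective (β := fun i => K[X] ⧸ K[X] ∙ (p i ^ e i)) i
      rw [map_zero]
      exact h2
    have h4 : (Submodule.Quotient.mk (X ^ k - 1 : K[X]) : K[X] ⧸ K[X] ∙ (p i ^ e i)) = 0 := by
      rw [← h3, ← Submodule.Quotient.mk_smul, smul_eq_mul, mul_one]
    rw [Submodule.Quotient.mk_eq_zero, Submodule.mem_span_singleton] at h4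
    obtain ⟨a, ha⟩ := h4
    exact ⟨a, by rw [← ha, smul_eq_mul, mul_comm]⟩
  have hsq : Squarefree (X ^ k - 1 : K[X]) := (X_pow_sub_one_separable_iff.mpr hk).squarefree
  have hei : e i = 1 := by
    by_contra hne
    have h2 : 2 ≤ e i := by omega
    have h3 : p i * p i ∣ X ^ k - 1 := by
      refine dvd_trans ?_ hdvd
      rw [← sq]
      exact pow_dvd_pow _ h2
    exact (hp i).not_isUnit (hsq _ h3)
  have hirr : Irreducible (p i ^ e i) := by rw [hei, pow_one]; exact hp i
  let g : AEval' T →ₗ[K[X]] (K[X] ⧸ K[X] ∙ (p i ^ e i)) :=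
    (DirectSum.component K[X] ι (fun i => K[X] ⧸ K[X] ∙ (p i ^ e i)) i) ∘ₗ φ.toLinearMap
  let f : (K[X] ⧸ K[X] ∙ (p i ^ e i)) →ₗ[K[X]] AEval' T :=
    φ.symm.toLinearMap ∘ₗ (DirectSum.lof K[X] ι (fun i => K[X] ⧸ K[X] ∙ (p i ^ e i)) i)
  have hgf : g.comp f = LinearMap.id := by
    apply LinearMap.ext
    intro x
    simp [g, f, DirectSum.component.lof_self]
  exact ⟨p i ^ e i, hirr, LinearMap.ker g,
    ⟨lequivProdOfRightSplitExact (j := (LinearMap.ker g).subtype) (Submodule.injective_subtype _)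
      (Submodule.range_subtype _) hgf⟩⟩

theorem exists_comm_det {K V : Type*} [Field K] [Finite K] [AddCommGroup V] [Module K V]
    [FiniteDimensional K V] [Nontrivial V] (T : End K V) (k : ℕ) (hk : (k : K) ≠ 0) (hT : T ^ k = 1)
    (c : K) : ∃ d : End K V, LinearMap.det d = c ∧ Commute d T := by
  obtain ⟨π, hπ, A, ⟨Ψ⟩⟩ := exists_split T k hk hT
  have : Fact (Irreducible π) := ⟨hπ⟩
  have : Module.Finite K (AdjoinRoot π) := (AdjoinRoot.powerBasis hπ.ne_zero).finite
  have : Finite (AdjoinRoot π) := Module.finite_of_finite K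
  obtain ⟨α, hα⟩ := FiniteField.norm_surjective K (AdjoinRoot π) c
  let μ : (K[X] ⧸ Ideal.span {π}) →ₗ[K[X]] (K[X] ⧸ Ideal.span {π}) := LinearMap.mulLeft K[X] α
  let P : (A × (K[X] ⧸ Ideal.span {π})) →ₗ[K[X]] (A × (K[X] ⧸ Ideal.span {π})) :=
    LinearMap.prodMap LinearMap.id μ
  let cX : AEval' T →ₗ[K[X]] AEval' T := Ψ.toLinearMap ∘ₗ P ∘ₗ Ψ.symm.toLinearMap
  let d : End K V := (AEval.of K V T).symm.toLinearMap ∘ₗ (cX.restrictScalars K) ∘ₗ
    (AEval.of K V T).toLinearMap
  refine ⟨d, ?_, ?_⟩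
  · have h1 : LinearMap.det d = LinearMap.det (cX.restrictScalars K) :=
      LinearMap.det_conj (cX.restrictScalars K) (AEval.of K V T).symm
    have h2 : LinearMap.det (cX.restrictScalars K) = LinearMap.det (P.restrictScalars K) :=
      LinearMap.det_conj (P.restrictScalars K) (Ψ.restrictScalars K)
    have : Finite V := Module.finite_of_finite K
    have : Finite (AEval' T) := inferInstanceAs (Finite V)
    have : Module.Finite K (K[X] ⧸ Ideal.span {π}) := inferInstanceAs (Module.Finite K (AdjoinRoot π))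
    have h3 : LinearMap.det (P.restrictScalars K) =
        LinearMap.det (LinearMap.id : A →ₗ[K] A) * LinearMap.det (μ.restrictScalars K) :=
      LinearMap.det_prodMap (LinearMap.id : A →ₗ[K] A) (μ.restrictScalars K)
    have h4 : LinearMap.det (μ.restrictScalars K) = Algebra.norm K α := by
      rw [Algebra.norm_apply]
      rfl
    rw [h1, h2, h3, h4, LinearMap.det_id, one_mul, hα]
  · apply LinearMap.ext
    intro v
    change (AEval.of K V T).symm (cX (AEval.of K V T (T v))) = T ((AEval.of K V T).symm (cX (AEval.of K V T v)))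
    have : AEval.of K V T (T v) = (X : K[X]) • AEval.of K V T v := by
      rw [AEval.X_smul_of]; rfl
    rw [this, map_smul, AEval.of_symm_X_smul]
    rfl

theorem result {F : Type*} [Field F] [Fintype F] {p : ℕ} [Fact p.Prime] [CharP F p] {n : ℕ} (x g : GL (Fin n) F) (hx : (orderOf x).Coprime p) : ∃ h : GL (Fin n) F, (h : Matrix (Fin n) (Fin n) F).det = 1 ∧ h * x * h⁻¹ = g * x * g⁻¹ := by
  rcases Nat.eq_zero_or_pos n with rfl | hn
  · exact ⟨g, Matrix.det_isEmpty, rfl⟩
  have : Nonempty (Fin n) := ⟨⟨0, hn⟩⟩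
  let e : Matrix (Fin n) (Fin n) F ≃ₐ[F] End F (Fin n → F) := Matrix.toLinAlgEquiv'
  set T : End F (Fin n → F) := e (x : Matrix (Fin n) (Fin n) F) with hT
  have hk : ((orderOf x : ℕ) : F) ≠ 0 := by
    intro h0
    rw [CharP.cast_eq_zero_iff F p] at h0
    have h1 : p ∣ Nat.gcd (orderOf x) p := Nat.dvd_gcd h0 dvd_rfl
    rw [hx] at h1
    exact (Fact.out : p.Prime).one_lt.ne' (Nat.dvd_one.mp h1)
  have hTk : T ^ orderOf x = 1 := by
    rw [hT, ← map_pow, ← Units.val_pow_eq_pow_val, pow_orderOf_eq_one, Units.val_one, map_one]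
  have hdg : (g : Matrix (Fin n) (Fin n) F).det ≠ 0 :=
    ((Matrix.isUnit_iff_isUnit_det _).mp g.isUnit).ne_zero
  obtain ⟨d, hd1, hd2⟩ := exists_comm_det T (orderOf x) hk hTk ((g : Matrix (Fin n) (Fin n) F).det)⁻¹
  obtain ⟨D, hD⟩ : ∃ D, e D = d := ⟨e.symm d, e.apply_symm_apply d⟩
  have hDdet : D.det = ((g : Matrix (Fin n) (Fin n) F).det)⁻¹ := by
    have : LinearMap.det (e D) = D.det := LinearMap.det_toLin' _
    rw [← this, hD, hd1]
  have hDx : D * (x : Matrix (Fin n) (Fin n) F) = (x : Matrix (Fin n) (Fin n) F) * D := by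
    apply e.injective
    rw [map_mul, map_mul, hD]
    exact hd2.eq
  let Dg : GL (Fin n) F := Matrix.GeneralLinearGroup.mkOfDetNeZero D (by rw [hDdet]; exact inv_ne_zero hdg)
  have hDgx : Dg * x = x * Dg := Units.ext hDx
  refine ⟨g * Dg, ?_, ?_⟩
  · change ((g : Matrix (Fin n) (Fin n) F) * D).det = 1
    rw [Matrix.det_mul, hDdet, mul_inv_cancel₀ hdg]
  · calc g * Dg * x * (g * Dg)⁻¹ = g * (Dg * x) * Dg⁻¹ * g⁻¹ := by group
      _ = g * x * g⁻¹ := by rw [hDgx]; group

end Cfsg.Agent.S2569
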