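import Cfsg.Statements.S2570
import Cfsg.Agent.Lib.Helper48UnipOrder

set_option autoImplicit false
open Cfsg

namespace Cfsg.Agent.S2570

open Cfsg.Agent.Lib.Helper48JordanClass Cfsg.Agent.Lib.Helper48UnipOrder

/-- Number of conjugacy classes of elements of order p in GL_n over a finite field of characteristic p: they correspond to the Jordan types, that is, to the partitions of n with all parts at most p other than the partition into ones, so there are (number of partitions of n with parts ≤ p) − 1 of them. -/
theorem result {F : Type*} [Field F] [Fintype F] {p : ℕ} [Fact p.Prime] [CharP F p] (n : ℕ) : Nat.card {C : ConjClasses (GL (Fin n) F) // ∃ g : GL (Fin n) F, ConjClasses.mk g = C ∧ orderOf g = p} = (Finset.univ.filter (fun μ : Nat.Partition n => ∀ a ∈ μ.parts, a ≤ p)).card - 1 := by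
  have h := card_classes (G := GL (Fin n) F) (α := Nat.Partition n) GType
    (fun g => orderOf g = p) (fun μ => (∀ a ∈ μ.parts, a ≤ p) ∧ ¬ ∀ a ∈ μ.parts, a ≤ 1)
    (fun g hg => exists_gtype g ((orderOf_pow_iff p g).1 ⟨1, by rw [hg, pow_one]⟩))
    gtype_conj gtype_unique
    (fun μ _ => by
      obtain ⟨g, hg, -⟩ := exists_of_partition (F := F) μ
      exact ⟨g, hg⟩)
    (fun g μ hg => by
      rw [orderOf_eq_iff p g, gtype_pow_eq_zero_iff g μ hg, gtype_pow_eq_zero_iff g μ hg])
  rw [h, card_partitions n p (Fact.out : p.Prime).one_lt.le]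

end Cfsg.Agent.S2570
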