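import Cfsg.Statements.S2571
import Cfsg.Agent.Lib.Helper48CycCount

set_option autoImplicit false
open Cfsg

namespace Cfsg.Agent.S2571

theorem result {F : Type*} [Field F] [Fintype F] {q n : ℕ} (hF : Fintype.card F = q) (hn : 1 ≤ n) (u : GL (Fin n) F) (hnil : ((u : Matrix (Fin n) (Fin n) F) - 1) ^ n = 0) (hreg : ((u : Matrix (Fin n) (Fin n) F) - 1).rank = n - 1) : Nat.card ↥(Subgroup.centralizer ({u} : Set (GL (Fin n) F))) = (q - 1) * q ^ (n - 1) := by
  obtain ⟨k, rfl⟩ : ∃ k, n = k + 1 := ⟨n - 1, by omega⟩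
  subst hF
  exact Cfsg.Agent.Lib.Helper48CycCount.card_centralizer_GL u (by simp) hnil (by simpa using hreg)

end Cfsg.Agent.S2571
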