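import Cfsg.Statements.S2572
import Cfsg.Agent.Lib.Helper48TransvCount

set_option autoImplicit false
open Cfsg

namespace Cfsg.Agent.S2572

theorem result {F : Type*} [Field F] [Fintype F] {q n : ℕ} (hF : Fintype.card F = q) (hn : 2 ≤ n) (t : GL (Fin n) F) (ht : Cfsg.IsTransvection (t : Matrix (Fin n) (Fin n) F)) : Nat.card ↥(Subgroup.centralizer ({t} : Set (GL (Fin n) F))) = q ^ (2 * n - 3) * (q - 1) * ∏ i : Fin (n - 2), (q ^ (n - 2) - q ^ (i : ℕ)) := by
  obtain ⟨k, rfl⟩ : ∃ k, n = k + 2 := ⟨n - 2, by omega⟩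
  subst hF
  rw [Cfsg.Agent.Lib.Helper48TransvCount.card_centralizer_transvection k t ht.1 ht.2,
    Matrix.card_GL_field]
  have e1 : 2 * (k + 2) - 3 = k + k + 1 := by omega
  rw [e1]
  change _ = Fintype.card F ^ (k + k + 1) * (Fintype.card F - 1) *
    ∏ i : Fin k, (Fintype.card F ^ k - Fintype.card F ^ (i : ℕ))
  rw [pow_succ, pow_add]
  ring

end Cfsg.Agent.S2572
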