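import Cfsg.Statements.S2574
import Cfsg.Agent.Lib.Helper48RegNil

set_option autoImplicit false
open Cfsg

namespace Cfsg.Agent.S2574

open Matrix in
theorem symp_invariant {F : Type*} [Field F] {m : ℕ} (u : Matrix.symplecticGroup (Fin m) F)
    (x y : Fin m ⊕ Fin m → F) :
    Cfsg.sympForm m F ((u : Matrix (Fin m ⊕ Fin m) (Fin m ⊕ Fin m) F).mulVec x)
      ((u : Matrix (Fin m ⊕ Fin m) (Fin m ⊕ Fin m) F).mulVec y) = Cfsg.sympForm m F x y := by
  have h := SymplecticGroup.mem_iff'.mp u.2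
  unfold Cfsg.sympForm
  rw [Matrix.mulVec_mulVec, Matrix.dotProduct_mulVec, Matrix.vecMul_mulVec, ← Matrix.dotProduct_mulVec,
    ← Matrix.mul_assoc, h]

theorem result {F : Type*} [Field F] [Finite F] {m : ℕ} (u : Matrix.symplecticGroup (Fin m) F) (hnil : ((u : Matrix (Fin m ⊕ Fin m) (Fin m ⊕ Fin m) F) - 1) ^ (2 * m) = 0) (hreg : ((u : Matrix (Fin m ⊕ Fin m) (Fin m ⊕ Fin m) F) - 1).rank = 2 * m - 1) (W : Submodule F (Fin m ⊕ Fin m → F)) (hW : ∀ v ∈ W, (u : Matrix (Fin m ⊕ Fin m) (Fin m ⊕ Fin m) F).mulVec v ∈ W) (hdim : 2 * Module.finrank F W ≤ 2 * m) : ∀ v ∈ W, ∀ w ∈ W, Cfsg.sympForm m F v w = 0 := by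
  set U : Matrix (Fin m ⊕ Fin m) (Fin m ⊕ Fin m) F := (u : Matrix (Fin m ⊕ Fin m) (Fin m ⊕ Fin m) F) with hU
  have hcard : Fintype.card (Fin m ⊕ Fin m) = 2 * m := by simp [two_mul]
  set B : LinearMap.BilinForm F (Fin m ⊕ Fin m → F) := Matrix.toBilin' (Matrix.J (Fin m) F) with hB
  have hBs : ∀ x y, B x y = Cfsg.sympForm m F x y := fun x y => Matrix.toBilin'_apply' _ _ _
  set Wp := B.orthogonal W with hWp
  have hfin := LinearMap.BilinForm.finrank_add_finrank_orthogonal' (B := B) W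
  rw [Module.finrank_fintype_fun_eq_card, hcard, ← hWp] at hfin
  -- U maps W onto W
  have hinj : Function.Injective U.mulVecLin := by
    have : IsUnit U := by
      rw [Matrix.isUnit_iff_isUnit_det]
      exact SymplecticGroup.symplectic_det u.2
    exact Matrix.mulVec_injective_iff_isUnit.mpr this
  have hmap : W.map U.mulVecLin = W := by
    apply Submodule.eq_of_le_of_finrank_eq
    · rintro _ ⟨v, hv, rfl⟩
      exact hW v hv
    · exact (LinearEquiv.finrank_eq (Submodule.equivMapOfInjective _ hinj W)).symm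
  have hWpinv : ∀ x ∈ Wp, U.mulVec x ∈ Wp := by
    intro x hx
    rw [hWp, LinearMap.BilinForm.mem_orthogonal_iff] at hx ⊢
    intro w hw
    rw [← hmap] at hw
    obtain ⟨w', hw', rfl⟩ := hw
    rw [hBs, Matrix.mulVecLin_apply, symp_invariant, ← hBs]
    exact hx w' hw'
  have e1 := Cfsg.Agent.Lib.Helper48RegNil.matrix_invariant_eq_ker U (by rw [hcard]; exact hnil)
    (by rw [hcard]; exact hreg) W hW
  have e2 := Cfsg.Agent.Lib.Helper48RegNil.matrix_invariant_eq_ker U (by rw [hcard]; exact hnil)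
    (by rw [hcard]; exact hreg) Wp hWpinv
  have hle : Module.finrank F W ≤ Module.finrank F Wp := by omega
  have hWW : W ≤ Wp := by
    rw [e1, e2]
    intro x hx
    rw [LinearMap.mem_ker, Matrix.mulVecLin_apply] at hx ⊢
    obtain ⟨d, hd⟩ := Nat.exists_eq_add_of_le hle
    rw [hd, add_comm, pow_add, ← Matrix.mulVec_mulVec, hx, Matrix.mulVec_zero]
  intro v hv w hw
  have := hWW hw
  rw [hWp, LinearMap.BilinForm.mem_orthogonal_iff] at this
  rw [← hBs]
  exact this v hv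

end Cfsg.Agent.S2574
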