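import Cfsg.Statements.S2575
import Cfsg.Agent.Lib.Helper48TwoPart

set_option autoImplicit false
open Cfsg

namespace Cfsg.Agent.S2575

open Cfsg.Agent.Lib.Helper48TwoPart

theorem prod_diag {F : Type*} [Field F] (n i : ℕ) (hi : i ≤ n) :
    ∏ j : Fin n, (if (j : ℕ) < i then (-1 : F) else 1) = (-1) ^ i := by
  rw [Finset.prod_ite, Finset.prod_const_one, mul_one, Finset.prod_const]
  congr 1
  rw [← Fintype.card_subtype]
  have e : {j : Fin n // (j : ℕ) < i} ≃ Fin i :=
    ⟨fun j => ⟨j.1, j.2⟩, fun j => ⟨⟨j.1, by omega⟩, j.2⟩, fun _ => rfl, fun _ => rfl⟩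
  rw [Fintype.card_congr e, Fintype.card_fin]

/-- Which diagonal involutions of PGL_n(q) lie in PSL_n(q), q odd: for the diagonal matrix t with i entries −1 and n − i entries 1, some non-zero scalar multiple of t has determinant one if and only if i is even or the 2-part of q − 1 exceeds the 2-part of n (that is, −1 is an n-th power in the field exactly in the latter case). -/
theorem result {F : Type*} [Field F] [Fintype F] {q : ℕ} (hF : Fintype.card F = q) (hq : Odd q) {n : ℕ} (hn : 1 ≤ n) (i : ℕ) (hi : i ≤ n) : (∃ c : F, c ≠ 0 ∧ (c • Matrix.diagonal (fun j : Fin n => if (j : ℕ) < i then (-1 : F) else 1)).det = 1) ↔ (Even i ∨ padicValNat 2 n < padicValNat 2 (q - 1)) := by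
  have hdet : ∀ c : F, (c • Matrix.diagonal (fun j : Fin n => if (j : ℕ) < i then (-1 : F) else 1)).det
      = c ^ n * (-1) ^ i := by
    intro c
    rw [Matrix.det_smul, Matrix.det_diagonal, prod_diag n i hi, Fintype.card_fin]
  simp only [hdet]
  rw [← exists_pow_eq_neg_one_iff hF hq n hn]
  constructor
  · rintro ⟨c, hc0, hc⟩
    by_cases he : Even i
    · exact Or.inl he
    · right
      rw [Nat.not_even_iff_odd] at he
      rw [he.neg_one_pow] at hc
      exact ⟨c, by linear_combination -hc⟩
  · rintro (he | ⟨c, hc⟩)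
    · exact ⟨1, one_ne_zero, by rw [he.neg_one_pow, one_pow, one_mul]⟩
    · by_cases he : Even i
      · exact ⟨1, one_ne_zero, by rw [he.neg_one_pow, one_pow, one_mul]⟩
      · rw [Nat.not_even_iff_odd] at he
        refine ⟨c, ?_, by rw [he.neg_one_pow, hc]; ring⟩
        rintro rfl
        rw [zero_pow (by omega)] at hc
        exact neg_ne_zero.2 one_ne_zero hc.symm

end Cfsg.Agent.S2575
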