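import Cfsg.Statements.S2576
import Cfsg.Agent.Lib.Helper48TwoPart

set_option autoImplicit false
open Cfsg

namespace Cfsg.Agent.S2576

open Cfsg.Agent.Lib.Helper48TwoPart

/-- Which involutions of PGL_2m(q) coming from a scalar of the quadratic extension field lie in PSL_2m(q), q odd: let μ generate the Sylow 2-subgroup of the multiplicative group of the field with q elements (μ has order the 2-part of q − 1) and let t be the block-diagonal matrix with m diagonal blocks [[0, 1], [μ, 0]] (so t² is the scalar μ and t is an involution modulo scalars). Then some non-zero scalar multiple of t has determinant one if and only if q ≡ 3 (mod 4) or the 2-part of q − 1 is less than the 2-part of 2m. -/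
theorem result {F : Type*} [Field F] [Fintype F] {q : ℕ} (hF : Fintype.card F = q) (hq : Odd q) {m : ℕ} (hm : 1 ≤ m) (μ : F) (hμ : orderOf μ = 2 ^ padicValNat 2 (q - 1)) : (∃ c : F, c ≠ 0 ∧ (c • Matrix.blockDiagonal (fun _ : Fin m => !![(0 : F), 1; μ, 0])).det = 1) ↔ (q % 4 = 3 ∨ padicValNat 2 (q - 1) < padicValNat 2 (2 * m)) := by
  have hdet : ∀ c : F, (c • Matrix.blockDiagonal (fun _ : Fin m => !![(0 : F), 1; μ, 0])).det
      = c ^ (2 * m) * (-μ) ^ m := by
    intro c
    rw [Matrix.det_smul, Matrix.det_blockDiagonal, Fintype.card_prod, Fintype.card_fin,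
      Fintype.card_fin, Finset.prod_const, Finset.card_univ, Fintype.card_fin, Matrix.det_fin_two_of]
    ring
  simp only [hdet]
  have hne := neg_one_ne_one hF hq
  have hq3 : 3 ≤ q := by
    have : 1 < Fintype.card F := Fintype.one_lt_card
    obtain ⟨k, hk⟩ := hq
    omega
  set a := padicValNat 2 (q - 1) with ha
  obtain ⟨N, hN⟩ : ∃ N, q - 1 = 2 * N := by
    obtain ⟨k, hk⟩ := hq
    exact ⟨k, by omega⟩
  have hN0 : N ≠ 0 := by omega
  have haN : a = padicValNat 2 N + 1 := by
    rw [ha, hN, padicValNat.mul two_ne_zero hN0, padicValNat.self (by norm_num), add_comm]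
  have hv2m : padicValNat 2 (2 * m) = padicValNat 2 m + 1 := by
    rw [padicValNat.mul two_ne_zero (by omega), padicValNat.self (by norm_num), add_comm]
  have hμa : μ ^ 2 ^ a = 1 := by rw [← hμ, pow_orderOf_eq_one]
  have hnegμ : (-μ) ^ 2 ^ a = 1 := by
    rw [neg_pow, hμa, mul_one, haN, pow_succ, mul_comm, pow_mul, neg_one_sq, one_pow]
  constructor
  · rintro ⟨c, hc0, hc⟩
    by_cases h4 : q % 4 = 3
    · exact Or.inl h4
    right
    have hNeven : Even N := by
      obtain ⟨k, hk⟩ := hq
      rw [Nat.even_iff]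
      omega
    set y := -μ * c ^ 2 with hy
    have hym : y ^ m = 1 := by
      rw [hy, mul_pow, ← pow_mul, mul_comm]
      exact hc
    have hcq : c ^ (q - 1) = 1 := by
      rw [← hF]
      exact FiniteField.pow_card_sub_one_eq_one c hc0
    have hyN : y ^ N = μ ^ N := by
      rw [hy, mul_pow, ← pow_mul, ← hN, hcq, mul_one, neg_pow, hNeven.neg_one_pow, one_mul]
    have h1 : orderOf y ∣ 2 * N := by
      apply orderOf_dvd_of_pow_eq_one
      rw [mul_comm, pow_mul, hyN, ← pow_mul, mul_comm, ← hN]
      apply orderOf_dvd_iff_pow_eq_one.1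
      rw [hμ]
      exact pow_padicValNat_dvd
    have h2 : ¬ orderOf y ∣ N := by
      intro h
      rw [orderOf_dvd_iff_pow_eq_one, hyN, ← orderOf_dvd_iff_pow_eq_one, hμ,
        padicValNat_dvd_iff_le hN0] at h
      omega
    have h3 := (two_pow_dvd _ N hN0 h1 h2).trans (orderOf_dvd_of_pow_eq_one hym)
    rw [padicValNat_dvd_iff_le (by omega)] at h3
    omega
  · rintro (h4 | h4)
    · refine ⟨1, one_ne_zero, ?_⟩
      have ha1 : a = 1 := by
        have : q - 1 = 2 ^ 1 * (2 * (q / 4) + 1) := by omega
        rw [ha, this, val_two_pow_mul_odd 1 _ ⟨q / 4, rfl⟩]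
      rw [ha1, pow_one] at hμ hμa
      have h5 : μ = -1 := by
        rcases sq_eq_one_iff.1 hμa with h | h
        · rw [h, orderOf_one] at hμ
          omega
        · exact h
      rw [h5, neg_neg, one_pow, one_pow, one_mul]
    · refine ⟨1, one_ne_zero, ?_⟩
      have h5 : 2 ^ a ∣ m := by
        rw [padicValNat_dvd_iff_le (by omega)]
        omega
      obtain ⟨t, ht⟩ := h5
      rw [one_pow, one_mul, ht, pow_mul, hnegμ, one_pow]

end Cfsg.Agent.S2576
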