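import Cfsg.Statements.S2670
import Cfsg.Agent.Lib.Helper48Proj
import Cfsg.Agent.S2568

set_option autoImplicit false
open Cfsg

namespace Cfsg.Agent.S2670

open Cfsg.Agent.Lib.Helper48Eig Cfsg.Agent.Lib.Helper48EigMat Cfsg.Agent.Lib.Helper48Scal
  Cfsg.Agent.Lib.Helper48Proj

/-- Number of conjugacy classes of elements of prime order r in PGL_n(q) = GL_n(q)/scalars when r divides q − 1 (n ≥ 2): the classes of elements with a diagonalisable lift correspond to the orbits of the cyclic rotation on the r-tuples of eigenvalue multiplicities (a_0, …, a_(r−1)) summing to n with every a_j < n, and when r divides n there are r − 1 further classes (lifts acting irreducibly on blocks of size r); in all (C(n+r−1, r−1) − r − [r ∣ n])/r + r·[r ∣ n] classes. -/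
theorem result {F : Type*} [Field F] [Fintype F] {q : ℕ} (hF : Fintype.card F = q) {n r : ℕ} (hn : 2 ≤ n) (hr : r.Prime) (hrq : r ∣ q - 1) : Nat.card {C : ConjClasses (GL (Fin n) F ⧸ Subgroup.center (GL (Fin n) F)) // ∃ g : GL (Fin n) F ⧸ Subgroup.center (GL (Fin n) F), ConjClasses.mk g = C ∧ orderOf g = r} = (Nat.choose (n + r - 1) (r - 1) - r - (if r ∣ n then 1 else 0)) / r + r * (if r ∣ n then 1 else 0) := by
  obtain ⟨p, hchar⟩ := CharP.exists F
  have hp : p.Prime := CharP.char_is_prime F p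
  have _ : Fact p.Prime := ⟨hp⟩
  have _ : Fact r.Prime := ⟨hr⟩
  have hq1 : 1 ≤ q := by rw [← hF]; exact Fintype.card_pos
  have hrp' : r.Coprime p := by
    have h1 := Cfsg.Agent.Lib.Helper45Semisimple.coprime_card_sub_one (F := F) p
    rw [hF] at h1
    exact Nat.Coprime.coprime_dvd_left hrq h1
  have hrp : r ≠ p := (Nat.coprime_primes hr hp).1 hrp'
  obtain ⟨⟨ζ, hζ⟩, hfrob⟩ := Cfsg.Agent.S2568.exists_setup F p r hr hrp
  obtain ⟨e, _, he⟩ := FiniteField.card F p
  rw [hF] at he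
  obtain ⟨Φ, hΦ⟩ := hfrob e
  rw [← he, ← hF] at hΦ
  have huq : ((Fintype.card F : ℕ) : ZMod r) = ((1 : (ZMod r)ˣ) : ZMod r) := by
    rw [hF, Units.val_one]
    have : q = (q - 1) + 1 := by omega
    rw [this, Nat.cast_add, (ZMod.natCast_eq_zero_iff _ _).2 hrq, zero_add, Nat.cast_one]
  -- roots of unity lie in `F`
  have hz : ∀ k : ZMod r, ∃ c : (⊤ : Subgroup Fˣ),
      algebraMap F (AlgebraicClosure F) ((c : Fˣ) : F) = zp ζ k := by
    intro k
    obtain ⟨m, hm⟩ := hrq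
    have h1 : (zp ζ k) ^ Fintype.card F = zp ζ k := by
      have : Fintype.card F = r * m + 1 := by rw [hF]; omega
      rw [this, pow_succ, pow_mul, zp_pow ζ hζ.pow_eq_one, one_pow, one_mul]
    obtain ⟨c, hc⟩ := mem_range_of_pow_card (K := F) _ h1
    have hc0 : c ≠ 0 := by
      rintro rfl
      rw [map_zero] at hc
      exact zp_ne_zero ζ hζ.pow_eq_one k hc.symm
    exact ⟨⟨Units.mk0 c hc0, Subgroup.mem_top _⟩, hc⟩
  choose zc hzc using hz
  obtain ⟨γ, hγ⟩ := IsCyclic.exists_generator (α := (⊤ : Subgroup Fˣ))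
  have hrC : r ∣ Nat.card (⊤ : Subgroup Fˣ) := by
    rw [Subgroup.card_top, Nat.card_units, Nat.card_eq_fintype_card, hF]
    exact hrq
  have hnp : ∀ j : ZMod r, j ≠ 0 → ∀ b : F, b ^ r ≠ (((γ ^ j.val : (⊤ : Subgroup Fˣ)) : Fˣ) : F) := by
    intro j hj b hb
    have hb0 : b ≠ 0 := by
      rintro rfl
      rw [zero_pow hr.ne_zero] at hb
      exact Units.ne_zero _ hb.symm
    apply hj
    apply rep_unique γ hγ r hrC j 0 ⟨Units.mk0 b hb0, Subgroup.mem_top _⟩
    rw [ZMod.val_zero, pow_zero, one_mul]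
    apply Subtype.ext
    apply Units.ext
    rw [← hb]
    rfl
  apply card_proj_classes p (MonoidHom.id (GL (Fin n) F)) Function.injective_id ⊤
    (fun u => Matrix.GeneralLinearGroup.scalar (Fin n) u.1) ?_ ?_ γ hγ hrC ?_ ζ hζ zc hzc ?_ hnp ?_
    (by omega) hrp
  · intro u
    rw [MonoidHom.id_apply, Matrix.GeneralLinearGroup.coe_scalar, Matrix.scalar_apply,
      Matrix.smul_one_eq_diagonal]
  · intro g
    rw [Matrix.GeneralLinearGroup.center_eq_range_scalar, MonoidHom.mem_range]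
    constructor
    · rintro ⟨u, rfl⟩
      exact ⟨⟨u, Subgroup.mem_top _⟩, rfl⟩
    · rintro ⟨u, rfl⟩
      exact ⟨u.1, rfl⟩
  · rintro g g' ⟨P, hP⟩
    rw [isConj_iff]
    refine ⟨P, ?_⟩
    rw [mul_inv_eq_iff_eq_mul]
    exact Units.ext hP
  · intro a ha
    obtain ⟨M, hM⟩ := exists_matrix p ζ hζ.pow_eq_one Φ hΦ 1 huq n a (fun k => by simp) ha
    have h1 : M * M ^ (r - 1) = 1 := by
      rw [← pow_succ', Nat.sub_add_cancel hr.one_le, hM.1]
    exact ⟨⟨M, M ^ (r - 1), h1, mul_eq_one_comm.1 h1⟩, hM⟩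
  · rintro ⟨k, hk⟩ j hj
    obtain ⟨M, hM⟩ := exists_of_dvd p hr _ (hnp j hj) n k (by rw [hk, mul_comm])
    set c : Fˣ := ((γ ^ j.val : (⊤ : Subgroup Fˣ)) : Fˣ) with hc
    have h1 : M * ((c⁻¹ : Fˣ) : F) • M ^ (r - 1) = 1 := by
      rw [Matrix.mul_smul, ← pow_succ', Nat.sub_add_cancel hr.one_le, hM, smul_smul,
        Units.inv_mul, one_smul]
    exact ⟨⟨M, _, h1, mul_eq_one_comm.1 h1⟩, hM⟩

end Cfsg.Agent.S2670
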