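import Cfsg.Statements.S2578
import Cfsg.Agent.Lib.Helper48CycConj
import Cfsg.Agent.Lib.Helper48Jordan

set_option autoImplicit false
open Cfsg

namespace Cfsg.Agent.S2578

open Cfsg.Agent.Lib.Helper48CycConj Cfsg.Agent.Lib.Helper48Jordan Matrix

theorem card_eq_index {G β : Type*} [Group G] (H : Subgroup G) (f : G → β)
    (hs : Function.Surjective f) (hk : ∀ x y, f x = f y ↔ x⁻¹ * y ∈ H) : Nat.card β = H.index := by
  have hker : Setoid.ker f = QuotientGroup.leftRel H := by
    ext x y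
    rw [Setoid.ker_def, QuotientGroup.leftRel_apply, hk]
  have e := Setoid.quotientKerEquivOfSurjective f hs
  rw [← Nat.card_congr e, hker]
  rfl

variable {F : Type*} [Field F] {n : ℕ}

/-- regular unipotent -/
def P (x : GL (Fin n) F) : Prop :=
  ((x : Matrix (Fin n) (Fin n) F) - 1) ^ n = 0 ∧ ((x : Matrix (Fin n) (Fin n) F) - 1).rank = n - 1

theorem conj_sub_one (g x : GL (Fin n) F) :
    ((g * x * g⁻¹ : GL (Fin n) F) : Matrix (Fin n) (Fin n) F) - 1 =
      (g : Matrix (Fin n) (Fin n) F) * ((x : Matrix (Fin n) (Fin n) F) - 1) * ((g⁻¹ : GL (Fin n) F) : Matrix (Fin n) (Fin n) F) := by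
  have h1 : (g : Matrix (Fin n) (Fin n) F) * ((g⁻¹ : GL (Fin n) F) : Matrix (Fin n) (Fin n) F) = 1 := by
    rw [← Units.val_mul, mul_inv_cancel]; rfl
  rw [mul_sub, sub_mul, mul_one, h1]
  rfl

theorem P_conj (g x : GL (Fin n) F) (hx : P x) : P (g * x * g⁻¹) := by
  obtain ⟨h1, h2⟩ := hx
  constructor
  · rw [conj_sub_one, Units.conj_pow, h1]; simp
  · rw [conj_sub_one, Matrix.rank_mul_eq_left_of_isUnit_det, Matrix.rank_mul_eq_right_of_isUnit_det, h2]
    · exact (Matrix.isUnit_iff_isUnit_det _).mp g.isUnit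
    · exact (Matrix.isUnit_iff_isUnit_det _).mp g⁻¹.isUnit

theorem exists_sl (g : GL (Fin n) F) (hg : GeneralLinearGroup.det g = 1) :
    ∃ s : SpecialLinearGroup (Fin n) F, SpecialLinearGroup.toGL s = g := by
  refine ⟨⟨g, ?_⟩, ?_⟩
  · have := congrArg Units.val hg
    simpa using this
  · apply Units.ext; rfl

theorem det_toGL (s : SpecialLinearGroup (Fin n) F) : GeneralLinearGroup.det (SpecialLinearGroup.toGL s) = 1 := by
  apply Units.ext
  simp

theorem sl_isConj_iff (a b : SpecialLinearGroup (Fin n) F) :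
    IsConj a b ↔ ∃ h : GL (Fin n) F, GeneralLinearGroup.det h = 1 ∧
      h * SpecialLinearGroup.toGL a * h⁻¹ = SpecialLinearGroup.toGL b := by
  rw [isConj_iff]
  constructor
  · rintro ⟨c, hc⟩
    refine ⟨SpecialLinearGroup.toGL c, det_toGL c, ?_⟩
    rw [← hc]; simp
  · rintro ⟨h, h1, h2⟩
    obtain ⟨c, rfl⟩ := exists_sl h h1
    refine ⟨c, ?_⟩
    apply SpecialLinearGroup.toGL_injective
    rw [← h2]; simp

theorem P_det (x : GL (Fin n) F) (hx : P x) : GeneralLinearGroup.det x = 1 := by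
  apply Units.ext
  rw [GeneralLinearGroup.val_det_apply, Units.val_one]
  have h1 : (x : Matrix (Fin n) (Fin n) F) = 1 + ((x : Matrix (Fin n) (Fin n) F) - 1) := by abel
  have h2 := det_smul_one_add_nilpotent (K := F) (V := Fin n → F) 1
    (Matrix.toLin' ((x : Matrix (Fin n) (Fin n) F) - 1))
    ⟨n, by rw [← Matrix.toLin'_pow, hx.1, map_zero]⟩
  rw [one_pow, one_smul] at h2
  rw [← LinearMap.det_toLin', h1, map_add, Matrix.toLin'_one]
  exact h2

theorem det_conj (g x : GL (Fin n) F) :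
    GeneralLinearGroup.det (g * x * g⁻¹) = GeneralLinearGroup.det x := by
  rw [map_mul, map_mul, map_inv, mul_comm, inv_mul_cancel_left]

theorem main [Fintype F] (k : ℕ) :
    Nat.card {C : ConjClasses (SpecialLinearGroup (Fin (k + 1)) F) //
      ∃ u : SpecialLinearGroup (Fin (k + 1)) F, ConjClasses.mk u = C ∧
        ((u : Matrix (Fin (k + 1)) (Fin (k + 1)) F) - 1) ^ (k + 1) = 0 ∧
        ((u : Matrix (Fin (k + 1)) (Fin (k + 1)) F) - 1).rank = k + 1 - 1} =
      Nat.gcd (k + 1) (Fintype.card F - 1) := by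
  classical
  have hU : IsUnit (Cfsg.jordanBlock (k + 1) F) := by
    rw [jordanBlock_eq]
    exact IsNilpotent.isUnit_one_add ⟨k + 1, shiftM_pow_self (k + 1)⟩
  set U0 : GL (Fin (k + 1)) F := hU.unit with hU0
  have hU0c : (U0 : Matrix (Fin (k + 1)) (Fin (k + 1)) F) = Cfsg.jordanBlock (k + 1) F := hU.unit_spec
  have hPU0 : P U0 := by
    constructor
    · rw [hU0c, jordanBlock_sub_one, shiftM_pow_self]
    · rw [hU0c, jordanBlock_sub_one, shiftM_rank]
  choose D hD using (GeneralLinearGroup.det_surjective (n := Fin (k + 1)) (R := F))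
  have hs : ∀ d : Fˣ, ∃ s : SpecialLinearGroup (Fin (k + 1)) F,
      SpecialLinearGroup.toGL s = D d * U0 * (D d)⁻¹ := fun d =>
    exists_sl _ (by rw [det_conj, P_det U0 hPU0])
  choose s hs using hs
  have hPs : ∀ d, P (SpecialLinearGroup.toGL (s d)) := fun d => by rw [hs]; exact P_conj _ _ hPU0
  let f : Fˣ → {C : ConjClasses (SpecialLinearGroup (Fin (k + 1)) F) //
      ∃ u : SpecialLinearGroup (Fin (k + 1)) F, ConjClasses.mk u = C ∧
        ((u : Matrix (Fin (k + 1)) (Fin (k + 1)) F) - 1) ^ (k + 1) = 0 ∧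
        ((u : Matrix (Fin (k + 1)) (Fin (k + 1)) F) - 1).rank = k + 1 - 1} :=
    fun d => ⟨ConjClasses.mk (s d), s d, rfl, (hPs d).1, (hPs d).2⟩
  rw [card_eq_index (powMonoidHom (k + 1) : Fˣ →* Fˣ).range f, IsCyclic.index_powMonoidHom_range,
    Nat.card_eq_fintype_card, Fintype.card_units, Nat.gcd_comm]
  · -- surjective
    rintro ⟨C, u, rfl, hu1, hu2⟩
    obtain ⟨g, hg⟩ := matrix_exists_conj ((U0 : Matrix (Fin (k + 1)) (Fin (k + 1)) F) - 1)
      ((u : Matrix (Fin (k + 1)) (Fin (k + 1)) F) - 1) (by simp) hPU0.1 (by simpa using hPU0.2) hu1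
      (by simpa using hu2)
    have hg' : g * U0 * g⁻¹ = SpecialLinearGroup.toGL u := by
      rw [mul_inv_eq_iff_eq_mul]
      apply Units.ext
      rw [mul_sub, sub_mul, mul_one, one_mul, sub_left_inj] at hg
      exact hg
    refine ⟨GeneralLinearGroup.det g, ?_⟩
    apply Subtype.ext
    change ConjClasses.mk (s (GeneralLinearGroup.det g)) = ConjClasses.mk u
    rw [ConjClasses.mk_eq_mk_iff_isConj, sl_isConj_iff]
    refine ⟨g * (D (GeneralLinearGroup.det g))⁻¹, ?_, ?_⟩
    · rw [map_mul, map_inv, hD, mul_inv_cancel]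
    · rw [hs, ← hg']; group
  · intro d d'
    have e1 : f d = f d' ↔ IsConj (s d) (s d') := by
      rw [← ConjClasses.mk_eq_mk_iff_isConj]
      exact Subtype.ext_iff
    rw [e1, sl_isConj_iff, hs, hs]
    constructor
    · rintro ⟨h, h1, h2⟩
      have hc : Commute ((D d')⁻¹ * h * D d) U0 := by
        have : (D d')⁻¹ * (h * (D d * U0 * (D d)⁻¹) * h⁻¹) * (h * D d) = (D d')⁻¹ * (D d' * U0 * (D d')⁻¹) * (h * D d) := by
          rw [h2]
        have h3 : (D d')⁻¹ * h * D d * U0 = U0 * ((D d')⁻¹ * h * D d) := by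
          calc (D d')⁻¹ * h * D d * U0 = (D d')⁻¹ * (h * (D d * U0 * (D d)⁻¹) * h⁻¹) * (h * D d) := by group
            _ = (D d')⁻¹ * (D d' * U0 * (D d')⁻¹) * (h * D d) := this
            _ = _ := by group
        exact h3
      have hc' : Commute (((D d')⁻¹ * h * D d : GL (Fin (k + 1)) F) : Matrix (Fin (k + 1)) (Fin (k + 1)) F)
          ((U0 : Matrix (Fin (k + 1)) (Fin (k + 1)) F) - 1) := by
        apply Commute.sub_right _ (Commute.one_right _)
        exact congrArg Units.val hc.eq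
      obtain ⟨a, ha⟩ := matrix_det_of_comm ((U0 : Matrix (Fin (k + 1)) (Fin (k + 1)) F) - 1) (by simp)
        hPU0.1 (by simpa using hPU0.2) _ hc'
      have hdet : GeneralLinearGroup.det ((D d')⁻¹ * h * D d) = d'⁻¹ * d := by
        rw [map_mul, map_mul, map_inv, hD, hD, h1, mul_one]
      have ha' : ((d'⁻¹ * d : Fˣ) : F) = a ^ (k + 1) := by
        rw [← hdet, ← ha]; rfl
      have ha0 : a ≠ 0 := by
        intro h0
        rw [h0, zero_pow (by omega)] at ha'
        exact (d'⁻¹ * d).ne_zero ha'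
      refine ⟨(Units.mk0 a ha0)⁻¹, ?_⟩
      rw [powMonoidHom_apply, inv_pow]
      have : (Units.mk0 a ha0) ^ (k + 1) = d'⁻¹ * d := by
        apply Units.ext
        rw [ha']; simp
      rw [this]; simp
    · rintro ⟨a, ha⟩
      rw [powMonoidHom_apply] at ha
      refine ⟨D d' * GeneralLinearGroup.scalar (Fin (k + 1)) a⁻¹ * (D d)⁻¹, ?_, ?_⟩
      · rw [map_mul, map_mul, map_inv (GeneralLinearGroup.det) (D d), hD, hD,
          GeneralLinearGroup.det_scalar, Fintype.card_fin, inv_pow, ha]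
        simp
      · have hz : ∀ y : GL (Fin (k + 1)) F, GeneralLinearGroup.scalar (Fin (k + 1)) a⁻¹ * y =
            y * GeneralLinearGroup.scalar (Fin (k + 1)) a⁻¹ := by
          intro y
          have : GeneralLinearGroup.scalar (Fin (k + 1)) a⁻¹ ∈ Subgroup.center (GL (Fin (k + 1)) F) := by
            rw [GeneralLinearGroup.center_eq_range_scalar]; exact ⟨_, rfl⟩
          exact ((Subgroup.mem_center_iff.mp this) y).symm
        calc D d' * GeneralLinearGroup.scalar (Fin (k + 1)) a⁻¹ * (D d)⁻¹ * (D d * U0 * (D d)⁻¹) *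
              (D d' * GeneralLinearGroup.scalar (Fin (k + 1)) a⁻¹ * (D d)⁻¹)⁻¹
            = D d' * (GeneralLinearGroup.scalar (Fin (k + 1)) a⁻¹ * U0) *
              (GeneralLinearGroup.scalar (Fin (k + 1)) a⁻¹)⁻¹ * (D d')⁻¹ := by group
          _ = _ := by rw [hz]; group

theorem result {F : Type*} [Field F] [Fintype F] {q : ℕ} (hF : Fintype.card F = q) {n : ℕ} (hn : 2 ≤ n) : Nat.card {C : ConjClasses (Matrix.SpecialLinearGroup (Fin n) F) // ∃ u : Matrix.SpecialLinearGroup (Fin n) F, ConjClasses.mk u = C ∧ ((u : Matrix (Fin n) (Fin n) F) - 1) ^ n = 0 ∧ ((u : Matrix (Fin n) (Fin n) F) - 1).rank = n - 1} = Nat.gcd n (q - 1) := by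
  obtain ⟨k, rfl⟩ : ∃ k, n = k + 1 := ⟨n - 1, by omega⟩
  subst hF
  exact main k

end Cfsg.Agent.S2578
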