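import Cfsg.Statements.S2579
import Cfsg.Agent.Lib.Helper48Transv

set_option autoImplicit false
open Cfsg

namespace Cfsg.Agent.S2579

open Cfsg.Agent.Lib.Helper48Transv Module

theorem result {F : Type*} [Field F] [Finite F] {n : ℕ} (hn : 3 ≤ n) (s t : Matrix.SpecialLinearGroup (Fin n) F) (hs : Cfsg.IsTransvection (s : Matrix (Fin n) (Fin n) F)) (ht : Cfsg.IsTransvection (t : Matrix (Fin n) (Fin n) F)) : IsConj s t := by
  let e : Matrix (Fin n) (Fin n) F ≃ₐ[F] End F (Fin n → F) := Matrix.toLinAlgEquiv'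
  set N : End F (Fin n → F) := e ((s : Matrix (Fin n) (Fin n) F) - 1) with hN
  set N' : End F (Fin n → F) := e ((t : Matrix (Fin n) (Fin n) F) - 1) with hN'
  have hr : finrank F (LinearMap.range N) = 1 := hs.1
  have hr' : finrank F (LinearMap.range N') = 1 := ht.1
  have hsq : N * N = 0 := by rw [hN, ← map_mul, hs.2, map_zero]
  have hsq' : N' * N' = 0 := by rw [hN', ← map_mul, ht.2, map_zero]
  obtain ⟨g, hg⟩ := exists_conj N N' hr hsq hr' hsq'
  have hdet : LinearMap.det g.toLinearMap ≠ 0 := (LinearEquiv.isUnit_det' g).ne_zero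
  obtain ⟨d, hd1, hd2⟩ := exists_comm_det N hr hsq (by simpa using hn) (LinearMap.det g.toLinearMap)⁻¹
  set G : End F (Fin n → F) := g.toLinearMap * d with hG
  have hGdet : LinearMap.det G = 1 := by
    rw [hG, map_mul, hd1, mul_inv_cancel₀ hdet]
  have hgN : (g.toLinearMap : End F (Fin n → F)) * N = N' * g.toLinearMap := by
    apply LinearMap.ext
    intro y
    exact hg y
  have hGN : G * N = N' * G := by
    rw [hG, mul_assoc, hd2.eq, ← mul_assoc, hgN, mul_assoc]
  obtain ⟨A, hA⟩ : ∃ A, e A = G := ⟨e.symm G, e.apply_symm_apply G⟩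
  have hAdet : A.det = 1 := by
    have : LinearMap.det (e A) = A.det := LinearMap.det_toLin' _
    rw [← this, hA, hGdet]
  let a : Matrix.SpecialLinearGroup (Fin n) F := ⟨A, hAdet⟩
  rw [isConj_iff]
  refine ⟨a, ?_⟩
  rw [mul_inv_eq_iff_eq_mul]
  apply Subtype.ext
  change A * (s : Matrix (Fin n) (Fin n) F) = (t : Matrix (Fin n) (Fin n) F) * A
  have h1 : A * ((s : Matrix (Fin n) (Fin n) F) - 1) = ((t : Matrix (Fin n) (Fin n) F) - 1) * A := by
    apply e.injective
    rw [map_mul, map_mul, hA]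
    exact hGN
  rw [mul_sub, sub_mul, mul_one, one_mul, sub_left_inj] at h1
  exact h1

end Cfsg.Agent.S2579
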