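import Cfsg.Statements.S2580

set_option autoImplicit false
open Cfsg
open Polynomial

namespace Cfsg.Agent.S2580

theorem exists_frob {K S : Type*} [Field K] [CommRing S] [Algebra K S] (pb : PowerBasis K S) :
    ∃ l : S →ₗ[K] K, ∀ a : S, a ≠ 0 → ∃ b : S, l (a * b) ≠ 0 := by
  classical
  rcases Nat.eq_zero_or_pos pb.dim with h0 | hpos
  · refine ⟨0, fun a ha => absurd ?_ ha⟩
    have : IsEmpty (Fin pb.dim) := by rw [h0]; infer_instance
    rw [← pb.basis.sum_repr a]; simp
  · set top : Fin pb.dim := ⟨pb.dim - 1, by omega⟩ with htop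
    refine ⟨pb.basis.coord top, fun a ha => ?_⟩
    have hne : (Finset.univ.filter (fun j => pb.basis.repr a j ≠ 0)).Nonempty := by
      by_contra h
      rw [Finset.not_nonempty_iff_eq_empty, Finset.filter_eq_empty_iff] at h
      apply ha
      rw [← pb.basis.sum_repr a]
      apply Finset.sum_eq_zero
      intro j _
      have := h (Finset.mem_univ j)
      simp only [ne_eq, not_not] at this
      rw [this, zero_smul]
    obtain ⟨k, hk, hmax⟩ := Finset.exists_max_image _ (fun j : Fin pb.dim => (j:ℕ)) hne
    simp only [Finset.mem_filter, Finset.mem_univ, true_and] at hk hmax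
    refine ⟨pb.gen ^ (pb.dim - 1 - k), ?_⟩
    have hexp : a * pb.gen ^ (pb.dim - 1 - k) =
        ∑ j, pb.basis.repr a j • pb.gen ^ ((j : ℕ) + (pb.dim - 1 - k)) := by
      conv_lhs => rw [← pb.basis.sum_repr a, Finset.sum_mul]
      apply Finset.sum_congr rfl
      intro j _
      rw [pb.basis_eq_pow, smul_mul_assoc, pow_add]
    rw [hexp, map_sum, Finset.sum_eq_single k]
    · rw [map_smul]
      have : pb.gen ^ ((k : ℕ) + (pb.dim - 1 - k)) = pb.basis top := by
        rw [pb.basis_eq_pow]; congr 1
        have := k.2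
        simp only [htop]; omega
      rw [this, Module.Basis.coord_apply, Module.Basis.repr_self, Finsupp.single_eq_same,
        smul_eq_mul, mul_one]
      exact hk
    · intro j _ hjk
      by_cases hj : pb.basis.repr a j = 0
      · rw [hj, zero_smul, map_zero]
      · have hle := hmax j hj
        have hlt : (j : ℕ) < k := lt_of_le_of_ne hle (fun h => hjk (Fin.ext h))
        have hk2 := k.2
        have : pb.gen ^ ((j : ℕ) + (pb.dim - 1 - k)) = pb.basis ⟨(j : ℕ) + (pb.dim - 1 - k), by omega⟩ := by
          rw [pb.basis_eq_pow]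
        rw [map_smul, this, Module.Basis.coord_apply, Module.Basis.repr_self, Finsupp.single_apply, if_neg, smul_zero]
        intro h
        rw [htop, Fin.mk.injEq] at h
        omega
    · intro h; exact absurd (Finset.mem_univ k) h

open DirectSum in
theorem exists_form {K V : Type*} [Field K] [AddCommGroup V] [Module K V] [FiniteDimensional K V]
    (T : Module.End K V) :
    ∃ B : V →ₗ[K] V →ₗ[K] K, (∀ x y, B (T x) y = B x (T y)) ∧ (∀ y, (∀ x, B x y = 0) → y = 0) := by
  classical
  have htors : Module.IsTorsion K[X] (Module.AEval' T) :=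
    Module.AEval.isTorsion_of_finiteDimensional K V T
  obtain ⟨ι, _, p, hp, e, ⟨φ⟩⟩ := Module.equiv_directSum_of_isTorsion htors
  have hl : ∀ i, ∃ l : (K[X] ⧸ Ideal.span {p i ^ e i}) →ₗ[K] K, ∀ a, a ≠ 0 → ∃ b, l (a * b) ≠ 0 :=
    fun i => exists_frob (AdjoinRoot.powerBasis (pow_ne_zero _ (hp i).ne_zero))
  choose l hl using hl
  let c : ∀ i, V →ₗ[K] (K[X] ⧸ Ideal.span {p i ^ e i}) := fun i =>
    { toFun := fun x => (φ (Module.AEval.of K V T x)) i
      map_add' := fun x y => by
        rw [map_add, map_add]; rfl
      map_smul' := fun k x => by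
        rw [map_smul, ← Module.AEval.C_smul, map_smul]
        change C k • ((φ (Module.AEval.of K V T x)) i) = _
        rw [← algebraMap_eq, algebraMap_smul]
        rfl }
  have hcT : ∀ i x, c i (T x) = (X : K[X]) • c i x := by
    intro i x
    change (φ (Module.AEval.of K V T (T x))) i = (X : K[X]) • (φ (Module.AEval.of K V T x)) i
    have : Module.AEval.of K V T (T x) = (X : K[X]) • Module.AEval.of K V T x := by
      rw [Module.AEval.X_smul_of]; rfl
    rw [this, map_smul]; rfl
  refine ⟨LinearMap.mk₂ K (fun x y => ∑ i, l i (c i x * c i y)) ?_ ?_ ?_ ?_, ?_, ?_⟩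
  · intro x x' y; simp [add_mul, Finset.sum_add_distrib]
  · intro k x y
    rw [smul_eq_mul, Finset.mul_sum]
    apply Finset.sum_congr rfl
    intro i _
    rw [map_smul, smul_mul_assoc, map_smul, smul_eq_mul]
  · intro x y y'; simp [mul_add, Finset.sum_add_distrib]
  · intro k x y
    rw [smul_eq_mul, Finset.mul_sum]
    apply Finset.sum_congr rfl
    intro i _
    rw [map_smul, mul_smul_comm, map_smul, smul_eq_mul]
  · intro x y
    simp only [LinearMap.mk₂_apply]
    apply Finset.sum_congr rfl
    intro i _
    rw [hcT, hcT, smul_mul_assoc, mul_smul_comm]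
  · intro y hy
    by_contra hne
    have h1 : φ (Module.AEval.of K V T y) ≠ 0 := by
      simpa using hne
    obtain ⟨i, hi⟩ : ∃ i, c i y ≠ 0 := by
      by_contra hall
      push Not at hall
      apply h1
      ext i
      exact hall i
    obtain ⟨b, hb⟩ := hl i _ hi
    have := hy ((Module.AEval.of K V T).symm (φ.symm (DirectSum.of _ i b)))
    simp only [LinearMap.mk₂_apply] at this
    have hc : ∀ j, c j ((Module.AEval.of K V T).symm (φ.symm (DirectSum.of _ i b))) = (DirectSum.of (fun i => K[X] ⧸ K[X] ∙ (p i ^ e i)) i b) j := by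
      intro j
      change (φ (Module.AEval.of K V T ((Module.AEval.of K V T).symm (φ.symm (DirectSum.of _ i b))))) j = _
      simp
    rw [Finset.sum_eq_single i] at this
    · rw [hc, DirectSum.of_eq_same, mul_comm] at this
      exact hb this
    · intro j _ hj
      rw [hc, DirectSum.of_eq_of_ne _ _ _ hj]
      exact (congrArg (l j) (zero_mul (c j y))).trans (map_zero _)
    · intro h; exact absurd (Finset.mem_univ i) h

theorem isConj_transpose {F ι : Type*} [Field F] [Fintype ι] [DecidableEq ι] (A : Matrix ι ι F) :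
    IsConj A A.transpose := by
  obtain ⟨B, hadj, hnd⟩ := exists_form (Matrix.toLin' A)
  set P : Matrix ι ι F := Matrix.of fun j k => B (Pi.single j 1) (Pi.single k 1) with hP
  have hPv : ∀ (j : ι) (y : ι → F), (P.mulVec y) j = B (Pi.single j 1) y := by
    intro j y
    conv_rhs => rw [pi_eq_sum_univ' y]
    rw [map_sum]
    simp only [Matrix.mulVec, dotProduct, hP, Matrix.of_apply, map_smul, smul_eq_mul]
    apply Finset.sum_congr rfl
    intro k _
    rw [mul_comm]
  have hinj : Function.Injective P.mulVec := by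
    intro y y' hyy
    have h0 : P.mulVec (y - y') = 0 := by rw [Matrix.mulVec_sub, hyy, sub_self]
    have : y - y' = 0 := by
      apply hnd
      intro x
      rw [pi_eq_sum_univ' x, map_sum, LinearMap.sum_apply]
      apply Finset.sum_eq_zero
      intro j _
      rw [map_smul, LinearMap.smul_apply, ← hPv, h0]
      simp
    exact sub_eq_zero.mp this
  have hunit : IsUnit P := Matrix.mulVec_injective_iff_isUnit.mp hinj
  obtain ⟨u, hu⟩ := hunit
  refine ⟨u, ?_⟩
  rw [SemiconjBy, hu]
  ext j k
  have h1 : (P * A) j k = B (Pi.single j 1) (Matrix.toLin' A (Pi.single k 1)) := by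
    rw [← hPv, Matrix.toLin'_apply, Matrix.mulVec_mulVec, Matrix.mulVec_single_one, Matrix.col_apply]
  have h2 : (A.transpose * P) j k = B (Matrix.toLin' A (Pi.single j 1)) (Pi.single k 1) := by
    rw [Matrix.toLin'_apply, Matrix.mulVec_single_one, pi_eq_sum_univ' (A.col j), map_sum,
      LinearMap.sum_apply, Matrix.mul_apply]
    apply Finset.sum_congr rfl
    intro l _
    rw [map_smul, LinearMap.smul_apply, hP]
    simp
  rw [h1, h2, hadj]

theorem result {F : Type*} [Field F] [Finite F] {n : ℕ} (A : Matrix (Fin n) (Fin n) F) : IsConj A A.transpose := by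
  exact isConj_transpose A

end Cfsg.Agent.S2580
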