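import Cfsg.Statements.S2582
import Cfsg.Agent.Lib.Helper48UnipEx

set_option autoImplicit false
open Cfsg

namespace Cfsg.Agent.S2582

open Matrix Cfsg.Agent.Lib.Helper48RankSeq Cfsg.Agent.Lib.Helper48UnipForm
  Cfsg.Agent.Lib.Helper48UnipEx Cfsg.Agent.Lib.Helper48AltForm

/-- Which unipotent Jordan types occur in the finite symplectic group: over a finite field, a unipotent matrix with Jordan block sizes d_1, …, d_t (sum 2m, all at least 1) is similar to an element of Sp_2m(F) if and only if every odd block size occurs an even number of times. -/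
theorem result {F : Type*} [Field F] [Fintype F] {m t : ℕ} (d : Fin t → ℕ) (hd : ∀ k, 1 ≤ d k) (hsum : ∑ k, d k = 2 * m) : (∃ e : ((k : Fin t) × Fin (d k)) ≃ (Fin m ⊕ Fin m), ∃ A : Matrix.symplecticGroup (Fin m) F, IsConj (Matrix.reindex e e (Cfsg.jordanTypeMatrix d F)) (A : Matrix (Fin m ⊕ Fin m) (Fin m ⊕ Fin m) F)) ↔ ∀ j : ℕ, Odd j → Even (Finset.univ.filter (fun k : Fin t => d k = j)).card := by
  set s : Multiset ℕ := Finset.univ.val.map d with hs
  have h0 : 0 ∉ s := by
    intro h
    obtain ⟨k, -, hk⟩ := Multiset.mem_map.1 h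
    have := hd k
    omega
  have hssum : s.sum = 2 * m := by rw [← hsum]; rfl
  have hU := rankSeq_jordan (F := F) d
  constructor
  · rintro ⟨e, A, hc⟩ j ⟨c, rfl⟩
    have hA : RankSeq A.1 s := (hU.reindex e).of_isConj hc
    have hinv : A.1ᵀ * Matrix.J (Fin m) F * A.1 = Matrix.J (Fin m) F :=
      (SymplecticGroup.mem_iff'.1 A.2)
    have hJJ : Matrix.J (Fin m) F * -Matrix.J (Fin m) F = 1 := by
      rw [Matrix.mul_neg, Matrix.J_squared, neg_neg]
    have hev : ∀ k, Even ((s.map (· - 2 * k)).sum) := by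
      intro k
      rw [← hA (2 * k)]
      exact even_rank_alt A.1 (A⁻¹).1 _ _ (Cfsg.Agent.Lib.Helper48SpRegConj.coe_mul_inv A) hJJ hinv
        Cfsg.Agent.S2589.J_alt k
    rw [← count_map_eq]
    exact even_count s (2 * c) (hev c) (hev (c + 1))
  · intro hpar
    obtain ⟨n, A, hAalt, hAs⟩ := exists_of_blocks (F := F) (fun n A => AltInv A)
      ⟨1, 1, Subsingleton.elim _ _, fun x => by simp, Subsingleton.elim _ _⟩
      (fun n n' A B hA hB => (hA.fromBlocks hB).reindex _) Even
      (fun j hj hj1 => by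
        obtain ⟨k, rfl⟩ := hj
        refine ⟨k + k, Matrix.reindex finSumFinEquiv finSumFinEquiv (UU k F),
          (altInv_UU k).reindex _, ?_⟩
        have h1 := (UU_rankSeq (F := F) k (by omega)).reindex (finSumFinEquiv (m := k) (n := k))
        rwa [two_mul] at h1)
      (fun j hj1 => by
        obtain ⟨A, A', h1, h2, h3⟩ := exists_pair (F := F) j
        exact ⟨j + j, _, (altInv_pair A A' h1 h2).reindex finSumFinEquiv, h3.reindex _⟩)
      s h0 (fun j hj => by
        rw [count_map_eq]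
        exact hpar j (Nat.not_even_iff_odd.1 hj))
    have hn : n = 2 * m := by
      have := hAs.card
      rwa [Fintype.card_fin, hssum] at this
    let e₁ : Fin n ≃ Fin m ⊕ Fin m := Fintype.equivOfCardEq (by simp [hn, two_mul])
    obtain ⟨Y, Y', hYY', halt, hinv⟩ := hAalt.reindex e₁
    obtain ⟨Q, Q', hQQ', hQ'Q, hQ⟩ := conj_into_Sp _ Y Y' hYY' halt hinv
    let e : ((k : Fin t) × Fin (d k)) ≃ (Fin m ⊕ Fin m) := Fintype.equivOfCardEq (by
      simp [hsum, two_mul])
    exact ⟨e, ⟨_, hQ⟩, (hU.reindex e).isConj ((hAs.reindex e₁).conj_units Q Q' hQQ' hQ'Q) h0⟩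

end Cfsg.Agent.S2582
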