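import Cfsg.Statements.S2583
import Cfsg.Agent.Lib.Helper48UnipOrth

set_option autoImplicit false
open Cfsg

namespace Cfsg.Agent.S2583

open Matrix Cfsg.Agent.Lib.Helper48RankSeq Cfsg.Agent.Lib.Helper48UnipForm
  Cfsg.Agent.Lib.Helper48UnipEx Cfsg.Agent.Lib.Helper48UnipOrth Cfsg.Agent.Lib.Helper48OrthConj

/-- Which unipotent Jordan types occur in a finite orthogonal group in odd characteristic: over a finite field of odd order, a unipotent matrix with Jordan block sizes d_1, …, d_t (sum n, all at least 1) is similar to an isometry of some quadratic form on F^n with non-degenerate polar form if and only if every even block size occurs an even number of times. -/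
theorem result {F : Type*} [Field F] [Fintype F] (h2 : (2 : F) ≠ 0) {n t : ℕ} (d : Fin t → ℕ) (hd : ∀ k, 1 ≤ d k) (hsum : ∑ k, d k = n) : (∃ Q : QuadraticForm F (Fin n → F), (QuadraticMap.polarBilin Q).Nondegenerate ∧ ∃ e : ((k : Fin t) × Fin (d k)) ≃ Fin n, ∃ A : ↥(Cfsg.isometryGroup F ⇑Q), IsConj (Matrix.reindex e e (Cfsg.jordanTypeMatrix d F)) ((A : Matrix.GeneralLinearGroup (Fin n) F) : Matrix (Fin n) (Fin n) F)) ↔ ∀ j : ℕ, Even j → 0 < j → Even (Finset.univ.filter (fun k : Fin t => d k = j)).card := by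
  set s : Multiset ℕ := Finset.univ.val.map d with hs
  have h0 : 0 ∉ s := by
    intro h
    obtain ⟨k, -, hk⟩ := Multiset.mem_map.1 h
    have := hd k
    omega
  have hssum : s.sum = n := by rw [← hsum]; rfl
  have hU := rankSeq_jordan (F := F) d
  constructor
  · rintro ⟨Q, hQ, e, A, hc⟩ j ⟨c, rfl⟩ hj
    have hA : RankSeq A.1.1 s := (hU.reindex e).of_isConj hc
    obtain ⟨Gu, hGu⟩ := GG_isUnit Q hQ
    have hGG' : GG Q * Units.val Gu⁻¹ = 1 := by rw [← hGu, Units.mul_inv]
    have hinv := gram_inv Q A.1.1 (fun v => Cfsg.Agent.Lib.Helper49Orth.iso_apply A v)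
    have hu : IsUnit (A.1.1 + 1) := by
      have e1 : A.1.1 + 1 = (2 : F) • (1 : Matrix (Fin n) (Fin n) F) + (A.1.1 - 1) := by
        rw [two_smul]; abel
      rw [e1]
      apply IsNilpotent.isUnit_add_left_of_commute hA.nilpotent
      · apply IsUnit.of_mul_eq_one ((2 : F)⁻¹ • (1 : Matrix (Fin n) (Fin n) F))
        rw [smul_mul_smul_comm, mul_inv_cancel₀ h2, one_smul, one_mul]
      · exact (Commute.one_right _).smul_right _
    have hev : ∀ k, Even ((s.map (· - (2 * k + 1))).sum) := by
      intro k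
      rw [← hA (2 * k + 1)]
      exact even_rank_symm A.1.1 A.1⁻¹.1 _ _ (Units.mul_inv _) hGG' hinv (GG_transpose Q) hu k
    rw [← count_map_eq]
    obtain ⟨c', rfl⟩ : ∃ c', c = c' + 1 := ⟨c - 1, by omega⟩
    have h3 := even_count s (2 * c' + 1) (hev c') (hev (c' + 1))
    have e2 : c' + 1 + (c' + 1) = 2 * c' + 1 + 1 := by ring
    rw [e2]
    exact h3
  · intro hpar
    obtain ⟨n', A, hAq, hAs⟩ := exists_of_blocks (F := F) (fun n A => QuadInv A)
      ⟨1, ⟨1, Subsingleton.elim _ _⟩, fun x => by simp⟩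
      (fun n n' A B hA hB => (hA.fromBlocks hB).reindex _) Odd
      (fun j hj hj1 => ⟨j, _, quadInv_odd h2 j hj, rankSeq_jordanBlock j⟩)
      (fun j hj1 => by
        obtain ⟨A, A', h1, h2, h3⟩ := exists_pair (F := F) j
        exact ⟨j + j, _, (quadInv_pair A A' h2).reindex finSumFinEquiv, h3.reindex _⟩)
      s h0 (fun j hj => by
        rw [count_map_eq]
        rcases Nat.eq_zero_or_pos j with rfl | hj0
        · rw [← count_map_eq, Multiset.count_eq_zero_of_notMem h0]
          exact Even.zero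
        · exact hpar j (Nat.not_odd_iff_even.1 hj) hj0)
    have hn : n' = n := by
      have := hAs.card
      rwa [Fintype.card_fin, hssum] at this
    subst hn
    exact exists_orth d hd hsum A hAq hAs

end Cfsg.Agent.S2583
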