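import Cfsg.Statements.S2584
import Cfsg.Agent.Lib.Helper48Dye

set_option autoImplicit false
open Cfsg

namespace Cfsg.Agent.S2584

open Matrix Cfsg.Agent.Lib.Helper48RankSeq Cfsg.Agent.Lib.Helper48UnipForm
  Cfsg.Agent.Lib.Helper48UnipEx Cfsg.Agent.Lib.Helper48UnipOrth Cfsg.Agent.Lib.Helper48OrthConj
  Cfsg.Agent.Lib.Helper48Dye

/-- Which unipotent Jordan types occur in a finite orthogonal group in characteristic two: over a finite field of characteristic 2 and in even dimension 2m, a unipotent matrix with Jordan block sizes d_1, …, d_t (sum 2m, all at least 1) is similar to an isometry of some quadratic form on F^(2m) with non-degenerate polar form if and only if every odd block size occurs an even number of times (the same condition as for the symplectic group, which contains these orthogonal groups). -/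
theorem result {F : Type*} [Field F] [Fintype F] [CharP F 2] {m t : ℕ} (d : Fin t → ℕ) (hd : ∀ k, 1 ≤ d k) (hsum : ∑ k, d k = 2 * m) : (∃ Q : QuadraticForm F (Fin (2 * m) → F), (QuadraticMap.polarBilin Q).Nondegenerate ∧ ∃ e : ((k : Fin t) × Fin (d k)) ≃ Fin (2 * m), ∃ A : ↥(Cfsg.isometryGroup F ⇑Q), IsConj (Matrix.reindex e e (Cfsg.jordanTypeMatrix d F)) ((A : Matrix.GeneralLinearGroup (Fin (2 * m)) F) : Matrix (Fin (2 * m)) (Fin (2 * m)) F)) ↔ ∀ j : ℕ, Odd j → Even (Finset.univ.filter (fun k : Fin t => d k = j)).card := by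
  set s : Multiset ℕ := Finset.univ.val.map d with hs
  have h0 : 0 ∉ s := by
    intro h
    obtain ⟨k, -, hk⟩ := Multiset.mem_map.1 h
    have := hd k
    omega
  have hssum : s.sum = 2 * m := by rw [← hsum]; rfl
  have hU := rankSeq_jordan (F := F) d
  constructor
  · rintro ⟨Q, hQ, e, A, hc⟩ j ⟨c, rfl⟩
    have hA : RankSeq A.1.1 s := (hU.reindex e).of_isConj hc
    obtain ⟨Gu, hGu⟩ := GG_isUnit Q hQ
    have hGG' : GG Q * Units.val Gu⁻¹ = 1 := by rw [← hGu, Units.mul_inv]
    have hinv := gram_inv Q A.1.1 (fun v => Cfsg.Agent.Lib.Helper49Orth.iso_apply A v)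
    have halt : ∀ x : Fin (2 * m) → F, x ⬝ᵥ (GG Q).mulVec x = 0 := by
      intro x
      rw [← pol_eq, QuadraticMap.polar_self, two_nsmul]
      exact CharTwo.add_self_eq_zero _
    have hev : ∀ k, Even ((s.map (· - 2 * k)).sum) := by
      intro k
      rw [← hA (2 * k)]
      exact even_rank_alt A.1.1 A.1⁻¹.1 _ _ (Units.mul_inv _) hGG' hinv halt k
    rw [← count_map_eq]
    exact even_count s (2 * c) (hev c) (hev (c + 1))
  · intro hpar
    obtain ⟨n, A, hAalt, hAs⟩ := exists_of_blocks (F := F) (fun n A => AltInv A)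
      ⟨1, 1, Subsingleton.elim _ _, fun x => by simp, Subsingleton.elim _ _⟩
      (fun n n' A B hA hB => (hA.fromBlocks hB).reindex _) Even
      (fun j hj hj1 => by
        obtain ⟨k, rfl⟩ := hj
        refine ⟨k + k, Matrix.reindex finSumFinEquiv finSumFinEquiv (UU k F),
          (altInv_UU k).reindex _, ?_⟩
        have h1 := (UU_rankSeq (F := F) k (by omega)).reindex (finSumFinEquiv (m := k) (n := k))
        rwa [two_mul] at h1)
      (fun j hj1 => by
        obtain ⟨A, A', h1, h2, h3⟩ := exists_pair (F := F) j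
        exact ⟨j + j, _, (altInv_pair A A' h1 h2).reindex finSumFinEquiv, h3.reindex _⟩)
      s h0 (fun j hj => by
        rw [count_map_eq]
        exact hpar j (Nat.not_even_iff_odd.1 hj))
    have hn : n = 2 * m := by
      have := hAs.card
      rwa [Fintype.card_fin, hssum] at this
    subst hn
    exact exists_orth d hd hsum A (quadInv_of_altInv A hAalt) hAs

end Cfsg.Agent.S2584
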