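import Cfsg.Statements.S2585
import Cfsg.Agent.Lib.Helper48Symp

set_option autoImplicit false
open Cfsg

namespace Cfsg.Agent.S2585

open Cfsg.Agent.Lib.Helper48Symp Module

variable {F : Type*} [Field F] {m : ℕ}

/-- the bilinear form `Σ u_l v_r` -/
def B0 (m : ℕ) (F : Type*) [Field F] : LinearMap.BilinForm F (SV m F) :=
  LinearMap.mk₂ F (fun u v => ∑ i, u (.inl i) * v (.inr i))
    (fun u u' v => by simp [add_mul, Finset.sum_add_distrib])
    (fun c u v => by simp [Finset.mul_sum, mul_assoc])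
    (fun u v v' => by simp [mul_add, Finset.sum_add_distrib])
    (fun c u v => by simp [Finset.mul_sum, mul_left_comm])

theorem B0_apply (u v : SV m F) : B0 m F u v = ∑ i, u (.inl i) * v (.inr i) := rfl

/-- the family of quadratic forms -/
noncomputable def Qw (w : SV m F) : QuadraticForm F (SV m F) :=
  (B0 m F).toQuadraticMap + QuadraticMap.linMulLin ((sympB m F).flip w) ((sympB m F).flip w)

theorem Qw_apply (w v : SV m F) :
    Qw w v = B0 m F v v + Cfsg.sympForm m F v w * Cfsg.sympForm m F v w := by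
  unfold Qw
  rw [add_apply, LinearMap.BilinMap.toQuadraticMap_apply, QuadraticMap.linMulLin_apply,
    LinearMap.BilinForm.flip_apply, sympB_apply]

theorem symp_add_left (u u' v : SV m F) :
    Cfsg.sympForm m F (u + u') v = Cfsg.sympForm m F u v + Cfsg.sympForm m F u' v := by
  rw [← sympB_apply, ← sympB_apply, ← sympB_apply, map_add, LinearMap.add_apply]

theorem symp_add_right (u v v' : SV m F) :
    Cfsg.sympForm m F u (v + v') = Cfsg.sympForm m F u v + Cfsg.sympForm m F u v' := by
  rw [← sympB_apply, ← sympB_apply, ← sympB_apply, map_add]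

theorem B0_symm_add [CharP F 2] (u v : SV m F) :
    B0 m F u v + B0 m F v u = Cfsg.sympForm m F u v := by
  rw [B0_apply, B0_apply, sympForm_eq, ← Finset.sum_add_distrib]
  apply Finset.sum_congr rfl
  intro i _
  rw [CharTwo.sub_eq_add]
  ring

theorem polar_Qw [CharP F 2] (w u v : SV m F) :
    QuadraticMap.polar ⇑(Qw w) u v = Cfsg.sympForm m F u v := by
  unfold QuadraticMap.polar
  rw [Qw_apply, Qw_apply, Qw_apply, symp_add_left, ← B0_symm_add u v]
  simp only [map_add, LinearMap.add_apply]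
  have h2 : (2 : F) = 0 := CharTwo.two_eq_zero
  linear_combination (Cfsg.sympForm m F u w * Cfsg.sympForm m F v w) * h2

/-- the defect of `A` on the base form -/
def delta (A : Matrix.symplecticGroup (Fin m) F) (v : SV m F) : F :=
  B0 m F ((A : Matrix (Fin m ⊕ Fin m) (Fin m ⊕ Fin m) F).mulVec v)
    ((A : Matrix (Fin m ⊕ Fin m) (Fin m ⊕ Fin m) F).mulVec v) - B0 m F v v

theorem delta_add [CharP F 2] (A : Matrix.symplecticGroup (Fin m) F) (u v : SV m F) :
    delta A (u + v) = delta A u + delta A v := by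
  unfold delta
  have h1 := B0_symm_add ((A : Matrix (Fin m ⊕ Fin m) (Fin m ⊕ Fin m) F).mulVec u)
    ((A : Matrix (Fin m ⊕ Fin m) (Fin m ⊕ Fin m) F).mulVec v)
  have h2 := B0_symm_add u v
  rw [symp_invariant] at h1
  rw [Matrix.mulVec_add]
  simp only [map_add, LinearMap.add_apply]
  linear_combination h1 - h2

theorem delta_smul (A : Matrix.symplecticGroup (Fin m) F) (c : F) (v : SV m F) :
    delta A (c • v) = c ^ 2 * delta A v := by
  unfold delta
  rw [Matrix.mulVec_smul]
  simp only [map_smul, LinearMap.smul_apply, smul_eq_mul]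
  ring

theorem exists_a [Fintype F] [CharP F 2] (A : Matrix.symplecticGroup (Fin m) F) :
    ∃ a : SV m F, ∀ v, delta A v = Cfsg.sympForm m F v a ^ 2 := by
  let l : Module.Dual F (SV m F) :=
    { toFun := fun v => (frobeniusEquiv F 2).symm (delta A v)
      map_add' := fun u v => by rw [delta_add, map_add]
      map_smul' := fun c v => by
        rw [delta_smul, map_mul, RingHom.id_apply, smul_eq_mul]
        congr 1
        rw [RingEquiv.symm_apply_eq, frobeniusEquiv_apply, frobenius_def] }
  refine ⟨((sympB m F).flip.toDual sympB_nondeg.flip).symm l, ?_⟩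
  intro v
  have h1 : (sympB m F).flip (((sympB m F).flip.toDual sympB_nondeg.flip).symm l) v = l v :=
    LinearMap.BilinForm.apply_toDual_symm_apply l v
  rw [LinearMap.BilinForm.flip_apply, sympB_apply] at h1
  rw [h1]
  change delta A v = ((frobeniusEquiv F 2).symm (delta A v)) ^ 2
  rw [← frobenius_def, ← frobeniusEquiv_apply, RingEquiv.apply_symm_apply]

theorem result {F : Type*} [Field F] [Fintype F] [CharP F 2] {m : ℕ} (A : Matrix.symplecticGroup (Fin m) F) : ∃ Q : QuadraticForm F (Fin m ⊕ Fin m → F), (∀ u v : Fin m ⊕ Fin m → F, QuadraticMap.polar ⇑Q u v = Cfsg.sympForm m F u v) ∧ ∀ v : Fin m ⊕ Fin m → F, Q ((A : Matrix (Fin m ⊕ Fin m) (Fin m ⊕ Fin m) F).mulVec v) = Q v := by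
  obtain ⟨a, ha⟩ := exists_a A
  set T : End F (SV m F) := Matrix.toLin' (A : Matrix (Fin m ⊕ Fin m) (Fin m ⊕ Fin m) F) with hT
  set Ti : End F (SV m F) := Matrix.toLin' ((A⁻¹ : Matrix.symplecticGroup (Fin m) F) : Matrix (Fin m ⊕ Fin m) (Fin m ⊕ Fin m) F) with hTi
  have hTTi : T * Ti = 1 := by
    rw [hT, hTi, Module.End.mul_eq_comp, ← Matrix.toLin'_mul]
    have : (A : Matrix (Fin m ⊕ Fin m) (Fin m ⊕ Fin m) F) * ((A⁻¹ : Matrix.symplecticGroup (Fin m) F) : Matrix (Fin m ⊕ Fin m) (Fin m ⊕ Fin m) F) = 1 := by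
      have := congrArg Subtype.val (mul_inv_cancel A)
      exact this
    rw [this, Matrix.toLin'_one]; rfl
  have hTiT : Ti * T = 1 := by
    rw [hT, hTi, Module.End.mul_eq_comp, ← Matrix.toLin'_mul]
    have : ((A⁻¹ : Matrix.symplecticGroup (Fin m) F) : Matrix (Fin m ⊕ Fin m) (Fin m ⊕ Fin m) F) * (A : Matrix (Fin m ⊕ Fin m) (Fin m ⊕ Fin m) F) = 1 := by
      have := congrArg Subtype.val (inv_mul_cancel A)
      exact this
    rw [this, Matrix.toLin'_one]; rfl
  have hinv : ∀ x y, Cfsg.sympForm m F (T x) (T y) = Cfsg.sympForm m F x y := fun x y => symp_invariant A x y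
  have hadj : ∀ x y, Cfsg.sympForm m F (T x) y = Cfsg.sympForm m F x (Ti y) := by
    intro x y
    have : y = T (Ti y) := by rw [← Module.End.mul_apply, hTTi]; rfl
    conv_lhs => rw [this]
    rw [hinv]
  -- range (Ti - 1) = (ker (T - 1))^⊥
  have hker : LinearMap.ker (Ti - 1) = LinearMap.ker (T - 1) := by
    ext x
    simp only [LinearMap.mem_ker, LinearMap.sub_apply, Module.End.one_apply, sub_eq_zero]
    constructor
    · intro h
      have : T (Ti x) = x := by rw [← Module.End.mul_apply, hTTi]; rfl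
      rw [h] at this; exact this
    · intro h
      have : Ti (T x) = x := by rw [← Module.End.mul_apply, hTiT]; rfl
      rw [h] at this; exact this
  have hle : LinearMap.range (Ti - 1) ≤ (sympB m F).orthogonal (LinearMap.ker (T - 1)) := by
    rintro _ ⟨x, rfl⟩
    rw [LinearMap.BilinForm.mem_orthogonal_iff]
    intro v hv
    rw [LinearMap.mem_ker, LinearMap.sub_apply, Module.End.one_apply, sub_eq_zero] at hv
    rw [sympB_apply, LinearMap.sub_apply, Module.End.one_apply, sub_eq_add_neg, symp_add_right, ← hadj, hv,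
      ← sympB_apply, ← sympB_apply, map_neg]
    ring
  have heq : LinearMap.range (Ti - 1) = (sympB m F).orthogonal (LinearMap.ker (T - 1)) := by
    apply Submodule.eq_of_le_of_finrank_eq hle
    rw [LinearMap.BilinForm.finrank_orthogonal sympB_nondeg]
    have := LinearMap.finrank_range_add_finrank_ker (Ti - 1)
    rw [hker] at this
    omega
  have hmem : a ∈ LinearMap.range (Ti - 1) := by
    rw [heq, LinearMap.BilinForm.mem_orthogonal_iff]
    intro v hv
    rw [LinearMap.mem_ker, LinearMap.sub_apply, Module.End.one_apply, sub_eq_zero] at hv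
    have h1 := ha v
    unfold delta at h1
    have hv' : (A : Matrix (Fin m ⊕ Fin m) (Fin m ⊕ Fin m) F).mulVec v = v := hv
    rw [hv', sub_self] at h1
    rw [sympB_apply]
    exact pow_eq_zero_iff (two_ne_zero) |>.mp h1.symm
  obtain ⟨w, hw⟩ := hmem
  refine ⟨Qw w, polar_Qw w, ?_⟩
  intro v
  rw [Qw_apply, Qw_apply]
  have h1 := ha v
  unfold delta at h1
  have h2 : Cfsg.sympForm m F v a = Cfsg.sympForm m F ((A : Matrix (Fin m ⊕ Fin m) (Fin m ⊕ Fin m) F).mulVec v) w - Cfsg.sympForm m F v w := by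
    rw [← hw, LinearMap.sub_apply, Module.End.one_apply, sub_eq_add_neg, symp_add_right, ← hadj,
      ← sympB_apply v (-w), map_neg, sympB_apply, ← sub_eq_add_neg]
    rfl
  rw [h2] at h1
  have h3 : (2 : F) = 0 := CharTwo.two_eq_zero
  linear_combination h1 + (Cfsg.sympForm m F ((A : Matrix (Fin m ⊕ Fin m) (Fin m ⊕ Fin m) F).mulVec v) w ^ 2 - Cfsg.sympForm m F ((A : Matrix (Fin m ⊕ Fin m) (Fin m ⊕ Fin m) F).mulVec v) w * Cfsg.sympForm m F v w) * h3

end Cfsg.Agent.S2585
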