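import Cfsg.Statements.S2586
import Cfsg.Agent.S2580

set_option autoImplicit false
open Cfsg

namespace Cfsg.Agent.S2586

theorem result {F : Type*} [Field F] [Finite F] {m : ℕ} (A : Matrix.symplecticGroup (Fin m) F) : IsConj (A : Matrix (Fin m ⊕ Fin m) (Fin m ⊕ Fin m) F) ((A⁻¹ : Matrix.symplecticGroup (Fin m) F) : Matrix (Fin m ⊕ Fin m) (Fin m ⊕ Fin m) F) := by
  have h1 := Cfsg.Agent.S2580.isConj_transpose (A : Matrix (Fin m ⊕ Fin m) (Fin m ⊕ Fin m) F)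
  refine h1.trans ?_
  rw [SymplecticGroup.coe_inv]
  have hJ : IsUnit (Matrix.J (Fin m) F) := by
    rw [Matrix.isUnit_iff_isUnit_det]
    exact Matrix.isUnit_det_J (Fin m) F
  obtain ⟨u, hu⟩ := hJ
  refine ⟨u, ?_⟩
  rw [SemiconjBy, hu]
  have hJJ : Matrix.J (Fin m) F * Matrix.J (Fin m) F = -1 := Matrix.J_squared (Fin m) F
  calc Matrix.J (Fin m) F * (A : Matrix (Fin m ⊕ Fin m) (Fin m ⊕ Fin m) F).transpose
      = - (Matrix.J (Fin m) F * (A : Matrix (Fin m ⊕ Fin m) (Fin m ⊕ Fin m) F).transpose * (Matrix.J (Fin m) F * Matrix.J (Fin m) F)) := by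
        rw [hJJ]; simp
    _ = _ := by
        simp only [Matrix.mul_assoc, Matrix.neg_mul]

end Cfsg.Agent.S2586
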