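import Cfsg.Statements.S2590
import Cfsg.Agent.Lib.Helper48Good2
import Cfsg.Agent.Lib.Helper49Witt

set_option autoImplicit false
open Cfsg

namespace Cfsg.Agent.S2590

open Matrix Cfsg.Agent.Lib.Helper48Good Cfsg.Agent.Lib.Helper48Good2 Cfsg.Agent.Lib.Helper49Orth

section
variable {F : Type*} [Field F] {n : ℕ} (Q : QuadraticForm F (Fin n → F))

/-- the Gram matrix of the polar form -/
noncomputable def GG : Matrix (Fin n) (Fin n) F :=
  LinearMap.BilinForm.toMatrix' (QuadraticMap.polarBilin Q)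

theorem pol_eq (x y : Fin n → F) : QuadraticMap.polar Q x y = x ⬝ᵥ (GG Q).mulVec y := by
  rw [GG, ← Matrix.toBilin'_apply', Matrix.toBilin'_toMatrix']
  rfl

theorem GG_transpose : (GG Q)ᵀ = GG Q := by
  ext i j
  simp only [GG, Matrix.transpose_apply, LinearMap.BilinForm.toMatrix'_apply]
  exact QuadraticMap.polar_comm _ _ _

theorem GG_isUnit (hQ : (QuadraticMap.polarBilin Q).Nondegenerate) : IsUnit (GG Q) := by
  rw [Matrix.isUnit_iff_isUnit_det, isUnit_iff_ne_zero, ← Matrix.nondegenerate_iff_det_ne_zero, GG,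
    LinearMap.BilinForm.nondegenerate_toMatrix'_iff]
  exact hQ

theorem eq_of_pol (M N : Matrix (Fin n) (Fin n) F)
    (h : ∀ x y : Fin n → F, x ⬝ᵥ M.mulVec y = x ⬝ᵥ N.mulVec y) : M = N := by
  ext i j
  have := h (Pi.single i 1) (Pi.single j 1)
  simpa using this

/-- the adjoint with respect to a symmetric invertible matrix -/
def sg (G G' : Matrix (Fin n) (Fin n) F) : Matrix (Fin n) (Fin n) F →+ Matrix (Fin n) (Fin n) F where
  toFun X := G' * Xᵀ * G
  map_zero' := by simp
  map_add' X Y := by rw [Matrix.transpose_add, mul_add, add_mul]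

theorem sg_apply (G G' X : Matrix (Fin n) (Fin n) F) : sg G G' X = G' * Xᵀ * G := rfl

theorem sg_mul (G G' : Matrix (Fin n) (Fin n) F) (h : G * G' = 1) (X Y : Matrix (Fin n) (Fin n) F) :
    sg G G' (X * Y) = sg G G' Y * sg G G' X := by
  simp only [sg_apply, Matrix.transpose_mul]
  calc G' * (Yᵀ * Xᵀ) * G = G' * Yᵀ * 1 * Xᵀ * G := by simp only [mul_one, mul_assoc]
    _ = _ := by rw [← h]; simp only [mul_assoc]

theorem sg_one (G G' : Matrix (Fin n) (Fin n) F) (h : G' * G = 1) : sg G G' 1 = 1 := by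
  rw [sg_apply, Matrix.transpose_one, mul_one, h]

theorem sg_sg (G G' : Matrix (Fin n) (Fin n) F) (h : G * G' = 1) (h' : G' * G = 1) (hG : Gᵀ = G)
    (X : Matrix (Fin n) (Fin n) F) : sg G G' (sg G G' X) = X := by
  have hG' : G'ᵀ = G' := by
    have h1 : G'ᵀ * G = 1 := by
      have := congrArg Matrix.transpose h
      rwa [Matrix.transpose_mul, Matrix.transpose_one, hG] at this
    calc G'ᵀ = G'ᵀ * (G * G') := by rw [h, mul_one]
      _ = G' := by rw [← mul_assoc, h1, one_mul]
  simp only [sg_apply, Matrix.transpose_mul, Matrix.transpose_transpose, hG, hG']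
  calc G' * (G * (X * G')) * G = (G' * G) * X * (G' * G) := by simp only [mul_assoc]
    _ = X := by rw [h', one_mul, mul_one]

theorem sg_smul (G G' : Matrix (Fin n) (Fin n) F) (c : F) (X : Matrix (Fin n) (Fin n) F) :
    sg G G' (c • X) = c • sg G G' X := by
  simp only [sg_apply, Matrix.transpose_smul, mul_smul_comm, smul_mul_assoc]

theorem semiconj_EE (k : ℕ) (X a b : Matrix (Fin n) (Fin n) F) (h : X * a = b * X) :
    X * EE F k a = EE F k b * X := by
  rw [EE, EE, mul_smul_comm, smul_mul_assoc, Finset.mul_sum, Finset.sum_mul]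
  congr 1
  refine Finset.sum_congr rfl fun i _ => ?_
  exact (SemiconjBy.pow_right (show SemiconjBy X a b from h) i).eq

/-- an isometry satisfies `st a * a = 1` -/
theorem sg_mul_self (G' : Matrix (Fin n) (Fin n) F) (h' : G' * GG Q = 1)
    (a : Matrix (Fin n) (Fin n) F) (ha : ∀ v, Q (a *ᵥ v) = Q v) : sg (GG Q) G' a * a = 1 := by
  have h1 : aᵀ * GG Q * a = GG Q := by
    apply eq_of_pol
    intro x y
    rw [← pol_eq]
    have h2 : QuadraticMap.polar Q (a *ᵥ x) (a *ᵥ y) = QuadraticMap.polar Q x y := by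
      unfold QuadraticMap.polar
      rw [← Matrix.mulVec_add, ha, ha, ha]
    rw [← h2, pol_eq, ← Matrix.mulVec_mulVec, ← Matrix.mulVec_mulVec, Matrix.dotProduct_mulVec x,
      Matrix.vecMul_transpose]
  rw [sg_apply, mul_assoc, mul_assoc, ← mul_assoc aᵀ, h1, h']


theorem core [Finite F] (hQ : (QuadraticMap.polarBilin Q).Nondegenerate)
    (a a' b b' X X' : Matrix (Fin n) (Fin n) F) (k : ℕ) (hk : (k : F) ≠ 0) (hodd : Odd k)
    (ha : ∀ v, Q (a *ᵥ v) = Q v) (hb : ∀ v, Q (b *ᵥ v) = Q v) (hak : a ^ k = 1)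
    (haa' : a * a' = 1) (ha'a : a' * a = 1) (hbb' : b * b' = 1) (hb'b : b' * b = 1)
    (hXX' : X * X' = 1) (hX'X : X' * X = 1) (hX : X * a = b * X) :
    ∃ g : ↥(Cfsg.isometryGroup F ⇑Q),
      ((g : Matrix.GeneralLinearGroup (Fin n) F) : Matrix (Fin n) (Fin n) F) * a
        = b * ((g : Matrix.GeneralLinearGroup (Fin n) F) : Matrix (Fin n) (Fin n) F) := by
  obtain ⟨Gu, hGu⟩ := GG_isUnit Q hQ
  set G : Matrix (Fin n) (Fin n) F := GG Q with hG
  set G' : Matrix (Fin n) (Fin n) F := Units.val Gu⁻¹ with hG'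
  have hGG' : G * G' = 1 := by rw [← hGu, hG', Units.mul_inv]
  have hG'G : G' * G = 1 := by rw [← hGu, hG', Units.inv_mul]
  have hGt : Gᵀ = G := GG_transpose Q
  set st := sg G G' with hst
  have hmul : ∀ x y, st (x * y) = st y * st x := sg_mul G G' hGG'
  have hone : st 1 = 1 := sg_one G G' hG'G
  have hst2 : ∀ x, st (st x) = x := sg_sg G G' hGG' hG'G hGt
  have hsmul : ∀ (c : F) x, st (c • x) = c • st x := sg_smul G G'
  have hiso : ∀ c : Matrix (Fin n) (Fin n) F, (∀ v, Q (c *ᵥ v) = Q v) → st c * c = 1 :=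
    fun c hc => sg_mul_self Q G' hG'G c hc
  have hsta : st a = a' := by
    calc st a = st a * (a * a') := by rw [haa', mul_one]
      _ = a' := by rw [← mul_assoc, hiso a ha, one_mul]
  have hstb : st b = b' := by
    calc st b = st b * (b * b') := by rw [hbb', mul_one]
      _ = b' := by rw [← mul_assoc, hiso b hb, one_mul]
  have hbk : b ^ k = 1 := by
    have h1 := (SemiconjBy.pow_right (show SemiconjBy X a b from hX) k).eq
    rw [hak, mul_one] at h1
    calc b ^ k = b ^ k * (X * X') := by rw [hXX', mul_one]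
      _ = 1 := by rw [← mul_assoc, ← h1, hXX']
  -- the form `H`
  set H := st X * X with hH
  have hstH : st H = H := by rw [hH, hmul, hst2]
  have hHH' : H * (X' * st X') = 1 := by
    rw [hH, mul_assoc, ← mul_assoc X, hXX', one_mul, ← hmul, hX'X, hone]
  have hH'H : (X' * st X') * H = 1 := by
    rw [hH, mul_assoc, ← mul_assoc (st X'), ← hmul, hXX', hone, one_mul, hX'X]
  have hXb : st X * b = a * st X := by
    have h1 := congrArg st hX
    rw [hmul, hmul, hsta, hstb] at h1
    calc st X * b = (a * a') * st X * b := by rw [haa', one_mul]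
      _ = a * (a' * st X) * b := by simp only [mul_assoc]
      _ = a * st X * (b' * b) := by rw [h1]; simp only [mul_assoc]
      _ = a * st X := by rw [hb'b, mul_one]
  have hc : a * H = H * a := by
    rw [hH, mul_assoc (st X), hX, ← mul_assoc, ← mul_assoc, hXb]
  obtain ⟨Z, Z', hZZ', hZ'Z, haZ, hZ⟩ := exists_unit_odd st hmul hone hst2 hsmul k hk hodd a a' H
    (X' * st X') hak haa' ha'a hsta hstH hHH' hH'H hc
  set ep := EE F k a with hep
  set eg := 1 - ep with heg
  set eB := EE F k b with heB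
  have hpp : ep * ep = ep := EE_idem k hk a hak
  have hgp : eg * ep = 0 := by rw [heg, sub_mul, one_mul, hpp, sub_self]
  have hgg : eg * eg = eg := by rw [heg, mul_sub, mul_one, ← heg, hgp, sub_zero]
  have hstp : st ep = ep := by
    rw [hep, st_EE st hmul hone hsmul, hsta, EE_inv k hk a a' hak haa' ha'a]
  have hstB : st eB = eB := by
    rw [heB, st_EE st hmul hone hsmul, hstb, EE_inv k hk b b' hbk hbb' hb'b]
  have hstg : st eg = eg := by rw [heg, map_sub, hone, hstp]
  have hZa : Commute Z a := haZ.symm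
  have hZ'a : Commute Z' a := (commute_inv_right a Z Z' hZZ' hZ'Z haZ).symm
  have hZp : Commute Z ep := commute_EE k a Z hZa
  have hZ'p : Commute Z' ep := commute_EE k a Z' hZ'a
  have hZ'g : Commute Z' eg := (Commute.one_right Z').sub_right hZ'p
  have hstZ : st Z' * st Z = 1 := by rw [← hmul, hZZ', hone]
  set y := X * Z' with hy
  set y' := Z * X' with hy'
  have hyy' : y * y' = 1 := by
    rw [hy, hy', mul_assoc, ← mul_assoc Z', hZ'Z, one_mul, hXX']
  have hy'y : y' * y = 1 := by
    rw [hy, hy', mul_assoc, ← mul_assoc X', hX'X, one_mul, hZZ']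
  have hya : y * a = b * y := by
    rw [hy, mul_assoc, hZ'a.eq, ← mul_assoc, hX, mul_assoc]
  have hyp : y * ep = eB * y := semiconj_EE k y a b hya
  have hyg : y * eg = (1 - eB) * y := by rw [heg, mul_sub, mul_one, hyp, sub_mul, one_mul]
  have h1 : st Z' * ep * Z' = ep := by
    have h2 : st Z * Z * ep = ep := by
      rw [hZ, add_mul, mul_assoc, hgp, mul_zero, zero_add, hpp]
    have h3 : Z * ep = st Z' * ep := by
      calc Z * ep = (st Z' * st Z) * Z * ep := by rw [hstZ, one_mul]
        _ = st Z' * (st Z * Z * ep) := by simp only [mul_assoc]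
        _ = st Z' * ep := by rw [h2]
    rw [← h3, hZp.eq, mul_assoc, hZZ', mul_one]
  have hyyg : st y * y * eg = eg := by
    have h2 : H * eg = st Z * Z - ep := by rw [hZ, add_sub_cancel_right]
    calc st y * y * eg = st Z' * (st X * X) * (Z' * eg) := by
          rw [hy, hmul]; simp only [mul_assoc]
      _ = st Z' * (H * eg) * Z' := by rw [hZ'g.eq, ← hH]; simp only [mul_assoc]
      _ = (st Z' * st Z) * (Z * Z') - st Z' * ep * Z' := by
          rw [h2, mul_sub, sub_mul]; simp only [mul_assoc]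
      _ = eg := by rw [hstZ, hZZ', h1, one_mul]
  have hadj : ∀ (M : Matrix (Fin n) (Fin n) F) (x z : Fin n → F),
      QuadraticMap.polar Q (M *ᵥ x) z = QuadraticMap.polar Q x (st M *ᵥ z) := by
    intro M x z
    rw [pol_eq, pol_eq, Matrix.mulVec_mulVec, hst, sg_apply, ← hG, ← mul_assoc, ← mul_assoc, hGG',
      one_mul, ← Matrix.mulVec_mulVec, Matrix.dotProduct_mulVec x, Matrix.vecMul_transpose]
  have hpol : ∀ x x' : Fin n → F, eg *ᵥ x' = x' →
      QuadraticMap.polar Q (y *ᵥ x) (y *ᵥ x') = QuadraticMap.polar Q x x' := by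
    intro x x' hx'
    rw [hadj, Matrix.mulVec_mulVec]
    conv_lhs => rw [← hx']
    rw [Matrix.mulVec_mulVec, hyyg, hx']
  have hadd : ∀ x x' : Fin n → F, eg *ᵥ x' = x' →
      Q (y *ᵥ (x + x')) - Q (x + x') = (Q (y *ᵥ x) - Q x) + (Q (y *ᵥ x') - Q x') := by
    intro x x' hx'
    rw [Matrix.mulVec_add, Q_add, Q_add, hpol x x' hx']
    ring
  have hinv : ∀ x : Fin n → F, Q (y *ᵥ (a *ᵥ x)) - Q (a *ᵥ x) = Q (y *ᵥ x) - Q x := by
    intro x
    rw [Matrix.mulVec_mulVec, hya, ← Matrix.mulVec_mulVec, hb, ha]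
  have hzero : ∀ x : Fin n → F, eg *ᵥ x = x → Q (y *ᵥ x) = Q x := by
    intro x hx
    set w := WW F k a *ᵥ x with hw
    have hgW : eg * WW F k a = WW F k a * eg := by
      have h2 : Commute ep (WW F k a) :=
        commute_WW k a ep (commute_EE k a a (Commute.refl a)).symm
      exact ((Commute.one_left _).sub_left h2).eq
    have hgw : eg *ᵥ w = w := by
      rw [hw, Matrix.mulVec_mulVec, hgW, ← Matrix.mulVec_mulVec, hx]
    have hgw' : eg *ᵥ (-w) = -w := by rw [Matrix.mulVec_neg, hgw]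
    have hxw : x = a *ᵥ w + -w := by
      conv_lhs => rw [← hx, heg, hep, ← sub_one_mul_WW k hk a hak, ← Matrix.mulVec_mulVec, ← hw,
        Matrix.sub_mulVec, Matrix.one_mulVec]
      rw [sub_eq_add_neg]
    have h3 := hadd (a *ᵥ w) (-w) hgw'
    have h4 := hadd w (-w) hgw'
    rw [← hxw, hinv] at h3
    rw [add_neg_cancel, Matrix.mulVec_zero, sub_self] at h4
    rw [← h4] at h3
    exact sub_eq_zero.1 h3
  -- Witt
  set V' : Submodule F (Fin n → F) := LinearMap.range (Matrix.mulVecLin eg) with hV'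
  have hV : ∀ x ∈ V', eg *ᵥ x = x := by
    rintro x ⟨v, rfl⟩
    rw [Matrix.mulVecLin_apply, Matrix.mulVec_mulVec, hgg]
  set f : V' →ₗ[F] (Fin n → F) := (Matrix.mulVecLin y).domRestrict V' with hf
  have hfinj : Function.Injective f := by
    intro x x' hxx
    have h2 : y *ᵥ (x : Fin n → F) = y *ᵥ (x' : Fin n → F) := hxx
    have h3 := congrArg (fun v => y' *ᵥ v) h2
    simp only [Matrix.mulVec_mulVec, hy'y, Matrix.one_mulVec] at h3
    exact Subtype.ext h3
  obtain ⟨g, hg⟩ := Cfsg.Agent.Lib.Helper49Witt.witt Q hQ V' (LinearMap.range f)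
    (LinearEquiv.ofInjective f hfinj) (fun x => by
      rw [LinearEquiv.ofInjective_apply]
      exact hzero x (hV x x.2))
  refine ⟨g, ?_⟩
  set gm : Matrix (Fin n) (Fin n) F := ((g : Matrix.GeneralLinearGroup (Fin n) F) :
    Matrix (Fin n) (Fin n) F) with hgm
  have hgy : gm * eg = y * eg := by
    apply Matrix.mulVec_injective
    funext v
    rw [← Matrix.mulVec_mulVec, ← Matrix.mulVec_mulVec]
    have h2 := hg ⟨eg *ᵥ v, ⟨v, rfl⟩⟩
    rw [LinearEquiv.ofInjective_apply] at h2
    exact h2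
  have hgiso : st gm * gm = 1 := hiso gm (fun v => iso_apply g v)
  have hB1 : 1 - eB = gm * eg * y' := by
    rw [hgy, hyg, mul_assoc, hyy', mul_one]
  have hB2 : 1 - eB = st y' * eg * st gm := by
    have h2 := congrArg st hB1
    rw [map_sub, hone, hstB, hmul (gm * eg) y', hmul gm eg, hstg, ← mul_assoc] at h2
    exact h2
  have hB3 : (1 - eB) * (gm * ep) = 0 := by
    rw [hB2, mul_assoc, ← mul_assoc (st gm), hgiso, one_mul, mul_assoc, hgp, mul_zero]
  have hB4 : gm * ep = eB * (gm * ep) := by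
    rw [sub_mul, one_mul, sub_eq_zero] at hB3
    exact hB3
  have hB5 : b * (gm * ep) = gm * ep := by
    rw [hB4, ← mul_assoc, mul_EE k b hbk]
  have hag : a * eg = eg * a := by
    have h2 : Commute a ep := commute_EE k a a (Commute.refl a)
    exact ((Commute.one_right _).sub_right h2).eq
  have hsum : eg + ep = 1 := by rw [heg, sub_add_cancel]
  calc gm * a = gm * a * (eg + ep) := by rw [hsum, mul_one]
    _ = gm * eg * a + gm * (a * ep) := by rw [mul_add, mul_assoc, hag]; simp only [mul_assoc]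
    _ = y * eg * a + gm * ep := by rw [hgy, mul_EE k a hak]
    _ = b * (y * eg) + b * (gm * ep) := by
        rw [hB5, mul_assoc, ← hag, ← mul_assoc, hya, mul_assoc]
    _ = b * gm * (eg + ep) := by rw [← hgy, mul_add]; simp only [mul_assoc]
    _ = b * gm := by rw [hsum, mul_one]

end

/-- Two semisimple elements of odd order of a finite orthogonal group (isometry group of a quadratic form on F^n with non-degenerate polar form, F finite of characteristic p; the elements have odd order prime to p) are conjugate in the orthogonal group if and only if they are conjugate in GL_n(F). -/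
theorem result {F : Type*} [Field F] [Fintype F] {p : ℕ} [Fact p.Prime] [CharP F p] {n : ℕ} (Q : QuadraticForm F (Fin n → F)) (hQ : (QuadraticMap.polarBilin Q).Nondegenerate) (A B : ↥(Cfsg.isometryGroup F ⇑Q)) (hodd : Odd (orderOf A)) (hA : (orderOf A).Coprime p) : IsConj A B ↔ IsConj ((A : Matrix.GeneralLinearGroup (Fin n) F) : Matrix (Fin n) (Fin n) F) ((B : Matrix.GeneralLinearGroup (Fin n) F) : Matrix (Fin n) (Fin n) F) := by
  constructor
  · intro h
    exact ((Units.coeHom (Matrix (Fin n) (Fin n) F)).comp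
      (Cfsg.isometryGroup F ⇑Q).subtype).map_isConj h
  · rintro ⟨X, hX⟩
    have hk : ((orderOf A : ℕ) : F) ≠ 0 := by
      intro h0
      rw [CharP.cast_eq_zero_iff F p] at h0
      have h1 : p ∣ Nat.gcd (orderOf A) p := Nat.dvd_gcd h0 dvd_rfl
      rw [hA] at h1
      exact (Fact.out : p.Prime).one_lt.ne' (Nat.dvd_one.1 h1)
    have hak : ((A : Matrix.GeneralLinearGroup (Fin n) F) : Matrix (Fin n) (Fin n) F) ^ orderOf A
        = 1 := by
      have h1 := pow_orderOf_eq_one A
      have h2 := congrArg (fun g : ↥(Cfsg.isometryGroup F ⇑Q) =>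
        ((g : Matrix.GeneralLinearGroup (Fin n) F) : Matrix (Fin n) (Fin n) F)) h1
      exact h2
    obtain ⟨g, hg⟩ := core Q hQ A.1.1 A.1⁻¹.1 B.1.1 B.1⁻¹.1 X.1 X⁻¹.1 (orderOf A) hk hodd
      (fun v => iso_apply A v) (fun v => iso_apply B v) hak (Units.mul_inv _) (Units.inv_mul _)
      (Units.mul_inv _) (Units.inv_mul _) (Units.mul_inv _) (Units.inv_mul _) hX.eq
    rw [isConj_iff]
    refine ⟨g, ?_⟩
    rw [mul_inv_eq_iff_eq_mul]
    apply Subtype.ext
    apply Units.ext
    exact hg

end Cfsg.Agent.S2590
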