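import Cfsg.Statements.S2591
import Cfsg.Agent.Lib.Helper48SpRegConj
import Cfsg.Agent.Lib.Helper48SpRegEx
import Cfsg.Agent.Lib.Helper48CycConj

set_option autoImplicit false
open Cfsg

namespace Cfsg.Agent.S2591

open Matrix Cfsg.Agent.Lib.Helper48Trunc Cfsg.Agent.Lib.Helper48TruncRep Cfsg.Agent.Lib.Helper48SpReg
  Cfsg.Agent.Lib.Helper48Cayley Cfsg.Agent.Lib.Helper48SpRegConj Cfsg.Agent.Lib.Helper48SpRegEx
  Cfsg.Agent.Lib.Helper48CycConj

theorem ringChar_ne_two {F : Type*} [Field F] [Fintype F] (hq : Odd (Fintype.card F)) :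
    ringChar F ≠ 2 := by
  intro h2
  have h3 := FiniteField.even_card_iff_char_two.1 h2
  exact (Nat.not_even_iff_odd.2 hq) (Nat.even_iff.2 h3)

theorem conj_pow' {M : Type*} [Monoid M] (y y' N : M) (h1 : y * y' = 1) (h2 : y' * y = 1) (k : ℕ) :
    (y * N * y') ^ k = y * N ^ k * y' := by
  induction k with
  | zero => rw [pow_zero, pow_zero, mul_one, h1]
  | succ k ih =>
    rw [pow_succ, ih, pow_succ]
    calc y * N ^ k * y' * (y * N * y') = y * N ^ k * (y' * y) * N * y' := by simp only [mul_assoc]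
      _ = y * (N ^ k * N) * y' := by rw [h2, mul_one]; simp only [mul_assoc]

theorem square_dichotomy {F : Type*} [Field F] [Fintype F] (a b : F)
    (ha : ¬ IsSquare a) (hb : b ≠ 0) : (∃ e, e ≠ 0 ∧ b = 1 * (e * e)) ∨ ∃ e, e ≠ 0 ∧ b = a * (e * e) := by
  classical
  have ha0 : a ≠ 0 := by
    rintro rfl
    exact ha (IsSquare.zero)
  by_cases hbs : IsSquare b
  · left
    obtain ⟨e, he⟩ := hbs
    refine ⟨e, ?_, by rw [one_mul, he]⟩
    rintro rfl
    apply hb; rw [he, mul_zero]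
  · right
    have h1 : quadraticChar F a = -1 := (quadraticChar_neg_one_iff_not_isSquare).2 ha
    have h2 : quadraticChar F b = -1 := (quadraticChar_neg_one_iff_not_isSquare).2 hbs
    have h3 : quadraticChar F (b * a⁻¹) = 1 := by
      have h4 : quadraticChar F (b * a⁻¹) * quadraticChar F a = quadraticChar F b := by
        rw [← map_mul, mul_assoc, inv_mul_cancel₀ ha0, mul_one]
      rw [h1, h2] at h4
      linarith
    have h5 : b * a⁻¹ ≠ 0 := mul_ne_zero hb (inv_ne_zero ha0)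
    obtain ⟨e, he⟩ := (quadraticChar_one_iff_isSquare h5).1 h3
    refine ⟨e, ?_, ?_⟩
    · rintro rfl
      apply h5; rw [he, mul_zero]
    · rw [← he]; field_simp

/-- Over a finite field of odd order and for m ≥ 1, the regular unipotent elements of Sp_2m(F) (u − 1 nilpotent of rank 2m − 1, a single Jordan block) form exactly two conjugacy classes of Sp_2m(F) (one class under the similarity group, which splits in two). -/
theorem result {F : Type*} [Field F] [Fintype F] {q : ℕ} (hF : Fintype.card F = q) (hq : Odd q) {m : ℕ} (hm : 1 ≤ m) : Nat.card {C : ConjClasses ↥(Matrix.symplecticGroup (Fin m) F) // ∃ u : Matrix.symplecticGroup (Fin m) F, ConjClasses.mk u = C ∧ ((u : Matrix (Fin m ⊕ Fin m) (Fin m ⊕ Fin m) F) - 1) ^ (2 * m) = 0 ∧ ((u : Matrix (Fin m ⊕ Fin m) (Fin m ⊕ Fin m) F) - 1).rank = 2 * m - 1} = 2 := by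
  have hch : ringChar F ≠ 2 := ringChar_ne_two (hF ▸ hq)
  have h2 : (2 : F) ≠ 0 := Ring.two_ne_zero hch
  have hn : 2 * m ≠ 0 := by omega
  obtain ⟨u₀, hnil₀, hreg₀⟩ := exists_regular h2 hm
  obtain ⟨Λ, hinj, hrange, hst⟩ := structure_thm h2 hm u₀ hnil₀ hreg₀
  obtain ⟨a, ha⟩ := FiniteField.exists_nonsquare hch
  have ha0 : a ≠ 0 := by
    rintro rfl
    exact ha (IsSquare.zero)
  set y : Matrix (Fin m ⊕ Fin m) (Fin m ⊕ Fin m) F := Matrix.fromBlocks (a • 1) 0 0 1 with hy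
  set y' : Matrix (Fin m ⊕ Fin m) (Fin m ⊕ Fin m) F := Matrix.fromBlocks (a⁻¹ • 1) 0 0 1 with hy'
  have hyy' : y * y' = 1 := by
    rw [hy, hy', Matrix.fromBlocks_multiply]
    simp [smul_smul, inv_mul_cancel₀ ha0]
  have hy'y : y' * y = 1 := by
    rw [hy, hy', Matrix.fromBlocks_multiply]
    simp [smul_smul, mul_inv_cancel₀ ha0]
  have hsty : st y * y = a • 1 := by
    rw [st_apply, hy, Matrix.J, Matrix.fromBlocks_transpose, Matrix.fromBlocks_neg,
      Matrix.fromBlocks_multiply, Matrix.fromBlocks_multiply, Matrix.fromBlocks_multiply,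
      ← Matrix.fromBlocks_one, Matrix.fromBlocks_smul]
    simp
  have hy4 := st_inv_of_simil y y' a ha0 hyy' hsty
  set U₀ : Matrix (Fin m ⊕ Fin m) (Fin m ⊕ Fin m) F := u₀.1 with hU₀
  have hmem : y * U₀ * y' ∈ Matrix.symplecticGroup (Fin m) F := by
    rw [mem_iff_st, st_mul, st_mul]
    calc st y' * (st U₀ * st y) * (y * U₀ * y') = st y' * (st U₀ * (st y * y) * U₀) * y' := by
          simp only [mul_assoc]
      _ = 1 := by
          rw [hsty, mul_smul_comm, mul_one, smul_mul_assoc, (mem_iff_st _).1 u₀.2, mul_smul_comm,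
            mul_one, smul_mul_assoc, hy4, smul_smul, mul_inv_cancel₀ ha0, one_smul]
  let u₁ : Matrix.symplecticGroup (Fin m) F := ⟨y * U₀ * y', hmem⟩
  have hsub : y * U₀ * y' - 1 = y * (U₀ - 1) * y' := by
    rw [mul_sub, sub_mul, mul_one, hyy']
  have hyu : IsUnit y.det := by
    rw [← Matrix.isUnit_iff_isUnit_det]
    exact ⟨⟨y, y', hyy', hy'y⟩, rfl⟩
  have hyu' : IsUnit y'.det := by
    rw [← Matrix.isUnit_iff_isUnit_det]
    exact ⟨⟨y', y, hy'y, hyy'⟩, rfl⟩
  have hnil₁ : ((u₁ : Matrix (Fin m ⊕ Fin m) (Fin m ⊕ Fin m) F) - 1) ^ (2 * m) = 0 := by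
    change (y * U₀ * y' - 1) ^ (2 * m) = 0
    rw [hsub, conj_pow' _ _ _ hyy' hy'y, hnil₀, mul_zero, zero_mul]
  have hreg₁ : ((u₁ : Matrix (Fin m ⊕ Fin m) (Fin m ⊕ Fin m) F) - 1).rank = 2 * m - 1 := by
    change (y * U₀ * y' - 1).rank = 2 * m - 1
    rw [hsub, Matrix.rank_mul_eq_left_of_isUnit_det _ _ hyu',
      Matrix.rank_mul_eq_right_of_isUnit_det _ _ hyu, hreg₀]
  have hconj₁ : (u₁ : Matrix (Fin m ⊕ Fin m) (Fin m ⊕ Fin m) F) * y = y * U₀ := by
    change y * U₀ * y' * y = y * U₀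
    rw [mul_assoc, hy'y, mul_one]
  have hne : ¬ IsConj u₀ u₁ :=
    not_conj u₀ Λ hinj hrange hst hn u₁ y y' a ha0 ha hyy' hy'y hsty hconj₁
  rw [Nat.card_eq_two_iff]
  refine ⟨⟨ConjClasses.mk u₀, u₀, rfl, hnil₀, hreg₀⟩, ⟨ConjClasses.mk u₁, u₁, rfl, hnil₁, hreg₁⟩,
    ?_, ?_⟩
  · intro h
    have h3 := congrArg Subtype.val h
    exact hne (ConjClasses.mk_eq_mk_iff_isConj.1 h3)
  · rw [Set.eq_univ_iff_forall]
    rintro ⟨C, u, rfl, hnil, hreg⟩
    have hcard : Fintype.card (Fin m ⊕ Fin m) = (2 * m - 1) + 1 := by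
      simp only [Fintype.card_sum, Fintype.card_fin]; omega
    have h2m : 2 * m - 1 + 1 = 2 * m := by omega
    obtain ⟨g, hg⟩ := matrix_exists_conj (U₀ - 1) (u.1 - 1) hcard
      (by rw [h2m]; exact hnil₀) hreg₀ (by rw [h2m]; exact hnil) hreg
    have hconj : (u : Matrix (Fin m ⊕ Fin m) (Fin m ⊕ Fin m) F) * (g : Matrix _ _ F)
        = (g : Matrix _ _ F) * U₀ := by
      rw [mul_sub, sub_mul, mul_one, one_mul] at hg
      exact (sub_left_injective hg).symm
    obtain ⟨r, hr, hσ, hε⟩ := key u₀ Λ hinj hrange hst hn u (g : Matrix _ _ F)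
      ((g⁻¹ : GL _ F) : Matrix _ _ F) (by rw [← Units.val_mul, mul_inv_cancel, Units.val_one])
      (by rw [← Units.val_mul, inv_mul_cancel, Units.val_one]) hconj
    rcases square_dichotomy a _ ha hε with ⟨e, he, hee⟩ | ⟨e, he, hee⟩
    · left
      apply Subtype.ext
      apply ConjClasses.mk_eq_mk_iff_isConj.2
      apply IsConj.symm
      have e1 : (1 : Matrix (Fin m ⊕ Fin m) (Fin m ⊕ Fin m) F) * 1 = 1 := one_mul 1
      have e2 : st (1 : Matrix (Fin m ⊕ Fin m) (Fin m ⊕ Fin m) F) * 1 = (1 : F) • 1 := by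
        rw [st_one, one_mul, one_smul]
      have e3 : U₀ * 1 = 1 * U₀ := by rw [mul_one, one_mul]
      exact conj_of_eps u₀ Λ hinj hrange hst hn h2 u u₀ g.1
        (1 : Matrix (Fin m ⊕ Fin m) (Fin m ⊕ Fin m) F) (1 : Matrix (Fin m ⊕ Fin m) (Fin m ⊕ Fin m) F)
        (1 : F) e one_ne_zero he hconj e1 e1 e2 e3 r hr hσ hee
    · right
      apply Subtype.ext
      apply ConjClasses.mk_eq_mk_iff_isConj.2
      apply IsConj.symm
      exact conj_of_eps u₀ Λ hinj hrange hst hn h2 u u₁ g.1 y y' a e ha0 he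
        hconj hyy' hy'y hsty hconj₁ r hr hσ hee

end Cfsg.Agent.S2591
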