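import Cfsg.Statements.S2592
import Cfsg.Agent.Lib.Helper48SpReg
import Cfsg.Agent.Lib.Helper48Cayley

set_option autoImplicit false
open Cfsg

namespace Cfsg.Agent.S2592

open Cfsg.Agent.Lib.Helper48Trunc Cfsg.Agent.Lib.Helper48TruncRep Cfsg.Agent.Lib.Helper48SpReg
  Cfsg.Agent.Lib.Helper48Cayley

theorem two_ne_zero_of_odd {F : Type*} [Field F] [Fintype F] (hq : Odd (Fintype.card F)) :
    (2 : F) ≠ 0 := by
  intro h
  have h1 : ringChar F ∣ 2 := by
    have := (ringChar.spec F 2).1 (by exact_mod_cast h)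
    exact this
  have h2 : ringChar F = 2 := by
    rcases (Nat.dvd_prime Nat.prime_two).1 h1 with h3 | h3
    · exact absurd h3 (CharP.ringChar_ne_one)
    · exact h3
  have h3 := FiniteField.even_card_iff_char_two.1 h2
  exact (Nat.not_even_iff_odd.2 hq) (Nat.even_iff.2 h3)

/-- Over a finite field with q elements, q odd, the centraliser in Sp_2m(F) (m ≥ 1) of a regular unipotent element (u − 1 nilpotent of rank 2m − 1) has order 2 q^m. -/
theorem result {F : Type*} [Field F] [Fintype F] {q : ℕ} (hF : Fintype.card F = q) (hq : Odd q) {m : ℕ} (hm : 1 ≤ m) (u : Matrix.symplecticGroup (Fin m) F) (hnil : ((u : Matrix (Fin m ⊕ Fin m) (Fin m ⊕ Fin m) F) - 1) ^ (2 * m) = 0) (hreg : ((u : Matrix (Fin m ⊕ Fin m) (Fin m ⊕ Fin m) F) - 1).rank = 2 * m - 1) : Nat.card ↥(Subgroup.centralizer ({u} : Set ↥(Matrix.symplecticGroup (Fin m) F))) = 2 * q ^ m := by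
  have h2 : (2 : F) ≠ 0 := two_ne_zero_of_odd (hF ▸ hq)
  obtain ⟨Λ, hinj, hrange, hst⟩ := structure_thm h2 hm u hnil hreg
  have hn : 2 * m ≠ 0 := by omega
  have _ : Finite (RR F (2 * m)) := finite_RR F (2 * m)
  have hcard := card_unitary (sig F (2 * m)).toRingHom (eps F (2 * m) hn).toRingHom
    (eps_sig F (2 * m) hn) (isUnit_of_eps F (2 * m) hn) h2
  have hskew := card_skew (F := F) h2 m
  have e : ↥(Subgroup.centralizer ({u} : Set ↥(Matrix.symplecticGroup (Fin m) F))) ≃
      {c : RR F (2 * m) // (sig F (2 * m)).toRingHom c * c = 1} := by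
    symm
    refine Equiv.ofBijective (fun c => ⟨⟨Λ c.1, ?_⟩, ?_⟩) ⟨?_, ?_⟩
    · rw [mem_iff_st, hst, ← map_mul]
      have := c.2
      change sig F (2 * m) c.1 * c.1 = 1 at this
      rw [this, map_one]
    · rw [Subgroup.mem_centralizer_singleton_iff]
      apply Subtype.ext
      exact (hrange (Λ c.1)).2 ⟨c.1, rfl⟩
    · intro c c' h
      apply Subtype.ext
      apply hinj
      exact congrArg (fun z => ((z : ↥(Subgroup.centralizer ({u} : Set ↥(Matrix.symplecticGroup (Fin m) F)))).1).1) h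
    · intro g
      have h3 := Subgroup.mem_centralizer_singleton_iff.1 g.2
      obtain ⟨r, hr⟩ := (hrange g.1.1).1 (congrArg Subtype.val h3)
      refine ⟨⟨r, ?_⟩, ?_⟩
      · apply hinj
        change Λ (sig F (2 * m) r * r) = Λ 1
        rw [map_mul, ← hst, hr, map_one]
        exact (mem_iff_st _).1 g.1.2
      · apply Subtype.ext
        apply Subtype.ext
        exact hr
  rw [Nat.card_congr e, hcard]
  change 2 * Nat.card {y : RR F (2 * m) // sig F (2 * m) y = -y} = _
  rw [hskew, hF]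

end Cfsg.Agent.S2592
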