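import Cfsg.Statements.S2593
import Cfsg.Agent.Lib.Helper42SpInv
import Cfsg.Agent.Lib.Helper42InvEx

set_option autoImplicit false
open Cfsg

namespace Cfsg.Agent.S2593

open Cfsg.Agent.Lib.Helper17Symp Cfsg.Agent.Lib.Helper42Inv Cfsg.Agent.Lib.Helper42SpInv
  Cfsg.Agent.Lib.Helper42InvEx

theorem sB_symm {F : Type*} [Field F] [CharP F 2] {m : ℕ} (x y : Fin m ⊕ Fin m → F) :
    sB m x y = sB m y x := by
  have h := (sB_alt (F := F) (m := m)).neg_eq x y
  rw [← h]
  exact (CharTwo.neg_eq _).symm

theorem invariants_of_conj {F : Type*} [Field F] {m : ℕ} (a b c : Matrix.symplecticGroup (Fin m) F)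
    (hc : c * a * c⁻¹ = b) :
    Module.finrank F (LinearMap.range (NN a)) = Module.finrank F (LinearMap.range (NN b)) ∧
    ((∀ v, sB m v (NN a v) = 0) ↔ (∀ v, sB m v (NN b v) = 0)) := by
  have hcm : (c : Matrix (Fin m ⊕ Fin m) (Fin m ⊕ Fin m) F)
      * (c⁻¹ : Matrix.symplecticGroup (Fin m) F).1 = 1 := congrArg Subtype.val (mul_inv_cancel c)
  have hcm' : (c⁻¹ : Matrix.symplecticGroup (Fin m) F).1
      * (c : Matrix (Fin m ⊕ Fin m) (Fin m ⊕ Fin m) F) = 1 := congrArg Subtype.val (inv_mul_cancel c)
  have hbm : (b : Matrix (Fin m ⊕ Fin m) (Fin m ⊕ Fin m) F)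
      = c.1 * a.1 * (c⁻¹ : Matrix.symplecticGroup (Fin m) F).1 := by
    rw [← hc]; rfl
  have hpres := (mem_symplecticGroup_iff_preserves m c.1).mp c.2
  have hint : ∀ x, Matrix.mulVec c.1 (NN a x) = NN b (Matrix.mulVec c.1 x) := by
    intro x
    rw [NN_apply, NN_apply, hbm, Matrix.mulVec_sub, Matrix.mulVec_mulVec, Matrix.mulVec_mulVec,
      mul_assoc, mul_assoc, hcm', mul_one]
  constructor
  · rw [← rank_eq, ← rank_eq]
    have h1 : (b : Matrix (Fin m ⊕ Fin m) (Fin m ⊕ Fin m) F) - 1
        = c.1 * (a.1 - 1) * (c⁻¹ : Matrix.symplecticGroup (Fin m) F).1 := by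
      rw [hbm, mul_sub, sub_mul, mul_one, hcm]
    have hu1 : IsUnit c.1.det := by
      apply IsUnit.of_mul_eq_one (c⁻¹ : Matrix.symplecticGroup (Fin m) F).1.det
      rw [← Matrix.det_mul, hcm, Matrix.det_one]
    have hu2 : IsUnit (c⁻¹ : Matrix.symplecticGroup (Fin m) F).1.det := by
      apply IsUnit.of_mul_eq_one c.1.det
      rw [← Matrix.det_mul, hcm', Matrix.det_one]
    rw [h1, Matrix.rank_mul_eq_left_of_isUnit_det _ _ hu2,
      Matrix.rank_mul_eq_right_of_isUnit_det _ _ hu1]
  · constructor
    · intro hA w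
      have h1 := hA (Matrix.mulVec (c⁻¹ : Matrix.symplecticGroup (Fin m) F).1 w)
      rw [sB_apply, ← hpres, hint, Matrix.mulVec_mulVec, hcm, Matrix.one_mulVec, ← sB_apply] at h1
      exact h1
    · intro hB v
      have h1 := hB (Matrix.mulVec c.1 v)
      rw [sB_apply, ← hint, hpres, ← sB_apply] at h1
      exact h1

theorem exists_sp {F : Type*} [Field F] [CharP F 2] {m : ℕ} {ι : Type*} [Fintype ι]
    [DecidableEq ι] [Nonempty ι] (σ : ι → ι) (hσ : ∀ i, σ (σ i) = i) (emb : ι → Fin m)
    (hemb : Function.Injective emb) :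
    ∃ a : Matrix.symplecticGroup (Fin m) F, orderOf a = 2 ∧
      NN a = mkN (sB m) σ (fun i => Pi.single (Sum.inl (emb i)) 1) ∧
      Dat (sB m) (NN a) σ (fun i => Pi.single (Sum.inr (emb i)) 1) := by
  have hdual : ∀ i j, sB m (Pi.single (Sum.inr (emb i)) (1 : F) : Fin m ⊕ Fin m → F)
      (Pi.single (Sum.inl (emb j)) 1) = if i = j then 1 else 0 := by
    intro i j
    rw [sB_apply, sympForm_single_inl, Pi.single_apply]
    simp only [Sum.inr.injEq]
    by_cases h : i = j
    · simp [h]
    · have : emb j ≠ emb i := fun hh => h (hemb hh).symm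
      simp [h, this]
  have hiso : ∀ i j, sB m (Pi.single (Sum.inl (emb i)) (1 : F) : Fin m ⊕ Fin m → F)
      (Pi.single (Sum.inl (emb j)) 1) = 0 := by
    intro i j
    rw [sB_apply, sympForm_single_inl, Pi.single_apply]
    simp
  obtain ⟨N, hN⟩ : ∃ N, N = mkN (sB (F := F) m) σ (fun i => Pi.single (Sum.inl (emb i)) 1) :=
    ⟨_, rfl⟩
  have hsq : ∀ x, N (N x) = 0 := by rw [hN]; exact mkN_sq hiso
  have hsa : ∀ x y, sB m (N x) y = sB m x (N y) := by rw [hN]; exact mkN_sa sB_symm hσ
  have hdat : Dat (sB m) N σ (fun i => Pi.single (Sum.inr (emb i)) 1) := by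
    rw [hN]; exact mkN_dat hσ _ hdual
  have hA : ∀ x, Matrix.mulVec (LinearMap.toMatrix' (LinearMap.id + N)) x = x + N x := by
    intro x
    rw [LinearMap.toMatrix'_mulVec]
    rfl
  have h2 : ∀ w : Fin m ⊕ Fin m → F, w + w = 0 := fun w => by
    funext i
    exact CharTwo.add_self_eq_zero _
  have hmem : LinearMap.toMatrix' (LinearMap.id + N) ∈ Matrix.symplecticGroup (Fin m) F := by
    rw [mem_symplecticGroup_iff_preserves]
    intro x y
    rw [hA, hA, ← sB_apply, ← sB_apply]
    simp only [map_add, LinearMap.add_apply]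
    rw [hsa x (N y), hsq, hsa x y]
    have := CharTwo.add_self_eq_zero (sB m x (N y))
    simp only [map_zero, add_zero]
    linear_combination this
  have hNN : NN ⟨_, hmem⟩ = N := by
    apply LinearMap.ext
    intro x
    rw [NN_apply]
    change Matrix.mulVec (LinearMap.toMatrix' (LinearMap.id + N)) x - x = N x
    rw [hA]; abel
  refine ⟨⟨_, hmem⟩, ?_, by rw [hNN, hN], by rw [hNN]; exact hdat⟩
  apply orderOf_eq_prime
  · rw [pow_two]
    apply Subtype.ext
    change LinearMap.toMatrix' (LinearMap.id + N) * LinearMap.toMatrix' (LinearMap.id + N) = 1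
    apply Matrix.mulVec_injective
    funext x
    rw [← Matrix.mulVec_mulVec, hA, hA, Matrix.one_mulVec, map_add, hsq, add_zero, add_assoc, h2,
      add_zero]
  · intro h1
    obtain ⟨i0⟩ := (inferInstance : Nonempty ι)
    have h3 := hdat.gram (σ i0) i0
    rw [← hNN, h1] at h3
    have h4 : NN (1 : Matrix.symplecticGroup (Fin m) F) = 0 := by
      apply LinearMap.ext
      intro x
      rw [NN_apply]
      simp
    rw [h4] at h3
    simp at h3


/-- Number of conjugacy classes of involutions in the symplectic group Sp_2m(F) over a finite field of characteristic two (m ≥ 1): for each s with 1 ≤ s ≤ m there is one class with rank(t − 1) = s if s is odd and two if s is even (according as v ↦ f(v, tv), f the symplectic form, vanishes identically or not), so m + ⌊m/2⌋ classes in all. -/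
theorem result {F : Type*} [Field F] [Fintype F] [CharP F 2] {m : ℕ} (hm : 1 ≤ m) : Nat.card {C : ConjClasses ↥(Matrix.symplecticGroup (Fin m) F) // ∃ g : Matrix.symplecticGroup (Fin m) F, ConjClasses.mk g = C ∧ orderOf g = 2} = m + m / 2 := by
  classical
  rw [card_classes (fun g : Matrix.symplecticGroup (Fin m) F => orderOf g = 2)
    (fun g => (Module.finrank F (LinearMap.range (NN g)), decide (∀ v, sB m v (NN g v) = 0)))]
  · have hset : ∀ x : ℕ × Bool, (∃ g : Matrix.symplecticGroup (Fin m) F, orderOf g = 2 ∧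
        (Module.finrank F (LinearMap.range (NN g)), decide (∀ v, sB m v (NN g v) = 0)) = x) ↔
        (1 ≤ x.1 ∧ x.1 ≤ m ∧ (x.2 = true → Even x.1 ∧ x.1 ≤ m)) := by
      rintro ⟨l, b⟩
      constructor
      · rintro ⟨g, hg, hx⟩
        obtain ⟨rfl, rfl⟩ := Prod.mk.inj hx
        have hg2 := sq_of_order g hg
        have hle : Module.finrank F (LinearMap.range (NN g)) ≤ m := by
          have h1 := LinearMap.finrank_range_add_finrank_ker (NN g)
          have h2 : LinearMap.range (NN g) ≤ LinearMap.ker (NN g) := by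
            rintro _ ⟨x, rfl⟩
            exact NN_sq g hg2 x
          have h3 := Submodule.finrank_mono h2
          have h4 : Module.finrank F (Fin m ⊕ Fin m → F) = 2 * m := by simp; ring
          omega
        refine ⟨?_, hle, ?_⟩
        · by_contra h0
          have h1 : Module.finrank F (LinearMap.range (NN g)) = 0 := by
            simp only at h0
            omega
          rw [Submodule.finrank_eq_zero, LinearMap.range_eq_bot] at h1
          have h2 : g = 1 := by
            apply Subtype.ext
            apply Matrix.mulVec_injective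
            funext x
            have := congrArg (fun L => L x) h1
            simp only [NN_apply, LinearMap.zero_apply] at this
            rw [sub_eq_zero.mp this]
            simp
          rw [h2, orderOf_one] at hg
          omega
        · intro hb
          exact ⟨even_rank_of_alt g hg2 (by simpa using hb), hle⟩
      · rintro ⟨h1, h2, h3⟩
        simp only at h1 h2 h3
        cases b with
        | false =>
          haveI : Nonempty (Fin l) := ⟨⟨0, by omega⟩⟩
          obtain ⟨a, ha, -, hdat⟩ := exists_sp (F := F) (m := m) (id : Fin l → Fin l) (fun _ => rfl)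
            (Fin.castLE h2) (Fin.castLE_injective h2)
          refine ⟨a, ha, ?_⟩
          rw [hdat.finrank_range (fun _ => rfl)]
          simp only [Fintype.card_fin, Prod.mk.injEq, decide_eq_false_iff_not, true_and]
          intro hall
          have := hdat.gram ⟨0, by omega⟩ ⟨0, by omega⟩
          rw [hall] at this
          simp at this
        | true =>
          obtain ⟨⟨k, hk⟩, -⟩ := h3 rfl
          haveI : Nonempty (Fin k ⊕ Fin k) := ⟨Sum.inl ⟨0, by omega⟩⟩
          obtain ⟨a, ha, hN, hdat⟩ := exists_sp (F := F) (m := m) (Sum.swap : Fin k ⊕ Fin k → _)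
            (fun i => Sum.swap_swap i)
            (fun i => Fin.castLE (by omega : k + k ≤ m) (finSumFinEquiv i))
            (fun i j hij => finSumFinEquiv.injective (Fin.castLE_injective _ hij))
          refine ⟨a, ha, ?_⟩
          rw [hdat.finrank_range (fun i => Sum.swap_swap i)]
          simp only [Fintype.card_sum, Fintype.card_fin, Prod.mk.injEq, decide_eq_true_eq]
          refine ⟨hk.symm, fun v => ?_⟩
          rw [hN]
          exact gamma_swap v
    rw [Nat.card_congr (Equiv.subtypeEquivRight hset), card_pairs]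
    simp
  · intro a b ha hb
    simp only [Prod.mk.injEq, decide_eq_decide]
    constructor
    · intro hab
      obtain ⟨c, hc⟩ := isConj_iff.mp hab
      exact invariants_of_conj a b c hc
    · rintro ⟨h1, h2⟩
      exact conj_iff_aux a b (sq_of_order a ha) (sq_of_order b hb) h1 h2

end Cfsg.Agent.S2593
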