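import Cfsg.Statements.S2594
import Cfsg.Agent.Lib.Helper7SpFrame
import Cfsg.Agent.Lib.Helper48Transv

set_option autoImplicit false
open Cfsg

namespace Cfsg.Agent.S2594

open Module Matrix Cfsg.Agent.Lib Cfsg.Agent.Lib.Helper17Symp Cfsg.Agent.Lib.Helper17Symp2

variable {F : Type*} [Field F] {m : ℕ}

local notation "V" => (Fin m ⊕ Fin m → F)
local notation "ff" => sympForm m F
local notation "MM" => Matrix (Fin m ⊕ Fin m) (Fin m ⊕ Fin m) F

/-- normal form of a symplectic transvection -/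
theorem exists_vec (t : Matrix.symplecticGroup (Fin m) F) (ht : ((t : MM) - 1).rank = 1) :
    ∃ (w : V) (c : F), w ≠ 0 ∧ c ≠ 0 ∧ ∀ y, (t : MM) *ᵥ y = y + (c * ff y w) • w := by
  have hr : finrank F (LinearMap.range (Matrix.toLin' ((t : MM) - 1))) = 1 := by
    rw [← ht, Matrix.rank, Matrix.toLin'_apply']
  obtain ⟨x₀, hx₀, hspan, -⟩ := Helper48Transv.rank_one_data _ hr
  set w : V := Matrix.toLin' ((t : MM) - 1) x₀ with hw
  have ht' : ∀ y, (t : MM) *ᵥ y = y + Matrix.toLin' ((t : MM) - 1) y := by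
    intro y
    rw [Matrix.toLin'_apply, Matrix.sub_mulVec, Matrix.one_mulVec]; abel
  have hkey : ∀ y a, Matrix.toLin' ((t : MM) - 1) y = a • w → ff y w = a * ff x₀ w := by
    intro y a hy
    have h1 := preserves t y x₀
    rw [ht' y, ht' x₀, hy, ← hw] at h1
    simp only [sympForm_add_left, sympForm_add_right, sympForm_smul_left, sympForm_self,
      mul_zero, add_zero] at h1
    rw [sympForm_swap m w x₀] at h1
    linear_combination h1
  have hc : ff x₀ w ≠ 0 := by
    intro h0
    apply hx₀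
    apply sympForm_nondeg m
    intro y
    obtain ⟨a, ha⟩ := hspan y
    rw [sympForm_swap, hkey y a ha, h0, mul_zero, neg_zero]
  refine ⟨w, (ff x₀ w)⁻¹, hx₀, inv_ne_zero hc, ?_⟩
  intro y
  obtain ⟨a, ha⟩ := hspan y
  rw [ht' y, ha, hkey y a ha]
  congr 2
  field_simp


/-- the action on vectors -/
@[reducible] def act : MulAction (Matrix.symplecticGroup (Fin m) F) V where
  smul g x := (g : MM) *ᵥ x
  one_smul x := by
    change ((1 : Matrix.symplecticGroup (Fin m) F) : MM) *ᵥ x = x
    simp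
  mul_smul g h x := coe_mul_mulVec g h x

theorem exists_partner (v : V) (hv : v ≠ 0) : ∃ x, ff x v = 1 := by
  by_contra hcon
  push Not at hcon
  apply hv
  apply sympForm_nondeg m
  intro y
  by_contra hy
  apply hcon ((- (ff v y)⁻¹) • y)
  rw [sympForm_smul_left, sympForm_swap m y v]
  field_simp

theorem orbit_eq (v : V) (hv : v ≠ 0) :
    @MulAction.orbit (Matrix.symplecticGroup (Fin m) F) V act.toSMul v = {x | x ≠ 0} := by
  let _ := act (F := F) (m := m)
  ext x
  constructor
  · rintro ⟨g, rfl⟩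
    intro h0
    apply hv
    have h1 : (g : MM) *ᵥ v = 0 := h0
    have := coe_inv_mulVec' g v
    rw [h1, Matrix.mulVec_zero] at this
    exact this.symm
  · intro hx
    obtain ⟨y, hy⟩ := exists_partner v hv
    obtain ⟨y', hy'⟩ := exists_partner x hx
    obtain ⟨A, -, hA⟩ := trans_vec ⊤ v (-y) x (-y') trivial trivial trivial trivial
      (by rw [sympForm_swap, sympForm_neg_left, hy]; simp)
      (by rw [sympForm_swap, sympForm_neg_left, hy']; simp)
    exact ⟨A, hA⟩

theorem centralizer_eq [CharP F 2] (t : Matrix.symplecticGroup (Fin m) F) (v : V) (hv : v ≠ 0)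
    (ht : ∀ y, (t : MM) *ᵥ y = y + (ff y v) • v) :
    Subgroup.centralizer ({t} : Set (Matrix.symplecticGroup (Fin m) F))
      = @MulAction.stabilizer (Matrix.symplecticGroup (Fin m) F) V _ act v := by
  let _ := act (F := F) (m := m)
  ext g
  rw [Subgroup.mem_centralizer_iff, MulAction.mem_stabilizer_iff]
  change _ ↔ (g : MM) *ᵥ v = v
  constructor
  · intro h
    have h1 := h t rfl
    obtain ⟨x, hx⟩ := exists_partner v hv
    have h2 : ((t * g : Matrix.symplecticGroup (Fin m) F) : MM) *ᵥ x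
        = ((g * t : Matrix.symplecticGroup (Fin m) F) : MM) *ᵥ x := by rw [h1]
    rw [coe_mul_mulVec, coe_mul_mulVec, ht, ht, hx, one_smul, Matrix.mulVec_add] at h2
    have h3 : (g : MM) *ᵥ v = (ff ((g : MM) *ᵥ x) v) • v := (add_left_cancel h2).symm
    set a := ff ((g : MM) *ᵥ x) v with ha
    have h4 : a * a = 1 := by
      have h5 := preserves g x v
      rw [h3, sympForm_smul_right, hx] at h5
      exact h5
    have h6 : a = 1 := by
      have h7 : (a + 1) * (a + 1) = 0 := by
        have h2' : (2 : F) = 0 := CharP.cast_eq_zero F 2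
        linear_combination h4 + (a + 1) * h2'
      have h8 : a + 1 = 0 := by simpa using h7
      have h2' : (2 : F) = 0 := CharP.cast_eq_zero F 2
      linear_combination h8 - h2'
    rw [h3, h6, one_smul]
  · intro h s hs
    rw [Set.mem_singleton_iff] at hs
    subst hs
    apply Subtype.ext
    apply Matrix.toLin'.injective
    apply LinearMap.ext
    intro x
    rw [Matrix.toLin'_apply, Matrix.toLin'_apply, coe_mul_mulVec, coe_mul_mulVec, ht, ht,
      Matrix.mulVec_add, Matrix.mulVec_smul, h]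
    congr 2
    conv_lhs => rw [← h]
    exact preserves g x v


/-- Over a finite field with q elements, q even, an element t of Sp_2m(F) with rank(t − 1) = 1 (a symplectic transvection) has centraliser in Sp_2m(F) of order q^(2m−1) · |Sp_(2m−2)(q)| = q^(2m−1) · q^((m−1)²) · Π_(i=1)^(m−1) (q^(2i) − 1). -/
theorem result {F : Type*} [Field F] [Fintype F] [CharP F 2] {q : ℕ} (hF : Fintype.card F = q) {m : ℕ} (hm : 1 ≤ m) (t : Matrix.symplecticGroup (Fin m) F) (ht : ((t : Matrix (Fin m ⊕ Fin m) (Fin m ⊕ Fin m) F) - 1).rank = 1) : Nat.card ↥(Subgroup.centralizer ({t} : Set ↥(Matrix.symplecticGroup (Fin m) F))) = q ^ (2 * m - 1) * (q ^ ((m - 1) ^ 2) * ∏ i : Fin (m - 1), (q ^ (2 * ((i : ℕ) + 1)) - 1)) := by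
  classical
  obtain ⟨w, c, hw, hc, hwc⟩ := exists_vec t ht
  obtain ⟨b, hb⟩ := FiniteField.isSquare_of_char_two (ringChar.eq F 2) c
  have hb0 : b ≠ 0 := by
    rintro rfl
    apply hc
    rw [hb, mul_zero]
  have hv : b • w ≠ 0 := smul_ne_zero hb0 hw
  have htv : ∀ y, (t : Matrix (Fin m ⊕ Fin m) (Fin m ⊕ Fin m) F) *ᵥ y
      = y + (sympForm m F y (b • w)) • (b • w) := by
    intro y
    rw [hwc, sympForm_smul_right, smul_smul, hb]
    congr 2
    ring
  rw [centralizer_eq t (b • w) hv htv]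
  let _ := act (F := F) (m := m)
  have h1 := Subgroup.card_mul_index (MulAction.stabilizer (Matrix.symplecticGroup (Fin m) F) (b • w))
  rw [MulAction.index_stabilizer, orbit_eq _ hv, Helper7SpFrame.card_symplecticGroup, hF] at h1
  have h2 : ({x | x ≠ 0} : Set (Fin m ⊕ Fin m → F)).ncard = q ^ (2 * m) - 1 := by
    have h3 : ({x | x ≠ 0} : Set (Fin m ⊕ Fin m → F)) = ({0} : Set (Fin m ⊕ Fin m → F))ᶜ := by
      ext x; simp
    rw [h3, Set.ncard_compl, Set.ncard_singleton, Nat.card_eq_fintype_card]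
    simp [hF, two_mul]
  rw [h2] at h1
  obtain ⟨k, rfl⟩ : ∃ k, m = k + 1 := ⟨m - 1, by omega⟩
  rw [Finset.prod_range_succ] at h1
  have hq : 2 ≤ q := by
    rw [← hF]; exact Fintype.one_lt_card
  have hpos : 0 < q ^ (2 * (k + 1)) - 1 := by
    have : 2 ≤ q ^ (2 * (k + 1)) := by
      calc 2 ≤ q := hq
        _ = q ^ 1 := (pow_one q).symm
        _ ≤ q ^ (2 * (k + 1)) := Nat.pow_le_pow_right (by omega) (by omega)
    omega
  rw [← mul_assoc] at h1
  have h4 := Nat.eq_of_mul_eq_mul_right hpos h1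
  rw [h4, Nat.add_sub_cancel, ← mul_assoc, ← pow_add, Finset.prod_range (fun i => q ^ (2 * (i + 1)) - 1)]
  congr 2
  have : 2 * (k + 1) - 1 = 2 * k + 1 := by omega
  rw [this]
  ring

end Cfsg.Agent.S2594
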