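import Cfsg.Statements.S2595
import Cfsg.Agent.Lib.Helper42OInv3

set_option autoImplicit false
open Cfsg

namespace Cfsg.Agent.S2595

open Cfsg.Agent.Lib.Helper42Inv Cfsg.Agent.Lib.Helper42OInv Cfsg.Agent.Lib.Helper42OInv2
  Cfsg.Agent.Lib.Helper42OInv3 Cfsg.Agent.Lib.Helper42InvEx Cfsg.Agent.Lib.Helper49Forms

/-- Number of conjugacy classes of involutions in the full orthogonal group O⁺_2m(F) of the hyperbolic quadratic form Σ x_i y_i over a finite field of characteristic two (m ≥ 1): one class for each odd s ≤ m and two for each even s with 2 ≤ s ≤ m, where s = rank(t − 1); in all m + ⌊m/2⌋. -/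
theorem result {F : Type*} [Field F] [Fintype F] [CharP F 2] {m : ℕ} (hm : 1 ≤ m) : Nat.card {C : ConjClasses ↥(Cfsg.isometryGroup F (Cfsg.quadFormPlus m F)) // ∃ g : ↥(Cfsg.isometryGroup F (Cfsg.quadFormPlus m F)), ConjClasses.mk g = C ∧ orderOf g = 2} = m + m / 2 := by
  classical
  rw [← coe_QPlus m]
  have hQ := Cfsg.Agent.Lib.Helper49Rank.QPlus_nondegenerate (F := F) m
  rw [card_classes (fun g : ↥(Cfsg.isometryGroup F ⇑(QPlus m F)) => orderOf g = 2)
    (fun g => (Module.finrank F (LinearMap.range (NO (QPlus m F) g)),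
      decide (∀ v, QuadraticMap.polarBilin (QPlus m F) v (NO (QPlus m F) g v) = 0)))]
  · have hset : ∀ x : ℕ × Bool, (∃ g : ↥(Cfsg.isometryGroup F ⇑(QPlus m F)), orderOf g = 2 ∧
        (Module.finrank F (LinearMap.range (NO (QPlus m F) g)),
          decide (∀ v, QuadraticMap.polarBilin (QPlus m F) v (NO (QPlus m F) g v) = 0)) = x) ↔
        (1 ≤ x.1 ∧ x.1 ≤ m ∧ (x.2 = true → Even x.1 ∧ x.1 ≤ m)) := by
      rintro ⟨l, b⟩
      constructor
      · rintro ⟨g, hg, hx⟩
        obtain ⟨rfl, rfl⟩ := Prod.mk.inj hx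
        obtain ⟨h1, h2, h3⟩ := bounds (QPlus m F) hQ (Cfsg.Agent.Lib.Helper49Fam2.finrank_V m) g hg
        exact ⟨h1, h2, fun hb => ⟨(h3 (by simpa using hb)).1, h2⟩⟩
      · rintro ⟨h1, h2, h3⟩
        simp only at h1 h2 h3
        cases b with
        | false =>
          obtain ⟨k1, k2, k3⟩ := hyp_O (QPlus m F) (fun i : Fin m => Sum.inl i)
            (fun i : Fin m => Sum.inr i) (fun i => hypPair_QPlus m i)
            (fun i j h => by simpa using h) (fun i j h => by simpa using h) (fun i j => by simp)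
          obtain ⟨t, ht, hr, hty⟩ := exists_O_id (QPlus m F) _ _ k1 k2 k3 l h1 (Fin.castLE h2)
            (Fin.castLE_injective h2)
          refine ⟨t, ht, ?_⟩
          rw [hr]
          simp only [Prod.mk.injEq, true_and, decide_eq_false_iff_not]
          exact hty
        | true =>
          obtain ⟨⟨k, hk⟩, -⟩ := h3 rfl
          obtain ⟨k1, k2, k3⟩ := hyp_A (QPlus m F) (fun i : Fin m => Sum.inl i)
            (fun i : Fin m => Sum.inr i) (fun i => hypPair_QPlus m i)
            (fun i j h => by simpa using h) (fun i j => by simp)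
          obtain ⟨t, ht, hr, hty⟩ := exists_O_swap (QPlus m F) _ _ k1 k2 k3 k (by omega)
            (fun i => Fin.castLE (by omega : k + k ≤ m) (finSumFinEquiv i))
            (fun i j hij => finSumFinEquiv.injective (Fin.castLE_injective _ hij))
          refine ⟨t, ht, ?_⟩
          rw [hr]
          simp only [Prod.mk.injEq, decide_eq_true_eq]
          exact ⟨hk.symm, hty⟩
    rw [Nat.card_congr (Equiv.subtypeEquivRight hset), card_pairs]
    simp
  · intro a b ha hb
    simp only [Prod.mk.injEq, decide_eq_decide]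
    exact isConj_iff_inv _ hQ a b ha hb

end Cfsg.Agent.S2595
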