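import Cfsg.Statements.S2596
import Cfsg.Agent.Lib.Helper42OInv3

set_option autoImplicit false
open Cfsg

namespace Cfsg.Agent.S2596

open Cfsg.Agent.Lib.Helper42Inv Cfsg.Agent.Lib.Helper42OInv Cfsg.Agent.Lib.Helper42OInv2
  Cfsg.Agent.Lib.Helper42OInv3 Cfsg.Agent.Lib.Helper42InvEx Cfsg.Agent.Lib.Helper49Forms

/-- Number of conjugacy classes of involutions in the full orthogonal group O⁻_2m(F) of an elliptic quadratic form (Σ_(i<m−1) x_i y_i plus an anisotropic binary form) over a finite field of characteristic two (m ≥ 1): one class for each odd s ≤ m, two for each even s with 2 ≤ s < m and one for s = m when m is even, where s = rank(t − 1); in all m + ⌊(m − 1)/2⌋. -/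
theorem result {F : Type*} [Field F] [Fintype F] [CharP F 2] {m : ℕ} (hm : 1 ≤ m) (a b : F) (hab : ∀ z₁ z₂ : F, z₁ ^ 2 + a * z₁ * z₂ + b * z₂ ^ 2 = 0 → z₁ = 0 ∧ z₂ = 0) : Nat.card {C : ConjClasses ↥(Cfsg.isometryGroup F (Cfsg.quadFormMinus (m - 1) F a b)) // ∃ g : ↥(Cfsg.isometryGroup F (Cfsg.quadFormMinus (m - 1) F a b)), ConjClasses.mk g = C ∧ orderOf g = 2} = m + (m - 1) / 2 := by
  classical
  obtain ⟨k, rfl⟩ : ∃ k, m = k + 1 := ⟨m - 1, by omega⟩
  change Nat.card {C : ConjClasses ↥(Cfsg.isometryGroup F (Cfsg.quadFormMinus k F a b)) //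
    ∃ g : ↥(Cfsg.isometryGroup F (Cfsg.quadFormMinus k F a b)),
      ConjClasses.mk g = C ∧ orderOf g = 2} = k + 1 + k / 2
  rw [← coe_QMinus k a b]
  have hQ := Cfsg.Agent.Lib.Helper49Rank.QMinus_nondegenerate k hab
  rw [card_classes (fun g : ↥(Cfsg.isometryGroup F ⇑(QMinus k F a b)) => orderOf g = 2)
    (fun g => (Module.finrank F (LinearMap.range (NO (QMinus k F a b) g)),
      decide (∀ v, QuadraticMap.polarBilin (QMinus k F a b) v (NO (QMinus k F a b) g v) = 0)))]
  · have hset : ∀ x : ℕ × Bool, (∃ g : ↥(Cfsg.isometryGroup F ⇑(QMinus k F a b)), orderOf g = 2 ∧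
        (Module.finrank F (LinearMap.range (NO (QMinus k F a b) g)),
          decide (∀ v, QuadraticMap.polarBilin (QMinus k F a b) v (NO (QMinus k F a b) g v) = 0))
          = x) ↔
        (1 ≤ x.1 ∧ x.1 ≤ k + 1 ∧ (x.2 = true → Even x.1 ∧ x.1 ≤ k)) := by
      rintro ⟨l, b'⟩
      constructor
      · rintro ⟨g, hg, hx⟩
        obtain ⟨rfl, rfl⟩ := Prod.mk.inj hx
        obtain ⟨h1, h2, h3⟩ := bounds (QMinus k F a b) hQ (finrank_minus k) g hg
        exact ⟨h1, h2, fun hb => ⟨(h3 (by simpa using hb)).1,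
          TS_minus_le k hab _ (h3 (by simpa using hb)).2⟩⟩
      · rintro ⟨h1, h2, h3⟩
        simp only at h1 h2 h3
        cases b' with
        | false =>
          obtain ⟨k1, k2, k3⟩ := minus_O k a b (a_ne_zero hab)
          obtain ⟨emb⟩ := Function.Embedding.nonempty_of_card_le
            (α := Fin l) (β := Fin k ⊕ Unit) (by simpa using h2)
          obtain ⟨t, ht, hr, hty⟩ := exists_O_id (QMinus k F a b) _ _
            (fun i j => by have := k1 i j; convert this) k2 k3 l h1 emb
            emb.injective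
          refine ⟨t, ht, ?_⟩
          rw [hr]
          simp only [Prod.mk.injEq, true_and, decide_eq_false_iff_not]
          exact hty
        | true =>
          obtain ⟨⟨j, hj⟩, hlk⟩ := h3 rfl
          obtain ⟨k1, k2, k3⟩ := hyp_A (QMinus k F a b) (fun i : Fin k => Sum.inl (Sum.inl i))
            (fun i : Fin k => Sum.inl (Sum.inr i)) (fun i => hypPair_QMinus k a b i)
            (fun i j h => by simpa using h) (fun i j => by simp)
          obtain ⟨t, ht, hr, hty⟩ := exists_O_swap (QMinus k F a b) _ _ k1 k2 k3 j (by omega)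
            (fun i => Fin.castLE (by omega : j + j ≤ k) (finSumFinEquiv i))
            (fun i j hij => finSumFinEquiv.injective (Fin.castLE_injective _ hij))
          refine ⟨t, ht, ?_⟩
          rw [hr]
          simp only [Prod.mk.injEq, decide_eq_true_eq]
          exact ⟨hj.symm, hty⟩
    rw [Nat.card_congr (Equiv.subtypeEquivRight hset), card_pairs]
    simp
  · intro a' b' ha hb
    simp only [Prod.mk.injEq, decide_eq_decide]
    exact isConj_iff_inv _ hQ a' b' ha hb

end Cfsg.Agent.S2596
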