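import Cfsg.Statements.S2597
import Cfsg.Agent.Lib.Helper42OInv4

set_option autoImplicit false
open Cfsg

namespace Cfsg.Agent.S2597

open Cfsg.Agent.Lib.Helper42Inv Cfsg.Agent.Lib.Helper42OInv Cfsg.Agent.Lib.Helper42OInv2
  Cfsg.Agent.Lib.Helper42OInv3 Cfsg.Agent.Lib.Helper42OInv4 Cfsg.Agent.Lib.Helper42InvEx
  Cfsg.Agent.Lib.Helper49Forms Cfsg.Agent.Lib.Helper49Fam2 Cfsg.Agent.Lib.Helper49Fam
  Cfsg.Agent.Lib.Helper49Orth

/-- rank -/
noncomputable def rk {F : Type*} [Field F] {m : ℕ}
    (g : ↥(Cfsg.isometryGroup F ⇑(QPlus m F))) : ℕ :=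
  Module.finrank F (LinearMap.range (NO (QPlus m F) g))

/-- alternating type -/
def al {F : Type*} [Field F] {m : ℕ} (g : ↥(Cfsg.isometryGroup F ⇑(QPlus m F))) : Prop :=
  ∀ v, QuadraticMap.polarBilin (QPlus m F) v (NO (QPlus m F) g v) = 0

/-- parity of the intersection with the reference subspace -/
def pr {F : Type*} [Field F] {m : ℕ} (g : ↥(Cfsg.isometryGroup F ⇑(QPlus m F))) : Prop :=
  Even (Module.finrank F (U0 m F ⊓ LinearMap.range (NO (QPlus m F) g) :
    Submodule F (Fin m ⊕ Fin m → F)))

theorem par_conj {F : Type*} [Field F] [Fintype F] [CharP F 2] {m : ℕ}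
    (h : Fintype.card F ≠ 2 ∨ m ≠ 2) (hm : 1 ≤ m)
    (t s c : ↥(Cfsg.isometryGroup F ⇑(QPlus m F))) (ht : orderOf t = 2) (hc : c * t * c⁻¹ = s)
    (h1 : rk t = m) (h2 : al t) : ((pr t ↔ pr s) ↔ c ∈ Cfsg.Omega F ⇑(QPlus m F)) := by
  have hQ := Cfsg.Agent.Lib.Helper49Rank.QPlus_nondegenerate (F := F) m
  have hTS := ((bounds (QPlus m F) hQ (finrank_V m) t ht).2.2 h2).2
  have := parity_iff h hm _ hTS h1 c
  rw [← range_conj (QPlus m F) t s c hc] at this
  exact this

theorem conj_iff {F : Type*} [Field F] [Fintype F] [CharP F 2] {m : ℕ}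
    (h : Fintype.card F ≠ 2 ∨ m ≠ 2) (hm : 1 ≤ m)
    (a b : ↥(Cfsg.Omega F ⇑(QPlus m F))) (ha : orderOf a = 2) (hb : orderOf b = 2) :
    IsConj a b ↔ (rk a.1 = rk b.1 ∧ (al a.1 ↔ al b.1) ∧
      ((rk a.1 = m ∧ al a.1 → pr a.1) ↔ (rk b.1 = m ∧ al b.1 → pr b.1))) := by
  have hQ := Cfsg.Agent.Lib.Helper49Rank.QPlus_nondegenerate (F := F) m
  have hq : Fintype.card F ≠ 2 ∨ Fintype.card (Fin m ⊕ Fin m) ≠ 4 := by
    refine h.imp id fun h => ?_
    simp only [Fintype.card_sum, Fintype.card_fin]
    omega
  have ha' : orderOf a.1 = 2 := by rw [Subgroup.orderOf_coe]; exact ha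
  have hb' : orderOf b.1 = 2 := by rw [Subgroup.orderOf_coe]; exact hb
  rw [isConj_Omega_iff]
  constructor
  · rintro ⟨c, hcO, hc⟩
    obtain ⟨h1, h2⟩ := invariants_of_sp_conj (QPlus m F) a.1 b.1 c.1
      (fun u v => polar_iso (QPlus m F) c u v) (by rw [← hc]; rfl)
    refine ⟨h1, h2, ?_⟩
    by_cases hex : rk a.1 = m ∧ al a.1
    · have hex' : rk b.1 = m ∧ al b.1 := ⟨h1.symm.trans hex.1, h2.mp hex.2⟩
      have := (par_conj h hm a.1 b.1 c ha' hc hex.1 hex.2).mpr hcO
      exact ⟨fun f _ => this.mp (f hex), fun f _ => this.mpr (f hex')⟩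
    · have hex' : ¬ (rk b.1 = m ∧ al b.1) := fun hh => hex ⟨h1.trans hh.1, h2.mpr hh.2⟩
      exact ⟨fun _ hh => absurd hh hex', fun _ hh => absurd hh hex⟩
  · rintro ⟨h1, h2, h3⟩
    obtain ⟨c, hc⟩ := conjO (QPlus m F) hQ a.1 b.1 (sq_of_order _ _ ha') (sq_of_order _ _ hb') h1 h2
    by_cases hex : rk a.1 = m ∧ al a.1
    · have hex' : rk b.1 = m ∧ al b.1 := ⟨h1.symm.trans hex.1, h2.mp hex.2⟩
      have h3' : pr a.1 ↔ pr b.1 :=
        ⟨fun q => h3.mp (fun _ => q) hex', fun q => h3.mpr (fun _ => q) hex⟩
      exact ⟨c, (par_conj h hm a.1 b.1 c ha' hc hex.1 hex.2).mp h3', hc⟩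
    · exact conj_Omega_of_not_exc (QPlus m F) hQ hq
        (by simp only [Fintype.card_sum, Fintype.card_fin]; omega) (finrank_V m) a.1 b.1 c
        (sq_of_order _ _ ha') hc hex

/-- Number of conjugacy classes of involutions in Ω⁺_2m(F) (the commutator subgroup of the orthogonal group of Σ x_i y_i) over a finite field F of characteristic two, m ≥ 1, excluding the case m = 2 over the field of two elements: the involutions of Ω are those with s = rank(t − 1) even, giving two O-classes for each even s with 2 ≤ s ≤ m, each of which is a single Ω-class except that for m even the class with s = m and v ↦ f(v, tv) identically zero splits in two; in all 2⌊m/2⌋ + 1 classes if m is even and 2⌊m/2⌋ if m is odd. -/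
theorem result {F : Type*} [Field F] [Fintype F] [CharP F 2] {m : ℕ} (hm : 1 ≤ m) (h : Fintype.card F ≠ 2 ∨ m ≠ 2) : Nat.card {C : ConjClasses ↥(Cfsg.Omega F (Cfsg.quadFormPlus m F)) // ∃ g : ↥(Cfsg.Omega F (Cfsg.quadFormPlus m F)), ConjClasses.mk g = C ∧ orderOf g = 2} = 2 * (m / 2) + (if Even m then 1 else 0) := by
  classical
  rw [← coe_QPlus m]
  have hQ := Cfsg.Agent.Lib.Helper49Rank.QPlus_nondegenerate (F := F) m
  have hq : Fintype.card F ≠ 2 ∨ Fintype.card (Fin m ⊕ Fin m) ≠ 4 := by
    refine h.imp id fun h => ?_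
    simp only [Fintype.card_sum, Fintype.card_fin]
    omega
  have hcard : 1 ≤ Fintype.card (Fin m ⊕ Fin m) := by
    simp only [Fintype.card_sum, Fintype.card_fin]; omega
  rw [card_classes (fun g : ↥(Cfsg.Omega F ⇑(QPlus m F)) => orderOf g = 2)
    (fun g => (rk g.1, decide (al g.1), decide (rk g.1 = m ∧ al g.1 → pr g.1)))]
  · have hset : ∀ x : ℕ × Bool × Bool, (∃ g : ↥(Cfsg.Omega F ⇑(QPlus m F)), orderOf g = 2 ∧
        (rk g.1, decide (al g.1), decide (rk g.1 = m ∧ al g.1 → pr g.1)) = x) ↔
        (1 ≤ x.1 ∧ x.1 ≤ m ∧ Even x.1 ∧ (x.2.2 = false → x.1 = m ∧ x.2.1 = true)) := by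
      rintro ⟨l, b, p⟩
      constructor
      · rintro ⟨g, hg, hx⟩
        have hg' : orderOf g.1 = 2 := by rw [Subgroup.orderOf_coe]; exact hg
        obtain ⟨rfl, hx2⟩ := Prod.mk.inj hx
        obtain ⟨rfl, rfl⟩ := Prod.mk.inj hx2
        obtain ⟨h1, h2, h3⟩ := bounds (QPlus m F) hQ (finrank_V m) g.1 hg'
        refine ⟨h1, h2, ?_, ?_⟩
        · exact (Cfsg.Agent.Lib.Helper49Rank.mem_Omega_iff_even_rank _ hQ hq g.1).mp g.2
        · intro hp
          simp only [decide_eq_false_iff_not] at hp
          simp only [decide_eq_true_eq]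
          by_contra hne
          exact hp (fun hh => absurd hh hne)
      · rintro ⟨h1, h2, h3, h4⟩
        simp only at h1 h2 h3 h4
        cases b with
        | false =>
          have hp : p = true := by
            cases p with
            | true => rfl
            | false => exact absurd (h4 rfl).2 (by simp)
          subst hp
          obtain ⟨k1, k2, k3⟩ := hyp_O (QPlus m F) (fun i : Fin m => Sum.inl i)
            (fun i : Fin m => Sum.inr i) (fun i => hypPair_QPlus m i)
            (fun i j h => by simpa using h) (fun i j h => by simpa using h) (fun i j => by simp)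
          obtain ⟨t, ht, hr, hty⟩ := exists_O_id (QPlus m F) _ _ k1 k2 k3 l h1 (Fin.castLE h2)
            (Fin.castLE_injective h2)
          have htO : t ∈ Cfsg.Omega F ⇑(QPlus m F) := by
            rw [Cfsg.Agent.Lib.Helper49Rank.mem_Omega_iff_even_rank _ hQ hq, rank_eq, hr]
            exact h3
          refine ⟨⟨t, htO⟩, by rw [← Subgroup.orderOf_coe]; exact ht, ?_⟩
          have e1 : rk t = l := hr
          have e2 : ¬ al t := hty
          exact Prod.ext e1 (Prod.ext (decide_eq_false e2)
            (decide_eq_true (fun hh => absurd hh.2 e2)))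
        | true =>
          obtain ⟨k, hk⟩ := h3
          obtain ⟨k1, k2, k3⟩ := hyp_A (QPlus m F) (fun i : Fin m => Sum.inl i)
            (fun i : Fin m => Sum.inr i) (fun i => hypPair_QPlus m i)
            (fun i j h => by simpa using h) (fun i j => by simp)
          obtain ⟨t, ht, hr, hty⟩ := exists_O_swap (QPlus m F) _ _ k1 k2 k3 k (by omega)
            (fun i => Fin.castLE (by omega : k + k ≤ m) (finSumFinEquiv i))
            (fun i j hij => finSumFinEquiv.injective (Fin.castLE_injective _ hij))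
          have htO : t ∈ Cfsg.Omega F ⇑(QPlus m F) := by
            rw [Cfsg.Agent.Lib.Helper49Rank.mem_Omega_iff_even_rank _ hQ hq, rank_eq, hr]
            exact ⟨k, rfl⟩
          have e1 : rk t = l := by rw [hk]; exact hr
          have e2 : al t := hty
          by_cases hlm : l = m
          · by_cases hpp : decide (pr t) = p
            · refine ⟨⟨t, htO⟩, by rw [← Subgroup.orderOf_coe]; exact ht, ?_⟩
              refine Prod.ext e1 (Prod.ext (decide_eq_true e2) ?_)
              rw [← hpp]
              exact decide_eq_decide.mpr ⟨fun f => f ⟨e1.trans hlm, e2⟩, fun q _ => q⟩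
            · obtain ⟨v, hv⟩ := Cfsg.Agent.Lib.Helper49All.exists_nonsingular (QPlus m F) hQ hcard
              have hρ := reflO_not_mem (QPlus m F) hQ hq hv
              obtain ⟨s, hs⟩ : ∃ s, reflO (QPlus m F) hv * t * (reflO (QPlus m F) hv)⁻¹ = s :=
                ⟨_, rfl⟩
              have hsO : s ∈ Cfsg.Omega F ⇑(QPlus m F) := by
                rw [← hs]
                exact (inferInstance : (Cfsg.Omega F ⇑(QPlus m F)).Normal).conj_mem t htO _
              have hso : orderOf s = 2 := by
                rw [← hs]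
                have : reflO (QPlus m F) hv * t * (reflO (QPlus m F) hv)⁻¹
                    = MulAut.conj (reflO (QPlus m F) hv) t := rfl
                rw [this, MulEquiv.orderOf_eq]
                exact ht
              obtain ⟨i1, i2⟩ := invariants_of_sp_conj (QPlus m F) t s (reflO (QPlus m F) hv).1
                (fun u v => polar_iso (QPlus m F) _ u v) (by rw [← hs]; rfl)
              have f1 : rk s = l := by rw [← e1]; exact i1.symm
              have f2 : al s := i2.mp e2
              have hpar := par_conj h hm t s _ ht hs (by rw [e1, hlm]) e2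
              have hne : ¬ (pr t ↔ pr s) := fun hh => hρ (hpar.mp hh)
              refine ⟨⟨s, hsO⟩, by rw [← Subgroup.orderOf_coe]; exact hso, ?_⟩
              have hthis : decide (pr s) = p := by
                by_cases q1 : pr t <;> by_cases q2 : pr s <;> cases p <;> simp_all
              refine Prod.ext f1 (Prod.ext (decide_eq_true f2) ?_)
              rw [← hthis]
              exact decide_eq_decide.mpr ⟨fun f => f ⟨f1.trans hlm, f2⟩, fun q _ => q⟩
          · have hp : p = true := by
              cases p with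
              | true => rfl
              | false => exact absurd (h4 rfl).1 hlm
            subst hp
            refine ⟨⟨t, htO⟩, by rw [← Subgroup.orderOf_coe]; exact ht, ?_⟩
            exact Prod.ext e1 (Prod.ext (decide_eq_true e2)
              (decide_eq_true (fun hh => absurd (e1.symm.trans hh.1) hlm)))
    rw [Nat.card_congr (Equiv.subtypeEquivRight hset), card_triples m hm]
  · intro a b ha hb
    simp only [Prod.mk.injEq, decide_eq_decide]
    exact conj_iff h hm a b ha hb

end Cfsg.Agent.S2597
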