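import Cfsg.Statements.S2598
import Cfsg.Agent.Lib.Helper42OInv4
import Cfsg.Agent.S0824

set_option autoImplicit false
open Cfsg

namespace Cfsg.Agent.S2598

open Cfsg.Agent.Lib.Helper42Inv Cfsg.Agent.Lib.Helper42OInv Cfsg.Agent.Lib.Helper42OInv2
  Cfsg.Agent.Lib.Helper42OInv3 Cfsg.Agent.Lib.Helper42OInv4 Cfsg.Agent.Lib.Helper42InvEx
  Cfsg.Agent.Lib.Helper49Forms Cfsg.Agent.Lib.Helper49Orth

set_option maxRecDepth 100000 in
theorem a5_inv : ∀ a : Equiv.Perm (Fin 5), Equiv.Perm.sign a = 1 → a ≠ 1 → a * a = 1 →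
    ∃ c : Equiv.Perm (Fin 5), Equiv.Perm.sign c = 1 ∧
      c * (Equiv.swap 0 4 * Equiv.swap 1 3) * c⁻¹ = a := by
  decide +kernel

/-- exactly one class of involutions -/
def OneInv (G : Type*) [Group G] : Prop :=
  (∃ g : G, orderOf g = 2) ∧ ∀ a b : G, orderOf a = 2 → orderOf b = 2 → IsConj a b

theorem oneInv_a5 : OneInv (alternatingGroup (Fin 5)) := by
  have hmem : (Equiv.swap 0 4 * Equiv.swap 1 3 : Equiv.Perm (Fin 5)) ∈ alternatingGroup (Fin 5) := by
    rw [Equiv.Perm.mem_alternatingGroup]; decide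
  have key : ∀ a : alternatingGroup (Fin 5), orderOf a = 2 →
      IsConj (⟨_, hmem⟩ : alternatingGroup (Fin 5)) a := by
    intro a ha
    have h1 : a * a = 1 := by rw [← pow_two, ← ha]; exact pow_orderOf_eq_one a
    have h2 : a ≠ 1 := by
      rintro rfl
      rw [orderOf_one] at ha
      omega
    obtain ⟨c, hc, hca⟩ := a5_inv a.1 (Equiv.Perm.mem_alternatingGroup.mp a.2)
      (fun h => h2 (Subtype.ext h)) (congrArg Subtype.val h1)
    rw [isConj_iff]
    exact ⟨⟨c, Equiv.Perm.mem_alternatingGroup.mpr hc⟩, Subtype.ext hca⟩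
  refine ⟨⟨⟨_, hmem⟩, ?_⟩, fun a b ha hb => (key a ha).symm.trans (key b hb)⟩
  apply orderOf_eq_prime
  · apply Subtype.ext
    change (Equiv.swap 0 4 * Equiv.swap 1 3 : Equiv.Perm (Fin 5)) ^ 2 = 1
    decide
  · intro h
    have h3 : (Equiv.swap 0 4 * Equiv.swap 1 3 : Equiv.Perm (Fin 5)) = 1 := congrArg Subtype.val h
    revert h3
    decide

theorem OneInv.of_equiv {G H : Type*} [Group G] [Group H] (e : G ≃* H) (h : OneInv H) :
    OneInv G := by
  obtain ⟨⟨g, hg⟩, hc⟩ := h
  refine ⟨⟨e.symm g, by rw [MulEquiv.orderOf_eq]; exact hg⟩, fun a b ha hb => ?_⟩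
  have := hc (e a) (e b) (by rw [MulEquiv.orderOf_eq]; exact ha)
    (by rw [MulEquiv.orderOf_eq]; exact hb)
  have h2 := e.symm.toMonoidHom.map_isConj this
  simpa using h2

theorem OneInv.card {G : Type*} [Group G] (h : OneInv G) :
    Nat.card {C : ConjClasses G // ∃ g : G, ConjClasses.mk g = C ∧ orderOf g = 2} = 1 := by
  rw [card_classes (fun g : G => orderOf g = 2) (fun _ => ())
    (fun a b ha hb => ⟨fun _ => rfl, fun _ => h.2 a b ha hb⟩)]
  obtain ⟨g, hg⟩ := h.1
  have e : {x : Unit // ∃ g : G, orderOf g = 2 ∧ () = x} ≃ Unit :=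
    Equiv.subtypeUnivEquiv (fun _ => ⟨g, hg, rfl⟩)
  rw [Nat.card_congr e]
  simp

theorem special {F : Type*} [Field F] [Fintype F] (hF : Fintype.card F = 2) :
    OneInv ↥(Cfsg.Omega F (Cfsg.quadFormMinus 1 F 1 1)) := by
  obtain ⟨e⟩ := Cfsg.Agent.S0824.result hF
  have hmap : (commutator ↥(Cfsg.isometryGroup F (Cfsg.quadFormMinus 1 F 1 1))).map e.toMonoidHom
      = alternatingGroup (Fin 5) := by
    rw [commutator_def, Subgroup.map_commutator, Subgroup.map_top_of_surjective _ e.surjective,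
      ← commutator_def, alternatingGroup.commutator_perm_eq (by simp)]
  exact OneInv.of_equiv ((e.subgroupMap _).trans (MulEquiv.subgroupCongr hmap)) oneInv_a5

theorem conj_iff {F : Type*} [Field F] [Fintype F] [CharP F 2] {k : ℕ} {a b : F}
    (hab : ∀ z₁ z₂ : F, z₁ ^ 2 + a * z₁ * z₂ + b * z₂ ^ 2 = 0 → z₁ = 0 ∧ z₂ = 0)
    (h : Fintype.card F ≠ 2 ∨ k ≠ 1)
    (x y : ↥(Cfsg.Omega F ⇑(QMinus k F a b))) (hx : orderOf x = 2) (hy : orderOf y = 2) :
    IsConj x y ↔ (Module.finrank F (LinearMap.range (NO (QMinus k F a b) x.1))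
        = Module.finrank F (LinearMap.range (NO (QMinus k F a b) y.1)) ∧
      ((∀ v, QuadraticMap.polarBilin (QMinus k F a b) v (NO (QMinus k F a b) x.1 v) = 0) ↔
        (∀ v, QuadraticMap.polarBilin (QMinus k F a b) v (NO (QMinus k F a b) y.1 v) = 0))) := by
  have hQ := Cfsg.Agent.Lib.Helper49Rank.QMinus_nondegenerate k hab
  have hq : Fintype.card F ≠ 2 ∨ Fintype.card ((Fin k ⊕ Fin k) ⊕ Fin 2) ≠ 4 := by
    refine h.imp id fun h => ?_
    simp only [Fintype.card_sum, Fintype.card_fin]
    omega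
  have hx' : orderOf x.1 = 2 := by rw [Subgroup.orderOf_coe]; exact hx
  have hy' : orderOf y.1 = 2 := by rw [Subgroup.orderOf_coe]; exact hy
  rw [isConj_Omega_iff]
  constructor
  · rintro ⟨c, hcO, hc⟩
    exact invariants_of_sp_conj (QMinus k F a b) x.1 y.1 c.1
      (fun u v => polar_iso (QMinus k F a b) c u v) (by rw [← hc]; rfl)
  · rintro ⟨h1, h2⟩
    obtain ⟨c, hc⟩ := conjO (QMinus k F a b) hQ x.1 y.1 (sq_of_order _ _ hx') (sq_of_order _ _ hy')
      h1 h2
    apply conj_Omega_of_not_exc (QMinus k F a b) hQ hq (by simp) (finrank_minus k) x.1 y.1 c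
        (sq_of_order _ _ hx') hc
    rintro ⟨e1, e2⟩
    have := TS_minus_le k hab _ ((bounds (QMinus k F a b) hQ (finrank_minus k) x.1 hx').2.2 e2).2
    omega

/-- Number of conjugacy classes of involutions in Ω⁻_2m(F) (the commutator subgroup of the orthogonal group of an elliptic quadratic form, Σ_(i<m−1) x_i y_i plus an anisotropic binary form) over a finite field F of characteristic two, m ≥ 1: the involutions of Ω are those with s = rank(t − 1) even, one O-class for each even s with 2 ≤ s ≤ m on which v ↦ f(v, tv) is not identically zero and one for each even s with 2 ≤ s < m on which it is zero (f the polar form; in characteristic 2, f(v, tv) = Q(v + tv)), none of which splits in Ω; in all ⌊m/2⌋ + ⌊(m − 1)/2⌋. -/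
theorem result {F : Type*} [Field F] [Fintype F] [CharP F 2] {m : ℕ} (hm : 1 ≤ m) (a b : F) (hab : ∀ z₁ z₂ : F, z₁ ^ 2 + a * z₁ * z₂ + b * z₂ ^ 2 = 0 → z₁ = 0 ∧ z₂ = 0) : Nat.card {C : ConjClasses ↥(Cfsg.Omega F (Cfsg.quadFormMinus (m - 1) F a b)) // ∃ g : ↥(Cfsg.Omega F (Cfsg.quadFormMinus (m - 1) F a b)), ConjClasses.mk g = C ∧ orderOf g = 2} = m / 2 + (m - 1) / 2 := by
  classical
  obtain ⟨k, rfl⟩ : ∃ k, m = k + 1 := ⟨m - 1, by omega⟩
  change Nat.card {C : ConjClasses ↥(Cfsg.Omega F (Cfsg.quadFormMinus k F a b)) //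
    ∃ g : ↥(Cfsg.Omega F (Cfsg.quadFormMinus k F a b)),
      ConjClasses.mk g = C ∧ orderOf g = 2} = (k + 1) / 2 + k / 2
  by_cases h : Fintype.card F ≠ 2 ∨ k ≠ 1
  · rw [← coe_QMinus k a b]
    have hQ := Cfsg.Agent.Lib.Helper49Rank.QMinus_nondegenerate k hab
    have hq : Fintype.card F ≠ 2 ∨ Fintype.card ((Fin k ⊕ Fin k) ⊕ Fin 2) ≠ 4 := by
      refine h.imp id fun h => ?_
      simp only [Fintype.card_sum, Fintype.card_fin]
      omega
    rw [card_classes (fun g : ↥(Cfsg.Omega F ⇑(QMinus k F a b)) => orderOf g = 2)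
      (fun g => (Module.finrank F (LinearMap.range (NO (QMinus k F a b) g.1)),
        decide (∀ v, QuadraticMap.polarBilin (QMinus k F a b) v (NO (QMinus k F a b) g.1 v) = 0)))]
    · have hset : ∀ x : ℕ × Bool, (∃ g : ↥(Cfsg.Omega F ⇑(QMinus k F a b)), orderOf g = 2 ∧
          (Module.finrank F (LinearMap.range (NO (QMinus k F a b) g.1)),
            decide (∀ v, QuadraticMap.polarBilin (QMinus k F a b) v
              (NO (QMinus k F a b) g.1 v) = 0)) = x) ↔
          (1 ≤ x.1 ∧ x.1 ≤ k + 1 ∧ Even x.1 ∧ (x.2 = true → x.1 ≤ k)) := by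
        rintro ⟨l, b'⟩
        constructor
        · rintro ⟨g, hg, hx⟩
          have hg' : orderOf g.1 = 2 := by rw [Subgroup.orderOf_coe]; exact hg
          obtain ⟨rfl, rfl⟩ := Prod.mk.inj hx
          obtain ⟨h1, h2, h3⟩ := bounds (QMinus k F a b) hQ (finrank_minus k) g.1 hg'
          exact ⟨h1, h2, (Cfsg.Agent.Lib.Helper49Rank.mem_Omega_iff_even_rank _ hQ hq g.1).mp g.2,
            fun hb => TS_minus_le k hab _ (h3 (by simpa using hb)).2⟩
        · rintro ⟨h1, h2, h3, h4⟩
          simp only at h1 h2 h3 h4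
          cases b' with
          | false =>
            obtain ⟨k1, k2, k3⟩ := minus_O k a b (a_ne_zero hab)
            obtain ⟨emb⟩ := Function.Embedding.nonempty_of_card_le
              (α := Fin l) (β := Fin k ⊕ Unit) (by simpa using h2)
            obtain ⟨t, ht, hr, hty⟩ := exists_O_id (QMinus k F a b) _ _
              (fun i j => by have := k1 i j; convert this) k2 k3 l h1 emb emb.injective
            have htO : t ∈ Cfsg.Omega F ⇑(QMinus k F a b) := by
              rw [Cfsg.Agent.Lib.Helper49Rank.mem_Omega_iff_even_rank _ hQ hq, rank_eq, hr]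
              exact h3
            refine ⟨⟨t, htO⟩, by rw [← Subgroup.orderOf_coe]; exact ht, ?_⟩
            exact Prod.ext hr (decide_eq_false hty)
          | true =>
            obtain ⟨j, hj⟩ := h3
            have hlk := h4 rfl
            obtain ⟨k1, k2, k3⟩ := hyp_A (QMinus k F a b) (fun i : Fin k => Sum.inl (Sum.inl i))
              (fun i : Fin k => Sum.inl (Sum.inr i)) (fun i => hypPair_QMinus k a b i)
              (fun i j h => by simpa using h) (fun i j => by simp)
            obtain ⟨t, ht, hr, hty⟩ := exists_O_swap (QMinus k F a b) _ _ k1 k2 k3 j (by omega)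
              (fun i => Fin.castLE (by omega : j + j ≤ k) (finSumFinEquiv i))
              (fun i j hij => finSumFinEquiv.injective (Fin.castLE_injective _ hij))
            have htO : t ∈ Cfsg.Omega F ⇑(QMinus k F a b) := by
              rw [Cfsg.Agent.Lib.Helper49Rank.mem_Omega_iff_even_rank _ hQ hq, rank_eq, hr]
              exact ⟨j, rfl⟩
            refine ⟨⟨t, htO⟩, by rw [← Subgroup.orderOf_coe]; exact ht, ?_⟩
            exact Prod.ext (hr.trans hj.symm) (decide_eq_true hty)
      rw [Nat.card_congr (Equiv.subtypeEquivRight hset), card_pairs_even]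
      simp
    · intro x y hx hy
      simp only [Prod.mk.injEq, decide_eq_decide]
      exact conj_iff hab h x y hx hy
  · push Not at h
    obtain ⟨hF, rfl⟩ := h
    have h01 : ∀ x : F, x ≠ 0 → x = 1 := by
      intro x hx
      by_contra hx1
      have hcard : ({0, 1, x} : Finset F).card = 3 := by
        rw [Finset.card_insert_of_notMem, Finset.card_insert_of_notMem, Finset.card_singleton]
        · simpa using (Ne.symm hx1)
        · simp only [Finset.mem_insert, Finset.mem_singleton, not_or]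
          exact ⟨zero_ne_one, Ne.symm hx⟩
      have := Finset.card_le_univ ({0, 1, x} : Finset F)
      omega
    have ha : a = 1 := h01 a (a_ne_zero hab)
    have hb : b = 1 := by
      apply h01
      rintro rfl
      have := hab 0 1 (by simp)
      exact one_ne_zero this.2
    subst ha hb
    exact (special hF).card

end Cfsg.Agent.S2598
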