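import Cfsg.Statements.S2599
-- import your own Cfsg.Agent.* helpers here

set_option autoImplicit false
open Cfsg

namespace Cfsg.Agent.S2599

theorem aux {F V : Type*} [Field F] (p : ℕ) [Fact p.Prime] [CharP F p] [AddCommGroup V] [Module F V]
    [FiniteDimensional F V] (Q : QuadraticForm F V) (g : V →ₗ[F] V)
    (hginj : Function.Injective g) (hg : ∀ v, Q (g v) = Q v) (U : Submodule F V) (hU0 : U ≠ ⊥)
    (hUx : ∀ u ∈ U, g u ∈ U)
    (hirr : ∀ W : Submodule F V, W ≤ U → (∀ w ∈ W, g w ∈ W) → W = ⊥ ∨ W = U) :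
    U ⊓ LinearMap.BilinForm.orthogonal (QuadraticMap.polarBilin Q) U = ⊥ ∨ (∀ u ∈ U, Q u = 0) ∨
      (p = 2 ∧ Module.finrank F U = 1 ∧ (∃ u ∈ U, Q u ≠ 0) ∧ ∀ u ∈ U, g u = u) := by
  classical
  have hpol : ∀ x y, QuadraticMap.polarBilin Q (g x) (g y) = QuadraticMap.polarBilin Q x y := by
    intro x y
    simp only [QuadraticMap.polarBilin_apply_apply, QuadraticMap.polar]
    rw [← map_add, hg, hg, hg]
  have hadd : ∀ x y, Q (x + y) = Q x + Q y + QuadraticMap.polarBilin Q x y := by
    intro x y
    rw [QuadraticMap.polarBilin_apply_apply, QuadraticMap.polar]; ring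
  -- g maps U onto U
  have hsurj : ∀ u ∈ U, ∃ u' ∈ U, g u' = u := by
    have hinj : Function.Injective (g.restrict hUx) := by
      intro a b hab
      apply Subtype.ext
      apply hginj
      exact congrArg Subtype.val hab
    have hs := LinearMap.injective_iff_surjective.mp hinj
    intro u hu
    obtain ⟨u', hu'⟩ := hs ⟨u, hu⟩
    exact ⟨u'.1, u'.2, congrArg Subtype.val hu'⟩
  have hWinv : ∀ w ∈ U ⊓ LinearMap.BilinForm.orthogonal (QuadraticMap.polarBilin Q) U,
      g w ∈ U ⊓ LinearMap.BilinForm.orthogonal (QuadraticMap.polarBilin Q) U := by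
    intro w hw
    obtain ⟨hw1, hw2⟩ := Submodule.mem_inf.mp hw
    refine Submodule.mem_inf.mpr ⟨hUx w hw1, ?_⟩
    rw [LinearMap.BilinForm.mem_orthogonal_iff] at hw2 ⊢
    intro u hu
    obtain ⟨u', hu', rfl⟩ := hsurj u hu
    have := hw2 u' hu'
    change QuadraticMap.polarBilin Q (g u') (g w) = 0
    rw [hpol]
    exact this
  rcases hirr _ inf_le_left hWinv with h | h
  · exact Or.inl h
  right
  have hzero : ∀ x ∈ U, ∀ y ∈ U, QuadraticMap.polarBilin Q x y = 0 := by
    intro x hx y hy
    have hy' : y ∈ U ⊓ LinearMap.BilinForm.orthogonal (QuadraticMap.polarBilin Q) U := by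
      rw [h]; exact hy
    have := (LinearMap.BilinForm.mem_orthogonal_iff.mp (Submodule.mem_inf.mp hy').2) x hx
    exact this
  by_cases h2 : (2 : F) = 0
  · have hp2 : p = 2 := by
      have h2' : ((2 : ℕ) : F) = 0 := by exact_mod_cast h2
      have := (CharP.cast_eq_zero_iff F p 2).mp h2'
      exact (Nat.prime_dvd_prime_iff_eq (Fact.out) Nat.prime_two).mp this
    let U0 : Submodule F V :=
      { carrier := {u | u ∈ U ∧ Q u = 0}
        add_mem' := by
          rintro a b ⟨ha, ha0⟩ ⟨hb, hb0⟩
          refine ⟨U.add_mem ha hb, ?_⟩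
          rw [hadd, ha0, hb0, hzero a ha b hb]; simp
        zero_mem' := ⟨U.zero_mem, by simp⟩
        smul_mem' := by
          rintro c a ⟨ha, ha0⟩
          refine ⟨U.smul_mem c ha, ?_⟩
          rw [QuadraticMap.map_smul, ha0]; simp }
    have hU0le : U0 ≤ U := fun u hu => hu.1
    have hU0inv : ∀ w ∈ U0, g w ∈ U0 := by
      rintro w ⟨hw, hw0⟩
      exact ⟨hUx w hw, by rw [hg]; exact hw0⟩
    rcases hirr U0 hU0le hU0inv with h0 | h0
    · right
      have hne : ∀ u ∈ U, Q u = 0 → u = 0 := by
        intro u hu hq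
        have : u ∈ U0 := ⟨hu, hq⟩
        rw [h0] at this
        simpa using this
      have hfix : ∀ u ∈ U, g u = u := by
        intro u hu
        have h1 : Q (g u + u) = 0 := by
          rw [hadd, hg, hzero _ (hUx u hu) u hu]
          have : Q u + Q u = 2 * Q u := by ring
          rw [add_zero, this, h2, zero_mul]
        have h3 := hne _ (U.add_mem (hUx u hu) hu) h1
        have h4 : u + u = 0 := by
          have : u + u = (2 : F) • u := by rw [two_smul]
          rw [this, h2, zero_smul]
        have h5 : g u = g u + (u + u) := by rw [h4, add_zero]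
        rw [h5, ← add_assoc, h3, zero_add]
      obtain ⟨u, hu, hu0⟩ := (Submodule.ne_bot_iff U).mp hU0
      have hspan : Submodule.span F {u} = U := by
        have hle : Submodule.span F {u} ≤ U := by
          rw [Submodule.span_singleton_le_iff_mem]; exact hu
        rcases hirr _ hle (fun w hw => by rw [hfix w (hle hw)]; exact hw) with h6 | h6
        · exfalso
          apply hu0
          have : u ∈ Submodule.span F {u} := Submodule.mem_span_singleton_self u
          rw [h6] at this
          simpa using this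
        · exact h6
      refine ⟨hp2, ?_, ⟨u, hu, fun hq => hu0 (hne u hu hq)⟩, hfix⟩
      rw [← hspan]
      exact finrank_span_singleton hu0
    · left
      intro u hu
      have : u ∈ U0 := by rw [h0]; exact hu
      exact this.2
  · left
    intro u hu
    have h1 := hzero u hu u hu
    rw [QuadraticMap.polarBilin_apply_apply, QuadraticMap.polar_self] at h1
    have h1' : (2 : F) = 0 ∨ Q u = 0 := by simpa [smul_eq_mul] using h1
    rcases h1' with h3 | h3
    · exact absurd h3 h2
    · exact h3


/-- An irreducible invariant subspace of a semisimple isometry is non-degenerate or totally singular: let Q be a quadratic form on F^n (F finite of characteristic p) with non-degenerate polar form f, x an isometry of Q of order prime to p, and U a non-zero x-invariant subspace containing no x-invariant subspace other than 0 and U. Then U meets its f-orthogonal trivially, or Q vanishes on U, or p = 2, U is a line spanned by a non-singular vector and x fixes U pointwise. -/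
theorem result {F : Type*} [Field F] [Fintype F] {p : ℕ} [Fact p.Prime] [CharP F p] {n : ℕ} (Q : QuadraticForm F (Fin n → F)) (hQ : (QuadraticMap.polarBilin Q).Nondegenerate) (x : ↥(Cfsg.isometryGroup F ⇑Q)) (hx : (orderOf x).Coprime p) (U : Submodule F (Fin n → F)) (hU0 : U ≠ ⊥) (hUx : ∀ u ∈ U, ((x : Matrix.GeneralLinearGroup (Fin n) F) : Matrix (Fin n) (Fin n) F).mulVec u ∈ U) (hirr : ∀ W : Submodule F (Fin n → F), W ≤ U → (∀ w ∈ W, ((x : Matrix.GeneralLinearGroup (Fin n) F) : Matrix (Fin n) (Fin n) F).mulVec w ∈ W) → W = ⊥ ∨ W = U) : U ⊓ LinearMap.BilinForm.orthogonal (QuadraticMap.polarBilin Q) U = ⊥ ∨ (∀ u ∈ U, Q u = 0) ∨ (p = 2 ∧ Module.finrank F U = 1 ∧ (∃ u ∈ U, Q u ≠ 0) ∧ ∀ u ∈ U, ((x : Matrix.GeneralLinearGroup (Fin n) F) : Matrix (Fin n) (Fin n) F).mulVec u = u) := by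
  classical
  have hg : ∀ v, Q (Matrix.toLin' ((x : Matrix.GeneralLinearGroup (Fin n) F) : Matrix (Fin n) (Fin n) F) v) = Q v := by
    intro v
    rw [Matrix.toLin'_apply]
    exact x.2 v v
  have hinj : Function.Injective (Matrix.toLin' ((x : Matrix.GeneralLinearGroup (Fin n) F) : Matrix (Fin n) (Fin n) F)) := by
    intro a b hab
    rw [Matrix.toLin'_apply, Matrix.toLin'_apply] at hab
    have h1 := congrArg (fun w => Matrix.mulVec (((x : Matrix.GeneralLinearGroup (Fin n) F)⁻¹ : Matrix.GeneralLinearGroup (Fin n) F) : Matrix (Fin n) (Fin n) F) w) hab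
    simp only [Matrix.mulVec_mulVec] at h1
    rw [← Units.val_mul, inv_mul_cancel] at h1
    simpa using h1
  have := aux p Q (Matrix.toLin' ((x : Matrix.GeneralLinearGroup (Fin n) F) : Matrix (Fin n) (Fin n) F)) hinj hg U hU0
    (fun u hu => by rw [Matrix.toLin'_apply]; exact hUx u hu)
    (fun W hW hWx => hirr W hW (fun w hw => by have := hWx w hw; rwa [Matrix.toLin'_apply] at this))
  simpa only [Matrix.toLin'_apply] using this

end Cfsg.Agent.S2599
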