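import Cfsg.Statements.S2601
import Cfsg.Agent.Lib.Helper50Out

set_option autoImplicit false
open Cfsg

namespace Cfsg.Agent.S2601

open Cfsg.Agent.Lib.Helper50Aut Cfsg.Agent.Lib.Helper50AutStr Cfsg.Agent.Lib.Helper50Out

/-- Structure of the outer automorphism group of PSL_n(q), n ≥ 3, q = p^f: it has a normal cyclic subgroup of order gcd(n, q − 1) (the diagonal automorphisms) whose quotient is the direct product of a cyclic group of order f (field automorphisms) and a group of order 2 (the inverse-transpose graph automorphism). -/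
theorem result {F : Type*} [Field F] [Fintype F] {p f n : ℕ} [Fact p.Prime] (hf : 1 ≤ f) (hF : Fintype.card F = p ^ f) (hn : 3 ≤ n) : ∃ φ : Cfsg.Out (Matrix.ProjectiveSpecialLinearGroup (Fin n) F) →* Multiplicative (ZMod f × ZMod 2), Function.Surjective φ ∧ IsCyclic φ.ker ∧ Nat.card φ.ker = Nat.gcd n (p ^ f - 1) := by
  obtain ⟨r, hr, hs⟩ := exists_hom_three (F := F) hn
  obtain ⟨hcyc, hcard⟩ := ringAut_cyclic_card hF
  have : NeZero f := ⟨by omega⟩
  let e1 : (F ≃+* F) ≃* Multiplicative (ZMod f) :=
    mulEquivOfCyclicCardEq (by rw [hcard, Nat.card_eq_fintype_card, Fintype.card_multiplicative, ZMod.card])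
  let e2 : Subgroup.zpowers (iota : MulAut (Matrix.ProjectiveSpecialLinearGroup (Fin n) F))
      ≃* Multiplicative (ZMod 2) :=
    mulEquivOfCyclicCardEq (by
      rw [card_zpowers_iota hn, Nat.card_eq_fintype_card, Fintype.card_multiplicative, ZMod.card])
  let e : (F ≃+* F) × Subgroup.zpowers (iota : MulAut (Matrix.ProjectiveSpecialLinearGroup (Fin n) F))
      ≃* Multiplicative (ZMod f × ZMod 2) :=
    (MulEquiv.prodCongr e1 e2).trans (MulEquiv.prodMultiplicative (ZMod f) (ZMod 2)).symm
  have hker : (e.toMonoidHom.comp r).ker = r.ker := by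
    ext x
    simp [MonoidHom.mem_ker]
  obtain ⟨φ, h1, h2, h3⟩ := out_hom (by omega) (e.toMonoidHom.comp r) (hker.trans hr)
    (e.surjective.comp hs)
  exact ⟨φ, h1, h2, by rw [h3, hF]⟩

end Cfsg.Agent.S2601
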