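import Cfsg.Statements.S2602
import Cfsg.Agent.Lib.Helper50Out

set_option autoImplicit false
open Cfsg

namespace Cfsg.Agent.S2602

open Cfsg.Agent.Lib.Helper50Aut Cfsg.Agent.Lib.Helper50AutStr Cfsg.Agent.Lib.Helper50Out

/-- Structure of the outer automorphism group of PSL_2(q), q = p^f ≥ 4: it has a normal cyclic subgroup of order gcd(2, q − 1) (diagonal automorphisms) with cyclic quotient of order f (field automorphisms); there is no graph automorphism in dimension 2. -/
theorem result {F : Type*} [Field F] [Fintype F] {p f : ℕ} [Fact p.Prime] (hf : 1 ≤ f) (hF : Fintype.card F = p ^ f) (h4 : 4 ≤ p ^ f) : ∃ φ : Cfsg.Out (Matrix.ProjectiveSpecialLinearGroup (Fin 2) F) →* Multiplicative (ZMod f), Function.Surjective φ ∧ IsCyclic φ.ker ∧ Nat.card φ.ker = Nat.gcd 2 (p ^ f - 1) := by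
  obtain ⟨r, hr, hs⟩ := exists_hom_two (F := F)
  obtain ⟨hcyc, hcard⟩ := ringAut_cyclic_card hF
  have : NeZero f := ⟨by omega⟩
  let e : (F ≃+* F) ≃* Multiplicative (ZMod f) :=
    mulEquivOfCyclicCardEq (by rw [hcard, Nat.card_eq_fintype_card, Fintype.card_multiplicative, ZMod.card])
  have hker : (e.toMonoidHom.comp r).ker = r.ker := by
    ext x
    simp [MonoidHom.mem_ker]
  obtain ⟨φ, h1, h2, h3⟩ := out_hom le_rfl (e.toMonoidHom.comp r) (hker.trans hr)
    (e.surjective.comp hs)
  exact ⟨φ, h1, h2, by rw [h3, hF]⟩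

end Cfsg.Agent.S2602
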