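import Cfsg.Statements.S2604
import Cfsg.Agent.S2694
import Cfsg.Agent.Lib.Helper18GamC
import Cfsg.Agent.Lib.Helper50Out
import Cfsg.Agent.Lib.Helper51OutB

set_option autoImplicit false
open Cfsg

namespace Cfsg.Agent.S2604

open Cfsg.Agent.Lib.Helper51OrthAut Cfsg.Agent.Lib.Helper51OrthIdx
  Cfsg.Agent.Lib.Helper18GamA Cfsg.Agent.Lib.Helper18GamB Cfsg.Agent.Lib.Helper18GamC
  Cfsg.Agent.Lib.Helper51OutA Cfsg.Agent.Lib.Helper51OutB

/-- Abstract version: index two, field automorphisms available. -/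
theorem out_of_index_two {F : Type*} [Field F] [Fintype F] {ι : Type} [Fintype ι] [DecidableEq ι]
    (Q : QuadraticForm F (ι → F)) (hQ : (QuadraticMap.polarBilin Q).Nondegenerate)
    (hn : 5 ≤ Fintype.card ι) (hsurj : Function.Surjective (sAut ⇑Q))
    (hcomm : ∀ (σ : F ≃+* F) (v : ι → F), Q (fun i => σ (v i)) = σ (Q v))
    (hidx : (Om' Q ⊔ ZZ Q).index = 2) {f : ℕ} (hcyc : IsCyclic (F ≃+* F))
    (hcardF : Nat.card (F ≃+* F) = f) (hf : 1 ≤ f) :
    Nonempty (Cfsg.Out (Cfsg.POmega F ⇑Q) ≃* Multiplicative (ZMod 2 × ZMod f)) := by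
  have hpr : Function.Surjective (prO ⇑Q) := fun σ => ⟨inrO ⇑Q hcomm σ, rfl⟩
  obtain ⟨σ0, hσ0⟩ := hcyc.exists_generator
  have hord : orderOf σ0 = f := by rw [orderOf_eq_card_of_forall_mem_zpowers hσ0, hcardF]
  obtain ⟨g, hg⟩ : ∃ g, g ∉ Om' Q ⊔ ZZ Q := by
    by_contra hcon
    have htop : Om' Q ⊔ ZZ Q = ⊤ := by
      rw [eq_top_iff]
      intro g _
      by_contra hg
      exact hcon ⟨g, hg⟩
    rw [htop, Subgroup.index_top] at hidx
    omega
  obtain ⟨ρ, hρ⟩ := exists_prOut Q hQ hn hsurj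
  have ha1 : oc Q (inlO ⇑Q g) ≠ 1 := fun h => hg ((oc_inlO_eq_one_iff Q hQ hn g).1 h)
  have hinj : Function.Injective ((oc Q).comp (inrO ⇑Q hcomm)) := by
    intro s t hst
    have h := congrArg ρ hst
    rw [MonoidHom.comp_apply, MonoidHom.comp_apply, hρ, hρ] at h
    exact h
  have : Finite (Cfsg.Out (Cfsg.POmega F ⇑Q)) := by
    apply Nat.finite_of_card_ne_zero
    rw [card_Out Q hQ hn hsurj hpr, hidx, hcardF]
    omega
  apply mulEquiv_of_two_gens (oc Q (inlO ⇑Q g)) (oc Q (inrO ⇑Q hcomm σ0))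
  · have hz : inrO ⇑Q hcomm σ0 * inlO ⇑Q g * (inrO ⇑Q hcomm σ0)⁻¹ ∈ (prO ⇑Q).ker := by
      rw [MonoidHom.mem_ker, map_mul, map_mul, map_inv]
      have : prO ⇑Q (inlO ⇑Q g) = 1 := rfl
      rw [this, mul_one, mul_inv_cancel]
    rw [ker_prO] at hz
    obtain ⟨g', hg'⟩ := hz
    have hg'n : g' ∉ Om' Q ⊔ ZZ Q := by
      intro h
      have h1 := (oc_inlO_eq_one_iff Q hQ hn g').2 h
      rw [hg', map_mul, map_mul, map_inv, conj_eq_one_iff] at h1
      exact ha1 h1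
    have h2 : g' * g⁻¹ ∈ Om' Q ⊔ ZZ Q := by
      rw [Subgroup.mul_mem_iff_of_index_two hidx, Subgroup.inv_mem_iff]
      exact ⟨fun h => absurd h hg'n, fun h => absurd h hg⟩
    have h3 := (oc_inlO_eq_one_iff Q hQ hn _).2 h2
    rw [map_mul, map_mul, map_inv, map_inv, hg', mul_inv_eq_one, map_mul, map_mul, map_inv] at h3
    exact (mul_inv_eq_iff_eq_mul.1 h3).symm
  · apply orderOf_eq_prime _ ha1
    rw [pow_two, ← map_mul, ← map_mul, oc_inlO_eq_one_iff Q hQ hn,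
      Subgroup.mul_mem_iff_of_index_two hidx]
  · have := orderOf_injective ((oc Q).comp (inrO ⇑Q hcomm)) hinj σ0
    rw [← hord, ← this]
    rfl
  · rintro ⟨k, hk⟩
    have hk' : oc Q (inrO ⇑Q hcomm σ0) ^ k = oc Q (inlO ⇑Q g) := hk
    have h1 := congrArg ρ hk'
    rw [map_zpow, hρ, hρ] at h1
    have h2 : σ0 ^ k = 1 := h1
    apply ha1
    rw [← hk', ← map_zpow, ← map_zpow, h2, map_one, map_one]
  · rw [card_Out Q hQ hn hsurj hpr, hidx, hcardF]

/-- Outer automorphism group of the simple orthogonal group Ω_(2m+1)(q), m ≥ 3, q = p^f odd: it is the direct product of a group of order 2 (diagonal automorphisms, from SO) and a cyclic group of order f (field automorphisms). -/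
theorem result {F : Type*} [Field F] [Fintype F] {p f m : ℕ} [Fact p.Prime] (hf : 1 ≤ f) (hF : Fintype.card F = p ^ f) (hp : p ≠ 2) (hm : 3 ≤ m) : Nonempty (Cfsg.Out (Cfsg.POmega F (Cfsg.quadFormOdd m F)) ≃* Multiplicative (ZMod 2 × ZMod f)) := by
  have hodd : Odd p := (Fact.out : p.Prime).odd_of_ne_two hp
  have hoddF : Odd (Fintype.card F) := by rw [hF]; exact hodd.pow
  have h2 : (2 : F) ≠ 0 := Cfsg.Agent.Lib.Helper49Forms.two_ne_zero_of_odd rfl hoddF
  have htop := Cfsg.Agent.S2694.result (F := F) hoddF hm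
  rw [← Cfsg.Agent.Lib.Helper49Forms.coe_QOdd m] at htop ⊢
  have hQ := Cfsg.Agent.Lib.Helper49OddForm.QOdd_nondegenerate h2 m
  have hcard : Fintype.card (Unit ⊕ (Fin m ⊕ Fin m)) = 2 * m + 1 := by
    simp only [Fintype.card_sum, Fintype.card_fin, Fintype.card_unit]
    omega
  have hx : ∃ x, Cfsg.Agent.Lib.Helper49Forms.QOdd m F x = 1 := by
    refine ⟨Pi.single (Sum.inl ()) 1, ?_⟩
    rw [Cfsg.Agent.Lib.Helper49Forms.coe_QOdd]
    simp [Cfsg.quadFormOdd]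
  obtain ⟨hcyc, hcardF⟩ := Cfsg.Agent.Lib.Helper50Out.ringAut_cyclic_card hF
  apply out_of_index_two _ hQ (by omega) (sAut_surjective _ htop) _
    (index_K0_odd _ hQ hx hcard h2 (by omega)) hcyc hcardF hf
  intro σ v
  rw [Cfsg.Agent.Lib.Helper49Forms.coe_QOdd]
  simp [Cfsg.quadFormOdd]

end Cfsg.Agent.S2604
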