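import Cfsg.Statements.S2605
import Cfsg.Agent.S2696
import Cfsg.Agent.Lib.Helper18GamD
import Cfsg.Agent.Lib.Helper42OInv2
import Cfsg.Agent.Lib.Helper50Out
import Cfsg.Agent.Lib.Helper51OutB
import Cfsg.Agent.Lib.Helper51FrobN

set_option autoImplicit false
open Cfsg

namespace Cfsg.Agent.S2605

open Cfsg.Agent.Lib.Helper51OrthAut Cfsg.Agent.Lib.Helper51OrthIdx
  Cfsg.Agent.Lib.Helper51OrthIdx2 Cfsg.Agent.Lib.Helper51OrthIdx3
  Cfsg.Agent.Lib.Helper18GamA Cfsg.Agent.Lib.Helper18GamB Cfsg.Agent.Lib.Helper18GamC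
  Cfsg.Agent.Lib.Helper18GamD Cfsg.Agent.Lib.Helper49Forms Cfsg.Agent.Lib.Helper49Orth
  Cfsg.Agent.Lib.Helper51OutA Cfsg.Agent.Lib.Helper51OutB Cfsg.Agent.Lib.Helper51FrobM
  Cfsg.Agent.Lib.Helper51FrobN
open scoped Matrix

theorem Q_single_zero {F : Type*} [Field F] (M : ℕ) (a b : F) :
    QMinus M F a b (Pi.single (Sum.inr 0) 1) = 1 := by
  rw [coe_QMinus]
  simp [Cfsg.quadFormMinus]

theorem refl_eq_gUV {F : Type*} [Field F] [CharP F 2] (M : ℕ) (a b : F)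
    (hv : QMinus M F a b (Pi.single (Sum.inr 0) 1) ≠ 0) :
    ((reflO (QMinus M F a b) hv : ↥(Cfsg.isometryGroup F ⇑(QMinus M F a b))) :
      Matrix.GeneralLinearGroup ((Fin M ⊕ Fin M) ⊕ Fin 2) F) = gUV M a 1 := by
  apply Units.ext
  rw [coe_reflO, coe_gUV _ one_ne_zero]
  apply Matrix.mulVec_injective
  funext x
  rw [refl_mulVec, Q_single_zero, Cfsg.Agent.Lib.Helper49Disc.polar_QMinus_zero]
  have h2 : (2 : F) = 0 := CharTwo.two_eq_zero
  funext i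
  rcases i with i | i
  · rw [Muv_mulVec_inl]
    simp
  · fin_cases i
    · change _ = (Muv M a 1 *ᵥ x) (Sum.inr 0)
      rw [Muv_mulVec_zero]
      simp [h2, CharTwo.sub_eq_add]
    · change _ = (Muv M a 1 *ᵥ x) (Sum.inr 1)
      rw [Muv_mulVec_one]
      simp

/-- Outer automorphism group of PΩ⁻_2m(q), m ≥ 4, q = 2^f: cyclic of order 2f, generated by a semilinear map inducing the Frobenius automorphism of the field (its f-th power is a graph automorphism, an orthogonal transvection). -/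
theorem result {F : Type*} [Field F] [Fintype F] {f m : ℕ} (hf : 1 ≤ f) (hF : Fintype.card F = 2 ^ f) (hm : 4 ≤ m) (a b : F) (hab : ∀ z₁ z₂ : F, z₁ ^ 2 + a * z₁ * z₂ + b * z₂ ^ 2 = 0 → z₁ = 0 ∧ z₂ = 0) : IsCyclic (Cfsg.Out (Cfsg.POmega F (Cfsg.quadFormMinus (m - 1) F a b))) ∧ Nat.card (Cfsg.Out (Cfsg.POmega F (Cfsg.quadFormMinus (m - 1) F a b))) = 2 * f := by
  have hp : Fact (Nat.Prime 2) := ⟨Nat.prime_two⟩
  have hchar : CharP F 2 := charP_of_card_eq_prime_pow hF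
  obtain ⟨M, rfl⟩ : ∃ M, m = M + 1 := ⟨m - 1, by omega⟩
  rw [Nat.add_sub_cancel]
  have hM : 3 ≤ M := by omega
  have htop := Cfsg.Agent.S2696.result (F := F) hM a b hab
  have hpr0 := prO_surjective_minus M hab
  rw [← coe_QMinus M a b] at htop hpr0 ⊢
  have hQ := Cfsg.Agent.Lib.Helper49Rank.QMinus_nondegenerate M hab
  have hcard : Fintype.card ((Fin M ⊕ Fin M) ⊕ Fin 2) = 2 * M + 2 := by
    simp only [Fintype.card_sum, Fintype.card_fin]
    omega
  have hn : 5 ≤ Fintype.card ((Fin M ⊕ Fin M) ⊕ Fin 2) := by omega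
  have hx : ∃ x, QMinus M F a b x = 1 := ⟨_, Q_single_zero M a b⟩
  have hsurj := sAut_surjective _ htop
  have hidx := index_K0_two (QMinus M F a b) hQ hx hn
  obtain ⟨hcyc, hcardF⟩ := Cfsg.Agent.Lib.Helper50Out.ringAut_cyclic_card hF
  have hcO := card_Out (QMinus M F a b) hQ hn hsurj hpr0
  rw [hidx, hcardF] at hcO
  refine ⟨?_, hcO⟩
  obtain ⟨σ, hσ, hord⟩ := exists_frob hF
  have ha : a ≠ 0 := aniso_a_ne_zero hab
  have h2 : (2 : F) = 0 := CharTwo.two_eq_zero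
  have hmem : XX M σ b a ∈ GamO ⇑(QMinus M F a b) := by
    apply XX_mem_GamO a b σ b ha
    · rw [hσ, h2]; ring
    · rw [hσ]
      have : b ^ 2 + a * b * a + b * a ^ 2 = b ^ 2 + 2 * (a ^ 2 * b) := by ring
      rw [this, h2]; ring
  obtain ⟨ρ, hρ⟩ := exists_prOut (QMinus M F a b) hQ hn hsurj
  have hv : QMinus M F a b (Pi.single (Sum.inr 0) 1) ≠ 0 := by
    rw [Q_single_zero]; exact one_ne_zero
  have hpow : (⟨XX M σ b a, hmem⟩ : ↥(GamO ⇑(QMinus M F a b))) ^ f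
      = inlO ⇑(QMinus M F a b) (incO (QMinus M F a b) (reflO (QMinus M F a b) hv)) := by
    apply Subtype.ext
    rw [Subgroup.coe_pow, coe_inlO, coe_incO, refl_eq_gUV]
    change XX M σ b a ^ f = _
    rw [XX_pow σ b ha, two_Uf hf hF hσ hab, two_Vf hF hσ ha, ← hord, pow_orderOf_eq_one]
    rfl
  have hN : incO (QMinus M F a b) (reflO (QMinus M F a b) hv) ∉
      Om' (QMinus M F a b) ⊔ ZZ (QMinus M F a b) := by
    intro h
    have h3 : incO (QMinus M F a b) (reflO (QMinus M F a b) hv) ∈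
        (Om' (QMinus M F a b) ⊔ ZZ (QMinus M F a b)) ⊓ OO' (QMinus M F a b) := ⟨h, ⟨_, rfl⟩⟩
    rw [K0_inf_OO' _ hx, incO_mem_Om'] at h3
    exact Cfsg.Agent.Lib.Helper42OInv2.reflO_not_mem _ hQ (Or.inr (by omega)) hv h3
  have hfin : Finite (Cfsg.Out (Cfsg.POmega F ⇑(QMinus M F a b))) := by
    apply Nat.finite_of_card_ne_zero
    rw [hcO]; omega
  apply isCyclic_of_orderOf_eq_card (oc (QMinus M F a b) ⟨XX M σ b a, hmem⟩)
  rw [hcO]
  apply orderOf_eq_two_mul (by omega)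
  · have h3 := orderOf_map_dvd ρ (oc (QMinus M F a b) ⟨XX M σ b a, hmem⟩)
    rw [hρ] at h3
    have h4 : prO ⇑(QMinus M F a b) ⟨XX M σ b a, hmem⟩ = σ := rfl
    rwa [h4, hord] at h3
  · rw [← map_pow, hpow]
    intro h
    exact hN ((oc_inlO_eq_one_iff _ hQ hn _).1 h)
  · rw [mul_comm, pow_mul, ← map_pow, hpow, pow_two, ← map_mul, ← map_mul,
      oc_inlO_eq_one_iff _ hQ hn, Subgroup.mul_mem_iff_of_index_two hidx]

end Cfsg.Agent.S2605
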