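import Cfsg.Statements.S2606
import Cfsg.Agent.S2696
import Cfsg.Agent.Lib.Helper18GamD
import Cfsg.Agent.Lib.Helper50Out
import Cfsg.Agent.Lib.Helper51OutD
import Cfsg.Agent.Lib.Helper51FrobN
import Cfsg.Agent.Lib.Helper51OrthInst2

set_option autoImplicit false
open Cfsg

namespace Cfsg.Agent.S2606

open Cfsg.Agent.Lib.Helper51OrthAut Cfsg.Agent.Lib.Helper51OrthIdx
  Cfsg.Agent.Lib.Helper51OrthIdx2 Cfsg.Agent.Lib.Helper51OrthIdx3
  Cfsg.Agent.Lib.Helper18GamA Cfsg.Agent.Lib.Helper18GamB Cfsg.Agent.Lib.Helper18GamC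
  Cfsg.Agent.Lib.Helper18GamD Cfsg.Agent.Lib.Helper49Forms Cfsg.Agent.Lib.Helper49Orth
  Cfsg.Agent.Lib.Helper51OutA Cfsg.Agent.Lib.Helper51OutB Cfsg.Agent.Lib.Helper51OutC
  Cfsg.Agent.Lib.Helper51OutD Cfsg.Agent.Lib.Helper51FrobM
  Cfsg.Agent.Lib.Helper51FrobN Cfsg.Agent.Lib.Helper51OrthInst Cfsg.Agent.Lib.Helper51OrthInst2
open scoped Matrix

theorem Us_rel {F : Type*} [Field F] (a : F) (σ : F ≃+* F) (u v : F)
    (h1 : 2 * u + a * v = σ a) (k : ℕ) :
    2 * Us σ u v k + a * Vs σ v k = (σ ^ k) a := by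
  induction k with
  | zero => simp [Us, Vs]
  | succ k ih =>
    have h3 : (σ ^ (k + 1)) a = (σ ^ k) (σ a) := by rw [pow_succ]; rfl
    rw [h3, ← h1]
    simp only [Us, Vs, map_add, map_mul, map_ofNat, ← ih]
    ring

theorem Q_gUV {F : Type*} [Field F] (M : ℕ) (a b : F) (w : (Fin M ⊕ Fin M) ⊕ Fin 2 → F) :
    QMinus M F a b ((gUV M a (-1) : Matrix _ _ F) *ᵥ w) = QMinus M F a b w := by
  rw [coe_gUV a (neg_ne_zero.2 one_ne_zero), coe_QMinus]
  unfold Cfsg.quadFormMinus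
  simp only [Muv_mulVec_inl, Muv_mulVec_zero, Muv_mulVec_one]
  ring

/-- The reflection `N`. -/
noncomputable def NN {F : Type*} [Field F] (M : ℕ) (a b : F) : ↥(GO (QMinus M F a b)) :=
  ⟨gUV M a (-1), 1, fun w => by rw [Q_gUV, Units.val_one, one_mul]⟩

theorem NN_mul {F : Type*} [Field F] (M : ℕ) (a b : F) : NN M a b * NN M a b = 1 := by
  apply Subtype.ext
  change gUV M a (-1) * gUV M a (-1) = 1
  rw [gUV_mul _ _ (neg_ne_zero.2 one_ne_zero) (neg_ne_zero.2 one_ne_zero), ← gUV_one]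
  congr 1 <;> ring

theorem psi_NN {F : Type*} [Field F] [Fintype F] (M : ℕ) (a b : F) (G : Good (QMinus M F a b))
    {m : ℕ} (hm : Fintype.card ((Fin M ⊕ Fin M) ⊕ Fin 2) = 2 * m) :
    psi (QMinus M F a b) G hm (NN M a b) = (1, -1) := by
  have hmu : mu (QMinus M F a b) G.exists_one (NN M a b) = 1 :=
    mu_eq _ _ _ _ (fun w => by
      rw [Units.val_one, one_mul]
      exact Q_gUV M a b w)
  have hdelta : delta (QMinus M F a b) G.exists_one m (NN M a b) ≠ 1 := by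
    rw [delta_apply, hmu, inv_one, one_pow, mul_one]
    intro h
    have h1 := congrArg (fun u : Fˣ => (u : F)) h
    change (((gUV M a (-1) : Matrix.GeneralLinearGroup ((Fin M ⊕ Fin M) ⊕ Fin 2) F) : Matrix ((Fin M ⊕ Fin M) ⊕ Fin 2) ((Fin M ⊕ Fin M) ⊕ Fin 2) F)).det = 1 at h1
    rw [coe_gUV a (neg_ne_zero.2 one_ne_zero), det_Muv] at h1
    apply G.two
    linear_combination -h1
  apply Prod.ext
  · change sqChar (mu (QMinus M F a b) G.exists_one (NN M a b)) = 1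
    rw [hmu, map_one]
  · change sgnHom _ _ _ (NN M a b) = -1
    rcases Int.units_eq_one_or (sgnHom (delta (QMinus M F a b) G.exists_one m)
      (delta_cases (QMinus M F a b) G.nondeg G.exists_one hm) G.two (NN M a b)) with h | h
    · exact absurd ((sgnHom_eq_one_iff _ _ _ _).1 h) hdelta
    · exact h

/-- Outer automorphism group of PΩ⁻_2m(q), m ≥ 4, q = p^f odd: it is dihedral of order 8 times cyclic of order f when q ≡ 3 (mod 4) and m is odd, and otherwise the direct product of a group of order 2 with a cyclic group of order 2f. -/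
theorem result {F : Type*} [Field F] [Fintype F] {p f m : ℕ} [Fact p.Prime] (hf : 1 ≤ f) (hF : Fintype.card F = p ^ f) (hp : p ≠ 2) (hm : 4 ≤ m) (a b : F) (hab : ∀ z₁ z₂ : F, z₁ ^ 2 + a * z₁ * z₂ + b * z₂ ^ 2 = 0 → z₁ = 0 ∧ z₂ = 0) : if p ^ f % 4 = 3 ∧ Odd m then Nonempty (Cfsg.Out (Cfsg.POmega F (Cfsg.quadFormMinus (m - 1) F a b)) ≃* DihedralGroup 4 × Multiplicative (ZMod f)) else Nonempty (Cfsg.Out (Cfsg.POmega F (Cfsg.quadFormMinus (m - 1) F a b)) ≃* Multiplicative (ZMod 2 × ZMod (2 * f))) := by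
  have hpodd : Odd p := (Fact.out : p.Prime).odd_of_ne_two hp
  have hodd : Odd (Fintype.card F) := by rw [hF]; exact hpodd.pow
  have h2 : (2 : F) ≠ 0 := Cfsg.Agent.Lib.Helper49Forms.two_ne_zero_of_odd rfl hodd
  have hchar : CharP F p := charP_of_card_eq_prime_pow hF
  obtain ⟨M, rfl⟩ : ∃ M, m = M + 1 := ⟨m - 1, by omega⟩
  rw [Nat.add_sub_cancel]
  have hM : 3 ≤ M := by omega
  have htop := Cfsg.Agent.S2696.result (F := F) hM a b hab
  have hpr0 := prO_surjective_minus M hab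
  rw [← coe_QMinus M a b] at htop hpr0 ⊢
  have G := good_QMinus h2 (by omega : 2 ≤ M) hab
  have hcm := card_minus M
  have hn : 5 ≤ Fintype.card ((Fin M ⊕ Fin M) ⊕ Fin 2) := by omega
  have hsurj := sAut_surjective _ htop
  obtain ⟨hcyc, hcardF⟩ := Cfsg.Agent.Lib.Helper50Out.ringAut_cyclic_card hF
  obtain ⟨σ, hσ, hord⟩ := exists_frob hF
  have hD := Cfsg.Agent.Lib.Helper49Disc.not_isSquare_disc h2 hab
  have hD0 : a ^ 2 - 4 * b ≠ 0 := by
    intro h
    exact hD (h ▸ IsSquare.zero)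
  set v := (a ^ 2 - 4 * b) ^ ((p - 1) / 2) with hv
  have hv0 : v ≠ 0 := pow_ne_zero _ hD0
  set u := (a ^ p - a * v) / 2 with hu
  have h1 : 2 * u + a * v = σ a := by rw [hσ]; exact odd_h1 h2 a v _
  have hmem : XX M σ u v ∈ GamO ⇑(QMinus M F a b) := by
    apply XX_mem_GamO a b σ u hv0 h1
    rw [hσ]
    exact odd_h2 hpodd h2 a b
  have hVf : Vs σ v f = -1 := by rw [Vs_frob hσ]; exact odd_Vf hpodd hF hD
  have hUf : Us σ u v f = a := by
    have h3 := Us_rel a σ u v h1 f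
    rw [hVf, ← hord, pow_orderOf_eq_one] at h3
    have h4 : 2 * Us σ u v (orderOf σ) = 2 * a := by
      have : (1 : F ≃+* F) a = a := rfl
      rw [this] at h3
      linear_combination h3
    rw [← hord]
    exact mul_left_cancel₀ h2 h4
  have hpow : (⟨XX M σ u v, hmem⟩ : ↥(GamO ⇑(QMinus M F a b))) ^ f
      = inlO ⇑(QMinus M F a b) (NN M a b) := by
    apply Subtype.ext
    rw [Subgroup.coe_pow, coe_inlO]
    change XX M σ u v ^ f = _
    rw [XX_pow σ u hv0, hUf, hVf, ← hord, pow_orderOf_eq_one]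
    rfl
  have hX : orderOf (prO ⇑(QMinus M F a b) ⟨XX M σ u v, hmem⟩) = f := hord
  have hnegiff := negIn_QMinus hodd M hab
  split_ifs with hc
  · obtain ⟨hc1, hc2⟩ := hc
    have hneg : NegIn (QMinus M F a b) := by
      rw [hnegiff, hF]
      refine ⟨?_, hc1⟩
      rcases Nat.even_or_odd M with h | h
      · exact h
      · exact absurd hc2 (Nat.not_odd_iff_even.2 h.add_one)
    have hfodd : Odd f := by
      rcases Nat.even_or_odd f with ⟨k, hk⟩ | h
      · exfalso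
        rw [hk, pow_add, ← pow_two] at hc1
        have h5 : (p ^ k) % 4 = 0 ∨ (p ^ k) % 4 = 1 ∨ (p ^ k) % 4 = 2 ∨ (p ^ k) % 4 = 3 := by omega
        rcases h5 with h | h | h | h <;> simp [pow_two, Nat.mul_mod, h] at hc1
      · exact h
    exact out_D8 _ G hcm hn hneg hsurj hpr0 hfodd hcardF _ hX (NN M a b) hpow (NN_mul M a b)
  · have hneg : ¬ NegIn (QMinus M F a b) := by
      rw [hnegiff, hF]
      rintro ⟨h5, h6⟩
      exact hc ⟨h6, h5.add_one⟩
    exact out_E4 _ G hcm hn hneg hsurj hpr0 hf hcardF _ hX (NN M a b) hpow (psi_NN M a b G hcm)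

end Cfsg.Agent.S2606
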