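import Cfsg.Statements.S2618
import Cfsg.Agent.Lib.Helper42Quad

set_option autoImplicit false
open Cfsg

namespace Cfsg.Agent.S2618

/-- Standard (parabolic) basis of a non-degenerate quadratic space of odd dimension 2m + 1 over a finite field (the non-degeneracy of the polar form forces the characteristic to be odd): there is a basis e_i, f_i (i < m), x with Q(e_i) = Q(f_i) = 0, B(e_i, f_j) = δ_ij (B the polar form), the e's pairwise orthogonal and the f's pairwise orthogonal, x orthogonal to all of them and Q(x) ≠ 0. -/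
theorem result {F V : Type*} [Field F] [Finite F] [AddCommGroup V] [Module F V] [FiniteDimensional F V] {m : ℕ} (hV : Module.finrank F V = 2 * m + 1) (Q : QuadraticForm F V) (hQ : (QuadraticMap.polarBilin Q).Nondegenerate) : ∃ b : Module.Basis (Unit ⊕ (Fin m ⊕ Fin m)) F V, Q (b (Sum.inl ())) ≠ 0 ∧ (∀ i, QuadraticMap.polar ⇑Q (b (Sum.inl ())) (b (Sum.inr (Sum.inl i))) = 0 ∧ QuadraticMap.polar ⇑Q (b (Sum.inl ())) (b (Sum.inr (Sum.inr i))) = 0) ∧ (∀ i, Q (b (Sum.inr (Sum.inl i))) = 0 ∧ Q (b (Sum.inr (Sum.inr i))) = 0) ∧ (∀ i j, QuadraticMap.polar ⇑Q (b (Sum.inr (Sum.inl i))) (b (Sum.inr (Sum.inr j))) = if i = j then 1 else 0) ∧ (∀ i j, QuadraticMap.polar ⇑Q (b (Sum.inr (Sum.inl i))) (b (Sum.inr (Sum.inl j))) = 0 ∧ QuadraticMap.polar ⇑Q (b (Sum.inr (Sum.inr i))) (b (Sum.inr (Sum.inr j))) = 0) := by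
  classical
  have hstd := Cfsg.Agent.Lib.Helper42Quad.std (F := F) (2 * m + 1) Q hQ hV
  rcases hstd with ⟨k, hk, -⟩ | ⟨k, hk, e, f, x, h, hx, hx0⟩ | ⟨k, hk, -⟩
  · omega
  · have hkm : k = m := by omega
    subst hkm
    have hxne : x ≠ 0 := by
      rintro rfl
      simp at hx0
    obtain ⟨b, hb1, hb2, hb3⟩ := Cfsg.Agent.Lib.Helper42Quad.exists_basis_sum Q e f h
      (fun _ : Unit => x) (fun _ => hx) (LinearIndependent.of_subsingleton () hxne)
      (by simp [hV])
    obtain ⟨h1, h2, h3, h4, h5⟩ := h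
    refine ⟨b.reindex (Equiv.sumComm _ _), ?_, ?_, ?_, ?_, ?_⟩
    · simpa [hb3] using hx0
    · intro i
      have := hx i
      rw [QuadraticMap.polar_comm _ (e i), QuadraticMap.polar_comm _ (f i)] at this
      simpa [hb1, hb2, hb3] using this
    · intro i
      simpa [hb1, hb2] using ⟨h1 i, h2 i⟩
    · intro i j
      simpa [hb1, hb2] using h3 i j
    · intro i j
      simpa [hb1, hb2] using ⟨h4 i j, h5 i j⟩
  · omega

end Cfsg.Agent.S2618
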