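import Cfsg.Statements.S2619
-- import your own Cfsg.Agent.* helpers here

set_option autoImplicit false
open Cfsg

namespace Cfsg.Agent.S2619

/-- Over a finite field of characteristic two, given an alternating bilinear form B on a finite-dimensional space, a basis (v_i) and scalars (λ_i), there is exactly one quadratic form whose polar form is B and whose value at each v_i is λ_i. -/
theorem result {F V ι : Type*} [Field F] [Finite F] [CharP F 2] [AddCommGroup V] [Module F V] [Fintype ι] (b : Module.Basis ι F V) (B : LinearMap.BilinForm F V) (hB : B.IsAlt) (c : ι → F) : ∃! Q : QuadraticForm F V, QuadraticMap.polarBilin Q = B ∧ ∀ i, Q (b i) = c i := by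
  classical
  have h11 : ∀ a : F, a + a = 0 := fun a => CharTwo.add_self_eq_zero a
  have hsym : ∀ x y, B x y = B y x := fun x y => by
    have h := hB.neg_eq x y
    have h2 : -B x y = B x y := by
      rw [neg_eq_iff_add_eq_zero]; exact h11 _
    rw [← h, h2]
  let e := Fintype.equivFin ι
  let M : Matrix ι ι F := fun i j => if e i < e j then B (b i) (b j) else if i = j then c i else 0
  have hM : ∀ i j, Matrix.toBilin b M (b i) (b j) = M i j := by
    intro i j
    rw [← LinearMap.BilinForm.toMatrix_apply b, LinearMap.BilinForm.toMatrix_toBilin]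
  refine ⟨(Matrix.toBilin b M).toQuadraticMap, ⟨?_, ?_⟩, ?_⟩
  · apply LinearMap.BilinForm.ext_basis b
    intro i j
    rw [QuadraticMap.polarBilin_apply_apply, LinearMap.BilinMap.polar_toQuadraticMap, hM, hM]
    simp only [M]
    rcases lt_trichotomy (e i) (e j) with h | h | h
    · have hne : j ≠ i := by rintro rfl; exact lt_irrefl _ h
      simp [h, not_lt.mpr h.le, hne]
    · have hij : i = j := e.injective h
      subst hij
      simp [h11, hB.self_eq_zero]
    · have hne : i ≠ j := by rintro rfl; exact lt_irrefl _ h
      simp [h, not_lt.mpr h.le, hne, hsym (b i) (b j)]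
  · intro i
    rw [LinearMap.BilinMap.toQuadraticMap_apply, hM]
    simp [M]
  · rintro Q ⟨hQ1, hQ2⟩
    obtain ⟨Q', hQ'⟩ : ∃ Q' : QuadraticForm F V, Q' = (Matrix.toBilin b M).toQuadraticMap := ⟨_, rfl⟩
    have hP' : QuadraticMap.polarBilin Q' = B := by
      rw [hQ']
      apply LinearMap.BilinForm.ext_basis b
      intro i j
      rw [QuadraticMap.polarBilin_apply_apply, LinearMap.BilinMap.polar_toQuadraticMap, hM, hM]
      simp only [M]
      rcases lt_trichotomy (e i) (e j) with h | h | h
      · have hne : j ≠ i := by rintro rfl; exact lt_irrefl _ h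
        simp [h, not_lt.mpr h.le, hne]
      · have hij : i = j := e.injective h
        subst hij
        simp [h11, hB.self_eq_zero]
      · have hne : i ≠ j := by rintro rfl; exact lt_irrefl _ h
        simp [h, not_lt.mpr h.le, hne, hsym (b i) (b j)]
    have hc' : ∀ i, Q' (b i) = c i := by
      intro i
      rw [hQ', LinearMap.BilinMap.toQuadraticMap_apply, hM]
      simp [M]
    rw [← hQ']
    ext v
    have hv : v ∈ Submodule.span F (Set.range b) := by rw [b.span_eq]; trivial
    induction hv using Submodule.span_induction with
    | mem x hx =>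
      obtain ⟨i, rfl⟩ := hx
      rw [hQ2, hc']
    | zero => simp
    | add x y _ _ hx hy =>
      have h1 : Q (x + y) = Q x + Q y + QuadraticMap.polarBilin Q x y := by
        rw [QuadraticMap.polarBilin_apply_apply, QuadraticMap.polar]; ring
      have h2 : Q' (x + y) = Q' x + Q' y + QuadraticMap.polarBilin Q' x y := by
        rw [QuadraticMap.polarBilin_apply_apply, QuadraticMap.polar]; ring
      rw [h1, h2, hQ1, hP', hx, hy]
    | smul a x _ hx =>
      rw [QuadraticMap.map_smul, QuadraticMap.map_smul, hx]

end Cfsg.Agent.S2619
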