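import Cfsg.Statements.S2623
import Cfsg.Agent.Lib.Helper18Quad

set_option autoImplicit false
open Cfsg

namespace Cfsg.Agent.S2623

open QuadraticMap QuadraticForm

/-- discriminant in the standard basis -/
noncomputable def disc {F : Type*} [Field F] {n : ℕ} (Q : QuadraticForm F (Fin n → F)) : F :=
  (Matrix.of (fun i j : Fin n => polar ⇑Q (Pi.single i 1) (Pi.single j 1))).det

theorem disc_eq {F : Type*} [Field F] {n : ℕ} (Q : QuadraticForm F (Fin n → F)) :
    disc Q = (LinearMap.BilinForm.toMatrix' (polarBilin Q)).det := by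
  unfold disc
  congr 1

theorem disc_comp {F : Type*} [Field F] {n : ℕ} (Q Q' : QuadraticForm F (Fin n → F))
    (g : (Fin n → F) →ₗ[F] (Fin n → F)) (hg : ∀ v, Q' (g v) = Q v) :
    disc Q = (LinearMap.toMatrix' g).det ^ 2 * disc Q' := by
  have h : polarBilin Q = LinearMap.BilinForm.comp (polarBilin Q') g g := by
    apply LinearMap.ext
    intro x
    apply LinearMap.ext
    intro y
    rw [LinearMap.BilinForm.comp_apply, polarBilin_apply_apply, polarBilin_apply_apply, polar, polar]
    rw [← map_add, hg, hg, hg]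
  rw [disc_eq, disc_eq, h, LinearMap.BilinForm.toMatrix'_comp, Matrix.det_mul, Matrix.det_mul,
    Matrix.det_transpose]
  ring

theorem disc_wss {F : Type*} [Field F] {n : ℕ} (w : Fin n → F) :
    disc (weightedSumSquares F w) = 2 ^ n * ∏ i, w i := by
  have h : (Matrix.of (fun i j : Fin n => polar ⇑(weightedSumSquares F w) (Pi.single i 1)
      (Pi.single j 1))) = Matrix.diagonal (fun i => 2 * w i) := by
    ext i j
    simp only [Matrix.of_apply, polar, weightedSumSquares_apply, Matrix.diagonal_apply,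
      Pi.add_apply, smul_eq_mul]
    by_cases hij : i = j
    · subst hij
      simp only [if_true]
      rw [← Finset.sum_sub_distrib, ← Finset.sum_sub_distrib, Finset.sum_eq_single i]
      · simp; ring
      · intro b _ hb
        simp [Pi.single_eq_of_ne hb]
      · simp
    · simp only [hij, if_false]
      rw [← Finset.sum_sub_distrib, ← Finset.sum_sub_distrib]
      apply Finset.sum_eq_zero
      intro k _
      by_cases hki : k = i
      · subst hki
        simp [Pi.single_eq_of_ne hij]
      · simp [Pi.single_eq_of_ne hki]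
  unfold disc
  rw [h, Matrix.det_diagonal, Finset.prod_mul_distrib]
  simp

theorem exists_diag {F : Type*} [Field F] (h2 : (2 : F) ≠ 0) {n : ℕ}
    (Q : QuadraticForm F (Fin n → F)) (hQ : (polarBilin Q).Nondegenerate) :
    ∃ w : Fin n → F, (∀ i, w i ≠ 0) ∧ Equivalent Q (weightedSumSquares F w) := by
  haveI : Invertible (2 : F) := invertibleOfNonzero h2
  have hsep : (associated (R := F) Q).SeparatingLeft := by
    intro x hx
    apply hQ.1 x
    intro y
    have := hx y
    rw [associated_apply] at this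
    rw [polarBilin_apply_apply, polar]
    have h3 : (⅟2 : F) ≠ 0 := by
      intro h0
      have := invOf_mul_self (2 : F)
      rw [h0, zero_mul] at this
      exact zero_ne_one this
    have h5 : (2 : F) = 0 ∨ Q (x + y) - Q x - Q y = 0 := by simpa [smul_eq_mul] using this
    rcases h5 with h4 | h4
    · exact absurd h4 h2
    · exact h4
  obtain ⟨k, hk, w, hw⟩ : ∃ k, k = n ∧ ∃ w : Fin k → Fˣ,
      Equivalent Q (weightedSumSquares F w) :=
    ⟨_, Module.finrank_fin_fun F, equivalent_weightedSumSquares_units_of_nondegenerate' Q hsep⟩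
  subst hk
  refine ⟨fun i => (w i : F), fun i => (w i).ne_zero, ?_⟩
  convert hw using 1
  ext v
  simp [weightedSumSquares_apply, Units.smul_def]


/-- Over a finite field of odd order, two quadratic forms on F^n with non-degenerate polar forms are isometric (related by an invertible linear change of variables) if and only if their discriminants (determinants of the Gram matrices of their polar forms) lie in the same square class. -/
theorem result {F : Type*} [Field F] [Fintype F] (h2 : (2 : F) ≠ 0) {n : ℕ} (Q₁ Q₂ : QuadraticForm F (Fin n → F)) (h₁ : (QuadraticMap.polarBilin Q₁).Nondegenerate) (h₂ : (QuadraticMap.polarBilin Q₂).Nondegenerate) : (∃ g : (Fin n → F) ≃ₗ[F] (Fin n → F), ∀ v, Q₂ (g v) = Q₁ v) ↔ IsSquare ((Matrix.of (fun i j : Fin n => QuadraticMap.polar ⇑Q₁ (Pi.single i 1) (Pi.single j 1))).det * (Matrix.of (fun i j : Fin n => QuadraticMap.polar ⇑Q₂ (Pi.single i 1) (Pi.single j 1))).det) := by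
  classical
  change _ ↔ IsSquare (disc Q₁ * disc Q₂)
  constructor
  · rintro ⟨g, hg⟩
    rw [disc_comp Q₁ Q₂ g.toLinearMap hg]
    exact ⟨(LinearMap.toMatrix' g.toLinearMap).det * disc Q₂, by ring⟩
  · rintro ⟨r, hr⟩
    rcases Nat.eq_zero_or_pos n with rfl | hn
    · refine ⟨LinearEquiv.refl _ _, fun v => ?_⟩
      have : v = 0 := Subsingleton.elim _ _
      rw [this, map_zero, QuadraticMap.map_zero, QuadraticMap.map_zero]
    obtain ⟨w₁, hw₁, ⟨E₁⟩⟩ := exists_diag h2 Q₁ h₁
    obtain ⟨w₂, hw₂, ⟨E₂⟩⟩ := exists_diag h2 Q₂ h₂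
    have d1 := disc_comp Q₁ _ E₁.toLinearEquiv.toLinearMap (fun v => E₁.map_app v)
    have d2 := disc_comp Q₂ _ E₂.toLinearEquiv.toLinearMap (fun v => E₂.map_app v)
    rw [disc_wss] at d1 d2
    have hdet : ∀ E : (Fin n → F) ≃ₗ[F] (Fin n → F), (LinearMap.toMatrix' E.toLinearMap).det ≠ 0 := by
      intro E
      have h1 : LinearMap.toMatrix' E.toLinearMap * LinearMap.toMatrix' E.symm.toLinearMap = 1 := by
        rw [← LinearMap.toMatrix'_comp]
        simp
      intro h0
      have := congrArg Matrix.det h1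
      rw [Matrix.det_mul, h0, zero_mul, Matrix.det_one] at this
      exact zero_ne_one this
    have ha1 := hdet E₁.toLinearEquiv
    have ha2 := hdet E₂.toLinearEquiv
    set a1 := (LinearMap.toMatrix' E₁.toLinearEquiv.toLinearMap).det
    set a2 := (LinearMap.toMatrix' E₂.toLinearEquiv.toLinearMap).det
    have hP1 : ∏ i, w₁ i ≠ 0 := Finset.prod_ne_zero_iff.mpr fun i _ => hw₁ i
    have hP2 : ∏ i, w₂ i ≠ 0 := Finset.prod_ne_zero_iff.mpr fun i _ => hw₂ i
    have h2n : (2 : F) ^ n ≠ 0 := pow_ne_zero _ h2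
    rw [d1, d2] at hr
    have hs : ∏ i, w₁ i = (∏ i, w₂ i) * (r / (a1 * a2 * 2 ^ n * ∏ i, w₂ i)) ^ 2 := by
      field_simp
      linear_combination hr
    have hs0 : r / (a1 * a2 * 2 ^ n * ∏ i, w₂ i) ≠ 0 := by
      intro h0
      rw [h0] at hs
      apply hP1
      rw [hs]; simp
    obtain ⟨E⟩ := Cfsg.Agent.Lib.Helper18Quad.equiv_of_prod h2 w₁ w₂ hw₁ hw₂ ⟨0, hn⟩ _ hs0 hs
    refine ⟨((E₁.trans E).trans E₂.symm).toLinearEquiv, fun v => ?_⟩
    exact ((E₁.trans E).trans E₂.symm).map_app v

end Cfsg.Agent.S2623
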