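import Cfsg.Statements.S2625
import Cfsg.Agent.Lib.Helper49Gram

set_option autoImplicit false
open Cfsg

namespace Cfsg.Agent.S2625

/-- For a quadratic form Q on F^n with non-degenerate polar form, F finite and n odd (so |F| is odd), the multiplier of any similarity is a square: if g is an invertible linear map with Q(g v) = c·Q(v) for all v then c is a square. -/
theorem result {F : Type*} [Field F] [Fintype F] {n : ℕ} (hn : Odd n) (Q : QuadraticForm F (Fin n → F)) (hQ : (QuadraticMap.polarBilin Q).Nondegenerate) (g : (Fin n → F) ≃ₗ[F] (Fin n → F)) (c : F) (hg : ∀ v, Q (g v) = c * Q v) : IsSquare c := by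
  obtain ⟨d, hd, h⟩ := Cfsg.Agent.Lib.Helper49Gram.det_gram_similarity Q Q g c hg
  have hG := Cfsg.Agent.Lib.Helper49Gram.det_gram_ne_zero Q hQ
  have h1 : c ^ n = d * d := by
    rw [Fintype.card_fin] at h
    exact mul_right_cancel₀ hG h
  obtain ⟨k, rfl⟩ := hn
  by_cases hc : c = 0
  · rw [hc]; exact IsSquare.zero
  · refine ⟨d / c ^ k, ?_⟩
    have hck : c ^ k ≠ 0 := pow_ne_zero _ hc
    field_simp
    rw [← pow_two] at h1
    rw [← h1]
    ring

end Cfsg.Agent.S2625
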