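import Cfsg.Statements.S2636

set_option autoImplicit false
open Cfsg

namespace Cfsg.Agent.S2636

open Module

variable {F : Type*} [Field F]

/-- The fixed field of `σ`. -/
noncomputable def F0 (σ : F ≃+* F) : Subfield F := FixedPoints.subfield (Subgroup.zpowers σ) F

theorem mem_F0 (σ : F ≃+* F) (x : F) : x ∈ F0 σ ↔ σ x = x := by
  constructor
  · intro h
    exact h ⟨σ, Subgroup.mem_zpowers σ⟩
  · intro h
    rintro ⟨τ, hτ⟩
    change τ x = x
    obtain ⟨k, rfl⟩ := Subgroup.mem_zpowers_iff.1 hτ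
    have h1 : σ ∈ MulAction.stabilizer (F ≃+* F) x := h
    exact zpow_mem h1 k

theorem card_F0 [Fintype F] (σ : F ≃+* F) {q₀ r : ℕ} (hr : r.Prime) (hF : Fintype.card F = q₀ ^ r)
    (hσ : orderOf σ = r) : Nat.card (F0 σ) = q₀ := by
  classical
  have : Finite (Subgroup.zpowers σ) :=
    (finite_zpowers.2 (orderOf_pos_iff.1 (by rw [hσ]; exact hr.pos))).to_subtype
  let _ : Fintype (Subgroup.zpowers σ) := Fintype.ofFinite _
  have h1 : finrank (F0 σ) F = Fintype.card (Subgroup.zpowers σ) :=
    FixedPoints.finrank_eq_card (Subgroup.zpowers σ) F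
  rw [← Nat.card_eq_fintype_card, Nat.card_zpowers, hσ] at h1
  have h2 := Module.natCard_eq_pow_finrank (K := F0 σ) (V := F)
  rw [h1, Nat.card_eq_fintype_card, hF] at h2
  exact (Nat.pow_left_injective (n := r) hr.pos.ne' h2).symm


open Matrix.GeneralLinearGroup in
/-- Scalars times matrices over the fixed field. -/
noncomputable def Phi (σ : F ≃+* F) (n : ℕ) : Fˣ × GL (Fin n) (F0 σ) →* GL (Fin n) F where
  toFun dh := scalar (Fin n) dh.1 * map (F0 σ).subtype dh.2
  map_one' := by simp
  map_mul' a b := by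
    simp only [Prod.fst_mul, Prod.snd_mul, map_mul]
    have hc := scalar_commute b.1 (map (F0 σ).subtype a.2)
    calc scalar (Fin n) a.1 * scalar (Fin n) b.1 * (map (F0 σ).subtype a.2 * map (F0 σ).subtype b.2)
        = scalar (Fin n) a.1 * ((scalar (Fin n) b.1 * map (F0 σ).subtype a.2)
            * map (F0 σ).subtype b.2) := by simp only [mul_assoc]
      _ = scalar (Fin n) a.1 * ((map (F0 σ).subtype a.2 * scalar (Fin n) b.1)
            * map (F0 σ).subtype b.2) := by rw [hc]
      _ = _ := by simp only [mul_assoc]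

theorem Phi_apply (σ : F ≃+* F) (n : ℕ) (d : Fˣ) (h : GL (Fin n) (F0 σ)) (i j : Fin n) :
    (Phi σ n (d, h) : Matrix (Fin n) (Fin n) F) i j = (d : F) * (h i j : F) := by
  simp [Phi, Matrix.GeneralLinearGroup.map, Matrix.scalar_apply, Matrix.diagonal_mul]

theorem mem_range_Phi (σ : F ≃+* F) {n : ℕ} (hn : 1 ≤ n) (g : GL (Fin n) F) :
    g ∈ (Phi σ n).range ↔ ∃ c : F, c ≠ 0 ∧
      (g : Matrix (Fin n) (Fin n) F).map σ = c • (g : Matrix (Fin n) (Fin n) F) := by
  have : NeZero n := ⟨by omega⟩
  constructor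
  · rintro ⟨⟨d, h⟩, rfl⟩
    refine ⟨σ d / d, div_ne_zero (by simp) (by simp), ?_⟩
    ext i j
    rw [Matrix.map_apply, Matrix.smul_apply, Phi_apply, map_mul, (mem_F0 σ _).1 (h i j).2,
      smul_eq_mul]
    field_simp
  · rintro ⟨c, hc, hg⟩
    have hex : ∃ i j, (g : Matrix (Fin n) (Fin n) F) i j ≠ 0 := by
      by_contra hcon
      push Not at hcon
      have h0 : (g : Matrix (Fin n) (Fin n) F) = 0 := by
        ext i j; exact hcon i j
      have h1 := g.val_inv
      rw [h0, zero_mul] at h1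
      exact zero_ne_one h1
    obtain ⟨i₀, j₀, hd⟩ := hex
    set d := (g : Matrix (Fin n) (Fin n) F) i₀ j₀ with hddef
    have hent : ∀ i j, σ ((g : Matrix (Fin n) (Fin n) F) i j) = c * (g : Matrix (Fin n) (Fin n) F) i j := by
      intro i j
      have := congrFun (congrFun hg i) j
      simpa using this
    have hσd : σ d = c * d := hent i₀ j₀
    have hmem : ∀ i j, d⁻¹ * (g : Matrix (Fin n) (Fin n) F) i j ∈ F0 σ := by
      intro i j
      rw [mem_F0, map_mul, map_inv₀, hσd, hent]
      field_simp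
    let H : Matrix (Fin n) (Fin n) (F0 σ) := fun i j => ⟨_, hmem i j⟩
    have hHmap : H.map (F0 σ).subtype = d⁻¹ • (g : Matrix (Fin n) (Fin n) F) := by
      ext i j; rfl
    have hdet : H.det ≠ 0 := by
      intro h0
      have h1 : (F0 σ).subtype H.det = 0 := by rw [h0, map_zero]
      rw [RingHom.map_det] at h1
      change (H.map (F0 σ).subtype).det = 0 at h1
      rw [hHmap, Matrix.det_smul] at h1
      have h2 : (g : Matrix (Fin n) (Fin n) F).det ≠ 0 := by
        have := (Matrix.isUnit_iff_isUnit_det _).1 g.isUnit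
        exact this.ne_zero
      exact (mul_ne_zero (pow_ne_zero _ (inv_ne_zero hd)) h2) h1
    refine ⟨(Units.mk0 d hd, Matrix.GeneralLinearGroup.mkOfDetNeZero H hdet), ?_⟩
    apply Units.ext
    ext i j
    rw [Phi_apply]
    change d * (d⁻¹ * _) = _
    field_simp


open Matrix.GeneralLinearGroup in
/-- The kernel of `Phi` is parametrised by the units of the fixed field. -/
noncomputable def iota (σ : F ≃+* F) (n : ℕ) : (F0 σ)ˣ →* Fˣ × GL (Fin n) (F0 σ) :=
  MonoidHom.prod (Units.map (F0 σ).subtype.toMonoidHom)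
    ((scalar (Fin n)).comp (MulEquiv.inv (F0 σ)ˣ).toMonoidHom)

theorem iota_injective (σ : F ≃+* F) (n : ℕ) : Function.Injective (iota σ n) := by
  intro a b hab
  have h1 := congrArg Prod.fst hab
  have h2 := congrArg Units.val h1
  apply Units.ext
  apply Subtype.ext
  exact h2

theorem range_iota (σ : F ≃+* F) {n : ℕ} (hn : 1 ≤ n) : (iota σ n).range = (Phi σ n).ker := by
  have : NeZero n := ⟨by omega⟩
  ext ⟨d, h⟩
  rw [MonoidHom.mem_ker]
  constructor
  · rintro ⟨a, ha⟩
    rw [← ha]
    apply Units.ext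
    ext i j
    change (Phi σ n (_, _) : Matrix (Fin n) (Fin n) F) i j = _
    rw [Phi_apply]
    simp only [MonoidHom.comp_apply, Matrix.GeneralLinearGroup.coe_scalar]
    by_cases hij : i = j
    · subst hij
      simp
    · simp [hij, Matrix.scalar_apply]
  · intro hk
    have hent : ∀ i j, (d : F) * (h i j : F) = (1 : Matrix (Fin n) (Fin n) F) i j := by
      intro i j
      rw [← Phi_apply, hk]; rfl
    have h00 := hent 0 0
    rw [Matrix.one_apply_eq] at h00
    have hd : (d : F) = ((h 0 0 : F0 σ) : F)⁻¹ := eq_inv_of_mul_eq_one_left h00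
    have hne : (h 0 0 : F0 σ) ≠ 0 := by
      intro h0
      rw [h0] at h00
      simp at h00
    refine ⟨(Units.mk0 (h 0 0) hne)⁻¹, ?_⟩
    apply Prod.ext
    · apply Units.ext
      change (((Units.mk0 (h 0 0) hne)⁻¹ : (F0 σ)ˣ) : F0 σ).1 = d
      rw [hd]; simp
    · apply Units.ext
      ext i j
      change ((Matrix.scalar (Fin n) (((Units.mk0 (h 0 0) hne)⁻¹⁻¹ : (F0 σ)ˣ) : F0 σ)) i j : F) = _
      rw [inv_inv, Units.val_mk0]
      have h1 := hent i j
      by_cases hij : i = j
      · subst hij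
        rw [Matrix.one_apply_eq] at h1
        have : (h i i : F) = (h 0 0 : F) := by
          have hd0 : (d : F) ≠ 0 := d.ne_zero
          exact mul_left_cancel₀ hd0 (h1.trans h00.symm)
        simp [this]
      · rw [Matrix.one_apply_ne hij] at h1
        have hd0 : (d : F) ≠ 0 := d.ne_zero
        have : (h i j : F) = 0 := by
          rcases mul_eq_zero.1 h1 with h2 | h2
          · exact absurd h2 hd0
          · exact h2
        simp [hij, this, Matrix.scalar_apply]

/-- Centraliser of a field automorphism in PGL_n: let F be the field with q = q₀^r elements, σ a field automorphism of F of prime order r (so its fixed field has q₀ elements) and n ≥ 1. The invertible matrices g whose entrywise image under σ is a scalar multiple of g — those whose coset modulo scalars is fixed by σ — number (q − 1)/(q₀ − 1) · |GL_n(q₀)|; equivalently the centraliser in PGL_n(q) of the induced automorphism has the order of PGL_n(q₀). -/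
theorem result {F : Type*} [Field F] [Fintype F] {q₀ r n : ℕ} (hr : r.Prime) (hn : 1 ≤ n) (hF : Fintype.card F = q₀ ^ r) (σ : F ≃+* F) (hσ : orderOf σ = r) : Nat.card {g : GL (Fin n) F // ∃ c : F, c ≠ 0 ∧ (g : Matrix (Fin n) (Fin n) F).map σ = c • (g : Matrix (Fin n) (Fin n) F)} = (q₀ ^ r - 1) / (q₀ - 1) * ∏ i : Fin n, (q₀ ^ n - q₀ ^ (i : ℕ)) := by
  classical
  have hq := card_F0 σ hr hF hσ
  have : Finite (F0 σ) := inferInstance
  let _ : Fintype (F0 σ) := Fintype.ofFinite _
  have h1 : Nat.card {g : GL (Fin n) F // ∃ c : F, c ≠ 0 ∧ (g : Matrix (Fin n) (Fin n) F).map σ = c • (g : Matrix (Fin n) (Fin n) F)} = Nat.card (Phi σ n).range :=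
    Nat.card_congr (Equiv.subtypeEquivRight (fun g => (mem_range_Phi σ hn g).symm))
  have h2 : Nat.card (Phi σ n).ker = q₀ - 1 := by
    rw [← range_iota σ hn, ← Nat.card_congr (MonoidHom.ofInjective (iota_injective σ n)).toEquiv,
      Nat.card_units, hq]
  have h3 : Nat.card (Phi σ n).ker * Nat.card (Phi σ n).range = Nat.card (Fˣ × GL (Fin n) (F0 σ)) := by
    rw [← Subgroup.index_ker, Subgroup.card_mul_index]
  have h4 : Nat.card (GL (Fin n) (F0 σ)) = ∏ i : Fin n, (q₀ ^ n - q₀ ^ (i : ℕ)) := by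
    rw [Matrix.card_GL_field, ← Nat.card_eq_fintype_card, hq]
  rw [Nat.card_prod, Nat.card_units, h4, h2, Nat.card_eq_fintype_card (α := F), hF] at h3
  rw [h1]
  have hq2 : 2 ≤ q₀ := by
    rw [← hq]
    exact Finite.one_lt_card
  obtain ⟨k, hk⟩ : q₀ - 1 ∣ q₀ ^ r - 1 := by
    have := Nat.sub_dvd_pow_sub_pow q₀ 1 r
    rwa [one_pow] at this
  rw [hk, Nat.mul_div_cancel_left _ (by omega)]
  rw [hk, mul_assoc] at h3
  exact Nat.eq_of_mul_eq_mul_left (by omega) h3

end Cfsg.Agent.S2636
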