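import Cfsg.Statements.S2637
import Cfsg.Agent.Lib.Helper48Cube
import Cfsg.Agent.S2389

set_option autoImplicit false
open Cfsg

namespace Cfsg.Agent.S2637

open Polynomial Matrix Cfsg.Agent.Lib.Helper48Cube Cfsg.Agent.Lib.Helper48Scal

theorem card_centralizer_conj {G : Type*} [Group G] (x y : G) (h : IsConj x y) :
    Nat.card (Subgroup.centralizer ({x} : Set G)) = Nat.card (Subgroup.centralizer ({y} : Set G)) := by
  rw [isConj_iff] at h
  obtain ⟨c, rfl⟩ := h
  apply Nat.card_congr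
  refine ⟨fun g => ⟨c * g.1 * c⁻¹, ?_⟩, fun g => ⟨c⁻¹ * g.1 * c, ?_⟩, ?_, ?_⟩
  · have := Subgroup.mem_centralizer_singleton_iff.1 g.2
    rw [Subgroup.mem_centralizer_singleton_iff]
    calc c * g.1 * c⁻¹ * (c * x * c⁻¹) = c * (g.1 * x) * c⁻¹ := by group
      _ = c * (x * g.1) * c⁻¹ := by rw [this]
      _ = _ := by group
  · have := Subgroup.mem_centralizer_singleton_iff.1 g.2
    rw [Subgroup.mem_centralizer_singleton_iff]
    calc c⁻¹ * g.1 * c * x = c⁻¹ * (g.1 * (c * x * c⁻¹)) * c := by group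
      _ = c⁻¹ * ((c * x * c⁻¹) * g.1) * c := by rw [this]
      _ = _ := by group
  · intro g
    apply Subtype.ext
    simp only
    group
  · intro g
    apply Subtype.ext
    simp only
    group

/-- Centraliser of a fixed-point-free element of order three in Sp_2m(q) when q ≡ 2 (mod 3): if x ∈ Sp_2m(F) (|F| = q, m ≥ 1) satisfies x³ = 1 and x − 1 is invertible, then its centraliser in Sp_2m(F) has the order of the unitary group GU_m(q), namely q^(m(m−1)/2) Π_(i=1)^m (q^i − (−1)^i) (x lies in the centre of a subgroup GU_m(q) of Sp_2m(q)). -/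
theorem result {F : Type*} [Field F] [Fintype F] {q : ℕ} (hF : Fintype.card F = q) (hq : q % 3 = 2) {m : ℕ} (hm : 1 ≤ m) (x : Matrix.symplecticGroup (Fin m) F) (hx3 : x ^ 3 = 1) (hfpf : IsUnit ((x : Matrix (Fin m ⊕ Fin m) (Fin m ⊕ Fin m) F) - 1)) : (Nat.card ↥(Subgroup.centralizer ({x} : Set ↥(Matrix.symplecticGroup (Fin m) F))) : ℤ) = (q : ℤ) ^ (m * (m - 1) / 2) * ∏ i : Fin m, ((q : ℤ) ^ ((i : ℕ) + 1) - (-1) ^ ((i : ℕ) + 1)) := by
  have hfact : Fact (∀ r : F, r ^ 2 ≠ -1 + -1 * r) := ⟨no_root hF hq⟩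
  let _ : Fintype (KK F) := Fintype.ofEquiv _ (QuadraticAlgebra.equivProd (-1 : F) (-1)).symm
  obtain ⟨p, hchar⟩ := CharP.exists F
  have hp : p.Prime := CharP.char_is_prime F p
  have _ : Fact p.Prime := ⟨hp⟩
  have hp3 : Nat.Coprime 3 p := by
    rw [Nat.coprime_primes Nat.prime_three hp]
    rintro rfl
    obtain ⟨e, -, he⟩ := FiniteField.card F 3
    rw [hF] at he
    have : 3 ∣ q := by rw [he]; exact dvd_pow_self 3 e.ne_zero
    omega
  set π : F[X] := X ^ 2 + X + 1 with hπ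
  have hπdeg : π.natDegree = 2 := by rw [hπ]; compute_degree!
  have hπm : π.Monic := by rw [hπ]; monicity!
  have hπi : Irreducible π := by
    apply irreducible_of_degree_le_three_of_not_isRoot
    · rw [hπdeg]; simp
    · intro r hr
      rw [IsRoot, hπ, eval_add, eval_add, eval_pow, eval_X, eval_one] at hr
      apply no_root hF hq r
      linear_combination hr
  have hchi : ∀ M : Matrix (Fin m ⊕ Fin m) (Fin m ⊕ Fin m) F, M ^ 2 + M + 1 = 0 →
      M.charpoly = π ^ m := by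
    intro M hM
    obtain ⟨k, hk⟩ := charpoly_eq_pow π hπi hπm M (by
      rw [hπ, map_add, map_add, map_pow, aeval_X, map_one, hM])
    have h1 := congrArg natDegree hk
    rw [Matrix.charpoly_natDegree_eq_dim, natDegree_pow, hπdeg, Fintype.card_sum,
      Fintype.card_fin] at h1
    have : k = m := by omega
    rw [hk, this]
  have hx : x.1 ^ 2 + x.1 + 1 = 0 := by
    obtain ⟨u, hu⟩ := hfpf
    have h1 : (x.1 - 1) * (x.1 ^ 2 + x.1 + 1) = 0 := by
      have h2 : x.1 ^ 3 = 1 := congrArg Subtype.val hx3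
      have : (x.1 - 1) * (x.1 ^ 2 + x.1 + 1) = x.1 ^ 3 - 1 := by noncomm_ring
      rw [this, h2, sub_self]
    rw [← hu] at h1
    exact (Units.mul_right_eq_zero u).1 h1
  have hx0 : x0 m F ^ 2 + x0 m F + 1 = 0 := by
    rw [sq, x0, fromBlocks_multiply, ← fromBlocks_one, fromBlocks_add, fromBlocks_add]
    simp
  have hx03 : (⟨x0 m F, x0_mem⟩ : Matrix.symplecticGroup (Fin m) F) ^ 3 = 1 := by
    apply Subtype.ext
    change x0 m F ^ 3 = 1
    have : x0 m F ^ 3 = (x0 m F - 1) * (x0 m F ^ 2 + x0 m F + 1) + 1 := by noncomm_ring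
    rw [this, hx0, mul_zero, zero_add]
  have hconj := Cfsg.Agent.S2389.result p m x ⟨x0 m F, x0_mem⟩
    (Nat.Coprime.coprime_dvd_left (orderOf_dvd_of_pow_eq_one hx3) hp3)
    (Nat.Coprime.coprime_dvd_left (orderOf_dvd_of_pow_eq_one hx03) hp3)
    (by rw [hchi _ hx, hchi _ hx0])
  rw [card_centralizer_conj _ _ hconj, card_centralizer_x0 hF hq m,
    Cfsg.Agent.Lib.Helper7GU.card_GU (card_KK hF) m]
  push_cast
  congr 1
  rw [Finset.prod_range]
  refine Finset.prod_congr rfl fun i _ => ?_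
  have hq1 : 1 ≤ q ^ ((i : ℕ) + 1) := Nat.one_le_pow _ _ (by omega)
  split_ifs with h
  · rw [(h.add_one).neg_one_pow]
    ring
  · rw [Nat.not_even_iff_odd] at h
    rw [(h.add_one).neg_one_pow]
    push_cast [hq1]
    ring

end Cfsg.Agent.S2637
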