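import Cfsg.Statements.S2638

set_option autoImplicit false
open Cfsg

namespace Cfsg.Agent.S2638

open Module

section lin
variable {F : Type*} [Field F] [Fintype F]

theorem card_modEq {U : Type*} [AddCommGroup U] [Module F U] [FiniteDimensional F U] {r : ℕ}
    (hr : r.Prime) (f : U →ₗ[F] U) (hf : f ^ r = 1) :
    Fintype.card F ^ finrank F U ≡ Fintype.card F ^ finrank F (LinearMap.ker (f - 1)) [MOD r] := by
  classical
  have : Fact r.Prime := ⟨hr⟩
  have : Finite U := Module.finite_of_finite F
  let _ : Fintype U := Fintype.ofFinite U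
  let g : Function.End U := fun u => f u
  have hgk : ∀ k : ℕ, ∀ u, (g ^ k) u = (f ^ k) u := by
    intro k
    induction k with
    | zero => intro u; rfl
    | succ k ih =>
      intro u
      rw [pow_succ, pow_succ]
      change (g ^ k) (g u) = (f ^ k) (f u)
      rw [ih]
  have hg : g ^ r ^ 1 = 1 := by
    funext u
    rw [pow_one, hgk, hf]; rfl
  have h1 := Equiv.Perm.card_fixedPoints_modEq hg
  rw [Module.card_eq_pow_finrank (K := F) (V := U)] at h1
  have h2 : Fintype.card (Function.fixedPoints g) = Fintype.card (LinearMap.ker (f - 1)) := by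
    apply Fintype.card_congr
    refine Equiv.subtypeEquivRight ?_
    intro u
    simp [Function.IsFixedPt, g, sub_eq_zero]
  rw [h2, Module.card_eq_pow_finrank (K := F) (V := LinearMap.ker (f - 1))] at h1
  exact h1

theorem dvd_sub {q r n a b : ℕ} (hr : r.Prime) (hn : 1 ≤ n) (hi : orderOf (q : ZMod r) = n)
    (hab : b ≤ a) (h : q ^ a ≡ q ^ b [MOD r]) : n ∣ a - b := by
  have : Fact r.Prime := ⟨hr⟩
  have hq : (q : ZMod r) ≠ 0 := by
    intro h0
    rw [h0] at hi
    have : orderOf (0 : ZMod r) = 0 := by
      rw [orderOf_eq_zero_iff']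
      intro k hk
      simp [hk.ne']
    omega
  have h1 : (q : ZMod r) ^ a = (q : ZMod r) ^ b := by
    have := (ZMod.natCast_eq_natCast_iff _ _ _).2 h
    push_cast at this
    exact this
  rw [← hi, orderOf_dvd_iff_pow_eq_one]
  have h2 : (q : ZMod r) ^ (a - b) * (q : ZMod r) ^ b = 1 * (q : ZMod r) ^ b := by
    rw [← pow_add, Nat.sub_add_cancel hab, h1, one_mul]
  exact mul_right_cancel₀ (pow_ne_zero _ hq) h2

variable {V : Type*} [AddCommGroup V] [Module F V] [FiniteDimensional F V]

theorem ker_sub_one {r : ℕ} (hr : r.Prime) (hn : 1 ≤ finrank F V)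
    (hi : orderOf (Fintype.card F : ZMod r) = finrank F V) (T : V →ₗ[F] V) (hT : T ^ r = 1)
    (hT1 : T ≠ 1) : LinearMap.ker (T - 1) = ⊥ := by
  have h1 := card_modEq hr T hT
  have h2 := dvd_sub hr hn hi (Submodule.finrank_le _) h1
  by_cases h0 : finrank F (LinearMap.ker (T - 1)) = 0
  · exact Submodule.finrank_eq_zero.1 h0
  · exfalso
    have h3 : finrank F V - finrank F (LinearMap.ker (T - 1)) = 0 := by
      by_contra h4
      have := Nat.le_of_dvd (Nat.pos_of_ne_zero h4) h2
      omega
    have h4 : finrank F (LinearMap.ker (T - 1)) = finrank F V :=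
      le_antisymm (Submodule.finrank_le _) (by omega)
    have h5 := Submodule.eq_top_of_finrank_eq h4
    apply hT1
    rw [LinearMap.ker_eq_top] at h5
    exact sub_eq_zero.1 h5

theorem invariant_eq {r : ℕ} (hr : r.Prime) (hn : 1 ≤ finrank F V)
    (hi : orderOf (Fintype.card F : ZMod r) = finrank F V) (T : V →ₗ[F] V) (hT : T ^ r = 1)
    (hT1 : T ≠ 1) (W : Submodule F V) (hW : ∀ w ∈ W, T w ∈ W) (hW' : W ≠ ⊤) : W = ⊥ := by
  have h0 := ker_sub_one hr hn hi T hT hT1
  have hp : (T.restrict hW) ^ r = 1 := by
    rw [Module.End.pow_restrict]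
    ext w
    simp [hT]
  have h1 := card_modEq hr (T.restrict hW) hp
  have hk : LinearMap.ker (T.restrict hW - 1) = ⊥ := by
    rw [LinearMap.ker_eq_bot']
    intro w hw
    have : (w : V) ∈ LinearMap.ker (T - 1) := by
      rw [LinearMap.mem_ker]
      have := congrArg Subtype.val hw
      simpa using this
    rw [h0] at this
    exact Subtype.ext ((Submodule.mem_bot F).1 this)
  rw [hk, finrank_bot] at h1
  have h2 := dvd_sub hr hn hi (Nat.zero_le _) h1
  by_cases h3 : finrank F W = 0
  · exact Submodule.finrank_eq_zero.1 h3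
  · exfalso
    have h4 := Nat.le_of_dvd (by omega) h2
    exact hW' (Submodule.eq_top_of_finrank_eq (le_antisymm (Submodule.finrank_le _) (by omega)))

theorem ker_eq_bot {r : ℕ} (hr : r.Prime) (hn : 1 ≤ finrank F V)
    (hi : orderOf (Fintype.card F : ZMod r) = finrank F V) (T : V →ₗ[F] V) (hT : T ^ r = 1)
    (hT1 : T ≠ 1) (S : V →ₗ[F] V) (hS : S * T = T * S) (hS0 : S ≠ 0) : LinearMap.ker S = ⊥ := by
  apply invariant_eq hr hn hi T hT hT1
  · intro w hw
    rw [LinearMap.mem_ker] at hw ⊢
    have := LinearMap.congr_fun hS w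
    simp only [Module.End.mul_apply] at this
    rw [this, hw, map_zero]
  · intro h
    exact hS0 (LinearMap.ker_eq_top.1 h)

end lin

theorem units_of_finite_domain (K : Type*) [Ring K] [Finite K] [IsDomain K] :
    IsCyclic Kˣ ∧ Nat.card Kˣ = Nat.card K - 1 := by
  have h := Finite.isDomain_to_isField K
  let _ : Field K := h.toField
  constructor
  · exact inferInstanceAs (IsCyclic Kˣ)
  · exact Nat.card_units K

/-- The centraliser of a unit is the unit group of the centraliser. -/
def unitsEquiv {F M : Type*} [CommSemiring F] [Semiring M] [Algebra F M] (x : Mˣ) :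
    Subgroup.centralizer ({x} : Set Mˣ) ≃* (Subalgebra.centralizer F ({(x : M)} : Set M))ˣ where
  toFun g :=
    { val := ⟨g.1.1, by
        rw [Subalgebra.mem_centralizer_iff]
        intro y hy
        rw [Set.mem_singleton_iff] at hy
        subst hy
        have := Subgroup.mem_centralizer_iff.1 g.2 x rfl
        exact congrArg Units.val this⟩
      inv := ⟨(g.1⁻¹ : Mˣ).1, by
        rw [Subalgebra.mem_centralizer_iff]
        intro y hy
        rw [Set.mem_singleton_iff] at hy
        subst hy
        have := Subgroup.mem_centralizer_iff.1 (inv_mem g.2) x rfl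
        exact congrArg Units.val this⟩
      val_inv := Subtype.ext (by simp)
      inv_val := Subtype.ext (by simp) }
  invFun u := ⟨{ val := u.1.1, inv := u.2.1, val_inv := congrArg Subtype.val u.val_inv, inv_val := congrArg Subtype.val u.inv_val }, by
    rw [Subgroup.mem_centralizer_iff]
    intro y hy
    rw [Set.mem_singleton_iff] at hy
    subst hy
    apply Units.ext
    exact (Subalgebra.mem_centralizer_iff F).1 u.1.2 _ rfl⟩
  left_inv g := by
    apply Subtype.ext; apply Units.ext; rfl
  right_inv u := by
    apply Units.ext; apply Subtype.ext; rfl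
  map_mul' g h := by
    apply Units.ext; apply Subtype.ext; rfl


/-- If an element x of GL_n(q), n ≥ 1, has prime order r and the multiplicative order of q modulo r is n (r is a primitive prime divisor of q^n − 1, so x acts irreducibly), then the centraliser of x in GL_n(q) is cyclic of order q^n − 1 (the multiplicative group of the field with q^n elements, a Singer cycle). -/
theorem result {F : Type*} [Field F] [Fintype F] {p q : ℕ} [Fact p.Prime] [CharP F p] (hF : Fintype.card F = q) {n r : ℕ} (hn : 1 ≤ n) (hr : r.Prime) (hrp : r ≠ p) (hi : orderOf (q : ZMod r) = n) (x : GL (Fin n) F) (hx : orderOf x = r) : IsCyclic ↥(Subgroup.centralizer ({x} : Set (GL (Fin n) F))) ∧ Nat.card ↥(Subgroup.centralizer ({x} : Set (GL (Fin n) F))) = q ^ n - 1 := by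
  classical
  subst hF
  have : NeZero n := ⟨by omega⟩
  set K := Subalgebra.centralizer F ({(x : Matrix (Fin n) (Fin n) F)} : Set (Matrix (Fin n) (Fin n) F)) with hK
  set T : (Fin n → F) →ₗ[F] (Fin n → F) := Matrix.toLin' (x : Matrix (Fin n) (Fin n) F) with hTdef
  have hfr : finrank F (Fin n → F) = n := by simp
  have hT : T ^ r = 1 := by
    have h1 : x ^ r = 1 := by rw [← hx]; exact pow_orderOf_eq_one x
    have h2 : (x : Matrix (Fin n) (Fin n) F) ^ r = 1 := by
      have := congrArg Units.val h1
      simpa using this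
    rw [hTdef, ← Matrix.toLin'_pow, h2, Matrix.toLin'_one]; rfl
  have hT1 : T ≠ 1 := by
    intro h
    have h1 : (x : Matrix (Fin n) (Fin n) F) = 1 := by
      apply Matrix.toLin'.injective
      rw [Matrix.toLin'_one]; exact h
    have h2 : x = 1 := Units.ext h1
    rw [h2, orderOf_one] at hx
    exact hr.one_lt.ne hx
  have hker : ∀ A : K, A ≠ 0 → LinearMap.ker (Matrix.toLin' (A : Matrix (Fin n) (Fin n) F)) = ⊥ := by
    intro A hA
    apply ker_eq_bot hr (by rw [hfr]; exact hn) (by rw [hfr]; exact hi) T hT hT1
    · have := (Subalgebra.mem_centralizer_iff F).1 A.2 _ rfl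
      rw [hTdef]
      change Matrix.toLin' _ ∘ₗ Matrix.toLin' _ = Matrix.toLin' _ ∘ₗ Matrix.toLin' _
      rw [← Matrix.toLin'_mul, ← Matrix.toLin'_mul, this]
    · intro h
      apply hA
      apply Subtype.ext
      apply Matrix.toLin'.injective
      rw [h]; simp
  have : Finite K := inferInstance
  have : Nontrivial K := inferInstance
  have : NoZeroDivisors K := by
    constructor
    intro A B hAB
    by_cases hA : A = 0
    · exact Or.inl hA
    · right
      have h1 := hker A hA
      apply Subtype.ext
      apply Matrix.toLin'.injective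
      ext1 i
      apply LinearMap.ext
      intro c
      have h2 : (A : Matrix (Fin n) (Fin n) F) * (B : Matrix (Fin n) (Fin n) F) = 0 := congrArg Subtype.val hAB
      have h3 : Matrix.toLin' (A : Matrix (Fin n) (Fin n) F) (Matrix.toLin' (B : Matrix (Fin n) (Fin n) F) (LinearMap.single F (fun _ => F) i c)) = 0 := by
        rw [← LinearMap.comp_apply, ← Matrix.toLin'_mul, h2]; simp
      have h4 := (LinearMap.ker_eq_bot'.1 h1) _ h3
      simpa using h4
  have : IsDomain K := NoZeroDivisors.to_isDomain K
  obtain ⟨hc, hcard⟩ := units_of_finite_domain K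
  have e := unitsEquiv (F := F) x
  have hce : Nat.card ↥(Subgroup.centralizer ({x} : Set (GL (Fin n) F))) = Nat.card Kˣ :=
    Nat.card_congr e.toEquiv
  have hKc : Nat.card K = Fintype.card F ^ finrank F K := by
    rw [Module.natCard_eq_pow_finrank (K := F) (V := K), Nat.card_eq_fintype_card]
  have hle : finrank F K ≤ n := by
    let v : Fin n → F := Pi.single 0 1
    have hv : v ≠ 0 := by
      intro h
      have := congrFun h 0
      simp [v] at this
    let φ : K →ₗ[F] (Fin n → F) :=
      { toFun := fun A => Matrix.toLin' (A : Matrix (Fin n) (Fin n) F) v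
        map_add' := fun A B => by simp
        map_smul' := fun c A => by simp }
    have hφ : Function.Injective φ := by
      rw [← LinearMap.ker_eq_bot, LinearMap.ker_eq_bot']
      intro A hA
      by_contra hA0
      exact hv ((LinearMap.ker_eq_bot'.1 (hker A hA0)) v hA)
    have := LinearMap.finrank_le_finrank_of_injective hφ
    rwa [hfr] at this
  have hpos : 0 < finrank F K := Module.finrank_pos
  have hq1 : 1 ≤ Fintype.card F ^ finrank F K := Nat.one_le_pow _ _ Fintype.card_pos
  have hdvd : r ∣ Fintype.card F ^ finrank F K - 1 := by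
    rw [← hKc, ← hcard, ← hce]
    have hmem : x ∈ Subgroup.centralizer ({x} : Set (GL (Fin n) F)) := by
      rw [Subgroup.mem_centralizer_iff]
      intro y hy
      rw [Set.mem_singleton_iff] at hy
      rw [hy]
    have := orderOf_dvd_natCard (⟨x, hmem⟩ : ↥(Subgroup.centralizer ({x} : Set (GL (Fin n) F))))
    rwa [Subgroup.orderOf_mk, hx] at this
  have hmod : Fintype.card F ^ finrank F K ≡ Fintype.card F ^ 0 [MOD r] := by
    rw [pow_zero]
    exact ((Nat.modEq_iff_dvd' hq1).2 hdvd).symm
  have hd := dvd_sub hr hn hi (Nat.zero_le _) hmod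
  have hge := Nat.le_of_dvd (by omega) hd
  have heq : finrank F K = n := by omega
  constructor
  · exact isCyclic_of_injective e.toMonoidHom e.injective
  · rw [hce, hcard, hKc, heq]

end Cfsg.Agent.S2638
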