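import Cfsg.Statements.S2639
import Cfsg.Agent.S2636
import Cfsg.Agent.Lib.Helper7Herm
import Cfsg.Agent.Lib.Helper17Symp
import Cfsg.Agent.Lib.Helper48Symp

set_option autoImplicit false
open Cfsg

namespace Cfsg.Agent.S2639

open Module Cfsg.Agent.Lib

theorem exists_embedding {K F : Type*} [Field K] [Fintype K] [Field F] [Fintype F] {q : ℕ}
    (hK : Fintype.card K = q ^ 2) (hF : Fintype.card F = q) :
    ∃ ι : F →+* K, ∀ x : K, x ^ q = x ↔ x ∈ ι.range := by
  classical
  obtain ⟨σ₀, hσ₀⟩ := Helper7Herm.exists_sigma hK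
  have hq := Helper7Herm.two_le_q hK
  have hbij : Function.Bijective σ₀ := by
    rw [← Finite.injective_iff_bijective]
    exact σ₀.injective
  let σ : K ≃+* K := RingEquiv.ofBijective σ₀ hbij
  have hσ : ∀ x, σ x = x ^ q := hσ₀
  have hord : orderOf σ = 2 := by
    apply orderOf_eq_prime
    · ext x
      change σ (σ x) = x
      rw [hσ, hσ, ← pow_mul, ← sq, ← hK, FiniteField.pow_card]
    · intro h1
      have h2 : ∀ x : K, x ^ q = x := by
        intro x
        rw [← hσ, h1]; rfl
      have h3 : (Polynomial.X ^ q - Polynomial.X : Polynomial K) = 0 := by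
        apply Polynomial.eq_zero_of_natDegree_lt_card_of_eval_eq_zero' _ Finset.univ
        · intro x _
          simp [h2 x]
        · rw [FiniteField.X_pow_card_sub_X_natDegree_eq K (by omega), Finset.card_univ, hK]
          nlinarith
      exact FiniteField.X_pow_card_sub_X_ne_zero K (by omega) h3
  have hc := S2636.card_F0 σ Nat.prime_two hK hord
  let _ : Fintype (S2636.F0 σ) := Fintype.ofFinite _
  have e : F ≃+* S2636.F0 σ := FiniteField.ringEquivOfCardEq (by
    rw [hF, ← Nat.card_eq_fintype_card, hc])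
  refine ⟨(S2636.F0 σ).subtype.comp e.toRingHom, ?_⟩
  intro x
  rw [← hσ, ← S2636.mem_F0]
  constructor
  · intro hx
    exact ⟨e.symm ⟨x, hx⟩, by simp⟩
  · rintro ⟨y, rfl⟩
    exact (e y).2


section main
variable {K F : Type*} [Field K] [Field F] [Algebra F K] {m : ℕ}

/-- coordinates with respect to `1, ω`. -/
def Psi (ω : K) (m : ℕ) : (Fin m ⊕ Fin m → F) →ₗ[F] (Fin m → K) where
  toFun x := fun i => algebraMap F K (x (.inl i)) + algebraMap F K (x (.inr i)) * ω
  map_add' x y := by
    ext i; simp; ring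
  map_smul' c x := by
    ext i; simp [Algebra.smul_def]; ring

theorem Psi_injective (ω : K) (hω : ω ∉ (algebraMap F K).range) :
    Function.Injective (Psi (F := F) ω m) := by
  rw [← LinearMap.ker_eq_bot, LinearMap.ker_eq_bot']
  intro x hx
  have h1 : ∀ i, algebraMap F K (x (.inl i)) + algebraMap F K (x (.inr i)) * ω = 0 :=
    fun i => congrFun hx i
  have h2 : ∀ i, x (.inr i) = 0 := by
    intro i
    by_contra hne
    apply hω
    refine ⟨- x (.inl i) / x (.inr i), ?_⟩
    have h3 : algebraMap F K (x (.inr i)) ≠ 0 := by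
      simpa using hne
    rw [map_div₀, map_neg, div_eq_iff h3]
    linear_combination - h1 i
  ext j
  rcases j with i | i
  · have := h1 i
    rw [h2 i] at this
    simpa using this
  · exact h2 i

theorem herm_Psi (q : ℕ) (hq : ∀ a : F, (algebraMap F K a) ^ q = algebraMap F K a)
    (σ : K →+* K) (hσ : ∀ x, σ x = x ^ q) (ω : K) (x y : Fin m ⊕ Fin m → F) :
    Cfsg.hermForm m K q (Psi ω m x) (Psi ω m y) - Cfsg.hermForm m K q (Psi ω m y) (Psi ω m x)
      = (ω - ω ^ q) * algebraMap F K (Cfsg.sympForm m F x y) := by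
  rw [Helper48Symp.sympForm_eq, map_sum, Finset.mul_sum]
  unfold Cfsg.hermForm
  rw [← Finset.sum_sub_distrib]
  apply Finset.sum_congr rfl
  intro i _
  simp only [Psi, LinearMap.coe_mk, AddHom.coe_mk, ← hσ, map_add, map_mul, map_sub]
  simp only [hσ, hq]
  ring

end main


/-- The unitary group embeds in the symplectic group of twice the dimension over the subfield: for a field K with q² elements and a field F with q elements (isomorphic to the subfield of K of order q), there is an injective homomorphism GU_m(q) → Sp_2m(F). -/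
theorem result {K F : Type*} [Field K] [Fintype K] [Field F] [Fintype F] {q : ℕ} (hK : Fintype.card K = q ^ 2) (hF : Fintype.card F = q) (m : ℕ) : ∃ φ : ↥(Cfsg.GU m K q) →* ↥(Matrix.symplecticGroup (Fin m) F), Function.Injective φ := by
  classical
  obtain ⟨ι, hι⟩ := exists_embedding hK hF
  let _ : Algebra F K := ι.toAlgebra
  obtain ⟨σ, hσ⟩ := Helper7Herm.exists_sigma hK
  have hq := Helper7Herm.two_le_q hK
  obtain ⟨ω, hω⟩ : ∃ ω : K, ω ∉ ι.range := by
    by_contra hcon
    push Not at hcon
    have h1 : Function.Surjective ι := fun x => hcon x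
    have h2 := Fintype.card_le_of_surjective ι h1
    rw [hK, hF] at h2
    nlinarith
  have hωq : ω - ω ^ q ≠ 0 := by
    intro h
    apply hω
    rw [← hι]
    exact (sub_eq_zero.1 h).symm
  have hfix : ∀ a : F, (algebraMap F K a) ^ q = algebraMap F K a := by
    intro a
    rw [hι]
    exact ⟨a, rfl⟩
  have hinj := Psi_injective (F := F) (m := m) ω hω
  have hbij : Function.Bijective (Psi (F := F) ω m) := by
    rw [Fintype.bijective_iff_injective_and_card]
    refine ⟨hinj, ?_⟩
    simp only [Fintype.card_pi, Finset.prod_const, Finset.card_univ, Fintype.card_sum,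
      Fintype.card_fin, hK, hF]
    rw [← pow_mul, two_mul]
  let Ψ : (Fin m ⊕ Fin m → F) ≃ₗ[F] (Fin m → K) := LinearEquiv.ofBijective _ hbij
  have hΨ : ∀ x, Ψ x = Psi ω m x := fun x => rfl
  let A : Matrix (Fin m) (Fin m) K → Matrix (Fin m ⊕ Fin m) (Fin m ⊕ Fin m) F := fun g =>
    LinearMap.toMatrix' (Ψ.symm.toLinearMap ∘ₗ ((Matrix.toLin' g).restrictScalars F)
      ∘ₗ Ψ.toLinearMap)
  have hA : ∀ g x, Ψ (Matrix.mulVec (A g) x) = Matrix.mulVec g (Ψ x) := by
    intro g x
    simp only [A]
    rw [← Matrix.toLin'_apply, Matrix.toLin'_toMatrix']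
    simp
  have hext : ∀ M N : Matrix (Fin m ⊕ Fin m) (Fin m ⊕ Fin m) F,
      (∀ x, Ψ (Matrix.mulVec M x) = Ψ (Matrix.mulVec N x)) → M = N := by
    intro M N h
    apply Matrix.toLin'.injective
    apply LinearMap.ext
    intro x
    rw [Matrix.toLin'_apply, Matrix.toLin'_apply]
    exact Ψ.injective (h x)
  let f : ↥(Cfsg.GU m K q) →* Matrix (Fin m ⊕ Fin m) (Fin m ⊕ Fin m) F :=
    { toFun := fun g => A ((g : GL (Fin m) K) : Matrix (Fin m) (Fin m) K)
      map_one' := by
        apply hext
        intro x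
        rw [hA]
        simp
      map_mul' := by
        intro g h
        apply hext
        intro x
        rw [hA, ← Matrix.mulVec_mulVec, hA, hA]
        simp [Matrix.mulVec_mulVec] }
  have hmem : ∀ g, f g ∈ Matrix.symplecticGroup (Fin m) F := by
    intro g
    rw [Helper17Symp.mem_symplecticGroup_iff_preserves]
    intro x y
    have h1 := herm_Psi (m := m) q hfix σ hσ ω (Matrix.mulVec (f g) x) (Matrix.mulVec (f g) y)
    have h2 := herm_Psi (m := m) q hfix σ hσ ω x y
    have h3 : ∀ z, Psi ω m (Matrix.mulVec (f g) z)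
        = Matrix.mulVec ((g : GL (Fin m) K) : Matrix (Fin m) (Fin m) K) (Psi ω m z) := by
      intro z
      exact hA _ z
    rw [h3, h3] at h1
    have h4 : ∀ u v, Cfsg.hermForm m K q
        (Matrix.mulVec ((g : GL (Fin m) K) : Matrix (Fin m) (Fin m) K) u)
        (Matrix.mulVec ((g : GL (Fin m) K) : Matrix (Fin m) (Fin m) K) v)
        = Cfsg.hermForm m K q u v := g.2
    rw [h4, h4, h2] at h1
    exact ((algebraMap F K).injective (mul_left_cancel₀ hωq h1)).symm
  refine ⟨f.codRestrict (Matrix.symplecticGroup (Fin m) F) hmem, ?_⟩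
  intro g h hgh
  have h1 : f g = f h := congrArg Subtype.val hgh
  apply Subtype.ext
  apply Units.ext
  apply Matrix.toLin'.injective
  apply LinearMap.ext
  intro u
  obtain ⟨x, rfl⟩ := Ψ.surjective u
  rw [Matrix.toLin'_apply, Matrix.toLin'_apply, ← hA, ← hA]
  change Ψ (Matrix.mulVec (f g) x) = Ψ (Matrix.mulVec (f h) x)
  rw [h1]

end Cfsg.Agent.S2639
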