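import Cfsg.Statements.S2640
import Cfsg.Agent.S2639
import Cfsg.Agent.Lib.Helper48GUEmbed

set_option autoImplicit false
open Cfsg

namespace Cfsg.Agent.S2640

open Module Cfsg.Agent.Lib Cfsg.Agent.Lib.Helper48GUEmbed

theorem plus_radical {F : Type*} [Field F] {m : ℕ} (x : Fin m ⊕ Fin m → F)
    (h : ∀ y, Cfsg.quadFormPlus m F (x + y) = Cfsg.quadFormPlus m F y) : x = 0 := by
  classical
  have h0 : Cfsg.quadFormPlus m F x = 0 := by
    have := h 0
    simpa [Cfsg.quadFormPlus] using this
  unfold Cfsg.quadFormPlus at h0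
  ext k
  rcases k with i | i
  · have hi := h (Pi.single (Sum.inr i) 1)
    simp [Cfsg.quadFormPlus, Pi.single_apply, mul_add, Finset.sum_add_distrib, h0] at hi
    exact hi
  · have hi := h (Pi.single (Sum.inl i) 1)
    simp [Cfsg.quadFormPlus, Pi.single_apply, add_mul, Finset.sum_add_distrib, h0] at hi
    exact hi

/-- For m even, the unitary group GU_m(q) (over the field with q² elements) embeds in the orthogonal group O⁺_2m(q) of the hyperbolic form Σ x_i y_i over the field with q elements (there is an injective homomorphism). -/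
theorem result {K F : Type*} [Field K] [Fintype K] [Field F] [Fintype F] {q : ℕ} (hK : Fintype.card K = q ^ 2) (hF : Fintype.card F = q) (m : ℕ) (hm : Even m) : ∃ φ : ↥(Cfsg.GU m K q) →* ↥(Cfsg.isometryGroup F (Cfsg.quadFormPlus m F)), Function.Injective φ := by
  classical
  obtain ⟨ι, hι⟩ := S2639.exists_embedding hK hF
  let _ : Algebra F K := ι.toAlgebra
  obtain ⟨c, d, hcd⟩ := exists_pair (F := F) hK hι
  obtain ⟨r, hr⟩ := hm
  let e : Fin m ≃ Fin r ⊕ Fin r := (finCongr hr).trans finSumFinEquiv.symm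
  let Ψ₀ : (Fin m ⊕ Fin m → F) →ₗ[F] (Fin m → K) :=
    LinearMap.pi (fun i => Sum.elim (fun j => Lmap c e j) (fun j => Lmap d e j) (e i))
  have hΨ₀ : ∀ x, Cfsg.hermForm m K q (Ψ₀ x) (Ψ₀ x)
      = algebraMap F K (Cfsg.quadFormPlus m F x) := by
    intro x
    unfold Cfsg.hermForm Cfsg.quadFormPlus
    rw [← hyp_sum c d hcd e x]
    have h1 : ∀ i, Ψ₀ x i * (Ψ₀ x i) ^ q
        = (fun k => (Sum.elim (fun j => Lmap (F := F) c e j) (fun j => Lmap d e j) k x) ^ (q + 1)) (e i) := by
      intro i
      rw [← pow_succ']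
      rfl
    rw [Finset.sum_congr rfl (fun i _ => h1 i)]
    exact (Equiv.sum_comp e (fun k => (Sum.elim (fun j => Lmap (F := F) c e j)
      (fun j => Lmap d e j) k x) ^ (q + 1))).trans (Fintype.sum_sum_type _)
  have hinj : Function.Injective Ψ₀ := by
    rw [← LinearMap.ker_eq_bot, LinearMap.ker_eq_bot']
    intro x hx
    apply plus_radical
    intro y
    apply (algebraMap F K).injective
    rw [← hΨ₀, ← hΨ₀, map_add, hx, zero_add]
  have hbij : Function.Bijective Ψ₀ := by
    rw [Fintype.bijective_iff_injective_and_card]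
    refine ⟨hinj, ?_⟩
    simp only [Fintype.card_pi, Finset.prod_const, Finset.card_univ, Fintype.card_sum,
      Fintype.card_fin, hK, hF]
    rw [← pow_mul, two_mul]
  exact embed _ (LinearEquiv.ofBijective Ψ₀ hbij) hΨ₀

end Cfsg.Agent.S2640
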