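import Cfsg.Statements.S2641
import Cfsg.Agent.S2639
import Cfsg.Agent.Lib.Helper48GUEmbed

set_option autoImplicit false
open Cfsg

namespace Cfsg.Agent.S2641

open Module Cfsg.Agent.Lib Cfsg.Agent.Lib.Helper48GUEmbed Polynomial

theorem exists_root {K F : Type*} [Field K] [Fintype K] [Field F] [Fintype F] [Algebra F K] {q : ℕ}
    (hK : Fintype.card K = q ^ 2) (hF : Fintype.card F = q)
    (hfix : ∀ x : K, x ^ q = x ↔ x ∈ (algebraMap F K).range) (a b : F)
    (hab : ∀ z₁ z₂ : F, z₁ ^ 2 + a * z₁ * z₂ + b * z₂ ^ 2 = 0 → z₁ = 0 ∧ z₂ = 0) :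
    ∃ ρ : K, ρ + ρ ^ q = algebraMap F K a ∧ ρ ^ (q + 1) = algebraMap F K b := by
  classical
  obtain ⟨σ, hσ⟩ := Helper7Herm.exists_sigma hK
  have hq := Helper7Herm.two_le_q hK
  let P : F[X] := X ^ 2 - C a * X + C b
  have hdeg : P.natDegree = 2 := by
    simp only [P]; compute_degree!
  have hmon : P.Monic := by
    simp only [P]; monicity!
  have hnoroot : ∀ x : F, x ^ 2 - a * x + b ≠ 0 := by
    intro x hx
    have := hab (-x) 1 (by linear_combination hx)
    exact one_ne_zero this.2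
  have hirr : Irreducible P := by
    rw [hmon.irreducible_iff_roots_eq_zero_of_degree_le_three (by omega) (by omega)]
    rw [Multiset.eq_zero_iff_forall_notMem]
    intro x hx
    rw [mem_roots hmon.ne_zero, IsRoot.def] at hx
    apply hnoroot x
    simpa [P] using hx
  have : Fact (Irreducible P) := ⟨hirr⟩
  have hfr1 : finrank F (AdjoinRoot P) = 2 := by
    rw [← hdeg]
    exact (AdjoinRoot.powerBasis hirr.ne_zero).finrank.trans (by simp)
  have hfr2 : finrank F K = 2 := by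
    have h1 := Module.card_eq_pow_finrank (K := F) (V := K)
    rw [hK, hF] at h1
    exact (Nat.pow_right_injective hq h1).symm
  obtain ⟨f⟩ := FiniteField.nonempty_algHom_of_finrank_dvd (F := F) (K := AdjoinRoot P) (L := K)
    (by rw [hfr1, hfr2])
  let ρ : K := f (AdjoinRoot.root P)
  have hρ : ρ ^ 2 - algebraMap F K a * ρ + algebraMap F K b = 0 := by
    have h1 : aeval ρ P = 0 := by
      simp only [ρ]
      rw [aeval_algHom_apply, AdjoinRoot.aeval_eq, AdjoinRoot.mk_self, map_zero]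
    simpa [P] using h1
  have hf : ∀ c : F, σ (algebraMap F K c) = algebraMap F K c := by
    intro c
    rw [hσ, hfix]
    exact ⟨c, rfl⟩
  have hρ' : (σ ρ) ^ 2 - algebraMap F K a * σ ρ + algebraMap F K b = 0 := by
    have := congrArg σ hρ
    simpa [hf] using this
  have hne : ρ - σ ρ ≠ 0 := by
    intro h
    have h1 : ρ ^ q = ρ := by
      rw [← hσ]; exact (sub_eq_zero.1 h).symm
    rw [hfix] at h1
    obtain ⟨x, hx⟩ := h1
    apply hnoroot x
    apply (algebraMap F K).injective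
    rw [map_add, map_sub, map_pow, map_mul, hx, map_zero]
    exact hρ
  have hsum : ρ + σ ρ = algebraMap F K a := by
    apply mul_left_cancel₀ hne
    linear_combination hρ - hρ'
  refine ⟨ρ, by rw [← hσ]; exact hsum, ?_⟩
  rw [pow_succ', ← hσ]
  linear_combination -hρ + ρ * hsum


theorem minus_radical {F : Type*} [Field F] {k : ℕ} (a b : F)
    (hab : ∀ z₁ z₂ : F, z₁ ^ 2 + a * z₁ * z₂ + b * z₂ ^ 2 = 0 → z₁ = 0 ∧ z₂ = 0)
    (x : (Fin k ⊕ Fin k) ⊕ Fin 2 → F)
    (h : ∀ y, Cfsg.quadFormMinus k F a b (x + y) = Cfsg.quadFormMinus k F a b y) : x = 0 := by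
  classical
  have h0 : Cfsg.quadFormMinus k F a b x = 0 := by
    have := h 0
    simpa [Cfsg.quadFormMinus] using this
  unfold Cfsg.quadFormMinus at h0
  have h1 : ∀ i, x (.inl (.inl i)) = 0 := by
    intro i
    have hi := h (Pi.single (Sum.inl (Sum.inr i)) 1)
    simp [Cfsg.quadFormMinus, Pi.single_apply, mul_add, Finset.sum_add_distrib] at hi
    linear_combination hi - h0
  have h2 : ∀ i, x (.inl (.inr i)) = 0 := by
    intro i
    have hi := h (Pi.single (Sum.inl (Sum.inl i)) 1)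
    simp [Cfsg.quadFormMinus, Pi.single_apply, add_mul, Finset.sum_add_distrib] at hi
    linear_combination hi - h0
  simp only [h1, zero_mul, Finset.sum_const_zero, zero_add] at h0
  obtain ⟨h3, h4⟩ := hab _ _ h0
  ext j
  rcases j with (i | i) | i
  · exact h1 i
  · exact h2 i
  · fin_cases i
    · exact h3
    · exact h4

/-- For m odd, the unitary group GU_m(q) (over the field with q² elements) embeds in the orthogonal group O⁻_2m(q) of an elliptic form (Σ_(i<m−1) x_i y_i plus an anisotropic binary form) over the field with q elements (there is an injective homomorphism). -/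
theorem result {K F : Type*} [Field K] [Fintype K] [Field F] [Fintype F] {q : ℕ} (hK : Fintype.card K = q ^ 2) (hF : Fintype.card F = q) (m : ℕ) (hm : Odd m) (a b : F) (hab : ∀ z₁ z₂ : F, z₁ ^ 2 + a * z₁ * z₂ + b * z₂ ^ 2 = 0 → z₁ = 0 ∧ z₂ = 0) : ∃ φ : ↥(Cfsg.GU m K q) →* ↥(Cfsg.isometryGroup F (Cfsg.quadFormMinus (m - 1) F a b)), Function.Injective φ := by
  classical
  obtain ⟨ι, hι⟩ := S2639.exists_embedding hK hF
  let _ : Algebra F K := ι.toAlgebra
  obtain ⟨c, d, hcd⟩ := exists_pair (F := F) hK hι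
  obtain ⟨ρ, hρ1, hρ2⟩ := exists_root hK hF hι a b hab
  obtain ⟨σ, hσ⟩ := Helper7Herm.exists_sigma hK
  obtain ⟨r, hr⟩ := hm
  let e' : Fin (m - 1) ≃ Fin r ⊕ Fin r :=
    (finCongr (by omega : m - 1 = r + r)).trans finSumFinEquiv.symm
  let e : Fin m ≃ (Fin r ⊕ Fin r) ⊕ Unit := Fintype.equivOfCardEq (by simp; omega)
  let π : ((Fin (m - 1) ⊕ Fin (m - 1)) ⊕ Fin 2 → F) →ₗ[F] (Fin (m - 1) ⊕ Fin (m - 1) → F) :=
    LinearMap.funLeft F F Sum.inl
  let Z : ((Fin (m - 1) ⊕ Fin (m - 1)) ⊕ Fin 2 → F) →ₗ[F] K :=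
    (LinearMap.proj (Sum.inr 0)).smulRight (1 : K) + (LinearMap.proj (Sum.inr 1)).smulRight ρ
  let G : (Fin r ⊕ Fin r) ⊕ Unit → (((Fin (m - 1) ⊕ Fin (m - 1)) ⊕ Fin 2 → F) →ₗ[F] K) :=
    Sum.elim (Sum.elim (fun j => (Lmap c e' j).comp π) (fun j => (Lmap d e' j).comp π))
      (fun _ => Z)
  let Ψ₀ : ((Fin (m - 1) ⊕ Fin (m - 1)) ⊕ Fin 2 → F) →ₗ[F] (Fin m → K) :=
    LinearMap.pi (fun i => G (e i))
  have hf : ∀ c : F, σ (algebraMap F K c) = algebraMap F K c := by
    intro c
    rw [hσ, hι]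
    exact ⟨c, rfl⟩
  have hZ : ∀ x, (Z x) ^ (q + 1) = algebraMap F K (x (.inr 0) ^ 2 + a * x (.inr 0) * x (.inr 1)
      + b * x (.inr 1) ^ 2) := by
    intro x
    have h1 : Z x = algebraMap F K (x (.inr 0)) + algebraMap F K (x (.inr 1)) * ρ := by
      simp [Z, Algebra.smul_def]
    rw [pow_succ', ← hσ] at hρ2
    rw [← hσ] at hρ1
    rw [pow_succ', ← hσ, h1]
    simp only [map_add, map_mul, map_pow, hf]
    rw [← hρ1, ← hρ2]
    ring
  have hΨ₀ : ∀ x, Cfsg.hermForm m K q (Ψ₀ x) (Ψ₀ x)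
      = algebraMap F K (Cfsg.quadFormMinus (m - 1) F a b x) := by
    intro x
    unfold Cfsg.hermForm Cfsg.quadFormMinus
    rw [map_add, ← hZ]
    have h2 := hyp_sum c d hcd e' (π x)
    have h3 : ∀ i, π x (Sum.inl i) * π x (Sum.inr i) = x (.inl (.inl i)) * x (.inl (.inr i)) :=
      fun i => rfl
    rw [Finset.sum_congr rfl (fun i _ => h3 i)] at h2
    rw [← h2]
    have h1 : ∀ i, Ψ₀ x i * (Ψ₀ x i) ^ q = (fun k => (G k x) ^ (q + 1)) (e i) := by
      intro i
      rw [← pow_succ']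
      rfl
    rw [Finset.sum_congr rfl (fun i _ => h1 i)]
    refine (Equiv.sum_comp e (fun k => (G k x) ^ (q + 1))).trans ?_
    rw [Fintype.sum_sum_type, Fintype.sum_sum_type]
    simp only [Finset.univ_unique, Finset.sum_singleton]
    rfl
  have hinj : Function.Injective Ψ₀ := by
    rw [← LinearMap.ker_eq_bot, LinearMap.ker_eq_bot']
    intro x hx
    apply minus_radical a b hab
    intro y
    apply (algebraMap F K).injective
    rw [← hΨ₀, ← hΨ₀, map_add, hx, zero_add]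
  have hbij : Function.Bijective Ψ₀ := by
    rw [Fintype.bijective_iff_injective_and_card]
    refine ⟨hinj, ?_⟩
    simp only [Fintype.card_pi, Finset.prod_const, Finset.card_univ, Fintype.card_sum,
      Fintype.card_fin, hK, hF]
    rw [← pow_mul]
    congr 1
    omega
  exact embed _ (LinearEquiv.ofBijective Ψ₀ hbij) hΨ₀

end Cfsg.Agent.S2641
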