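import Cfsg.Statements.S2642
import Cfsg.Agent.Lib.Helper48UnipOrder
import Cfsg.Agent.S2587
import Cfsg.Agent.S2588

set_option autoImplicit false
open Cfsg

namespace Cfsg.Agent.S2642

open Matrix Cfsg.Agent.Lib.Helper48JordanClass Cfsg.Agent.Lib.Helper48UnipOrder
  Cfsg.Agent.Lib.Helper48WallU Cfsg.Agent.Lib.Helper48Wall

variable {K : Type*} [Field K] {n : ℕ}

theorem eq_zero_of_rank (X : Matrix (Fin n) (Fin n) K) (h : X.rank = 0) : X = 0 := by
  unfold Matrix.rank at h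
  rw [Submodule.finrank_eq_zero, LinearMap.range_eq_bot] at h
  apply (Matrix.toLin' (R := K)).injective
  rw [map_zero]
  exact h

theorem rank_inv (g : GL (Fin n) K) (k : ℕ) :
    (((g⁻¹ : GL (Fin n) K).1 - 1) ^ k).rank = ((g.1 - 1) ^ k).rank := by
  have h1 : (g⁻¹ : GL (Fin n) K).1 * g.1 = 1 := by
    rw [← Units.val_mul, inv_mul_cancel, Units.val_one]
  have h1' : g.1 * (g⁻¹ : GL (Fin n) K).1 = 1 := by
    rw [← Units.val_mul, mul_inv_cancel, Units.val_one]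
  have h2 : (g⁻¹ : GL (Fin n) K).1 - 1 = (-(g⁻¹ : GL (Fin n) K).1) * (g.1 - 1) := by
    rw [mul_sub, neg_mul, h1, mul_one]; abel
  have hc : Commute (-(g⁻¹ : GL (Fin n) K).1) (g.1 - 1) := by
    apply Commute.neg_left
    apply Commute.sub_right _ (Commute.one_right _)
    change _ * _ = _ * _
    rw [h1, h1']
  rw [h2, hc.mul_pow, Matrix.rank_mul_eq_right_of_isUnit_det]
  rw [← Matrix.isUnit_iff_isUnit_det]
  apply IsUnit.pow
  exact ⟨⟨-(g⁻¹ : GL (Fin n) K).1, -g.1, by rw [neg_mul_neg, h1], by rw [neg_mul_neg, h1']⟩, rfl⟩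

/-- every Jordan type occurs in the unitary group -/
theorem exists_GU [Fintype K] {q : ℕ} (hK : Fintype.card K = q ^ 2) (μ : Nat.Partition n) :
    ∃ g : ↥(Cfsg.GU n K q), GType g.1 μ := by
  obtain ⟨φ, hφq, hφ2, ω, hω⟩ := exists_frob hK
  obtain ⟨g₀, hg₀, hfix⟩ := exists_of_partition (F := K) μ
  have h1 : (g₀⁻¹ : GL (Fin n) K).1 * g₀.1 = 1 := by
    rw [← Units.val_mul, inv_mul_cancel, Units.val_one]
  have h1' : g₀.1 * (g₀⁻¹ : GL (Fin n) K).1 = 1 := by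
    rw [← Units.val_mul, mul_inv_cancel, Units.val_one]
  have hfix' : φ.mapMatrix (g₀⁻¹ : GL (Fin n) K).1 = (g₀⁻¹ : GL (Fin n) K).1 := by
    have h2 : φ.mapMatrix g₀.1 = g₀.1 := hfix φ
    have h3 : φ.mapMatrix (g₀⁻¹ : GL (Fin n) K).1 * g₀.1 = 1 := by
      rw [← h2, ← map_mul, h1, map_one]
    calc φ.mapMatrix (g₀⁻¹ : GL (Fin n) K).1
        = φ.mapMatrix (g₀⁻¹ : GL (Fin n) K).1 * (g₀.1 * (g₀⁻¹ : GL (Fin n) K).1) := by
          rw [h1', mul_one]
      _ = (g₀⁻¹ : GL (Fin n) K).1 := by rw [← mul_assoc, h3, one_mul]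
  -- the dual element
  let T' : GL (Fin n) K := ⟨sth φ (g₀⁻¹ : GL (Fin n) K).1, sth φ g₀.1,
    by rw [← sth_mul, h1', sth_one], by rw [← sth_mul, h1, sth_one]⟩
  have hrank : ∀ k, ((g₀.1 - 1) ^ k).rank = ((T'.1 - 1) ^ k).rank := by
    intro k
    have h2 : (T'.1 - 1) ^ k = sth φ (((g₀⁻¹ : GL (Fin n) K).1 - 1) ^ k) := by
      rw [st_pow (sth φ) (sth_mul φ) (sth_one φ), map_sub, sth_one]
    have h3 : (((g₀⁻¹ : GL (Fin n) K).1 - 1) ^ k).map φ = ((g₀⁻¹ : GL (Fin n) K).1 - 1) ^ k := by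
      change φ.mapMatrix _ = _
      rw [map_pow, map_sub, hfix', map_one]
    rw [h2, sth_apply, Matrix.rank_transpose, h3, rank_inv]
  have hnil : IsNilpotent (T'.1 - 1) := by
    obtain ⟨m, hm⟩ := gtype_nilpotent g₀ μ hg₀
    refine ⟨m, ?_⟩
    have h2 := hrank m
    rw [hm, Matrix.rank_zero] at h2
    exact eq_zero_of_rank _ h2.symm
  obtain ⟨μ', hμ'⟩ := exists_gtype T' hnil
  have hμ : μ = μ' := gtype_unique_of_rank g₀ T' μ μ' hg₀ hμ' hrank
  subst hμ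
  have hconj := gtype_conj g₀ T' μ hg₀ hμ'
  rw [isConj_iff] at hconj
  obtain ⟨c, hc⟩ := hconj
  rw [mul_inv_eq_iff_eq_mul] at hc
  have hc' : c.1 * g₀.1 = sth φ (g₀⁻¹ : GL (Fin n) K).1 * c.1 := congrArg Units.val hc
  obtain ⟨P, hP⟩ := Cfsg.Agent.S2588.exists_conj_GU hK φ hφq hφ2 ω hω g₀ c
    (by rw [mul_assoc, hc', ← mul_assoc, ← sth_mul, h1, sth_one, one_mul])
  refine ⟨⟨_, hP⟩, ?_⟩
  obtain ⟨μ'', hμ''⟩ := exists_gtype (P * g₀ * P⁻¹) (by
    obtain ⟨m, hm⟩ := gtype_nilpotent g₀ μ hg₀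
    refine ⟨m, ?_⟩
    have h2 := rank_conj g₀ (P * g₀ * P⁻¹) (isConj_iff.2 ⟨P, rfl⟩) m
    rw [hm, Matrix.rank_zero] at h2
    exact eq_zero_of_rank _ h2.symm)
  have := gtype_unique g₀ (P * g₀ * P⁻¹) μ μ'' hg₀ hμ'' (isConj_iff.2 ⟨P, rfl⟩)
  rw [this]; exact hμ''

/-- Number of conjugacy classes of elements of order p in the general unitary group GU_n(q), q a power of p: every unipotent Jordan type occurs and the classes correspond to the partitions of n with all parts at most p other than the all-ones partition, exactly as in GL_n; so there are (number of partitions of n with parts ≤ p) − 1 classes. -/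
theorem result {K : Type*} [Field K] [Fintype K] {p q n : ℕ} [Fact p.Prime] [CharP K p] (hK : Fintype.card K = q ^ 2) : Nat.card {C : ConjClasses ↥(Cfsg.GU n K q) // ∃ g : ↥(Cfsg.GU n K q), ConjClasses.mk g = C ∧ orderOf g = p} = (Finset.univ.filter (fun μ : Nat.Partition n => ∀ a ∈ μ.parts, a ≤ p)).card - 1 := by
  have h := card_classes (G := ↥(Cfsg.GU n K q)) (α := Nat.Partition n) (fun g μ => GType g.1 μ)
    (fun g => orderOf g = p) (fun μ => (∀ a ∈ μ.parts, a ≤ p) ∧ ¬ ∀ a ∈ μ.parts, a ≤ 1)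
    (fun g hg => exists_gtype g.1 ((orderOf_pow_iff p g.1).1
      ⟨1, by rw [Subgroup.orderOf_coe, hg, pow_one]⟩))
    (fun g g' μ hg hg' => (Cfsg.Agent.S2587.result hK g g').2 (gtype_conj g.1 g'.1 μ hg hg'))
    (fun g g' μ μ' hg hg' hc =>
      gtype_unique g.1 g'.1 μ μ' hg hg' ((Cfsg.Agent.S2587.result hK g g').1 hc))
    (fun μ _ => exists_GU hK μ)
    (fun g μ hg => by
      rw [← Subgroup.orderOf_coe, orderOf_eq_iff p g.1, gtype_pow_eq_zero_iff g.1 μ hg,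
        gtype_pow_eq_zero_iff g.1 μ hg])
  rw [h, card_partitions n p (Fact.out : p.Prime).one_lt.le]

end Cfsg.Agent.S2642
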