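import Cfsg.Statements.S2643
import Cfsg.Agent.S2578
import Cfsg.Agent.S2588
import Cfsg.Agent.Lib.Helper7SU

set_option autoImplicit false
open Cfsg

namespace Cfsg.Agent.S2643

open Matrix Module Cfsg.Agent.Lib.Helper48WallU Cfsg.Agent.Lib.Helper48Wall
  Cfsg.Agent.Lib.Helper48CycConj Cfsg.Agent.Lib.Helper48Cyclic Cfsg.Agent.Lib.Helper48RegNil
  Cfsg.Agent.Lib.Helper48Jordan Cfsg.Agent.Lib.Helper7SU Cfsg.Agent.Lib.Helper7GU
  Cfsg.Agent.Lib.Helper7Herm Cfsg.Agent.S2578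

section eig
variable {K V : Type*} [Field K] [AddCommGroup V] [Module K V] [FiniteDimensional K V]

theorem eig_of_comm_end (N : End K V) {n : ℕ} (hV : finrank K V = n + 1)
    (hker : finrank K (LinearMap.ker N) ≤ 1) (hnil : N ^ (n + 1) = 0) (g : End K V)
    (hg : Commute g N) : ∃ a : K, IsNilpotent (g - a • 1) ∧ LinearMap.det g = a ^ (n + 1) := by
  obtain ⟨v, hv⟩ := exists_cyclic N hker (by rw [hV]; exact hnil) (by omega)
  rw [hV] at hv
  have h1 := eq_psi_of_comm N hV hnil v hv g hg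
  refine ⟨(cycBasis N hV hnil v hv).repr (g v) 0, ?_, ?_⟩
  · have h2 : g - (cycBasis N hV hnil v hv).repr (g v) 0 • 1 =
        N * ∑ i : Fin n, ((cycBasis N hV hnil v hv).repr (g v)) i.succ • N ^ (i : ℕ) := by
      rw [sub_eq_iff_eq_add, add_comm, ← psi_split]
      exact h1
    rw [h2]
    have hc : Commute N (∑ i : Fin n, ((cycBasis N hV hnil v hv).repr (g v)) i.succ • N ^ (i : ℕ)) := by
      apply Commute.sum_right
      intro i _
      exact ((Commute.refl N).pow_right _).smul_right _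
    exact hc.isNilpotent_mul_right ⟨n.succ, hnil⟩
  · conv_lhs => rw [h1]
    rw [det_psi N hnil, hV]

theorem eig_of_comm {ι : Type*} [Fintype ι] [DecidableEq ι] (M : Matrix ι ι K) {n : ℕ}
    (hcard : Fintype.card ι = n + 1)
    (hnil : M ^ (n + 1) = 0) (hreg : M.rank = n) (c : Matrix ι ι K) (hc : Commute c M) :
    ∃ a : K, IsNilpotent (c - a • 1) ∧ c.det = a ^ (n + 1) := by
  have hV : finrank K (ι → K) = n + 1 := by rw [Module.finrank_fintype_fun_eq_card, hcard]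
  set N : End K (ι → K) := Matrix.mulVecLin M with hN
  have hker : finrank K (LinearMap.ker N) ≤ 1 :=
    matrix_ker_le_one _ (by rw [hcard, Nat.add_sub_cancel]; exact hreg)
  have hn : N ^ (n + 1) = 0 := by rw [hN, ← mulVecLin_pow, hnil]; simp
  let e : Matrix ι ι K ≃ₐ[K] End K (ι → K) := Matrix.toLinAlgEquiv'
  have hc' : Commute (e c) N := hc.map e
  obtain ⟨a, ⟨k, hk⟩, ha⟩ := eig_of_comm_end N hV hker hn (e c) hc'
  refine ⟨a, ⟨k, ?_⟩, ?_⟩
  · apply e.injective
    rw [map_pow, map_sub, map_smul, map_one, hk, map_zero]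
  · rw [← ha]
    exact (LinearMap.det_toLin' c).symm

end eig

variable {K : Type*} [Field K] {n : ℕ}

theorem norm_one (φ : K →+* K) (hn : 0 < n) (c : Matrix (Fin n) (Fin n) K)
    (hc : sth φ c * c = 1) (a : K) (ha : IsNilpotent (c - a • 1)) : φ a * a = 1 := by
  have hc' : c * sth φ c = 1 := mul_eq_one_comm.1 hc
  set Z := c - a • (1 : Matrix (Fin n) (Fin n) K) with hZ
  set Z' := sth φ c - φ a • (1 : Matrix (Fin n) (Fin n) K) with hZ'
  have hZZ : Z' = sth φ Z := by rw [hZ, map_sub, sth_smul, sth_one]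
  have hZ'n : IsNilpotent Z' := by
    obtain ⟨k, hk⟩ := ha
    exact ⟨k, by rw [hZZ, ← st_pow (sth φ) (sth_mul φ) (sth_one φ), hk, map_zero]⟩
  have hcc : Commute (sth φ c) c := by
    change sth φ c * c = c * sth φ c
    rw [hc, hc']
  have hcomm1 : Commute Z' c :=
    hcc.sub_left ((Commute.one_left c).smul_left _)
  have hcomm2 : Commute Z' Z :=
    hcomm1.sub_right ((Commute.one_right Z').smul_right _)
  have hcomm3 : Commute Z c :=
    (Commute.refl c).sub_left ((Commute.one_left c).smul_left _)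
  have h1 : (1 - φ a * a) • (1 : Matrix (Fin n) (Fin n) K) = φ a • Z + Z' * c := by
    rw [hZ, hZ', sub_mul, hc, smul_sub, smul_smul, sub_smul, one_smul, smul_mul_assoc, one_mul]
    abel
  have h2 : IsNilpotent ((1 - φ a * a) • (1 : Matrix (Fin n) (Fin n) K)) := by
    rw [h1]
    apply Commute.isNilpotent_add
    · exact ((hcomm2.symm).mul_right hcomm3).smul_left _
    · exact ha.smul _
    · exact hcomm1.isNilpotent_mul_right hZ'n
  obtain ⟨k, hk⟩ := h2
  rw [smul_pow, one_pow] at hk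
  have h3 := congrFun (congrFun hk ⟨0, hn⟩) ⟨0, hn⟩
  simp only [Matrix.smul_apply, Matrix.one_apply_eq, smul_eq_mul, mul_one, Matrix.zero_apply] at h3
  have h5 : 1 - φ a * a = 0 := eq_zero_of_pow_eq_zero h3
  exact (sub_eq_zero.1 h5).symm

theorem sth_shiftM (φ : K →+* K) : sth φ (shiftM n K) = (shiftM n K)ᵀ := by
  ext i j
  simp only [sth_apply, shiftM, Matrix.transpose_apply, Matrix.map_apply, Matrix.of_apply]
  split_ifs <;> simp

variable [Fintype K] {q : ℕ}

theorem exists_reg_GU (hK : Fintype.card K = q ^ 2) (k : ℕ) :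
    ∃ U0 : GL (Fin (k + 1)) K, U0 ∈ Cfsg.GU (k + 1) K q ∧ P U0 := by
  obtain ⟨φ, hφq, hφ2, ω, hω⟩ := exists_frob hK
  have hU : IsUnit (Cfsg.jordanBlock (k + 1) K) := by
    rw [jordanBlock_eq]
    exact IsNilpotent.isUnit_one_add ⟨k + 1, shiftM_pow_self (k + 1)⟩
  set J : GL (Fin (k + 1)) K := hU.unit with hJ
  have hJc : (J : Matrix (Fin (k + 1)) (Fin (k + 1)) K) = Cfsg.jordanBlock (k + 1) K := hU.unit_spec
  have hPJ : P J := by
    constructor
    · rw [hJc, jordanBlock_sub_one, shiftM_pow_self]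
    · rw [hJc, jordanBlock_sub_one, shiftM_rank]
  set T := sth φ J.1 with hT
  set T' := sth φ (J⁻¹ : GL (Fin (k + 1)) K).1 with hT'
  have hTT' : T * T' = 1 := by
    rw [hT, hT', ← sth_mul, ← Units.val_mul, inv_mul_cancel, Units.val_one, sth_one]
  have hT'T : T' * T = 1 := by
    rw [hT, hT', ← sth_mul, ← Units.val_mul, mul_inv_cancel, Units.val_one, sth_one]
  have hT1 : T - 1 = (shiftM (k + 1) K)ᵀ := by
    rw [hT, ← sth_shiftM φ, ← jordanBlock_sub_one, map_sub, sth_one]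
    rfl
  have hM' : T' - 1 = (-T') * (shiftM (k + 1) K)ᵀ := by
    rw [← hT1, mul_sub, neg_mul, hT'T, mul_one]; abel
  have hcomm : Commute (-T') ((shiftM (k + 1) K)ᵀ) := by
    rw [← hT1]
    apply Commute.neg_left
    apply Commute.sub_right _ (Commute.one_right _)
    change T' * T = T * T'
    rw [hTT', hT'T]
  have hnil' : (T' - 1) ^ (k + 1) = 0 := by
    rw [hM', hcomm.mul_pow, ← Matrix.transpose_pow, shiftM_pow_self, Matrix.transpose_zero, mul_zero]
  have hrank' : (T' - 1).rank = k := by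
    rw [hM', Matrix.rank_mul_eq_right_of_isUnit_det, Matrix.rank_transpose, shiftM_rank]
    · rfl
    · rw [← Matrix.isUnit_iff_isUnit_det]
      exact ⟨⟨-T', -T, by rw [neg_mul_neg, hT'T], by rw [neg_mul_neg, hTT']⟩, rfl⟩
  obtain ⟨g, hg⟩ := matrix_exists_conj ((J : Matrix (Fin (k + 1)) (Fin (k + 1)) K) - 1)
    (T' - 1) (by simp) hPJ.1 (by simpa using hPJ.2) hnil' hrank'
  have hg2 : g.1 * J.1 = T' * g.1 := by
    rw [mul_sub, sub_mul, mul_one, one_mul, sub_left_inj] at hg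
    exact hg
  obtain ⟨Pm, hPm⟩ := Cfsg.Agent.S2588.exists_conj_GU hK φ hφq hφ2 ω hω J g
    (by rw [mul_assoc, hg2, ← mul_assoc, hTT', one_mul])
  exact ⟨_, hPm, P_conj Pm J hPJ⟩

theorem mem_SU_iff_GU (hK : Fintype.card K = q ^ 2) (s : SpecialLinearGroup (Fin n) K) :
    s ∈ Cfsg.SU n K q ↔ SpecialLinearGroup.toGL s ∈ Cfsg.GU n K q := by
  rw [mem_SU_iff hK, mem_GU_iff hK]
  rfl

theorem su_isConj_iff (hK : Fintype.card K = q ^ 2) (a b : ↥(Cfsg.SU n K q)) :
    IsConj a b ↔ ∃ h : GL (Fin n) K, h ∈ Cfsg.GU n K q ∧ GeneralLinearGroup.det h = 1 ∧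
      h * SpecialLinearGroup.toGL a.1 * h⁻¹ = SpecialLinearGroup.toGL b.1 := by
  rw [isConj_iff]
  constructor
  · rintro ⟨c, hc⟩
    refine ⟨SpecialLinearGroup.toGL c.1, (mem_SU_iff_GU hK c.1).1 c.2, det_toGL c.1, ?_⟩
    rw [← hc]; simp
  · rintro ⟨h, h0, h1, h2⟩
    obtain ⟨c, rfl⟩ := exists_sl h h1
    refine ⟨⟨c, (mem_SU_iff_GU hK c).2 h0⟩, ?_⟩
    apply Subtype.ext
    apply SpecialLinearGroup.toGL_injective
    rw [← h2]; simp

theorem scalar_mem_GU (hK : Fintype.card K = q ^ 2) (a : Kˣ) (ha : a ^ (q + 1) = 1) :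
    GeneralLinearGroup.scalar (Fin n) a ∈ Cfsg.GU n K q := by
  obtain ⟨φ, hφq, hφ2, ω, hω⟩ := exists_frob hK
  rw [mem_GU_iff' hK φ hφq]
  have h1 : (GeneralLinearGroup.scalar (Fin n) a).1 = (a : K) • (1 : Matrix (Fin n) (Fin n) K) := by
    ext i j
    simp [Matrix.one_apply, Matrix.scalar, Matrix.diagonal_apply]
  rw [h1, sth_smul, sth_one, smul_mul_smul_comm, one_mul, hφq, ← pow_succ]
  have := congrArg Units.val ha
  rw [Units.val_pow_eq_pow_val, Units.val_one] at this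
  rw [this, one_smul]

theorem main (hK : Fintype.card K = q ^ 2) (k : ℕ) :
    Nat.card {C : ConjClasses ↥(Cfsg.SU (k + 1) K q) // ∃ u : ↥(Cfsg.SU (k + 1) K q),
      ConjClasses.mk u = C ∧
      (((u : GL (Fin (k + 1)) K) : Matrix (Fin (k + 1)) (Fin (k + 1)) K) - 1) ^ (k + 1) = 0 ∧
      (((u : GL (Fin (k + 1)) K) : Matrix (Fin (k + 1)) (Fin (k + 1)) K) - 1).rank = k + 1 - 1} =
      Nat.gcd (k + 1) (q + 1) := by
  classical
  obtain ⟨φ, hφq, hφ2, ω, hω⟩ := exists_frob hK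
  obtain ⟨U0, hU0, hPU0⟩ := exists_reg_GU hK k
  let N1 : Subgroup Kˣ := (powMonoidHom (q + 1) : Kˣ →* Kˣ).ker
  have hD : ∀ d : N1, ∃ g : GL (Fin (k + 1)) K, g ∈ Cfsg.GU (k + 1) K q ∧
      GeneralLinearGroup.det g = d.1 := by
    intro d
    have h1 : d.1 ∈ (detGU (k + 1) K q).range := by
      rw [range_detGU hK (by omega)]; exact d.2
    obtain ⟨g, hg⟩ := h1
    exact ⟨g.1, g.2, hg⟩
  choose D hDm hD using hD
  have hs : ∀ d : N1, ∃ s : ↥(Cfsg.SU (k + 1) K q),
      SpecialLinearGroup.toGL s.1 = D d * U0 * (D d)⁻¹ := fun d => by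
    obtain ⟨s, hs⟩ := exists_sl (D d * U0 * (D d)⁻¹) (by rw [Cfsg.Agent.S2578.det_conj, P_det U0 hPU0])
    refine ⟨⟨s, ?_⟩, hs⟩
    rw [mem_SU_iff_GU hK, hs]
    exact mul_mem (mul_mem (hDm d) hU0) (inv_mem (hDm d))
  choose s hs using hs
  have hPs : ∀ d, P (SpecialLinearGroup.toGL (s d).1) := fun d => by rw [hs]; exact P_conj _ _ hPU0
  let f : N1 → {C : ConjClasses ↥(Cfsg.SU (k + 1) K q) // ∃ u : ↥(Cfsg.SU (k + 1) K q),
      ConjClasses.mk u = C ∧
      (((u : GL (Fin (k + 1)) K) : Matrix (Fin (k + 1)) (Fin (k + 1)) K) - 1) ^ (k + 1) = 0 ∧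
      (((u : GL (Fin (k + 1)) K) : Matrix (Fin (k + 1)) (Fin (k + 1)) K) - 1).rank = k + 1 - 1} :=
    fun d => ⟨ConjClasses.mk (s d), s d, rfl, (hPs d).1, (hPs d).2⟩
  have hcardN1 : Nat.card N1 = q + 1 := by
    rw [IsCyclic.card_powMonoidHom_ker, card_units hK, Nat.gcd_eq_right (Dvd.intro_left _ rfl)]
  rw [card_eq_index (powMonoidHom (k + 1) : N1 →* N1).range f, IsCyclic.index_powMonoidHom_range,
    hcardN1, Nat.gcd_comm]
  · -- surjective
    rintro ⟨C, u, rfl, hu1, hu2⟩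
    obtain ⟨g, hg⟩ := matrix_exists_conj ((U0 : Matrix (Fin (k + 1)) (Fin (k + 1)) K) - 1)
      (((u : GL (Fin (k + 1)) K) : Matrix (Fin (k + 1)) (Fin (k + 1)) K) - 1) (by simp) hPU0.1
      (by simpa using hPU0.2) hu1 (by simpa using hu2)
    have hg' : g * U0 * g⁻¹ = SpecialLinearGroup.toGL u.1 := by
      rw [mul_inv_eq_iff_eq_mul]
      apply Units.ext
      rw [mul_sub, sub_mul, mul_one, one_mul, sub_left_inj] at hg
      exact hg
    obtain ⟨y, hy, hy2⟩ := conj_GU hK U0 (SpecialLinearGroup.toGL u.1) hU0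
      ((mem_SU_iff_GU hK u.1).1 u.2) g hg'
    have hdy : GeneralLinearGroup.det y ∈ N1 := by
      have h1 : GeneralLinearGroup.det y ∈ (detGU (k + 1) K q).range := ⟨⟨y, hy⟩, rfl⟩
      rwa [range_detGU hK (by omega)] at h1
    refine ⟨⟨GeneralLinearGroup.det y, hdy⟩, ?_⟩
    apply Subtype.ext
    change ConjClasses.mk (s ⟨GeneralLinearGroup.det y, hdy⟩) = ConjClasses.mk u
    rw [ConjClasses.mk_eq_mk_iff_isConj, su_isConj_iff hK]
    refine ⟨y * (D ⟨GeneralLinearGroup.det y, hdy⟩)⁻¹, mul_mem hy (inv_mem (hDm _)), ?_, ?_⟩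
    · rw [map_mul, map_inv, hD, mul_inv_cancel]
    · rw [hs, ← hy2]; group
  · intro d d'
    have e1 : f d = f d' ↔ IsConj (s d) (s d') := by
      rw [← ConjClasses.mk_eq_mk_iff_isConj]
      exact Subtype.ext_iff
    rw [e1, su_isConj_iff hK, hs, hs]
    constructor
    · rintro ⟨h, h0, h1, h2⟩
      have hc : Commute ((D d')⁻¹ * h * D d) U0 := by
        have : (D d')⁻¹ * (h * (D d * U0 * (D d)⁻¹) * h⁻¹) * (h * D d) = (D d')⁻¹ * (D d' * U0 * (D d')⁻¹) * (h * D d) := by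
          rw [h2]
        have h3 : (D d')⁻¹ * h * D d * U0 = U0 * ((D d')⁻¹ * h * D d) := by
          calc (D d')⁻¹ * h * D d * U0 = (D d')⁻¹ * (h * (D d * U0 * (D d)⁻¹) * h⁻¹) * (h * D d) := by group
            _ = (D d')⁻¹ * (D d' * U0 * (D d')⁻¹) * (h * D d) := this
            _ = _ := by group
        exact h3
      have hmem : (D d')⁻¹ * h * D d ∈ Cfsg.GU (k + 1) K q :=
        mul_mem (mul_mem (inv_mem (hDm d')) h0) (hDm d)
      have hc' : Commute (((D d')⁻¹ * h * D d : GL (Fin (k + 1)) K) : Matrix (Fin (k + 1)) (Fin (k + 1)) K)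
          ((U0 : Matrix (Fin (k + 1)) (Fin (k + 1)) K) - 1) := by
        apply Commute.sub_right _ (Commute.one_right _)
        exact congrArg Units.val hc.eq
      obtain ⟨a, han, ha⟩ := eig_of_comm ((U0 : Matrix (Fin (k + 1)) (Fin (k + 1)) K) - 1) (by simp)
        hPU0.1 (by simpa using hPU0.2) _ hc'
      have hnorm := norm_one φ (by omega) _ ((mem_GU_iff' hK φ hφq _).1 hmem) a han
      have hdet : GeneralLinearGroup.det ((D d')⁻¹ * h * D d) = (d'.1)⁻¹ * d.1 := by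
        rw [map_mul, map_mul, map_inv, hD, hD, h1, mul_one]
      have ha' : (((d'.1)⁻¹ * d.1 : Kˣ) : K) = a ^ (k + 1) := by
        rw [← hdet, ← ha]; rfl
      have ha0 : a ≠ 0 := by
        intro h0
        rw [h0, mul_zero] at hnorm
        exact zero_ne_one hnorm
      have haN : Units.mk0 a ha0 ∈ N1 := by
        rw [MonoidHom.mem_ker, powMonoidHom_apply]
        apply Units.ext
        rw [Units.val_pow_eq_pow_val, Units.val_mk0, Units.val_one, pow_succ, ← hφq]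
        exact hnorm
      refine ⟨(⟨Units.mk0 a ha0, haN⟩ : N1)⁻¹, ?_⟩
      rw [powMonoidHom_apply, inv_pow]
      have : (⟨Units.mk0 a ha0, haN⟩ : N1) ^ (k + 1) = d'⁻¹ * d := by
        apply Subtype.ext
        apply Units.ext
        change _ = (((d'.1)⁻¹ * d.1 : Kˣ) : K)
        rw [ha']; simp
      rw [this]; simp
    · rintro ⟨a, ha⟩
      rw [powMonoidHom_apply] at ha
      have ha1 : (a.1) ^ (k + 1) = (d.1)⁻¹ * d'.1 := congrArg Subtype.val ha
      have haN : (a.1)⁻¹ ^ (q + 1) = 1 := by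
        have := a.2
        rw [MonoidHom.mem_ker, powMonoidHom_apply] at this
        rw [inv_pow, this, inv_one]
      refine ⟨D d' * GeneralLinearGroup.scalar (Fin (k + 1)) (a.1)⁻¹ * (D d)⁻¹,
        mul_mem (mul_mem (hDm d') (scalar_mem_GU hK _ haN)) (inv_mem (hDm d)), ?_, ?_⟩
      · rw [map_mul, map_mul, map_inv (GeneralLinearGroup.det) (D d), hD, hD,
          GeneralLinearGroup.det_scalar, Fintype.card_fin, inv_pow, ha1]
        simp
      · have hz : ∀ y : GL (Fin (k + 1)) K, GeneralLinearGroup.scalar (Fin (k + 1)) (a.1)⁻¹ * y =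
            y * GeneralLinearGroup.scalar (Fin (k + 1)) (a.1)⁻¹ := by
          intro y
          have : GeneralLinearGroup.scalar (Fin (k + 1)) (a.1)⁻¹ ∈ Subgroup.center (GL (Fin (k + 1)) K) := by
            rw [GeneralLinearGroup.center_eq_range_scalar]; exact ⟨_, rfl⟩
          exact ((Subgroup.mem_center_iff.mp this) y).symm
        calc D d' * GeneralLinearGroup.scalar (Fin (k + 1)) (a.1)⁻¹ * (D d)⁻¹ * (D d * U0 * (D d)⁻¹) *
              (D d' * GeneralLinearGroup.scalar (Fin (k + 1)) (a.1)⁻¹ * (D d)⁻¹)⁻¹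
            = D d' * (GeneralLinearGroup.scalar (Fin (k + 1)) (a.1)⁻¹ * U0) *
              (GeneralLinearGroup.scalar (Fin (k + 1)) (a.1)⁻¹)⁻¹ * (D d')⁻¹ := by group
          _ = _ := by rw [hz]; group

/-- Regular unipotent classes of SU_n(q), n ≥ 2: the elements u of the special unitary group (isometries of Σ u_i v_i^q of determinant one over the field with q² elements) with (u − 1)^n = 0 and rank(u − 1) = n − 1 form exactly gcd(n, q + 1) conjugacy classes of SU_n(q). -/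
theorem result {K : Type*} [Field K] [Fintype K] {q n : ℕ} (hK : Fintype.card K = q ^ 2) (hn : 2 ≤ n) : Nat.card {C : ConjClasses ↥(Cfsg.SU n K q) // ∃ u : ↥(Cfsg.SU n K q), ConjClasses.mk u = C ∧ (((u : GL (Fin n) K) : Matrix (Fin n) (Fin n) K) - 1) ^ n = 0 ∧ (((u : GL (Fin n) K) : Matrix (Fin n) (Fin n) K) - 1).rank = n - 1} = Nat.gcd n (q + 1) := by
  obtain ⟨k, rfl⟩ : ∃ k, n = k + 1 := ⟨n - 1, by omega⟩
  exact main hK k

end Cfsg.Agent.S2643
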