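import Cfsg.Statements.S2645
import Cfsg.Agent.S2568
import Cfsg.Agent.Lib.Helper48SpEx

set_option autoImplicit false
open Cfsg

namespace Cfsg.Agent.S2645

open Cfsg.Agent.Lib.Helper48Eig Cfsg.Agent.Lib.Helper48EigMat Cfsg.Agent.Lib.Helper48EigCount
  Cfsg.Agent.Lib.Helper48EigMat2 Cfsg.Agent.Lib.Helper48SpEx Cfsg.Agent.Lib.Helper48SpReg
  Cfsg.Agent.Lib.Helper48SpRegConj

/-- the class count in terms of a unit `w` generating `⟨q, -1⟩` modulo `r` -/
theorem card_aux {F : Type*} [Field F] [Fintype F] {p q : ℕ} [Fact p.Prime] [CharP F p]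
    (hF : Fintype.card F = q) (m r c v : ℕ) (hr : r.Prime) (hr2 : r ≠ 2) (hrp : r ≠ p)
    (hcop : q.Coprime r) (w : (ZMod r)ˣ)
    (hw : ∀ a : ZMod r → ℕ, (∀ k, a (w.1 * k) = a k) ↔
      (∀ k, a ((ZMod.unitOfCoprime q hcop).1 * k) = a k) ∧ ∀ k, a (-k) = a k)
    (hc : orderOf w = c) (hv : v * c = r - 1) :
    Nat.card {C : ConjClasses ↥(Matrix.symplecticGroup (Fin m) F) //
      ∃ g : Matrix.symplecticGroup (Fin m) F, ConjClasses.mk g = C ∧ orderOf g = r}
      = Nat.choose (2 * m / c + v) v - 1 := by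
  have hp : p.Prime := Fact.out
  have _ : Fact r.Prime := ⟨hr⟩
  obtain ⟨⟨ζ, hζ⟩, hfrob⟩ := Cfsg.Agent.S2568.exists_setup F p r hr hrp
  obtain ⟨e, _, he⟩ := FiniteField.card F p
  obtain ⟨Φ, hΦ⟩ := hfrob e
  rw [← he] at hΦ
  have hrp' : r.Coprime p := (Nat.coprime_primes hr hp).2 hrp
  have hodd : Odd r := hr.odd_of_ne_two hr2
  set u : (ZMod r)ˣ := ZMod.unitOfCoprime q hcop with hu
  have huq : ((Fintype.card F : ℕ) : ZMod r) = u := by rw [hF]; rfl
  have hrF : (r : F) ≠ 0 := by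
    intro h0
    rw [CharP.cast_eq_zero_iff F p] at h0
    exact hrp ((Nat.prime_dvd_prime_iff_eq hp hr).1 h0).symm
  have hcard : Fintype.card (Fin m ⊕ Fin m) = 2 * m := by simp [two_mul]
  have hpow : ∀ g : Matrix.symplecticGroup (Fin m) F, g ^ r = 1 ↔ g.1 ^ r = 1 := by
    intro g
    rw [Subtype.ext_iff, SubmonoidClass.coe_pow]
    rfl
  rw [← card_invariant_ne w c v (2 * m) hc hv]
  apply Cfsg.Agent.Lib.Helper48JordanClass.card_classes
    (fun (g : Matrix.symplecticGroup (Fin m) F) (a : ZMod r → ℕ) => HasMult ζ g.1 a)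
  · intro g hg
    exact exists_hasMult hζ g.1 ((hpow g).1 (by rw [← hg, pow_orderOf_eq_one]))
  · intro g g' a h h'
    obtain ⟨P, hP⟩ := h.conj p hrp' h'
    exact Cfsg.Agent.S2589.conj_of_semiconj r hrF g g' ((hpow g).2 h.1) P.1 P.2 P.3 P.4 hP
  · intro g g' a a' h h' hc
    rw [isConj_iff] at hc
    obtain ⟨P, hP⟩ := hc
    rw [mul_inv_eq_iff_eq_mul] at hP
    exact h.unique hζ h' ⟨P.1, (P⁻¹).1, coe_mul_inv P, coe_inv_mul P⟩ (congrArg Subtype.val hP)
  · rintro a ⟨⟨hinv, hsum⟩, _⟩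
    obtain ⟨h1, h2⟩ := (hw a).1 hinv
    exact exists_sp p hrp' hodd hζ Φ hΦ u huq m a h1 h2 hsum
  · intro g a h
    have h1 : g = 1 ↔ a = Pi.single 0 (2 * m) := by
      have h0 := h.eq_one_iff p hrp' hζ
      rw [hcard] at h0
      rw [← h0]
      exact ⟨fun hg => by rw [hg]; rfl, fun hg => Subtype.ext hg⟩
    constructor
    · intro hg
      refine ⟨⟨?_, by rw [h.sum, hcard]⟩, ?_⟩
      · rw [hw a]
        refine ⟨h.invariant hζ Φ hΦ u huq, ?_⟩
        have h2 := h.inv hζ.pow_eq_one (coe_mul_inv g)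
        have h3 := Cfsg.Agent.Lib.Helper48EigMat2.HasMult.conj_units h.transpose
          (-Matrix.J (Fin m) F) (Matrix.J (Fin m) F) Cfsg.Agent.S2589.neg_J_mul_J
          (by rw [Matrix.mul_neg, Matrix.J_squared, neg_neg])
        have h4 := h2.unique hζ h3 1 (by
          rw [Units.val_one, one_mul, mul_one]
          rfl)
        exact fun k => congrFun h4 k
      · intro ha
        rw [h1.2 ha, orderOf_one] at hg
        exact hr.one_lt.ne hg
    · rintro ⟨_, hne⟩
      exact orderOf_eq_prime ((hpow g).2 h.1) (fun hg => hne (h1.1 hg))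

theorem result {F : Type*} [Field F] [Fintype F] {p q : ℕ} [Fact p.Prime] [CharP F p] (hF : Fintype.card F = q) (m r i t : ℕ) (hr : r.Prime) (hr2 : r ≠ 2) (hrp : r ≠ p) (hi : i = orderOf (q : ZMod r)) (ht : t * i = r - 1) : Nat.card {C : ConjClasses ↥(Matrix.symplecticGroup (Fin m) F) // ∃ g : Matrix.symplecticGroup (Fin m) F, ConjClasses.mk g = C ∧ orderOf g = r} = if Odd i then Nat.choose (m / i + t / 2) (t / 2) - 1 else Nat.choose (2 * m / i + t) t - 1 := by
  have hp : p.Prime := Fact.out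
  have _ : Fact r.Prime := ⟨hr⟩
  have hcop : q.Coprime r := by
    obtain ⟨e, _, he⟩ := FiniteField.card F p
    rw [← hF, he]
    exact ((Nat.coprime_primes hp hr).2 hrp.symm).pow_left _
  set u := ZMod.unitOfCoprime q hcop with hu
  have hord : orderOf u = i := by rw [hi, ← orderOf_units]; rfl
  have hi0 : 0 < i := by rw [← hord]; exact orderOf_pos _
  by_cases ho : Odd i
  · rw [if_pos ho]
    have hc : orderOf (-u) = 2 * i := by
      rw [orderOf_neg_unit hr2 u i hord, if_neg, if_pos ho]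
      obtain ⟨j, hj⟩ := ho
      omega
    have hdvd : 2 * i ∣ t * i := by
      rw [ht, ← hc, ← ZMod.card_units r]
      exact orderOf_dvd_card
    have h2t : 2 ∣ t := Nat.dvd_of_mul_dvd_mul_right hi0 hdvd
    have hv : t / 2 * (2 * i) = r - 1 := by
      rw [← mul_assoc, Nat.div_mul_cancel h2t, ht]
    rw [card_aux hF m r (2 * i) (t / 2) hr hr2 hrp hcop (-u) ?_ hc hv,
      Nat.mul_div_mul_left m i (by norm_num)]
    intro a
    constructor
    · intro h
      have h1 : ∀ k, a (-k) = a k := by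
        intro k
        have h2 := invariant_pow (-u) a h i k
        rw [neg_pow, ← hord, pow_orderOf_eq_one, mul_one, hord, ho.neg_one_pow, Units.val_neg,
          Units.val_one, neg_one_mul] at h2
        exact h2
      refine ⟨fun k => ?_, h1⟩
      rw [← h1, ← neg_mul, ← Units.val_neg, h]
    · rintro ⟨h1, h2⟩ k
      rw [Units.val_neg, neg_mul, h2, h1]
  · rw [if_neg ho]
    rw [card_aux hF m r i t hr hr2 hrp hcop u ?_ hord ht]
    intro a
    constructor
    · intro h
      refine ⟨h, fun k => ?_⟩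
      rw [Nat.not_odd_iff_even] at ho
      obtain ⟨b, hb⟩ := ho
      have h2 := invariant_pow u a h b k
      rw [pow_half_eq_neg_one u b (by omega) (by rw [hord, hb, two_mul]), Units.val_neg,
        Units.val_one, neg_one_mul] at h2
      exact h2
    · exact fun h => h.1

end Cfsg.Agent.S2645
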