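import Cfsg.Statements.S2661
import Cfsg.Agent.Lib.Helper22RoI
import Cfsg.Agent.Lib.Helper22AsMain
import Cfsg.Agent.Lib.Helper22RoC2
import Cfsg.Agent.Lib.Helper22F4T4
import Cfsg.Agent.Lib.Helper22F4T3

set_option autoImplicit false
open scoped MatrixGroups
open Cfsg

namespace Cfsg.Agent.S2661

/-- Alternating sections of the large Ree groups ²F₄. Let `m ≥ 1`, let `K` be a field with `2^(2m+1)` elements and let `G` be the large Ree group ²F₄(2^(2m+1)) realised over `K`. If some subgroup of `G` has a quotient isomorphic to the alternating group of degree `r`, then `r ≤ 6`. (Only an upper bound is asserted.) -/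
theorem result {K : Type*} [Field K] [Fintype K] {m : ℕ} (hm : 1 ≤ m)
    (hK : Fintype.card K = 2 ^ (2 * m + 1)) (r : ℕ) (H : Subgroup ↥(Cfsg.Lie.twistedF4 K (2 ^ m))) (N : Subgroup ↥H) [N.Normal]
    (h : Nonempty (↥H ⧸ N ≃* ↥(alternatingGroup (Fin r)))) :
    r ≤ 6 := by
  obtain ⟨θ, fs⟩ := Cfsg.Agent.Lib.Helper22F4.exists_fs hK
  obtain ⟨ζ, hζ⟩ := Cfsg.Agent.Lib.Helper22F4.exists_zeta hm hK
  have e : Cfsg.Lie.twistedF4 K (2 ^ m) = Cfsg.Agent.Lib.Helper22F4.G1 Cfsg.Lie.chevF4 θ :=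
    (Cfsg.Agent.Lib.Helper22F4.G1_eq (Cfsg.Agent.Lib.Helper23All.rel (F := K) Cfsg.Agent.Lib.Helper22F4.stdF4) θ
      fs.h0 fs.h1).symm
  revert H
  rw [e]
  intro H N _ h
  haveI : Finite (GL Cfsg.Lie.chevF4.Idx K) := by
    haveI : Finite (Matrix Cfsg.Lie.chevF4.Idx Cfsg.Lie.chevF4.Idx K) := by unfold Matrix; infer_instance
    exact Finite.of_injective (fun g : GL Cfsg.Lie.chevF4.Idx K => (g : Matrix Cfsg.Lie.chevF4.Idx Cfsg.Lie.chevF4.Idx K))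
      Units.val_injective
  obtain ⟨S, hTD, cH, hrot, ⟨P, hP, hXa, hXb, hH⟩, cG⟩ := Cfsg.Agent.Lib.Helper22RoI.exists_tg2 Cfsg.Agent.Lib.Helper22F4.stdF4
    Cfsg.Agent.Lib.Helper22ChevTabF4.agree
    Cfsg.Agent.Lib.Helper22F4.ptabF4 (Cfsg.Agent.Lib.Helper23All.tab Cfsg.Agent.Lib.Helper22F4.stdF4)
    (Cfsg.Agent.Lib.Helper23All.rel (F := K) Cfsg.Agent.Lib.Helper22F4.stdF4) fs.h2 θ
    Cfsg.Agent.Lib.Helper22F4.qfF4 fs.hθ fs.h10 fs.h01 (Cfsg.Agent.Lib.Helper22F4.sgF4_ok θ fs)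
    Cfsg.Agent.Lib.Helper22TwEnumF4.chk_eq Cfsg.Agent.Lib.Helper22F4.qlF4
    (Cfsg.Agent.Lib.Helper23All.cartanRefl Cfsg.Agent.Lib.Helper22F4.stdF4) Cfsg.Agent.Lib.Helper22F4.qhF4
    Cfsg.Agent.Lib.Helper22RoC.qcF4 fs.h0 ζ hζ (2 * m + 1) (by omega)
    (by rw [Nat.card_eq_fintype_card, hK]) (Cfsg.Agent.Lib.Helper22F4.card_units hK)
    Cfsg.Agent.Lib.Helper22F4.hMF4 Cfsg.Agent.Lib.Helper22F4.csF4_eq
  exact Cfsg.Agent.Lib.Helper22AsMain.main S hTD P hP hXa hXb hH hrot (2 * m + 1) (by omega)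
    (by rw [Nat.card_eq_fintype_card, hK]) cH cG r H N h

end Cfsg.Agent.S2661
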