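import Cfsg.Statements.S2662
import Cfsg.Agent.Lib.LeadChevField
import Cfsg.Agent.S1023
import Cfsg.Agent.S1024
import Cfsg.Agent.S1026
import Cfsg.Agent.S1032
import Cfsg.Agent.S1034
import Cfsg.Agent.S1035
import Cfsg.Agent.S1036
import Cfsg.Agent.S1038
import Cfsg.Agent.S1100

set_option autoImplicit false
open scoped MatrixGroups
open Cfsg

namespace Cfsg.Agent.S2662

/-- Centralizers of field automorphisms of prime order, type E₈. Let `F` be a finite field and `G` the Chevalley group of type E₈ over `F` (for this type the group generated by the root elements is the whole group of rational points, with trivial centre). Let `φ` be a field automorphism of `G` (it sends each root element `x_s(t)` to `x_s(σ t)` for a fixed automorphism `σ` of `F`) whose order is a prime `r`. Then `F` has `q₀ ^ r` elements for some prime power `q₀`, and the subgroup of elements fixed by `φ` is isomorphic to the Chevalley group of type E₈ over a field with `q₀` elements. -/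
theorem result {F : Type*} [Field F] [Fintype F]
    (φ : MulAut ↥(Cfsg.Lie.chevE8.group F)) (hφ : Cfsg.Lie.chevE8.IsFieldAut φ) (r : ℕ) (hr : r.Prime) (ho : orderOf φ = r) :
    ∃ (F₀ : Type) (_ : Field F₀) (_ : Fintype F₀), Fintype.card F = Fintype.card F₀ ^ r ∧
      Nonempty (↥((MulEquiv.toMonoidHom φ).eqLocus (MonoidHom.id ↥(Cfsg.Lie.chevE8.group F))) ≃* ↥(Cfsg.Lie.chevE8.group F₀)) := by
  have hD : Cfsg.Lie.chevE8 ∈ [Cfsg.Lie.chevG2, Cfsg.Lie.chevB2, Cfsg.Lie.chevD4, Cfsg.Lie.chevF4,
      Cfsg.Lie.chevE6, Cfsg.Lie.chevE7, Cfsg.Lie.chevE8] := by simp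
  have hF : Cfsg.Agent.Lib.LeadChevField.Facts Cfsg.Lie.chevE8 F :=
    { hadd := fun r hr t₁ t₂ => Cfsg.Agent.S1023.result _ hD r hr t₁ t₂
      hone := fun r hr t => Cfsg.Agent.S1024.result _ hD r hr t
      huniq := (Cfsg.Agent.S1026.result _ hD).1
      hprod := fun g hg => Cfsg.Agent.S1034.result _ hD g hg
      hconj := fun i s hi hs c hc t => Cfsg.Agent.S1032.result _ hD i s hi hs c hc t
      hnormU := (Cfsg.Agent.S1036.result _ hD).1
      hUH := (Cfsg.Agent.S1036.result _ hD).2
      hHN := Cfsg.Agent.S1038.result _ hD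
      bex := (Cfsg.Agent.S1100.result _ hD).1
      buniq := (Cfsg.Agent.S1100.result _ hD).2 }
  have hcard : Nat.card (Cfsg.Lie.chevE8.diagonalSubgroup F) =
      (Fintype.card F - 1) ^ Cfsg.Lie.chevE8.rank := by
    have := Cfsg.Agent.S1035.result (F := F) rfl (Cfsg.Lie.chevE8, 1) (by simp)
    simpa using this
  exact Cfsg.Agent.Lib.LeadChevField.main _ hF (by decide) hcard
    (fun K _ r hr t₁ t₂ => Cfsg.Agent.S1023.result _ hD r hr t₁ t₂)
    (fun K _ r hr t => Cfsg.Agent.S1024.result _ hD r hr t) φ hφ r hr ho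

end Cfsg.Agent.S2662
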