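import Cfsg.Statements.S2665
-- import your own Cfsg.Agent.* helpers here

set_option autoImplicit false
open scoped MatrixGroups
open Cfsg

namespace Cfsg.Agent.S2665

open Polynomial

noncomputable def Apoly {K : Type*} [Field K] (q : ℕ) (c : ℕ → K) : ℕ → K[X]
  | 0 => C (c 0) * X ^ q
  | (i + 1) => (Apoly q c i) ^ q + C (c (i + 1)) * X ^ q

theorem Apoly_dvd {K : Type*} [Field K] (q : ℕ) (hq : 2 ≤ q) (c : ℕ → K) (i : ℕ) :
    X ^ 2 ∣ Apoly q c i := by
  have h0 : (X : K[X]) ^ 2 ∣ X ^ q := pow_dvd_pow X hq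
  induction i with
  | zero => exact Dvd.dvd.mul_left h0 _
  | succ n ih =>
    exact dvd_add (dvd_pow ih (by omega)) (Dvd.dvd.mul_left h0 _)

theorem Apoly_inv {K : Type*} [Field K] (q : ℕ) (hq : 2 ≤ q) (c : ℕ → K) (i : ℕ) :
    (Apoly q c i = 0 ∧ ∀ j ≤ i, c j = 0) ∨ q ≤ (Apoly q c i).natDegree := by
  induction i with
  | zero =>
    by_cases h : c 0 = 0
    · left
      refine ⟨by simp [Apoly, h], fun j hj => ?_⟩
      obtain rfl : j = 0 := by omega
      exact h
    · right
      simp only [Apoly]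
      rw [natDegree_C_mul_X_pow q _ h]
  | succ n ih =>
    rcases ih with ⟨h1, h2⟩ | h
    · by_cases h : c (n + 1) = 0
      · left
        refine ⟨by simp [Apoly, h, h1]; omega, fun j hj => ?_⟩
        rcases Nat.lt_or_ge j (n + 1) with hj' | hj'
        · exact h2 j (by omega)
        · obtain rfl : j = n + 1 := by omega
          exact h
      · right
        have : Apoly q c (n + 1) = C (c (n + 1)) * X ^ q := by
          simp only [Apoly, h1]
          rw [zero_pow (by omega), zero_add]
        rw [this, natDegree_C_mul_X_pow q _ h]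
    · right
      have h3 : ((Apoly q c n) ^ q).natDegree = q * (Apoly q c n).natDegree := natDegree_pow _ _
      have h4 : (C (c (n + 1)) * X ^ q : K[X]).natDegree ≤ q := natDegree_C_mul_X_pow_le _ _
      have h5 : q < q * (Apoly q c n).natDegree := by nlinarith
      simp only [Apoly]
      rw [natDegree_add_eq_left_of_natDegree_lt (by omega), h3]
      omega

theorem exists_param {K : Type*} [Field K] [IsAlgClosed K] (q : ℕ) (hq : 2 ≤ q) (c : ℕ → K) (m : ℕ)
    (hc : ∃ i ≤ m, c i ≠ 0) :
    ∃ a : ℕ → K, a m ≠ 0 ∧ a 0 = c 0 * (a m) ^ q ∧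
      ∀ i, a (i + 1) = (a i) ^ q + c (i + 1) * (a m) ^ q := by
  have hne : Apoly q c m ≠ 0 := by
    rcases Apoly_inv q hq c m with ⟨-, h2⟩ | h
    · obtain ⟨i, hi, hci⟩ := hc
      exact absurd (h2 i hi) hci
    · intro h0
      rw [h0, natDegree_zero] at h
      omega
  obtain ⟨B, hB⟩ := Apoly_dvd q hq c m
  have hB0 : B ≠ 0 := by
    rintro rfl
    exact hne (by rw [hB, mul_zero])
  have hdeg : (X * B - 1 : K[X]).degree ≠ 0 := by
    have h1 : (1 : K[X]).degree < (X * B).degree := by
      rw [degree_one, degree_mul, degree_X, degree_eq_natDegree hB0]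
      have : (0 : WithBot ℕ) < 1 + (B.natDegree : WithBot ℕ) := by
        exact_mod_cast Nat.succ_pos' |>.trans_le (by omega : 0 + 1 ≤ 1 + B.natDegree)
      exact this
    rw [degree_sub_eq_left_of_degree_lt h1]
    rw [degree_one] at h1
    exact h1.ne'
  obtain ⟨t, ht⟩ := IsAlgClosed.exists_root _ hdeg
  have ht' : t * B.eval t = 1 := by
    have : t * B.eval t - 1 = 0 := by simpa [IsRoot] using ht
    linear_combination this
  have ht0 : t ≠ 0 := by
    rintro rfl
    simp at ht'
  have hm : (Apoly q c m).eval t = t := by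
    rw [hB, eval_mul, eval_pow, eval_X]
    linear_combination t * ht'
  refine ⟨fun i => (Apoly q c i).eval t, ?_, ?_, ?_⟩
  · simp only [hm]; exact ht0
  · simp only [hm]; simp [Apoly]
  · intro i
    simp only [hm]; simp [Apoly]



theorem exists_fixed {K V : Type*} [Field K] [IsAlgClosed K] [AddCommGroup V] [Module K V]
    [FiniteDimensional K V] [Nontrivial V]
    (σ : K →+* K) (q : ℕ) (hq : 2 ≤ q) (hσ : ∀ x, σ x = x ^ q) (φ : V →ₛₗ[σ] V)
    (hφ : Function.Injective φ) :
    ∃ v, v ≠ 0 ∧ φ v = v := by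
  obtain ⟨v₀, hv₀⟩ := exists_ne (0 : V)
  let e : ℕ → V := fun i => φ^[i] v₀
  have he : ∀ i, e (i + 1) = φ (e i) := fun i => Function.iterate_succ_apply' φ i v₀
  have he0 : ∀ i, e i ≠ 0 := by
    intro i
    induction i with
    | zero => exact hv₀
    | succ n ih =>
      rw [he]
      intro h
      exact ih (hφ (by rw [h, map_zero]))
  let U : ℕ →o Submodule K V :=
    ⟨fun r => Submodule.span K (e '' (Finset.range r : Set ℕ)), fun r s hrs =>
      Submodule.span_mono (Set.image_mono (by
        intro x hx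
        simp only [Finset.coe_range, Set.mem_Iio] at hx ⊢
        omega))⟩
  have hex : ∃ r, e r ∈ U r := by
    obtain ⟨n, hn⟩ := monotone_stabilizes_iff_noetherian.mpr inferInstance U
    refine ⟨n, ?_⟩
    rw [hn (n + 1) (by omega)]
    exact Submodule.subset_span ⟨n, by simp, rfl⟩
  classical
  let r := Nat.find hex
  have hr : e r ∈ U r := Nat.find_spec hex
  have hmin : ∀ s < r, e s ∉ U s := fun s hs => Nat.find_min hex hs
  have hr0 : r ≠ 0 := by
    intro h0
    rw [h0] at hr
    have : e 0 ∈ (⊥ : Submodule K V) := by simpa [U] using hr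
    exact hv₀ ((Submodule.mem_bot K).1 this)
  obtain ⟨m, hm⟩ : ∃ m, r = m + 1 := ⟨r - 1, by omega⟩
  rw [hm] at hr
  have hm' : e m ∉ U m := hmin m (by omega)
  obtain ⟨c, hc⟩ := (Submodule.mem_span_image_finset_iff_exists_fun' K).1 hr
  have hcne : ∃ i ≤ m, c i ≠ 0 := by
    by_contra hcon
    push Not at hcon
    apply he0 (m + 1)
    rw [← hc]
    apply Finset.sum_eq_zero
    intro i hi
    rw [hcon i (by simpa [Nat.lt_succ_iff] using hi), zero_smul]
  obtain ⟨a, ha1, ha2, ha3⟩ := exists_param q hq c m hcne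
  refine ⟨∑ i ∈ Finset.range (m + 1), a i • e i, ?_, ?_⟩
  · intro h0
    rw [Finset.sum_range_succ] at h0
    apply hm'
    have : e m = (a m)⁻¹ • (- ∑ i ∈ Finset.range m, a i • e i) := by
      rw [eq_inv_smul_iff₀ ha1]
      exact eq_neg_of_add_eq_zero_right h0
    rw [this]
    apply Submodule.smul_mem
    apply Submodule.neg_mem
    apply Submodule.sum_mem
    intro i hi
    apply Submodule.smul_mem
    exact Submodule.subset_span ⟨i, by simpa using hi, rfl⟩
  · rw [map_sum]
    simp only [LinearMap.map_smulₛₗ, hσ, ← he]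
    rw [Finset.sum_range_succ, ← hc, Finset.sum_range_succ' (fun i => c i • e i),
      Finset.sum_range_succ' (fun i => a i • e i), ha2, smul_add, Finset.smul_sum]
    simp only [ha3, add_smul, Finset.sum_add_distrib, smul_smul, mul_comm (a m ^ q)]
    rw [add_assoc]



theorem exists_AS {K : Type*} [Field K] [IsAlgClosed K] (q : ℕ) (hq : 2 ≤ q) (a : K) :
    ∃ b : K, b ^ q - b = a := by
  have hdeg : (X ^ q - X - C a : K[X]).degree ≠ 0 := by
    have h1 : (X + C a : K[X]).degree < (X ^ q : K[X]).degree := by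
      rw [degree_X_add_C, degree_X_pow]
      exact_mod_cast (by omega : 1 < q)
    have h2 : (X ^ q - X - C a : K[X]) = X ^ q - (X + C a) := by ring
    rw [h2, degree_sub_eq_left_of_degree_lt h1, degree_X_pow]
    exact_mod_cast (by omega : q ≠ 0)
  obtain ⟨b, hb⟩ := IsAlgClosed.exists_root _ hdeg
  refine ⟨b, ?_⟩
  have : b ^ q - b - a = 0 := by simpa [IsRoot] using hb
  linear_combination this

theorem span_fixed {K V : Type*} [Field K] [IsAlgClosed K] [AddCommGroup V] [Module K V]
    [FiniteDimensional K V]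
    (σ : K →+* K) (q : ℕ) (hq : 2 ≤ q) (hσ : ∀ x, σ x = x ^ q) (φ : V →ₛₗ[σ] V)
    (hφ : Function.Injective φ) :
    Submodule.span K {v | φ v = v} = ⊤ := by
  by_contra hW
  set W := Submodule.span K {v | φ v = v} with hWdef
  have h1 : ∀ w ∈ W, ∀ a : K, ∃ w' ∈ W, φ w' - w' = a • w := by
    intro w hw
    induction hw using Submodule.span_induction with
    | mem x hx =>
      intro a
      obtain ⟨b, hb⟩ := exists_AS q hq a
      refine ⟨b • x, W.smul_mem b (Submodule.subset_span hx), ?_⟩
      have hx' : φ x = x := hx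
      rw [LinearMap.map_smulₛₗ, hσ, hx', ← sub_smul, hb]
    | zero => intro a; exact ⟨0, W.zero_mem, by simp⟩
    | add x y _ _ ihx ihy =>
      intro a
      obtain ⟨x', hx', ex⟩ := ihx a
      obtain ⟨y', hy', ey⟩ := ihy a
      refine ⟨x' + y', W.add_mem hx' hy', ?_⟩
      rw [map_add, smul_add, ← ex, ← ey]; abel
    | smul r x _ ih =>
      intro a
      obtain ⟨x', hx', ex⟩ := ih (a * r)
      exact ⟨x', hx', by rw [ex, mul_smul]⟩
  have h2 : ∀ w ∈ W, ∀ a : K, ∃ w' ∈ W, φ w' = a • w := by
    intro w hw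
    induction hw using Submodule.span_induction with
    | mem x hx =>
      intro a
      obtain ⟨b, hb⟩ := IsAlgClosed.exists_pow_nat_eq a (by omega : 0 < q)
      refine ⟨b • x, W.smul_mem b (Submodule.subset_span hx), ?_⟩
      have hx' : φ x = x := hx
      rw [LinearMap.map_smulₛₗ, hσ, hx', hb]
    | zero => intro a; exact ⟨0, W.zero_mem, by simp⟩
    | add x y _ _ ihx ihy =>
      intro a
      obtain ⟨x', hx', ex⟩ := ihx a
      obtain ⟨y', hy', ey⟩ := ihy a
      refine ⟨x' + y', W.add_mem hx' hy', ?_⟩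
      rw [map_add, smul_add, ← ex, ← ey]
    | smul r x _ ih =>
      intro a
      obtain ⟨x', hx', ex⟩ := ih (a * r)
      exact ⟨x', hx', by rw [ex, mul_smul]⟩
  have h3 : W ≤ W.comap φ := by
    rw [hWdef, Submodule.span_le]
    intro v hv
    have hv' : φ v = v := hv
    show φ v ∈ W
    rw [hv']
    exact Submodule.subset_span hv
  let φb : (V ⧸ W) →ₛₗ[σ] (V ⧸ W) := W.mapQ W φ h3
  have hφb : Function.Injective φb := by
    rw [injective_iff_map_eq_zero]
    intro x hx
    obtain ⟨v, rfl⟩ := Submodule.Quotient.mk_surjective W x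
    have : φ v ∈ W := by
      rw [← Submodule.Quotient.mk_eq_zero W]
      exact hx
    obtain ⟨w', hw', e⟩ := h2 _ this 1
    rw [one_smul] at e
    rw [Submodule.Quotient.mk_eq_zero, ← hφ e]
    exact hw'
  have : Nontrivial (V ⧸ W) := Submodule.Quotient.nontrivial_iff.2 hW
  obtain ⟨x, hx0, hx⟩ := exists_fixed σ q hq hσ φb hφb
  obtain ⟨v, rfl⟩ := Submodule.Quotient.mk_surjective W x
  apply hx0
  have hv : φ v - v ∈ W := by
    rw [← Submodule.Quotient.mk_eq_zero W, Submodule.Quotient.mk_sub, sub_eq_zero]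
    exact hx
  obtain ⟨w', hw', e⟩ := h1 _ hv 1
  rw [one_smul] at e
  have hfix : φ (v - w') = v - w' := by
    rw [map_sub]
    have : φ v - φ w' - (v - w') = (φ v - v) - (φ w' - w') := by abel
    rw [← sub_eq_zero, this, e, sub_self]
  have : v - w' ∈ W := Submodule.subset_span hfix
  rw [Submodule.Quotient.mk_eq_zero]
  have h4 := W.add_mem this hw'
  rwa [sub_add_cancel] at h4



theorem exists_basis_of_span {K : Type*} [Field K] (n : ℕ) (S : Set (Fin n → K))
    (hS : Submodule.span K S = ⊤) :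
    ∃ b : Module.Basis (Fin n) K (Fin n → K), ∀ i, b i ∈ S := by
  obtain ⟨B, hBS, hspan, hli⟩ := exists_linearIndependent K S
  let b0 : Module.Basis B K (Fin n → K) := Module.Basis.mk hli (by
    rw [Subtype.range_coe_subtype]
    simp only [Set.ofPred_mem_eq]
    rw [hspan, hS])
  have : Fintype B := FiniteDimensional.fintypeBasisIndex b0
  have hcard : Fintype.card B = n := by
    rw [← Module.finrank_eq_card_basis b0]; simp
  refine ⟨b0.reindex (Fintype.equivFinOfCardEq hcard), fun i => ?_⟩
  rw [Module.Basis.reindex_apply]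
  simp only [b0, Module.Basis.mk_apply]
  exact hBS (Subtype.coe_prop _)

theorem main {K : Type*} [Field K] [IsAlgClosed K] (σ : K →+* K) (q : ℕ) (hq : 2 ≤ q)
    (hσ : ∀ x, σ x = x ^ q) (n : ℕ) (g : GL (Fin n) K) :
    ∃ x : GL (Fin n) K, g = x * (Matrix.GeneralLinearGroup.map σ x)⁻¹ := by
  let φ : (Fin n → K) →ₛₗ[σ] (Fin n → K) :=
    { toFun := fun v => (g : Matrix (Fin n) (Fin n) K).mulVec (fun i => σ (v i))
      map_add' := fun u v => by
        rw [← Matrix.mulVec_add]; congr 1; ext i; simp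
      map_smul' := fun c v => by
        rw [← Matrix.mulVec_smul]; congr 1; ext i; simp }
  have hφ : Function.Injective φ := by
    intro u v huv
    have h1 : (g : Matrix (Fin n) (Fin n) K).mulVec (fun i => σ (u i))
        = (g : Matrix (Fin n) (Fin n) K).mulVec (fun i => σ (v i)) := huv
    have h2 := congrArg ((g⁻¹ : GL (Fin n) K) : Matrix (Fin n) (Fin n) K).mulVec h1
    rw [Matrix.mulVec_mulVec, Matrix.mulVec_mulVec, ← Units.val_mul, inv_mul_cancel, Units.val_one,
      Matrix.one_mulVec, Matrix.one_mulVec] at h2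
    ext i
    exact σ.injective (congrFun h2 i)
  obtain ⟨b, hb⟩ := exists_basis_of_span n _ (span_fixed σ q hq hσ φ hφ)
  let e := Pi.basisFun K (Fin n)
  let x : GL (Fin n) K := ⟨e.toMatrix b, b.toMatrix e, e.toMatrix_mul_toMatrix_flip b,
    b.toMatrix_mul_toMatrix_flip e⟩
  refine ⟨x, eq_mul_inv_of_mul_eq ?_⟩
  apply Units.ext
  ext i j
  have hj : φ (b j) = b j := hb j
  have := congrFun hj i
  simp only [Units.val_mul, Matrix.mul_apply]
  simpa [φ, x, e, Matrix.mulVec, dotProduct, Module.Basis.toMatrix_apply] using this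


/-- The Lang–Steinberg Theorem for the general linear group. Let `K` be an algebraically closed field of prime characteristic `p`, let `q = p^f` with `f ≥ 1`, and let `σ` be the endomorphism of GL_n(K) raising every matrix entry to the `q`-th power. Then every element `g` of GL_n(K) can be written `g = x · σ(x)⁻¹` for some `x` in GL_n(K): the map `x ↦ x σ(x)⁻¹` is surjective. -/
theorem result {K : Type*} [Field K] [IsAlgClosed K] (p : ℕ) [Fact p.Prime] [CharP K p]
    (f : ℕ) (hf : 1 ≤ f) (n : ℕ) (g : GL (Fin n) K) :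
    ∃ x : GL (Fin n) K, g = x * (Matrix.GeneralLinearGroup.map (iterateFrobenius K p f) x)⁻¹ := by
  refine main (iterateFrobenius K p f) (p ^ f) ?_ (fun x => iterateFrobenius_def p f x) n g
  have hp : 2 ≤ p := (Fact.out : p.Prime).two_le
  calc 2 ≤ p := hp
    _ = p ^ 1 := (pow_one p).symm
    _ ≤ p ^ f := Nat.pow_le_pow_right (by omega) hf

end Cfsg.Agent.S2665
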