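import Cfsg.Statements.S2666
-- import your own Cfsg.Agent.* helpers here

set_option autoImplicit false
open Cfsg

namespace Cfsg.Agent.S2666

theorem fix_pow {X : Type*} [Group X] (σ : MulAut X) (h : X) (hh : σ h = h) (e : ℕ) :
    (σ ^ e) h = h := by
  induction e with
  | zero => simp
  | succ n ih => rw [pow_succ, MulAut.mul_apply, hh, ih]

theorem norm_eq {X : Type*} [Group X] (σ : MulAut X) (a : X) (d : ℕ) :
    ((List.range d).map (fun i => (σ ^ i) (a * (σ a)⁻¹))).prod = a * ((σ ^ d) a)⁻¹ := by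
  induction d with
  | zero => simp
  | succ n ih =>
    rw [List.range_succ, List.map_append, List.prod_append, ih]
    simp only [List.map_cons, List.map_nil, List.prod_cons, List.prod_nil, mul_one, map_mul,
      map_inv]
    rw [pow_succ σ n, MulAut.mul_apply]
    group

theorem comm_pow {X : Type*} [Group X] (σ : MulAut X) (e : ℕ) (a : X) :
    σ ((σ ^ e) a) = (σ ^ e) (σ a) := by
  rw [← MulAut.mul_apply, ← MulAut.mul_apply, ← pow_succ, ← pow_succ']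

theorem x_fixed {X : Type*} [Group X] (σ : MulAut X) (e : ℕ) (a : X)
    (hg : (σ ^ e) (a * (σ a)⁻¹) = a * (σ a)⁻¹) :
    σ (((σ ^ e) a)⁻¹ * a) = ((σ ^ e) a)⁻¹ * a := by
  have hc := comm_pow σ e a
  simp only [map_mul, map_inv] at hg ⊢
  rw [hc]
  have h2 : (σ ^ e) (σ a) = σ a * a⁻¹ * (σ ^ e) a := by
    calc (σ ^ e) (σ a) = ((σ ^ e) a * ((σ ^ e) (σ a))⁻¹)⁻¹ * (σ ^ e) a := by group
      _ = (a * (σ a)⁻¹)⁻¹ * (σ ^ e) a := by rw [hg]
      _ = σ a * a⁻¹ * (σ ^ e) a := by group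
  rw [h2]
  group

theorem part2 {X : Type*} [Group X] (σ : MulAut X) (e : ℕ) (a b : X) :
    ((∃ k, (σ ^ e) k = k ∧ b * (σ b)⁻¹ = k * (a * (σ a)⁻¹) * (σ k)⁻¹) ↔
      (∃ h, σ h = h ∧ ((σ ^ e) b)⁻¹ * b = h * (((σ ^ e) a)⁻¹ * a) * h⁻¹)) := by
  constructor
  · rintro ⟨k, hk, hgk⟩
    have hh : σ (b⁻¹ * k * a) = b⁻¹ * k * a := by
      simp only [map_mul, map_inv]
      calc (σ b)⁻¹ * σ k * σ a = b⁻¹ * (b * (σ b)⁻¹) * σ k * σ a := by group
        _ = b⁻¹ * (k * (a * (σ a)⁻¹) * (σ k)⁻¹) * σ k * σ a := by rw [hgk]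
        _ = b⁻¹ * k * a := by group
    refine ⟨b⁻¹ * k * a, hh, ?_⟩
    have h2 := fix_pow σ _ hh e
    simp only [map_mul, map_inv, hk] at h2
    calc ((σ ^ e) b)⁻¹ * b = (((σ ^ e) b)⁻¹ * k * (σ ^ e) a) * ((σ ^ e) a)⁻¹ * k⁻¹ * b := by group
      _ = (b⁻¹ * k * a) * ((σ ^ e) a)⁻¹ * k⁻¹ * b := by rw [h2]
      _ = b⁻¹ * k * a * (((σ ^ e) a)⁻¹ * a) * (b⁻¹ * k * a)⁻¹ := by group
  · rintro ⟨h, hh, hx⟩
    have h2 := fix_pow σ _ hh e
    refine ⟨b * h * a⁻¹, ?_, ?_⟩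
    · simp only [map_mul, map_inv, h2]
      calc (σ ^ e) b * h * ((σ ^ e) a)⁻¹
          = (σ ^ e) b * (h * (((σ ^ e) a)⁻¹ * a) * h⁻¹) * h * a⁻¹ := by group
        _ = (σ ^ e) b * (((σ ^ e) b)⁻¹ * b) * h * a⁻¹ := by rw [hx]
        _ = b * h * a⁻¹ := by group
    · simp only [map_mul, map_inv, hh]
      group

theorem part3 {X : Type*} [Group X] (σ : MulAut X) (e : ℕ)
    (hLe : ∀ g : X, ∃ a : X, g = a * ((σ ^ e) a)⁻¹) (x : X) (hx : σ x = x) :
    ∃ g, (σ ^ e) g = g ∧ ∃ a : X, g = a * (σ a)⁻¹ ∧ ((σ ^ e) a)⁻¹ * a = x := by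
  obtain ⟨c, hc⟩ := hLe x⁻¹
  have hxa : ((σ ^ e) c⁻¹)⁻¹ * c⁻¹ = x := by
    rw [map_inv, inv_inv, ← inv_inj, hc]; group
  generalize c⁻¹ = a at hxa
  have hea : (σ ^ e) a = a * x⁻¹ := by
    rw [← hxa]; group
  refine ⟨a * (σ a)⁻¹, ?_, a, rfl, hxa⟩
  rw [map_mul, map_inv, ← comm_pow, hea, map_mul, map_inv, hx]
  group

/-- Shintani descent, in an abstract form. Let `σ` be an automorphism of a group `X` such that the maps `a ↦ a·σ(a)⁻¹` and `a ↦ a·σᵉ(a)⁻¹` are surjective on `X` (the Lang–Steinberg property, which holds when `X` is a connected algebraic group and `σ` a Steinberg endomorphism), where `e ≥ 1`. Write `G` for the subgroup of fixed points of `σᵉ` and `H` for the subgroup of fixed points of `σ`. The `G`-conjugacy classes in the coset `G σ` of the semidirect product of `G` by `σ` correspond to the orbits of `G` on itself under twisted conjugation `g ↦ k g σ(k)⁻¹`, and the `e`-th power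 of `g σ` has `G`-part the norm `g σ(g) ⋯ σ^(e-1)(g)`. For `g` in `G` and any `a` with `g = a σ(a)⁻¹`, put `x = σᵉ(a)⁻¹ a`. Then: (1) `x` lies in `H`, and `a⁻¹ · (g σ(g) ⋯ σ^(e-1)(g)) · a = x`; (2) for `g, g'` in `G` with such elements `a, b` and `x, x'`, the elements `g, g'` are twisted-conjugate under `G` if and only if `x, x'` are conjugate in `H`; (3) every element of `H` arises as such an `x`. So `g ↦ x` induces a well-defined bijection from the twisted `G`-classes of `G` onto the conjugacy classes of `H` (the Shintani map). -/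
theorem result {X : Type*} [Group X] (σ : MulAut X) (e : ℕ) (he : 1 ≤ e)
    (hL : ∀ g : X, ∃ a : X, g = a * (σ a)⁻¹) (hLe : ∀ g : X, ∃ a : X, g = a * ((σ ^ e) a)⁻¹) :
    (∀ g ∈ (MulEquiv.toMonoidHom (σ ^ e)).eqLocus (MonoidHom.id X), ∀ a : X, g = a * (σ a)⁻¹ →
        ((σ ^ e) a)⁻¹ * a ∈ (MulEquiv.toMonoidHom σ).eqLocus (MonoidHom.id X) ∧
          a⁻¹ * ((List.range e).map (fun i => (σ ^ i) g)).prod * a = ((σ ^ e) a)⁻¹ * a) ∧
    (∀ g ∈ (MulEquiv.toMonoidHom (σ ^ e)).eqLocus (MonoidHom.id X), ∀ g' ∈ (MulEquiv.toMonoidHom (σ ^ e)).eqLocus (MonoidHom.id X), ∀ a b : X,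
        g = a * (σ a)⁻¹ → g' = b * (σ b)⁻¹ →
          ((∃ k ∈ (MulEquiv.toMonoidHom (σ ^ e)).eqLocus (MonoidHom.id X), g' = k * g * (σ k)⁻¹) ↔
            (∃ h ∈ (MulEquiv.toMonoidHom σ).eqLocus (MonoidHom.id X), ((σ ^ e) b)⁻¹ * b = h * (((σ ^ e) a)⁻¹ * a) * h⁻¹))) ∧
    (∀ x ∈ (MulEquiv.toMonoidHom σ).eqLocus (MonoidHom.id X), ∃ g ∈ (MulEquiv.toMonoidHom (σ ^ e)).eqLocus (MonoidHom.id X), ∃ a : X,
        g = a * (σ a)⁻¹ ∧ ((σ ^ e) a)⁻¹ * a = x) := by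
  have mem : ∀ (τ : MulAut X) (y : X),
      y ∈ (MulEquiv.toMonoidHom τ).eqLocus (MonoidHom.id X) ↔ τ y = y := fun _ _ => Iff.rfl
  simp only [mem]
  refine ⟨?_, ?_, ?_⟩
  · intro g hg a ha
    subst ha
    refine ⟨x_fixed σ e a hg, ?_⟩
    rw [norm_eq]
    group
  · intro g _ g' _ a b ha hb
    subst ha
    subst hb
    exact part2 σ e a b
  · intro x hx
    exact part3 σ e hLe x hx

end Cfsg.Agent.S2666
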