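import Cfsg.Statements.S2667

set_option autoImplicit false
open Cfsg

namespace Cfsg.Agent.S2667

theorem fix_pow {X : Type*} [Group X] (σ : MulAut X) (h : X) (hh : σ h = h) (e : ℕ) :
    (σ ^ e) h = h := by
  induction e with
  | zero => simp
  | succ n ih => rw [pow_succ, MulAut.mul_apply, hh, ih]

theorem aux1 {X : Type*} [Group X] (a a' k k' : X) :
    k * (a * a'⁻¹) * k'⁻¹ = a * a'⁻¹ ↔ a'⁻¹ * k' * a' = a⁻¹ * k * a := by
  rw [mul_inv_eq_iff_eq_mul]
  constructor
  · intro h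
    calc a'⁻¹ * k' * a' = a⁻¹ * (a * a'⁻¹ * k') * a' := by group
      _ = a⁻¹ * (k * (a * a'⁻¹)) * a' := by rw [h]
      _ = a⁻¹ * k * a := by group
  · intro h
    calc k * (a * a'⁻¹) = a * (a⁻¹ * k * a) * a'⁻¹ := by group
      _ = a * (a'⁻¹ * k' * a') * a'⁻¹ := by rw [h]
      _ = a * a'⁻¹ * k' := by group

theorem aux2 {X : Type*} [Group X] (a b k k' : X) (h : b⁻¹ * k' * b = a⁻¹ * k * a) :
    k' = k ↔ (a⁻¹ * k * a) * (b⁻¹ * a) = (b⁻¹ * a) * (a⁻¹ * k * a) := by
  constructor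
  · intro hk
    subst hk
    calc (a⁻¹ * k' * a) * (b⁻¹ * a) = (b⁻¹ * k' * b) * (b⁻¹ * a) := by rw [h]
      _ = (b⁻¹ * a) * (a⁻¹ * k' * a) := by group
  · intro hk
    calc k' = b * (b⁻¹ * k' * b) * b⁻¹ := by group
      _ = b * ((a⁻¹ * k * a) * (b⁻¹ * a)) * a⁻¹ := by rw [h]; group
      _ = b * ((b⁻¹ * a) * (a⁻¹ * k * a)) * a⁻¹ := by rw [hk]
      _ = k := by group

/-- Shintani descent, in an abstract form. Let `σ` be an automorphism of a group `X` and `e ≥ 1` (no surjectivity of the Lang maps is needed for this part; in the classical setting `X` is a connected algebraic group and `σ` a Steinberg endomorphism). Write `G` for the subgroup of fixed points of `σᵉ` and `H` for the subgroup of fixed points of `σ`. The `G`-conjugacy classes in the coset `G σ` of the semidirect product of `G` by `σ` correspond to the orbits of `G` on itself under twisted conjugation `g ↦ k g σ(k)⁻¹`, and the `e`-th power of `g σ` has `G`-part the norm `g σ(g) ⋯ σ^(e-1)(g)`.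 For `g` in `G` and any `a` with `g = a σ(a)⁻¹`, put `x = σᵉ(a)⁻¹ a`. Then conjugation by `a⁻¹` carries the twisted centralizer `{k ∈ G : k g σ(k)⁻¹ = g}` (the centralizer of `g σ` in `G`) exactly onto the centralizer of `x` in `H`: an element `k` of `X` lies in `G` and satisfies `k g σ(k)⁻¹ = g` if and only if `a⁻¹ k a` lies in `H` and commutes with `x`. In particular the two centralizers are conjugate in `X` and have the same order. -/
theorem result {X : Type*} [Group X] (σ : MulAut X) (e : ℕ) (he : 1 ≤ e)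
    (g : X) (hg : g ∈ (MulEquiv.toMonoidHom (σ ^ e)).eqLocus (MonoidHom.id X)) (a : X) (ha : g = a * (σ a)⁻¹) (k : X) :
    (k ∈ (MulEquiv.toMonoidHom (σ ^ e)).eqLocus (MonoidHom.id X) ∧ k * g * (σ k)⁻¹ = g) ↔
      (a⁻¹ * k * a ∈ (MulEquiv.toMonoidHom σ).eqLocus (MonoidHom.id X) ∧
        (a⁻¹ * k * a) * (((σ ^ e) a)⁻¹ * a) = (((σ ^ e) a)⁻¹ * a) * (a⁻¹ * k * a)) := by
  have mem : ∀ (τ : MulAut X) (y : X),
      y ∈ (MulEquiv.toMonoidHom τ).eqLocus (MonoidHom.id X) ↔ τ y = y := fun _ _ => Iff.rfl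
  simp only [mem] at *
  have key1 : k * g * (σ k)⁻¹ = g ↔ σ (a⁻¹ * k * a) = a⁻¹ * k * a := by
    subst ha
    simp only [map_mul, map_inv]
    exact aux1 a (σ a) k (σ k)
  rw [key1, and_comm]
  refine and_congr_right fun hh => ?_
  have h2 := fix_pow σ _ hh e
  simp only [map_mul, map_inv] at h2
  exact aux2 a ((σ ^ e) a) k ((σ ^ e) k) h2

end Cfsg.Agent.S2667
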