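import Cfsg.Statements.S2668

set_option autoImplicit false
open Cfsg

namespace Cfsg.Agent.S2668

theorem fix_pow {X : Type*} [Group X] (σ : MulAut X) (h : X) (hh : σ h = h) (e : ℕ) :
    (σ ^ e) h = h := by
  induction e with
  | zero => simp
  | succ n ih => rw [pow_succ, MulAut.mul_apply, hh, ih]

theorem norm_eq {X : Type*} [Group X] (σ : MulAut X) (a : X) (d : ℕ) :
    ((List.range d).map (fun i => (σ ^ i) (a * (σ a)⁻¹))).prod = a * ((σ ^ d) a)⁻¹ := by
  induction d with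
  | zero => simp
  | succ n ih =>
    rw [List.range_succ, List.map_append, List.prod_append, ih]
    simp only [List.map_cons, List.map_nil, List.prod_cons, List.prod_nil, mul_one, map_mul,
      map_inv]
    rw [pow_succ σ n, MulAut.mul_apply]
    group

theorem x_fixed {X : Type*} [Group X] (σ : MulAut X) (e : ℕ) (a : X)
    (hg : (σ ^ e) (a * (σ a)⁻¹) = a * (σ a)⁻¹) :
    σ (((σ ^ e) a)⁻¹ * a) = ((σ ^ e) a)⁻¹ * a := by
  have hc : σ ((σ ^ e) a) = (σ ^ e) (σ a) := by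
    rw [← MulAut.mul_apply, ← MulAut.mul_apply, ← pow_succ, ← pow_succ']
  simp only [map_mul, map_inv] at hg ⊢
  rw [hc]
  have h2 : (σ ^ e) (σ a) = σ a * a⁻¹ * (σ ^ e) a := by
    calc (σ ^ e) (σ a) = ((σ ^ e) a * ((σ ^ e) (σ a))⁻¹)⁻¹ * (σ ^ e) a := by group
      _ = (a * (σ a)⁻¹)⁻¹ * (σ ^ e) a := by rw [hg]
      _ = σ a * a⁻¹ * (σ ^ e) a := by group
  rw [h2]
  group

theorem pow_desc {X : Type*} [Group X] (τ : MulAut X) (a : X)
    (hx : τ ((τ a)⁻¹ * a) = (τ a)⁻¹ * a) (d : ℕ) :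
    ((τ ^ d) a)⁻¹ * a = ((τ a)⁻¹ * a) ^ d := by
  induction d with
  | zero => simp
  | succ n ih =>
    have h1 : τ a = a * ((τ a)⁻¹ * a)⁻¹ := by group
    have h2 : (τ ^ n) ((τ a)⁻¹ * a) = (τ a)⁻¹ * a := fix_pow τ _ hx n
    have h3 : (τ ^ (n + 1)) a = (τ ^ n) a * ((τ a)⁻¹ * a)⁻¹ := by
      rw [pow_succ, MulAut.mul_apply]
      conv_lhs => rw [h1]
      rw [map_mul, map_inv, h2]
    rw [h3, pow_succ', ← ih]
    group

/-- Shintani descent and powers (abstract form). Let `σ` be an automorphism of a group `X`, `e ≥ 1` and `d ≥ 1`, let `g` be fixed by `σᵉ` and let `a` satisfy `g = a σ(a)⁻¹`, so that the Shintani map of `(X, σ, e)` sends the class of `g σ` to the class of `x = σᵉ(a)⁻¹ a`. Put `h = g σ(g) ⋯ σ^(d-1)(g)`, the part in `X` of the `d`-th power `(g σ)^d = h σ^d`. Then `h = a σ^d(a)⁻¹` (so `a` also serves for `h` with respect to `σ^d`), `h` is fixed by `(σ^d)ᵉ`, and `(σ^d)ᵉ(a)⁻¹ a = x^d`: the Shintani map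 of `(X, σ^d, e)` sends the class of `(g σ)^d` to the class of `x^d`. (When `d` divides `e`, the Shintani map of `(X, σ^d, e/d)` sends it to the class of `x` itself, since `(σ^d)^(e/d) = σᵉ`.) -/
theorem result {X : Type*} [Group X] (σ : MulAut X) (e d : ℕ) (he : 1 ≤ e) (hd : 1 ≤ d)
    (g : X) (hg : g ∈ (MulEquiv.toMonoidHom (σ ^ e)).eqLocus (MonoidHom.id X)) (a : X) (ha : g = a * (σ a)⁻¹) :
    ((List.range d).map (fun i => (σ ^ i) g)).prod = a * ((σ ^ d) a)⁻¹ ∧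
      ((List.range d).map (fun i => (σ ^ i) g)).prod ∈ (MulEquiv.toMonoidHom ((σ ^ d) ^ e)).eqLocus (MonoidHom.id X) ∧
      (((σ ^ d) ^ e) a)⁻¹ * a = (((σ ^ e) a)⁻¹ * a) ^ d := by
  have mem : ∀ (τ : MulAut X) (y : X),
      y ∈ (MulEquiv.toMonoidHom τ).eqLocus (MonoidHom.id X) ↔ τ y = y := fun _ _ => Iff.rfl
  have hg' : (σ ^ e) g = g := (mem _ _).1 hg
  have hpow : (σ ^ d) ^ e = (σ ^ e) ^ d := by rw [← pow_mul, ← pow_mul, mul_comm]
  refine ⟨by subst ha; exact norm_eq σ a d, ?_, ?_⟩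
  · apply Subgroup.list_prod_mem
    intro y hy
    rw [List.mem_map] at hy
    obtain ⟨i, -, rfl⟩ := hy
    rw [mem, hpow]
    apply fix_pow
    rw [← MulAut.mul_apply, ← pow_add, add_comm, pow_add, MulAut.mul_apply, hg']
  · rw [hpow]
    apply pow_desc
    apply fix_pow
    apply x_fixed
    rw [← ha]; exact hg'

end Cfsg.Agent.S2668
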