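import Cfsg.Statements.S2669
-- import your own Cfsg.Agent.* helpers here

set_option autoImplicit false
open Cfsg

namespace Cfsg.Agent.S2669

theorem fix_pow {X : Type*} [Group X] (σ : MulAut X) (h : X) (hh : σ h = h) (e : ℕ) :
    (σ ^ e) h = h := by
  induction e with
  | zero => simp
  | succ n ih => rw [pow_succ, MulAut.mul_apply, hh, ih]

theorem stable_pow {X : Type*} [Group X] (σ : MulAut X) (Y : Subgroup X)
    (hY : ∀ y : X, y ∈ Y ↔ σ y ∈ Y) (e : ℕ) (y : X) : y ∈ Y ↔ (σ ^ e) y ∈ Y := by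
  induction e with
  | zero => simp
  | succ n ih => rw [pow_succ', MulAut.mul_apply, ← hY, ih]

theorem card_pairs {α X : Type*} [Group X] (U : Subgroup X) (F : α → Set X)
    (hF : ∀ k, ∃ h₀ : X, ∀ h, h ∈ F k ↔ h₀⁻¹ * h ∈ U) :
    Nat.card (Σ k, F k) = Nat.card α * Nat.card U := by
  choose h₀ hh using hF
  have e : (Σ k, F k) ≃ α × U :=
    (Equiv.sigmaCongrRight fun k =>
      (Equiv.mulLeft (h₀ k)⁻¹).subtypeEquiv (fun h => hh k h)).trans (Equiv.sigmaEquivProd α U)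
  rw [Nat.card_congr e, Nat.card_prod]

theorem pair_left {X : Type*} [Group X] (σ : MulAut X) (Y : Subgroup X)
    (hY : ∀ y : X, y ∈ Y ↔ σ y ∈ Y) (a k h : X) (hh : σ h = h) (hy : k⁻¹ * a * h ∈ Y) :
    k⁻¹ * (a * (σ a)⁻¹) * σ k ∈ Y := by
  have h1 : σ (k⁻¹ * a * h) ∈ Y := (hY _).1 hy
  have h2 : k⁻¹ * (a * (σ a)⁻¹) * σ k = (k⁻¹ * a * h) * (σ (k⁻¹ * a * h))⁻¹ := by
    simp only [map_mul, map_inv, hh]; group
  rw [h2]
  exact Y.mul_mem hy (Y.inv_mem h1)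

theorem pair_right {X : Type*} [Group X] (τ : MulAut X) (Y : Subgroup X)
    (hY : ∀ y : X, y ∈ Y ↔ τ y ∈ Y) (a k h : X) (hh : τ h = h) (hk : τ k = k)
    (hy : k⁻¹ * a * h ∈ Y) :
    h⁻¹ * ((τ a)⁻¹ * a) * h ∈ Y := by
  have h1 : τ (k⁻¹ * a * h) ∈ Y := (hY _).1 hy
  have h2 : h⁻¹ * ((τ a)⁻¹ * a) * h = (τ (k⁻¹ * a * h))⁻¹ * (k⁻¹ * a * h) := by
    simp only [map_mul, map_inv, hh, hk]; group
  rw [h2]
  exact Y.mul_mem (Y.inv_mem h1) hy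

/-- Shintani descent preserves numbers of fixed points on coset spaces (abstract form). Let `σ` be an automorphism of a group `X` and `e ≥ 1`; write `G` for the fixed points of `σᵉ` and `H` for the fixed points of `σ`, and assume `G` is finite. Let `Y` be a `σ`-stable subgroup of `X` on which the maps `a ↦ a σ(a)⁻¹` and `a ↦ a σᵉ(a)⁻¹` are surjective (as for a closed connected `σ`-stable subgroup of an algebraic group). Let `g ∈ G`, let `a ∈ X` satisfy `g = a σ(a)⁻¹` and put `x = σᵉ(a)⁻¹ a` (the Shintani image, an element of `H`). The element `g σ` of the semidirect product acts on the cosets of `Y ∩ G` in `G` by `k (Y ∩ G) ↦ g σ(k) (Y ∩ G)`, fixing that coset exactly when `k⁻¹ g σ(k) ∈ Y`; and `x` fixes the coset `h (Y ∩ H)` of `H` exactly when `h⁻¹ x h ∈ Y`. Then the two numbers of fixed cosets agree; in cross-multiplied form, `#{k ∈ G : k⁻¹ g σ(k) ∈ Y} · |Y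 ∩ H| = #{h ∈ H : h⁻¹ x h ∈ Y} · |Y ∩ G|`. -/
theorem result {X : Type*} [Group X] (σ : MulAut X) (e : ℕ) (he : 1 ≤ e)
    [Finite ↥((MulEquiv.toMonoidHom (σ ^ e)).eqLocus (MonoidHom.id X))]
    (Y : Subgroup X) (hY : ∀ y : X, y ∈ Y ↔ σ y ∈ Y)
    (hYL : ∀ y ∈ Y, ∃ a ∈ Y, y = a * (σ a)⁻¹) (hYLe : ∀ y ∈ Y, ∃ a ∈ Y, y = a * ((σ ^ e) a)⁻¹)
    (g : X) (hg : g ∈ (MulEquiv.toMonoidHom (σ ^ e)).eqLocus (MonoidHom.id X)) (a : X) (ha : g = a * (σ a)⁻¹) :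
    Nat.card {k : ↥((MulEquiv.toMonoidHom (σ ^ e)).eqLocus (MonoidHom.id X)) // (k : X)⁻¹ * g * σ k ∈ Y} *
        Nat.card ↥(Y ⊓ (MulEquiv.toMonoidHom σ).eqLocus (MonoidHom.id X)) =
      Nat.card {h : ↥((MulEquiv.toMonoidHom σ).eqLocus (MonoidHom.id X)) // (h : X)⁻¹ * (((σ ^ e) a)⁻¹ * a) * h ∈ Y} *
        Nat.card ↥(Y ⊓ (MulEquiv.toMonoidHom (σ ^ e)).eqLocus (MonoidHom.id X)) := by
  have mem : ∀ (τ : MulAut X) (y : X),
      y ∈ (MulEquiv.toMonoidHom τ).eqLocus (MonoidHom.id X) ↔ τ y = y := fun _ _ => Iff.rfl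
  have hYe := stable_pow σ Y hY e
  subst ha
  -- fibres over the first set
  have c1 := card_pairs (Y ⊓ (MulEquiv.toMonoidHom σ).eqLocus (MonoidHom.id X))
    (fun k : {k : ↥((MulEquiv.toMonoidHom (σ ^ e)).eqLocus (MonoidHom.id X)) //
      (k : X)⁻¹ * (a * (σ a)⁻¹) * σ k ∈ Y} => {h : X | σ h = h ∧ (k : X)⁻¹ * a * h ∈ Y}) (by
      rintro ⟨⟨k, hk⟩, hkY⟩
      obtain ⟨y, hyY, hy⟩ := hYL _ hkY
      have hfix : σ (a⁻¹ * k * y) = a⁻¹ * k * y := by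
        simp only [map_mul, map_inv]
        calc (σ a)⁻¹ * σ k * σ y = a⁻¹ * k * (k⁻¹ * (a * (σ a)⁻¹) * σ k) * σ y := by group
          _ = a⁻¹ * k * (y * (σ y)⁻¹) * σ y := by rw [hy]
          _ = a⁻¹ * k * y := by group
      refine ⟨a⁻¹ * k * y, fun h => ?_⟩
      simp only [Set.mem_setOf_eq, Subgroup.mem_inf, mem]
      have e1 : (a⁻¹ * k * y)⁻¹ * h = y⁻¹ * (k⁻¹ * a * h) := by group
      constructor
      · rintro ⟨h1, h2⟩
        refine ⟨?_, ?_⟩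
        · rw [e1]; exact Y.mul_mem (Y.inv_mem hyY) h2
        · rw [map_mul, map_inv, hfix, h1]
      · rintro ⟨h1, h2⟩
        refine ⟨?_, ?_⟩
        · rw [map_mul, map_inv, hfix] at h2
          exact mul_left_cancel h2
        · have : k⁻¹ * a * h = y * ((a⁻¹ * k * y)⁻¹ * h) := by group
          rw [this]; exact Y.mul_mem hyY h1)
  have c2 := card_pairs (Y ⊓ (MulEquiv.toMonoidHom (σ ^ e)).eqLocus (MonoidHom.id X))
    (fun h : {h : ↥((MulEquiv.toMonoidHom σ).eqLocus (MonoidHom.id X)) //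
      (h : X)⁻¹ * (((σ ^ e) a)⁻¹ * a) * h ∈ Y} => {k : X | (σ ^ e) k = k ∧ k⁻¹ * a * (h : X) ∈ Y}) (by
      rintro ⟨⟨h, hh⟩, hhY⟩
      have hh' : (σ ^ e) h = h := fix_pow σ h hh e
      obtain ⟨z, hzY, hz⟩ := hYLe _ (Y.inv_mem hhY)
      have hfix : (σ ^ e) (a * h * z) = a * h * z := by
        simp only [map_mul, hh']
        calc (σ ^ e) a * h * (σ ^ e) z
            = a * h * (h⁻¹ * (((σ ^ e) a)⁻¹ * a) * h)⁻¹ * (σ ^ e) z := by group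
          _ = a * h * (z * ((σ ^ e) z)⁻¹) * (σ ^ e) z := by rw [hz]
          _ = a * h * z := by group
      refine ⟨a * h * z, fun k => ?_⟩
      simp only [Set.mem_setOf_eq, Subgroup.mem_inf, mem]
      have e1 : (a * h * z)⁻¹ * k = z⁻¹ * (k⁻¹ * a * h)⁻¹ := by group
      constructor
      · rintro ⟨h1, h2⟩
        refine ⟨?_, ?_⟩
        · rw [e1]; exact Y.mul_mem (Y.inv_mem hzY) (Y.inv_mem h2)
        · rw [map_mul, map_inv, hfix, h1]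
      · rintro ⟨h1, h2⟩
        refine ⟨?_, ?_⟩
        · rw [map_mul, map_inv, hfix] at h2
          exact mul_left_cancel h2
        · have : k⁻¹ * a * h = ((a * h * z)⁻¹ * k)⁻¹ * z⁻¹ := by group
          rw [this]; exact Y.mul_mem (Y.inv_mem h1) (Y.inv_mem hzY))
  rw [← c1, ← c2]
  refine Nat.card_congr ⟨?_, ?_, ?_, ?_⟩
  · rintro ⟨⟨⟨k, hk⟩, hkY⟩, ⟨h, hh, hy⟩⟩
    exact ⟨⟨⟨h, hh⟩, pair_right (σ ^ e) Y hYe a k h (fix_pow σ h hh e) hk hy⟩, ⟨k, hk, hy⟩⟩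
  · rintro ⟨⟨⟨h, hh⟩, hhY⟩, ⟨k, hk, hy⟩⟩
    exact ⟨⟨⟨k, hk⟩, pair_left σ Y hY a k h hh hy⟩, ⟨h, hh, hy⟩⟩
  · rintro ⟨⟨⟨k, hk⟩, hkY⟩, ⟨h, hh, hy⟩⟩
    rfl
  · rintro ⟨⟨⟨h, hh⟩, hhY⟩, ⟨k, hk, hy⟩⟩
    rfl

end Cfsg.Agent.S2669
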