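import Cfsg.Statements.S2671
import Cfsg.Agent.S2568
import Cfsg.Agent.S2588
import Cfsg.Agent.Lib.Helper48EigMat2

set_option autoImplicit false
open Cfsg

namespace Cfsg.Agent.S2671

open Cfsg.Agent.Lib.Helper48Eig Cfsg.Agent.Lib.Helper48EigMat Cfsg.Agent.Lib.Helper48EigCount
  Cfsg.Agent.Lib.Helper48EigMat2 Cfsg.Agent.Lib.Helper48WallU

/-- the class count in terms of the order `c` of `-q` modulo `r` -/
theorem card_aux {K : Type*} [Field K] [Fintype K] {p q n r c v : ℕ} [Fact p.Prime] [CharP K p]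
    (hK : Fintype.card K = q ^ 2) (hr : r.Prime) (hrp : r ≠ p) (hcop : q.Coprime r)
    (hc : orderOf (-(ZMod.unitOfCoprime q hcop)) = c)
    (hv : v * c = r - 1) :
    Nat.card {C : ConjClasses ↥(Cfsg.GU n K q) // ∃ g : ↥(Cfsg.GU n K q),
      ConjClasses.mk g = C ∧ orderOf g = r} = Nat.choose (n / c + v) v - 1 := by
  have hp : p.Prime := Fact.out
  have _ : Fact r.Prime := ⟨hr⟩
  obtain ⟨⟨ζ, hζ⟩, hfrob⟩ := Cfsg.Agent.S2568.exists_setup K p r hr hrp
  obtain ⟨e, _, he⟩ := FiniteField.card K p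
  obtain ⟨Φ, hΦ⟩ := hfrob e
  rw [← he] at hΦ
  obtain ⟨m, _, hm⟩ := (Nat.dvd_prime_pow hp).1 (show q ∣ p ^ (e : ℕ) by
    rw [← he, hK]; exact Dvd.intro_left (q ^ 1) (by ring))
  obtain ⟨Ψ, hΨ⟩ := hfrob m
  rw [← hm] at hΨ
  obtain ⟨φ, hφq, hφ2, ω, hω⟩ := exists_frob hK
  have hrp' : r.Coprime p := (Nat.coprime_primes hr hp).2 hrp
  set u : (ZMod r)ˣ := ZMod.unitOfCoprime q hcop with hu
  have huq : (q : ZMod r) = u := rfl
  set w : (ZMod r)ˣ := -u with hw
  have hwQ : ((Fintype.card K : ℕ) : ZMod r) = (w * w : (ZMod r)ˣ) := by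
    rw [hK, hw, neg_mul_neg, Units.val_mul, ← huq]
    push_cast
    ring
  -- the multiplicity function of the dual element
  have hdual : ∀ (M M' : Matrix (Fin n) (Fin n) K) (a : ZMod r → ℕ), HasMult ζ M a → M * M' = 1 →
      HasMult ζ (sth φ M') (fun k => a ((w⁻¹ : (ZMod r)ˣ).1 * k)) := by
    intro M M' a h hMM'
    have h1 := ((h.inv hζ.pow_eq_one hMM').map hζ.pow_eq_one q φ hφq Ψ hΨ u huq).transpose
    have h2 : (fun k => a (-((u⁻¹ : (ZMod r)ˣ).1 * k))) = fun k => a ((w⁻¹ : (ZMod r)ˣ).1 * k) := by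
      funext k
      rw [hw, inv_neg, Units.val_neg, neg_mul]
    rw [← h2]
    exact h1
  rw [← card_invariant_ne w c v n hc hv]
  apply Cfsg.Agent.Lib.Helper48JordanClass.card_classes
    (fun (g : ↥(Cfsg.GU n K q)) (a : ZMod r → ℕ) => HasMult ζ g.1.1 a)
  · intro g hg
    refine exists_hasMult hζ g.1.1 ((Cfsg.Agent.S2568.gl_pow_eq_one g.1 r).1 ?_)
    rw [← SubgroupClass.coe_pow, ← hg, pow_orderOf_eq_one]
    rfl
  · intro g g' a h h'
    obtain ⟨P, hP⟩ := h.conj p hrp' h'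
    obtain ⟨y, hy, hyc⟩ := conj_GU hK g.1 g'.1 g.2 g'.2 P (by
      rw [mul_inv_eq_iff_eq_mul]
      exact Units.ext hP)
    rw [isConj_iff]
    exact ⟨⟨y, hy⟩, Subtype.ext hyc⟩
  · intro g g' a a' h h' hc
    rw [isConj_iff] at hc
    obtain ⟨P, hP⟩ := hc
    rw [mul_inv_eq_iff_eq_mul] at hP
    exact h.unique hζ h' P.1 (congrArg (fun x : ↥(Cfsg.GU n K q) => x.1.1) hP)
  · rintro a ⟨⟨hinv, hsum⟩, _⟩
    obtain ⟨M, hM⟩ := exists_matrix p ζ hζ.pow_eq_one Φ hΦ (w * w) hwQ n a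
      (fun k => by rw [Units.val_mul, mul_assoc, hinv, hinv]) hsum
    have h1 : M * M ^ (r - 1) = 1 := by
      rw [← pow_succ', Nat.sub_add_cancel hr.one_le, hM.1]
    have h1' : M ^ (r - 1) * M = 1 := mul_eq_one_comm.1 h1
    have h2 := hdual M _ a hM h1
    have h3 : (fun k => a ((w⁻¹ : (ZMod r)ˣ).1 * k)) = a := by
      funext k
      rw [← hinv, ← mul_assoc, Units.mul_inv, one_mul]
    rw [h3] at h2
    obtain ⟨c₀, hc₀⟩ := hM.conj p hrp' h2
    obtain ⟨P, hP⟩ := Cfsg.Agent.S2588.exists_conj_GU hK φ hφq hφ2 ω hω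
      (⟨M, M ^ (r - 1), h1, h1'⟩ : GL (Fin n) K) c₀ (by
        change sth φ M * c₀.1 * M = c₀.1
        rw [mul_assoc, hc₀, ← mul_assoc, ← sth_mul, h1', sth_one, one_mul])
    refine ⟨⟨_, hP⟩, ?_⟩
    exact Cfsg.Agent.Lib.Helper48EigMat2.HasMult.conj_units hM P.1 (P⁻¹ : GL (Fin n) K).1
      (by rw [← Units.val_mul, mul_inv_cancel, Units.val_one])
      (by rw [← Units.val_mul, inv_mul_cancel, Units.val_one])
  · intro g a h
    have h1 : g = 1 ↔ a = Pi.single 0 n := by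
      have h0 := h.eq_one_iff p hrp' hζ
      rw [Fintype.card_fin] at h0
      rw [← h0]
      exact ⟨fun hg => by rw [hg]; rfl, fun hg => Subtype.ext (Units.ext hg)⟩
    have hgr : g ^ r = 1 ↔ g.1.1 ^ r = 1 := by
      rw [← Cfsg.Agent.S2568.gl_pow_eq_one, Subtype.ext_iff]
      rfl
    constructor
    · intro hg
      refine ⟨⟨?_, by rw [h.sum, Fintype.card_fin]⟩, ?_⟩
      · have h2 : sth φ g.1.1 * g.1.1 = 1 := (mem_GU_iff' hK φ hφq g.1).1 g.2
        have h3 : g.1.1 * sth φ g.1.1 = 1 := mul_eq_one_comm.1 h2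
        have h4 := hdual g.1.1 _ a h h3
        rw [sth_sth φ hφ2] at h4
        have h5 := h.unique hζ h4 1 (by simp)
        intro k
        have h6 := congrFun h5 (w.1 * k)
        rw [← mul_assoc, Units.inv_mul, one_mul] at h6
        exact h6
      · intro ha
        rw [h1.2 ha, orderOf_one] at hg
        exact hr.one_lt.ne hg
    · rintro ⟨_, hne⟩
      exact orderOf_eq_prime (hgr.2 h.1) (fun hg => hne (h1.1 hg))


theorem result {K : Type*} [Field K] [Fintype K] {p q n r i b s : ℕ} [Fact p.Prime] [CharP K p] (hK : Fintype.card K = q ^ 2) (hr : r.Prime) (hr2 : r ≠ 2) (hrp : r ≠ p) (hi : i = orderOf (q : ZMod r)) (hi2 : i ≠ 2) (hb : b = if Odd i then i else i / 2) (hs : s * b = r - 1) : Nat.card {C : ConjClasses ↥(Cfsg.GU n K q) // ∃ g : ↥(Cfsg.GU n K q), ConjClasses.mk g = C ∧ orderOf g = r} = if i % 4 = 2 then Nat.choose (2 * n / i + s) s - 1 else Nat.choose (n / (2 * b) + s / 2) (s / 2) - 1 := by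
  have hp : p.Prime := Fact.out
  have _ : Fact r.Prime := ⟨hr⟩
  have hcop : q.Coprime r := by
    obtain ⟨e, _, he⟩ := FiniteField.card K p
    have h1 : (q ^ 2).Coprime r := by
      rw [← hK, he]
      exact ((Nat.coprime_primes hp hr).2 hrp.symm).pow_left _
    exact Nat.Coprime.coprime_dvd_left (Dvd.intro_left (q ^ 1) (by ring)) h1
  have hord : orderOf (ZMod.unitOfCoprime q hcop) = i := by rw [hi, ← orderOf_units]; rfl
  have hc := orderOf_neg_unit hr2 (ZMod.unitOfCoprime q hcop) i hord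
  have hi0 : 0 < i := by rw [← hord]; exact orderOf_pos _
  by_cases h4 : i % 4 = 2
  · rw [if_pos h4] at hc ⊢
    have hno : ¬ Odd i := by
      rw [Nat.not_odd_iff_even, Nat.even_iff]; omega
    rw [if_neg hno] at hb
    rw [card_aux hK hr hrp hcop hc (hb ▸ hs)]
    have h5 : 2 * n / i = n / (i / 2) := by
      have h6 : i = 2 * (i / 2) := by omega
      conv_lhs => rw [h6]
      exact Nat.mul_div_mul_left n (i / 2) (by norm_num)
    rw [h5]
  · rw [if_neg h4] at hc ⊢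
    have hc2 : orderOf (-(ZMod.unitOfCoprime q hcop)) = 2 * b := by
      rw [hc, hb]
      by_cases ho : Odd i
      · rw [if_pos ho, if_pos ho]
      · rw [if_neg ho, if_neg ho]
        rw [Nat.not_odd_iff_even, Nat.even_iff] at ho
        omega
    have hb0 : 0 < b := by
      have := orderOf_pos (-(ZMod.unitOfCoprime q hcop))
      omega
    have hdvd : 2 * b ∣ s * b := by
      rw [hs, ← hc2, ← ZMod.card_units r]
      exact orderOf_dvd_card
    have h2s : 2 ∣ s := Nat.dvd_of_mul_dvd_mul_right hb0 hdvd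
    have hv : s / 2 * (2 * b) = r - 1 := by
      rw [← mul_assoc, Nat.div_mul_cancel h2s, hs]
    rw [card_aux hK hr hrp hcop hc2 hv]

end Cfsg.Agent.S2671
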