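import Cfsg.Statements.S2672
import Cfsg.Agent.Lib.Helper48Proj
import Cfsg.Agent.Lib.Helper7SUCenter
import Cfsg.Agent.S2568
import Cfsg.Agent.S2588
import Cfsg.Agent.Lib.Helper48EigMat2

set_option autoImplicit false
open Cfsg

namespace Cfsg.Agent.S2672

open Cfsg.Agent.Lib.Helper48Eig Cfsg.Agent.Lib.Helper48EigMat Cfsg.Agent.Lib.Helper48Scal
  Cfsg.Agent.Lib.Helper48Proj Cfsg.Agent.Lib.Helper48WallU

/-- Number of conjugacy classes of elements of odd prime order r in PGU_n(q) = GU_n(q)/scalars (n ≥ 3) when r divides q + 1: as in the linear case with q − 1 replaced by q + 1, the classes correspond to the rotation orbits on r-tuples of eigenvalue multiplicities summing to n with every entry < n, plus r − 1 further classes when r divides n; in all (C(n+r−1, r−1) − r − [r ∣ n])/r + r·[r ∣ n]. -/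
theorem result {K : Type*} [Field K] [Fintype K] {q n r : ℕ} (hK : Fintype.card K = q ^ 2) (hn : 3 ≤ n) (hr : r.Prime) (hr2 : r ≠ 2) (hrq : r ∣ q + 1) : Nat.card {C : ConjClasses (↥(Cfsg.GU n K q) ⧸ Subgroup.center ↥(Cfsg.GU n K q)) // ∃ g : ↥(Cfsg.GU n K q) ⧸ Subgroup.center ↥(Cfsg.GU n K q), ConjClasses.mk g = C ∧ orderOf g = r} = (Nat.choose (n + r - 1) (r - 1) - r - (if r ∣ n then 1 else 0)) / r + r * (if r ∣ n then 1 else 0) := by
  obtain ⟨p, hchar⟩ := CharP.exists K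
  have hp : p.Prime := CharP.char_is_prime K p
  have _ : Fact p.Prime := ⟨hp⟩
  have _ : Fact r.Prime := ⟨hr⟩
  have hq2 := Cfsg.Agent.Lib.Helper7Herm.two_le_q hK
  have hQ : q ^ 2 - 1 = (q + 1) * (q - 1) := by
    obtain ⟨q', rfl⟩ : ∃ q', q = q' + 1 := ⟨q - 1, by omega⟩
    simp only [Nat.add_sub_cancel]
    have : (q' + 1) ^ 2 = (q' + 1 + 1) * q' + 1 := by ring
    omega
  have hrQ : r ∣ q ^ 2 - 1 := by rw [hQ]; exact Dvd.dvd.mul_right hrq _
  have hrp' : r.Coprime p := by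
    have h1 := Cfsg.Agent.Lib.Helper45Semisimple.coprime_card_sub_one (F := K) p
    rw [hK] at h1
    exact Nat.Coprime.coprime_dvd_left hrQ h1
  have hrp : r ≠ p := (Nat.coprime_primes hr hp).1 hrp'
  obtain ⟨⟨ζ, hζ⟩, hfrob⟩ := Cfsg.Agent.S2568.exists_setup K p r hr hrp
  obtain ⟨e, _, he⟩ := FiniteField.card K p
  obtain ⟨Φ, hΦ⟩ := hfrob e
  rw [← he] at hΦ
  obtain ⟨m, _, hm⟩ := (Nat.dvd_prime_pow hp).1 (show q ∣ p ^ (e : ℕ) by
    rw [← he, hK]; exact Dvd.intro_left (q ^ 1) (by ring))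
  obtain ⟨Ψ, hΨ⟩ := hfrob m
  rw [← hm] at hΨ
  obtain ⟨φ, hφq, hφ2, ω, hω⟩ := exists_frob hK
  have huQ : ((Fintype.card K : ℕ) : ZMod r) = ((1 : (ZMod r)ˣ) : ZMod r) := by
    rw [hK, Units.val_one]
    have : q ^ 2 = (q ^ 2 - 1) + 1 := by
      have : 1 ≤ q ^ 2 := Nat.one_le_pow _ _ (by omega)
      omega
    rw [this, Nat.cast_add, (ZMod.natCast_eq_zero_iff _ _).2 hrQ, zero_add, Nat.cast_one]
  have huq : (q : ZMod r) = ((-1 : (ZMod r)ˣ) : ZMod r) := by
    rw [Units.val_neg, Units.val_one, eq_neg_iff_add_eq_zero]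
    have := (ZMod.natCast_eq_zero_iff _ _).2 hrq
    rwa [Nat.cast_add, Nat.cast_one] at this
  set C : Subgroup Kˣ := (powMonoidHom (q + 1) : Kˣ →* Kˣ).ker with hC
  have hCmem : ∀ u : Kˣ, u ∈ C ↔ u ^ (q + 1) = 1 := fun u => by
    rw [hC, MonoidHom.mem_ker, powMonoidHom_apply]
  -- roots of unity lie in `C`
  have hz : ∀ k : ZMod r, ∃ c : C, algebraMap K (AlgebraicClosure K) ((c : Kˣ) : K) = zp ζ k := by
    intro k
    obtain ⟨m', hm'⟩ := hrQ
    have h1 : (zp ζ k) ^ Fintype.card K = zp ζ k := by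
      have : Fintype.card K = r * m' + 1 := by rw [hK]; have : 1 ≤ q ^ 2 := Nat.one_le_pow _ _ (by omega); omega
      rw [this, pow_succ, pow_mul, zp_pow ζ hζ.pow_eq_one, one_pow, one_mul]
    obtain ⟨c, hc⟩ := mem_range_of_pow_card (K := K) _ h1
    have hc0 : c ≠ 0 := by
      rintro rfl
      rw [map_zero] at hc
      exact zp_ne_zero ζ hζ.pow_eq_one k hc.symm
    refine ⟨⟨Units.mk0 c hc0, ?_⟩, hc⟩
    rw [hCmem]
    apply Units.ext
    apply (algebraMap K (AlgebraicClosure K)).injective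
    obtain ⟨t, ht⟩ := hrq
    rw [Units.val_pow_eq_pow_val, Units.val_mk0, map_pow, hc, ht, pow_mul, zp_pow ζ hζ.pow_eq_one,
      one_pow, Units.val_one, map_one]
  choose zc hzc using hz
  obtain ⟨γ, hγ⟩ := IsCyclic.exists_generator (α := C)
  have hrC : r ∣ Nat.card C := by
    have h1 : orderOf (zc 1) = r := by
      apply orderOf_eq_prime
      · apply Subtype.ext
        apply Units.ext
        apply (algebraMap K (AlgebraicClosure K)).injective
        rw [Subgroup.coe_pow, Units.val_pow_eq_pow_val, map_pow, hzc, zp_pow ζ hζ.pow_eq_one,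
          Subgroup.coe_one, Units.val_one, map_one]
      · intro h
        have h2 := hzc 1
        rw [h, Subgroup.coe_one, Units.val_one, map_one, ← zp_zero (r := r) ζ] at h2
        exact zero_ne_one (zp_injective hζ h2)
    rw [← h1]
    exact orderOf_dvd_natCard _
  have hcop : r.Coprime (q - 1) := by
    rw [Nat.Prime.coprime_iff_not_dvd hr]
    intro h
    have h3 : r ∣ (q + 1) - (q - 1) := Nat.dvd_sub hrq h
    have h4 : (q + 1) - (q - 1) = 2 := by omega
    rw [h4] at h3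
    exact hr2 ((Nat.prime_dvd_prime_iff_eq hr Nat.prime_two).1 h3)
  have hnp : ∀ j : ZMod r, j ≠ 0 → ∀ b : K, b ^ r ≠ (((γ ^ j.val : C) : Kˣ) : K) := by
    intro j hj b hb
    have hb0 : b ≠ 0 := by
      rintro rfl
      rw [zero_pow hr.ne_zero] at hb
      exact Units.ne_zero _ hb.symm
    set b' : Kˣ := Units.mk0 b hb0 with hb'
    have hbr : b' ^ r = ((γ ^ j.val : C) : Kˣ) := Units.ext hb
    have hbC : b' ∈ C := by
      rw [hCmem]
      have h1 : (b' ^ (q + 1)) ^ r = 1 := by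
        rw [← pow_mul, mul_comm, pow_mul, hbr]
        exact (hCmem _).1 (γ ^ j.val).2
      have h2 : (b' ^ (q + 1)) ^ (q - 1) = 1 := by
        rw [← pow_mul, ← hQ, ← hK]
        apply Units.ext
        rw [Units.val_pow_eq_pow_val, Units.val_one]
        exact FiniteField.pow_card_sub_one_eq_one _ hb0
      have h3 := Nat.dvd_gcd (orderOf_dvd_of_pow_eq_one h1) (orderOf_dvd_of_pow_eq_one h2)
      rw [hcop.gcd_eq_one, Nat.dvd_one, orderOf_eq_one_iff] at h3
      exact h3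
    apply hj
    apply rep_unique γ hγ r hrC j 0 ⟨b', hbC⟩
    rw [ZMod.val_zero, pow_zero, one_mul]
    apply Subtype.ext
    rw [← hbr]
    rfl
  have hsmem : ∀ u : C, Matrix.GeneralLinearGroup.scalar (Fin n) u.1 ∈ Cfsg.GU n K q := by
    intro u
    rw [mem_GU_iff' hK φ hφq, Matrix.GeneralLinearGroup.coe_scalar, Matrix.scalar_apply,
      ← Matrix.smul_one_eq_diagonal, sth_smul, sth_one, smul_mul_smul_comm, one_mul, hφq,
      ← pow_succ, ← Units.val_pow_eq_pow_val, (hCmem _).1 u.2, Units.val_one, one_smul]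
  apply card_proj_classes p (Cfsg.GU n K q).subtype Subtype.val_injective C
    (fun u => ⟨Matrix.GeneralLinearGroup.scalar (Fin n) u.1, hsmem u⟩) ?_ ?_ γ hγ hrC ?_ ζ hζ zc hzc
    ?_ hnp ?_ (by omega) hrp
  · intro u
    change (Matrix.GeneralLinearGroup.scalar (Fin n) u.1).1 = _
    rw [Matrix.GeneralLinearGroup.coe_scalar, Matrix.scalar_apply, Matrix.smul_one_eq_diagonal]
  · intro g
    constructor
    · intro hg
      have hZ : ∀ M : Matrix (Fin n) (Fin n) K, M.det = 1 → Cfsg.Agent.Lib.Helper7GU.IsU n K q M →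
          M * g.1.1 = g.1.1 * M := by
        intro M hM hU
        have hM0 : M.det ≠ 0 := by rw [hM]; exact one_ne_zero
        have h1 := Subgroup.mem_center_iff.1 hg ⟨Matrix.GeneralLinearGroup.mkOfDetNeZero M hM0,
          (Cfsg.Agent.Lib.Helper7GU.mem_GU_iff hK _).2 hU⟩
        exact congrArg (fun x : ↥(Cfsg.GU n K q) => x.1.1) h1
      have h2 := Cfsg.Agent.Lib.Helper7SUCenter.eq_scalar_of_commute hK g.1.1 hZ ⟨0, by omega⟩
      set c := g.1.1 ⟨0, by omega⟩ ⟨0, by omega⟩ with hc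
      rw [Matrix.scalar_apply, ← Matrix.smul_one_eq_diagonal] at h2
      have h3 := (mem_GU_iff' hK φ hφq g.1).1 g.2
      rw [h2, sth_smul, sth_one, smul_mul_smul_comm, one_mul, hφq, ← pow_succ] at h3
      have h4 : c ^ (q + 1) = 1 := smul_one_inj (n := n) (by omega) _ 1 (by rw [h3, one_smul])
      have hc0 : c ≠ 0 := by
        intro h0
        rw [h0, zero_pow (by omega)] at h4
        exact zero_ne_one h4
      refine ⟨⟨Units.mk0 c hc0, (hCmem _).2 (Units.ext (by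
        rw [Units.val_pow_eq_pow_val, Units.val_mk0, h4, Units.val_one]))⟩, ?_⟩
      apply Subtype.ext
      apply Units.ext
      rw [h2]
      change _ = (Matrix.GeneralLinearGroup.scalar (Fin n) (Units.mk0 c hc0)).1
      rw [Matrix.GeneralLinearGroup.coe_scalar, Matrix.scalar_apply, Matrix.smul_one_eq_diagonal,
        Units.val_mk0]
    · rintro ⟨u, rfl⟩
      rw [Subgroup.mem_center_iff]
      intro h
      apply Subtype.ext
      exact (Matrix.GeneralLinearGroup.scalar_commute u.1 h.1).symm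
  · rintro g g' ⟨P, hP⟩
    obtain ⟨y, hy, hyc⟩ := conj_GU hK g.1 g'.1 g.2 g'.2 P (by
      rw [mul_inv_eq_iff_eq_mul]
      exact Units.ext hP)
    rw [isConj_iff]
    exact ⟨⟨y, hy⟩, Subtype.ext hyc⟩
  · intro a ha
    obtain ⟨M, hM⟩ := exists_matrix p ζ hζ.pow_eq_one Φ hΦ 1 huQ n a (fun k => by simp) ha
    have h1 : M * M ^ (r - 1) = 1 := by
      rw [← pow_succ', Nat.sub_add_cancel hr.one_le, hM.1]
    have h1' : M ^ (r - 1) * M = 1 := mul_eq_one_comm.1 h1
    have h2 := ((hM.inv hζ.pow_eq_one h1).map hζ.pow_eq_one q φ hφq Ψ hΨ (-1) huq).transpose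
    have h3 : (fun k => a (-(((-1 : (ZMod r)ˣ)⁻¹ : (ZMod r)ˣ).1 * k))) = a := by
      funext k
      congr 1
      simp
    rw [h3] at h2
    obtain ⟨c₀, hc₀⟩ := hM.conj p hrp' h2
    obtain ⟨P, hP⟩ := Cfsg.Agent.S2588.exists_conj_GU hK φ hφq hφ2 ω hω
      (⟨M, M ^ (r - 1), h1, h1'⟩ : GL (Fin n) K) c₀ (by
        change sth φ M * c₀.1 * M = c₀.1
        have hc₀' : c₀.1 * M = sth φ (M ^ (r - 1)) * c₀.1 := hc₀
        rw [mul_assoc, hc₀', ← mul_assoc, ← sth_mul, h1', sth_one, one_mul])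
    refine ⟨⟨_, hP⟩, ?_⟩
    exact Cfsg.Agent.Lib.Helper48EigMat2.HasMult.conj_units hM P.1 (P⁻¹ : GL (Fin n) K).1
      (by rw [← Units.val_mul, mul_inv_cancel, Units.val_one])
      (by rw [← Units.val_mul, inv_mul_cancel, Units.val_one])
  · rintro ⟨k, hk⟩ j hj
    obtain ⟨M, hM⟩ := exists_of_dvd p hr _ (hnp j hj) n k (by rw [hk, mul_comm])
    set c : Kˣ := ((γ ^ j.val : C) : Kˣ) with hc
    have hcq : c ^ (q + 1) = 1 := (hCmem _).1 (γ ^ j.val).2
    set M' := ((c⁻¹ : Kˣ) : K) • M ^ (r - 1) with hM'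
    have h1 : M * M' = 1 := by
      rw [hM', Matrix.mul_smul, ← pow_succ', Nat.sub_add_cancel hr.one_le, hM, smul_smul,
        Units.inv_mul, one_smul]
    have h1' : M' * M = 1 := mul_eq_one_comm.1 h1
    have hM'r : M' ^ r = ((c⁻¹ : Kˣ) : K) • 1 := by
      have hcomm : Commute M' M := by rw [Commute, SemiconjBy, h1, h1']
      have h5 : M' ^ r * M ^ r = 1 := by rw [← hcomm.mul_pow, h1', one_pow]
      rw [hM, Matrix.mul_smul, mul_one] at h5
      calc M' ^ r = ((c⁻¹ : Kˣ) : K) • ((c : K) • M' ^ r) := by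
            rw [smul_smul, Units.inv_mul, one_smul]
        _ = _ := by rw [h5]
    have hpow : ∀ (X : Matrix (Fin n) (Fin n) K) (t : ℕ), sth φ (X ^ t) = (sth φ X) ^ t := by
      intro X t
      induction t with
      | zero => rw [pow_zero, pow_zero, sth_one]
      | succ t ih => rw [pow_succ, sth_mul, ih, pow_succ']
    have hN : (sth φ M') ^ r = (c : K) • 1 := by
      rw [← hpow, hM'r, sth_smul, sth_one, hφq]
      congr 1
      rw [← Units.val_pow_eq_pow_val]
      congr 1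
      rw [inv_pow, inv_eq_iff_mul_eq_one, ← pow_succ, hcq]
    obtain ⟨c₀, hc₀⟩ := conj_of_pow_eq p hr hrp _ (hnp j hj) M (sth φ M') hM hN
    obtain ⟨P, hP⟩ := Cfsg.Agent.S2588.exists_conj_GU hK φ hφq hφ2 ω hω
      (⟨M, M', h1, h1'⟩ : GL (Fin n) K) c₀ (by
        change sth φ M * c₀.1 * M = c₀.1
        rw [mul_assoc, hc₀, ← mul_assoc, ← sth_mul, h1', sth_one, one_mul])
    refine ⟨⟨_, hP⟩, ?_⟩
    change (P * (⟨M, M', h1, h1'⟩ : GL (Fin n) K) * P⁻¹).1 ^ r = _
    rw [← Units.val_pow_eq_pow_val, conj_pow, Units.val_mul, Units.val_mul,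
      Units.val_pow_eq_pow_val]
    change P.1 * M ^ r * _ = _
    rw [hM, Matrix.mul_smul, mul_one, Matrix.smul_mul, ← Units.val_mul, mul_inv_cancel,
      Units.val_one]

end Cfsg.Agent.S2672
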