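import Cfsg.Statements.S2673
import Cfsg.Agent.S2568
import Cfsg.Agent.Lib.Helper48OrthCount
import Cfsg.Agent.Lib.Helper49OddForm

set_option autoImplicit false
open Cfsg

namespace Cfsg.Agent.S2673

open Matrix Cfsg.Agent.Lib.Helper48Eig Cfsg.Agent.Lib.Helper48EigMat
  Cfsg.Agent.Lib.Helper48EigCount Cfsg.Agent.Lib.Helper48EigMat2 Cfsg.Agent.Lib.Helper48OrthConj
  Cfsg.Agent.Lib.Helper48QuadEx Cfsg.Agent.Lib.Helper48OrthCount Cfsg.Agent.Lib.Helper49Forms
  Cfsg.Agent.Lib.Helper49OddForm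

/-- the class count in terms of a unit `w` generating `⟨q, -1⟩` modulo `r` -/
theorem card_aux {F : Type*} [Field F] [Fintype F] {p q : ℕ} [Fact p.Prime] [CharP F p]
    (hF : Fintype.card F = q) (hq : Odd q) (m r c v : ℕ) (hr : r.Prime) (hr2 : r ≠ 2) (hrp : r ≠ p)
    (hcop : q.Coprime r) (w : (ZMod r)ˣ)
    (hw : ∀ a : ZMod r → ℕ, (∀ k, a (w.1 * k) = a k) ↔
      (∀ k, a ((ZMod.unitOfCoprime q hcop).1 * k) = a k) ∧ ∀ k, a (-k) = a k)
    (hc : orderOf w = c) (hv : v * c = r - 1) :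
    Nat.card {C : ConjClasses ↥(Cfsg.isometryGroup F (Cfsg.quadFormOdd m F)) //
      ∃ g : ↥(Cfsg.isometryGroup F (Cfsg.quadFormOdd m F)), ConjClasses.mk g = C ∧ orderOf g = r}
      = Nat.choose ((2 * m + 1) / c + v) v - 1 := by
  have hp : p.Prime := Fact.out
  have _ : Fact r.Prime := ⟨hr⟩
  obtain ⟨⟨ζ, hζ⟩, hfrob⟩ := Cfsg.Agent.S2568.exists_setup F p r hr hrp
  obtain ⟨e, _, he⟩ := FiniteField.card F p
  obtain ⟨Φ, hΦ⟩ := hfrob e
  rw [← he] at hΦ
  have hrp' : r.Coprime p := (Nat.coprime_primes hr hp).2 hrp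
  have hodd : Odd r := hr.odd_of_ne_two hr2
  set u : (ZMod r)ˣ := ZMod.unitOfCoprime q hcop with hu
  have huq : ((Fintype.card F : ℕ) : ZMod r) = u := by rw [hF]; rfl
  have h2 : (2 : F) ≠ 0 := two_ne_zero_of_odd hF hq
  have hQ := QOdd_nondegenerate h2 m
  have hcard : Fintype.card (Unit ⊕ (Fin m ⊕ Fin m)) = 2 * m + 1 := by
    simp [two_mul, add_comm]
  rw [← coe_QOdd, card_classes_orth (QOdd m F) hQ hr2 hrp hζ,
    ← card_invariant_ne w c v (2 * m + 1) hc hv, hcard]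
  apply Nat.card_congr
  apply Equiv.subtypeEquivRight
  intro a
  constructor
  · rintro ⟨hne, g, hg⟩
    refine ⟨⟨?_, by rw [hg.sum, hcard]⟩, hne⟩
    rw [hw a]
    exact ⟨hg.invariant hζ Φ hΦ u huq, hasMult_neg (QOdd m F) hQ hζ g hg⟩
  · rintro ⟨⟨hinv, hsum⟩, hne⟩
    refine ⟨hne, ?_⟩
    obtain ⟨h1, h3⟩ := (hw a).1 hinv
    obtain ⟨f0, fdec, fu, fneg, fsum⟩ := update_facts u a h1 h3
    obtain ⟨M, Z, hM, hZ, hinvZ⟩ := exists_nonfixed p hrp' hodd hζ Φ hΦ u huq _ f0 fu fneg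
    have hZ₀ : IsUnit ((1 : Matrix (Fin (a 0)) (Fin (a 0)) F) + 1ᵀ) := by
      apply IsUnit.of_mul_eq_one ((2 : F)⁻¹ • (1 : Matrix (Fin (a 0)) (Fin (a 0)) F))
      rw [Matrix.transpose_one, ← two_smul F (1 : Matrix (Fin (a 0)) (Fin (a 0)) F),
        smul_mul_smul_comm, mul_inv_cancel₀ h2, one_smul, one_mul]
    let e : Fin (a 0) ⊕ Fin (∑ k, Function.update a 0 0 k) ≃ Unit ⊕ (Fin m ⊕ Fin m) :=
      Fintype.equivOfCardEq (by
        rw [hcard, ← hsum, ← fsum]
        simp)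
    obtain ⟨b1, b2, b3⟩ := block hM hZ hinvZ 1 hZ₀ e
    rw [← fdec] at b1
    set M3 := Matrix.reindex e e (fromBlocks 1 0 0 M) with hM3
    set Z3 := Matrix.reindex e e (fromBlocks 1 0 0 Z) with hZ3
    obtain ⟨T, c₀, _, hT⟩ := similar_of_odd h2 (by rw [hcard]; exact ⟨m, rfl⟩) (qf Z3) (QOdd m F)
      (nondeg_qf Z3 b2) hQ
    have hMM' : M3 * M3 ^ (r - 1) = 1 := by
      rw [← pow_succ', Nat.sub_add_cancel hr.one_lt.le, b1.1]
    obtain ⟨g, P, P', hPP', hP'P, hg⟩ := exists_iso_of_similar (QOdd m F) (qf Z3) T c₀ hT M3 _ hMM'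
      (qf_inv Z3 M3 b3)
    refine ⟨g, ?_⟩
    rw [hg]
    exact Cfsg.Agent.Lib.Helper48EigMat2.HasMult.conj_units b1 P P' hPP' hP'P

/-- Number of conjugacy classes of elements of odd prime order r ≠ p in the orthogonal group O_(2m+1)(q) of x_0² + Σ x_j y_j, q odd: with i the multiplicative order of q mod r and t = (r − 1)/i, there are C(⌊m/i⌋ + t/2, t/2) − 1 classes if i is odd (dual pairs of totally singular i-blocks) and C(⌊(2m+1)/i⌋ + t, t) − 1 if i is even (elliptic i-blocks). -/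
theorem result {F : Type*} [Field F] [Fintype F] {p q : ℕ} [Fact p.Prime] [CharP F p] (hF : Fintype.card F = q) (hq : Odd q) (m r i t : ℕ) (hr : r.Prime) (hr2 : r ≠ 2) (hrp : r ≠ p) (hi : i = orderOf (q : ZMod r)) (ht : t * i = r - 1) : Nat.card {C : ConjClasses ↥(Cfsg.isometryGroup F (Cfsg.quadFormOdd m F)) // ∃ g : ↥(Cfsg.isometryGroup F (Cfsg.quadFormOdd m F)), ConjClasses.mk g = C ∧ orderOf g = r} = if Odd i then Nat.choose (m / i + t / 2) (t / 2) - 1 else Nat.choose ((2 * m + 1) / i + t) t - 1 := by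
  have hp : p.Prime := Fact.out
  have _ : Fact r.Prime := ⟨hr⟩
  have hcop : q.Coprime r := by
    obtain ⟨e, _, he⟩ := FiniteField.card F p
    rw [← hF, he]
    exact ((Nat.coprime_primes hp hr).2 hrp.symm).pow_left _
  set u := ZMod.unitOfCoprime q hcop with hu
  have hord : orderOf u = i := by rw [hi, ← orderOf_units]; rfl
  have hi0 : 0 < i := by rw [← hord]; exact orderOf_pos _
  by_cases ho : Odd i
  · rw [if_pos ho]
    have hc : orderOf (-u) = 2 * i := by
      rw [orderOf_neg_unit hr2 u i hord, if_neg, if_pos ho]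
      obtain ⟨j, hj⟩ := ho
      omega
    have hdvd : 2 * i ∣ t * i := by
      rw [ht, ← hc, ← ZMod.card_units r]
      exact orderOf_dvd_card
    have h2t : 2 ∣ t := Nat.dvd_of_mul_dvd_mul_right hi0 hdvd
    have hv : t / 2 * (2 * i) = r - 1 := by
      rw [← mul_assoc, Nat.div_mul_cancel h2t, ht]
    have hdiv : (2 * m + 1) / (2 * i) = m / i := by
      rw [← Nat.div_div_eq_div_mul]
      congr 1
      omega
    rw [card_aux hF hq m r (2 * i) (t / 2) hr hr2 hrp hcop (-u) ?_ hc hv, hdiv]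
    intro a
    constructor
    · intro h
      have h1 : ∀ k, a (-k) = a k := by
        intro k
        have h2 := invariant_pow (-u) a h i k
        rw [neg_pow, ← hord, pow_orderOf_eq_one, mul_one, hord, ho.neg_one_pow, Units.val_neg,
          Units.val_one, neg_one_mul] at h2
        exact h2
      refine ⟨fun k => ?_, h1⟩
      rw [← h1, ← neg_mul, ← Units.val_neg, h]
    · rintro ⟨h1, h2⟩ k
      rw [Units.val_neg, neg_mul, h2, h1]
  · rw [if_neg ho]
    rw [card_aux hF hq m r i t hr hr2 hrp hcop u ?_ hord ht]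
    intro a
    constructor
    · intro h
      refine ⟨h, fun k => ?_⟩
      rw [Nat.not_odd_iff_even] at ho
      obtain ⟨b, hb⟩ := ho
      have h2 := invariant_pow u a h b k
      rw [pow_half_eq_neg_one u b (by omega) (by rw [hord, hb, two_mul]), Units.val_neg,
        Units.val_one, neg_one_mul] at h2
      exact h2
    · exact fun h => h.1

end Cfsg.Agent.S2673
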