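import Cfsg.Statements.S2674
import Cfsg.Agent.Lib.Helper48OrthFinal

set_option autoImplicit false
open Cfsg

namespace Cfsg.Agent.S2674

open Cfsg.Agent.Lib.Helper48EigCount Cfsg.Agent.Lib.Helper48EigMat2
  Cfsg.Agent.Lib.Helper48OrthFinal

/-- Number of conjugacy classes of elements of odd prime order r ≠ p in the orthogonal group O⁺_2m(q) of Σ x_j y_j (m ≥ 1): with i the multiplicative order of q mod r and t = (r − 1)/i — if i is odd, C(⌊m/i⌋ + t/2, t/2) − 1; if i is even, C(⌊2m/i⌋ + t, t) − 1 minus, when i divides 2m with odd quotient, the C(2m/i + t − 1, t − 1) tuples using the whole space (an odd number of elliptic i-blocks fills an elliptic, not a hyperbolic, space). -/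
theorem result {F : Type*} [Field F] [Fintype F] {p q : ℕ} [Fact p.Prime] [CharP F p] (hF : Fintype.card F = q) (m r i t : ℕ) (hm : 1 ≤ m) (hr : r.Prime) (hr2 : r ≠ 2) (hrp : r ≠ p) (hi : i = orderOf (q : ZMod r)) (ht : t * i = r - 1) : Nat.card {C : ConjClasses ↥(Cfsg.isometryGroup F (Cfsg.quadFormPlus m F)) // ∃ g : ↥(Cfsg.isometryGroup F (Cfsg.quadFormPlus m F)), ConjClasses.mk g = C ∧ orderOf g = r} = if Odd i then Nat.choose (m / i + t / 2) (t / 2) - 1 else Nat.choose (2 * m / i + t) t - 1 - (if i ∣ 2 * m ∧ Odd (2 * m / i) then Nat.choose (2 * m / i + t - 1) (t - 1) else 0) := by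
  have hp : p.Prime := Fact.out
  have _ : Fact r.Prime := ⟨hr⟩
  have hcop : q.Coprime r := by
    obtain ⟨e, _, he⟩ := FiniteField.card F p
    rw [← hF, he]
    exact ((Nat.coprime_primes hp hr).2 hrp.symm).pow_left _
  set u := ZMod.unitOfCoprime q hcop with hu
  have hord : orderOf u = i := by rw [hi, ← orderOf_units]; rfl
  have hi0 : 0 < i := by rw [← hord]; exact orderOf_pos _
  by_cases ho : Odd i
  · rw [if_pos ho]
    have hc : orderOf (-u) = 2 * i := by
      rw [orderOf_neg_unit hr2 u i hord, if_neg, if_pos ho]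
      obtain ⟨j, hj⟩ := ho
      omega
    have hdvd : 2 * i ∣ t * i := by
      rw [ht, ← hc, ← ZMod.card_units r]
      exact orderOf_dvd_card
    have h2t : 2 ∣ t := Nat.dvd_of_mul_dvd_mul_right hi0 hdvd
    have hv : t / 2 * (2 * i) = r - 1 := by
      rw [← mul_assoc, Nat.div_mul_cancel h2t, ht]
    have hw : ∀ a : ZMod r → ℕ, (∀ k, a ((-u).1 * k) = a k) ↔
        (∀ k, a (u.1 * k) = a k) ∧ ∀ k, a (-k) = a k := by
      intro a
      constructor
      · intro h
        have h1 : ∀ k, a (-k) = a k := by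
          intro k
          have h2 := invariant_pow (-u) a h i k
          rw [neg_pow, ← hord, pow_orderOf_eq_one, mul_one, hord, ho.neg_one_pow, Units.val_neg,
            Units.val_one, neg_one_mul] at h2
          exact h2
        refine ⟨fun k => ?_, h1⟩
        rw [← h1, ← neg_mul, ← Units.val_neg, h]
      · rintro ⟨h1, h2⟩ k
        rw [Units.val_neg, neg_mul, h2, h1]
    rw [card_plus hF m r (2 * i) (t / 2) hm hr hr2 hrp hcop (-u) hw hc hv,
      Nat.mul_div_mul_left m i (by norm_num), ← hi]
    have h0 : (if i ∣ m then 0 else if 2 * i ∣ 2 * m then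
        Nat.choose (m / i + t / 2 - 1) (t / 2 - 1) else 0) = 0 := by
      split_ifs with h1 h2
      · rfl
      · exact absurd (Nat.dvd_of_mul_dvd_mul_left (by norm_num) h2) h1
      · rfl
    rw [h0, Nat.sub_zero]
  · rw [if_neg ho]
    have hw : ∀ a : ZMod r → ℕ, (∀ k, a (u.1 * k) = a k) ↔
        (∀ k, a (u.1 * k) = a k) ∧ ∀ k, a (-k) = a k := by
      intro a
      constructor
      · intro h
        refine ⟨h, fun k => ?_⟩
        rw [Nat.not_odd_iff_even] at ho
        obtain ⟨b, hb⟩ := ho
        have h2 := invariant_pow u a h b k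
        rw [pow_half_eq_neg_one u b (by omega) (by rw [hord, hb, two_mul]), Units.val_neg,
          Units.val_one, neg_one_mul] at h2
        exact h2
      · exact fun h => h.1
    rw [card_plus hF m r i t hm hr hr2 hrp hcop u hw hord ht, ← hi]
    congr 1
    by_cases h1 : i ∣ m
    · rw [if_pos h1, if_neg]
      rintro ⟨_, h3⟩
      rw [Nat.mul_div_assoc 2 h1] at h3
      exact (Nat.not_odd_iff_even.2 (even_two_mul _)) h3
    · rw [if_neg h1]
      by_cases h2 : i ∣ 2 * m
      · have h5 : Odd (2 * m / i) := by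
          rw [← Nat.not_even_iff_odd]
          rintro ⟨s, hs⟩
          apply h1
          refine ⟨s, ?_⟩
          have h3 := Nat.div_mul_cancel h2
          rw [hs] at h3
          have h4 : 2 * (i * s) = 2 * m := by rw [← h3]; ring
          omega
        rw [if_pos h2, if_pos ⟨h2, h5⟩]
      · rw [if_neg h2, if_neg (fun h => h2 h.1)]

end Cfsg.Agent.S2674
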