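import Cfsg.Statements.S2677
import Cfsg.Agent.S2636
import Cfsg.Agent.Lib.Helper7GU

set_option autoImplicit false
open Cfsg

namespace Cfsg.Agent.S2677

open Cfsg.Agent.S2636 Cfsg.Agent.Lib Matrix

variable {K : Type*} [Field K] [Fintype K] {n : ℕ}

theorem pow_q_eq (σ : K ≃+* K) {q₀ q r : ℕ} (hc : Nat.card (F0 σ) = q₀ ^ 2) (hrodd : Odd r)
    (hq : q = q₀ ^ r) (x : F0 σ) : x ^ q = x ^ q₀ := by
  classical
  let _ : Fintype (F0 σ) := Fintype.ofFinite _
  obtain ⟨k, rfl⟩ := hrodd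
  have h1 : x ^ ((q₀ ^ 2) ^ k) = x := by
    have := FiniteField.pow_card_pow k x
    rwa [← Nat.card_eq_fintype_card, hc] at this
  rw [hq, pow_succ, pow_mul, pow_mul, h1]

omit [Fintype K] in
theorem gram (σ : K ≃+* K) {q q₀ : ℕ} (hpow : ∀ x : F0 σ, x ^ q = x ^ q₀) (d : Kˣ)
    (h : GL (Fin n) (F0 σ)) (i j : Fin n) :
    (((Phi σ n (d, h)) : Matrix (Fin n) (Fin n) K)ᵀ
      * ((Phi σ n (d, h)) : Matrix (Fin n) (Fin n) K).map (fun x => x ^ q)) i j
    = (d : K) ^ (q + 1) * ((((h : Matrix (Fin n) (Fin n) (F0 σ))ᵀ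
      * (h : Matrix (Fin n) (Fin n) (F0 σ)).map (fun x => x ^ q₀)) i j : F0 σ) : K) := by
  simp only [Matrix.mul_apply, Matrix.transpose_apply, Matrix.map_apply, Phi_apply]
  rw [AddSubmonoidClass.coe_finsetSum, Finset.mul_sum]
  apply Finset.sum_congr rfl
  intro k _
  have h1 : ((h k j : F0 σ) : K) ^ q = ((h k j : F0 σ) : K) ^ q₀ := by
    exact_mod_cast congrArg Subtype.val (hpow (h k j))
  rw [mul_pow, h1]
  push_cast
  ring


section
variable (σ : K ≃+* K) {q q₀ : ℕ}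

theorem mem_GU_of (hK : Fintype.card K = q ^ 2) (hc : Nat.card (F0 σ) = q₀ ^ 2)
    (hpow : ∀ x : F0 σ, x ^ q = x ^ q₀) (d : Kˣ) (h : GL (Fin n) (F0 σ))
    (hg : Phi σ n (d, h) ∈ Cfsg.GU n K q) (hd : (d : K) ^ (q + 1) = 1) :
    h ∈ Cfsg.GU n (F0 σ) q₀ := by
  classical
  let _ : Fintype (F0 σ) := Fintype.ofFinite _
  have hc' : Fintype.card (F0 σ) = q₀ ^ 2 := by rw [← Nat.card_eq_fintype_card, hc]
  rw [Helper7GU.mem_GU_iff hc']
  have hU := (Helper7GU.mem_GU_iff hK _).1 hg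
  unfold Helper7GU.IsU at hU ⊢
  ext i j
  have h1 := gram σ hpow d h i j
  rw [hU, hd, one_mul] at h1
  rw [← h1]
  by_cases hij : i = j
  · subst hij; simp
  · simp [hij]

theorem mem_GU_of' (hK : Fintype.card K = q ^ 2) (hc : Nat.card (F0 σ) = q₀ ^ 2)
    (hpow : ∀ x : F0 σ, x ^ q = x ^ q₀) (d : Kˣ) (h : GL (Fin n) (F0 σ))
    (hh : h ∈ Cfsg.GU n (F0 σ) q₀) (hd : (d : K) ^ (q + 1) = 1) :
    Phi σ n (d, h) ∈ Cfsg.GU n K q := by
  classical
  let _ : Fintype (F0 σ) := Fintype.ofFinite _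
  have hc' : Fintype.card (F0 σ) = q₀ ^ 2 := by rw [← Nat.card_eq_fintype_card, hc]
  rw [Helper7GU.mem_GU_iff hK]
  have hU := (Helper7GU.mem_GU_iff hc' _).1 hh
  unfold Helper7GU.IsU at hU ⊢
  ext i j
  rw [gram σ hpow d h i j, hU, hd, one_mul]
  by_cases hij : i = j
  · subst hij; simp
  · simp [hij]

theorem exists_adjust (hn : 1 ≤ n) (hK : Fintype.card K = q ^ 2) (hc : Nat.card (F0 σ) = q₀ ^ 2)
    (hpow : ∀ x : F0 σ, x ^ q = x ^ q₀) (d : Kˣ) (h : GL (Fin n) (F0 σ))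
    (hg : Phi σ n (d, h) ∈ Cfsg.GU n K q) :
    ∃ e : (F0 σ)ˣ, ((d : K) * ((e : F0 σ) : K)) ^ (q + 1) = 1 := by
  classical
  have : NeZero n := ⟨by omega⟩
  let _ : Fintype (F0 σ) := Fintype.ofFinite _
  have hc' : Fintype.card (F0 σ) = q₀ ^ 2 := by rw [← Nat.card_eq_fintype_card, hc]
  have hq := Helper7Herm.two_le_q hK
  have hq₀ := Helper7Herm.two_le_q hc'
  have hU := (Helper7GU.mem_GU_iff hK _).1 hg
  unfold Helper7GU.IsU at hU
  have h1 := gram σ hpow d h 0 0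
  rw [hU, Matrix.one_apply_eq] at h1
  set l : F0 σ := ((h : Matrix (Fin n) (Fin n) (F0 σ))ᵀ
      * (h : Matrix (Fin n) (Fin n) (F0 σ)).map (fun x => x ^ q₀)) 0 0 with hl
  have hl0 : l ≠ 0 := by
    intro h0
    rw [h0] at h1
    simp at h1
  have hdq : ((d : K) ^ (q + 1)) ^ q = (d : K) ^ (q + 1) := by
    rw [← pow_mul, add_mul, one_mul, ← sq, pow_add, ← hK, FiniteField.pow_card, pow_succ, mul_comm]
  have hlq : l ^ q₀ = l := by
    rw [← hpow]
    apply Subtype.ext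
    push_cast
    have hd0 : (d : K) ^ (q + 1) ≠ 0 := pow_ne_zero _ d.ne_zero
    have h2 : (l : K) = ((d : K) ^ (q + 1))⁻¹ := eq_inv_of_mul_eq_one_right h1.symm
    rw [h2, inv_pow, hdq]
  have hl1 : (Units.mk0 l hl0) ^ (q₀ - 1) = 1 := by
    apply Units.ext
    simp only [Units.val_pow_eq_pow_val, Units.val_mk0, Units.val_one]
    have h3 : l ^ (q₀ - 1) * l = l := by
      rw [← pow_succ, Nat.sub_add_cancel (by omega)]; exact hlq
    exact mul_right_cancel₀ hl0 (by rw [h3, one_mul])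
  obtain ⟨e, he⟩ := Helper7Herm.exists_norm_eq hc' (Units.mk0 l hl0) hl1
  refine ⟨e, ?_⟩
  have he' : (e : F0 σ) ^ (q₀ + 1) = l := by
    have := congrArg Units.val he
    simpa using this
  have he2 : ((e : F0 σ) : K) ^ (q + 1) = (l : K) := by
    have h4 : (e : F0 σ) ^ (q + 1) = l := by
      rw [pow_succ, hpow, ← pow_succ, he']
    exact_mod_cast congrArg Subtype.val h4
  rw [mul_pow, he2, ← h1]

end


section
variable (σ : K ≃+* K) {q q₀ : ℕ}

/-- the domain subgroup: unitary scalars times the unitary group over the fixed field. -/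
noncomputable def DD (σ : K ≃+* K) (n q q₀ : ℕ) : Subgroup (Kˣ × GL (Fin n) (F0 σ)) :=
  ((powMonoidHom (q + 1) : Kˣ →* Kˣ).ker).prod (Cfsg.GU n (F0 σ) q₀)

omit [Fintype K] in
theorem mem_DD (d : Kˣ) (h : GL (Fin n) (F0 σ)) :
    (d, h) ∈ DD σ n q q₀ ↔ (d : K) ^ (q + 1) = 1 ∧ h ∈ Cfsg.GU n (F0 σ) q₀ := by
  unfold DD
  rw [Subgroup.mem_prod, MonoidHom.mem_ker]
  simp only [powMonoidHom_apply]
  rw [Units.ext_iff]
  simp

theorem mem_map_iff (hn : 1 ≤ n) (hK : Fintype.card K = q ^ 2) (hc : Nat.card (F0 σ) = q₀ ^ 2)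
    (hpow : ∀ x : F0 σ, x ^ q = x ^ q₀) (g : GL (Fin n) K) :
    g ∈ (DD σ n q q₀).map (Phi σ n) ↔ g ∈ Cfsg.GU n K q ∧ ∃ c : K, c ≠ 0 ∧
      (g : Matrix (Fin n) (Fin n) K).map σ = c • (g : Matrix (Fin n) (Fin n) K) := by
  constructor
  · rintro ⟨⟨d, h⟩, hdh, rfl⟩
    obtain ⟨hd, hh⟩ := (mem_DD σ d h).1 hdh
    exact ⟨mem_GU_of' σ hK hc hpow d h hh hd, (mem_range_Phi σ hn _).1 ⟨(d, h), rfl⟩⟩
  · rintro ⟨hg, hP⟩
    obtain ⟨⟨d, h⟩, rfl⟩ := (mem_range_Phi σ hn g).2 hP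
    obtain ⟨e, he⟩ := exists_adjust σ hn hK hc hpow d h hg
    have hker : Phi σ n (iota σ n e) = 1 := by
      have : iota σ n e ∈ (Phi σ n).ker := by
        rw [← range_iota σ hn]; exact ⟨e, rfl⟩
      exact this
    have hmul : Phi σ n ((d, h) * iota σ n e) = Phi σ n (d, h) := by
      rw [map_mul, hker, mul_one]
    refine ⟨(d, h) * iota σ n e, ?_, hmul⟩
    have h1 : (d, h) * iota σ n e = (d * (iota σ n e).1, h * (iota σ n e).2) := rfl
    rw [h1] at hmul ⊢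
    have h2 : ((d * (iota σ n e).1 : Kˣ) : K) ^ (q + 1) = 1 := he
    change _ ∈ DD σ n q q₀
    rw [mem_DD]
    refine ⟨h2, mem_GU_of σ hK hc hpow _ _ ?_ h2⟩
    rw [hmul]; exact hg

theorem card_ker (hn : 1 ≤ n) (hK : Fintype.card K = q ^ 2) (hc : Nat.card (F0 σ) = q₀ ^ 2)
    (hpow : ∀ x : F0 σ, x ^ q = x ^ q₀) :
    Nat.card ((Phi σ n).ker.subgroupOf (DD σ n q q₀)) = q₀ + 1 := by
  classical
  let _ : Fintype (F0 σ) := Fintype.ofFinite _
  have hc' : Fintype.card (F0 σ) = q₀ ^ 2 := by rw [← Nat.card_eq_fintype_card, hc]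
  have hkey : ∀ a : (F0 σ)ˣ, a ^ (q₀ + 1) = 1 ↔ (((iota σ n a).1 : Kˣ) : K) ^ (q + 1) = 1 := by
    intro a
    have h1 : (((iota σ n a).1 : Kˣ) : K) = ((a : F0 σ) : K) := rfl
    have h2 : (a : F0 σ) ^ (q + 1) = (a : F0 σ) ^ (q₀ + 1) := by
      rw [pow_succ, hpow, ← pow_succ]
    rw [h1, Units.ext_iff]
    constructor
    · intro h
      have h3 : (a : F0 σ) ^ (q + 1) = 1 := by rw [h2]; simpa using h
      exact_mod_cast congrArg Subtype.val h3
    · intro h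
      have h3 : (a : F0 σ) ^ (q + 1) = 1 := by
        apply Subtype.ext
        exact_mod_cast h
      rw [h2] at h3
      simpa using h3
  have hker : ∀ a, Phi σ n (iota σ n a) = 1 := by
    intro a
    have : iota σ n a ∈ (Phi σ n).ker := by
      rw [← range_iota σ hn]; exact ⟨a, rfl⟩
    exact this
  have hmemD : ∀ a : (powMonoidHom (q₀ + 1) : (F0 σ)ˣ →* (F0 σ)ˣ).ker,
      iota σ n a.1 ∈ DD σ n q q₀ := by
    intro a
    have ha : a.1 ^ (q₀ + 1) = 1 := a.2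
    have h1 := (hkey a.1).1 ha
    have h2 : iota σ n a.1 = ((iota σ n a.1).1, (iota σ n a.1).2) := rfl
    rw [h2, mem_DD]
    refine ⟨h1, mem_GU_of σ hK hc hpow _ _ ?_ h1⟩
    rw [← h2, hker]
    exact one_mem _
  let f : (powMonoidHom (q₀ + 1) : (F0 σ)ˣ →* (F0 σ)ˣ).ker →
      ((Phi σ n).ker.subgroupOf (DD σ n q q₀)) :=
    fun a => ⟨⟨iota σ n a.1, hmemD a⟩, by
      rw [Subgroup.mem_subgroupOf]
      exact hker a.1⟩
  have hf : Function.Bijective f := by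
    constructor
    · intro a b hab
      have h1 : iota σ n a.1 = iota σ n b.1 := congrArg (fun z => z.1.1) hab
      exact Subtype.ext (iota_injective σ n h1)
    · rintro ⟨⟨x, hxD⟩, hxk⟩
      rw [Subgroup.mem_subgroupOf] at hxk
      have hx : x ∈ (iota σ n).range := by
        rw [range_iota σ hn]; exact hxk
      obtain ⟨a, rfl⟩ := hx
      have h2 : iota σ n a = ((iota σ n a).1, (iota σ n a).2) := rfl
      rw [h2, mem_DD] at hxD
      exact ⟨⟨a, (hkey a).2 hxD.1⟩, rfl⟩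
  rw [← Nat.card_congr (Equiv.ofBijective f hf), IsCyclic.card_powMonoidHom_ker,
    Helper7Herm.card_units hc', Nat.gcd_eq_right (Dvd.intro_left _ rfl)]

end

/-- Centraliser of a field automorphism of odd prime order in PGU_n(q): let q = q₀^r with r an odd prime, K the field with q² elements and σ a field automorphism of K of order r (fixed field of order q₀²). The elements g of GU_n(q) whose entrywise image under σ is a scalar multiple of g — those whose coset modulo the q + 1 unitary scalars is fixed by σ — number (q + 1)/(q₀ + 1) · |GU_n(q₀)|; equivalently the centraliser in PGU_n(q) of the induced automorphism has the order of PGU_n(q₀). -/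
theorem result {K : Type*} [Field K] [Fintype K] {q₀ q r n : ℕ} (hr : r.Prime) (hr2 : r ≠ 2) (hn : 1 ≤ n) (hq : q = q₀ ^ r) (hK : Fintype.card K = q ^ 2) (σ : K ≃+* K) (hσ : orderOf σ = r) : (Nat.card {g : ↥(Cfsg.GU n K q) // ∃ c : K, c ≠ 0 ∧ ((g : GL (Fin n) K) : Matrix (Fin n) (Fin n) K).map σ = c • ((g : GL (Fin n) K) : Matrix (Fin n) (Fin n) K)} : ℤ) = ((q + 1) / (q₀ + 1) : ℕ) * ((q₀ : ℤ) ^ (n * (n - 1) / 2) * ∏ i : Fin n, ((q₀ : ℤ) ^ ((i : ℕ) + 1) - (-1) ^ ((i : ℕ) + 1))) := by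
  classical
  have hrodd : Odd r := hr.odd_of_ne_two hr2
  have hc : Nat.card (F0 σ) = q₀ ^ 2 := by
    apply card_F0 σ hr _ hσ
    rw [hK, hq, ← pow_mul, ← pow_mul, mul_comm]
  let _ : Fintype (F0 σ) := Fintype.ofFinite _
  have hc' : Fintype.card (F0 σ) = q₀ ^ 2 := by rw [← Nat.card_eq_fintype_card, hc]
  have hq₀ := Helper7Herm.two_le_q hc'
  have hpow := pow_q_eq σ hc hrodd hq
  have h1 : Nat.card {g : ↥(Cfsg.GU n K q) // ∃ c : K, c ≠ 0 ∧ ((g : GL (Fin n) K) : Matrix (Fin n) (Fin n) K).map σ = c • ((g : GL (Fin n) K) : Matrix (Fin n) (Fin n) K)} = Nat.card ((DD σ n q q₀).map (Phi σ n)) := by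
    refine Nat.card_congr ((Equiv.subtypeSubtypeEquivSubtypeInter (· ∈ Cfsg.GU n K q)
      (fun g : GL (Fin n) K => ∃ c : K, c ≠ 0 ∧ (g : Matrix (Fin n) (Fin n) K).map σ = c • (g : Matrix (Fin n) (Fin n) K))).trans ?_)
    exact Equiv.subtypeEquivRight (fun g => (mem_map_iff σ hn hK hc hpow g).symm)
  have h2 := card_ker (n := n) σ hn hK hc hpow
  have h3 : Nat.card ((Phi σ n).ker.subgroupOf (DD σ n q q₀))
      * Nat.card ((DD σ n q q₀).map (Phi σ n)) = Nat.card (DD σ n q q₀) := by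
    rw [← MonoidHom.ker_domRestrict, ← MonoidHom.domRestrict_range, ← Subgroup.index_ker,
      Subgroup.card_mul_index]
  have h4 : Nat.card (DD σ n q q₀) = (q + 1) * Nat.card (Cfsg.GU n (F0 σ) q₀) := by
    unfold DD
    rw [Nat.card_congr (Subgroup.prodEquiv _ _).toEquiv, Nat.card_prod,
      IsCyclic.card_powMonoidHom_ker, Helper7Herm.card_units hK,
      Nat.gcd_eq_right (Dvd.intro_left _ rfl)]
  obtain ⟨k, hk⟩ : q₀ + 1 ∣ q + 1 := by
    have := Odd.nat_add_dvd_pow_add_pow q₀ 1 hrodd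
    rwa [one_pow, ← hq] at this
  rw [h2, h4, hk, mul_assoc] at h3
  have h5 := Nat.eq_of_mul_eq_mul_left (by omega) h3
  rw [h1, h5, hk, Nat.mul_div_cancel_left _ (by omega), Helper7GU.card_GU hc']
  push_cast
  congr 2
  rw [Finset.prod_range (fun x => (if Even x then (q₀ : ℤ) ^ (x + 1) + 1 else ((q₀ ^ (x + 1) - 1 : ℕ) : ℤ)))]
  apply Finset.prod_congr rfl
  intro i _
  by_cases hi : Even (i : ℕ)
  · rw [if_pos hi, (Even.add_one hi).neg_one_pow]
    ring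
  · rw [if_neg hi]
    have hi' : Even ((i : ℕ) + 1) := (Nat.not_even_iff_odd.1 hi).add_one
    rw [hi'.neg_one_pow, Nat.cast_sub (Nat.one_le_pow _ _ (by omega))]
    push_cast
    ring

end Cfsg.Agent.S2677
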