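import Cfsg.Statements.S2678
-- import your own Cfsg.Agent.* helpers here

set_option autoImplicit false
open Cfsg

namespace Cfsg.Agent.S2678

open Matrix

section thmA
variable {F K l L : Type*} [CommRing F] [CommRing K] [Fintype l] [DecidableEq l] [Fintype L]
  [DecidableEq L]

def Psi0 (φ : Matrix l l K →+* Matrix L L F) (A : Matrix (l ⊕ l) (l ⊕ l) K) :
    Matrix (L ⊕ L) (L ⊕ L) F :=
  fromBlocks (φ A.toBlocks₁₁) (φ A.toBlocks₁₂) (φ A.toBlocks₂₁) (φ A.toBlocks₂₂)

theorem Psi0_fromBlocks (φ : Matrix l l K →+* Matrix L L F) (A B C D : Matrix l l K) :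
    Psi0 φ (fromBlocks A B C D) = fromBlocks (φ A) (φ B) (φ C) (φ D) := by
  simp [Psi0]

theorem exists_blocks (A : Matrix (l ⊕ l) (l ⊕ l) K) :
    ∃ A11 A12 A21 A22 : Matrix l l K, A = fromBlocks A11 A12 A21 A22 :=
  ⟨_, _, _, _, (fromBlocks_toBlocks A).symm⟩

theorem Psi0_mul (φ : Matrix l l K →+* Matrix L L F) (A B : Matrix (l ⊕ l) (l ⊕ l) K) :
    Psi0 φ (A * B) = Psi0 φ A * Psi0 φ B := by
  obtain ⟨A11, A12, A21, A22, rfl⟩ := exists_blocks A
  obtain ⟨B11, B12, B21, B22, rfl⟩ := exists_blocks B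
  simp [fromBlocks_multiply, Psi0_fromBlocks]

theorem Psi0_one (φ : Matrix l l K →+* Matrix L L F) : Psi0 φ 1 = 1 := by
  rw [← fromBlocks_one, Psi0_fromBlocks]; simp

theorem Psi0_J (φ : Matrix l l K →+* Matrix L L F) : Psi0 φ (J l K) = J L F := by
  rw [J, Psi0_fromBlocks]; simp [J]

theorem Psi0_transpose (φ : Matrix l l K →+* Matrix L L F) (D : Matrix L L F)
    (hT : ∀ B, (φ B)ᵀ * D = D * φ Bᵀ) (A : Matrix (l ⊕ l) (l ⊕ l) K) :
    (Psi0 φ A)ᵀ * fromBlocks D 0 0 D = fromBlocks D 0 0 D * Psi0 φ Aᵀ := by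
  obtain ⟨A11, A12, A21, A22, rfl⟩ := exists_blocks A
  simp [fromBlocks_multiply, Psi0_fromBlocks, fromBlocks_transpose, hT]

theorem Psi0_injective (φ : Matrix l l K →+* Matrix L L F) (hφ : Function.Injective φ) :
    Function.Injective (Psi0 φ) := by
  intro A B h
  obtain ⟨A11, A12, A21, A22, rfl⟩ := exists_blocks A
  obtain ⟨B11, B12, B21, B22, rfl⟩ := exists_blocks B
  simp only [Psi0_fromBlocks, fromBlocks_inj] at h ⊢
  exact ⟨hφ h.1, hφ h.2.1, hφ h.2.2.1, hφ h.2.2.2⟩

theorem thmA (φ : Matrix l l K →+* Matrix L L F) (hφ : Function.Injective φ) (D D' : Matrix L L F)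
    (h1 : D * D' = 1) (h2 : D' * D = 1) (hD : Dᵀ = D)
    (hT : ∀ B, (φ B)ᵀ * D = D * φ Bᵀ) :
    ∃ ψ : ↥(Matrix.symplecticGroup l K) →* ↥(Matrix.symplecticGroup L F),
      Function.Injective ψ := by
  have hD' : D'ᵀ = D' := by
    have : D'ᵀ * D = 1 := by rw [← hD, ← transpose_mul, h1, transpose_one]
    calc D'ᵀ = D'ᵀ * (D * D') := by rw [h1, mul_one]
      _ = D' := by rw [← mul_assoc, this, one_mul]
  set C : Matrix (L ⊕ L) (L ⊕ L) F := fromBlocks 1 0 0 D with hC
  set C' : Matrix (L ⊕ L) (L ⊕ L) F := fromBlocks 1 0 0 D' with hC'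
  set E : Matrix (L ⊕ L) (L ⊕ L) F := fromBlocks D 0 0 D with hE
  set E' : Matrix (L ⊕ L) (L ⊕ L) F := fromBlocks D' 0 0 D' with hE'
  have hCC' : C * C' = 1 := by simp [hC, hC', fromBlocks_multiply, h1]
  have hC'C : C' * C = 1 := by simp [hC, hC', fromBlocks_multiply, h2]
  have hEE' : E * E' = 1 := by simp [hE, hE', fromBlocks_multiply, h1]
  have hE'E : E' * E = 1 := by simp [hE, hE', fromBlocks_multiply, h2]
  have hCt : Cᵀ = C := by simp [hC, fromBlocks_transpose, hD]
  have hC't : C'ᵀ = C' := by simp [hC', fromBlocks_transpose, hD']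
  have hJ1 : C' * J L F * C' = J L F * E' := by
    simp [hC', hE', J, fromBlocks_multiply]
  have hJ2 : C * (J L F * E') * C = J L F := by
    simp [hC, hE', J, fromBlocks_multiply, h1, h2]
  let f : Matrix (l ⊕ l) (l ⊕ l) K →* Matrix (L ⊕ L) (L ⊕ L) F :=
    { toFun := fun A => C * Psi0 φ A * C'
      map_one' := by rw [Psi0_one, mul_one, hCC']
      map_mul' := fun A B => by
        rw [Psi0_mul]
        calc C * (Psi0 φ A * Psi0 φ B) * C' = C * Psi0 φ A * 1 * Psi0 φ B * C' := by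
              simp only [mul_one, mul_assoc]
          _ = C * Psi0 φ A * C' * (C * Psi0 φ B * C') := by
              rw [← hC'C]; simp only [mul_assoc] }
  have hf : ∀ A ∈ Matrix.symplecticGroup l K, f A ∈ Matrix.symplecticGroup L F := by
    intro A hA
    rw [SymplecticGroup.mem_iff] at hA ⊢
    have hX : Psi0 φ A * J L F * Psi0 φ Aᵀ = J L F := by
      rw [← Psi0_J φ, ← Psi0_mul, ← Psi0_mul, hA]
    have hXt : E' * (Psi0 φ A)ᵀ * E = Psi0 φ Aᵀ := by
      rw [mul_assoc, Psi0_transpose φ D hT A, ← mul_assoc, hE'E, one_mul]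
    show C * Psi0 φ A * C' * J L F * (C * Psi0 φ A * C')ᵀ = J L F
    rw [transpose_mul, transpose_mul, hCt, hC't]
    calc C * Psi0 φ A * C' * J L F * (C' * ((Psi0 φ A)ᵀ * C))
        = C * Psi0 φ A * (C' * J L F * C') * (Psi0 φ A)ᵀ * C := by simp only [mul_assoc]
      _ = C * Psi0 φ A * (J L F * E') * (Psi0 φ A)ᵀ * (E * E') * C := by
          rw [hJ1, hEE', mul_one]
      _ = C * (Psi0 φ A * J L F * (E' * (Psi0 φ A)ᵀ * E)) * E' * C := by simp only [mul_assoc]
      _ = C * (J L F * E') * C := by rw [hXt, hX]; simp only [mul_assoc]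
      _ = J L F := hJ2
  refine ⟨(f.comp (Matrix.symplecticGroup l K).subtype).codRestrict _ (fun A => hf A A.2), ?_⟩
  intro A B h
  have h' : f A = f B := congrArg Subtype.val h
  have h'' : C * Psi0 φ A * C' = C * Psi0 φ B * C' := h'
  apply Subtype.ext
  apply Psi0_injective φ hφ
  calc Psi0 φ A = C' * (C * Psi0 φ A * C') * C := by
        rw [← mul_assoc, ← mul_assoc, hC'C, one_mul, mul_assoc, hC'C, mul_one]
    _ = C' * (C * Psi0 φ B * C') * C := by rw [h'']
    _ = Psi0 φ B := by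
        rw [← mul_assoc, ← mul_assoc, hC'C, one_mul, mul_assoc, hC'C, mul_one]

end thmA


theorem exists_algebra {F K : Type*} [Field F] [Fintype F] [Field K] [Fintype K]
    (h : Fintype.card K = Fintype.card F ^ 2) :
    ∃ (_ : Algebra F K), Module.finrank F K = 2 := by
  obtain ⟨p, hp⟩ := CharP.exists F
  have : Fact p.Prime := ⟨CharP.char_is_prime F p⟩
  let E := FiniteField.Extension F p 2
  have : Fintype E := Fintype.ofFinite E
  have hE : Fintype.card E = Fintype.card K := by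
    rw [h, Fintype.card_eq_nat_card, Fintype.card_eq_nat_card]
    exact FiniteField.natCard_extension F p 2
  let e : E ≃+* K := FiniteField.ringEquivOfCardEq hE
  let alg : Algebra F K := (e.toRingHom.comp (algebraMap F E)).toAlgebra
  refine ⟨alg, ?_⟩
  have h2 := Module.card_eq_pow_finrank (K := F) (V := K)
  rw [h] at h2
  exact (Nat.pow_right_injective (Fintype.one_lt_card : 1 < Fintype.card F) h2).symm

section B2
variable {F K m : Type*} [Field F] [Field K] [Algebra F K] [Fintype m] [DecidableEq m]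

theorem leftMul_trace (b : Module.Basis m F K) (x : K) :
    (Algebra.leftMulMatrix b x)ᵀ * Algebra.traceMatrix F b
      = Algebra.traceMatrix F b * Algebra.leftMulMatrix b x := by
  have key : ∀ s, ∑ u, (Algebra.leftMulMatrix b x) u s • b u = x * b s := by
    intro s
    simp [Algebra.leftMulMatrix_eq_repr_mul, b.sum_repr]
  ext s t
  simp only [Matrix.mul_apply, Matrix.transpose_apply, Algebra.traceMatrix_apply,
    Algebra.traceForm_apply]
  have h1 : ∑ u, Algebra.leftMulMatrix b x u s * Algebra.trace F K (b u * b t)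
      = Algebra.trace F K (x * b s * b t) := by
    rw [← key s, Finset.sum_mul, map_sum]
    refine Finset.sum_congr rfl fun u _ => ?_
    rw [smul_mul_assoc, map_smul, smul_eq_mul]
  have h2 : ∑ u, Algebra.trace F K (b s * b u) * Algebra.leftMulMatrix b x u t
      = Algebra.trace F K (b s * (x * b t)) := by
    rw [← key t, Finset.mul_sum, map_sum]
    refine Finset.sum_congr rfl fun u _ => ?_
    rw [mul_smul_comm, map_smul, smul_eq_mul, mul_comm]
  rw [h1, h2]
  congr 1
  ring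

end B2

section B3
variable {F K l m L : Type*} [CommRing F] [CommRing K] [Fintype l] [DecidableEq l] [Fintype m]
  [DecidableEq m] [Fintype L] [DecidableEq L]

def phi0 (ρ : K →+* Matrix m m F) : Matrix l l K →+* Matrix (l × m) (l × m) F :=
  (Matrix.compRingEquiv l m F).toRingHom.comp ρ.mapMatrix

def D0 (l : Type*) [Fintype l] [DecidableEq l] (G : Matrix m m F) : Matrix (l × m) (l × m) F :=
  Matrix.compRingEquiv l m F (Matrix.diagonal fun _ => G)

theorem D0_mul (G G' : Matrix m m F) (h : G * G' = 1) : D0 l G * D0 l G' = 1 := by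
  rw [D0, D0, ← map_mul, Matrix.diagonal_mul_diagonal]
  simp [h, Matrix.comp_one]

theorem D0_transpose (G : Matrix m m F) (h : Gᵀ = G) : (D0 l G)ᵀ = D0 l G := by
  have e1 : (D0 l G)ᵀ = Matrix.compRingEquiv l m F ((Matrix.diagonal fun _ => G)ᵀ.map (·ᵀ)) := rfl
  rw [e1, Matrix.diagonal_transpose, Matrix.diagonal_map (by simp), D0]
  simp [h]

theorem phi0_transpose (ρ : K →+* Matrix m m F) (G : Matrix m m F)
    (h : ∀ x, (ρ x)ᵀ * G = G * ρ x) (B : Matrix l l K) :
    (phi0 ρ B)ᵀ * D0 l G = D0 l G * phi0 ρ Bᵀ := by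
  have e1 : (phi0 ρ B)ᵀ = Matrix.compRingEquiv l m F (Bᵀ.map fun x => (ρ x)ᵀ) := rfl
  have e2 : phi0 ρ Bᵀ = Matrix.compRingEquiv l m F (Bᵀ.map ρ) := rfl
  rw [e1, e2, D0, ← map_mul, ← map_mul]
  congr 1
  ext i j : 2
  rw [Matrix.mul_diagonal, Matrix.diagonal_mul]
  simp [h]

theorem phi0_injective (ρ : K →+* Matrix m m F) (hρ : Function.Injective ρ) :
    Function.Injective (phi0 (l := l) ρ) := by
  intro A B h
  have h' : A.map ρ = B.map ρ := (Matrix.compRingEquiv l m F).injective h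
  ext i j
  exact hρ (congrFun (congrFun h' i) j)

end B3


/-- Field-extension embedding of symplectic groups: for a field K with q² elements and a field F with q elements there is an injective homomorphism Sp_2a(K) → Sp_4a(F). -/
theorem result {K F : Type*} [Field K] [Fintype K] [Field F] [Fintype F] {q : ℕ} (hK : Fintype.card K = q ^ 2) (hF : Fintype.card F = q) (a : ℕ) : ∃ φ : ↥(Matrix.symplecticGroup (Fin a) K) →* ↥(Matrix.symplecticGroup (Fin (2 * a)) F), Function.Injective φ := by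
  subst hF
  obtain ⟨alg, hfr⟩ := exists_algebra hK
  let b : Module.Basis (Fin 2) F K := Module.finBasisOfFinrankEq F K hfr
  let ρ : K →+* Matrix (Fin 2) (Fin 2) F := (Algebra.leftMulMatrix b).toRingHom
  have hρ : Function.Injective ρ := Algebra.leftMulMatrix_injective b
  let G : Matrix (Fin 2) (Fin 2) F := Algebra.traceMatrix F b
  have hdet : G.det ≠ 0 := by
    have := det_traceForm_ne_zero b
    rwa [← Algebra.traceMatrix_of_basis] at this
  have hu : IsUnit G.det := isUnit_iff_ne_zero.mpr hdet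
  have hG1 : G * G⁻¹ = 1 := Matrix.mul_nonsing_inv G hu
  have hG2 : G⁻¹ * G = 1 := Matrix.nonsing_inv_mul G hu
  have hGt : Gᵀ = G := by
    ext i j
    simp [G, Algebra.traceMatrix_apply, Algebra.traceForm_apply, mul_comm]
  have hρG : ∀ x, (ρ x)ᵀ * G = G * ρ x := fun x => leftMul_trace b x
  let e : Fin a × Fin 2 ≃ Fin (2 * a) := finProdFinEquiv.trans (finCongr (mul_comm a 2))
  let R := Matrix.reindexRingEquiv F e
  have hRt : ∀ X, (R X)ᵀ = R Xᵀ := fun X => rfl
  refine thmA (R.toRingHom.comp (phi0 ρ)) (R.injective.comp (phi0_injective ρ hρ))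
    (R (D0 (Fin a) G)) (R (D0 (Fin a) G⁻¹)) ?_ ?_ ?_ ?_
  · rw [← map_mul, D0_mul G G⁻¹ hG1, map_one]
  · rw [← map_mul, D0_mul G⁻¹ G hG2, map_one]
  · rw [hRt, D0_transpose G hGt]
  · intro B
    show (R (phi0 ρ B))ᵀ * R (D0 (Fin a) G) = R (D0 (Fin a) G) * R (phi0 ρ Bᵀ)
    rw [hRt, ← map_mul, ← map_mul, phi0_transpose ρ G hρG]

end Cfsg.Agent.S2678
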