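import Cfsg.Statements.S2679
-- import your own Cfsg.Agent.* helpers here

set_option autoImplicit false
open Cfsg

namespace Cfsg.Agent.S2679

open Matrix Polynomial

theorem exists_root_emb {F K : Type*} [Field F] [Fintype F] [Field K] [Fintype K]
    (hK : Fintype.card K = Fintype.card F ^ 2) (a c : F)
    (hac : ∀ z₁ z₂ : F, z₁ ^ 2 + a * z₁ * z₂ + c * z₂ ^ 2 = 0 → z₁ = 0 ∧ z₂ = 0) :
    ∃ (ι : F →+* K) (α β : K), α + β = - ι a ∧ α * β = ι c ∧ α ≠ β := by
  let f : F[X] := X ^ 2 + C a * X + C c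
  have hdeg : f.natDegree = 2 := by
    simp only [f]; compute_degree!
  have hnr : ∀ x, ¬ IsRoot f x := by
    intro x hx
    have : x ^ 2 + a * x * 1 + c * 1 ^ 2 = 0 := by
      simpa [f, IsRoot] using hx
    exact one_ne_zero (hac x 1 this).2
  have hirr : Irreducible f :=
    irreducible_of_degree_le_three_of_not_isRoot (by rw [hdeg]; decide) hnr
  have : Fact (Irreducible f) := ⟨hirr⟩
  have hf0 : f ≠ 0 := hirr.ne_zero
  let L := AdjoinRoot f
  have hfr : Module.finrank F L = 2 := by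
    rw [(AdjoinRoot.powerBasis hf0).finrank, AdjoinRoot.powerBasis_dim, hdeg]
  have : Module.Finite F L := (AdjoinRoot.powerBasis hf0).finite
  have : Finite L := Module.finite_of_finite F
  have : Fintype L := Fintype.ofFinite L
  have hL : Fintype.card L = Fintype.card K := by
    rw [hK, Module.card_eq_pow_finrank (K := F) (V := L), hfr]
  let e : L ≃+* K := FiniteField.ringEquivOfCardEq hL
  let ι : F →+* K := e.toRingHom.comp (AdjoinRoot.of f)
  let α : K := e (AdjoinRoot.root f)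
  have hroot : f.eval₂ ι α = 0 := by
    have h0 := AdjoinRoot.eval₂_root f
    have := congrArg e h0
    rw [map_zero] at this
    rw [← this]
    exact (Polynomial.hom_eval₂ f (AdjoinRoot.of f) e.toRingHom (AdjoinRoot.root f)).symm
  have hsep : f.Separable := PerfectField.separable_of_irreducible hirr
  have hder := hsep.eval₂_derivative_ne_zero ι hroot
  have h1 : α ^ 2 + ι a * α + ι c = 0 := by
    simpa [f, eval₂_add, eval₂_mul, eval₂_pow] using hroot
  have h2 : 2 * α + ι a ≠ 0 := by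
    simpa [f, eval₂_add, eval₂_mul, eval₂_pow, derivative_pow, map_ofNat] using hder
  refine ⟨ι, α, -ι a - α, by ring, by linear_combination -h1, ?_⟩
  intro h
  apply h2
  linear_combination h


section alt
variable {R : Type*} [CommRing R] {n : Type*} [Fintype n] [DecidableEq n]

theorem alt_of_forall (N : Matrix n n R) (h : ∀ v : n → R, v ⬝ᵥ N *ᵥ v = 0) :
    (∀ i, N i i = 0) ∧ ∀ i j, N i j + N j i = 0 := by
  have h1 : ∀ i, N i i = 0 := by
    intro i
    have := h (Pi.single i 1)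
    simpa using this
  refine ⟨h1, fun i j => ?_⟩
  have := h (Pi.single i 1 + Pi.single j 1)
  simp only [mulVec_add, dotProduct_add, add_dotProduct, single_one_dotProduct,
    mulVec_single_one, col_apply, h1] at this
  linear_combination this

theorem forall_of_alt (N : Matrix n n R) (h1 : ∀ i, N i i = 0) (h2 : ∀ i j, N i j + N j i = 0)
    (v : n → R) : v ⬝ᵥ N *ᵥ v = 0 := by
  have e : v ⬝ᵥ N *ᵥ v = ∑ p : n × n, v p.1 * (N p.1 p.2 * v p.2) := by
    simp only [dotProduct, mulVec, Finset.mul_sum]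
    rw [← Fintype.sum_prod_type']
  rw [e]
  refine Finset.sum_involution (fun p _ => p.swap) ?_ ?_ (fun _ _ => Finset.mem_univ _)
    (fun p _ => Prod.swap_swap p)
  · rintro ⟨i, j⟩ -
    simp only [Prod.swap_prod_mk]
    linear_combination v i * v j * h2 i j
  · rintro ⟨i, j⟩ - hne heq
    simp only [Prod.swap_prod_mk, Prod.mk.injEq] at heq
    obtain ⟨rfl, -⟩ := heq
    apply hne
    simp [h1]

theorem quad_conj (M g : Matrix n n R) (v : n → R) :
    (g *ᵥ v) ⬝ᵥ M *ᵥ (g *ᵥ v) = v ⬝ᵥ (gᵀ * M * g) *ᵥ v := by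
  rw [← mulVec_mulVec, ← mulVec_mulVec, dotProduct_mulVec v gᵀ, vecMul_transpose]

end alt

theorem baseChange {F K : Type*} [Field F] [Field K] (ι : F →+* K) {n : Type} [Fintype n]
    [DecidableEq n] (M : Matrix n n F) (Q : (n → F) → F) (Q' : (n → K) → K)
    (hQ : ∀ v, Q v = v ⬝ᵥ M *ᵥ v) (hQ' : ∀ v, Q' v = v ⬝ᵥ (M.map ι) *ᵥ v) :
    ∃ φ : ↥(isometryGroup F Q) →* ↥(isometryGroup K Q'), Function.Injective φ := by
  have key : ∀ g : GL n F, g ∈ isometryGroup F Q →
      Matrix.GeneralLinearGroup.map ι g ∈ isometryGroup K Q' := by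
    intro g hg u _
    have hg' : ∀ v : n → F, Q ((g : Matrix n n F) *ᵥ v) = Q v := fun v => hg v v
    show Q' (((g : Matrix n n F).map ι) *ᵥ u) = Q' u
    set A : Matrix n n F := (g : Matrix n n F) with hA
    have hN : ∀ v : n → F, v ⬝ᵥ (Aᵀ * M * A - M) *ᵥ v = 0 := by
      intro v
      rw [sub_mulVec, dotProduct_sub, ← quad_conj, ← hQ, ← hQ, hg', sub_self]
    obtain ⟨h1, h2⟩ := alt_of_forall _ hN
    have hN' := forall_of_alt ((Aᵀ * M * A - M).map ι)
      (fun i => by rw [map_apply, h1, map_zero])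
      (fun i j => by rw [map_apply, map_apply, ← map_add, h2, map_zero]) u
    rw [hQ', hQ', quad_conj]
    have e : (Aᵀ * M * A - M).map ι = (A.map ι)ᵀ * M.map ι * A.map ι - M.map ι := by
      rw [Matrix.map_sub (f := ι) (fun a b => map_sub ι a b), Matrix.map_mul, Matrix.map_mul, transpose_map]
    rw [e, sub_mulVec, dotProduct_sub, sub_eq_zero] at hN'
    exact hN'
  refine ⟨((Matrix.GeneralLinearGroup.map ι).comp (isometryGroup F Q).subtype).codRestrict _
    (fun g => key g g.2), ?_⟩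
  intro g h hgh
  have h1 : Matrix.GeneralLinearGroup.map ι (g : GL n F) = Matrix.GeneralLinearGroup.map ι (h : GL n F) :=
    congrArg Subtype.val hgh
  apply Subtype.ext
  apply Units.ext
  ext i j
  have h2 := congrArg (fun x : GL n K => (x : Matrix n n K) i j) h1
  exact ι.injective h2

theorem transport {K : Type*} [Field K] {n₁ n₂ : Type} [Fintype n₁] [DecidableEq n₁] [Fintype n₂]
    [DecidableEq n₂] (Q₁ : (n₁ → K) → K) (Q₂ : (n₂ → K) → K) (P : Matrix n₂ n₁ K)
    (P' : Matrix n₁ n₂ K) (h1 : P * P' = 1) (h2 : P' * P = 1)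
    (hQ : ∀ v, Q₂ (P *ᵥ v) = Q₁ v) :
    ∃ φ : ↥(isometryGroup K Q₁) →* ↥(isometryGroup K Q₂), Function.Injective φ := by
  let f : Matrix n₁ n₁ K →* Matrix n₂ n₂ K :=
    { toFun := fun A => P * A * P'
      map_one' := by rw [Matrix.mul_one, h1]
      map_mul' := fun A B => by
        calc P * (A * B) * P' = P * A * ((1 : Matrix n₁ n₁ K) * (B * P')) := by
              simp only [Matrix.one_mul, Matrix.mul_assoc]
          _ = P * A * P' * (P * B * P') := by
              rw [← h2]; simp only [Matrix.mul_assoc] }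
  have key : ∀ g : GL n₁ K, g ∈ isometryGroup K Q₁ → Units.map f g ∈ isometryGroup K Q₂ := by
    intro g hg u _
    have hg' : ∀ v : n₁ → K, Q₁ ((g : Matrix n₁ n₁ K) *ᵥ v) = Q₁ v := fun v => hg v v
    show Q₂ ((P * (g : Matrix n₁ n₁ K) * P') *ᵥ u) = Q₂ u
    rw [← mulVec_mulVec, ← mulVec_mulVec, hQ, hg', ← hQ, mulVec_mulVec, h1, one_mulVec]
  refine ⟨((Units.map f).comp (isometryGroup K Q₁).subtype).codRestrict _
    (fun g => key g g.2), ?_⟩
  intro g h hgh
  have e1 : Units.map f (g : GL n₁ K) = Units.map f (h : GL n₁ K) := congrArg Subtype.val hgh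
  have e2 : P * (g : GL n₁ K).1 * P' = P * (h : GL n₁ K).1 * P' := congrArg Units.val e1
  apply Subtype.ext
  apply Units.ext
  calc (g : GL n₁ K).1 = P' * (P * (g : GL n₁ K).1 * P') * P := by
        rw [← Matrix.mul_assoc, ← Matrix.mul_assoc, h2, Matrix.one_mul, Matrix.mul_assoc, h2,
          Matrix.mul_one]
    _ = P' * (P * (h : GL n₁ K).1 * P') * P := by rw [e2]
    _ = (h : GL n₁ K).1 := by
        rw [← Matrix.mul_assoc, ← Matrix.mul_assoc, h2, Matrix.one_mul, Matrix.mul_assoc, h2,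
          Matrix.mul_one]


def Mminus (k : ℕ) {R : Type*} [CommRing R] (a c : R) :
    Matrix ((Fin k ⊕ Fin k) ⊕ Fin 2) ((Fin k ⊕ Fin k) ⊕ Fin 2) R :=
  fromBlocks (fromBlocks 0 1 0 0) 0 0 !![1, a; 0, c]

theorem Mminus_map (k : ℕ) {F K : Type*} [Field F] [Field K] (ι : F →+* K) (a c : F) :
    (Mminus k a c).map ι = Mminus k (ι a) (ι c) := by
  simp only [Mminus, fromBlocks_map]
  congr 1
  · congr 1 <;> simp
  · simp
  · simp
  · ext i j
    fin_cases i <;> fin_cases j <;> simp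

theorem quadFormMinus_eq (k : ℕ) {F : Type*} [Field F] (a c : F)
    (v : (Fin k ⊕ Fin k) ⊕ Fin 2 → F) :
    quadFormMinus k F a c v = v ⬝ᵥ (Mminus k a c) *ᵥ v := by
  simp only [quadFormMinus, Mminus, dotProduct, mulVec, Fintype.sum_sum_type, fromBlocks_apply₁₁,
    fromBlocks_apply₁₂, fromBlocks_apply₂₁, fromBlocks_apply₂₂, Fin.sum_univ_two, Matrix.zero_apply,
    Matrix.one_apply]
  simp
  ring

noncomputable def T (k : ℕ) {K : Type*} [Field K] (α β : K) :
    ((Fin k ⊕ Fin k) ⊕ Fin 2 → K) →ₗ[K] (Fin (k + 1) ⊕ Fin (k + 1) → K) :=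
  LinearMap.pi (Sum.elim
    (fun i => Fin.lastCases (LinearMap.proj (Sum.inr 0) - α • LinearMap.proj (Sum.inr 1))
      (fun i => LinearMap.proj (Sum.inl (Sum.inl i))) i)
    (fun i => Fin.lastCases (LinearMap.proj (Sum.inr 0) - β • LinearMap.proj (Sum.inr 1))
      (fun i => LinearMap.proj (Sum.inl (Sum.inr i))) i))

theorem T_inl_castSucc (k : ℕ) {K : Type*} [Field K] (α β : K) (v) (i : Fin k) :
    T k α β v (Sum.inl i.castSucc) = v (Sum.inl (Sum.inl i)) := by
  simp [T]

theorem T_inr_castSucc (k : ℕ) {K : Type*} [Field K] (α β : K) (v) (i : Fin k) :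
    T k α β v (Sum.inr i.castSucc) = v (Sum.inl (Sum.inr i)) := by
  simp [T]

theorem T_inl_last (k : ℕ) {K : Type*} [Field K] (α β : K) (v) :
    T k α β v (Sum.inl (Fin.last k)) = v (Sum.inr 0) - α * v (Sum.inr 1) := by
  simp [T]

theorem T_inr_last (k : ℕ) {K : Type*} [Field K] (α β : K) (v) :
    T k α β v (Sum.inr (Fin.last k)) = v (Sum.inr 0) - β * v (Sum.inr 1) := by
  simp [T]

theorem T_quad (k : ℕ) {K : Type*} [Field K] (α β a c : K) (h1 : α + β = -a) (h2 : α * β = c) (v) :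
    quadFormPlus (k + 1) K (T k α β v) = quadFormMinus k K a c v := by
  simp only [quadFormPlus, quadFormMinus, Fin.sum_univ_castSucc, T_inl_castSucc, T_inr_castSucc,
    T_inl_last, T_inr_last]
  congr 1
  linear_combination (- v (Sum.inr 0) * v (Sum.inr 1)) * h1 + v (Sum.inr 1) ^ 2 * h2

theorem T_injective (k : ℕ) {K : Type*} [Field K] (α β : K) (h : α ≠ β) :
    Function.Injective (T k α β) := by
  rw [injective_iff_map_eq_zero]
  intro v hv
  have e1 : ∀ i, v (Sum.inl (Sum.inl i)) = 0 := fun i => by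
    rw [← T_inl_castSucc k α β v, hv]; rfl
  have e2 : ∀ i, v (Sum.inl (Sum.inr i)) = 0 := fun i => by
    rw [← T_inr_castSucc k α β v, hv]; rfl
  have e3 : v (Sum.inr 0) - α * v (Sum.inr 1) = 0 := by
    rw [← T_inl_last k α β v, hv]; rfl
  have e4 : v (Sum.inr 0) - β * v (Sum.inr 1) = 0 := by
    rw [← T_inr_last k α β v, hv]; rfl
  have e5 : v (Sum.inr 1) = 0 := by
    have : (α - β) * v (Sum.inr 1) = 0 := by linear_combination e4 - e3
    rcases mul_eq_zero.1 this with h' | h'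
    · exact absurd (sub_eq_zero.1 h') h
    · exact h'
  have e6 : v (Sum.inr 0) = 0 := by rw [e5] at e3; simpa using e3
  ext ((i | i) | i)
  · exact e1 i
  · exact e2 i
  · fin_cases i
    · exact e6
    · exact e5


/-- An elliptic orthogonal group embeds in the hyperbolic orthogonal group of the same dimension over the quadratic extension: for a field F with q elements and a field K with q² elements there is an injective homomorphism from O⁻_2m(F) (isometries of Σ_(j<m−1) x_j y_j + z₁² + a z₁z₂ + c z₂², binary part anisotropic) to O⁺_2m(K) (isometries of Σ_(j<m) x_j y_j over K). -/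
theorem result {F K : Type*} [Field F] [Fintype F] [Field K] [Fintype K] {q : ℕ} (hF : Fintype.card F = q) (hK : Fintype.card K = q ^ 2) {m : ℕ} (hm : 1 ≤ m) (a c : F) (hac : ∀ z₁ z₂ : F, z₁ ^ 2 + a * z₁ * z₂ + c * z₂ ^ 2 = 0 → z₁ = 0 ∧ z₂ = 0) : ∃ φ : ↥(Cfsg.isometryGroup F (Cfsg.quadFormMinus (m - 1) F a c)) →* ↥(Cfsg.isometryGroup K (Cfsg.quadFormPlus m K)), Function.Injective φ := by
  subst hF
  obtain ⟨k, rfl⟩ : ∃ k, m = k + 1 := ⟨m - 1, by omega⟩
  show ∃ φ : ↥(Cfsg.isometryGroup F (Cfsg.quadFormMinus k F a c)) →*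
    ↥(Cfsg.isometryGroup K (Cfsg.quadFormPlus (k + 1) K)), Function.Injective φ
  obtain ⟨ι, α, β, h1, h2, h3⟩ := exists_root_emb hK a c hac
  obtain ⟨φ₁, hφ₁⟩ := baseChange ι (Mminus k a c) (quadFormMinus k F a c)
    (quadFormMinus k K (ι a) (ι c)) (quadFormMinus_eq k a c)
    (fun v => by rw [Mminus_map]; exact quadFormMinus_eq k (ι a) (ι c) v)
  let Te := LinearMap.linearEquivOfInjective (T k α β) (T_injective k α β h3)
    (by simp [Module.finrank_fintype_fun_eq_card]; ring)
  have hTe : ∀ v, Te v = T k α β v := fun v => rfl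
  obtain ⟨φ₂, hφ₂⟩ := transport (quadFormMinus k K (ι a) (ι c)) (quadFormPlus (k + 1) K)
    (LinearMap.toMatrix' (Te : _ →ₗ[K] _)) (LinearMap.toMatrix' (Te.symm : _ →ₗ[K] _))
    (by rw [← LinearMap.toMatrix'_comp]; simp)
    (by rw [← LinearMap.toMatrix'_comp]; simp)
    (fun v => by
      rw [LinearMap.toMatrix'_mulVec]
      exact T_quad k α β (ι a) (ι c) h1 h2 v)
  exact ⟨φ₂.comp φ₁, hφ₂.comp hφ₁⟩

end Cfsg.Agent.S2679
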