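import Cfsg.Statements.S2684
import Cfsg.Agent.Lib.Helper42CentO3

set_option autoImplicit false
open Cfsg

namespace Cfsg.Agent.S2684

open Cfsg.Agent.Lib.Helper42Inv Cfsg.Agent.Lib.Helper42OInv Cfsg.Agent.Lib.Helper42OInv2
  Cfsg.Agent.Lib.Helper49Forms Cfsg.Agent.Lib.Helper49Orth Cfsg.Agent.Lib.Helper42CentO
  Cfsg.Agent.Lib.Helper42CentO2 Cfsg.Agent.Lib.Helper42CentO3 QuadraticMap in
/-- For the hyperbolic form Q = Σ x_j y_j on F^(2m) over a finite field with q elements, q even (excluding m = 2 over the field of two elements), and an involution x ≠ 1 of the orthogonal group with s = rank(x − 1) even and Q vanishing on the image of x − 1 (equivalently f(v, xv) = 0 for all v, where f(u, w) = Q(u + w) − Q(u) − Q(w) is the bilinear form of Q; type a_s, which lies in Ω): its centraliser in Ω (the commutator subgroup of the orthogonal group) has order q^(2ms − (3s² + s)/2) · |Sp_s(q)| · |Ω⁺_(2m−2s)(q)|, where |Ω⁺_2k(q)| = q^(k(k−1)) (q^k − 1) Π_(i=1)^(k−1) (q^(2i)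 − 1) for k ≥ 1 and the last factor is 1 when s = m. -/
theorem result {F : Type*} [Field F] [Fintype F] [CharP F 2] {q : ℕ} (hF : Fintype.card F = q) {m s : ℕ} (h : Fintype.card F ≠ 2 ∨ m ≠ 2) (x : ↥(Cfsg.isometryGroup F (Cfsg.quadFormPlus m F))) (hx : x ^ 2 = 1) (hx1 : x ≠ 1) (hs : (((x : Matrix.GeneralLinearGroup (Fin m ⊕ Fin m) F) : Matrix (Fin m ⊕ Fin m) (Fin m ⊕ Fin m) F) - 1).rank = s) (heven : Even s) (halt : ∀ v : Fin m ⊕ Fin m → F, Cfsg.quadFormPlus m F ((((x : Matrix.GeneralLinearGroup (Fin m ⊕ Fin m) F) : Matrix (Fin m ⊕ Fin m) (Fin m ⊕ Fin m) F) - 1).mulVec v) = 0) : Nat.card {g : ↥(Cfsg.Omega F (Cfsg.quadFormPlus m F)) // (g : ↥(Cfsg.isometryGroup F (Cfsg.quadFormPlus m F))) * x = x * (g : ↥(Cfsg.isometryGroup F (Cfsg.quadFormPlus m F)))} = q ^ (2 * m * s - (3 * s ^ 2 + s) / 2) * ((q : ℕ) ^ ((s / 2) ^ 2) * ∏ i : Fin (s / 2), (q ^ (2 * ((i : ℕ) + 1)) - 1)) * (if s = m then 1 else q ^ ((m - s) * (m - s - 1)) * (q ^ (m - s) - 1) * ∏ i : Fin (m - s - 1),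 (q ^ (2 * ((i : ℕ) + 1)) - 1)) := by
  classical
  revert x
  rw [← coe_QPlus m]
  intro x hx hx1 hs halt
  have hx' : x * x = 1 := by rw [← pow_two]; exact hx
  have hrank : Module.finrank F (LinearMap.range (NO (QPlus m F) x)) = s := by
    rw [← rank_eq]; exact hs
  have hsm : s ≤ m := by rw [← hrank]; exact rank_le_O _ x hx'
  have hQ := Cfsg.Agent.Lib.Helper49Rank.QPlus_nondegenerate (F := F) m
  have hdim : Module.finrank F (Fin m ⊕ Fin m → F) = 2 * m := by simp; ring
  have hTS : ∀ v, QPlus m F (NO (QPlus m F) x v) = 0 := fun v => halt v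
  have ha : ∀ v, polarBilin (QPlus m F) v (NO (QPlus m F) x v) = 0 := by
    intro v
    rw [← Q_NO]; exact hTS v
  have hs0 : s ≠ 0 := by
    intro h0
    rw [h0, Submodule.finrank_eq_zero, LinearMap.range_eq_bot] at hrank
    apply hx1
    apply iso_ext
    apply Matrix.mulVec_injective
    funext v
    have := congrArg (fun L => L v) hrank
    simp only [NO_apply, LinearMap.zero_apply] at this
    rw [sub_eq_zero.mp this]
    simp
  have hq1 : 1 < q := by rw [← hF]; exact Fintype.one_lt_card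
  obtain ⟨k, hk⟩ : ∃ k, s = 2 * k := by
    obtain ⟨r, hr⟩ := heven
    exact ⟨r, by omega⟩
  have key := card_centO_a hF (by omega) (QPlus m F) rfl x hx' ha k (by rw [hrank, hk])
  rw [← hk, expA m s hsm, pow_add] at key
  have hpos : 0 < q ^ (s * (s - 1) / 2) := pow_pos (by omega) _
  have key' : Nat.card ↥(Subgroup.centralizer ({x} : Set ↥(Cfsg.isometryGroup F ⇑(QPlus m F))))
      = q ^ (2 * m * s - (3 * s ^ 2 + s) / 2) * DD q (m - s) *
        (q ^ (k ^ 2) * ∏ i ∈ Finset.range k, (q ^ (2 * (i + 1)) - 1)) := by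
    apply Nat.eq_of_mul_eq_mul_right hpos
    rw [key]
    ring
  have e1 : s / 2 = k := by omega
  rw [e1, ← Finset.prod_range (fun i => q ^ (2 * (i + 1)) - 1),
    ← Finset.prod_range (fun i => q ^ (2 * (i + 1)) - 1)]
  split_ifs with hsm'
  · have hle := cent_le_Omega h x hTS (by rw [hrank, hsm'])
    rw [Nat.card_congr (equivCent (QPlus m F) x), inf_eq_left.mpr hle, key', hsm', Nat.sub_self]
    simp [DD]
  · have hq4 : Fintype.card F ≠ 2 ∨ Fintype.card (Fin m ⊕ Fin m) ≠ 4 := by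
      rcases h with h | h
      · left; exact h
      · right
        simp only [Fintype.card_sum, Fintype.card_fin]
        omega
    obtain ⟨v, hv, hxv⟩ : ∃ v, QPlus m F v ≠ 0 ∧ Matrix.mulVec (mt (QPlus m F) x) v = v := by
      by_contra hcon
      push Not at hcon
      have h1 := exceptional (QPlus m F) hQ hdim x hx' (fun v hv => by
        by_contra h
        exact hcon v h hv)
      exact hsm' (by rw [← hrank]; exact h1.2.2.1)
    have htwo := card_cent_two (QPlus m F) hQ hq4 (by simp; omega) x v hv hxv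
    rw [key', DD, if_neg (by omega)] at htwo
    apply Nat.eq_of_mul_eq_mul_left (by norm_num : 0 < 2)
    rw [← htwo]
    ring

end Cfsg.Agent.S2684
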