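import Cfsg.Statements.S2690
import Cfsg.Agent.Lib.Helper50Main

set_option autoImplicit false
open Cfsg

namespace Cfsg.Agent.S2690

open Cfsg.Agent.Lib.Helper50Aut Cfsg.Agent.Lib.Helper50Main

/-- Every automorphism of a simple projective special linear group PSL_n(F) over a finite field (n ≥ 2; |F| ≥ 4 when n = 2) is a product δ φ γ of an inner-diagonal automorphism δ (induced by an invertible matrix), a standard field automorphism φ (one automorphism of F applied to every entry, possibly the identity) and γ either the identity or the inverse-transpose automorphism. -/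
theorem result {F : Type*} [Field F] [Fintype F] {p f : ℕ} [Fact p.Prime] (hF : Fintype.card F = p ^ f) (hf : 1 ≤ f) {n : ℕ} (hn : 2 ≤ n) (hs : n = 2 → 4 ≤ Fintype.card F) (β : MulAut (Matrix.ProjectiveSpecialLinearGroup (Fin n) F)) :
    ∃ (δ φ γ : MulAut (Matrix.ProjectiveSpecialLinearGroup (Fin n) F)) (σ : F ≃+* F), Cfsg.IsInnerDiagonalAutPSL δ ∧ Cfsg.IsStdFieldAutPSL σ φ ∧ (γ = 1 ∨ Cfsg.IsInverseTransposeAutPSL γ) ∧ β = δ * φ * γ := by
  obtain ⟨g, σ, h | h⟩ := aut_psl hn β
  · exact ⟨liftAut (conjGL g), liftAut (mapEquiv σ), 1, σ, isInnerDiagonal_lift g, isStdField_lift σ,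
      Or.inl rfl, by rw [mul_one]; exact h⟩
  · exact ⟨liftAut (conjGL g), liftAut (mapEquiv σ), liftAut invT, σ, isInnerDiagonal_lift g,
      isStdField_lift σ, Or.inr isInvT_lift, h⟩

end Cfsg.Agent.S2690
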