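import Cfsg.Statements.S2697
import Cfsg.Agent.Lib.Helper50Twist

set_option autoImplicit false
open Cfsg

namespace Cfsg.Agent.S2697

open Cfsg.Agent.Lib.Helper50Aut Cfsg.Agent.Lib.Helper50AutStr Cfsg.Agent.Lib.Helper50Twist

theorem orderOf_conj' {X : Type*} [Group X] (a x : X) : orderOf (a * x * a⁻¹) = orderOf x :=
  orderOf_injective (MulAut.conj a).toMonoidHom (MulAut.conj a).injective x

/-- reduction to a standard representative -/
theorem reduce {X : Type*} [Group X] (N : Subgroup X) [N.Normal] (x δ α t : X) (hδ : δ ∈ N)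
    (ht : α * x * α⁻¹ = t)
    (H : ∀ d ∈ N, orderOf (d * t) = orderOf t → ∃ h ∈ N, d * t = h * t * h⁻¹)
    (ho : orderOf (δ * x) = orderOf x) : Cfsg.IsConjUnder N x (δ * x) := by
  have h1 : α * δ * α⁻¹ ∈ N := Subgroup.Normal.conj_mem inferInstance δ hδ α
  have h2 : α * δ * α⁻¹ * t = α * (δ * x) * α⁻¹ := by rw [← ht]; group
  obtain ⟨h, hh, e⟩ := H _ h1 (by rw [h2, orderOf_conj', ho, ← ht, orderOf_conj'])
  refine ⟨α⁻¹ * h * α, ?_, ?_⟩
  · have := Subgroup.Normal.conj_mem (inferInstance : N.Normal) h hh α⁻¹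
    rwa [inv_inv] at this
  · have h3 : δ * x = α⁻¹ * (α * δ * α⁻¹ * t) * α := by rw [h2]; group
    rw [h3, e, ← ht]
    group


/-- Let T = PSL_n(F) be simple over a finite field (n ≥ 2; |F| ≥ 4 when n = 2) and let x be a field automorphism or a graph-field automorphism of T of prime order r. Then an element y of the coset Inndiag(T)·x (that is, y = δ x with δ in the inner-diagonal group, the image of PGL_n(F)) has order r if and only if y is conjugate to x by an element of Inndiag(T). -/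
theorem result {F : Type*} [Field F] [Fintype F] {p f : ℕ} [Fact p.Prime] (hF : Fintype.card F = p ^ f) (hf : 1 ≤ f) {n : ℕ} (hn : 2 ≤ n) (hs : n = 2 → 4 ≤ Fintype.card F) (x δ : MulAut (Matrix.ProjectiveSpecialLinearGroup (Fin n) F)) (hx : Cfsg.IsFieldAutClassPSL x ∨ Cfsg.IsGraphFieldAutClassPSL x) {r : ℕ} (hr : r.Prime) (hxr : orderOf x = r) (hδ : δ ∈ Cfsg.inndiagPSL n F) :
    orderOf (δ * x) = r ↔ Cfsg.IsConjUnder (Cfsg.inndiagPSL n F) x (δ * x) := by
  have hN := normal_range_cHom (F := F) hn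
  rw [inndiag_eq] at hδ ⊢
  constructor
  swap
  · rintro ⟨h, -, e⟩
    rw [e, orderOf_conj', hxr]
  intro ho
  rcases hx with ⟨α, σ, hσ, hα⟩ | ⟨hn3, α, φ, γ, σ, hσ, hφ, hγ, hα⟩
  · rw [isStdField_iff] at hα
    apply reduce _ x δ α (fHom σ) hδ hα _ (by rw [ho, hxr])
    have hoσ : orderOf σ = r := by
      rw [← orderOf_injective fHom (fHom_injective hn) σ, ← hα, orderOf_conj', hxr]
    rintro _ ⟨g, rfl⟩ hd
    rw [orderOf_injective fHom (fHom_injective hn) σ, hoσ] at hd
    obtain ⟨h, e⟩ := field_conj hn σ r hoσ hr.pos g (by rw [← hd]; exact pow_orderOf_eq_one _)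
    exact ⟨_, ⟨h, rfl⟩, e⟩
  · rw [isStdField_iff] at hφ
    rw [isInvT_iff] at hγ
    subst hφ hγ
    apply reduce _ x δ α (fHom σ * iota) hδ hα _ (by rw [ho, hxr])
    have hot : orderOf (fHom σ * iota : MulAut (Matrix.ProjectiveSpecialLinearGroup (Fin n) F)) = r := by
      rw [← hα, orderOf_conj', hxr]
    have hcomm : Commute (fHom σ : MulAut (Matrix.ProjectiveSpecialLinearGroup (Fin n) F)) iota :=
      (iota_mul_fHom σ).symm
    have hpow : (fHom σ : MulAut (Matrix.ProjectiveSpecialLinearGroup (Fin n) F)) ^ r * iota ^ r = 1 := by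
      rw [← hcomm.mul_pow, ← hot]; exact pow_orderOf_eq_one _
    have hi2 : (iota : MulAut (Matrix.ProjectiveSpecialLinearGroup (Fin n) F)) ^ 2 = 1 := by
      rw [pow_two]; exact iota_mul_self
    have hr2 : r = 2 := by
      rcases hr.eq_two_or_odd' with h | ⟨k, hk⟩
      · exact h
      · exfalso
        rw [hk, pow_succ iota, pow_mul iota, hi2, one_pow, one_mul, ← hk, ← map_pow] at hpow
        apply cHom_mul_fHom_ne_iota hn3 1 (σ ^ r)⁻¹
        rw [map_one, one_mul, map_inv]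
        exact inv_eq_of_mul_eq_one_right hpow
    subst hr2
    have hσ2 : σ * σ = 1 := by
      rw [hi2, mul_one, ← map_pow] at hpow
      rw [← pow_two]
      exact fHom_injective hn (by rw [hpow, map_one])
    rintro _ ⟨g, rfl⟩ hd
    rw [hot] at hd
    obtain ⟨h, e⟩ := graphfield_conj hn σ hσ hσ2 g (by rw [← hd]; exact pow_orderOf_eq_one _)
    exact ⟨_, ⟨h, rfl⟩, e⟩

end Cfsg.Agent.S2697
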