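import Cfsg.Statements.S2699
import Cfsg.Agent.Lib.Helper50GamCl

set_option autoImplicit false
open Cfsg

namespace Cfsg.Agent.S2699

open Cfsg.Agent.Lib.Helper50Aut Cfsg.Agent.Lib.Helper50AutStr Cfsg.Agent.Lib.Helper50Twist
  Cfsg.Agent.Lib.Helper50Cent Cfsg.Agent.Lib.Helper50GF Cfsg.Agent.Lib.Helper50Form
  Cfsg.Agent.Lib.Helper50Split Cfsg.Agent.Lib.Helper50Gam Cfsg.Agent.Lib.Helper50FormCl
  Cfsg.Agent.Lib.Helper50FormStd Cfsg.Agent.Lib.Helper50FormTwo Cfsg.Agent.Lib.Helper50FormTheta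
  Cfsg.Agent.Lib.Helper50GamCl
open scoped MatrixGroups Matrix


/-- Let T = PSL_n(F) over the field with p^f elements with n ≥ 3 odd, n = 2m + 1, and G = Inndiag(T) the image of PGL_n(F). Every involutory graph automorphism γ of T (an inner-diagonal automorphism followed by inverse-transpose, of order 2) has centralizer C_G(γ) isomorphic to the projective conformal orthogonal group of the form x₀² + Σ xᵢ yᵢ in dimension n (for q even this group is isomorphic to Sp_{n−1}(q)), and any two involutory graph automorphisms are G-conjugate. -/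
theorem result {F : Type*} [Field F] [Fintype F] {p f : ℕ} [Fact p.Prime] (hF : Fintype.card F = p ^ f) (hf : 1 ≤ f) {n : ℕ} (hn : 3 ≤ n) {m : ℕ} (hnm : n = 2 * m + 1) (γ γ' : MulAut (Matrix.ProjectiveSpecialLinearGroup (Fin n) F)) (hγ : Cfsg.IsGraphAutClassPSL γ) (hγ2 : orderOf γ = 2) (hγ' : Cfsg.IsGraphAutClassPSL γ') (hγ'2 : orderOf γ' = 2) :
    Nonempty (↥(Cfsg.inndiagPSL n F ⊓ Subgroup.centralizer {γ}) ≃* Cfsg.PGO F (Cfsg.quadFormOdd m F)) ∧ Cfsg.IsConjUnder (Cfsg.inndiagPSL n F) γ γ' := by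
  classical
  have hn2 : 2 ≤ n := by omega
  have hcard : Fintype.card (Unit ⊕ (Fin m ⊕ Fin m)) = n := by
    simp only [Fintype.card_sum, Fintype.card_fin, Fintype.card_unit]
    omega
  let e : Unit ⊕ (Fin m ⊕ Fin m) ≃ Fin n := Fintype.equivFinOfCardEq hcard
  have hodd : ¬ Even n := by
    rw [Nat.not_even_iff_odd]
    exact ⟨m, hnm⟩
  obtain ⟨A₀, hconj, hcent⟩ : ∃ A₀ : GL (Fin n) F,
      (∀ A : GL (Fin n) F, orderOf (gam A) = 2 →
        Cfsg.IsConjUnder (Cfsg.inndiagPSL n F) (gam A₀) (gam A)) ∧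
      Nonempty (↥(Cfsg.inndiagPSL n F ⊓ Subgroup.centralizer {gam A₀})
        ≃* Cfsg.PGO F (Cfsg.quadFormOdd m F)) := by
    by_cases h2 : (2 : F) = 0
    · haveI : CharP F 2 := CharTwo.of_one_ne_zero_of_two_eq_zero one_ne_zero h2
      have hsq : ∀ a : F, ∃ b, b * b = a := by
        intro a
        obtain ⟨r, hr⟩ := FiniteField.isSquare_of_char_two (ringChar.eq F 2) a
        exact ⟨r, hr.symm⟩
      refine ⟨stdGL e (AOdd2 F m) (det_AOdd2 m), ?_, ?_⟩
      · intro A hA
        have hsym : (A : Matrix (Fin n) (Fin n) F)ᵀ = A := by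
          rcases (orderOf_gam hn A).1 hA with h | h
          · exact h
          · rw [h, neg_eq_mat]
        apply conj_of_two hsq hn2 _ _ (stdGL_transpose _ _ _ (AOdd2_transpose m)) hsym
        · refine ⟨e (Sum.inl ()), ?_⟩
          rw [stdGL_coe]
          simp [AOdd2]
        · by_contra hcon
          push Not at hcon
          have halt : IsAltM (A : Matrix (Fin n) (Fin n) F) := ⟨by rw [hsym, neg_eq_mat], hcon⟩
          have := even_card_of_alt _ halt (det_ne_zero A)
          rw [Fintype.card_fin] at this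
          exact hodd this
      · obtain ⟨e1⟩ := cent_std hn2 e (AOdd2 F m) (det_AOdd2 m)
        obtain ⟨e2⟩ := PGO_odd_two m hsq
        exact ⟨e1.trans e2.symm⟩
    · have hdet : (AOdd F m).det ≠ 0 := by
        rw [det_AOdd]
        exact mul_ne_zero h2 (pow_ne_zero _ (by simp))
      refine ⟨stdGL e (AOdd F m) hdet, ?_, ?_⟩
      · intro A hA
        have hsym : (A : Matrix (Fin n) (Fin n) F)ᵀ = A := by
          rcases (orderOf_gam hn A).1 hA with h | h
          · exact h
          · exfalso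
            have := even_card_of_alt _ (isAltM_of_skew h2 _ h) (det_ne_zero A)
            rw [Fintype.card_fin] at this
            exact hodd this
        apply conj_of_sq h2 hn2 _ _ (stdGL_transpose _ _ _ (AOdd_transpose m)) hsym
          ((stdGL e (AOdd F m) hdet : Matrix (Fin n) (Fin n) F).det * (A : Matrix (Fin n) (Fin n) F).det)
          (mul_ne_zero (det_ne_zero _) (det_ne_zero _))
        refine ⟨((stdGL e (AOdd F m) hdet : Matrix (Fin n) (Fin n) F).det
          * (A : Matrix (Fin n) (Fin n) F).det) ^ (m + 1), ?_⟩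
        generalize (stdGL e (AOdd F m) hdet : Matrix (Fin n) (Fin n) F).det = x
        generalize (A : Matrix (Fin n) (Fin n) F).det = y
        rw [hnm]
        ring
      · obtain ⟨e1⟩ := cent_std hn2 e (AOdd F m) hdet
        obtain ⟨e2⟩ := projQuot_of_eq _ _ (PGO_odd (F := F) m h2)
        exact ⟨e1.trans e2.symm⟩
  obtain ⟨A, rfl⟩ := (isGraph_iff hn γ).1 hγ
  obtain ⟨A', rfl⟩ := (isGraph_iff hn γ').1 hγ'
  have c1 := hconj A hγ2
  have c2 := hconj A' hγ'2
  refine ⟨?_, isConjUnder_trans _ (isConjUnder_symm _ c1) c2⟩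
  obtain ⟨e1⟩ := cent_of_isConj hn2 _ _ c1
  obtain ⟨e2⟩ := hcent
  exact ⟨e1.symm.trans e2⟩

end Cfsg.Agent.S2699
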