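import Cfsg.Statements.S2700
import Cfsg.Agent.Lib.Helper50GamEven

set_option autoImplicit false
open Cfsg

namespace Cfsg.Agent.S2700

open Cfsg.Agent.Lib.Helper50Aut Cfsg.Agent.Lib.Helper50AutStr Cfsg.Agent.Lib.Helper50Twist
  Cfsg.Agent.Lib.Helper50Cent Cfsg.Agent.Lib.Helper50GF Cfsg.Agent.Lib.Helper50Form
  Cfsg.Agent.Lib.Helper50Split Cfsg.Agent.Lib.Helper50Gam Cfsg.Agent.Lib.Helper50FormCl
  Cfsg.Agent.Lib.Helper50FormStd Cfsg.Agent.Lib.Helper50FormTwo Cfsg.Agent.Lib.Helper50FormTheta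
  Cfsg.Agent.Lib.Helper50GamCl Cfsg.Agent.Lib.Helper50GamEven
open scoped MatrixGroups Matrix


/-- Let T = PSL_n(F) over a finite field of odd order with n = 2m ≥ 4 even, and G = Inndiag(T) the image of PGL_n(F). The involutory graph automorphisms of T fall into exactly three G-classes, with representatives γ₁, γ₂, γ₃ whose centralizers in G are isomorphic respectively to the projective conformal symplectic group PGSp_n(F), the projective conformal orthogonal group of the plus-type form Σ xᵢ yᵢ, and that of a minus-type form Σ xᵢ yᵢ + z₁² + a z₁ z₂ + b z₂² (anisotropic binary part) in dimension n. -/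
theorem result {F : Type*} [Field F] [Fintype F] (hodd : Odd (Fintype.card F)) {n m : ℕ} (hm : 2 ≤ m) (hnm : n = 2 * m) :
    ∃ (γ₁ γ₂ γ₃ : MulAut (Matrix.ProjectiveSpecialLinearGroup (Fin n) F)) (a b : F), (∀ z₁ z₂ : F, z₁ ^ 2 + a * z₁ * z₂ + b * z₂ ^ 2 = 0 → z₁ = 0 ∧ z₂ = 0) ∧ Cfsg.IsGraphAutClassPSL γ₁ ∧ orderOf γ₁ = 2 ∧ Cfsg.IsGraphAutClassPSL γ₂ ∧ orderOf γ₂ = 2 ∧ Cfsg.IsGraphAutClassPSL γ₃ ∧ orderOf γ₃ = 2 ∧ ¬ Cfsg.IsConjUnder (Cfsg.inndiagPSL n F) γ₁ γ₂ ∧ ¬ Cfsg.IsConjUnder (Cfsg.inndiagPSL n F) γ₁ γ₃ ∧ ¬ Cfsg.IsConjUnder (Cfsg.inndiagPSL n F) γ₂ γ₃ ∧ (∀ γ : MulAut (Matrix.ProjectiveSpecialLinearGroup (Fin n) F), Cfsg.IsGraphAutClassPSL γ → orderOf γ = 2 → Cfsg.IsConjUnder (Cfsg.inndiagPSL n F) γ₁ γ ∨ Cfsg.IsConjUnder (Cfsg.inndiagPSL n F) γ₂ γ ∨ Cfsg.IsConjUnder (Cfsg.inndiagPSL n F) γ₃ γ) ∧ Nonempty (↥(Cfsg.inndiagPSL n F ⊓ Subgroup.centralizer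 {γ₁}) ≃* Cfsg.PGSp m F) ∧ Nonempty (↥(Cfsg.inndiagPSL n F ⊓ Subgroup.centralizer {γ₂}) ≃* Cfsg.PGO F (Cfsg.quadFormPlus m F)) ∧ Nonempty (↥(Cfsg.inndiagPSL n F ⊓ Subgroup.centralizer {γ₃}) ≃* Cfsg.PGO F (Cfsg.quadFormMinus (m - 1) F a b)) := by
  classical
  have hn : 3 ≤ n := by omega
  have hn2 : 2 ≤ n := by omega
  have hm1 : 1 ≤ m := by omega
  have h2 : (2 : F) ≠ 0 := two_ne_zero_of_odd hodd
  obtain ⟨α, hα⟩ := FiniteField.exists_nonsquare (ringChar_ne_two hodd)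
  have hα0 : α ≠ 0 := by
    rintro rfl
    exact hα ⟨0, by simp⟩
  refine ⟨gam (G1 hnm), gam (G2 hnm), gam (G3 h2 hm1 hnm α hα0), 0, -α, aniso α hα,
    (isGraph_iff hn _).2 ⟨_, rfl⟩, order_G1 hn hnm, (isGraph_iff hn _).2 ⟨_, rfl⟩, order_G2 hn hnm,
    (isGraph_iff hn _).2 ⟨_, rfl⟩, order_G3 hn h2 hm1 hnm α hα0,
    not_conj_alt hn2 _ _ (G1_alt hnm) (not_alt_of_sym h2 (by omega) _ (G2_sym hnm)),
    not_conj_alt hn2 _ _ (G1_alt hnm) (not_alt_of_sym h2 (by omega) _ (G3_sym h2 hm1 hnm α hα0)),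
    not_conj_G2_G3 h2 hn2 hm1 hnm α hα hα0, ?_, cent_G1 hn2 hnm, cent_G2 h2 hn2 hnm,
    cent_G3 h2 hn2 hm1 hnm α hα0⟩
  intro γ hγ hγ2
  obtain ⟨A, rfl⟩ := (isGraph_iff hn γ).1 hγ
  rcases (orderOf_gam hn A).1 hγ2 with h | h
  · by_cases hs : IsSquare ((-1) ^ m * (A : Matrix (Fin n) (Fin n) F).det)
    · exact Or.inr (Or.inl ((sym_class h2 hn2 hm1 hnm α hα hα0 A h).1 hs))
    · exact Or.inr (Or.inr ((sym_class h2 hn2 hm1 hnm α hα hα0 A h).2 hs))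
  · exact Or.inl (conj_of_alt hn2 _ _ (G1_alt hnm) (isAltM_of_skew h2 _ h))

end Cfsg.Agent.S2700
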