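import Cfsg.Statements.S2701
import Cfsg.Agent.Lib.Helper50GamEven

set_option autoImplicit false
open Cfsg

namespace Cfsg.Agent.S2701

open Cfsg.Agent.Lib.Helper50Aut Cfsg.Agent.Lib.Helper50AutStr Cfsg.Agent.Lib.Helper50Twist
  Cfsg.Agent.Lib.Helper50Cent Cfsg.Agent.Lib.Helper50GF Cfsg.Agent.Lib.Helper50Form
  Cfsg.Agent.Lib.Helper50Split Cfsg.Agent.Lib.Helper50Gam Cfsg.Agent.Lib.Helper50FormCl
  Cfsg.Agent.Lib.Helper50FormStd Cfsg.Agent.Lib.Helper50FormTwo Cfsg.Agent.Lib.Helper50FormTheta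
  Cfsg.Agent.Lib.Helper50GamCl Cfsg.Agent.Lib.Helper50GamEven
open scoped MatrixGroups Matrix


/-- Let T = PSL_n(F) over a finite field of characteristic 2 with n = 2m ≥ 4 even, and G = Inndiag(T) the image of PGL_n(F). The involutory graph automorphisms of T fall into exactly two G-classes, with representatives γ₁ and γ₃ whose centralizers in G are isomorphic respectively to the symplectic group Sp_n(F) and to the centralizer in Sp_n(F) of a symplectic transvection. -/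
theorem result {F : Type*} [Field F] [Fintype F] [CharP F 2] {n m : ℕ} (hm : 2 ≤ m) (hnm : n = 2 * m) :
    ∃ (γ₁ γ₃ : MulAut (Matrix.ProjectiveSpecialLinearGroup (Fin n) F)) (t : ↥(Matrix.symplecticGroup (Fin m) F)), Cfsg.IsTransvection (t : Matrix (Fin m ⊕ Fin m) (Fin m ⊕ Fin m) F) ∧ Cfsg.IsGraphAutClassPSL γ₁ ∧ orderOf γ₁ = 2 ∧ Cfsg.IsGraphAutClassPSL γ₃ ∧ orderOf γ₃ = 2 ∧ ¬ Cfsg.IsConjUnder (Cfsg.inndiagPSL n F) γ₁ γ₃ ∧ (∀ γ : MulAut (Matrix.ProjectiveSpecialLinearGroup (Fin n) F), Cfsg.IsGraphAutClassPSL γ → orderOf γ = 2 → Cfsg.IsConjUnder (Cfsg.inndiagPSL n F) γ₁ γ ∨ Cfsg.IsConjUnder (Cfsg.inndiagPSL n F) γ₃ γ) ∧ Nonempty (↥(Cfsg.inndiagPSL n F ⊓ Subgroup.centralizer {γ₁}) ≃* ↥(Matrix.symplecticGroup (Fin m) F)) ∧ Nonempty (↥(Cfsg.inndiagPSL n F ⊓ Subgroup.centralizer {γ₃}) ≃* ↥(Subgroup.centralizer ({t} : Set ↥(Matrix.symplecticGroup (Fin m) F)))) := by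
  classical
  have hn : 3 ≤ n := by omega
  have hn2 : 2 ≤ n := by omega
  have hm0 : 0 < m := by omega
  have hsq : ∀ a : F, ∃ b, b * b = a := by
    intro a
    obtain ⟨r, hr⟩ := FiniteField.isSquare_of_char_two (ringChar.eq F 2) a
    exact ⟨r, hr.symm⟩
  obtain ⟨e₁, he₁⟩ : ∃ e₁ : Fin m ⊕ Fin m → F, e₁ ≠ 0 := by
    refine ⟨Pi.single (Sum.inl ⟨0, hm0⟩) 1, ?_⟩
    intro h
    have := congrFun h (Sum.inl ⟨0, hm0⟩)
    simp at this
  have hsym3 : ((stdGL (eP hnm) (AEv m e₁) (det_AEv m e₁) : GL (Fin n) F) : Matrix (Fin n) (Fin n) F)ᵀ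
      = (stdGL (eP hnm) (AEv m e₁) (det_AEv m e₁) : GL (Fin n) F) :=
    stdGL_transpose _ _ _ (AEv_transpose m e₁)
  have hdiag3 : ∃ i, ((stdGL (eP hnm) (AEv m e₁) (det_AEv m e₁) : GL (Fin n) F)
      : Matrix (Fin n) (Fin n) F) i i ≠ 0 := by
    obtain ⟨k, hk⟩ := AEv_diag m e₁ he₁
    refine ⟨eP hnm k, ?_⟩
    rw [stdGL_coe]
    simpa using hk
  refine ⟨gam (G1 hnm), gam (stdGL (eP hnm) (AEv m e₁) (det_AEv m e₁)), tSp m e₁,
    tSp_isTransvection m e₁ he₁, (isGraph_iff hn _).2 ⟨_, rfl⟩, order_G1 hn hnm,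
    (isGraph_iff hn _).2 ⟨_, rfl⟩, (orderOf_gam hn _).2 (Or.inl hsym3),
    not_conj_alt hn2 _ _ (G1_alt hnm) ?_, ?_, ?_, ?_⟩
  · intro h
    obtain ⟨i, hi⟩ := hdiag3
    exact hi (h.2 i)
  · intro γ hγ hγ2
    obtain ⟨A, rfl⟩ := (isGraph_iff hn γ).1 hγ
    have hsym : (A : Matrix (Fin n) (Fin n) F)ᵀ = A := by
      rcases (orderOf_gam hn A).1 hγ2 with h | h
      · exact h
      · rw [h, neg_eq_mat]
    by_cases hd : ∃ i, (A : Matrix (Fin n) (Fin n) F) i i ≠ 0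
    · exact Or.inr (conj_of_two hsq hn2 _ _ hsym3 hsym hdiag3 hd)
    · push Not at hd
      exact Or.inl (conj_of_alt hn2 _ _ (G1_alt hnm) ⟨by rw [hsym, neg_eq_mat], hd⟩)
  · obtain ⟨e1⟩ := cent_std hn2 (eP hnm) (Matrix.J (Fin m) F) (det_J_ne_zero m)
    obtain ⟨e2⟩ := projQuot_equiv_isoT hsq (Matrix.J (Fin m) F) (by
      intro h
      apply det_J_ne_zero (F := F) m
      rw [h]
      haveI : Nonempty (Fin m ⊕ Fin m) := ⟨Sum.inl ⟨0, hm0⟩⟩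
      exact Matrix.det_zero)
    obtain ⟨e3⟩ := sp_equiv_isoT (F := F) m
    exact ⟨(e1.trans e2).trans e3.symm⟩
  · obtain ⟨e1⟩ := cent_std hn2 (eP hnm) (AEv m e₁) (det_AEv m e₁)
    obtain ⟨e2⟩ := projQuot_equiv_isoT hsq (AEv m e₁) (by
      intro h
      apply det_AEv (F := F) m e₁
      rw [h]
      haveI : Nonempty (Fin m ⊕ Fin m) := ⟨Sum.inl ⟨0, hm0⟩⟩
      exact Matrix.det_zero)
    obtain ⟨e3⟩ := isoT_AEv_equiv m e₁ he₁
    exact ⟨(e1.trans e2).trans e3⟩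

end Cfsg.Agent.S2701
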