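import Cfsg.Statements.S2702
import Cfsg.Agent.Lib.Helper50GamSplit

set_option autoImplicit false
open Cfsg

namespace Cfsg.Agent.S2702

open Cfsg.Agent.Lib.Helper50Aut Cfsg.Agent.Lib.Helper50AutStr Cfsg.Agent.Lib.Helper50Twist
  Cfsg.Agent.Lib.Helper50Cent Cfsg.Agent.Lib.Helper50GF Cfsg.Agent.Lib.Helper50Form
  Cfsg.Agent.Lib.Helper50Split Cfsg.Agent.Lib.Helper50Gam Cfsg.Agent.Lib.Helper50FormCl
  Cfsg.Agent.Lib.Helper50FormStd Cfsg.Agent.Lib.Helper50FormTwo Cfsg.Agent.Lib.Helper50FormTheta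
  Cfsg.Agent.Lib.Helper50GamCl Cfsg.Agent.Lib.Helper50GamEven Cfsg.Agent.Lib.Helper50FormDet
  Cfsg.Agent.Lib.Helper50GamSplit
open scoped MatrixGroups Matrix


/-- Let T = PSL_n(F) over the field with q = p^f elements, n ≥ 3, G = Inndiag(T) the image of PGL_n(F), and γ an involutory graph automorphism of T. The G-class of γ is the union of exactly c T-classes, where: if n is even and q is odd, c = gcd(n/2, q − 1) when C_G(γ) is isomorphic to the projective conformal symplectic group PGSp_n(F) (symplectic type) and c = gcd(n, q − 1)/2 otherwise; and c = gcd(n, q − 1) when n is odd or q is even. -/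
theorem result {F : Type*} [Field F] [Fintype F] {p f : ℕ} [Fact p.Prime] (hF : Fintype.card F = p ^ f) (hf : 1 ≤ f) {n : ℕ} (hn : 3 ≤ n) (γ : MulAut (Matrix.ProjectiveSpecialLinearGroup (Fin n) F)) (hγ : Cfsg.IsGraphAutClassPSL γ) (hγ2 : orderOf γ = 2) :
    ((Even n ∧ Odd p ∧ Nonempty (↥(Cfsg.inndiagPSL n F ⊓ Subgroup.centralizer {γ}) ≃* Cfsg.PGSp (n / 2) F)) → Cfsg.splitClassCount (Cfsg.inndiagPSL n F) (Cfsg.Inn (Matrix.ProjectiveSpecialLinearGroup (Fin n) F)) γ = Nat.gcd (n / 2) (p ^ f - 1)) ∧ ((Even n ∧ Odd p ∧ ¬ Nonempty (↥(Cfsg.inndiagPSL n F ⊓ Subgroup.centralizer {γ}) ≃* Cfsg.PGSp (n / 2) F)) → Cfsg.splitClassCount (Cfsg.inndiagPSL n F) (Cfsg.Inn (Matrix.ProjectiveSpecialLinearGroup (Fin n) F)) γ = Nat.gcd n (p ^ f - 1) / 2) ∧ (¬ (Even n ∧ Odd p) → Cfsg.splitClassCount (Cfsg.inndiagPSL n F) (Cfsg.Inn (Matrix.ProjectiveSpecialLinearGroup (Fin n) F)) γ = Nat.gcd n (p ^ f - 1)) := by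
  classical
  have hn2 : 2 ≤ n := by omega
  obtain ⟨A, rfl⟩ := (isGraph_iff hn γ).1 hγ
  have hord := (orderOf_gam hn A).1 hγ2
  rw [← hF]
  have hN' : (Cfsg.inndiagPSL n F).Normal := by
    rw [inndiag_eq]
    exact normal_range_cHom hn2
  have hoddF : Odd p → Odd (Fintype.card F) := by
    intro hp
    rw [hF]
    exact hp.pow
  have hq3 : Odd (Fintype.card F) → 3 ≤ Fintype.card F := by
    rintro ⟨t, ht⟩
    have := Fintype.one_lt_card (α := F)
    omega
  refine ⟨?_, ?_, ?_⟩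
  · rintro ⟨⟨m, hm⟩, hp, hiso⟩
    have hnm : n = 2 * m := by omega
    have hdiv : n / 2 = m := by omega
    rw [hdiv] at hiso ⊢
    have h2 := two_ne_zero_of_odd (hoddF hp)
    rcases hord with h | h
    · exfalso
      obtain ⟨e1⟩ := centralizer_equiv hn2 A
      obtain ⟨e2⟩ := hiso
      exact not_iso_PGSp h2 (by omega) hnm (A : Matrix (Fin n) (Fin n) F) h (det_ne_zero A)
        ⟨e1.symm.trans e2⟩
    · obtain ⟨α, -, hα⟩ := conj_of_alt hn2 (G1 hnm) A (G1_alt hnm) (isAltM_of_skew h2 _ h)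
      rw [hα, splitClassCount_conj, split_G1 (by omega) (hq3 (hoddF hp)) hnm]
  · rintro ⟨⟨m, hm⟩, hp, hiso⟩
    have hnm : n = 2 * m := by omega
    have hdiv : n / 2 = m := by omega
    rw [hdiv] at hiso
    have h2 := two_ne_zero_of_odd (hoddF hp)
    rcases hord with h | h
    · exact split_sym h2 (by omega) hnm A h
    · exfalso
      apply hiso
      obtain ⟨e1⟩ := cent_of_isConj hn2 _ _
        (conj_of_alt hn2 (G1 hnm) A (G1_alt hnm) (isAltM_of_skew h2 _ h))
      obtain ⟨e2⟩ := cent_G1 (F := F) hn2 hnm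
      exact ⟨e1.symm.trans e2⟩
  · intro hne
    by_cases hev : Even n
    · have hp2 : p = 2 := by
        rcases (Fact.out : p.Prime).eq_two_or_odd' with h | h
        · exact h
        · exact absurd ⟨hev, h⟩ hne
      have h20 : (2 : F) = 0 := by
        have h1 := Nat.cast_card_eq_zero F
        rw [hF, hp2] at h1
        push_cast at h1
        exact pow_eq_zero_iff (by omega) |>.1 h1
      haveI : CharP F 2 := CharTwo.of_one_ne_zero_of_two_eq_zero one_ne_zero h20
      have hsq : ∀ a : F, ∃ b, b * b = a := by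
        intro a
        obtain ⟨r, hr⟩ := FiniteField.isSquare_of_char_two (ringChar.eq F 2) a
        exact ⟨r, hr.symm⟩
      exact split_trivial hn2 A (det_mem_of_two hsq A)
    · obtain ⟨k, hk⟩ := Nat.not_even_iff_odd.1 hev
      exact split_trivial hn2 A (det_mem_of_odd hk A)

end Cfsg.Agent.S2702
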