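import Cfsg.Statements.S2703
import Cfsg.Agent.Lib.Helper50GamEven

set_option autoImplicit false
open Cfsg

namespace Cfsg.Agent.S2703

open Cfsg.Agent.Lib.Helper50Aut Cfsg.Agent.Lib.Helper50AutStr Cfsg.Agent.Lib.Helper50Twist
  Cfsg.Agent.Lib.Helper50Cent Cfsg.Agent.Lib.Helper50GF Cfsg.Agent.Lib.Helper50Form
  Cfsg.Agent.Lib.Helper50Split Cfsg.Agent.Lib.Helper50Gam Cfsg.Agent.Lib.Helper50FormCl
  Cfsg.Agent.Lib.Helper50FormStd Cfsg.Agent.Lib.Helper50FormTwo Cfsg.Agent.Lib.Helper50FormTheta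
  Cfsg.Agent.Lib.Helper50GamCl Cfsg.Agent.Lib.Helper50GamEven
open scoped MatrixGroups Matrix


/-- Let T = PSL_n(F) over the field with q elements, q odd, n = 2m ≥ 4 even, and ι the inverse-transpose automorphism. Its centralizer in G = Inndiag(T) (the image of PGL_n(F)) is isomorphic to the projective conformal orthogonal group of the plus-type form Σ xᵢ yᵢ in dimension n when n(q − 1)/4 is even, and to that of a minus-type form (Σ xᵢ yᵢ + z₁² + a z₁ z₂ + b z₂² with anisotropic binary part) when n(q − 1)/4 is odd. -/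
theorem result {F : Type*} [Field F] [Fintype F] (hodd : Odd (Fintype.card F)) {n m : ℕ} (hm : 2 ≤ m) (hnm : n = 2 * m) (ι : MulAut (Matrix.ProjectiveSpecialLinearGroup (Fin n) F)) (hι : Cfsg.IsInverseTransposeAutPSL ι) :
    (Even (n * (Fintype.card F - 1) / 4) → Nonempty (↥(Cfsg.inndiagPSL n F ⊓ Subgroup.centralizer {ι}) ≃* Cfsg.PGO F (Cfsg.quadFormPlus m F))) ∧ (¬ Even (n * (Fintype.card F - 1) / 4) → ∃ a b : F, (∀ z₁ z₂ : F, z₁ ^ 2 + a * z₁ * z₂ + b * z₂ ^ 2 = 0 → z₁ = 0 ∧ z₂ = 0) ∧ Nonempty (↥(Cfsg.inndiagPSL n F ⊓ Subgroup.centralizer {ι}) ≃* Cfsg.PGO F (Cfsg.quadFormMinus (m - 1) F a b))) := by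
  classical
  have hn : 3 ≤ n := by omega
  have hn2 : 2 ≤ n := by omega
  have hm1 : 1 ≤ m := by omega
  have h2 : (2 : F) ≠ 0 := two_ne_zero_of_odd hodd
  obtain ⟨α, hα⟩ := FiniteField.exists_nonsquare (ringChar_ne_two hodd)
  have hα0 : α ≠ 0 := by
    rintro rfl
    exact hα ⟨0, by simp⟩
  have hι1 : ι = gam (1 : GL (Fin n) F) := by
    rw [(isInvT_iff ι).1 hι, gam, inv_one, map_one, one_mul]
  have hsym : ((1 : GL (Fin n) F) : Matrix (Fin n) (Fin n) F)ᵀ = (1 : GL (Fin n) F) := by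
    rw [Units.val_one, Matrix.transpose_one]
  have hdet : ((1 : GL (Fin n) F) : Matrix (Fin n) (Fin n) F).det = 1 := by
    rw [Units.val_one, Matrix.det_one]
  have hiff : Even (n * (Fintype.card F - 1) / 4) ↔ IsSquare ((-1 : F) ^ m * 1) := by
    rw [mul_one]
    obtain ⟨t, ht⟩ := hodd
    have e1 : n * (Fintype.card F - 1) / 4 = m * t := by
      rw [ht, hnm, Nat.add_sub_cancel]
      have : 2 * m * (2 * t) = 4 * (m * t) := by ring
      rw [this, Nat.mul_div_cancel_left _ (by norm_num)]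
    rw [e1, Nat.even_mul]
    rcases Nat.even_or_odd m with hm' | hm'
    · rw [hm'.neg_one_pow]
      exact ⟨fun _ => ⟨1, by simp⟩, fun _ => Or.inl hm'⟩
    · rw [hm'.neg_one_pow, FiniteField.isSquare_neg_one_iff, ht]
      constructor
      · rintro (h | h)
        · exact absurd h (Nat.not_even_iff_odd.2 hm')
        · obtain ⟨s, hs⟩ := h
          omega
      · intro h
        right
        rw [Nat.even_iff]
        omega
  rw [hι1]
  constructor
  · intro h
    have hc := (sym_class h2 hn2 hm1 hnm α hα hα0 1 hsym).1 (by rw [hdet]; exact hiff.1 h)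
    obtain ⟨e1⟩ := cent_of_isConj hn2 _ _ hc
    obtain ⟨e2⟩ := cent_G2 (F := F) h2 hn2 hnm
    exact ⟨e1.symm.trans e2⟩
  · intro h
    have hc := (sym_class h2 hn2 hm1 hnm α hα hα0 1 hsym).2 (by rw [hdet]; exact fun h' => h (hiff.2 h'))
    obtain ⟨e1⟩ := cent_of_isConj hn2 _ _ hc
    obtain ⟨e2⟩ := cent_G3 (F := F) h2 hn2 hm1 hnm α hα0
    exact ⟨0, -α, aniso α hα, ⟨e1.symm.trans e2⟩⟩

end Cfsg.Agent.S2703
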