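import Cfsg.Statements.S2704
import Cfsg.Agent.Lib.Helper50GF

set_option autoImplicit false
open Cfsg

namespace Cfsg.Agent.S2704

open Cfsg.Agent.Lib.Helper50Aut Cfsg.Agent.Lib.Helper50AutStr Cfsg.Agent.Lib.Helper50Twist
  Cfsg.Agent.Lib.Helper50Split Cfsg.Agent.Lib.Helper50Cent Cfsg.Agent.Lib.Helper50Out Cfsg.Agent.Lib.Helper50GF

theorem orderOf_conj' {X : Type*} [Group X] (a x : X) : orderOf (a * x * a⁻¹) = orderOf x :=
  orderOf_injective (MulAut.conj a).toMonoidHom (MulAut.conj a).injective x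

/-- normal form of an involutory graph-field automorphism -/
theorem normal_form {F : Type*} [Field F] [Fintype F] {n : ℕ} (hn : 3 ≤ n)
    (x : MulAut (Matrix.ProjectiveSpecialLinearGroup (Fin n) F))
    (hx : Cfsg.IsGraphFieldAutClassPSL x) (hx2 : orderOf x = 2) :
    ∃ (α : MulAut (Matrix.ProjectiveSpecialLinearGroup (Fin n) F)) (σ : F ≃+* F), σ ≠ 1 ∧ σ * σ = 1 ∧
      α * x * α⁻¹ = fHom σ * iota := by
  obtain ⟨-, α, φ, γ, σ, hσ, hφ, hγ, hα⟩ := hx
  rw [isStdField_iff] at hφ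
  rw [isInvT_iff] at hγ
  subst hφ hγ
  refine ⟨α, σ, hσ, ?_, hα⟩
  have hot : orderOf (fHom σ * iota : MulAut (Matrix.ProjectiveSpecialLinearGroup (Fin n) F)) = 2 := by
    rw [← hα, orderOf_conj', hx2]
  have hcomm : Commute (fHom σ : MulAut (Matrix.ProjectiveSpecialLinearGroup (Fin n) F)) iota :=
    (iota_mul_fHom σ).symm
  have hpow : (fHom σ : MulAut (Matrix.ProjectiveSpecialLinearGroup (Fin n) F)) ^ 2 * iota ^ 2 = 1 := by
    rw [← hcomm.mul_pow, ← hot]; exact pow_orderOf_eq_one _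
  have hi2 : (iota : MulAut (Matrix.ProjectiveSpecialLinearGroup (Fin n) F)) ^ 2 = 1 := by
    rw [pow_two]; exact iota_mul_self
  rw [hi2, mul_one, ← map_pow] at hpow
  rw [← pow_two]
  exact fHom_injective (n := n) (by omega) (by rw [hpow, map_one])


/-- Let T = PSL_n(F) over the field F with p^f elements, n ≥ 3, and G = Inndiag(T) the image of PGL_n(F). If x is an involutory graph-field automorphism of T then f is even; x is G-conjugate to every other involutory graph-field automorphism; C_G(x) is isomorphic to the projective general unitary group PGU_n(q₀) with q₀² = p^f, realised over F itself through the Hermitian form Σ uᵢ vᵢ^{q₀}; and the G-class of x is the union of exactly gcd(n, q₀ − 1) T-classes. -/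
theorem result {F : Type*} [Field F] [Fintype F] {p f : ℕ} [Fact p.Prime] (hF : Fintype.card F = p ^ f) (hf : 1 ≤ f) {n : ℕ} (hn : 3 ≤ n) (x : MulAut (Matrix.ProjectiveSpecialLinearGroup (Fin n) F)) (hx : Cfsg.IsGraphFieldAutClassPSL x) (hx2 : orderOf x = 2) :
    Even f ∧ (∀ y : MulAut (Matrix.ProjectiveSpecialLinearGroup (Fin n) F), Cfsg.IsGraphFieldAutClassPSL y → orderOf y = 2 → Cfsg.IsConjUnder (Cfsg.inndiagPSL n F) x y) ∧ Nonempty (↥(Cfsg.inndiagPSL n F ⊓ Subgroup.centralizer {x}) ≃* Cfsg.PGU n F (p ^ (f / 2))) ∧ Cfsg.splitClassCount (Cfsg.inndiagPSL n F) (Cfsg.Inn (Matrix.ProjectiveSpecialLinearGroup (Fin n) F)) x = Nat.gcd n (p ^ (f / 2) - 1) := by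
  have hn2 : 2 ≤ n := by omega
  have hN := normal_range_cHom (F := F) hn2
  obtain ⟨α, σ, hσ, hσ2, hα⟩ := normal_form hn x hx hx2
  obtain ⟨hcyc, hcard⟩ := ringAut_cyclic_card hF
  have hfin : Finite (F ≃+* F) :=
    Finite.of_injective (fun τ : F ≃+* F => (τ : F → F)) DFunLike.coe_injective
  have hord : orderOf σ = 2 := orderOf_eq_prime (by rw [pow_two]; exact hσ2) hσ
  have h2f : 2 ∣ f := by
    rw [← hord, ← hcard]; exact orderOf_dvd_natCard σ
  have hF2 : Fintype.card F = (p ^ (f / 2)) ^ 2 := by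
    rw [hF, ← pow_mul, Nat.div_mul_cancel h2f]
  refine ⟨even_iff_two_dvd.2 h2f, ?_, ?_, ?_⟩
  · intro y hy hy2
    obtain ⟨α', σ', hσ', hσ2', hα'⟩ := normal_form hn y hy hy2
    have hord' : orderOf σ' = 2 := orderOf_eq_prime (by rw [pow_two]; exact hσ2') hσ'
    have e : σ' = σ := unique_involution hord' hord
    subst e
    rw [inndiag_eq]
    have h1 := conj_under_N hn2 _ (gf_commute_fHom σ') (gf_commute_iota σ') α x hα
    have h2 := conj_under_N hn2 _ (gf_commute_fHom σ') (gf_commute_iota σ') α' y hα'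
    exact isConjUnder_trans _ (isConjUnder_symm _ h1) h2
  · rw [inndiag_eq]
    obtain ⟨e1⟩ := centralizer_conj_equiv (cHom : GL (Fin n) F →* _).range α x
    rw [hα] at e1
    obtain ⟨e2⟩ := gf_centralizer_equiv hn2 hF2 σ hσ hσ2
    exact ⟨e1.trans e2⟩
  · have hN' : (Cfsg.inndiagPSL n F).Normal := by rw [inndiag_eq]; exact hN
    rw [← splitClassCount_conj _ _ α x, hα, gf_split_count hn2 hF2 σ hσ hσ2]

end Cfsg.Agent.S2704
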