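import Cfsg.Statements.S2707
import Cfsg.Agent.Lib.Helper50UCor
import Cfsg.Agent.S2700

set_option autoImplicit false
open Cfsg

namespace Cfsg.Agent.S2707

open Cfsg.Agent.Lib.Helper50UAut Cfsg.Agent.Lib.Helper50UOut Cfsg.Agent.Lib.Helper50UH90
  Cfsg.Agent.Lib.Helper50UTw Cfsg.Agent.Lib.Helper50UGam Cfsg.Agent.Lib.Helper50UDesc
  Cfsg.Agent.Lib.Helper50URep Cfsg.Agent.Lib.Helper50UCor Cfsg.Agent.Lib.Helper50Gam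
open scoped MatrixGroups Matrix


/-- Let T = PSU_n(q) with n = 2m ≥ 4 even and q odd, realised over the field F with q² elements, and G = Inndiag(T) the image of PGU_n(q). The involutory graph automorphisms of T fall into exactly three G-classes, with representatives whose centralizers in G are isomorphic respectively to the projective conformal symplectic group PGSp_n(F₀), the projective conformal orthogonal group of the plus-type form Σ xᵢ yᵢ, and that of a minus-type form Σ xᵢ yᵢ + z₁² + a z₁ z₂ + b z₂² (anisotropic binary part) in dimension n, all over a field F₀ with q elements. -/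
theorem result {F : Type*} [Field F] [Fintype F] {q : ℕ} (hodd : Odd q) (hF : Fintype.card F = q ^ 2) {n m : ℕ} (hm : 2 ≤ m) (hnm : n = 2 * m) (F₀ : Type*) [Field F₀] [Fintype F₀] (hF₀ : Fintype.card F₀ = q) :
    ∃ (γ₁ γ₂ γ₃ : MulAut (Cfsg.PSU n F q)) (a b : F₀), (∀ z₁ z₂ : F₀, z₁ ^ 2 + a * z₁ * z₂ + b * z₂ ^ 2 = 0 → z₁ = 0 ∧ z₂ = 0) ∧ Cfsg.IsGraphAutClassPSU γ₁ ∧ orderOf γ₁ = 2 ∧ Cfsg.IsGraphAutClassPSU γ₂ ∧ orderOf γ₂ = 2 ∧ Cfsg.IsGraphAutClassPSU γ₃ ∧ orderOf γ₃ = 2 ∧ ¬ Cfsg.IsConjUnder (Cfsg.inndiagPSU n F q) γ₁ γ₂ ∧ ¬ Cfsg.IsConjUnder (Cfsg.inndiagPSU n F q) γ₁ γ₃ ∧ ¬ Cfsg.IsConjUnder (Cfsg.inndiagPSU n F q) γ₂ γ₃ ∧ (∀ γ : MulAut (Cfsg.PSU n F q), Cfsg.IsGraphAutClassPSU γ → orderOf γ = 2 → Cfsg.IsConjUnder (Cfsg.inndiagPSU n F q) γ₁ γ ∨ Cfsg.IsConjUnder (Cfsg.inndiagPSU n F q) γ₂ γ ∨ Cfsg.IsConjUnder (Cfsg.inndiagPSU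 n F q) γ₃ γ) ∧ Nonempty (↥(Cfsg.inndiagPSU n F q ⊓ Subgroup.centralizer {γ₁}) ≃* Cfsg.PGSp m F₀) ∧ Nonempty (↥(Cfsg.inndiagPSU n F q ⊓ Subgroup.centralizer {γ₂}) ≃* Cfsg.PGO F₀ (Cfsg.quadFormPlus m F₀)) ∧ Nonempty (↥(Cfsg.inndiagPSU n F q ⊓ Subgroup.centralizer {γ₃}) ≃* Cfsg.PGO F₀ (Cfsg.quadFormMinus (m - 1) F₀ a b)) := by
  classical
  have hn : 3 ≤ n := by omega
  obtain ⟨j, hj⟩ := exists_j hF hF₀
  obtain ⟨κ, η, hp, hp2⟩ := exists_par' hj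
  obtain ⟨β₁, β₂, β₃, a, b, hab, g1, o1, g2, o2, g3, o3, n12, n13, n23, hall, ⟨c1⟩, ⟨c2⟩, ⟨c3⟩⟩ :=
    Cfsg.Agent.S2700.result (F := F₀) (by rw [hF₀]; exact hodd) hm hnm
  obtain ⟨γ₁, h1⟩ := exists_corU (hF := hF) hj hn hp β₁ g1 o1
  obtain ⟨γ₂, h2⟩ := exists_corU (hF := hF) hj hn hp β₂ g2 o2
  obtain ⟨γ₃, h3⟩ := exists_corU (hF := hF) hj hn hp β₃ g3 o3
  obtain ⟨e1⟩ := h1.cent hj hn hp
  obtain ⟨e2⟩ := h2.cent hj hn hp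
  obtain ⟨e3⟩ := h3.cent hj hn hp
  refine ⟨γ₁, γ₂, γ₃, a, b, hab, (h1.graphU hn).1, (h1.graphU hn).2, (h2.graphU hn).1,
    (h2.graphU hn).2, (h3.graphU hn).1, (h3.graphU hn).2,
    fun h => n12 ((h1.conj_iff hj hn hp hp2 h2).1 h), fun h => n13 ((h1.conj_iff hj hn hp hp2 h3).1 h),
    fun h => n23 ((h2.conj_iff hj hn hp hp2 h3).1 h), ?_, ⟨e1.trans c1⟩, ⟨e2.trans c2⟩, ⟨e3.trans c3⟩⟩
  intro γ hγ hγ2
  obtain ⟨β, hβ⟩ := exists_corL hj hp γ hγ hγ2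
  rcases hall β (hβ.graphL hn).1 (hβ.graphL hn).2 with h | h | h
  · exact Or.inl ((h1.conj_iff hj hn hp hp2 hβ).2 h)
  · exact Or.inr (Or.inl ((h2.conj_iff hj hn hp hp2 hβ).2 h))
  · exact Or.inr (Or.inr ((h3.conj_iff hj hn hp hp2 hβ).2 h))

end Cfsg.Agent.S2707
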