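import Cfsg.Statements.S2708
import Cfsg.Agent.Lib.Helper50UCor
import Cfsg.Agent.S2701

set_option autoImplicit false
open Cfsg

namespace Cfsg.Agent.S2708

open Cfsg.Agent.Lib.Helper50UAut Cfsg.Agent.Lib.Helper50UOut Cfsg.Agent.Lib.Helper50UH90
  Cfsg.Agent.Lib.Helper50UTw Cfsg.Agent.Lib.Helper50UGam Cfsg.Agent.Lib.Helper50UDesc
  Cfsg.Agent.Lib.Helper50URep Cfsg.Agent.Lib.Helper50UCor Cfsg.Agent.Lib.Helper50Gam
open scoped MatrixGroups Matrix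


/-- Let T = PSU_n(q) with n = 2m ≥ 4 even and q even, realised over the field F (of characteristic 2) with q² elements, and G = Inndiag(T) the image of PGU_n(q). The involutory graph automorphisms of T fall into exactly two G-classes, with representatives whose centralizers in G are isomorphic respectively to the symplectic group Sp_n(F₀) and to the centralizer in Sp_n(F₀) of a symplectic transvection, F₀ a field with q elements. -/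
theorem result {F : Type*} [Field F] [Fintype F] [CharP F 2] {q : ℕ} (hF : Fintype.card F = q ^ 2) {n m : ℕ} (hm : 2 ≤ m) (hnm : n = 2 * m) (F₀ : Type*) [Field F₀] [Fintype F₀] (hF₀ : Fintype.card F₀ = q) :
    ∃ (γ₁ γ₃ : MulAut (Cfsg.PSU n F q)) (t : ↥(Matrix.symplecticGroup (Fin m) F₀)), Cfsg.IsTransvection (t : Matrix (Fin m ⊕ Fin m) (Fin m ⊕ Fin m) F₀) ∧ Cfsg.IsGraphAutClassPSU γ₁ ∧ orderOf γ₁ = 2 ∧ Cfsg.IsGraphAutClassPSU γ₃ ∧ orderOf γ₃ = 2 ∧ ¬ Cfsg.IsConjUnder (Cfsg.inndiagPSU n F q) γ₁ γ₃ ∧ (∀ γ : MulAut (Cfsg.PSU n F q), Cfsg.IsGraphAutClassPSU γ → orderOf γ = 2 → Cfsg.IsConjUnder (Cfsg.inndiagPSU n F q) γ₁ γ ∨ Cfsg.IsConjUnder (Cfsg.inndiagPSU n F q) γ₃ γ) ∧ Nonempty (↥(Cfsg.inndiagPSU n F q ⊓ Subgroup.centralizer {γ₁}) ≃* ↥(Matrix.symplecticGroup (Fin m) F₀)) ∧ Nonempty (↥(Cfsg.inndiagPSU n F q ⊓ Subgroup.centralizer {γ₃}) ≃* ↥(Subgroup.centralizer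 ({t} : Set ↥(Matrix.symplecticGroup (Fin m) F₀)))) := by
  classical
  have hn : 3 ≤ n := by omega
  obtain ⟨j, hj⟩ := exists_j hF hF₀
  obtain ⟨κ, η, hp, hp2⟩ := exists_par' hj
  haveI : CharP F₀ 2 := (j.charP_iff_charP 2).2 inferInstance
  obtain ⟨β₁, β₃, t, ht, g1, o1, g3, o3, n13, hall, ⟨c1⟩, ⟨c3⟩⟩ :=
    Cfsg.Agent.S2701.result (F := F₀) hm hnm
  obtain ⟨γ₁, h1⟩ := exists_corU (hF := hF) hj hn hp β₁ g1 o1
  obtain ⟨γ₃, h3⟩ := exists_corU (hF := hF) hj hn hp β₃ g3 o3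
  obtain ⟨e1⟩ := h1.cent hj hn hp
  obtain ⟨e3⟩ := h3.cent hj hn hp
  refine ⟨γ₁, γ₃, t, ht, (h1.graphU hn).1, (h1.graphU hn).2, (h3.graphU hn).1, (h3.graphU hn).2,
    fun h => n13 ((h1.conj_iff hj hn hp hp2 h3).1 h), ?_, ⟨e1.trans c1⟩, ⟨e3.trans c3⟩⟩
  intro γ hγ hγ2
  obtain ⟨β, hβ⟩ := exists_corL hj hp γ hγ hγ2
  rcases hall β (hβ.graphL hn).1 (hβ.graphL hn).2 with h | h
  · exact Or.inl ((h1.conj_iff hj hn hp hp2 hβ).2 h)
  · exact Or.inr ((h3.conj_iff hj hn hp hp2 hβ).2 h)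

end Cfsg.Agent.S2708
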