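import Cfsg.Statements.S2709
import Cfsg.Agent.Lib.Helper50USplit

set_option autoImplicit false
open Cfsg

namespace Cfsg.Agent.S2709

open Cfsg.Agent.Lib.Helper50UAut Cfsg.Agent.Lib.Helper50UOut Cfsg.Agent.Lib.Helper50UH90
  Cfsg.Agent.Lib.Helper50UTw Cfsg.Agent.Lib.Helper50UGam Cfsg.Agent.Lib.Helper50UDesc
  Cfsg.Agent.Lib.Helper50URep Cfsg.Agent.Lib.Helper50UCor Cfsg.Agent.Lib.Helper50Gam
  Cfsg.Agent.Lib.Helper50USplit Cfsg.Agent.Lib.Helper50GamCl Cfsg.Agent.Lib.Helper50GamEven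
  Cfsg.Agent.Lib.Helper50FormDet Cfsg.Agent.Lib.Helper50FormCl Cfsg.Agent.Lib.Helper50Split
  Cfsg.Agent.Lib.Helper50Form
open scoped MatrixGroups Matrix


/-- Let T = PSU_n(q) be simple (n ≥ 3, (n,q) ≠ (3,2), q = p^f), realised over the field F with q² elements, G = Inndiag(T) the image of PGU_n(q), and γ an involutory graph automorphism of T. The G-class of γ is the union of exactly c T-classes, where: if n is even and q is odd, c = gcd(n/2, q + 1) when C_G(γ) is isomorphic to PGSp_n(F₀) for a field F₀ with q elements (symplectic type) and c = gcd(n, q + 1)/2 otherwise; and c = gcd(n, q + 1) when n is odd or q is even. -/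
theorem result {F : Type*} [Field F] [Fintype F] {p f q : ℕ} [Fact p.Prime] (hq : q = p ^ f) (hf : 1 ≤ f) (hF : Fintype.card F = q ^ 2) {n : ℕ} (hn : 3 ≤ n) (hs : ¬ (n = 3 ∧ q = 2)) (F₀ : Type*) [Field F₀] [Fintype F₀] (hF₀ : Fintype.card F₀ = q) (γ : MulAut (Cfsg.PSU n F q)) (hγ : Cfsg.IsGraphAutClassPSU γ) (hγ2 : orderOf γ = 2) :
    ((Even n ∧ Odd q ∧ Nonempty (↥(Cfsg.inndiagPSU n F q ⊓ Subgroup.centralizer {γ}) ≃* Cfsg.PGSp (n / 2) F₀)) → Cfsg.splitClassCount (Cfsg.inndiagPSU n F q) (Cfsg.Inn (Cfsg.PSU n F q)) γ = Nat.gcd (n / 2) (q + 1)) ∧ ((Even n ∧ Odd q ∧ ¬ Nonempty (↥(Cfsg.inndiagPSU n F q ⊓ Subgroup.centralizer {γ}) ≃* Cfsg.PGSp (n / 2) F₀)) → Cfsg.splitClassCount (Cfsg.inndiagPSU n F q) (Cfsg.Inn (Cfsg.PSU n F q)) γ = Nat.gcd n (q + 1) / 2) ∧ (¬ (Even n ∧ Odd q) → Cfsg.splitClassCount (Cfsg.inndiagPSU n F q) (Cfsg.Inn (Cfsg.PSU n F q)) γ = Nat.gcd n (q + 1)) := by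
  classical
  have hn2 : 2 ≤ n := by omega
  obtain ⟨j, hj⟩ := exists_j hF hF₀
  obtain ⟨κ, η, hp, hp2⟩ := exists_par' hj
  have hN' : (Cfsg.inndiagPSU n F q).Normal := by
    rw [inndiag_eq]
    exact normal_range_cU hF hn hs
  have hoddF : Odd q → Odd (Fintype.card F₀) := by
    intro h
    rw [hF₀]
    exact h
  have hq3 : Odd q → 3 ≤ Fintype.card F₀ := by
    intro h
    obtain ⟨t, ht⟩ := hoddF h
    have := Fintype.one_lt_card (α := F₀)
    omega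
  -- the skew case
  have hskew : ∀ m : ℕ, n = 2 * m → Odd q → ∀ A₀ : Matrix (Fin n) (Fin n) F₀, A₀ᵀ = -A₀ →
      Rep hF j κ η γ A₀ →
      Nonempty (↥(Cfsg.inndiagPSU n F q ⊓ Subgroup.centralizer {γ}) ≃* Cfsg.PGSp m F₀) ∧
      Cfsg.splitClassCount (Cfsg.inndiagPSU n F q) (Cfsg.Inn (Cfsg.PSU n F q)) γ
        = Nat.gcd m (q + 1) := by
    intro m hnm hodd A₀ hA₀ hrep
    have h2 := two_ne_zero_of_odd (hoddF hodd)
    obtain ⟨γ₁, h1⟩ := exists_rep (hF := hF) hj hp ((G1 hnm : GL (Fin n) F₀) : Matrix (Fin n) (Fin n) F₀)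
      (by rw [(G1_alt hnm).1, neg_smul, one_smul]) (det_ne_zero _)
    obtain ⟨P, hP⟩ := alt_congr _ A₀ (G1_alt hnm) (isAltM_of_skew h2 _ hA₀) (det_ne_zero _) hrep.det_ne
    have hc : Cfsg.IsConjUnder (Cfsg.inndiagPSU n F q) γ₁ γ :=
      (h1.conj_iff hj hn hp.kap0 hp.eta0 hrep).2 ⟨P, 1, one_ne_zero, by rw [hP, one_smul]⟩
    obtain ⟨α, -, hα⟩ := hc
    constructor
    · obtain ⟨e0⟩ := centralizer_conj_equiv (Cfsg.inndiagPSU n F q) α γ₁
      rw [← hα] at e0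
      obtain ⟨e1⟩ := h1.cent hj hn hp.kap0 hp.eta0
      obtain ⟨e2⟩ := centralizer_equiv hn2 (G1 hnm : GL (Fin n) F₀)
      obtain ⟨e3⟩ := cent_G1 (F := F₀) hn2 hnm
      exact ⟨((e0.symm.trans e1).trans e2.symm).trans e3⟩
    · rw [hα, splitClassCount_conj, split_G1_U hj (by omega) (hq3 hodd) hnm hp.kap0 hp.eta0 h1]
  have hrep := exists_rep_of_graph hj (par_one hF j) hp γ hγ hγ2
  refine ⟨?_, ?_, ?_⟩
  · rintro ⟨⟨m, hm⟩, hodd, hiso⟩
    have hnm : n = 2 * m := by omega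
    have hdiv : n / 2 = m := by omega
    rw [hdiv] at hiso ⊢
    have h2 := two_ne_zero_of_odd (hoddF hodd)
    rcases hrep with ⟨A₀, h, r⟩ | ⟨A₀, h, r⟩
    · exfalso
      obtain ⟨e1⟩ := r.cent hj hn one_ne_zero one_ne_zero
      obtain ⟨e2⟩ := hiso
      exact not_iso_PGSp h2 (by omega) hnm A₀ h r.det_ne ⟨e1.symm.trans e2⟩
    · exact (hskew m hnm hodd A₀ h r).2
  · rintro ⟨⟨m, hm⟩, hodd, hiso⟩
    have hnm : n = 2 * m := by omega
    have hdiv : n / 2 = m := by omega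
    rw [hdiv] at hiso
    have h2 := two_ne_zero_of_odd (hoddF hodd)
    rcases hrep with ⟨A₀, h, r⟩ | ⟨A₀, h, r⟩
    · exact split_sym_U hj h2 hodd (by omega) hnm one_ne_zero one_ne_zero h r
    · exact absurd (hskew m hnm hodd A₀ h r).1 hiso
  · intro hne
    by_cases hev : Even n
    · have hp2' : p = 2 := by
        rcases (Fact.out : p.Prime).eq_two_or_odd' with h | h
        · exact h
        · exact absurd ⟨hev, by rw [hq]; exact h.pow⟩ hne
      have h20 : (2 : F₀) = 0 := by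
        have h1 := Nat.cast_card_eq_zero F₀
        rw [hF₀, hq, hp2'] at h1
        push_cast at h1
        exact pow_eq_zero_iff (by omega) |>.1 h1
      haveI : CharP F₀ 2 := CharTwo.of_one_ne_zero_of_two_eq_zero one_ne_zero h20
      have hsq : ∀ a : F₀, ∃ b, b * b = a := by
        intro a
        obtain ⟨r, hr⟩ := FiniteField.isSquare_of_char_two (ringChar.eq F₀ 2) a
        exact ⟨r, hr.symm⟩
      rcases hrep with ⟨A₀, h, r⟩ | ⟨A₀, h, r⟩
      · exact split_trivial_U hj hn one_ne_zero one_ne_zero r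
          (fun g₀ c₀ _ hg => hd_two hsq A₀ r.det_ne g₀ c₀ hg)
      · exact split_trivial_U hj hn hp.kap0 hp.eta0 r
          (fun g₀ c₀ _ hg => hd_two hsq A₀ r.det_ne g₀ c₀ hg)
    · obtain ⟨k, hk⟩ := Nat.not_even_iff_odd.1 hev
      rcases hrep with ⟨A₀, h, r⟩ | ⟨A₀, h, r⟩
      · exact split_trivial_U hj hn one_ne_zero one_ne_zero r
          (fun g₀ c₀ hc hg => hd_odd hk A₀ r.det_ne g₀ c₀ hc hg)
      · exact split_trivial_U hj hn hp.kap0 hp.eta0 r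
          (fun g₀ c₀ hc hg => hd_odd hk A₀ r.det_ne g₀ c₀ hc hg)

end Cfsg.Agent.S2709
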