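import Cfsg.Statements.S2710
import Cfsg.Agent.Lib.Helper50UCor
import Cfsg.Agent.S2703

set_option autoImplicit false
open Cfsg

namespace Cfsg.Agent.S2710

open Cfsg.Agent.Lib.Helper50UAut Cfsg.Agent.Lib.Helper50UOut Cfsg.Agent.Lib.Helper50UH90
  Cfsg.Agent.Lib.Helper50UTw Cfsg.Agent.Lib.Helper50UGam Cfsg.Agent.Lib.Helper50UDesc
  Cfsg.Agent.Lib.Helper50URep Cfsg.Agent.Lib.Helper50UCor Cfsg.Agent.Lib.Helper50Gam
open scoped MatrixGroups Matrix


/-- Let T = PSU_n(q) with n ≥ 4 divisible by 4 (n = 2m) and q odd, realised over the field F with q² elements, G = Inndiag(T) the image of PGU_n(q), and φ the standard field automorphism of T attached to the q-th power map of F (it induces inverse-transpose on the unitary matrices and is a graph automorphism). Its centralizer in G is isomorphic to the projective conformal orthogonal group of the plus-type form Σ xᵢ yᵢ in dimension n over a field F₀ with q elements. (Dimensions n ≡ 2 (mod 4) are not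 covered.) -/
theorem result {F : Type*} [Field F] [Fintype F] {q : ℕ} (hodd : Odd q) (hF : Fintype.card F = q ^ 2) {n m : ℕ} (hm : 2 ≤ m) (hnm : n = 2 * m) (h4 : 4 ∣ n) (F₀ : Type*) [Field F₀] [Fintype F₀] (hF₀ : Fintype.card F₀ = q) (σ : F ≃+* F) (hσ : ∀ a : F, σ a = a ^ q) (φ : MulAut (Cfsg.PSU n F q)) (hφ : Cfsg.IsFieldAutPSUOf σ φ) :
    Nonempty (↥(Cfsg.inndiagPSU n F q ⊓ Subgroup.centralizer {φ}) ≃* Cfsg.PGO F₀ (Cfsg.quadFormPlus m F₀)) := by
  classical
  have hn : 3 ≤ n := by omega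
  obtain ⟨j, hj⟩ := exists_j hF hF₀
  obtain ⟨κ, η, hp, hp2⟩ := exists_par' hj
  have hσ' : σ = sigE hF := by
    ext a
    rw [hσ, sigE_apply]
  rw [(isField_iff σ φ).1 hφ, hσ']
  obtain ⟨e1⟩ := (cor_one (hF := hF) (j := j) (n := n) κ η).cent hj hn hp
  have hι : Cfsg.IsInverseTransposeAutPSL (gam (1 : GL (Fin n) F₀)) := by
    rw [Cfsg.Agent.Lib.Helper50Twist.isInvT_iff, gam, inv_one, map_one, one_mul]
  obtain ⟨e2⟩ := (Cfsg.Agent.S2703.result (F := F₀) (by rw [hF₀]; exact hodd) hm hnm _ hι).1 (by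
    rw [hF₀]
    obtain ⟨k, rfl⟩ := h4
    obtain ⟨t, rfl⟩ := hodd
    rw [Nat.add_sub_cancel, mul_assoc, Nat.mul_div_cancel_left _ (by norm_num)]
    exact ⟨k * t, by ring⟩)
  exact ⟨e1.trans e2⟩

end Cfsg.Agent.S2710
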