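import Cfsg.Statements.S2711
import Cfsg.Agent.Lib.Helper50UTw

set_option autoImplicit false
open Cfsg

namespace Cfsg.Agent.S2711

open Cfsg.Agent.Lib.Helper50UOut Cfsg.Agent.Lib.Helper50UAut Cfsg.Agent.Lib.Helper50UTw Cfsg.Agent.Lib.Helper50Split

theorem orderOf_conj' {X : Type*} [Group X] (a x : X) : orderOf (a * x * a⁻¹) = orderOf x :=
  orderOf_injective (MulAut.conj a).toMonoidHom (MulAut.conj a).injective x


/-- reduction to a standard representative -/
theorem reduce {X : Type*} [Group X] (N : Subgroup X) [N.Normal] (x δ α t : X) (hδ : δ ∈ N)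
    (ht : α * x * α⁻¹ = t)
    (H : ∀ d ∈ N, orderOf (d * t) = orderOf t → ∃ h ∈ N, d * t = h * t * h⁻¹)
    (ho : orderOf (δ * x) = orderOf x) : Cfsg.IsConjUnder N x (δ * x) := by
  have h1 : α * δ * α⁻¹ ∈ N := Subgroup.Normal.conj_mem inferInstance δ hδ α
  have h2 : α * δ * α⁻¹ * t = α * (δ * x) * α⁻¹ := by rw [← ht]; group
  obtain ⟨h, hh, e⟩ := H _ h1 (by rw [h2, orderOf_conj', ho, ← ht, orderOf_conj'])
  refine ⟨α⁻¹ * h * α, ?_, ?_⟩
  · have := Subgroup.Normal.conj_mem (inferInstance : N.Normal) h hh α⁻¹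
    rwa [inv_inv] at this
  · have h3 : δ * x = α⁻¹ * (α * δ * α⁻¹ * t) * α := by rw [h2]; group
    rw [h3, e, ← ht]
    group


/-- Let T = PSU_n(q) be simple (n ≥ 3, (n,q) ≠ (3,2)), realised over the field F with q² elements, and let x be a field automorphism of T (conjugate to a standard field automorphism of odd order) of prime order r. Then an element y of the coset Inndiag(T)·x (y = δ x with δ in the image of PGU_n(q)) has order r if and only if y is conjugate to x by an element of Inndiag(T). (T has no graph-field automorphisms.) -/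
theorem result {F : Type*} [Field F] [Fintype F] {p f q : ℕ} [Fact p.Prime] (hq : q = p ^ f) (hf : 1 ≤ f) (hF : Fintype.card F = q ^ 2) {n : ℕ} (hn : 3 ≤ n) (hs : ¬ (n = 3 ∧ q = 2)) (x δ : MulAut (Cfsg.PSU n F q)) (hx : Cfsg.IsFieldAutClassPSU x) {r : ℕ} (hr : r.Prime) (hxr : orderOf x = r) (hδ : δ ∈ Cfsg.inndiagPSU n F q) :
    orderOf (δ * x) = r ↔ Cfsg.IsConjUnder (Cfsg.inndiagPSU n F q) x (δ * x) := by
  have hN := normal_range_cU (n := n) hF hn hs
  rw [inndiag_eq] at hδ ⊢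
  constructor
  swap
  · rintro ⟨h, -, e⟩
    rw [e, orderOf_conj', hxr]
  intro ho
  obtain ⟨α, φ, σ, hσ, hodd, hφ, hα⟩ := hx
  rw [isField_iff] at hφ
  subst hφ
  have hoσ : orderOf σ = r := by
    rw [← orderOf_injective fU (fU_injective hF hn) σ, ← hα, orderOf_conj', hxr]
  rw [hoσ] at hodd
  have hF' : Fintype.card F = p ^ (2 * f) := by rw [hF, hq, ← pow_mul, mul_comm]
  have hdvd : r ∣ f := by
    have h1 : r ∣ 2 * f := by
      rw [← hoσ, ← (Cfsg.Agent.Lib.Helper50Out.ringAut_cyclic_card hF').2]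
      exact orderOf_dvd_natCard σ
    exact Nat.Coprime.dvd_of_dvd_mul_left (Nat.Coprime.symm (Nat.coprime_two_left.2 hodd)) h1
  have hne : 2 * (f / r) ≠ 0 := by
    have := Nat.div_pos (Nat.le_of_dvd (by omega) hdvd) hr.pos
    omega
  let F₀ := GaloisField p (2 * (f / r))
  have : Fintype F₀ := Fintype.ofFinite _
  have hF₀ : Fintype.card F₀ = p ^ (2 * (f / r)) := by
    rw [← Nat.card_eq_fintype_card]
    exact GaloisField.card p _ hne
  obtain ⟨-, hF₀', j, hj, hjq⟩ := field_data hq hF σ hoσ hodd F₀ hF₀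
  apply reduce _ x δ α (fU σ) hδ hα _ (by rw [ho, hxr])
  rintro _ ⟨g, rfl⟩ hd
  rw [orderOf_injective fU (fU_injective hF hn) σ, hoσ] at hd
  obtain ⟨h, e⟩ := field_conj_U hF hF₀' j hjq hn σ r hoσ hr.pos hj g
    (by rw [← hd]; exact pow_orderOf_eq_one _)
  exact ⟨_, ⟨h, rfl⟩, e⟩

end Cfsg.Agent.S2711
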