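import Cfsg.Statements.S2713
import Cfsg.Agent.Lib.Helper42AutSpL

set_option autoImplicit false
open Cfsg

namespace Cfsg.Agent.S2713

open Cfsg.Agent.Lib.Helper42AutSpJ Cfsg.Agent.Lib.Helper42AutSpK Cfsg.Agent.Lib.Helper42AutSpL

theorem orderOf_conj' {X : Type*} [Group X] (a x : X) : orderOf (a * x * a⁻¹) = orderOf x :=
  orderOf_injective (MulAut.conj a).toMonoidHom (MulAut.conj a).injective x

/-- reduction to a standard representative -/
theorem reduce {X : Type*} [Group X] (N : Subgroup X) [N.Normal] (x δ α t : X) (hδ : δ ∈ N)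
    (ht : α * x * α⁻¹ = t)
    (H : ∀ d ∈ N, orderOf (d * t) = orderOf t → ∃ h ∈ N, d * t = h * t * h⁻¹)
    (ho : orderOf (δ * x) = orderOf x) : Cfsg.IsConjUnder N x (δ * x) := by
  have h1 : α * δ * α⁻¹ ∈ N := Subgroup.Normal.conj_mem inferInstance δ hδ α
  have h2 : α * δ * α⁻¹ * t = α * (δ * x) * α⁻¹ := by rw [← ht]; group
  obtain ⟨h, hh, e⟩ := H _ h1 (by rw [h2, orderOf_conj', ho, ← ht, orderOf_conj'])
  refine ⟨α⁻¹ * h * α, ?_, ?_⟩
  · have := Subgroup.Normal.conj_mem (inferInstance : N.Normal) h hh α⁻¹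
    rwa [inv_inv] at this
  · have h3 : δ * x = α⁻¹ * (α * δ * α⁻¹ * t) * α := by rw [h2]; group
    rw [h3, e, ← ht]
    group

/-- Let T = PSp_{2m}(F) be simple over a finite field (m ≥ 2, (2m, |F|) ≠ (4, 2)) and let x be a field automorphism of T of prime order r. Then an element y of the coset Inndiag(T)·x (y = δ x with δ in the image of the projective conformal symplectic group) has order r if and only if y is conjugate to x by an element of Inndiag(T). -/
theorem result {F : Type*} [Field F] [Fintype F] {m : ℕ} (hm : 2 ≤ m) (hs : m = 2 → 3 ≤ Fintype.card F) (x δ : MulAut (Cfsg.PSp m F)) (hx : Cfsg.IsFieldAutClassPSp x) {r : ℕ} (hr : r.Prime) (hxr : orderOf x = r) (hδ : δ ∈ Cfsg.inndiagPSp m F) :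
    orderOf (δ * x) = r ↔ Cfsg.IsConjUnder (Cfsg.inndiagPSp m F) x (δ * x) := by
  have hp : Fact (ringChar F).Prime := ⟨CharP.char_is_prime F (ringChar F)⟩
  have hN := normal_range_cHom (F := F) (ringChar F) hm
  rw [inndiag_eq] at hδ ⊢
  constructor
  swap
  · rintro ⟨h, -, e⟩
    rw [e, orderOf_conj', hxr]
  intro ho
  obtain ⟨α, σ, hσ, hα⟩ := hx
  rw [isStdField_iff] at hα
  apply reduce _ x δ α (fHom σ) hδ hα _ (by rw [ho, hxr])
  have hoσ : orderOf σ = r := by
    rw [← orderOf_injective fHom (fHom_injective hm) σ, ← hα, orderOf_conj', hxr]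
  rintro _ ⟨g, rfl⟩ hd
  rw [orderOf_injective fHom (fHom_injective hm) σ, hoσ] at hd
  obtain ⟨h, e⟩ := field_conj hm σ r hoσ hr.pos g (by rw [← hd]; exact pow_orderOf_eq_one _)
  exact ⟨_, ⟨h, rfl⟩, e⟩

end Cfsg.Agent.S2713
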