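import Cfsg.Statements.S2714
import Cfsg.Agent.S2694
import Cfsg.Agent.Lib.Helper18GamH

set_option autoImplicit false
open Cfsg

namespace Cfsg.Agent.S2714

open Cfsg.Agent.Lib.Helper49Forms Cfsg.Agent.Lib.Helper51OrthAut Cfsg.Agent.Lib.Helper51OrthIdx
  Cfsg.Agent.Lib.Helper18GamA Cfsg.Agent.Lib.Helper18GamB Cfsg.Agent.Lib.Helper18GamE
  Cfsg.Agent.Lib.Helper18GamF Cfsg.Agent.Lib.Helper18GamG Cfsg.Agent.Lib.Helper18GamH

theorem aux {F : Type*} [Field F] [Fintype F] {p f : ℕ} [Fact p.Prime]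
    (hF : Fintype.card F = p ^ f) (hodd : Odd (Fintype.card F)) {m : ℕ}
    (hm : 3 ≤ m) (q : (Unit ⊕ (Fin m ⊕ Fin m) → F) → F) (hq : ⇑(QOdd m F) = q)
    (x : MulAut (Cfsg.POmega F q)) (hx : Cfsg.IsFieldAutClassPOmega q x) {r : ℕ} (hr : r.Prime)
    (hxr : orderOf x = r) (F₀ : Type*) [Field F₀] [Fintype F₀] (hF₀ : Fintype.card F₀ = p ^ (f / r))
    (q₀ : (Unit ⊕ (Fin m ⊕ Fin m) → F₀) → F₀) (hq₀ : ⇑(QOdd m F₀) = q₀) :
    r ∣ f ∧ Nonempty (↥(Cfsg.pgoAut F q ⊓ Subgroup.centralizer {x}) ≃* ↥(Cfsg.pgoAut F₀ q₀)) ∧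
      (Odd r → Cfsg.splitClassCount (Cfsg.pgoAut F q) (Cfsg.Inn (Cfsg.POmega F q)) x = 1) ∧
      (r = 2 → Cfsg.splitClassCount (Cfsg.pgoAut F q) (Cfsg.Inn (Cfsg.POmega F q)) x = 2) := by
  subst hq
  subst hq₀
  obtain ⟨α, φ, σ, hσ1, hφ, hα⟩ := hx
  have h2 : (2 : F) ≠ 0 := two_ne_zero_of_odd rfl hodd
  have hpodd : Odd p := by
    rw [hF] at hodd
    by_contra hcon
    rw [Nat.not_odd_iff_even] at hcon
    have hf0 : f ≠ 0 := by
      rintro rfl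
      have := Fintype.one_lt_card (α := F)
      rw [hF] at this
      simp at this
    exact (Nat.not_even_iff_odd.2 hodd) (hcon.pow_of_ne_zero hf0)
  have hodd₀ : Odd (Fintype.card F₀) := by rw [hF₀]; exact hpodd.pow
  have h2' : (2 : F₀) ≠ 0 := two_ne_zero_of_odd rfl hodd₀
  have hQ := Cfsg.Agent.Lib.Helper49OddForm.QOdd_nondegenerate h2 m
  have hQ₀ := Cfsg.Agent.Lib.Helper49OddForm.QOdd_nondegenerate h2' m
  have hcard : Fintype.card (Unit ⊕ (Fin m ⊕ Fin m)) = 2 * m + 1 := by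
    simp only [Fintype.card_sum, Fintype.card_fin, Fintype.card_unit]
    omega
  have htop : Cfsg.gammaPOmega F ⇑(QOdd m F) = ⊤ := by
    rw [coe_QOdd]
    exact Cfsg.Agent.S2694.result hodd hm
  have hsurj := sAut_surjective _ htop
  have hx1 : ∃ x, QOdd m F x = 1 := by
    refine ⟨Pi.single (Sum.inl ()) 1, ?_⟩
    rw [coe_QOdd]
    simp [Cfsg.quadFormOdd]
  have hx₀ : ∃ x, QOdd m F₀ x = 1 := by
    refine ⟨Pi.single (Sum.inl ()) 1, ?_⟩
    rw [coe_QOdd]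
    simp [Cfsg.quadFormOdd]
  have hσ : Comm ⇑(QOdd m F) σ := by
    intro v
    rw [coe_QOdd]
    simp [Cfsg.quadFormOdd]
  rw [isField_iff hσ] at hφ
  rw [hφ] at hα
  have hord : orderOf σ = r := by
    rw [← hxr, ← orderOf_fA hQ (by omega) hσ, ← hα, orderOf_conj]
  obtain ⟨j, hj⟩ := Cfsg.Agent.Lib.Helper50Cent.exists_embedding hF σ hord F₀ hF₀
  have hE : Ext (QOdd m F) (QOdd m F₀) j := by
    intro v
    rw [coe_QOdd, coe_QOdd]
    simp [Cfsg.quadFormOdd]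
  have hrf : r ∣ f := by
    rw [← hord, ← (Cfsg.Agent.Lib.Helper50Out.ringAut_cyclic_card hF).2]
    exact orderOf_dvd_natCard σ
  obtain ⟨-, he, hs⟩ := field_main hQ hQ₀ (by omega) hσ hE hj hx₀ ⊤ ⊤ le_top le_top
    (fun h => ⟨fun _ => Subgroup.mem_top _, fun _ => Subgroup.mem_top _⟩) (normal_range hsurj) x α hα
  rw [pgoAut_eq, pgoAut_eq, MonoidHom.range_eq_map, MonoidHom.range_eq_map]
  refine ⟨hrf, he, ?_, ?_⟩
  · intro hrodd
    rw [hs]
    obtain ⟨c, hc⟩ := FiniteField.exists_nonsquare (Cfsg.Agent.Lib.Helper49Idx.ringChar_ne_two h2')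
    exact odd_index_one hcard hQ hQ₀ hE hx1 h2 h2' (by omega)
      (not_isSquare_of_odd h2 hj (by rw [← hord]; exact pow_orderOf_eq_one σ) hrodd hc)
  · intro hr2
    rw [hs]
    apply odd_index_two hcard hQ hQ₀ hE hx1 hx₀ h2 h2' (by omega)
    apply isSquare_of_card_sq h2
    rw [hF, hF₀, ← pow_mul, hr2, Nat.div_mul_cancel (hr2 ▸ hrf)]

/-- Let T = Ω_{2m+1}(F) (m ≥ 3, |F| = p^f odd; realised as PΩ of the form x₀² + Σ xᵢ yᵢ), G = Inndiag(T) the image of the conformal orthogonal group in Aut(T), and x a field automorphism of T of prime order r. Then r divides f; C_G(x) is isomorphic to Inndiag(Ω_{2m+1}(F₀)) for a field F₀ with p^(f/r) elements; and the G-class of x is a single T-class when r is odd and the union of exactly two T-classes when r = 2. -/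
theorem result {F : Type*} [Field F] [Fintype F] {p f : ℕ} [Fact p.Prime] (hF : Fintype.card F = p ^ f) (hf : 1 ≤ f) (hodd : Odd (Fintype.card F)) {m : ℕ} (hm : 3 ≤ m) (x : MulAut (Cfsg.POmega F (Cfsg.quadFormOdd m F))) (hx : Cfsg.IsFieldAutClassPOmega (Cfsg.quadFormOdd m F) x) {r : ℕ} (hr : r.Prime) (hxr : orderOf x = r) (F₀ : Type*) [Field F₀] [Fintype F₀] (hF₀ : Fintype.card F₀ = p ^ (f / r)) :
    r ∣ f ∧ Nonempty (↥(Cfsg.inndiagPOmegaOdd m F ⊓ Subgroup.centralizer {x}) ≃* ↥(Cfsg.inndiagPOmegaOdd m F₀)) ∧ (Odd r → Cfsg.splitClassCount (Cfsg.inndiagPOmegaOdd m F) (Cfsg.Inn (Cfsg.POmega F (Cfsg.quadFormOdd m F))) x = 1) ∧ (r = 2 → Cfsg.splitClassCount (Cfsg.inndiagPOmegaOdd m F) (Cfsg.Inn (Cfsg.POmega F (Cfsg.quadFormOdd m F))) x = 2) := by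
  exact aux hF hodd hm _ (coe_QOdd m) x hx hr hxr F₀ hF₀ _ (coe_QOdd m)

end Cfsg.Agent.S2714
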