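import Cfsg.Statements.S2716
import Cfsg.Agent.S2696
import Cfsg.Agent.Lib.Helper18GamL

set_option autoImplicit false
open Cfsg

namespace Cfsg.Agent.S2716

open Cfsg.Agent.Lib.Helper49Forms Cfsg.Agent.Lib.Helper51OrthAut Cfsg.Agent.Lib.Helper51OrthIdx
  Cfsg.Agent.Lib.Helper51OrthDiag Cfsg.Agent.Lib.Helper51OrthInst Cfsg.Agent.Lib.Helper51OrthMinus2
  Cfsg.Agent.Lib.Helper18GamA Cfsg.Agent.Lib.Helper18GamB Cfsg.Agent.Lib.Helper18GamD
  Cfsg.Agent.Lib.Helper18GamE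
  Cfsg.Agent.Lib.Helper18GamF Cfsg.Agent.Lib.Helper18GamG Cfsg.Agent.Lib.Helper18GamH
  Cfsg.Agent.Lib.Helper18GamI Cfsg.Agent.Lib.Helper18GamJ Cfsg.Agent.Lib.Helper18GamK
  Cfsg.Agent.Lib.Helper18GamL

theorem aux {F : Type*} [Field F] [Fintype F] {p f : ℕ} [Fact p.Prime]
    (hF : Fintype.card F = p ^ f) {m : ℕ} (hm : 3 ≤ m) (a b : F) (hab : Aniso a b)
    (q : ((Fin m ⊕ Fin m) ⊕ Fin 2 → F) → F) (hq : ⇑(QMinus m F a b) = q)
    (x : MulAut (Cfsg.POmega F q)) (a' b' : F) (hab' : Aniso a' b')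
    (q' : ((Fin m ⊕ Fin m) ⊕ Fin 2 → F) → F) (hq' : ⇑(QMinus m F a' b') = q')
    (ψ : Cfsg.POmega F q ≃* Cfsg.POmega F q') (σ : F ≃+* F)
    (hσa : σ a' = a') (hσb : σ b' = b')
    (hφ : Cfsg.IsFieldAutPOmegaOf q' σ ((ψ.symm.trans x).trans ψ))
    {r : ℕ} (hr : r.Prime) (hxr : orderOf x = r) (F₀ : Type*) [Field F₀] [Fintype F₀]
    (hF₀ : Fintype.card F₀ = p ^ (f / r)) :
    Odd r ∧ r ∣ f ∧ (∃ a₀ b₀ : F₀, Aniso a₀ b₀ ∧
      Nonempty (↥(inndiagMinusGen m a b q ⊓ Subgroup.centralizer {x}) ≃*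
        ↥(inndiagMinusGen m a₀ b₀ ⇑(QMinus m F₀ a₀ b₀)))) ∧
      Cfsg.splitClassCount (inndiagMinusGen m a b q) (Cfsg.Inn (Cfsg.POmega F q)) x = 1 := by
  subst hq
  subst hq'
  have hQ := Cfsg.Agent.Lib.Helper49Rank.QMinus_nondegenerate m hab
  have hQ' := Cfsg.Agent.Lib.Helper49Rank.QMinus_nondegenerate m hab'
  have hcard : Fintype.card ((Fin m ⊕ Fin m) ⊕ Fin 2) = 2 * (m + 1) := card_minus m
  have hn5 : 5 ≤ Fintype.card ((Fin m ⊕ Fin m) ⊕ Fin 2) := by omega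
  have hσ : Comm ⇑(QMinus m F a' b') σ := by
    intro v
    have := map_quadFormMinus m a' b' σ v
    rw [hσa, hσb] at this
    rw [coe_QMinus]
    exact this
  have hx' : MulAut.congr ψ x = fA hσ := by
    rw [← isField_iff hσ]
    exact hφ
  have hord : orderOf σ = r := by
    rw [← hxr, ← orderOf_fA hQ' hn5 hσ, ← hx']
    exact (MulAut.congr ψ).orderOf_eq x
  obtain ⟨j, hj⟩ := Cfsg.Agent.Lib.Helper50Cent.exists_embedding hF σ hord F₀ hF₀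
  have hrf : r ∣ f := by
    rw [← hord, ← (Cfsg.Agent.Lib.Helper50Out.ringAut_cyclic_card hF).2]
    exact orderOf_dvd_natCard σ
  obtain ⟨a₀, rfl⟩ := (hj a').1 hσa
  obtain ⟨b₀, rfl⟩ := (hj b').1 hσb
  have hab₀ : Aniso a₀ b₀ := by
    intro z₁ z₂ h
    have := hab' (j z₁) (j z₂) (by
      rw [← map_pow, ← map_pow, ← map_mul, ← map_mul, ← map_mul, ← map_add, ← map_add, h, map_zero])
    exact ⟨(map_eq_zero j).1 this.1, (map_eq_zero j).1 this.2⟩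
  have hrodd : Odd r := by
    rcases hr.eq_two_or_odd' with h2 | h2
    · exfalso
      apply not_card_sq hab'
      rw [hF, hF₀, ← pow_mul, h2, Nat.div_mul_cancel (h2 ▸ hrf)]
    · exact h2
  have hQ₀ := Cfsg.Agent.Lib.Helper49Rank.QMinus_nondegenerate m hab₀
  have hE := ext_minus m j a₀ b₀
  have hx₀ := exists_one_minus m a₀ b₀
  refine ⟨hrodd, hrf, ?_⟩
  by_cases hp : p = 2
  · subst hp
    have : CharP F 2 := charP_of_card_eq_prime_pow hF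
    have : CharP F₀ 2 := (RingHom.charP_iff j j.injective 2).2 inferInstance
    obtain ⟨h1, h2⟩ := final (Q := QMinus m F a b) hQ' hQ₀ hn5 hσ hE hj hx₀ ψ x hx'
      (inndiagMinusGen m a b ⇑(QMinus m F a b)) (Om' _ ⊔ ZZ _) (Om' _ ⊔ ZZ _)
      (by rw [inndiagMinusGen_eq_two m (by omega) hab, K0_map_eq_Inn, K0_map_eq_Inn, map_Inn])
      le_sup_right le_sup_left
      (mapJ_mem_K0_iff hE hQ' hQ₀ (by omega) (exists_one_minus m _ _) hx₀) le_sup_left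
    refine ⟨⟨a₀, b₀, hab₀, ?_⟩, h2⟩
    rw [inndiagMinusGen_eq_two m (by omega) hab₀]
    exact h1
  · have hpodd : Odd p := (Fact.out : p.Prime).odd_of_ne_two hp
    have hoddF : Odd (Fintype.card F) := by rw [hF]; exact hpodd.pow
    have hoddF₀ : Odd (Fintype.card F₀) := by rw [hF₀]; exact hpodd.pow
    have h2 : (2 : F) ≠ 0 := two_ne_zero_of_odd rfl hoddF
    have h2' : (2 : F₀) ≠ 0 := two_ne_zero_of_odd rfl hoddF₀
    have G := good_QMinus h2 (by omega : 2 ≤ m) hab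
    have G' := good_QMinus h2 (by omega : 2 ≤ m) hab'
    have G₀ := good_QMinus h2' (by omega : 2 ≤ m) hab₀
    have htop : Cfsg.gammaPOmega F ⇑(QMinus m F a b) = ⊤ := by
      rw [coe_QMinus]
      exact Cfsg.Agent.S2696.result hm a b hab
    have hsurj := sAut_surjective _ htop
    obtain ⟨g₀, hg₀⟩ := exists_isometry_minus m hab hab'
    have hiso : IsIso ⇑(QMinus m F a b) ⇑(QMinus m F (j a₀) (j b₀)) g₀ := by
      intro v
      rw [coe_QMinus, coe_QMinus]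
      exact hg₀ v
    obtain ⟨c, hc⟩ := FiniteField.exists_nonsquare (Cfsg.Agent.Lib.Helper49Idx.ringChar_ne_two h2')
    have hjc := not_isSquare_of_odd h2 hj (by rw [← hord]; exact pow_orderOf_eq_one σ) hrodd hc
    obtain ⟨h3, h4⟩ := final (Q := QMinus m F a b) hQ' hQ₀ hn5 hσ hE hj hx₀ ψ x hx'
      (inndiagMinusGen m a b ⇑(QMinus m F a b)) (DD _ G' (m + 1)) (DD _ G₀ (m + 1))
      (by
        rw [inndiagMinusGen_eq m hoddF hab G]
        exact map_congr_eq hiso _ _ (map_cg_ker_delta hiso _ _ _)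
          (normal_map hsurj _ (normal_ker_delta _ _ _)) ψ)
      (le_sup_right.trans (K0_le_DD _ G' hcard)) (le_sup_left.trans (K0_le_DD _ G' hcard))
      (mapJ_mem_ker_delta hE _ _ _) (DD_le hE G' G₀ hcard hjc)
    refine ⟨⟨a₀, b₀, hab₀, ?_⟩, h4⟩
    rw [inndiagMinusGen_eq m hoddF₀ hab₀ G₀]
    exact h3

/-- Let T = PΩ⁻_{2m+2}(F) (m ≥ 3, |F| = p^f; the form Σ xᵢ yᵢ + z₁² + a z₁ z₂ + b z₂² with anisotropic binary part), G = Inndiag(T), and x a field automorphism of T of prime order r. Then r is odd and divides f; C_G(x) is isomorphic to Inndiag(PΩ⁻_{2m+2}(F₀)) for a field F₀ with p^(f/r) elements and some anisotropic binary part over F₀; and the G-class of x is a single T-class. -/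
theorem result {F : Type*} [Field F] [Fintype F] {p f : ℕ} [Fact p.Prime] (hF : Fintype.card F = p ^ f) (hf : 1 ≤ f) {m : ℕ} (hm : 3 ≤ m) (a b : F) (hab : (∀ z₁ z₂ : F, z₁ ^ 2 + a * z₁ * z₂ + b * z₂ ^ 2 = 0 → z₁ = 0 ∧ z₂ = 0)) (x : MulAut (Cfsg.POmega F (Cfsg.quadFormMinus m F a b))) (hx : Cfsg.IsFieldAutClassPOmegaMinus m x) {r : ℕ} (hr : r.Prime) (hxr : orderOf x = r) (F₀ : Type*) [Field F₀] [Fintype F₀] (hF₀ : Fintype.card F₀ = p ^ (f / r)) :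
    Odd r ∧ r ∣ f ∧ (∃ a₀ b₀ : F₀, (∀ z₁ z₂ : F₀, z₁ ^ 2 + a₀ * z₁ * z₂ + b₀ * z₂ ^ 2 = 0 → z₁ = 0 ∧ z₂ = 0) ∧ Nonempty (↥(Cfsg.inndiagPOmegaMinus m F a b ⊓ Subgroup.centralizer {x}) ≃* ↥(Cfsg.inndiagPOmegaMinus m F₀ a₀ b₀))) ∧ Cfsg.splitClassCount (Cfsg.inndiagPOmegaMinus m F a b) (Cfsg.Inn (Cfsg.POmega F (Cfsg.quadFormMinus m F a b))) x = 1 := by
  obtain ⟨a', b', ψ, σ, hab', -, hσa, hσb, hφ⟩ := hx
  obtain ⟨h1, h2, ⟨a₀, b₀, h3, h4⟩, h5⟩ := aux hF hm a b hab _ (coe_QMinus m a b) x a' b' hab' _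
    (coe_QMinus m a' b') ψ σ hσa hσb hφ hr hxr F₀ hF₀
  refine ⟨h1, h2, ⟨a₀, b₀, h3, ?_⟩, h5⟩
  rw [coe_QMinus] at h4
  exact h4

end Cfsg.Agent.S2716
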