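import Cfsg.Statements.S2717
import Cfsg.Agent.S2695
import Cfsg.Agent.Lib.Helper18GfG
import Cfsg.Agent.Lib.Helper51OrthMinus2

set_option autoImplicit false
open Cfsg

namespace Cfsg.Agent.S2717

open Cfsg.Agent.Lib.Helper49Orth Cfsg.Agent.Lib.Helper49Forms Cfsg.Agent.Lib.Helper51OrthAut
  Cfsg.Agent.Lib.Helper51OrthIdx Cfsg.Agent.Lib.Helper51OrthIdx2 Cfsg.Agent.Lib.Helper51OrthIdx3
  Cfsg.Agent.Lib.Helper51OrthDiag Cfsg.Agent.Lib.Helper51OrthInst Cfsg.Agent.Lib.Helper51OrthMinus2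
  Cfsg.Agent.Lib.Helper51OrthPar Cfsg.Agent.Lib.Helper51OrthPlus
  Cfsg.Agent.Lib.Helper18GamA Cfsg.Agent.Lib.Helper18GamB Cfsg.Agent.Lib.Helper18GamD
  Cfsg.Agent.Lib.Helper18GamE
  Cfsg.Agent.Lib.Helper18GamF Cfsg.Agent.Lib.Helper18GamG Cfsg.Agent.Lib.Helper18GamH
  Cfsg.Agent.Lib.Helper18GamI Cfsg.Agent.Lib.Helper18GamJ Cfsg.Agent.Lib.Helper18GamK
  Cfsg.Agent.Lib.Helper18GamL Cfsg.Agent.Lib.Helper18LangA Cfsg.Agent.Lib.Helper18LangB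
  Cfsg.Agent.Lib.Helper18RecA Cfsg.Agent.Lib.Helper18GfA Cfsg.Agent.Lib.Helper18GfB
  Cfsg.Agent.Lib.Helper18GfC Cfsg.Agent.Lib.Helper18GfF Cfsg.Agent.Lib.Helper18GfG

theorem ne_top_of_index_two {G : Type*} [Group G] {H : Subgroup G} (h : H.index = 2) : H ≠ ⊤ := by
  rintro rfl
  rw [Subgroup.index_top] at h
  omega

theorem exists_one_plus {F : Type*} [Field F] {m : ℕ} (hm : 1 ≤ m) : ∃ x, QPlus m F x = 1 := by
  refine ⟨(1 : F) • Pi.single (Sum.inl ⟨0, by omega⟩) 1 + (1 : F) • Pi.single (Sum.inr ⟨0, by omega⟩) 1, ?_⟩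
  rw [(hypPair_QPlus (F := F) m ⟨0, by omega⟩).Q_st 1 1, mul_one]

/-- In characteristic two the inner-diagonal group of a plus type group is `Ω Z` modulo scalars. -/
theorem inndiagGen_eq_two {F : Type*} [Field F] [Fintype F] [CharP F 2] {m : ℕ} (hm : 3 ≤ m) :
    inndiagGen ⇑(QPlus m F) = (Om' (QPlus m F) ⊔ ZZ (QPlus m F)).map (cAut ⇑(QPlus m F)) :=
  autSubgroupOf_eq (QPlus m F)
    (fun g => PreservesSingularClasses ⇑(QPlus m F)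
      (g : Matrix (Fin m ⊕ Fin m) (Fin m ⊕ Fin m) F)) _
    (fun g => by
      have h := preserves_ext_two (j := RingHom.id F) (Q := QPlus m F) (Q₀ := QPlus m F)
        (fun v => rfl) (Cfsg.Agent.Lib.Helper49Rank.QPlus_nondegenerate m)
        (Cfsg.Agent.Lib.Helper49Rank.QPlus_nondegenerate m) (card_plus m)
        (by rw [card_plus]; omega) (Cfsg.Agent.Lib.Helper49Fam2.U0_TS m)
        (Cfsg.Agent.Lib.Helper49Fam2.U0_finrank m) (exists_one_plus (by omega)) g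
      have e : ((g : GL (Fin m ⊕ Fin m) F) : Matrix (Fin m ⊕ Fin m) (Fin m ⊕ Fin m) F).map
          (RingHom.id F) = ((g : GL (Fin m ⊕ Fin m) F) : Matrix (Fin m ⊕ Fin m) (Fin m ⊕ Fin m) F) := by
        ext a b
        rfl
      rw [e] at h
      exact h)

set_option maxHeartbeats 2000000 in
theorem aux_two {F : Type*} [Field F] [Fintype F] {f : ℕ}
    (hF : Fintype.card F = 2 ^ f) {m : ℕ} (hm : 5 ≤ m)
    (x : MulAut (Cfsg.POmega F ⇑(QPlus m F))) (hx : GF ⇑(QPlus m F) x) (hx2 : orderOf x = 2)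
    (F₀ : Type*) [Field F₀] [Fintype F₀] (hF₀ : Fintype.card F₀ = 2 ^ (f / 2)) :
    Even f ∧ (∀ y : MulAut (Cfsg.POmega F ⇑(QPlus m F)), GF ⇑(QPlus m F) y → orderOf y = 2 →
      Cfsg.IsConjUnder (inndiagGen ⇑(QPlus m F)) x y) ∧
    (∃ a₀ b₀ : F₀, Aniso a₀ b₀ ∧ Nonempty (↥(inndiagGen ⇑(QPlus m F) ⊓ Subgroup.centralizer {x}) ≃*
      ↥(inndiagMinusGen (m - 1) a₀ b₀ ⇑(QMinus (m - 1) F₀ a₀ b₀)))) ∧
    Cfsg.splitClassCount (inndiagGen ⇑(QPlus m F)) (Cfsg.Inn (Cfsg.POmega F ⇑(QPlus m F))) x = 1 := by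
  have : Fact (Nat.Prime 2) := ⟨Nat.prime_two⟩
  have : CharP F 2 := charP_of_card_eq_prime_pow hF
  have hmk : m = (m - 1) + 1 := by omega
  have hQ := Cfsg.Agent.Lib.Helper49Rank.QPlus_nondegenerate (F := F) m
  have hn : 5 ≤ Fintype.card (Fin m ⊕ Fin m) := by rw [card_plus]; omega
  have hn' : 5 ≤ Fintype.card ((Fin (m - 1) ⊕ Fin (m - 1)) ⊕ Fin 2) := by rw [card_minus]; omega
  obtain ⟨hcyc, hcardAut⟩ := Cfsg.Agent.Lib.Helper50Out.ringAut_cyclic_card hF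
  have hsurj : Function.Surjective (sAut ⇑(QPlus m F)) := sAut_surjective _ (by
    rw [coe_QPlus]
    exact Cfsg.Agent.S2695.result hm)
  have hx1 := exists_one_plus (F := F) (m := m) (by omega)
  have hD : DFr (Om' (QPlus m F) ⊔ ZZ (QPlus m F)) :=
    ⟨index_K0_two _ hQ hx1 hn, le_sup_right, normal_K0 hQ hn⟩
  have hrefl : ∀ (v : Fin m ⊕ Fin m → F) (hv : QPlus m F v ≠ 0),
      incO _ (reflO _ hv) ∉ Om' (QPlus m F) ⊔ ZZ (QPlus m F) := by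
    intro v hv h
    have h1 : incO _ (reflO _ hv) ∈ (Om' (QPlus m F) ⊔ ZZ (QPlus m F)) ⊓ OO' (QPlus m F) :=
      ⟨h, ⟨_, rfl⟩⟩
    rw [K0_inf_OO' _ hx1, incO_mem_Om'] at h1
    exact Cfsg.Agent.Lib.Helper42OInv2.reflO_not_mem _ hQ (Or.inr (by omega)) hv h1
  rw [inndiagGen_eq_two (by omega)]
  obtain ⟨σ, hσ2, g, hg, rfl⟩ := gf_normal (by omega) hD hrefl hcyc hsurj x hx hx2
  obtain ⟨j, hj⟩ := Cfsg.Agent.Lib.Helper50Cent.exists_embedding hF σ hσ2 F₀ hF₀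
  have : CharP F₀ 2 := (RingHom.charP_iff j j.injective 2).2 inferInstance
  obtain ⟨β, hβ⟩ := exists_beta (F := F₀)
  have hab : Aniso (1 : F₀) β := aniso_of_ne hβ
  have hQ' := nondeg_QMinus' (m - 1) (disc_ne_zero_map (j := j) hab)
  have hQ₀ := Cfsg.Agent.Lib.Helper49Rank.QMinus_nondegenerate (m - 1) hab
  have hfin : Finite (F ≃+* F) :=
    Finite.of_injective (fun τ : F ≃+* F => (τ : F → F)) DFunLike.coe_injective
  obtain ⟨c1, c2, c3⟩ := gf_main hmk hm hab (Om' (QPlus m F) ⊔ ZZ (QPlus m F)) (Om' _ ⊔ ZZ _)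
    (Om' _ ⊔ ZZ _) hD hcyc hj hσ2 hQ' (fun B B' κ h => map_cgR_K0 h hQ hn hQ' hn')
    le_sup_right le_sup_left
    (mapJ_mem_K0_iff (ext_minus (m - 1) j 1 β) hQ' hQ₀ (by omega) (exists_one_minus _ _ _)
      (exists_one_minus _ _ _))
    (ne_top_of_index_two (index_K0_two _ hQ₀ (exists_one_minus _ _ _) hn')) g hg
    (by rw [← hx2]; exact pow_orderOf_eq_one _)
  refine ⟨?_, ?_, ⟨1, β, hab, ?_⟩, ?_⟩
  · rw [← hcardAut, even_iff_two_dvd, ← hσ2]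
    exact orderOf_dvd_natCard σ
  · intro y hy hy2
    obtain ⟨σ', hσ2', g', hg', rfl⟩ := gf_normal (by omega) hD hrefl hcyc hsurj y hy hy2
    obtain rfl := eq_of_orderOf_two hcyc hσ2 hσ2'
    exact c1 g' hg' (by rw [← hy2]; exact pow_orderOf_eq_one _)
  · rw [inndiagMinusGen_eq_two (m - 1) (by omega) hab]
    exact c2
  · rw [c3, Subgroup.relIndex_eq_one]
    exact le_sup_left

set_option maxHeartbeats 2000000 in
theorem aux_odd {F : Type*} [Field F] [Fintype F] {p f : ℕ} [Fact p.Prime] (hp : p ≠ 2)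
    (hF : Fintype.card F = p ^ f) {m : ℕ} (hm : 5 ≤ m)
    (x : MulAut (Cfsg.POmega F ⇑(QPlus m F))) (hx : GF ⇑(QPlus m F) x) (hx2 : orderOf x = 2)
    (F₀ : Type*) [Field F₀] [Fintype F₀] (hF₀ : Fintype.card F₀ = p ^ (f / 2)) :
    Even f ∧ (∀ y : MulAut (Cfsg.POmega F ⇑(QPlus m F)), GF ⇑(QPlus m F) y → orderOf y = 2 →
      Cfsg.IsConjUnder (inndiagGen ⇑(QPlus m F)) x y) ∧
    (∃ a₀ b₀ : F₀, Aniso a₀ b₀ ∧ Nonempty (↥(inndiagGen ⇑(QPlus m F) ⊓ Subgroup.centralizer {x}) ≃*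
      ↥(inndiagMinusGen (m - 1) a₀ b₀ ⇑(QMinus (m - 1) F₀ a₀ b₀)))) ∧
    ((Odd m ∧ p ^ (f / 2) % 4 = 1) → Cfsg.splitClassCount (inndiagGen ⇑(QPlus m F))
      (Cfsg.Inn (Cfsg.POmega F ⇑(QPlus m F))) x = 4) ∧
    (¬ (Odd m ∧ p ^ (f / 2) % 4 = 1) → Cfsg.splitClassCount (inndiagGen ⇑(QPlus m F))
      (Cfsg.Inn (Cfsg.POmega F ⇑(QPlus m F))) x = 2) := by
  have hmk : m = (m - 1) + 1 := by omega
  have hpodd : Odd p := (Fact.out : p.Prime).odd_of_ne_two hp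
  have hoddF : Odd (Fintype.card F) := by rw [hF]; exact hpodd.pow
  have hoddF₀ : Odd (Fintype.card F₀) := by rw [hF₀]; exact hpodd.pow
  have h2 : (2 : F) ≠ 0 := two_ne_zero_of_odd rfl hoddF
  have h2' : (2 : F₀) ≠ 0 := two_ne_zero_of_odd rfl hoddF₀
  have hQ := Cfsg.Agent.Lib.Helper49Rank.QPlus_nondegenerate (F := F) m
  have hcard := card_plus m
  have hmk' : m - 1 + 1 = m := by omega
  have hcard' : Fintype.card ((Fin (m - 1) ⊕ Fin (m - 1)) ⊕ Fin 2) = 2 * m := by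
    rw [card_minus, hmk']
  obtain ⟨hcyc, hcardAut⟩ := Cfsg.Agent.Lib.Helper50Out.ringAut_cyclic_card hF
  have hsurj : Function.Surjective (sAut ⇑(QPlus m F)) := sAut_surjective _ (by
    rw [coe_QPlus]
    exact Cfsg.Agent.S2695.result hm)
  have G := good_QPlus h2 (by omega : 2 ≤ m)
  have hD : DFr (DD (QPlus m F) G m) :=
    ⟨index_DD _ G hcard, le_sup_right.trans (K0_le_DD _ G hcard), normal_ker_delta _ _ _⟩
  have hrefl : ∀ (v : Fin m ⊕ Fin m → F) (hv : QPlus m F v ≠ 0),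
      incO _ (reflO _ hv) ∉ DD (QPlus m F) G m := by
    intro v hv h
    have h1 : delta _ G.exists_one m (incO _ (reflO (QPlus m F) hv)) = 1 := h
    rw [delta_incO, detO_reflO] at h1
    exact neg_one_ne_one h2 h1
  rw [inndiagGen_eq m G]
  obtain ⟨σ, hσ2, g, hg, rfl⟩ := gf_normal (by omega) hD hrefl hcyc hsurj x hx hx2
  obtain ⟨j, hj⟩ := Cfsg.Agent.Lib.Helper50Cent.exists_embedding hF σ hσ2 F₀ hF₀
  obtain ⟨β, hβ⟩ := exists_beta (F := F₀)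
  have hab : Aniso (1 : F₀) β := aniso_of_ne hβ
  have G' := good_QMinus' h2 (by omega : 2 ≤ m - 1) (disc_ne_zero_map (j := j) hab)
  have G₀ := good_QMinus h2' (by omega : 2 ≤ m - 1) hab
  have hfin : Finite (F ≃+* F) :=
    Finite.of_injective (fun τ : F ≃+* F => (τ : F → F)) DFunLike.coe_injective
  have heven : Even f := by
    rw [← hcardAut, even_iff_two_dvd, ← hσ2]
    exact orderOf_dvd_natCard σ
  have hsq : ∀ c : F₀, IsSquare (j c) := isSquare_of_card_sq h2 (by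
    rw [hF, hF₀, ← pow_mul, Nat.div_mul_cancel (even_iff_two_dvd.1 heven)])
  obtain ⟨c1, c2, c3⟩ := gf_main hmk hm hab (DD (QPlus m F) G m) (DD _ G' m)
    (DD _ G₀ m) hD hcyc hj hσ2 G'.nondeg
    (fun B B' κ h => map_cgR_ker_delta h G.exists_one G'.exists_one m)
    (le_sup_right.trans (K0_le_DD _ G' hcard')) (le_sup_left.trans (K0_le_DD _ G' hcard'))
    (mapJ_mem_ker_delta (ext_minus (m - 1) j 1 β) _ _ _)
    (ne_top_of_index_two (index_DD _ G₀ hcard')) g hg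
    (by rw [← hx2]; exact pow_orderOf_eq_one _)
  obtain ⟨s1, s2⟩ := split_value h2 h2' hab hj hσ2 hsq G' G₀
  rw [hmk', hF₀] at s1 s2
  refine ⟨heven, ?_, ⟨1, β, hab, ?_⟩, ?_, ?_⟩
  · intro y hy hy2
    obtain ⟨σ', hσ2', g', hg', rfl⟩ := gf_normal (by omega) hD hrefl hcyc hsurj y hy hy2
    obtain rfl := eq_of_orderOf_two hcyc hσ2 hσ2'
    exact c1 g' hg' (by rw [← hy2]; exact pow_orderOf_eq_one _)
  · rw [inndiagMinusGen_eq (m - 1) hoddF₀ hab G₀, hmk']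
    exact c2
  · intro h
    rw [c3]
    exact s1 h
  · intro h
    rw [c3]
    exact s2 h

/-- Both cases, for a raw form `q` equal to the plus form. -/
theorem aux {F : Type*} [Field F] [Fintype F] {p f : ℕ} [Fact p.Prime]
    (hF : Fintype.card F = p ^ f) {m : ℕ} (hm : 5 ≤ m)
    (q : (Fin m ⊕ Fin m → F) → F) (hq : ⇑(QPlus m F) = q)
    (x : MulAut (Cfsg.POmega F q)) (hx : GF q x) (hx2 : orderOf x = 2)
    (F₀ : Type*) [Field F₀] [Fintype F₀] (hF₀ : Fintype.card F₀ = p ^ (f / 2)) :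
    Even f ∧ (∀ y : MulAut (Cfsg.POmega F q), GF q y → orderOf y = 2 →
      Cfsg.IsConjUnder (inndiagGen q) x y) ∧
    (∃ a₀ b₀ : F₀, Aniso a₀ b₀ ∧ Nonempty (↥(inndiagGen q ⊓ Subgroup.centralizer {x}) ≃*
      ↥(inndiagMinusGen (m - 1) a₀ b₀ (Cfsg.quadFormMinus (m - 1) F₀ a₀ b₀)))) ∧
    (p = 2 → Cfsg.splitClassCount (inndiagGen q) (Cfsg.Inn (Cfsg.POmega F q)) x = 1) ∧
    ((p ≠ 2 ∧ Odd m ∧ p ^ (f / 2) % 4 = 1) → Cfsg.splitClassCount (inndiagGen q)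
      (Cfsg.Inn (Cfsg.POmega F q)) x = 4) ∧
    ((p ≠ 2 ∧ ¬ (Odd m ∧ p ^ (f / 2) % 4 = 1)) → Cfsg.splitClassCount (inndiagGen q)
      (Cfsg.Inn (Cfsg.POmega F q)) x = 2) := by
  subst hq
  by_cases hp : p = 2
  · subst hp
    obtain ⟨h1, h2, ⟨a₀, b₀, hab, h3⟩, h4⟩ := aux_two hF hm x hx hx2 F₀ hF₀
    rw [coe_QMinus] at h3
    exact ⟨h1, h2, ⟨a₀, b₀, hab, h3⟩, fun _ => h4, fun h => absurd rfl h.1, fun h => absurd rfl h.1⟩
  · obtain ⟨h1, h2, ⟨a₀, b₀, hab, h3⟩, h4, h5⟩ := aux_odd hp hF hm x hx hx2 F₀ hF₀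
    rw [coe_QMinus] at h3
    exact ⟨h1, h2, ⟨a₀, b₀, hab, h3⟩, fun h => absurd h hp, fun h => h4 h.2, fun h => h5 h.2⟩

/-- Let T = PΩ⁺_{2m}(F) with m ≥ 5 (dimension 2m ≠ 8) and |F| = p^f, G = Inndiag(T), and x an involutory graph-field automorphism of T. Then f is even; any two involutory graph-field automorphisms of T are G-conjugate; C_G(x) is isomorphic to Inndiag(PΩ⁻_{2m}(F₀)) for a field F₀ with p^(f/2) elements (some anisotropic binary part over F₀); and the G-class of x is the union of exactly c T-classes with c = 1 if p = 2, c = 4 if p is odd, m is odd and p^(f/2) ≡ 1 (mod 4), and c = 2 otherwise. -/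
theorem result {F : Type*} [Field F] [Fintype F] {p f : ℕ} [Fact p.Prime] (hF : Fintype.card F = p ^ f) (hf : 1 ≤ f) {m : ℕ} (hm : 5 ≤ m) (x : MulAut (Cfsg.POmega F (Cfsg.quadFormPlus m F))) (hx : Cfsg.IsGraphFieldAutClassPOmegaPlus m x) (hx2 : orderOf x = 2) (F₀ : Type*) [Field F₀] [Fintype F₀] (hF₀ : Fintype.card F₀ = p ^ (f / 2)) :
    Even f ∧ (∀ y : MulAut (Cfsg.POmega F (Cfsg.quadFormPlus m F)), Cfsg.IsGraphFieldAutClassPOmegaPlus m y → orderOf y = 2 → Cfsg.IsConjUnder (Cfsg.inndiagPOmegaPlus m F) x y) ∧ (∃ a₀ b₀ : F₀, (∀ z₁ z₂ : F₀, z₁ ^ 2 + a₀ * z₁ * z₂ + b₀ * z₂ ^ 2 = 0 → z₁ = 0 ∧ z₂ = 0) ∧ Nonempty (↥(Cfsg.inndiagPOmegaPlus m F ⊓ Subgroup.centralizer {x}) ≃* ↥(Cfsg.inndiagPOmegaMinus (m - 1) F₀ a₀ b₀))) ∧ (p = 2 → Cfsg.splitClassCount (Cfsg.inndiagPOmegaPlus m F) (Cfsg.Inn (Cfsg.POmega F (Cfsg.quadFormPlus m F))) x = 1) ∧ ((p ≠ 2 ∧ Odd m ∧ p ^ (f / 2)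 % 4 = 1) → Cfsg.splitClassCount (Cfsg.inndiagPOmegaPlus m F) (Cfsg.Inn (Cfsg.POmega F (Cfsg.quadFormPlus m F))) x = 4) ∧ ((p ≠ 2 ∧ ¬ (Odd m ∧ p ^ (f / 2) % 4 = 1)) → Cfsg.splitClassCount (Cfsg.inndiagPOmegaPlus m F) (Cfsg.Inn (Cfsg.POmega F (Cfsg.quadFormPlus m F))) x = 2) := by
  exact aux hF hm _ (coe_QPlus m) x hx hx2 F₀ hF₀

end Cfsg.Agent.S2717
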