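import Cfsg.Statements.S2724
import Cfsg.Agent.Lib.Helper51OrthInst2

set_option autoImplicit false
open Cfsg

namespace Cfsg.Agent.S2724


/-- Let T = PΩ⁺_{2m}(F) with m ≥ 4 and |F| = q odd. The image G̃ of the conformal orthogonal group in Aut(T), taken modulo the inner automorphism group T, is elementary abelian of order 4 when m is odd and q ≡ 3 (mod 4), and dihedral of order 8 otherwise. -/
theorem result {F : Type*} [Field F] [Fintype F] (hodd : Odd (Fintype.card F)) {m : ℕ} (hm : 4 ≤ m) :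
    ((Odd m ∧ Fintype.card F % 4 = 3) → (∃ φ : ↥(Cfsg.pgoAut F (Cfsg.quadFormPlus m F)) →* Multiplicative (ZMod 2 × ZMod 2), Function.Surjective φ ∧ φ.ker = (Cfsg.Inn (Cfsg.POmega F (Cfsg.quadFormPlus m F))).subgroupOf (Cfsg.pgoAut F (Cfsg.quadFormPlus m F)))) ∧ (¬ (Odd m ∧ Fintype.card F % 4 = 3) → (∃ φ : ↥(Cfsg.pgoAut F (Cfsg.quadFormPlus m F)) →* DihedralGroup 4, Function.Surjective φ ∧ φ.ker = (Cfsg.Inn (Cfsg.POmega F (Cfsg.quadFormPlus m F))).subgroupOf (Cfsg.pgoAut F (Cfsg.quadFormPlus m F)))) := by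
  have h2 : (2 : F) ≠ 0 := Cfsg.Agent.Lib.Helper49Forms.two_ne_zero_of_odd rfl hodd
  have G := Cfsg.Agent.Lib.Helper51OrthInst.good_QPlus h2 (m := m) (by omega)
  have hc := Cfsg.Agent.Lib.Helper51OrthInst.card_plus m
  have hn := Cfsg.Agent.Lib.Helper51OrthInst2.negIn_QPlus hodd (m := m) (by omega)
  have ha := Cfsg.Agent.Lib.Helper51OrthIdx3.T3a _ G hc
  have hb := Cfsg.Agent.Lib.Helper51OrthIdx4.T3b _ G hc
  rw [hn] at ha hb
  rw [Cfsg.Agent.Lib.Helper49Forms.coe_QPlus] at ha hb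
  exact ⟨fun h => ha (not_not.2 h), hb⟩

end Cfsg.Agent.S2724
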