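import Cfsg.Statements.S2725
import Cfsg.Agent.Lib.Helper51OrthPlus

set_option autoImplicit false
open Cfsg

namespace Cfsg.Agent.S2725

open Cfsg.Agent.Lib.Helper49Forms Cfsg.Agent.Lib.Helper49Idx
open Cfsg.Agent.Lib.Helper51OrthIdx Cfsg.Agent.Lib.Helper51OrthIdx2 Cfsg.Agent.Lib.Helper51OrthIdx3
open Cfsg.Agent.Lib.Helper51OrthIdx4 Cfsg.Agent.Lib.Helper51OrthPar Cfsg.Agent.Lib.Helper51OrthDiag
open Cfsg.Agent.Lib.Helper51OrthInst Cfsg.Agent.Lib.Helper51OrthInst2 Cfsg.Agent.Lib.Helper51OrthPlus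

theorem inndiag_eq (m : ℕ) (F : Type*) [Field F] :
    Cfsg.inndiagPOmegaPlus m F = inndiagGen (Cfsg.quadFormPlus m F) := rfl

/-- Let T = PΩ⁺_{2m}(F) with m ≥ 4 and |F| = q odd. The inner-diagonal group G = Inndiag(T) (image of the class-preserving similarities) taken modulo the inner automorphism group T is cyclic of order 2 when m is odd and q ≡ 3 (mod 4), cyclic of order 4 when m is odd and q ≡ 1 (mod 4), and elementary abelian of order 4 when m is even. -/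
theorem result {F : Type*} [Field F] [Fintype F] (hodd : Odd (Fintype.card F)) {m : ℕ} (hm : 4 ≤ m) :
    ((Odd m ∧ Fintype.card F % 4 = 3) → (∃ φ : ↥(Cfsg.inndiagPOmegaPlus m F) →* Multiplicative (ZMod 2), Function.Surjective φ ∧ φ.ker = (Cfsg.Inn (Cfsg.POmega F (Cfsg.quadFormPlus m F))).subgroupOf (Cfsg.inndiagPOmegaPlus m F))) ∧ ((Odd m ∧ Fintype.card F % 4 = 1) → (∃ φ : ↥(Cfsg.inndiagPOmegaPlus m F) →* Multiplicative (ZMod 4), Function.Surjective φ ∧ φ.ker = (Cfsg.Inn (Cfsg.POmega F (Cfsg.quadFormPlus m F))).subgroupOf (Cfsg.inndiagPOmegaPlus m F))) ∧ (Even m → (∃ φ : ↥(Cfsg.inndiagPOmegaPlus m F) →* Multiplicative (ZMod 2 × ZMod 2), Function.Surjective φ ∧ φ.ker = (Cfsg.Inn (Cfsg.POmega F (Cfsg.quadFormPlus m F))).subgroupOf (Cfsg.inndiagPOmegaPlus m F))) := by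
  have h2 : (2 : F) ≠ 0 := two_ne_zero_of_odd rfl hodd
  have G := good_QPlus h2 (m := m) (by omega)
  have hc := card_plus m
  have hn := negIn_QPlus hodd (m := m) (by omega)
  obtain ⟨c, hcn⟩ := FiniteField.exists_nonsquare (ringChar_ne_two h2)
  have hc0 : c ≠ 0 := by rintro rfl; exact hcn IsSquare.zero
  have hb : ¬ IsSquare ((mu (QPlus m F) G.exists_one (bsim m (Units.mk0 c hc0)) : Fˣ) : F) := by
    rw [mu_bsim]; exact hcn
  have hbb : bsim m (Units.mk0 c hc0) * bsim m (Units.mk0 c hc0) ∈ Om' (QPlus m F) ⊔ ZZ (QPlus m F) := by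
    rw [bsim_sq]
    exact Subgroup.mem_sup_right (scal_mem _ _)
  have ha := T4a _ G hc
  have hB := T4b _ G hc
  have hC := T4c _ G hc
  rw [hn] at ha hB hC
  rw [← inndiagGen_eq m G] at ha hB hC
  rw [inndiag_eq]
  have key : ((Odd m ∧ Fintype.card F % 4 = 3) → (∃ φ : ↥(inndiagGen ⇑(QPlus m F)) →* Multiplicative (ZMod 2), Function.Surjective φ ∧ φ.ker = (Cfsg.Inn (Cfsg.POmega F ⇑(QPlus m F))).subgroupOf (inndiagGen ⇑(QPlus m F)))) ∧ ((Odd m ∧ Fintype.card F % 4 = 1) → (∃ φ : ↥(inndiagGen ⇑(QPlus m F)) →* Multiplicative (ZMod 4), Function.Surjective φ ∧ φ.ker = (Cfsg.Inn (Cfsg.POmega F ⇑(QPlus m F))).subgroupOf (inndiagGen ⇑(QPlus m F)))) ∧ (Even m → (∃ φ : ↥(inndiagGen ⇑(QPlus m F)) →* Multiplicative (ZMod 2 × ZMod 2), Function.Surjective φ ∧ φ.ker = (Cfsg.Inn (Cfsg.POmega F ⇑(QPlus m F))).subgroupOf (inndiagGen ⇑(QPlus m F)))) := by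
    refine ⟨fun h => ha (not_not.2 h), fun h => ?_, fun h => ?_⟩
    · refine hC (fun h' => by omega) _ hb hbb ?_
      rw [delta_bsim, h.1.neg_one_pow]
      exact neg_one_ne_one h2
    · refine hB (fun h' => (Nat.not_odd_iff_even.2 h) h'.1) _ hb hbb ?_
      rw [delta_bsim, h.neg_one_pow]
  rw [coe_QPlus] at key
  exact key

end Cfsg.Agent.S2725
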