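import Cfsg.Statements.S2726
import Cfsg.Agent.Lib.Helper51OrthIdx2
import Cfsg.Agent.Lib.Helper51OrthInst

set_option autoImplicit false
open Cfsg

namespace Cfsg.Agent.S2726


/-- Let T = PΩ⁻_{2m+2}(F) with m ≥ 3 and |F| = q odd (form with anisotropic binary part). Inside Aut(T), the image G̃ of the conformal orthogonal group of the form modulo the image of the special orthogonal group is elementary abelian of order 4. -/
theorem result {F : Type*} [Field F] [Fintype F] (hodd : Odd (Fintype.card F)) {m : ℕ} (hm : 3 ≤ m) (a b : F) (hab : (∀ z₁ z₂ : F, z₁ ^ 2 + a * z₁ * z₂ + b * z₂ ^ 2 = 0 → z₁ = 0 ∧ z₂ = 0)) :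
    (∃ φ : ↥(Cfsg.pgoAut F (Cfsg.quadFormMinus m F a b)) →* Multiplicative (ZMod 2 × ZMod 2), Function.Surjective φ ∧ φ.ker = (Cfsg.psoAut F (Cfsg.quadFormMinus m F a b)).subgroupOf (Cfsg.pgoAut F (Cfsg.quadFormMinus m F a b))) := by
  have h2 : (2 : F) ≠ 0 := Cfsg.Agent.Lib.Helper49Forms.two_ne_zero_of_odd rfl hodd
  have h := Cfsg.Agent.Lib.Helper51OrthIdx2.T1 _
    (Cfsg.Agent.Lib.Helper51OrthInst.good_QMinus h2 (m := m) (by omega) hab)
    (Cfsg.Agent.Lib.Helper51OrthInst.card_minus m)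
  rw [Cfsg.Agent.Lib.Helper49Forms.coe_QMinus] at h
  exact h

end Cfsg.Agent.S2726
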