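import Cfsg.Statements.S2729
import Cfsg.Agent.Lib.Helper51OrthMinus2

set_option autoImplicit false
open Cfsg

namespace Cfsg.Agent.S2729

open Cfsg.Agent.Lib.Helper49Forms Cfsg.Agent.Lib.Helper49Idx
open Cfsg.Agent.Lib.Helper51OrthIdx Cfsg.Agent.Lib.Helper51OrthIdx2 Cfsg.Agent.Lib.Helper51OrthIdx3
open Cfsg.Agent.Lib.Helper51OrthIdx4 Cfsg.Agent.Lib.Helper51OrthPar Cfsg.Agent.Lib.Helper51OrthDiag
open Cfsg.Agent.Lib.Helper51OrthInst Cfsg.Agent.Lib.Helper51OrthInst2 Cfsg.Agent.Lib.Helper51OrthMinus2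

/-- Let T = PΩ⁻_{2m+2}(F) with m ≥ 3 and |F| = q odd (form with anisotropic binary part). The inner-diagonal group G = Inndiag(T) (image of the class-preserving similarities) taken modulo the inner automorphism group T is cyclic of order 4 when m is even and q ≡ 3 (mod 4), and of order 2 otherwise. -/
theorem result {F : Type*} [Field F] [Fintype F] (hodd : Odd (Fintype.card F)) {m : ℕ} (hm : 3 ≤ m) (a b : F) (hab : (∀ z₁ z₂ : F, z₁ ^ 2 + a * z₁ * z₂ + b * z₂ ^ 2 = 0 → z₁ = 0 ∧ z₂ = 0)) :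
    ((Even m ∧ Fintype.card F % 4 = 3) → (∃ φ : ↥(Cfsg.inndiagPOmegaMinus m F a b) →* Multiplicative (ZMod 4), Function.Surjective φ ∧ φ.ker = (Cfsg.Inn (Cfsg.POmega F (Cfsg.quadFormMinus m F a b))).subgroupOf (Cfsg.inndiagPOmegaMinus m F a b))) ∧ (¬ (Even m ∧ Fintype.card F % 4 = 3) → (∃ φ : ↥(Cfsg.inndiagPOmegaMinus m F a b) →* Multiplicative (ZMod 2), Function.Surjective φ ∧ φ.ker = (Cfsg.Inn (Cfsg.POmega F (Cfsg.quadFormMinus m F a b))).subgroupOf (Cfsg.inndiagPOmegaMinus m F a b))) := by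
  have h2 : (2 : F) ≠ 0 := two_ne_zero_of_odd rfl hodd
  have G := good_QMinus h2 (m := m) (by omega) hab
  have hc := card_minus m
  have hn := negIn_QMinus hodd m hab
  obtain ⟨c, hcn⟩ := FiniteField.exists_nonsquare (ringChar_ne_two h2)
  have hc0 : c ≠ 0 := by rintro rfl; exact hcn IsSquare.zero
  obtain ⟨e₁, e₂, he⟩ := exists_norm_eq h2 hab c
  have he' : e₁ ^ 2 + a * e₁ * e₂ + b * e₂ ^ 2 = ((Units.mk0 c hc0 : Fˣ) : F) := he
  have hb : ¬ IsSquare ((mu (QMinus m F a b) G.exists_one (bsimM m (Units.mk0 c hc0) he') : Fˣ) : F) := by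
    rw [mu_bsimM]; exact hcn
  have hbb : bsimM m (Units.mk0 c hc0) he' * bsimM m (Units.mk0 c hc0) he' ∈
      Om' (QMinus m F a b) ⊔ ZZ (QMinus m F a b) := by
    rw [bsimM_sq]
    exact Subgroup.mem_sup_right (scal_mem _ _)
  have ha := T4a _ G hc
  have hC := T4c _ G hc
  rw [hn] at ha hC
  rw [← inndiagMinusGen_eq m hodd hab G] at ha hC
  rw [inndiagMinus_eq]
  have key : ((Even m ∧ Fintype.card F % 4 = 3) → (∃ φ : ↥(inndiagMinusGen m a b ⇑(QMinus m F a b)) →* Multiplicative (ZMod 4), Function.Surjective φ ∧ φ.ker = (Cfsg.Inn (Cfsg.POmega F ⇑(QMinus m F a b))).subgroupOf (inndiagMinusGen m a b ⇑(QMinus m F a b)))) ∧ (¬ (Even m ∧ Fintype.card F % 4 = 3) → (∃ φ : ↥(inndiagMinusGen m a b ⇑(QMinus m F a b)) →* Multiplicative (ZMod 2), Function.Surjective φ ∧ φ.ker = (Cfsg.Inn (Cfsg.POmega F ⇑(QMinus m F a b))).subgroupOf (inndiagMinusGen m a b ⇑(QMinus m F a b)))) := by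
    refine ⟨fun h => ?_, ha⟩
    refine hC h _ hb hbb ?_
    rw [delta_bsimM, (Even.add_one h.1).neg_one_pow]
    exact neg_one_ne_one h2
  rw [coe_QMinus] at key
  exact key

end Cfsg.Agent.S2729
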