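import Cfsg.Statements.S2734
import Cfsg.Agent.Lib.Helper22FxD4
-- import your own Cfsg.Agent.* helpers here

set_option autoImplicit false
open Cfsg

namespace Cfsg.Agent.S2734

open Cfsg.Lie Cfsg.Lie.ChevalleyDatum Cfsg.Agent.Lib.Helper22ChevGr Cfsg.Agent.Lib.Helper22Fx
  Cfsg.Agent.Lib.Helper22FxD4 Cfsg.Agent.Lib

set_option maxRecDepth 100000 in
theorem notLong : ∀ j : Fin chevD4.rank, chevD4.isLong (chevD4.simple j) = false := by decide +kernel

theorem gexp (c : ℕ) (i j : Fin chevD4.rank) : chevD4.graphExp c i j = 1 := by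
  unfold graphExp; rw [notLong j]; simp

instance decSym : DecidablePred chevD4.IsDiagramSymmetry := fun π => by
  unfold IsDiagramSymmetry; infer_instance

set_option maxRecDepth 100000 in
theorem cls : ∀ π : Equiv.Perm (Fin chevD4.rank), chevD4.IsDiagramSymmetry π →
    π * π = 1 ∨ (∀ i, (π i).val = [2, 1, 3, 0].getD i.val 0) ∨ (∀ i, (π i).val = [3, 1, 0, 2].getD i.val 0) := by
  decide +kernel

set_option maxRecDepth 100000 in
theorem tabA : ∀ i < chevD4.rank,
      gW gD4a (chevD4.simple i) = chevD4.simple ([2, 1, 3, 0].getD i 0) ∧ gEta gD4a (chevD4.simple i) = 1 ∧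
      gW gD4a (chevD4.neg (chevD4.simple i)) = chevD4.neg (chevD4.simple ([2, 1, 3, 0].getD i 0)) ∧
      gEta gD4a (chevD4.neg (chevD4.simple i)) = 1 := by decide +kernel

set_option maxRecDepth 100000 in
theorem tabB : ∀ i < chevD4.rank,
      gW gD4b (chevD4.simple i) = chevD4.simple ([3, 1, 0, 2].getD i 0) ∧ gEta gD4b (chevD4.simple i) = 1 ∧
      gW gD4b (chevD4.neg (chevD4.simple i)) = chevD4.neg (chevD4.simple ([3, 1, 0, 2].getD i 0)) ∧
      gEta gD4b (chevD4.neg (chevD4.simple i)) = 1 := by decide +kernel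


/-- In the Chevalley group of type D₄ over a finite field F (the matrix group generated by the root elements), a graph automorphism attached to a symmetry π of the Dynkin diagram (sending each fundamental root element x_p(t) to x_{π(p)}(t) and each x_{−p}(t) to x_{−π(p)}(t)) that has order 3 — a standard triality graph automorphism, π being a 3-cycle of the three outer nodes — has fixed-point subgroup isomorphic to the Chevalley group of type G₂ over F. -/
theorem result {F : Type*} [Field F] [Fintype F] (τ : MulAut ↥(Cfsg.Lie.chevD4.group F)) (hτ : Cfsg.Lie.chevD4.IsGraphAut τ) (hτ3 : orderOf τ = 3) :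
    Nonempty (↥(MonoidHom.eqLocus τ.toMonoidHom (MonoidHom.id ↥(Cfsg.Lie.chevD4.group F))) ≃* ↥(Cfsg.Lie.chevG2.group F)) := by
  obtain ⟨π, hπ, hφ⟩ := hτ
  simp only [gexp, pow_one] at hφ
  have hT := Helper23All.tab stdD4
  have hR := Helper23All.rel (F := F) stdD4
  rcases cls π hπ with h | h | h
  · exfalso
    have h2 : τ * τ = 1 := by
      apply MulEquiv.ext
      intro g
      refine hom_ext hT hR (τ * τ).toMonoidHom (1 : MulAut ↥(chevD4.group F)).toMonoidHom ?_ g
      intro g i t hg
      have hpp : π (π i) = i := by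
        have := congrArg (fun p : Equiv.Perm (Fin chevD4.rank) => p i) h
        simpa using this
      apply Subtype.ext
      apply Units.ext
      show ((τ (τ g) : GL chevD4.Idx F) : Matrix chevD4.Idx chevD4.Idx F) = _
      rcases hg with hg | hg
      · rw [(hφ _ (π i) t).1 ((hφ g i t).1 hg), hpp]; exact hg.symm
      · rw [(hφ _ (π i) t).2 ((hφ g i t).2 hg), hpp]; exact hg.symm
    have h3 : orderOf τ ∣ 2 := orderOf_dvd_of_pow_eq_one (by rw [pow_two, h2])
    rw [hτ3] at h3
    omega
  · apply main
    intro g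
    have key := aut_eq stdD4 Helper22ChevTabD4.agree gTabD4a hT hR τ (fun g i t => by
      obtain ⟨a1, a2, a3, a4⟩ := tabA i i.2
      rw [a1, a3, ← h i]
      exact hφ g i t) (fun i hi => ⟨(tabA i hi).2.1, (tabA i hi).2.2.2⟩) g
    rw [← key]
    show τ g = g ↔ _
    exact ⟨fun e => congrArg Subtype.val e, fun e => Subtype.ext e⟩
  · apply main
    intro g
    have key := aut_eq stdD4 Helper22ChevTabD4.agree gTabD4b hT hR τ (fun g i t => by
      obtain ⟨a1, a2, a3, a4⟩ := tabB i i.2
      rw [a1, a3, ← h i]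
      exact hφ g i t) (fun i hi => ⟨(tabB i hi).2.1, (tabB i hi).2.2.2⟩) g
    have hinv : gU F Helper22ChevTabD4.agree gTabD4b = (gU F Helper22ChevTabD4.agree gTabD4a)⁻¹ := rfl
    rw [hinv, inv_inv] at key
    show τ g = g ↔ _
    constructor
    · intro e
      rw [e] at key
      conv_lhs => rw [key]
      group
    · intro e
      apply Subtype.ext
      rw [key]
      conv_lhs => rw [← e]
      group

end Cfsg.Agent.S2734
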