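import Cfsg.Statements.S2735
import Cfsg.Agent.S2694
import Cfsg.Agent.Lib.Helper42OLangOdd

set_option autoImplicit false
open Cfsg

namespace Cfsg.Agent.S2735

open Cfsg.Agent.Lib.Helper49Forms Cfsg.Agent.Lib.Helper51OrthAut Cfsg.Agent.Lib.Helper51OrthIdx
  Cfsg.Agent.Lib.Helper18GamA Cfsg.Agent.Lib.Helper18GamB Cfsg.Agent.Lib.Helper18GamE
  Cfsg.Agent.Lib.Helper18GamF Cfsg.Agent.Lib.Helper18GamG Cfsg.Agent.Lib.Helper18GamH
  Cfsg.Agent.Lib.Helper42OLang Cfsg.Agent.Lib.Helper42OLangOdd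

theorem aux {F : Type*} [Field F] [Fintype F] (hodd : Odd (Fintype.card F)) {m : ℕ}
    (hm : 3 ≤ m) (q : (Unit ⊕ (Fin m ⊕ Fin m) → F) → F) (hq : ⇑(QOdd m F) = q)
    (x δ : MulAut (Cfsg.POmega F q)) (hx : Cfsg.IsFieldAutClassPOmega q x) {r : ℕ} (hr : r.Prime)
    (hxr : orderOf x = r) (hδ : δ ∈ Cfsg.pgoAut F q) :
    orderOf (δ * x) = r ↔ Cfsg.IsConjUnder (Cfsg.pgoAut F q) x (δ * x) := by
  subst hq
  constructor
  swap
  · rintro ⟨h, -, e⟩
    rw [e, orderOf_conj, hxr]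
  intro hord
  obtain ⟨α, φ, σ, hσ1, hφ, hα⟩ := hx
  have h2 : (2 : F) ≠ 0 := two_ne_zero_of_odd rfl hodd
  have hQ := Cfsg.Agent.Lib.Helper49OddForm.QOdd_nondegenerate h2 m
  have hcard : Fintype.card (Unit ⊕ (Fin m ⊕ Fin m)) = 2 * m + 1 := by
    simp only [Fintype.card_sum, Fintype.card_fin, Fintype.card_unit]
    omega
  have htop : Cfsg.gammaPOmega F ⇑(QOdd m F) = ⊤ := by
    rw [coe_QOdd]
    exact Cfsg.Agent.S2694.result hodd hm
  have hsurj := sAut_surjective _ htop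
  have hσ : Comm ⇑(QOdd m F) σ := by
    intro v
    rw [coe_QOdd]
    simp [Cfsg.quadFormOdd]
  rw [isField_iff hσ] at hφ
  rw [hφ] at hα
  have hordσ : orderOf σ = r := by
    rw [← hxr, ← orderOf_fA hQ (by omega) hσ, ← hα, orderOf_conj]
  have hnorm := normal_range hsurj
  rw [← MonoidHom.range_eq_map] at hnorm
  rw [pgoAut_eq] at hδ ⊢
  -- the fixed field
  let F₀ := (σ : F →+* F).eqLocusField (RingHom.id F)
  let j : F₀ →+* F := F₀.subtype
  have hj : ∀ a, σ a = a ↔ a ∈ Set.range j := by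
    intro a
    constructor
    · intro ha
      exact ⟨⟨a, ha⟩, rfl⟩
    · rintro ⟨b, rfl⟩
      exact b.2
  have hfin : Finite F₀ := Finite.of_injective j j.injective
  have h2' : (2 : F₀) ≠ 0 := by
    intro h
    apply h2
    have := congrArg j h
    rw [map_ofNat, map_zero] at this
    exact this
  have hE : Ext (QOdd m F) (QOdd m F₀) j := by
    intro v
    rw [coe_QOdd, coe_QOdd]
    simp [Cfsg.quadFormOdd]
  obtain ⟨g, hg⟩ := hnorm.conj_mem δ hδ α
  have e1 : α * (δ * x) * α⁻¹ = cAut ⇑(QOdd m F) g * fA hσ := by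
    rw [hg, ← hα]; group
  have hpow : (cAut ⇑(QOdd m F) g * fA hσ) ^ r = 1 := by
    rw [← e1, conj_pow, ← hord, pow_orderOf_eq_one]; group
  obtain ⟨h, hh⟩ := field_conj_O hQ (by omega) hσ hE hj r hordσ hr.pos
    (fun Q₁ hQ₁ _ => sim_odd h2' Q₁ hQ₁) g hpow
  refine ⟨α⁻¹ * cAut ⇑(QOdd m F) h * α, ?_, ?_⟩
  · have := hnorm.conj_mem _ ⟨h, rfl⟩ α⁻¹
    rwa [inv_inv] at this
  · have e2 : δ * x = α⁻¹ * (cAut ⇑(QOdd m F) g * fA hσ) * α := by
      rw [← e1]; group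
    rw [e2, hh, ← hα]
    group

/-- Let T = Ω_{2m+1}(F) (m ≥ 3, |F| odd) and x a field automorphism of T of prime order r. Then an element y of the coset Inndiag(T)·x (y = δ x with δ induced by a similarity of the form) has order r if and only if y is conjugate to x by an element of Inndiag(T). (T has no graph or graph-field automorphisms.) -/
theorem result {F : Type*} [Field F] [Fintype F] (hodd : Odd (Fintype.card F)) {m : ℕ} (hm : 3 ≤ m) (x δ : MulAut (Cfsg.POmega F (Cfsg.quadFormOdd m F))) (hx : Cfsg.IsFieldAutClassPOmega (Cfsg.quadFormOdd m F) x) {r : ℕ} (hr : r.Prime) (hxr : orderOf x = r) (hδ : δ ∈ Cfsg.inndiagPOmegaOdd m F) :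
    orderOf (δ * x) = r ↔ Cfsg.IsConjUnder (Cfsg.inndiagPOmegaOdd m F) x (δ * x) := by
  exact aux hodd hm _ (coe_QOdd m) x δ hx hr hxr hδ

end Cfsg.Agent.S2735
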