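import Cfsg.Statements.S2736
import Cfsg.Agent.S2695
import Cfsg.Agent.Lib.Helper51LangC
import Cfsg.Agent.Lib.Helper18GamL
import Cfsg.Agent.Lib.Helper42OInv2

set_option autoImplicit false
open Cfsg

namespace Cfsg.Agent.S2736

open Cfsg.Agent.Lib.Helper49Orth Cfsg.Agent.Lib.Helper49Forms Cfsg.Agent.Lib.Helper49Fam2
  Cfsg.Agent.Lib.Helper51OrthAut Cfsg.Agent.Lib.Helper51OrthIdx
  Cfsg.Agent.Lib.Helper51OrthIdx2 Cfsg.Agent.Lib.Helper51OrthIdx3 Cfsg.Agent.Lib.Helper51OrthPlus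
  Cfsg.Agent.Lib.Helper51OrthPar Cfsg.Agent.Lib.Helper51OrthDiag Cfsg.Agent.Lib.Helper51OrthInst
  Cfsg.Agent.Lib.Helper18GamA Cfsg.Agent.Lib.Helper18GamB Cfsg.Agent.Lib.Helper18GamC
  Cfsg.Agent.Lib.Helper18GamD
  Cfsg.Agent.Lib.Helper18GamE Cfsg.Agent.Lib.Helper18GamF Cfsg.Agent.Lib.Helper18GamH
  Cfsg.Agent.Lib.Helper18GamJ Cfsg.Agent.Lib.Helper18GamK Cfsg.Agent.Lib.Helper18GamL
  Cfsg.Agent.Lib.Helper51LangA Cfsg.Agent.Lib.Helper51LangB Cfsg.Agent.Lib.Helper51LangC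
open scoped Matrix MatrixGroups

/-- The graph-field class for a general form. -/
def GF {F : Type*} [Field F] {ι : Type} [Fintype ι] [DecidableEq ι] (q : (ι → F) → F)
    (β : MulAut (Cfsg.POmega F q)) : Prop :=
  ∃ (α γ φ : MulAut (Cfsg.POmega F q)) (σ : F ≃+* F) (v : ι → F) (r : GL ι F),
    σ ≠ RingEquiv.refl F ∧ q v ≠ 0 ∧ (∀ i, σ (v i) = v i) ∧
    (r : Matrix ι ι F) = Cfsg.reflectionMatrix q v ∧
    Cfsg.IsInducedBySemilinearPOmega q r (RingEquiv.refl F) γ ∧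
    Cfsg.IsFieldAutPOmegaOf q σ φ ∧ α * β * α⁻¹ = γ * φ

theorem exists_X0 {F : Type*} [Field F] [Fintype F] {m : ℕ}
    (x : MulAut (Cfsg.POmega F ⇑(QPlus m F)))
    (hx : Cfsg.IsFieldAutClassPOmega ⇑(QPlus m F) x ∨ GF ⇑(QPlus m F) x) :
    ∃ (α : MulAut (Cfsg.POmega F ⇑(QPlus m F))) (X₀ : ↥(GamO ⇑(QPlus m F))),
      α * x * α⁻¹ = sAut _ X₀ ∧ prO _ X₀ ≠ 1 := by
  rcases hx with ⟨α, φ, σ, hσ, hφ, e⟩ | ⟨α, γ, φ, σ, v, r, hσ, hv, -, hr, hγ, hφ, e⟩
  · rw [isField_iff (comm_QPlus m σ)] at hφ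
    exact ⟨α, fS (comm_QPlus m σ), by rw [e, hφ]; rfl, hσ⟩
  · rw [isField_iff (comm_QPlus m σ)] at hφ
    have hr' : r = ((inlO ⇑(QPlus m F) (incO _ (reflO (QPlus m F) hv)) : ↥(GamO ⇑(QPlus m F))) :
        GamL (Fin m ⊕ Fin m) F).left := by
      apply Units.ext
      rw [hr]
      rfl
    rw [hr'] at hγ
    have hγ' := (Cfsg.Agent.Lib.Helper18GamA.induced_iff ⇑(QPlus m F)
      (inlO ⇑(QPlus m F) (incO _ (reflO (QPlus m F) hv))) γ).1 hγ
    refine ⟨α, inlO _ (incO _ (reflO (QPlus m F) hv)) * fS (comm_QPlus m σ), ?_, ?_⟩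
    · rw [e, hφ, hγ', map_mul]
      rfl
    · rw [map_mul]
      change 1 * σ ≠ 1
      rw [one_mul]
      exact hσ

theorem aux {F : Type*} [Field F] [Fintype F] {k : ℕ} (hk : 4 ≤ k)
    (q : (Fin (k + 1) ⊕ Fin (k + 1) → F) → F) (hq : q = ⇑(QPlus (k + 1) F))
    (x δ : MulAut (Cfsg.POmega F q)) (hx : Cfsg.IsFieldAutClassPOmega q x ∨ GF q x) {r : ℕ}
    (hr : r.Prime) (hxr : orderOf x = r) (hδ : δ ∈ inndiagGen q) :
    orderOf (δ * x) = r ↔ Cfsg.IsConjUnder (inndiagGen q) x (δ * x) := by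
  subst hq
  have hQ := Cfsg.Agent.Lib.Helper49Rank.QPlus_nondegenerate (F := F) (k + 1)
  have hcard : Fintype.card (Fin (k + 1) ⊕ Fin (k + 1)) = 2 * (k + 1) := by
    simp only [Fintype.card_sum, Fintype.card_fin]
    omega
  have hn : 5 ≤ Fintype.card (Fin (k + 1) ⊕ Fin (k + 1)) := by omega
  have htop : Cfsg.gammaPOmega F ⇑(QPlus (k + 1) F) = ⊤ := by
    rw [coe_QPlus]
    exact Cfsg.Agent.S2695.result (by omega)
  have hsurj := sAut_surjective _ htop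
  obtain ⟨α, X₀, hα, hne⟩ := exists_X0 x hx
  have hx1 := exists_one_QPlus (F := F) (k := k)
  by_cases h2 : (2 : F) = 0
  · haveI : CharP F 2 := CharTwo.of_one_ne_zero_of_two_eq_zero one_ne_zero h2
    have hD : inndiagGen ⇑(QPlus (k + 1) F) =
        (Om' (QPlus (k + 1) F) ⊔ ZZ (QPlus (k + 1) F)).map (cAut ⇑(QPlus (k + 1) F)) := by
      apply autSubgroupOf_eq (QPlus (k + 1) F)
        (fun g => Cfsg.PreservesSingularClasses ⇑(QPlus (k + 1) F)
          (g : Matrix (Fin (k + 1) ⊕ Fin (k + 1)) (Fin (k + 1) ⊕ Fin (k + 1)) F))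
      intro g
      have hE : Ext (QPlus (k + 1) F) (QPlus (k + 1) F) (RingHom.id F) := fun v => rfl
      have := preserves_ext_two hE hQ hQ hcard (by omega) (U0_TS (k + 1)) (U0_finrank (k + 1)) hx1 g
      rw [← this]
      rfl
    rw [hD] at hδ ⊢
    apply final hn _ le_sup_right (index_K0_two _ hQ hx1 hn) _ _ x δ α X₀ hα hne hr hxr hδ
    · intro h
      have h3 : wG k F ∈ (Om' (QPlus (k + 1) F) ⊔ ZZ (QPlus (k + 1) F)) ⊓ OO' (QPlus (k + 1) F) :=
        ⟨h, ⟨_, rfl⟩⟩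
      rw [K0_inf_OO' _ hx1] at h3
      unfold wG at h3
      rw [incO_mem_Om'] at h3
      exact Cfsg.Agent.Lib.Helper42OInv2.reflO_not_mem _ hQ (Or.inr (by omega)) _ h3
    · rw [K0_map_eq_Inn]
      infer_instance
  · have G := good_QPlus h2 (m := k + 1) (by omega)
    rw [inndiagGen_eq (k + 1) G] at hδ ⊢
    apply final hn _ (le_sup_right.trans (K0_le_DD _ G hcard)) (index_DD _ G hcard) _ _ x δ α X₀
      hα hne hr hxr hδ
    · intro h
      have h3 : delta (QPlus (k + 1) F) G.exists_one (k + 1) (wG k F) = 1 := h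
      unfold wG at h3
      rw [delta_incO, detO_reflO] at h3
      have h4 := congrArg (fun u : Fˣ => (u : F)) h3
      simp only [Units.val_neg, Units.val_one] at h4
      apply h2
      linear_combination -h4
    · exact normal_map hsurj _ (normal_ker_delta _ G.exists_one (k + 1))

/-- Let T = PΩ⁺_{2m}(F) with m ≥ 5 (dimension ≠ 8) and x a field automorphism or a graph-field automorphism of T of prime order r. Then an element y of the coset Inndiag(T)·x (y = δ x with δ induced by a class-preserving similarity) has order r if and only if y is conjugate to x by an element of Inndiag(T). -/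
theorem result {F : Type*} [Field F] [Fintype F] {m : ℕ} (hm : 5 ≤ m) (x δ : MulAut (Cfsg.POmega F (Cfsg.quadFormPlus m F))) (hx : Cfsg.IsFieldAutClassPOmega (Cfsg.quadFormPlus m F) x ∨ Cfsg.IsGraphFieldAutClassPOmegaPlus m x) {r : ℕ} (hr : r.Prime) (hxr : orderOf x = r) (hδ : δ ∈ Cfsg.inndiagPOmegaPlus m F) :
    orderOf (δ * x) = r ↔ Cfsg.IsConjUnder (Cfsg.inndiagPOmegaPlus m F) x (δ * x) := by
  obtain ⟨k, rfl⟩ : ∃ k, m = k + 1 := ⟨m - 1, by omega⟩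
  exact aux (by omega) _ (coe_QPlus (k + 1)).symm x δ hx hr hxr hδ

end Cfsg.Agent.S2736
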