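import Cfsg.Statements.S2737
import Cfsg.Agent.S2696
import Cfsg.Agent.Lib.Helper18LangB

set_option autoImplicit false
open Cfsg

namespace Cfsg.Agent.S2737

open Cfsg.Agent.Lib.Helper49Forms Cfsg.Agent.Lib.Helper51OrthAut Cfsg.Agent.Lib.Helper51OrthIdx
  Cfsg.Agent.Lib.Helper51OrthDiag Cfsg.Agent.Lib.Helper51OrthInst Cfsg.Agent.Lib.Helper51OrthMinus2
  Cfsg.Agent.Lib.Helper18GamA Cfsg.Agent.Lib.Helper18GamB Cfsg.Agent.Lib.Helper18GamD
  Cfsg.Agent.Lib.Helper18GamE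
  Cfsg.Agent.Lib.Helper18GamF Cfsg.Agent.Lib.Helper18GamG Cfsg.Agent.Lib.Helper18GamH
  Cfsg.Agent.Lib.Helper18GamI Cfsg.Agent.Lib.Helper18GamJ Cfsg.Agent.Lib.Helper18GamK
  Cfsg.Agent.Lib.Helper18GamL Cfsg.Agent.Lib.Helper18LangA Cfsg.Agent.Lib.Helper18LangB

theorem ne_top_of_index_two {G : Type*} [Group G] {H : Subgroup G} (h : H.index = 2) : H ≠ ⊤ := by
  rintro rfl
  rw [Subgroup.index_top] at h
  omega

theorem aux {F : Type*} [Field F] [Fintype F] {p f : ℕ} [Fact p.Prime]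
    (hF : Fintype.card F = p ^ f) {m : ℕ} (hm : 3 ≤ m) (a b : F) (hab : Aniso a b)
    (q : ((Fin m ⊕ Fin m) ⊕ Fin 2 → F) → F) (hq : ⇑(QMinus m F a b) = q)
    (x δ : MulAut (Cfsg.POmega F q)) (a' b' : F) (hab' : Aniso a' b')
    (q' : ((Fin m ⊕ Fin m) ⊕ Fin 2 → F) → F) (hq' : ⇑(QMinus m F a' b') = q')
    (ψ : Cfsg.POmega F q ≃* Cfsg.POmega F q') (σ : F ≃+* F)
    (hσa : σ a' = a') (hσb : σ b' = b')
    (hφ : Cfsg.IsFieldAutPOmegaOf q' σ ((ψ.symm.trans x).trans ψ))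
    {r : ℕ} (hr : r.Prime) (hf : 0 < f) (hxr : orderOf x = r) (hδ : δ ∈ inndiagMinusGen m a b q)
    (hord : orderOf (δ * x) = r) :
    Cfsg.IsConjUnder (inndiagMinusGen m a b q) x (δ * x) := by
  subst hq
  subst hq'
  have hQ := Cfsg.Agent.Lib.Helper49Rank.QMinus_nondegenerate m hab
  have hQ' := Cfsg.Agent.Lib.Helper49Rank.QMinus_nondegenerate m hab'
  have hcard : Fintype.card ((Fin m ⊕ Fin m) ⊕ Fin 2) = 2 * (m + 1) := card_minus m
  have hn5 : 5 ≤ Fintype.card ((Fin m ⊕ Fin m) ⊕ Fin 2) := by omega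
  have hσ : Comm ⇑(QMinus m F a' b') σ := by
    intro v
    have := map_quadFormMinus m a' b' σ v
    rw [hσa, hσb] at this
    rw [coe_QMinus]
    exact this
  have hx' : MulAut.congr ψ x = fA hσ := by
    rw [← isField_iff hσ]
    exact hφ
  have hord' : orderOf σ = r := by
    rw [← hxr, ← orderOf_fA hQ' hn5 hσ, ← hx']
    exact (MulAut.congr ψ).orderOf_eq x
  have hrf : r ∣ f := by
    rw [← hord', ← (Cfsg.Agent.Lib.Helper50Out.ringAut_cyclic_card hF).2]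
    exact orderOf_dvd_natCard σ
  have hne : f / r ≠ 0 := by
    have := Nat.div_pos (Nat.le_of_dvd hf hrf) hr.pos
    omega
  obtain ⟨F₀, _, _, hF₀⟩ : ∃ (F₀ : Type) (_ : Field F₀) (_ : Fintype F₀),
      Fintype.card F₀ = p ^ (f / r) := by
    have : Fintype (GaloisField p (f / r)) := Fintype.ofFinite _
    refine ⟨GaloisField p (f / r), inferInstance, this, ?_⟩
    rw [← Nat.card_eq_fintype_card]
    exact GaloisField.card p _ hne
  obtain ⟨j, hj⟩ := Cfsg.Agent.Lib.Helper50Cent.exists_embedding hF σ hord' F₀ hF₀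
  obtain ⟨a₀, rfl⟩ := (hj a').1 hσa
  obtain ⟨b₀, rfl⟩ := (hj b').1 hσb
  have hab₀ : Aniso a₀ b₀ := aniso_descend hab'
  have hQ₀ := Cfsg.Agent.Lib.Helper49Rank.QMinus_nondegenerate m hab₀
  have hE := ext_minus m j a₀ b₀
  have hx₀ := exists_one_minus m a₀ b₀
  have hx1 := exists_one_minus m (j a₀) (j b₀)
  have hxne : ∃ x, QMinus m F (j a₀) (j b₀) x ≠ 0 := by
    obtain ⟨x, hx⟩ := hx1
    exact ⟨x, by rw [hx]; exact one_ne_zero⟩
  by_cases hp : p = 2
  · subst hp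
    have : CharP F 2 := charP_of_card_eq_prime_pow hF
    have : CharP F₀ 2 := (RingHom.charP_iff j j.injective 2).2 inferInstance
    exact final_conj (Q' := QMinus m F a b) hQ' hn5 hxne hσ hE hj ψ x δ hx'
      (inndiagMinusGen m a b ⇑(QMinus m F a b)) (Om' _ ⊔ ZZ _) (Om' _ ⊔ ZZ _)
      (by rw [inndiagMinusGen_eq_two m (by omega) hab, K0_map_eq_Inn, K0_map_eq_Inn, map_Inn])
      (mapJ_mem_K0_iff hE hQ' hQ₀ (by omega) hx1 hx₀)
      (index_K0_two _ hQ' hx1 hn5) (ne_top_of_index_two (index_K0_two _ hQ₀ hx₀ hn5))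
      (class_minus m hab') r hord' hδ hord
  · have hpodd : Odd p := (Fact.out : p.Prime).odd_of_ne_two hp
    have hoddF : Odd (Fintype.card F) := by rw [hF]; exact hpodd.pow
    have hoddF₀ : Odd (Fintype.card F₀) := by rw [hF₀]; exact hpodd.pow
    have h2 : (2 : F) ≠ 0 := two_ne_zero_of_odd rfl hoddF
    have h2' : (2 : F₀) ≠ 0 := two_ne_zero_of_odd rfl hoddF₀
    have G := good_QMinus h2 (by omega : 2 ≤ m) hab
    have G' := good_QMinus h2 (by omega : 2 ≤ m) hab'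
    have G₀ := good_QMinus h2' (by omega : 2 ≤ m) hab₀
    have htop : Cfsg.gammaPOmega F ⇑(QMinus m F a b) = ⊤ := by
      rw [coe_QMinus]
      exact Cfsg.Agent.S2696.result hm a b hab
    have hsurj := sAut_surjective _ htop
    obtain ⟨g₀, hg₀⟩ := exists_isometry_minus m hab hab'
    have hiso : IsIso ⇑(QMinus m F a b) ⇑(QMinus m F (j a₀) (j b₀)) g₀ := by
      intro v
      rw [coe_QMinus, coe_QMinus]
      exact hg₀ v
    exact final_conj (Q' := QMinus m F a b) hQ' hn5 hxne hσ hE hj ψ x δ hx'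
      (inndiagMinusGen m a b ⇑(QMinus m F a b)) (DD _ G' (m + 1)) (DD _ G₀ (m + 1))
      (by
        rw [inndiagMinusGen_eq m hoddF hab G]
        exact map_congr_eq hiso _ _ (map_cg_ker_delta hiso _ _ _)
          (normal_map hsurj _ (normal_ker_delta _ _ _)) ψ)
      (mapJ_mem_ker_delta hE _ _ _)
      (index_DD _ G' hcard) (ne_top_of_index_two (index_DD _ G₀ hcard))
      (class_minus m hab') r hord' hδ hord

/-- Let T = PΩ⁻_{2m+2}(F) (m ≥ 3; form with anisotropic binary part) and x a field automorphism of T of prime order r. Then an element y of the coset Inndiag(T)·x has order r if and only if y is conjugate to x by an element of Inndiag(T). (T has no graph-field automorphisms.) -/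
theorem result {F : Type*} [Field F] [Fintype F] {m : ℕ} (hm : 3 ≤ m) (a b : F) (hab : (∀ z₁ z₂ : F, z₁ ^ 2 + a * z₁ * z₂ + b * z₂ ^ 2 = 0 → z₁ = 0 ∧ z₂ = 0)) (x δ : MulAut (Cfsg.POmega F (Cfsg.quadFormMinus m F a b))) (hx : Cfsg.IsFieldAutClassPOmegaMinus m x) {r : ℕ} (hr : r.Prime) (hxr : orderOf x = r) (hδ : δ ∈ Cfsg.inndiagPOmegaMinus m F a b) :
    orderOf (δ * x) = r ↔ Cfsg.IsConjUnder (Cfsg.inndiagPOmegaMinus m F a b) x (δ * x) := by
  constructor
  · intro hord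
    obtain ⟨a', b', ψ, σ, hab', -, hσa, hσb, hφ⟩ := hx
    obtain ⟨p, hp⟩ := CharP.exists F
    obtain ⟨n, hprime, hcard⟩ := FiniteField.card F p
    have : Fact p.Prime := ⟨hprime⟩
    exact aux hcard hm a b hab _ (coe_QMinus m a b) x δ a' b' hab' _
      (coe_QMinus m a' b') ψ σ hσa hσb hφ hr n.pos hxr hδ hord
  · rintro ⟨h, -, e⟩
    rw [e, orderOf_conj, hxr]

end Cfsg.Agent.S2737
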