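import Cfsg.Statements.S2738

set_option autoImplicit false
open Cfsg

namespace Cfsg.Agent.S2738

open Matrix
open scoped Pointwise

theorem exists_omega (F : Type*) [Field F] [Fintype F] (hF : Fintype.card F = 4) :
    ∃ w : F, w ≠ 1 ∧ w ^ 3 = 1 := by
  classical
  have h2 : ∃ w : F, w ≠ 0 ∧ w ≠ 1 := by
    by_contra hcon
    push Not at hcon
    have hsub : (Finset.univ : Finset F) ⊆ {0, 1} := by
      intro x _
      by_cases hx : x = 0
      · simp [hx]
      · simp [hcon x hx]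
    have := Finset.card_le_card hsub
    rw [Finset.card_univ, hF] at this
    have h3 : ({0, 1} : Finset F).card ≤ 2 := Finset.card_le_two
    omega
  obtain ⟨w, hw0, hw1⟩ := h2
  refine ⟨w, hw1, ?_⟩
  have := FiniteField.pow_card_sub_one_eq_one w hw0
  rwa [hF] at this

theorem card_center (F : Type*) [Field F] [Fintype F] (hF : Fintype.card F = 4) :
    Nat.card ↥(Subgroup.center (Matrix.SpecialLinearGroup (Fin 3) F)) = 3 := by
  obtain ⟨w, hw1, hw3⟩ := exists_omega F hF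
  have hprim : IsPrimitiveRoot w 3 := by
    have hp : Nat.Prime 3 := by norm_num
    rw [IsPrimitiveRoot.iff_orderOf]
    exact orderOf_eq_prime hw3 hw1
  rw [Nat.card_congr (Matrix.SpecialLinearGroup.center_equiv_rootsOfUnity' (0 : Fin 3)).toEquiv]
  simpa using hprim.card_rootsOfUnity

def aMat {F : Type*} [Field F] (w : F) (hw : w ^ 3 = 1) : Matrix.SpecialLinearGroup (Fin 3) F :=
  ⟨!![1, 0, 0; 0, w, 0; 0, 0, w ^ 2], by
    rw [Matrix.det_fin_three]; simp; linear_combination hw⟩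

def bMat (F : Type*) [Field F] : Matrix.SpecialLinearGroup (Fin 3) F :=
  ⟨!![0, 1, 0; 0, 0, 1; 1, 0, 0], by
    rw [Matrix.det_fin_three]; simp⟩

def zMat {F : Type*} [Field F] (w : F) (hw : w ^ 3 = 1) : Matrix.SpecialLinearGroup (Fin 3) F :=
  ⟨!![w, 0, 0; 0, w, 0; 0, 0, w], by
    rw [Matrix.det_fin_three]; simp; linear_combination hw⟩

theorem comm_rel {F : Type*} [Field F] (w : F) (hw : w ^ 3 = 1) :
    bMat F * aMat w hw = zMat w hw * (aMat w hw * bMat F) := by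
  apply Matrix.SpecialLinearGroup.ext
  intro i j
  rw [Matrix.SpecialLinearGroup.coe_mul, Matrix.SpecialLinearGroup.coe_mul,
    Matrix.SpecialLinearGroup.coe_mul]
  simp only [aMat, bMat, zMat]
  fin_cases i <;> fin_cases j <;> simp [Matrix.mul_apply, Fin.sum_univ_three]
  · ring
  · linear_combination -hw

theorem zMat_mem_center {F : Type*} [Field F] (w : F) (hw : w ^ 3 = 1) :
    zMat w hw ∈ Subgroup.center (Matrix.SpecialLinearGroup (Fin 3) F) := by
  rw [Matrix.SpecialLinearGroup.mem_center_iff]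
  refine ⟨w, by simpa using hw, ?_⟩
  simp only [zMat]
  ext i j
  fin_cases i <;> fin_cases j <;> simp

theorem zMat_ne_one {F : Type*} [Field F] (w : F) (hw : w ^ 3 = 1) (h1 : w ≠ 1) :
    zMat w hw ≠ 1 := by
  intro h
  have := congrArg (fun M : Matrix.SpecialLinearGroup (Fin 3) F => (M : Matrix (Fin 3) (Fin 3) F) 0 0) h
  simp [zMat] at this
  exact h1 this

/-- The special linear group SL(3, 4) has centre of order 3 and does not split over it: no subgroup is a complement to the centre (so SL(3, 4) is a non-split central extension of PSL(3, 4) by a group of order 3). -/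
theorem result (F : Type*) [Field F] [Fintype F] (hF : Fintype.card F = 4) : Nat.card ↥(Subgroup.center (Matrix.SpecialLinearGroup (Fin 3) F)) = 3 ∧ ¬ ∃ K : Subgroup (Matrix.SpecialLinearGroup (Fin 3) F), Subgroup.IsComplement' (Subgroup.center (Matrix.SpecialLinearGroup (Fin 3) F)) K := by
  refine ⟨card_center F hF, ?_⟩
  rintro ⟨K, hK⟩
  obtain ⟨w, hw1, hw3⟩ := exists_omega F hF
  set Z := Subgroup.center (Matrix.SpecialLinearGroup (Fin 3) F) with hZ
  have hdec : ∀ g : Matrix.SpecialLinearGroup (Fin 3) F, ∃ z ∈ Z, ∃ k ∈ K, g = z * k := by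
    intro g
    have : g ∈ (Z : Set (Matrix.SpecialLinearGroup (Fin 3) F)) * (K : Set (Matrix.SpecialLinearGroup (Fin 3) F)) := by
      rw [hK.mul_eq]; exact Set.mem_univ g
    obtain ⟨z, hz, k, hk, rfl⟩ := this
    exact ⟨z, hz, k, hk, rfl⟩
  obtain ⟨z₁, hz₁, k₁, hk₁, ha⟩ := hdec (aMat w hw3)
  obtain ⟨z₂, hz₂, k₂, hk₂, hb⟩ := hdec (bMat F)
  have hrel := comm_rel w hw3
  have c₁ := Subgroup.mem_center_iff.1 hz₁
  have c₂ := Subgroup.mem_center_iff.1 hz₂
  have hzk : zMat w hw3 = k₂ * k₁ * k₂⁻¹ * k₁⁻¹ := by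
    have h1 : zMat w hw3 = bMat F * aMat w hw3 * (aMat w hw3 * bMat F)⁻¹ := by
      rw [hrel]; group
    rw [h1, ha, hb]
    have e1 : z₂ * k₂ * (z₁ * k₁) = z₁ * z₂ * (k₂ * k₁) := by
      calc z₂ * k₂ * (z₁ * k₁) = z₂ * (k₂ * z₁) * k₁ := by group
        _ = z₂ * (z₁ * k₂) * k₁ := by rw [c₁ k₂]
        _ = (z₂ * z₁) * (k₂ * k₁) := by group
        _ = z₁ * z₂ * (k₂ * k₁) := by rw [c₁ z₂]
    have e2 : z₁ * k₁ * (z₂ * k₂) = z₁ * z₂ * (k₁ * k₂) := by
      calc z₁ * k₁ * (z₂ * k₂) = z₁ * (k₁ * z₂) * k₂ := by group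
        _ = z₁ * (z₂ * k₁) * k₂ := by rw [c₂ k₁]
        _ = z₁ * z₂ * (k₁ * k₂) := by group
    rw [e1, e2]
    have cu : ∀ g, g * (z₁ * z₂) = (z₁ * z₂) * g := Subgroup.mem_center_iff.1 (mul_mem hz₁ hz₂)
    calc z₁ * z₂ * (k₂ * k₁) * (z₁ * z₂ * (k₁ * k₂))⁻¹
        = (z₁ * z₂ * (k₂ * k₁ * k₂⁻¹ * k₁⁻¹)) * (z₁ * z₂)⁻¹ := by group
      _ = ((k₂ * k₁ * k₂⁻¹ * k₁⁻¹) * (z₁ * z₂)) * (z₁ * z₂)⁻¹ := by rw [cu]
      _ = k₂ * k₁ * k₂⁻¹ * k₁⁻¹ := by group
  have hzK : zMat w hw3 ∈ K := by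
    rw [hzk]
    exact mul_mem (mul_mem (mul_mem hk₂ hk₁) (inv_mem hk₂)) (inv_mem hk₁)
  have hbot : zMat w hw3 ∈ Z ⊓ K := ⟨zMat_mem_center w hw3, hzK⟩
  rw [hK.disjoint.eq_bot, Subgroup.mem_bot] at hbot
  exact zMat_ne_one w hw3 hw1 hbot

end Cfsg.Agent.S2738
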