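import Cfsg.Statements.S2739
import Mathlib
import Cfsg.Prelude
import Cfsg.Agent.Lib.Helper62F4
import Cfsg.Agent.Lib.Helper6Transport

set_option autoImplicit false
open scoped Pointwise
open Cfsg

namespace Cfsg.Agent.S2739

open Cfsg.Agent.Lib.Helper62F4 Matrix
open scoped Pointwise

/-- abstract reduction to elements -/
theorem subgroups_conj {G : Type*} [Group G] (d : G)
    (h : ∀ x : G, orderOf x = 3 → ∃ g : G, g * x * g⁻¹ = d)
    (X Y : Subgroup G) (hX : Nat.card X = 3) (hY : Nat.card Y = 3) :
    ∃ g : G, MulAut.conj g • X = Y := by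
  have key : ∀ X : Subgroup G, Nat.card X = 3 → ∃ g : G, MulAut.conj g • X = Subgroup.zpowers d := by
    intro X hX
    have : Fact (Nat.Prime 3) := ⟨by norm_num⟩
    have hfin : Finite X := Nat.finite_of_card_ne_zero (by rw [hX]; norm_num)
    have hnt : Nontrivial X := by
      rw [← Finite.one_lt_card_iff_nontrivial, hX]; norm_num
    obtain ⟨x, hx⟩ := exists_ne (1 : X)
    have hox : orderOf x = 3 := by
      have h1 : orderOf x ∣ 3 := hX ▸ orderOf_dvd_natCard x
      rcases (Nat.dvd_prime (by norm_num)).1 h1 with h2 | h2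
      · exact absurd (orderOf_eq_one_iff.1 h2) hx
      · exact h2
    have hox' : orderOf (x : G) = 3 := by rw [Subgroup.orderOf_coe, hox]
    have hXz : X = Subgroup.zpowers (x : G) := by
      symm
      apply Subgroup.eq_of_le_of_card_ge
      · rw [Subgroup.zpowers_le]; exact x.2
      · rw [Nat.card_zpowers, hox', hX]
    obtain ⟨g, hg⟩ := h x hox'
    refine ⟨g, ?_⟩
    have h1 : MulAut.conj g • Subgroup.zpowers (x : G) =
        (Subgroup.zpowers (x : G)).map (MulAut.conj g).toMonoidHom := rfl
    rw [hXz, h1, MonoidHom.map_zpowers]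
    have : (MulAut.conj g).toMonoidHom (x : G) = g * x * g⁻¹ := rfl
    rw [this, hg]
  obtain ⟨g, hg⟩ := key X hX
  obtain ⟨g', hg'⟩ := key Y hY
  refine ⟨g'⁻¹ * g, ?_⟩
  rw [map_mul, mul_smul, hg, ← hg', map_inv, inv_smul_smul]

abbrev M3 := Matrix (Fin 3) (Fin 3) F4

theorem cube_eq_one : ∀ a : F4, a ≠ 0 → a * a * a = 1 := by decide
theorem add_self' : ∀ a : F4, a + a = 0 := by decide
theorem neg_eq' : ∀ a : F4, -a = a := by decide

theorem madd_self (A : M3) : A + A = 0 := by
  ext i j; exact add_self' _

/-- Cayley-Hamilton in characteristic two -/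
theorem CH (A : M3) :
    A * A * A = A.trace • (A * A) + (A.adjugate).trace • A + A.det • (1 : M3) := by
  have h : A * A * A = A.trace • (A * A) - (A.adjugate).trace • A + A.det • (1 : M3) := by
    ext i j
    fin_cases i <;> fin_cases j <;>
      simp [Matrix.mul_apply, Fin.sum_univ_three, Matrix.trace, Matrix.adjugate_fin_three,
        Matrix.det_fin_three] <;> ring
  rw [h, sub_eq_add_neg, ← neg_smul, neg_eq']

theorem det_add (A : M3) (α : F4) : (α • (1 : M3) + A).det =
    α * α * α + α * α * A.trace + α * (A.adjugate).trace + A.det := by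
  simp [Matrix.trace, Matrix.adjugate_fin_three, Matrix.det_fin_three, Fin.sum_univ_three]
  ring

/-- not a scalar matrix -/
def NS (M : M3) : Prop := ∀ c : F4, M ≠ c • (1 : M3)

theorem lin {M : M3} (h : NS M) (α β : F4) (h0 : α • M + β • (1 : M3) = 0) : α = 0 ∧ β = 0 := by
  by_cases hα : α = 0
  · subst hα
    refine ⟨rfl, ?_⟩
    have := congrFun (congrFun h0 0) 0
    simpa using this
  · exfalso
    apply h (α⁻¹ * β)
    have h1 : α • M = β • (1 : M3) := by
      have := congrArg (· + β • (1 : M3)) h0
      simp only [add_assoc, madd_self, add_zero, zero_add] at this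
      exact this
    rw [mul_smul, ← h1, smul_smul, inv_mul_cancel₀ hα, one_smul]

theorem quad_false {M : M3} (h : NS M) (hd : M.det = 1) (α : F4) (hα : α ≠ 0)
    (hq : M * M = α • M + (α * α) • (1 : M3)) : False := by
  have h3 : M * M * M = 1 := by
    rw [hq, add_mul, smul_mul_assoc, hq, smul_mul_assoc, one_mul, smul_add, smul_smul, smul_smul,
      add_right_comm, madd_self, zero_add, ← mul_assoc, cube_eq_one α hα, one_smul]
  have hch := CH M
  rw [h3, hq, hd, one_smul] at hch
  have h0 : (M.trace * α + (M.adjugate).trace) • M + (M.trace * (α * α)) • (1 : M3) = 0 := by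
    have := congrArg (· + (1 : M3)) hch
    simp only [madd_self, add_assoc, add_zero] at this
    rw [this]
    module
  obtain ⟨h1, h2⟩ := lin h _ _ h0
  have ht : M.trace = 0 := by
    rcases mul_eq_zero.1 h2 with h | h
    · exact h
    · exact absurd (mul_self_eq_zero.1 h) hα
  have he : (M.adjugate).trace = 0 := by rw [ht] at h1; simpa using h1
  have hdet := det_add M α
  rw [ht, he, hd, cube_eq_one α hα] at hdet
  have hz : (α • (1 : M3) + M).det = 0 := by rw [hdet]; simp [add_self']
  have hm : M * (α • (1 : M3) + M) = (α * α) • (1 : M3) := by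
    rw [mul_add, hq, mul_smul_comm, mul_one, ← add_assoc, madd_self, zero_add]
  have := congrArg Matrix.det hm
  rw [Matrix.det_mul, hz, mul_zero, Matrix.det_smul, Matrix.det_one] at this
  have h5 : (α * α) ^ Fintype.card (Fin 3) ≠ 0 := pow_ne_zero _ (mul_ne_zero hα hα)
  apply h5
  rw [mul_one] at this
  exact this.symm


theorem cube_one {M : M3} (h : NS M) (hd : M.det = 1) (l : F4) (hl : M * M * M = l • (1 : M3)) :
    M * M * M = 1 := by
  have hl0 : l ≠ 0 := by
    rintro rfl
    have := congrArg Matrix.det hl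
    rw [Matrix.det_mul, Matrix.det_mul, hd] at this
    simp at this
  have hch := CH M
  rw [hl, hd, one_smul] at hch
  by_cases ht : M.trace = 0
  · rw [ht, zero_smul, zero_add] at hch
    have h0 : (M.adjugate).trace • M + (1 + l) • (1 : M3) = 0 := by
      rw [add_smul, hch, one_smul, add_comm (1 : M3), add_assoc _ (1 : M3), madd_self,
        add_zero, madd_self]
    have := (lin h _ _ h0).2
    have hl1 : l = 1 := by
      have key : ∀ l : F4, 1 + l = 0 → l = 1 := by decide
      exact key l this
    rw [hl, hl1, one_smul]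
  · exfalso
    set t := M.trace with htdef
    set e := (M.adjugate).trace with hedef
    have hq : M * M = (t⁻¹ * e) • M + (t⁻¹ * (1 + l)) • (1 : M3) := by
      have h1 : t • (M * M) = e • M + (1 + l) • (1 : M3) := by
        rw [add_smul, hch, one_smul]
        have : ∀ X Y Z : M3, X = Y + (Z + (X + Y + Z)) := by
          intro X Y Z
          ext i j
          simp only [Matrix.add_apply]
          generalize X i j = x
          generalize Y i j = y
          generalize Z i j = z
          revert x y z
          decide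
        exact this _ _ _
      rw [mul_smul, mul_smul, ← smul_add, ← h1, smul_smul, inv_mul_cancel₀ ht, one_smul]
    set a := t⁻¹ * e with ha
    set b := t⁻¹ * (1 + l) with hb
    have h3 : M * M * M = (a * a + b) • M + (a * b) • (1 : M3) := by
      rw [hq, add_mul, smul_mul_assoc, hq, smul_mul_assoc, one_mul]
      module
    rw [hl] at h3
    have h0 : (a * a + b) • M + (a * b + l) • (1 : M3) = 0 := by
      rw [add_smul (a * b), ← add_assoc, ← h3, madd_self]
    obtain ⟨h1, h2⟩ := lin h _ _ h0
    have hb' : b = a * a := by revert h1; generalize a = x; generalize b = y; revert x y; decide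
    have ha0 : a ≠ 0 := by
      rintro h
      rw [h] at h2
      simp at h2
      exact hl0 h2
    rw [hb'] at hq
    exact quad_false h hd a ha0 hq

/-- the projection onto the eigenspace of `a` -/
def P (M : M3) (a : F4) : M3 := 1 + (a * a) • M + a • (M * M)

theorem P_ne_zero {M : M3} (h : NS M) (hd : M.det = 1) (a : F4) (ha : a ≠ 0) : P M a ≠ 0 := by
  intro h0
  apply quad_false h hd a ha
  have h1 : a • (M * M) = 1 + (a * a) • M := by
    have := congrArg (· + a • (M * M)) h0
    simp only [P, add_assoc, madd_self, add_zero, zero_add] at this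
    exact this.symm
  have h2 : M * M = (a * a) • (a • (M * M)) := by
    rw [smul_smul, cube_eq_one a ha, one_smul]
  rw [h2, h1, smul_add, smul_smul]
  have : a * a * (a * a) = a := by
    rw [← mul_assoc, cube_eq_one a ha, one_mul]
  rw [this, add_comm]

theorem mul_P {M : M3} (h3 : M * M * M = 1) (a : F4) (ha : a ≠ 0) : M * P M a = a • P M a := by
  unfold P
  rw [mul_add, mul_add, mul_one, mul_smul_comm, mul_smul_comm, ← mul_assoc, h3, smul_add, smul_add,
    smul_smul, smul_smul, ← mul_assoc, cube_eq_one a ha, one_smul]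
  abel

theorem exists_eigen {M : M3} (h : NS M) (hd : M.det = 1) (h3 : M * M * M = 1) (a : F4)
    (ha : a ≠ 0) : ∃ v : Fin 3 → F4, v ≠ 0 ∧ M *ᵥ v = a • v := by
  have hP := P_ne_zero h hd a ha
  obtain ⟨i, j, hij⟩ : ∃ i j, P M a i j ≠ 0 := by
    by_contra hcon
    push Not at hcon
    apply hP
    ext i j
    exact hcon i j
  refine ⟨fun k => P M a k j, ?_, ?_⟩
  · intro h0
    exact hij (congrFun h0 i)
  · have := mul_P h3 a ha
    funext k
    have h1 := congrFun (congrFun this k) j
    rw [Matrix.mul_apply] at h1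
    simpa [Matrix.mulVec, dotProduct] using h1


def w2 : F4 := ⟨true, true⟩
def mu : Fin 3 → F4 := ![1, w, w2]
def D : M3 := Matrix.diagonal mu

theorem mu_inj : Function.Injective mu := by decide
theorem mu_ne : ∀ i, mu i ≠ 0 := by decide

theorem exists_conj {M : M3} (h : NS M) (hd : M.det = 1) (l : F4) (hl : M * M * M = l • (1 : M3)) :
    ∃ Q : M3, Q.det = 1 ∧ M * Q = Q * D := by
  have h3 := cube_one h hd l hl
  have hex : ∀ i, ∃ v : Fin 3 → F4, v ≠ 0 ∧ M *ᵥ v = mu i • v := fun i =>
    exists_eigen h hd h3 (mu i) (mu_ne i)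
  choose v hv0 hv using hex
  have hev : ∀ i, Module.End.HasEigenvector (Matrix.toLin' M) (mu i) (v i) := by
    intro i
    refine ⟨?_, hv0 i⟩
    rw [Module.End.mem_eigenspace_iff, Matrix.toLin'_apply]
    exact hv i
  have hli : LinearIndependent F4 v :=
    Module.End.eigenvectors_linearIndependent' (Matrix.toLin' M) mu mu_inj v hev
  set A : M3 := Matrix.of v with hA
  have hu : IsUnit A := by
    rw [← Matrix.linearIndependent_rows_iff_isUnit]
    exact hli
  have hdA : A.det ≠ 0 := by
    have := (Matrix.isUnit_iff_isUnit_det A).1 hu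
    exact this.ne_zero
  have hMA : M * Aᵀ = Aᵀ * D := by
    ext i k
    rw [D, Matrix.mul_diagonal, Matrix.mul_apply]
    have := congrFun (hv k) i
    simp only [Matrix.mulVec, dotProduct, Pi.smul_apply, smul_eq_mul] at this
    simp only [Matrix.transpose_apply, hA, Matrix.of_apply]
    rw [this, mul_comm]
  refine ⟨Aᵀ * Matrix.diagonal ![(A.det)⁻¹, 1, 1], ?_, ?_⟩
  · rw [Matrix.det_mul, Matrix.det_transpose, Matrix.det_diagonal, Fin.prod_univ_three]
    simp [hdA]
  · rw [← mul_assoc, hMA, mul_assoc, mul_assoc, D, Matrix.diagonal_mul_diagonal,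
      Matrix.diagonal_mul_diagonal]
    congr 2
    funext i
    exact mul_comm _ _


theorem D_det : D.det = 1 := by
  rw [D, Matrix.det_diagonal, Fin.prod_univ_three]; decide

/-- the diagonal element -/
def dS : Matrix.SpecialLinearGroup (Fin 3) F4 := ⟨D, D_det⟩

theorem model (x : Matrix.ProjectiveSpecialLinearGroup (Fin 3) F4) (hx : orderOf x = 3) :
    ∃ g : Matrix.ProjectiveSpecialLinearGroup (Fin 3) F4, g * x * g⁻¹ = QuotientGroup.mk dS := by
  induction x using QuotientGroup.induction_on with
  | H y =>
    have h3 : (QuotientGroup.mk y : Matrix.ProjectiveSpecialLinearGroup (Fin 3) F4) ^ 3 = 1 := by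
      have := pow_orderOf_eq_one (QuotientGroup.mk y : Matrix.ProjectiveSpecialLinearGroup (Fin 3) F4)
      rwa [hx] at this
    rw [← QuotientGroup.mk_pow, QuotientGroup.eq_one_iff,
      Matrix.SpecialLinearGroup.mem_center_iff] at h3
    obtain ⟨r, -, hr⟩ := h3
    have hl : y.1 * y.1 * y.1 = r • (1 : M3) := by
      have : (y ^ 3).1 = y.1 * y.1 * y.1 := by
        rw [pow_succ, pow_two]; rfl
      rw [← this]
      have h5 : (y ^ 3).1 = Matrix.scalar (Fin 3) r := hr.symm
      rw [h5]
      ext i j
      simp [Matrix.scalar_apply, Matrix.diagonal_apply, Matrix.one_apply]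
    have hns : NS y.1 := by
      intro c hc
      have hcen : y ∈ Subgroup.center (Matrix.SpecialLinearGroup (Fin 3) F4) := by
        rw [Matrix.SpecialLinearGroup.mem_center_iff]
        refine ⟨c, ?_, ?_⟩
        · have := y.2
          rw [hc, Matrix.det_smul, Matrix.det_one, mul_one] at this
          exact this
        · show Matrix.scalar (Fin 3) c = y.1
          rw [hc]
          ext i j
          simp [Matrix.scalar_apply, Matrix.diagonal_apply, Matrix.one_apply]
      have h1 : (QuotientGroup.mk y : Matrix.ProjectiveSpecialLinearGroup (Fin 3) F4) = 1 :=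
        (QuotientGroup.eq_one_iff y).2 hcen
      rw [h1, orderOf_one] at hx
      norm_num at hx
    obtain ⟨Q, hQ, hMQ⟩ := exists_conj hns y.2 r hl
    set q : Matrix.SpecialLinearGroup (Fin 3) F4 := ⟨Q, hQ⟩ with hqdef
    have hq : y * q = q * dS := Subtype.ext hMQ
    refine ⟨QuotientGroup.mk q⁻¹, ?_⟩
    rw [← QuotientGroup.mk_mul, ← QuotientGroup.mk_inv, ← QuotientGroup.mk_mul, inv_inv, mul_assoc,
      hq, inv_mul_cancel_left]

/-- In the projective special linear group PSL(3, 4) all subgroups of order 3 are conjugate. -/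
theorem result (F : Type*) [Field F] [Fintype F] (hF : Fintype.card F = 4) (X Y : Subgroup (Matrix.ProjectiveSpecialLinearGroup (Fin 3) F)) (hX : Nat.card ↥X = 3) (hY : Nat.card ↥Y = 3) : ∃ g : Matrix.ProjectiveSpecialLinearGroup (Fin 3) F, MulAut.conj g • X = Y := by
  let e : Matrix.ProjectiveSpecialLinearGroup (Fin 3) F ≃* Matrix.ProjectiveSpecialLinearGroup (Fin 3) F4 :=
    Cfsg.Agent.Lib.Helper6Transport.pslEquiv (equivF4 hF)
  apply subgroups_conj (e.symm (QuotientGroup.mk dS)) _ X Y hX hY
  intro x hx
  obtain ⟨g, hg⟩ := model (e x) (by rw [e.orderOf_eq, hx])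
  refine ⟨e.symm g, ?_⟩
  rw [← hg]
  simp

end Cfsg.Agent.S2739
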