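import Cfsg.Statements.S2758
import Cfsg.Agent.Lib.Helper53Syl
import Cfsg.Agent.S0206

set_option autoImplicit false
open Cfsg

namespace Cfsg.Agent.S2758

open Subgroup Cfsg.Agent.Lib.Helper53Basic Cfsg.Agent.Lib.Helper53Rel Cfsg.Agent.Lib.Helper53Syl

theorem exists_part {X : Type*} [Group X] [Finite X] (q : ℕ) [hq : Fact q.Prime] (g : X) :
    ∃ m k : ℕ, ¬ q ∣ m ∧ orderOf (g ^ m) = q ^ k := by
  obtain ⟨k, m, hm, h⟩ := Nat.exists_eq_pow_mul_and_not_dvd (orderOf_pos g).ne' q hq.out.ne_one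
  refine ⟨m, k, hm, ?_⟩
  have hm0 : m ≠ 0 := by
    rintro rfl
    exact hm (dvd_zero _)
  rw [orderOf_pow_of_dvd hm0 (h ▸ dvd_mul_left _ _), h, Nat.mul_div_cancel _ (Nat.pos_of_ne_zero hm0)]

theorem two_to_three {X : Type*} [Group X] [Finite X] {p : ℕ} [Fact p.Prime]
    (h : ∃ (x : X) (P : Subgroup X), (∃ k : ℕ, orderOf x = 2 ^ k) ∧ IsPGroup p ↥P ∧
      x ∈ Subgroup.normalizer (P : Set X) ∧ x ∉ Subgroup.centralizer (P : Set X)) :
    ∃ x y : X, (∃ k : ℕ, orderOf x = 2 ^ k) ∧ (∃ k : ℕ, orderOf y = p ^ k) ∧ y ≠ 1 ∧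
      x * y * x⁻¹ = y⁻¹ := by
  classical
  obtain ⟨x, P, ⟨k, hk⟩, hP, hxN, hxC⟩ := h
  have hex : ∃ i : ℕ, x ^ (2 ^ i) ∈ Subgroup.centralizer (P : Set X) :=
    ⟨k, by rw [← hk, pow_orderOf_eq_one]; exact one_mem _⟩
  have hi := Nat.find_spec hex
  have hmin := fun j => Nat.find_min hex (m := j)
  set i := Nat.find hex with hidef
  have hi0 : i ≠ 0 := by
    intro h0
    rw [h0] at hi
    simp only [pow_zero, pow_one] at hi
    exact hxC hi
  obtain ⟨j, hj⟩ := Nat.exists_eq_succ_of_ne_zero hi0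
  have htC := hmin j (by omega)
  set t := x ^ (2 ^ j) with ht
  have ht2 : t * t ∈ Subgroup.centralizer (P : Set X) := by
    rw [hj, Nat.succ_eq_add_one, pow_succ, pow_mul, ← ht, pow_two] at hi
    exact hi
  have htN : t ∈ Subgroup.normalizer (P : Set X) := pow_mem hxN _
  have hto : ∃ k : ℕ, orderOf t = 2 ^ k := by
    have h1 : orderOf t ∣ 2 ^ k := hk ▸ orderOf_pow_dvd _
    obtain ⟨l, -, hl⟩ := (Nat.dvd_prime_pow Nat.prime_two).mp h1
    exact ⟨l, hl⟩
  rw [Subgroup.mem_centralizer_iff] at htC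
  push Not at htC
  obtain ⟨u, hu, hut⟩ := htC
  have hu' : u ∈ P := hu
  have htu : t * u * t⁻¹ ∈ P := (Subgroup.mem_normalizer_iff.mp htN u).mp hu'
  refine ⟨t, u⁻¹ * (t * u * t⁻¹), hto, ?_, ?_, ?_⟩
  · have hy : u⁻¹ * (t * u * t⁻¹) ∈ P := P.mul_mem (P.inv_mem hu') htu
    obtain ⟨l, hl⟩ := (IsPGroup.iff_orderOf.mp hP) ⟨_, hy⟩
    exact ⟨l, by rw [← hl, Subgroup.orderOf_mk]⟩
  · intro h1
    apply hut
    have h2 : t * u * t⁻¹ = u := by
      have := congrArg (fun z => u * z) h1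
      simpa using this
    calc u * t = (t * u * t⁻¹) * t := by rw [h2]
      _ = t * u := by group
  · have h3 := (Subgroup.mem_centralizer_iff.mp ht2) u hu
    have h4 : t * t * u * t⁻¹ * t⁻¹ = u := by
      rw [← h3]; group
    calc t * (u⁻¹ * (t * u * t⁻¹)) * t⁻¹ = (t * u * t⁻¹)⁻¹ * (t * t * u * t⁻¹ * t⁻¹) := by group
      _ = (u⁻¹ * (t * u * t⁻¹))⁻¹ := by rw [h4]; group

theorem three_to_two {X : Type*} [Group X] [Finite X] {p : ℕ} [hpp : Fact p.Prime] (hp : p ≠ 2)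
    (h : ∃ x y : X, (∃ k : ℕ, orderOf x = 2 ^ k) ∧ (∃ k : ℕ, orderOf y = p ^ k) ∧ y ≠ 1 ∧
      x * y * x⁻¹ = y⁻¹) :
    ∃ (x : X) (P : Subgroup X), (∃ k : ℕ, orderOf x = 2 ^ k) ∧ IsPGroup p ↥P ∧
      x ∈ Subgroup.normalizer (P : Set X) ∧ x ∉ Subgroup.centralizer (P : Set X) := by
  obtain ⟨x, y, hx, ⟨k, hk⟩, hy1, hxy⟩ := h
  refine ⟨x, Subgroup.zpowers y, hx, ?_, ?_, ?_⟩
  · apply IsPGroup.of_card (n := k)
    rw [Nat.card_zpowers, hk]
  · rw [Subgroup.mem_normalizer_iff]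
    intro h
    constructor
    · rintro ⟨n, rfl⟩
      refine ⟨-n, ?_⟩
      show y ^ (-n) = x * y ^ n * x⁻¹
      rw [← conj_zpow, hxy, inv_zpow, zpow_neg]
    · rintro ⟨n, hn⟩
      refine ⟨-n, ?_⟩
      have hn' : y ^ n = x * h * x⁻¹ := hn
      show y ^ (-n) = h
      have h1 : x⁻¹ * y * x = y⁻¹ := by
        have : y = x⁻¹ * y⁻¹ * x := by rw [← hxy]; group
        calc x⁻¹ * y * x = (x⁻¹ * y⁻¹ * x)⁻¹ := by group
          _ = y⁻¹ := by rw [← this]
      have h2 : h = x⁻¹ * y ^ n * x := by rw [hn']; group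
      have h3 : x⁻¹ * y ^ n * x = (x⁻¹ * y * x) ^ n := by
        have := conj_zpow (a := x⁻¹) (b := y) (i := n)
        rw [inv_inv] at this
        exact this.symm
      rw [h2, h3, h1, inv_zpow, zpow_neg]
  · intro hc
    have h1 := (Subgroup.mem_centralizer_iff.mp hc) y (Subgroup.mem_zpowers y)
    have h2 : y = y⁻¹ := by
      rw [← hxy, ← h1]; group
    have h3 : y ^ 2 = 1 := by
      rw [pow_two]
      nth_rewrite 1 [h2]
      group
    have h4 : orderOf y ∣ 2 := orderOf_dvd_of_pow_eq_one h3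
    rw [hk] at h4
    rcases Nat.eq_zero_or_pos k with rfl | hk0
    · rw [pow_zero, orderOf_eq_one_iff] at hk
      exact hy1 hk
    · have h5 : p ∣ 2 := (dvd_pow_self p hk0.ne').trans h4
      exact hp ((Nat.prime_dvd_prime_iff_eq hpp.out Nat.prime_two).mp h5)

theorem dih_to_two {X : Type*} [Group X] [Finite X] {p : ℕ} [hpp : Fact p.Prime] (hp : p ≠ 2)
    (φ : X →* DihedralGroup p) (hφ : Function.Surjective φ) :
    ∃ (x : X) (P : Subgroup X), (∃ k : ℕ, orderOf x = 2 ^ k) ∧ IsPGroup p ↥P ∧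
      x ∈ Subgroup.normalizer (P : Set X) ∧ x ∉ Subgroup.centralizer (P : Set X) := by
  classical
  have : Fact (Nat.Prime 2) := ⟨Nat.prime_two⟩
  -- the rotation subgroup
  let Rot : Subgroup (DihedralGroup p) :=
    { carrier := {d | ∃ i, d = DihedralGroup.r i}
      one_mem' := ⟨0, rfl⟩
      mul_mem' := by
        rintro _ _ ⟨i, rfl⟩ ⟨j, rfl⟩
        exact ⟨i + j, rfl⟩
      inv_mem' := by
        rintro _ ⟨i, rfl⟩
        exact ⟨-i, rfl⟩ }
  have hRotN : Rot.Normal := by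
    constructor
    rintro _ ⟨i, rfl⟩ (j | j)
    · exact ⟨i, by simp⟩
    · exact ⟨-i, by simp⟩
  let N : Subgroup X := Rot.comap φ
  have hNn : N.Normal := hRotN.comap φ
  obtain ⟨S, hS⟩ := exists_isSyl (p := p) N
  -- an element of S mapping to a nontrivial rotation
  obtain ⟨v, hv⟩ := hφ (DihedralGroup.r 1)
  obtain ⟨m, k, hm, hvk⟩ := exists_part p v
  have hvm : φ (v ^ m) = DihedralGroup.r (m : ZMod p) := by
    rw [map_pow, hv, DihedralGroup.r_one_pow]
  have hm0 : (m : ZMod p) ≠ 0 := by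
    rw [Ne, ZMod.natCast_eq_zero_iff]
    exact hm
  have hvN : zpowers (v ^ m) ≤ N := by
    rw [zpowers_le]
    exact ⟨_, hvm⟩
  have hvP : IsPGroup p (zpowers (v ^ m)) := by
    apply IsPGroup.of_card (n := k)
    rw [Nat.card_zpowers, hvk]
  obtain ⟨g, hgN, hg⟩ := hS.exists_le_cj hvP hvN
  have hu : g⁻¹ * v ^ m * g ∈ S := mem_cj.mp (hg (mem_zpowers _))
  obtain ⟨i, hi⟩ : ∃ i, φ g = DihedralGroup.r i := hgN
  have hφu : φ (g⁻¹ * v ^ m * g) = DihedralGroup.r (m : ZMod p) := by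
    rw [map_mul, map_mul, map_inv, hvm, hi]
    simp
  obtain ⟨u, hu, hφu⟩ : ∃ u ∈ S, φ u = DihedralGroup.r (m : ZMod p) := ⟨_, hu, hφu⟩
  obtain ⟨s, hs⟩ := hφ (DihedralGroup.sr 0)
  obtain ⟨n, hnN, m', hm', hsnm⟩ := frattini (L := ⊤) (N := N) (S := S) (p := p)
    (by rw [normalizer_eq_top]) hS (mem_top s)
  obtain ⟨i', hi'⟩ : ∃ i, φ n = DihedralGroup.r i := hnN
  have hφm : ∃ j, φ m' = DihedralGroup.sr j := by
    have h1 : m' = n⁻¹ * s := by rw [hsnm]; group
    refine ⟨0 + i', ?_⟩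
    rw [h1, map_mul, map_inv, hs, hi']
    simp
  obtain ⟨j, hj⟩ := hφm
  obtain ⟨a, k', ha, hak⟩ := exists_part 2 m'
  have hφx : φ (m' ^ a) = DihedralGroup.sr j := by
    obtain ⟨b, hb⟩ : Odd a := by
      rw [← Nat.not_even_iff_odd, even_iff_two_dvd]
      exact ha
    rw [map_pow, hj, hb, pow_succ, pow_mul, pow_two, DihedralGroup.sr_mul_self, one_pow, one_mul]
  refine ⟨m' ^ a, S, ⟨k', hak⟩, hS.isPGroup, pow_mem hm' _, ?_⟩
  intro hc
  have h1 := (Subgroup.mem_centralizer_iff.mp hc) _ hu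
  have h2 := congrArg φ h1
  rw [map_mul, map_mul, hφu, hφx, DihedralGroup.r_mul_sr, DihedralGroup.sr_mul_r] at h2
  have h3 : j - (m : ZMod p) = j + m := by
    injection h2
  have h4 : (2 : ZMod p) * m = 0 := by
    linear_combination -h3
  rcases mul_eq_zero.mp h4 with h5 | h5
  · have h6 : ((2 : ℕ) : ZMod p) = 0 := by exact_mod_cast h5
    rw [ZMod.natCast_eq_zero_iff] at h6
    exact hp ((Nat.prime_dvd_prime_iff_eq hpp.out Nat.prime_two).mp h6)
  · exact hm0 h5

theorem three_to_dih {G : Type*} [Group G] [Finite G] {p : ℕ} [hpp : Fact p.Prime] (hp : p ≠ 2)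
    (h : ∃ x y : G, (∃ k : ℕ, orderOf x = 2 ^ k) ∧ (∃ k : ℕ, orderOf y = p ^ k) ∧ y ≠ 1 ∧
      x * y * x⁻¹ = y⁻¹) : Cfsg.Involves (DihedralGroup p) G := by
  classical
  obtain ⟨x, y', ⟨k, hk⟩, ⟨l, hl⟩, hy1, hxy'⟩ := h
  -- reduce to order p
  obtain ⟨y, hyo, hxy⟩ : ∃ y : G, orderOf y = p ∧ x * y * x⁻¹ = y⁻¹ := by
    have hl0 : l ≠ 0 := by
      rintro rfl
      rw [pow_zero, orderOf_eq_one_iff] at hl
      exact hy1 hl
    obtain ⟨l', rfl⟩ := Nat.exists_eq_succ_of_ne_zero hl0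
    refine ⟨y' ^ (p ^ l'), ?_, ?_⟩
    · rw [orderOf_pow_of_dvd (pow_pos hpp.out.pos _).ne' (hl ▸ pow_dvd_pow _ (Nat.le_succ _)), hl,
        Nat.succ_eq_add_one, pow_succ, Nat.mul_div_cancel_left _ (pow_pos hpp.out.pos _)]
    · rw [← conj_pow, hxy', inv_pow]
  have hyx : y * x = x * y⁻¹ := by
    have : y = x * y⁻¹ * x⁻¹ := by
      calc y = (x * y * x⁻¹)⁻¹ := by rw [hxy, inv_inv]
        _ = x * y⁻¹ * x⁻¹ := by group
    calc y * x = (x * y⁻¹ * x⁻¹) * x := by rw [← this]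
      _ = x * y⁻¹ := by group
  have hxx : (x * x) * y = y * (x * x) := by
    calc (x * x) * y = x * (x * y * x⁻¹) * x := by group
      _ = x * y⁻¹ * x := by rw [hxy]
      _ = y * x * x := by rw [hyx]
      _ = y * (x * x) := by group
  have hncomm : x * y ≠ y * x := by
    intro hc
    have h2 : y = y⁻¹ := by
      rw [← hxy, hc]; group
    have h3 : y ^ 2 = 1 := by
      rw [pow_two]
      nth_rewrite 1 [h2]
      group
    have h4 : orderOf y ∣ 2 := orderOf_dvd_of_pow_eq_one h3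
    rw [hyo] at h4
    exact hp ((Nat.prime_dvd_prime_iff_eq hpp.out Nat.prime_two).mp h4)
  set K : Subgroup G := closure {x, y} with hK
  set R : Subgroup G := zpowers (x * x) with hR
  have hxK : x ∈ K := subset_closure (by simp)
  have hyK : y ∈ K := subset_closure (by simp)
  have hRc : ∀ r ∈ R, ∀ g ∈ K, g * r = r * g := by
    intro r hr g hg
    have h1 : K ≤ centralizer (R : Set G) := by
      rw [hK, closure_le]
      have hcz : ∀ z : G, (x * x) * z = z * (x * x) → z ∈ centralizer (R : Set G) := by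
        intro z hz
        rw [mem_centralizer_iff]
        rintro _ ⟨n, rfl⟩
        exact (Commute.zpow_left (show Commute (x * x) z from hz) n)
      rintro z (rfl | hz)
      · exact hcz _ (by group)
      · rw [Set.mem_singleton_iff] at hz
        subst hz
        exact hcz _ hxx
    exact ((mem_centralizer_iff.mp (h1 hg)) r hr).symm
  have hRK : R ≤ K := by
    rw [hR, zpowers_le]
    exact K.mul_mem hxK hxK
  have hRn : (R.subgroupOf K).Normal := by
    constructor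
    intro r hr g
    rw [mem_subgroupOf] at hr ⊢
    have h1 := hRc _ hr _ g.2
    have h2 : ((g * r * g⁻¹ : K) : G) = (r : G) := by
      push_cast
      rw [h1]; group
    rw [h2]
    exact hr
  have hxR : x ∉ R := by
    intro hx
    exact hncomm (hRc x hx y hyK).symm
  have hxyR : x * y ∉ R := by
    intro hx
    apply hncomm
    have h1 := hRc _ hx y hyK
    have h2 : y * x = x * y := by
      have := congrArg (fun z => z * y⁻¹) h1
      simpa [mul_assoc] using this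
    exact h2.symm
  have hyR : y ∉ R := by
    intro hy
    exact hncomm (hRc y hy x hxK)
  refine ⟨K, R, hRn, ?_⟩
  set a : K ⧸ R.subgroupOf K := QuotientGroup.mk ⟨x, hxK⟩ with ha
  set b : K ⧸ R.subgroupOf K := QuotientGroup.mk ⟨x * y, K.mul_mem hxK hyK⟩ with hb
  set c : K ⧸ R.subgroupOf K := QuotientGroup.mk ⟨y, hyK⟩ with hc
  have haa : a * a = 1 := by
    rw [ha, ← QuotientGroup.mk_mul, QuotientGroup.eq_one_iff, mem_subgroupOf]
    exact mem_zpowers _
  have hbb : b * b = 1 := by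
    rw [hb, ← QuotientGroup.mk_mul, QuotientGroup.eq_one_iff, mem_subgroupOf]
    have : x * y * (x * y) = x * x := by
      calc x * y * (x * y) = x * (y * x) * y := by group
        _ = x * x := by rw [hyx]; group
    show x * y * (x * y) ∈ R
    rw [this]
    exact mem_zpowers _
  have ha1 : a ≠ 1 := by
    rw [ha, Ne, QuotientGroup.eq_one_iff, mem_subgroupOf]
    exact hxR
  have hb1 : b ≠ 1 := by
    rw [hb, Ne, QuotientGroup.eq_one_iff, mem_subgroupOf]
    exact hxyR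
  have hc1 : c ≠ 1 := by
    rw [hc, Ne, QuotientGroup.eq_one_iff, mem_subgroupOf]
    exact hyR
  have hbac : b = a * c := by
    rw [ha, hb, hc, ← QuotientGroup.mk_mul]
    rfl
  have habc : a * b = c := by
    rw [hbac, ← mul_assoc, haa, one_mul]
  have hco : orderOf c = p := by
    have h1 : c ^ p = 1 := by
      rw [hc, ← QuotientGroup.mk_pow]
      have : (⟨y, hyK⟩ : K) ^ p = 1 := by
        apply Subtype.ext
        push_cast
        rw [← hyo, pow_orderOf_eq_one]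
      rw [this]
      rfl
    exact orderOf_eq_prime h1 hc1
  have hab : a ≠ b := by
    intro h
    apply hc1
    rw [← habc, ← h, haa]
  have hao : orderOf a = 2 := Lib.Helper5Dihedral.orderOf_eq_two haa ha1
  have hbo : orderOf b = 2 := Lib.Helper5Dihedral.orderOf_eq_two hbb hb1
  obtain ⟨e⟩ := Cfsg.Agent.S0206.result a b hao hbo hab
  rw [habc, hco] at e
  have htop : closure ({a, b} : Set (K ⧸ R.subgroupOf K)) = ⊤ := by
    rw [eq_top_iff]
    have h1 : (⊤ : Subgroup (K ⧸ R.subgroupOf K)) =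
        (⊤ : Subgroup K).map (QuotientGroup.mk' (R.subgroupOf K)) := by
      rw [← MonoidHom.range_eq_map, MonoidHom.range_eq_top.mpr (QuotientGroup.mk'_surjective _)]
    rw [h1, ← Subgroup.closure_closure_coe_preimage (k := ({x, y} : Set G)), MonoidHom.map_closure,
      closure_le]
    rintro _ ⟨z, hz, rfl⟩
    rcases hz with hz | hz
    · have : z = ⟨x, hxK⟩ := Subtype.ext hz
      rw [this]
      exact subset_closure (by left; rfl)
    · have : z = ⟨y, hyK⟩ := Subtype.ext hz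
      rw [this]
      have h2 : (QuotientGroup.mk' (R.subgroupOf K)) ⟨y, hyK⟩ = a * b := habc.symm
      rw [h2]
      exact mul_mem (subset_closure (by simp)) (subset_closure (by simp))
  exact ⟨(Subgroup.topEquiv.symm.trans (MulEquiv.subgroupCongr htop.symm)).trans e⟩

/-- For an odd prime p and a finite group G the following are equivalent: the dihedral group of order 2p is involved in G; some element of 2-power order normalizes but does not centralize some p-subgroup of G; some element of 2-power order inverts some nonidentity element of p-power order. -/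
theorem result {G : Type*} [Group G] [Finite G] {p : ℕ} [Fact p.Prime] (hp : p ≠ 2) : (Cfsg.Involves (DihedralGroup p) G ↔ ∃ (x : G) (P : Subgroup G), (∃ k : ℕ, orderOf x = 2 ^ k) ∧ IsPGroup p ↥P ∧ x ∈ Subgroup.normalizer (P : Set G) ∧ x ∉ Subgroup.centralizer (P : Set G)) ∧ (Cfsg.Involves (DihedralGroup p) G ↔ ∃ x y : G, (∃ k : ℕ, orderOf x = 2 ^ k) ∧ (∃ k : ℕ, orderOf y = p ^ k) ∧ y ≠ 1 ∧ x * y * x⁻¹ = y⁻¹) := by
  have h12 : Cfsg.Involves (DihedralGroup p) G → ∃ x y : G, (∃ k : ℕ, orderOf x = 2 ^ k) ∧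
      (∃ k : ℕ, orderOf y = p ^ k) ∧ y ≠ 1 ∧ x * y * x⁻¹ = y⁻¹ := by
    rintro ⟨K, R, hn, ⟨e⟩⟩
    obtain ⟨x, y, ⟨k, hk⟩, ⟨l, hl⟩, hy1, hxy⟩ := two_to_three (p := p)
      (dih_to_two hp (e.toMonoidHom.comp (QuotientGroup.mk' (R.subgroupOf K)))
        (e.surjective.comp (QuotientGroup.mk'_surjective _)))
    refine ⟨x, y, ⟨k, by rw [Subgroup.orderOf_coe, hk]⟩, ⟨l, by rw [Subgroup.orderOf_coe, hl]⟩, ?_, ?_⟩
    · intro h
      exact hy1 (Subtype.ext h)
    · have := congrArg Subtype.val hxy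
      simpa using this
  exact ⟨⟨fun h => three_to_two hp (h12 h), fun h => three_to_dih hp (two_to_three h)⟩,
    ⟨h12, three_to_dih hp⟩⟩

end Cfsg.Agent.S2758
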