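import Cfsg.Statements.S2760
import Cfsg.Agent.Lib.Helper51PCore

set_option autoImplicit false
open Cfsg

namespace Cfsg.Agent.S2760

open Cfsg.Agent.Lib.Helper51PCore

theorem isPGroup_of_odd_trivial {L : Type*} [Group L] [Finite L] (C : Subgroup L)
    (h : ∀ c ∈ C, Nat.Coprime (orderOf c) 2 → c = 1) : IsPGroup 2 C := by
  rintro ⟨c, hc⟩
  obtain ⟨a, m, hm, hn⟩ := Nat.exists_eq_pow_mul_and_not_dvd (orderOf_pos c).ne' 2 (by norm_num)
  refine ⟨a, ?_⟩
  apply Subtype.ext
  change c ^ 2 ^ a = 1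
  apply h _ (pow_mem hc _)
  have h1 : orderOf (c ^ 2 ^ a) ∣ m := by
    apply orderOf_dvd_of_pow_eq_one
    rw [← pow_mul, ← hn, pow_orderOf_eq_one]
  have h2 : Nat.Coprime m 2 := by
    rw [Nat.coprime_comm, Nat.Prime.coprime_iff_not_dvd Nat.prime_two]
    exact hm
  exact Nat.Coprime.coprime_dvd_left h1 h2

theorem eq_one_of_odd_of_two {L : Type*} [Group L] {P : Subgroup L} (hP : IsPGroup 2 P) {x : L}
    (hx : x ∈ P) {n : ℕ} (hn : Nat.Coprime n 2) (hxn : x ^ n = 1) : x = 1 := by
  obtain ⟨k, hk⟩ := hP ⟨x, hx⟩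
  have hk' : x ^ 2 ^ k = 1 := congrArg Subtype.val hk
  have h1 : orderOf x ∣ n := orderOf_dvd_of_pow_eq_one hxn
  have h2 : orderOf x ∣ 2 ^ k := orderOf_dvd_of_pow_eq_one hk'
  have h3 : Nat.Coprime n (2 ^ k) := Nat.Coprime.pow_right k hn
  have h4 : orderOf x = 1 := Nat.eq_one_of_dvd_coprimes h3 h1 h2
  exact orderOf_eq_one_iff.1 h4

/-- the image in `G` of `O_2(N)` -/
def coreIn {G : Type*} [Group G] (N : Subgroup G) : Subgroup G := (Cfsg.pCore 2 N).map N.subtype

theorem coreIn_le {G : Type*} [Group G] (N : Subgroup G) : coreIn N ≤ N := Subgroup.map_subtype_le _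

theorem coreIn_isPGroup {G : Type*} [Group G] (N : Subgroup G) : IsPGroup 2 (coreIn N) :=
  pCore_isPGroup.map _

theorem coreIn_normal {G : Type*} [Group G] (N : Subgroup G) [N.Normal] : (coreIn N).Normal := by
  unfold coreIn
  infer_instance

theorem le_coreIn {G : Type*} [Group G] {N P : Subgroup G} (hPN : P ≤ N)
    (hn : N ≤ Subgroup.normalizer (P : Set G)) (hP : IsPGroup 2 P) : P ≤ coreIn N := by
  have h1 : (P.subgroupOf N).Normal := Subgroup.normal_subgroupOf_of_le_normalizer hn
  have h2 : IsPGroup 2 (P.subgroupOf N) :=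
    hP.of_equiv (Subgroup.subgroupOfEquivOfLe hPN).symm
  have h3 := le_pCore h1 h2
  intro x hx
  exact ⟨⟨x, hPN hx⟩, h3 (Subgroup.mem_subgroupOf.2 hx), rfl⟩

/-- odd order elements of `C_N(O_2(N))` are trivial, for `N` normal in `G` of characteristic 2 -/
theorem odd_trivial {G : Type*} [Group G] [Finite G]
    (hchar : Subgroup.centralizer (Cfsg.pCore 2 G : Set G) ≤ Cfsg.pCore 2 G)
    (N : Subgroup G) [hN : N.Normal] (x : G) (hxN : x ∈ N)
    (hxc : x ∈ Subgroup.centralizer (coreIn N : Set G)) (hodd : Nat.Coprime (orderOf x) 2) :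
    x = 1 := by
  set Q := Cfsg.pCore 2 G with hQ
  have hQn : Q.Normal := inferInstance
  have hQp : IsPGroup 2 Q := pCore_isPGroup
  have hQN : Q ⊓ N ≤ coreIn N := by
    apply le_coreIn inf_le_right
    · have : (Q ⊓ N).Normal := inferInstance
      exact Subgroup.le_normalizer_of_normal
    · exact hQp.to_le inf_le_left
  have hcent : x ∈ Subgroup.centralizer (Q : Set G) := by
    rw [Subgroup.mem_centralizer_iff]
    intro q hq
    set r := q⁻¹ * (x * q * x⁻¹) with hr
    have hrQ : r ∈ Q := mul_mem (inv_mem hq) (hQn.conj_mem q hq x)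
    have hrN : r ∈ N := by
      have : r = (q⁻¹ * x * q⁻¹⁻¹) * x⁻¹ := by rw [hr]; group
      rw [this]
      exact mul_mem (hN.conj_mem x hxN q⁻¹) (inv_mem hxN)
    have hrR : r ∈ coreIn N := hQN ⟨hrQ, hrN⟩
    have hxr : r * x = x * r := (Subgroup.mem_centralizer_iff.1 hxc) r hrR
    have hpow : ∀ n : ℕ, x ^ n * q * (x ^ n)⁻¹ = q * r ^ n := by
      intro n
      induction n with
      | zero => simp
      | succ n ih =>
        have hxrn : x * r ^ n = r ^ n * x := by
          have : Commute x r := hxr.symm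
          exact (this.pow_right n)
        calc x ^ (n + 1) * q * (x ^ (n + 1))⁻¹
            = x * (x ^ n * q * (x ^ n)⁻¹) * x⁻¹ := by rw [pow_succ']; group
          _ = x * (q * r ^ n) * x⁻¹ := by rw [ih]
          _ = (x * q * x⁻¹) * (x * r ^ n) * x⁻¹ := by group
          _ = (x * q * x⁻¹) * (r ^ n * x) * x⁻¹ := by rw [hxrn]
          _ = q * (q⁻¹ * (x * q * x⁻¹)) * r ^ n := by group
          _ = q * r ^ (n + 1) := by rw [← hr, pow_succ']; group
    have h1 := hpow (orderOf x)
    rw [pow_orderOf_eq_one] at h1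
    have h2 : r ^ orderOf x = 1 := by
      have : q = q * r ^ orderOf x := by simpa using h1
      exact (mul_eq_left.1 this.symm)
    have h3 : r = 1 := eq_one_of_odd_of_two hQp hrQ hodd h2
    rw [hr] at h3
    have h4 : x * q * x⁻¹ = q := by
      have := congrArg (fun t => q * t) h3
      simpa using this
    calc q * x = (x * q * x⁻¹) * x := by rw [h4]
      _ = x * q := by group
  exact eq_one_of_odd_of_two hQp (hchar hcent) hodd (pow_orderOf_eq_one x)

/-- Let G be a finite group with C_G(O₂(G)) ≤ O₂(G) and H a subgroup of G such that H is normal in G, or the subgroup O²(H) generated by the elements of H of odd order is normal in G. Then C_H(O₂(H)) ≤ O₂(H). -/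
theorem result {G : Type*} [Group G] [Finite G] (hchar : Subgroup.centralizer (Cfsg.pCore 2 G : Set G) ≤ Cfsg.pCore 2 G) (H : Subgroup G) (hH : H.Normal ∨ ((Cfsg.pResidual 2 ↥H).map H.subtype).Normal) : Subgroup.centralizer (Cfsg.pCore 2 ↥H : Set ↥H) ≤ Cfsg.pCore 2 ↥H := by
  have hD : (Subgroup.centralizer (Cfsg.pCore 2 ↥H : Set ↥H)).Normal := inferInstance
  apply le_pCore hD
  apply isPGroup_of_odd_trivial
  intro c hc hodd
  have hodd' : Nat.Coprime (orderOf (c : G)) 2 := by rwa [Subgroup.orderOf_coe]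
  have hcc : (c : G) ∈ Subgroup.centralizer (coreIn H : Set G) := by
    rw [Subgroup.mem_centralizer_iff]
    rintro _ ⟨y, hy, rfl⟩
    exact congrArg Subtype.val ((Subgroup.mem_centralizer_iff.1 hc) y hy)
  apply Subtype.ext
  rcases hH with hH | hH
  · exact odd_trivial hchar H c c.2 hcc hodd'
  · set K := (Cfsg.pResidual 2 ↥H).map H.subtype with hK
    have hKH : K ≤ H := Subgroup.map_subtype_le _
    have hcK : (c : G) ∈ K := ⟨c, Subgroup.subset_closure hodd, rfl⟩
    have hle : coreIn K ≤ coreIn H := by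
      apply le_coreIn ((coreIn_le K).trans hKH)
      · have := coreIn_normal K
        exact Subgroup.le_normalizer_of_normal
      · exact coreIn_isPGroup K
    exact odd_trivial hchar K c hcK (Subgroup.centralizer_le hle hcc) hodd'

end Cfsg.Agent.S2760
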