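import Cfsg.Statements.S2761
import Cfsg.Agent.Lib.Helper51Qd
import Cfsg.Agent.Lib.Helper6Perm

set_option autoImplicit false
open Cfsg

namespace Cfsg.Agent.S2761


/-- The group Qd(2), the natural semidirect product of an elementary abelian group of order 4 by SL₂(2) (realised as the affine subgroup of SL₃(2)), is isomorphic to the symmetric group of degree 4. -/
theorem result : Nonempty (↥(Cfsg.qd 2) ≃* Equiv.Perm (Fin 4)) := by
  have : Fact (Nat.Prime 2) := ⟨Nat.prime_two⟩
  change Nonempty (↥(Cfsg.qdOver (ZMod 2)) ≃* Equiv.Perm (Fin 4))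
  refine Cfsg.Agent.Lib.Helper6Perm.mulEquiv_perm_of_injective (X := Fin 2 → ZMod 2) ?_
    Cfsg.Agent.Lib.Helper51Qd.affHom Cfsg.Agent.Lib.Helper51Qd.affHom_injective ?_
  · rw [Nat.card_eq_fintype_card, Fintype.card_fun, Fintype.card_fin, ZMod.card]
    norm_num
  · rw [Cfsg.Agent.Lib.Helper51Qd.card_qdOver, ZMod.card]
    rfl

end Cfsg.Agent.S2761
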