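import Cfsg.Statements.S2762
import Cfsg.Agent.Lib.Helper51Qd

set_option autoImplicit false
open Cfsg

namespace Cfsg.Agent.S2762

open Cfsg.Agent.Lib.Helper51Qd

variable {F : Type*} [Field F]

theorem mem_range_lin_iff (M : ↥(Cfsg.qdOver F)) :
    M ∈ (lin : Matrix.SpecialLinearGroup (Fin 2) F →* _).range ↔ ent M 0 2 = 0 ∧ ent M 1 2 = 0 := by
  constructor
  · rintro ⟨A, rfl⟩
    exact ⟨rfl, rfl⟩
  · rintro ⟨h0, h1⟩
    refine ⟨blkFun M, ?_⟩
    rw [lin_apply]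
    conv_rhs => rw [← mk_blk_tr M]
    congr 1
    ext i
    fin_cases i
    · exact h0.symm
    · exact h1.symm

/-- the additive identification of the translation group with the plane -/
noncomputable def psi : Additive ↥((blk : ↥(Cfsg.qdOver F) →* _).ker) ≃+ (Fin 2 → F) where
  toFun x := trFun (x.toMul : ↥((blk : ↥(Cfsg.qdOver F) →* _).ker)).1
  invFun b := Additive.ofMul ⟨mk 1 b, (mem_ker_blk_iff' _).2 ⟨b, rfl⟩⟩
  left_inv x := by
    obtain ⟨b, hb⟩ := (mem_ker_blk_iff' _).1 (x.toMul).2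
    apply Additive.toMul.injective
    apply Subtype.ext
    change mk 1 (trFun (x.toMul).1) = (x.toMul).1
    rw [hb, trFun_mk]
  right_inv b := trFun_mk 1 b
  map_add' x y := by
    obtain ⟨b, hb⟩ := (mem_ker_blk_iff' _).1 (x.toMul).2
    obtain ⟨c, hc⟩ := (mem_ker_blk_iff' _).1 (y.toMul).2
    change trFun ((x.toMul).1 * (y.toMul).1) = trFun (x.toMul).1 + trFun (y.toMul).1
    rw [hb, hc, mk_mul_mk, trFun_mk, trFun_mk, trFun_mk]
    simp [add_comm]

theorem psi_apply (x : ↥((blk : ↥(Cfsg.qdOver F) →* _).ker)) :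
    psi (Additive.ofMul x) = trFun x.1 := rfl

theorem natural :
    Cfsg.IsNaturalSL2Module F (blk : ↥(Cfsg.qdOver F) →* _).ker
      (lin : Matrix.SpecialLinearGroup (Fin 2) F →* _).range := by
  refine ⟨Subgroup.le_normalizer_of_normal, blk.comp (Subgroup.subtype _), psi, ?_, ?_, ?_⟩
  · intro A
    exact ⟨⟨lin A, ⟨A, rfl⟩⟩, blkFun_mk A 0⟩
  · ext ⟨k, A, rfl⟩
    rw [MonoidHom.mem_ker, Subgroup.mem_subgroupOf]
    change blkFun (mk A 0) = 1 ↔ mk A 0 ∈ _
    rw [blkFun_mk, Subgroup.mem_centralizer_iff]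
    constructor
    · rintro rfl
      intro h _
      rw [mk_one_zero, mul_one, one_mul]
    · intro h
      have h1 : ∀ b : Fin 2 → F, (A : Matrix (Fin 2) (Fin 2) F).mulVec b = b := by
        intro b
        have := h (mk 1 b) ((mem_ker_blk_iff' _).2 ⟨b, rfl⟩)
        rw [mk_mul_mk, mk_mul_mk] at this
        have := (mk_injective this).2
        simpa using this.symm
      apply Matrix.SpecialLinearGroup.ext
      intro i j
      have e1 := congrFun (h1 ![1, 0]) i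
      have e2 := congrFun (h1 ![0, 1]) i
      simp [Matrix.mulVec, dotProduct, Fin.sum_univ_two] at e1 e2
      rw [Matrix.SpecialLinearGroup.coe_one]
      fin_cases j
      · fin_cases i <;> simpa using e1
      · fin_cases i <;> simpa using e2
  · rintro ⟨l, A, rfl⟩ ⟨v, hv⟩
    obtain ⟨b, rfl⟩ := (mem_ker_blk_iff' _).1 hv
    have hw : lin A * mk 1 b * (lin A)⁻¹ = mk 1 ((A : Matrix (Fin 2) (Fin 2) F).mulVec b) := by
      rw [mul_inv_eq_iff_eq_mul, lin_apply, mk_mul_mk, mk_mul_mk]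
      simp
    refine ⟨⟨mk 1 ((A : Matrix (Fin 2) (Fin 2) F).mulVec b), (mem_ker_blk_iff' _).2 ⟨_, rfl⟩⟩,
      hw.symm, ?_⟩
    rw [psi_apply, psi_apply, trFun_mk, trFun_mk]
    change _ = ((blkFun (mk A 0) : Matrix.SpecialLinearGroup (Fin 2) F) :
      Matrix (Fin 2) (Fin 2) F).mulVec b
    rw [blkFun_mk]

/-- Structure of Qd over a finite field F of characteristic p (the affine subgroup of SL₃(F)): its largest normal p-subgroup is the group of translations (matrices with upper-left block the identity), the block-diagonal matrices form a complement isomorphic to SL₂(F), and the translation subgroup is a natural SL₂(F)-module for that complement. -/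
theorem result {F : Type*} [Field F] [Fintype F] {p : ℕ} [Fact p.Prime] [CharP F p] : (∀ M : ↥(Cfsg.qdOver F), M ∈ Cfsg.pCore p ↥(Cfsg.qdOver F) ↔ ((M : Matrix.SpecialLinearGroup (Fin 3) F) : Matrix (Fin 3) (Fin 3) F) 0 0 = 1 ∧ ((M : Matrix.SpecialLinearGroup (Fin 3) F) : Matrix (Fin 3) (Fin 3) F) 0 1 = 0 ∧ ((M : Matrix.SpecialLinearGroup (Fin 3) F) : Matrix (Fin 3) (Fin 3) F) 1 0 = 0 ∧ ((M : Matrix.SpecialLinearGroup (Fin 3) F) : Matrix (Fin 3) (Fin 3) F) 1 1 = 1) ∧ ∃ K : Subgroup ↥(Cfsg.qdOver F), (∀ M : ↥(Cfsg.qdOver F), M ∈ K ↔ ((M : Matrix.SpecialLinearGroup (Fin 3) F) : Matrix (Fin 3) (Fin 3) F) 0 2 = 0 ∧ ((M : Matrix.SpecialLinearGroup (Fin 3) F) : Matrix (Fin 3) (Fin 3) F) 1 2 = 0) ∧ K ⊓ Cfsg.pCore p ↥(Cfsg.qdOver F) = ⊥ ∧ K ⊔ Cfsg.pCore p ↥(Cfsg.qdOver F) = ⊤ ∧ Nonempty (↥K ≃* Matrix.SpecialLinearGroup (Fin 2) F) ∧ Cfsg.IsNaturalSL2Module F (Cfsg.pCore p ↥(Cfsg.qdOver F)) K := by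
  have hP := pCore_eq_ker (F := F) (p := p)
  rw [hP]
  refine ⟨fun M => mem_ker_blk_iff M, (lin : Matrix.SpecialLinearGroup (Fin 2) F →* _).range,
    fun M => mem_range_lin_iff M, ?_, ?_, ⟨(MonoidHom.ofInjective lin_injective).symm⟩, natural⟩
  · rw [eq_bot_iff]
    rintro M ⟨⟨A, rfl⟩, hM⟩
    change lin A ∈ (blk : ↥(Cfsg.qdOver F) →* _).ker at hM
    rw [MonoidHom.mem_ker, blk_apply, lin_apply, blkFun_mk] at hM
    rw [Subgroup.mem_bot, hM, map_one]
  · rw [eq_top_iff]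
    intro M _
    have : M = lin (blkFun M) * mk 1 ((((blkFun M)⁻¹ : Matrix.SpecialLinearGroup (Fin 2) F) :
        Matrix (Fin 2) (Fin 2) F).mulVec (trFun M)) := by
      rw [lin_apply, mk_mul_mk, Matrix.mulVec_mulVec, ← Matrix.SpecialLinearGroup.coe_mul,
        mul_inv_cancel]
      simp [mk_blk_tr]
    rw [this]
    exact Subgroup.mul_mem_sup ⟨_, rfl⟩ ((mem_ker_blk_iff' _).2 ⟨_, rfl⟩)

end Cfsg.Agent.S2762
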