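import Cfsg.Statements.S2779
import Cfsg.Agent.Lib.Helper55Nat

set_option autoImplicit false
open Cfsg

namespace Cfsg.Agent.S2779

/-- Let L act on the elementary abelian p-group V (inside a finite group, by conjugation, faithfully) as SL₂(F) on its natural module, F a field with p^n elements, and let S be a Sylow p-subgroup of L. Then [V, S, S] = 1; |V| = p^(2n) and |C_V(S)| = p^n; and for every nonidentity s ∈ S and every v ∈ V outside C_V(S): C_V(s) = C_V(S) = [V, S] = [V, s] = the subgroup generated by the commutators [v, t], t ∈ S. -/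
theorem result {G : Type*} [Group G] [Finite G] {p : ℕ} [Fact p.Prime] {F : Type*} [Field F] [Fintype F] (n : ℕ) (hF : Fintype.card F = p ^ n) (V L : Subgroup G) (hnat : Cfsg.IsNaturalSL2Module F V L) (hf : L ⊓ Subgroup.centralizer (V : Set G) = ⊥) (S : Sylow p ↥L) (T : Subgroup G) (hT : T = ((S : Subgroup ↥L).map L.subtype)) : ⁅⁅V, T⁆, T⁆ = ⊥ ∧ Nat.card V = p ^ (2 * n) ∧ Nat.card ↥(V ⊓ Subgroup.centralizer ((T : Subgroup G) : Set G)) = p ^ n ∧ ∀ s ∈ T, s ≠ 1 → (V ⊓ Subgroup.centralizer ({s} : Set G)) = (V ⊓ Subgroup.centralizer ((T : Subgroup G) : Set G)) ∧ ⁅V, T⁆ = (V ⊓ Subgroup.centralizer ((T : Subgroup G) : Set G)) ∧ ⁅V, Subgroup.zpowers s⁆ = (V ⊓ Subgroup.centralizer ((T : Subgroup G) : Set G)) ∧ ∀ v ∈ V, v ∉ Subgroup.centralizer (T : Set G) → Subgroup.closure {x : G | ∃ t ∈ T, x = v * t * v⁻¹ * t⁻¹} = (V ⊓ Subgroup.centralizer ((T : Subgroup G) : Set G)) := by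
  classical
  obtain ⟨ρ, ψ, h⟩ := Cfsg.Agent.Lib.Helper55Nat.exists_dat n hF V L hnat hf S T hT
  have hVT : ⁅V, T⁆ ≤ V ⊓ Subgroup.centralizer (T : Set G) := by
    rw [Subgroup.commutator_le]
    intro v hv s hs
    exact Cfsg.Agent.Lib.Helper55Nat.comm_mem_C0 h hv hs
  refine ⟨?_, ?_, ?_, ?_⟩
  · rw [Subgroup.commutator_eq_bot_iff_le_centralizer]
    exact hVT.trans inf_le_right
  · rw [show Nat.card V = Nat.card (Additive V) from rfl, Nat.card_congr ψ.toEquiv, Nat.card_fun,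
      Nat.card_eq_fintype_card, Nat.card_eq_fintype_card, hF, Fintype.card_fin, ← pow_mul, mul_comm]
  · have hbij : Function.Bijective
        (fun x : ↥(V ⊓ Subgroup.centralizer (T : Set G)) =>
          Cfsg.Agent.Lib.Helper55Nat.co ψ ⟨x.1, (Subgroup.mem_inf.1 x.2).1⟩ 0) := by
      constructor
      · intro x y hxy
        obtain ⟨hx, hx1⟩ := (Cfsg.Agent.Lib.Helper55Nat.mem_C0 h x.1).1 x.2
        obtain ⟨hy, hy1⟩ := (Cfsg.Agent.Lib.Helper55Nat.mem_C0 h y.1).1 y.2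
        have h1 : (⟨x.1, hx⟩ : V) = ⟨y.1, hy⟩ := by
          apply Cfsg.Agent.Lib.Helper55Nat.co_inj (ψ := ψ)
          ext i
          fin_cases i
          · exact hxy
          · exact hx1.trans hy1.symm
        exact Subtype.ext (congrArg (fun z : V => (z : G)) h1)
      · intro a
        obtain ⟨v, hv⟩ := Cfsg.Agent.Lib.Helper55Nat.co_surj (ψ := ψ) ![a, 0]
        refine ⟨⟨v.1, (Cfsg.Agent.Lib.Helper55Nat.mem_C0 h v.1).2 ⟨v.2, by
          show Cfsg.Agent.Lib.Helper55Nat.co ψ v 1 = 0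
          rw [hv]; rfl⟩⟩, ?_⟩
        show Cfsg.Agent.Lib.Helper55Nat.co ψ v 0 = a
        rw [hv]; rfl
    rw [Nat.card_congr (Equiv.ofBijective _ hbij), Nat.card_eq_fintype_card, hF]
  · intro s hs hs1
    have hle : V ⊓ Subgroup.centralizer (T : Set G) ≤ ⁅V, Subgroup.zpowers s⁆ := by
      intro x hx
      obtain ⟨l, b, hl, hρ, hb⟩ := Cfsg.Agent.Lib.Helper55Nat.of_mem_T h hs
      have hb0 := hb hs1
      obtain ⟨hxV, hx1⟩ := (Cfsg.Agent.Lib.Helper55Nat.mem_C0 h x).1 hx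
      obtain ⟨v, hv⟩ := Cfsg.Agent.Lib.Helper55Nat.co_surj (ψ := ψ)
        ![0, - (Cfsg.Agent.Lib.Helper55Nat.co ψ ⟨x, hxV⟩ 0) / b]
      have hxe := Cfsg.Agent.Lib.Helper55Nat.eq_comm_of h hx v l b hρ (by
        intro hx'
        rw [hv]
        show -(b * (- (Cfsg.Agent.Lib.Helper55Nat.co ψ ⟨x, hxV⟩ 0) / b)) = _
        field_simp)
      rw [hxe, hl]
      exact Subgroup.commutator_mem_commutator v.2 (Subgroup.mem_zpowers s)
    have hzT : ⁅V, Subgroup.zpowers s⁆ ≤ ⁅V, T⁆ :=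
      Subgroup.commutator_mono le_rfl (by rw [Subgroup.zpowers_le]; exact hs)
    refine ⟨?_, le_antisymm hVT (hle.trans hzT), le_antisymm (hzT.trans hVT) hle, ?_⟩
    · ext x
      rw [Cfsg.Agent.Lib.Helper55Nat.mem_cent_single h hs hs1, Cfsg.Agent.Lib.Helper55Nat.mem_C0 h]
    · intro v hv hvT
      apply le_antisymm
      · rw [Subgroup.closure_le]
        rintro x ⟨t, ht, rfl⟩
        exact Cfsg.Agent.Lib.Helper55Nat.comm_mem_C0 h hv ht
      · intro x hx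
        have hv1 : Cfsg.Agent.Lib.Helper55Nat.co ψ ⟨v, hv⟩ 1 ≠ 0 := by
          intro h0
          exact hvT (Subgroup.mem_inf.1 ((Cfsg.Agent.Lib.Helper55Nat.mem_C0 h v).2 ⟨hv, h0⟩)).2
        obtain ⟨hxV, hx1⟩ := (Cfsg.Agent.Lib.Helper55Nat.mem_C0 h x).1 hx
        obtain ⟨l, hl, hρ⟩ := Cfsg.Agent.Lib.Helper55Nat.exists_T h
          (- (Cfsg.Agent.Lib.Helper55Nat.co ψ ⟨x, hxV⟩ 0) / Cfsg.Agent.Lib.Helper55Nat.co ψ ⟨v, hv⟩ 1)
        have hxe := Cfsg.Agent.Lib.Helper55Nat.eq_comm_of h hx ⟨v, hv⟩ l _ hρ (by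
          intro hx'
          field_simp)
        exact Subgroup.subset_closure ⟨l, hl, hxe⟩

end Cfsg.Agent.S2779
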