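import Cfsg.Statements.S2780
import Cfsg.Agent.Lib.Helper55Nat2

set_option autoImplicit false
open Cfsg

namespace Cfsg.Agent.S2780

/-- Let L act on the elementary abelian p-group V (inside a finite group, faithfully) as SL₂(F) on its natural module, F a field with p^n elements, S a Sylow p-subgroup of L. Then: for every g ∈ L not normalizing S, V is the internal direct product of C_V(S) and C_V(gSg⁻¹); every nonidentity element of L of order prime to p acts on V without nonidentity fixed points; and C_V(S) and V/C_V(S) are irreducible for N_L(S): the only N_L(S)-invariant subgroups of C_V(S) are 1 and C_V(S), and the only N_L(S)-invariant subgroups between C_V(S) and V are those two. -/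
theorem result {G : Type*} [Group G] [Finite G] {p : ℕ} [Fact p.Prime] {F : Type*} [Field F] [Fintype F] (n : ℕ) (hF : Fintype.card F = p ^ n) (V L : Subgroup G) (hnat : Cfsg.IsNaturalSL2Module F V L) (hf : L ⊓ Subgroup.centralizer (V : Set G) = ⊥) (S : Sylow p ↥L) (T : Subgroup G) (hT : T = ((S : Subgroup ↥L).map L.subtype)) : (∀ g ∈ L, g ∉ Subgroup.normalizer (T : Set G) → Cfsg.IsInternalDirectProduct (V ⊓ Subgroup.centralizer ((T : Subgroup G) : Set G)) (V ⊓ Subgroup.centralizer ((T.map (MulAut.conj g).toMonoidHom : Subgroup G) : Set G)) V) ∧ (∀ x ∈ L, x ≠ 1 → (orderOf x).Coprime p → (V ⊓ Subgroup.centralizer ({x} : Set G)) = ⊥) ∧ (∀ U : Subgroup G, U ≤ (V ⊓ Subgroup.centralizer ((T : Subgroup G) : Set G)) → L ⊓ Subgroup.normalizer (T : Set G) ≤ Subgroup.normalizer (U : Set G) → U = ⊥ ∨ U = (V ⊓ Subgroup.centralizer ((T : Subgroup G) : Set G))) ∧ (∀ U : Subgroup G, (V ⊓ Subgroup.centralizer ((T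 : Subgroup G) : Set G)) ≤ U → U ≤ V → L ⊓ Subgroup.normalizer (T : Set G) ≤ Subgroup.normalizer (U : Set G) → U = (V ⊓ Subgroup.centralizer ((T : Subgroup G) : Set G)) ∨ U = V) := by
  classical
  obtain ⟨ρ, ψ, h⟩ := Cfsg.Agent.Lib.Helper55Nat.exists_dat n hF V L hnat hf S T hT
  have hchar : CharP F p := charP_of_card_eq_prime_pow hF
  refine ⟨?_, ?_, ?_, ?_⟩
  · intro g hg hgN
    have hc : (ρ ⟨g, hg⟩).1 1 0 ≠ 0 := fun h0 =>
      hgN (Cfsg.Agent.Lib.Helper55Nat2.mem_normalizer_T h ⟨g, hg⟩ h0)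
    have hCg := Cfsg.Agent.Lib.Helper55Nat2.mem_Cg h ⟨g, hg⟩
    refine ⟨inf_le_left, inf_le_left, ?_, ?_, ?_⟩
    · intro a ha b hb
      exact congrArg (fun z : V => (z : G)) (Cfsg.Agent.Lib.Helper55Nat2.V_comm ψ
        ⟨a, (Subgroup.mem_inf.1 ha).1⟩ ⟨b, (Subgroup.mem_inf.1 hb).1⟩)
    · rw [Subgroup.eq_bot_iff_forall]
      intro x hx
      obtain ⟨hx1, hx2⟩ := Subgroup.mem_inf.1 hx
      obtain ⟨hxV, h1⟩ := (Cfsg.Agent.Lib.Helper55Nat.mem_C0 h x).1 hx1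
      obtain ⟨_, h2⟩ := (hCg x).1 hx2
      rw [h1, mul_zero] at h2
      have h3 : Cfsg.Agent.Lib.Helper55Nat.co ψ ⟨x, hxV⟩ 0 = 0 := by
        rcases mul_eq_zero.1 h2.symm with h4 | h4
        · exact absurd h4 hc
        · exact h4
      have h5 : (⟨x, hxV⟩ : V) = 1 := by
        apply Cfsg.Agent.Lib.Helper55Nat.co_inj (ψ := ψ)
        rw [Cfsg.Agent.Lib.Helper55Nat.co_one]
        ext i
        fin_cases i
        · exact h3
        · exact h1
      exact congrArg (fun z : V => (z : G)) h5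
    · apply le_antisymm (sup_le inf_le_left inf_le_left)
      intro x hx
      obtain ⟨y, hy⟩ := Cfsg.Agent.Lib.Helper55Nat.co_surj (ψ := ψ)
        ![(ρ ⟨g, hg⟩).1 0 0 * Cfsg.Agent.Lib.Helper55Nat.co ψ ⟨x, hx⟩ 1 / (ρ ⟨g, hg⟩).1 1 0,
          Cfsg.Agent.Lib.Helper55Nat.co ψ ⟨x, hx⟩ 1]
      have hy2 : (y : G) ∈ V ⊓ Subgroup.centralizer
          ((T.map (MulAut.conj g).toMonoidHom : Subgroup G) : Set G) := by
        rw [hCg]
        refine ⟨y.2, ?_⟩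
        show (ρ ⟨g, hg⟩).1 0 0 * Cfsg.Agent.Lib.Helper55Nat.co ψ y 1
          = (ρ ⟨g, hg⟩).1 1 0 * Cfsg.Agent.Lib.Helper55Nat.co ψ y 0
        rw [hy]
        simp only [Matrix.cons_val_zero, Matrix.cons_val_one]
        field_simp
      have hxy : ((⟨x, hx⟩ * y⁻¹ : V) : G) ∈ V ⊓ Subgroup.centralizer (T : Set G) := by
        rw [Cfsg.Agent.Lib.Helper55Nat.mem_C0 h]
        refine ⟨(⟨x, hx⟩ * y⁻¹ : V).2, ?_⟩
        show Cfsg.Agent.Lib.Helper55Nat.co ψ (⟨x, hx⟩ * y⁻¹) 1 = 0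
        rw [Cfsg.Agent.Lib.Helper55Nat.co_mul, Cfsg.Agent.Lib.Helper55Nat.co_inv, hy]
        simp
      have e : x = ((⟨x, hx⟩ * y⁻¹ : V) : G) * (y : G) := by
        simp
      rw [e]
      exact Subgroup.mul_mem_sup hxy hy2
  · intro x hx hx1 hcop
    rw [Subgroup.eq_bot_iff_forall]
    intro v hv
    obtain ⟨hvV, hvx⟩ := Subgroup.mem_inf.1 hv
    rw [Subgroup.mem_centralizer_singleton_iff] at hvx
    by_contra hv1
    have hfix := (Cfsg.Agent.Lib.Helper55Nat.comm_iff h ⟨x, hx⟩ ⟨v, hvV⟩).1 hvx.symm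
    have hne : Cfsg.Agent.Lib.Helper55Nat.co ψ ⟨v, hvV⟩ ≠ 0 := by
      intro h0
      apply hv1
      have h5 : (⟨v, hvV⟩ : V) = 1 := by
        apply Cfsg.Agent.Lib.Helper55Nat.co_inj (ψ := ψ)
        rw [Cfsg.Agent.Lib.Helper55Nat.co_one, h0]
      exact congrArg (fun z : V => (z : G)) h5
    have hpow := Cfsg.Agent.Lib.Helper55Nat2.pow_char_eq_one p (ρ ⟨x, hx⟩) _ hne hfix
    rw [← map_pow] at hpow
    have h6 : (⟨x, hx⟩ : L) ^ p = 1 := h.2.1 (by rw [hpow, map_one])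
    have h7 : x ^ p = 1 := by
      have := congrArg (fun z : L => (z : G)) h6
      simpa using this
    have h8 : orderOf x ∣ p := orderOf_dvd_of_pow_eq_one h7
    have h9 : orderOf x = 1 := Nat.Coprime.eq_one_of_dvd hcop h8
    exact hx1 (orderOf_eq_one_iff.1 h9)
  · intro U₁ hU hinv
    by_cases hb : U₁ = ⊥
    · exact Or.inl hb
    right
    apply le_antisymm hU
    obtain ⟨x, hxU, hx1⟩ := (Subgroup.ne_bot_iff_exists_ne_one.1 hb : ∃ a : U₁, a ≠ 1) |>.elim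
      (fun a ha => (⟨a.1, a.2, fun h0 => ha (Subtype.ext h0)⟩ : ∃ x, x ∈ U₁ ∧ x ≠ 1))
    obtain ⟨hxV, hx2⟩ := (Cfsg.Agent.Lib.Helper55Nat.mem_C0 h x).1 (hU hxU)
    have hx0 : Cfsg.Agent.Lib.Helper55Nat.co ψ ⟨x, hxV⟩ 0 ≠ 0 := by
      intro h0
      apply hx1
      have h5 : (⟨x, hxV⟩ : V) = 1 := by
        apply Cfsg.Agent.Lib.Helper55Nat.co_inj (ψ := ψ)
        rw [Cfsg.Agent.Lib.Helper55Nat.co_one]
        ext i
        fin_cases i
        · exact h0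
        · exact hx2
      exact congrArg (fun z : V => (z : G)) h5
    intro y hy
    obtain ⟨hyV, hy2⟩ := (Cfsg.Agent.Lib.Helper55Nat.mem_C0 h y).1 hy
    by_cases hy0 : Cfsg.Agent.Lib.Helper55Nat.co ψ ⟨y, hyV⟩ 0 = 0
    · have h5 : (⟨y, hyV⟩ : V) = 1 := by
        apply Cfsg.Agent.Lib.Helper55Nat.co_inj (ψ := ψ)
        rw [Cfsg.Agent.Lib.Helper55Nat.co_one]
        ext i
        fin_cases i
        · exact hy0
        · exact hy2
      have h6 : y = 1 := congrArg (fun z : V => (z : G)) h5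
      rw [h6]; exact U₁.one_mem
    · obtain ⟨l, hl, hρ⟩ := Cfsg.Agent.Lib.Helper55Nat2.exists_dg h
        (Cfsg.Agent.Lib.Helper55Nat.co ψ ⟨y, hyV⟩ 0 / Cfsg.Agent.Lib.Helper55Nat.co ψ ⟨x, hxV⟩ 0)
        (div_ne_zero hy0 hx0)
      obtain ⟨w, hw, hw'⟩ := Cfsg.Agent.Lib.Helper55Nat.conj_elt h l ⟨x, hxV⟩
      have hwU : (w : G) ∈ U₁ := by
        rw [hw]
        exact (Subgroup.mem_normalizer_iff.1 (hinv hl) x).1 hxU
      have h5 : (⟨y, hyV⟩ : V) = w := by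
        apply Cfsg.Agent.Lib.Helper55Nat.co_inj (ψ := ψ)
        rw [hw', hρ, Cfsg.Agent.Lib.Helper55Nat2.dg_mulVec]
        ext i
        fin_cases i
        · simp only [Fin.zero_eta, Matrix.cons_val_zero]
          field_simp
        · simp [hy2, hx2]
      have h6 : y = (w : G) := congrArg (fun z : V => (z : G)) h5
      rw [h6]; exact hwU
  · intro U₁ hCU hUV hinv
    by_cases hb : U₁ ≤ V ⊓ Subgroup.centralizer (T : Set G)
    · exact Or.inl (le_antisymm hb hCU)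
    right
    apply le_antisymm hUV
    obtain ⟨x, hxU, hxC⟩ := SetLike.not_le_iff_exists.1 hb
    have hxV := hUV hxU
    have hx1 : Cfsg.Agent.Lib.Helper55Nat.co ψ ⟨x, hxV⟩ 1 ≠ 0 := fun h0 =>
      hxC ((Cfsg.Agent.Lib.Helper55Nat.mem_C0 h x).2 ⟨hxV, h0⟩)
    intro y hyV
    by_cases hy1 : Cfsg.Agent.Lib.Helper55Nat.co ψ ⟨y, hyV⟩ 1 = 0
    · exact hCU ((Cfsg.Agent.Lib.Helper55Nat.mem_C0 h y).2 ⟨hyV, hy1⟩)
    · obtain ⟨l, hl, hρ⟩ := Cfsg.Agent.Lib.Helper55Nat2.exists_dg h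
        (Cfsg.Agent.Lib.Helper55Nat.co ψ ⟨x, hxV⟩ 1 / Cfsg.Agent.Lib.Helper55Nat.co ψ ⟨y, hyV⟩ 1)
        (div_ne_zero hx1 hy1)
      obtain ⟨w, hw, hw'⟩ := Cfsg.Agent.Lib.Helper55Nat.conj_elt h l ⟨x, hxV⟩
      have hwU : (w : G) ∈ U₁ := by
        rw [hw]
        exact (Subgroup.mem_normalizer_iff.1 (hinv hl) x).1 hxU
      have hyw : ((⟨y, hyV⟩ * w⁻¹ : V) : G) ∈ V ⊓ Subgroup.centralizer (T : Set G) := by
        rw [Cfsg.Agent.Lib.Helper55Nat.mem_C0 h]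
        refine ⟨(⟨y, hyV⟩ * w⁻¹ : V).2, ?_⟩
        show Cfsg.Agent.Lib.Helper55Nat.co ψ (⟨y, hyV⟩ * w⁻¹) 1 = 0
        rw [Cfsg.Agent.Lib.Helper55Nat.co_mul, Cfsg.Agent.Lib.Helper55Nat.co_inv, hw', hρ,
          Cfsg.Agent.Lib.Helper55Nat2.dg_mulVec]
        simp only [Pi.add_apply, Pi.neg_apply, Matrix.cons_val_one, Matrix.cons_val_zero]
        field_simp
        ring
      have e : y = ((⟨y, hyV⟩ * w⁻¹ : V) : G) * (w : G) := by
        simp
      rw [e]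
      exact U₁.mul_mem (hCU hyw) hwU

end Cfsg.Agent.S2780
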