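import Cfsg.Statements.S2781
import Cfsg.Agent.Lib.Helper53Trace

set_option autoImplicit false
open Cfsg

namespace Cfsg.Agent.S2781

open Cfsg.Agent.Lib.Helper53Basic Cfsg.Agent.Lib.Helper53Rel Cfsg.Agent.Lib.Helper53Syl
open Cfsg.Agent.Lib.Helper53Comm Cfsg.Agent.Lib.Helper53Trace

/-- Let H act faithfully by conjugation on the elementary abelian p-subgroup V of a finite group, let O^p(H) be the subgroup of H generated by its elements of order prime to p, and T a Sylow p-subgroup of O^p(H). If V is generated by the H-conjugates of C_V(T) (V is the smallest H-invariant subgroup containing C_V(T)), then V = [V, O^p(H)]·C_V(O^p(H)). -/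
theorem result {G : Type*} [Group G] [Finite G] {p : ℕ} [Fact p.Prime] (V H : Subgroup G) (hV : Cfsg.IsElementaryAbelian p V) (hHV : H ≤ Subgroup.normalizer (V : Set G)) (hf : H ⊓ Subgroup.centralizer (V : Set G) = ⊥) (R : Subgroup G) (hR : R = (Cfsg.pResidual p ↥H).map H.subtype) (S : Sylow p ↥R) (T : Subgroup G) (hT : T = ((S : Subgroup ↥R).map R.subtype)) (hgen : ∀ W : Subgroup G, H ≤ Subgroup.normalizer (W : Set G) → (V ⊓ Subgroup.centralizer ((T : Subgroup G) : Set G)) ≤ W → V ≤ W) : ⁅V, R⁆ ⊔ (V ⊓ Subgroup.centralizer ((R : Subgroup G) : Set G)) = V := by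
  have hp : p.Prime := Fact.out
  have hRH : R ≤ H := by rw [hR]; exact pRes_le H
  have hHR : H ≤ Subgroup.normalizer (R : Set G) := by rw [hR]; exact le_normalizer_pRes H
  have hRV : R ≤ Subgroup.normalizer (V : Set G) := hRH.trans hHV
  have hsyl : IsSyl p T R := by rw [hT]; exact isSyl_of_sylow S
  have hVV : V ≤ Subgroup.centralizer (V : Set G) := by
    have := hV.1
    exact Subgroup.le_centralizer V
  have hle : ⁅V, R⁆ ⊔ (V ⊓ Subgroup.centralizer ((R : Subgroup G) : Set G)) ≤ V :=
    sup_le (commutator_le_of_le_normalizer' hRV) inf_le_left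
  apply le_antisymm hle
  apply hgen
  · exact le_normalizer_sup (le_normalizer_commutator hHV hHR)
      (le_normalizer_inf hHV (le_normalizer_centralizer hHR))
  · intro z hz
    obtain ⟨hzV, hzT⟩ := Subgroup.mem_inf.1 hz
    obtain ⟨u, hu, huz⟩ := trace_lemma' (T := T) (W := ⁅V, R⁆) hRV hVV
      (by rw [Subgroup.commutator_comm]) hzV hzT
    have h1 : z ^ T.relIndex R ∈ ⁅V, R⁆ ⊔ (V ⊓ Subgroup.centralizer ((R : Subgroup G) : Set G)) := by
      have h2 : (u * (z ^ T.relIndex R)⁻¹)⁻¹ * u ∈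
          ⁅V, R⁆ ⊔ (V ⊓ Subgroup.centralizer ((R : Subgroup G) : Set G)) :=
        Subgroup.mul_mem _ (Subgroup.inv_mem _ (Subgroup.mem_sup_left huz)) (Subgroup.mem_sup_right hu)
      have hcomm : u * z ^ T.relIndex R = z ^ T.relIndex R * u := by
        have h3 := Subgroup.mem_centralizer_iff.1 (hVV (V.pow_mem hzV (T.relIndex R))) u
          (Subgroup.mem_inf.1 hu).1
        exact h3
      have h4 : (u * (z ^ T.relIndex R)⁻¹)⁻¹ * u = z ^ T.relIndex R := by
        rw [mul_inv_rev, inv_inv, mul_assoc, inv_mul_cancel, mul_one]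
      rwa [h4] at h2
    apply mem_of_pow_mem_of_coprime _ h1
    have h5 : orderOf z ∣ p := orderOf_dvd_of_pow_eq_one (hV.2 z hzV)
    have h6 : Nat.Coprime p (T.relIndex R) := (Nat.Prime.coprime_iff_not_dvd hp).2 hsyl.2.2
    exact Nat.Coprime.coprime_dvd_left h5 h6

end Cfsg.Agent.S2781
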