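import Cfsg.Statements.S2791
import Cfsg.Agent.Lib.Helper36Fusion

set_option autoImplicit false
open Cfsg

namespace Cfsg.Agent.S2791

open Subgroup Cfsg.Agent.Lib.Helper40Sylow Cfsg.Agent.Lib.Helper40Alperin Cfsg.Agent.Lib.Helper36Fusion

theorem step {G : Type*} [Group G] [Finite G] {p : ℕ} [Fact p.Prime] (S : Sylow p G) (A : Subgroup G)
    (hcomm : ∀ a ∈ A, ∀ b ∈ A, a * b = b * a) (hsc : Cfsg.IsStronglyClosed A (S : Subgroup G))
    (H : Subgroup G) (hH : H ≤ (S : Subgroup G))
    (hT : IsSylowIn p ((S : Subgroup G) ⊓ normalizer (H : Set G)) (normalizer (H : Set G)))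
    (ih : ∀ D : Subgroup G, D ≤ (S : Subgroup G) → Nat.card H < Nat.card D →
        ∀ g, rj g D ≤ (S : Subgroup G) → Real (normalizer (A : Set G)) D g)
    (x : G) (hx : x ∈ normalizer (H : Set G)) : Real (normalizer (A : Set G)) H x := by
  obtain ⟨hAS, hcl⟩ := hsc
  by_cases hAH : A ≤ H
  · -- `x` normalizes `A`
    have key : ∀ y ∈ normalizer (H : Set G), ∀ a ∈ A, y * a * y⁻¹ ∈ A := by
      intro y hy a ha
      exact hcl a ha y (hH ((mem_normalizer_iff.mp hy a).mp (hAH ha)))
    refine ⟨x, ?_, fun d _ => rfl⟩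
    rw [mem_normalizer_iff]
    intro a
    refine ⟨key x hx a, fun hh => ?_⟩
    have := key x⁻¹ (inv_mem hx) _ hh
    have e : x⁻¹ * (x * a * x⁻¹) * x⁻¹⁻¹ = a := by group
    rwa [e] at this
  · have hSA : (S : Subgroup G) ≤ normalizer (A : Set G) := by
      have key : ∀ y ∈ (S : Subgroup G), ∀ a ∈ A, y * a * y⁻¹ ∈ A := by
        intro y hy a ha
        exact hcl a ha y (mul_mem (mul_mem hy (hAS ha)) (inv_mem hy))
      intro y hy
      rw [mem_normalizer_iff]
      intro a
      refine ⟨key y hy a, fun hh => ?_⟩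
      have := key y⁻¹ (inv_mem hy) _ hh
      have e : y⁻¹ * (y * a * y⁻¹) * y⁻¹⁻¹ = a := by group
      rwa [e] at this
    have hlt : H < H ⊔ A := by
      refine lt_of_le_of_ne le_sup_left fun h => hAH ?_
      rw [h]; exact le_sup_right
    have hp : IsPGroup p (H ⊔ A : Subgroup G) := S.2.to_le (sup_le hH hAS)
    have hcard := card_lt_card_inf_normalizer hp hlt
    obtain ⟨y, hy, hyH⟩ : ∃ y ∈ (H ⊔ A) ⊓ normalizer (H : Set G), y ∉ H := by
      by_contra hcon
      push Not at hcon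
      exact absurd (Subgroup.card_le_of_le (show (H ⊔ A) ⊓ normalizer (H : Set G) ≤ H from hcon))
        (not_le.mpr hcard)
    have hy1 : y ∈ H ⊔ A := hy.1
    rw [← SetLike.mem_coe, coe_mul_of_left_le_normalizer_right _ _ (hH.trans hSA), Set.mem_mul] at hy1
    obtain ⟨h, hh, b, hb, rfl⟩ := hy1
    have hh' : h ∈ H := hh
    have hb' : b ∈ A := hb
    have hbN : b ∈ normalizer (H : Set G) := by
      have := mul_mem (inv_mem (le_normalizer hh')) hy.2
      rwa [inv_mul_cancel_left] at this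
    have hbH : b ∉ H := fun hbH => hyH (mul_mem hh' hbH)
    have hinv : ∀ z ∈ normalizer (H : Set G), ∀ k ∈ A ⊓ H, z * k * z⁻¹ ∈ A ⊓ H := by
      intro z hz k hk
      have h1 : z * k * z⁻¹ ∈ H := (mem_normalizer_iff.mp hz k).mp hk.2
      exact ⟨hcl k hk.1 z (hH h1), h1⟩
    have hbs : b ∈ stab H (A ⊓ H) := by
      refine ⟨fun h₁ hh₁ => ⟨?_, ?_⟩, fun k hk => ?_⟩
      · have h1 : h₁ * b⁻¹ * h₁⁻¹ ∈ A := (mem_normalizer_iff.mp (hSA (hH hh₁)) _).mp (inv_mem hb')
        have := mul_mem hb' h1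
        have e : b * h₁ * b⁻¹ * h₁⁻¹ = b * (h₁ * b⁻¹ * h₁⁻¹) := by group
        rw [e]; exact this
      · exact H.mul_mem ((mem_normalizer_iff.mp hbN h₁).mp hh₁) (H.inv_mem hh₁)
      · rw [hcomm b hb' k hk.1]; group
    exact real_of_stab S _ hH hT ih inf_le_right hinv (hAS hb') hbs hbH hx

/-- Let S be a Sylow p-subgroup of the finite group G and A an abelian subgroup of S that is strongly closed in S with respect to G. Then A controls strong fusion in G: for some Sylow p-subgroup T containing A, whenever a subset of T is conjugated into T by an element of G, the same elementwise conjugation is induced by an element of N_G(A). -/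
theorem result {G : Type*} [Group G] [Finite G] {p : ℕ} [Fact p.Prime] (S : Sylow p G) (A : Subgroup G) (hA : IsMulCommutative ↥A) (hsc : Cfsg.IsStronglyClosed A (S : Subgroup G)) : Cfsg.ControlsStrongFusion p A := by
  have hcomm : ∀ a ∈ A, ∀ b ∈ A, a * b = b * a := by
    intro a ha b hb
    have := hA.is_comm.comm (⟨a, ha⟩ : A) ⟨b, hb⟩
    exact congrArg Subtype.val this
  have main := controls_of_step S (normalizer (A : Set G)) (step S A hcomm hsc)
  refine ⟨S, hsc.1, fun B hB => ⟨hB, fun g hg => ?_⟩⟩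
  have hD : Subgroup.closure B ≤ (S : Subgroup G) := (Subgroup.closure_le _).mpr hB
  have hrj : rj g⁻¹ (Subgroup.closure B) ≤ (S : Subgroup G) := by
    rw [rj, inv_inv, cj, MonoidHom.map_closure, Subgroup.closure_le]
    rintro _ ⟨a, ha, rfl⟩
    exact hg ⟨a, ha, rfl⟩
  obtain ⟨n, hn, h⟩ := main _ hD g⁻¹ hrj
  refine ⟨n⁻¹, inv_mem hn, fun a ha => ?_⟩
  have := h a (Subgroup.subset_closure ha)
  rw [inv_inv] at this ⊢
  exact this.symm

end Cfsg.Agent.S2791
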