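import Cfsg.Statements.S2792
import Cfsg.Agent.Lib.Helper1HWd

set_option autoImplicit false
open Cfsg

namespace Cfsg.Agent.S2792

open Cfsg.Agent.Lib.Helper1HWb Cfsg.Agent.Lib.Helper1HWd

/-- Let S be a Sylow p-subgroup of the finite group G and W a subgroup of S weakly closed in S with respect to G. If S ∩ G' ≠ S ∩ (N_G(W))', then there are x ∈ S, z ∈ W and a maximal subgroup W₀ of W such that the iterated commutator [x, z; p−1] (with [x, z] = x⁻¹z⁻¹xz and [x, z; i+1] = [[x, z; i], z]) lies in W₀ but not in the Frattini subgroup of W₀; in particular [x, z; p−1] ≠ 1. -/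
theorem result {G : Type*} [Group G] [Finite G] {p : ℕ} [Fact p.Prime] (S : Sylow p G) (W : Subgroup G) (hW : Cfsg.IsWeaklyClosed W (S : Subgroup G)) (h : (S : Subgroup G) ⊓ commutator G ≠ (S : Subgroup G) ⊓ ⁅Subgroup.normalizer (W : Set G), Subgroup.normalizer (W : Set G)⁆) : ∃ x ∈ (S : Subgroup G), ∃ z ∈ W, ∃ W₀ : Subgroup ↥W, IsCoatom W₀ ∧ (fun y : G => y⁻¹ * z⁻¹ * y * z)^[p - 1] x ∈ W₀.map W.subtype ∧ (fun y : G => y⁻¹ * z⁻¹ * y * z)^[p - 1] x ∉ ((frattini ↥W₀).map W₀.subtype).map W.subtype := by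
  obtain ⟨E, u, z, M, ν, hmem, hE, hu, hMn, hMi, huM, hzW, hzM, hν⟩ := hw_exists S W hW h
  have hp : p.Prime := Fact.out
  have hWE : W ≤ E := by rw [hE]; exact le_sup_left
  set ι : W →* E := Subgroup.inclusion hWE with hι
  set W₀ : Subgroup W := M.comap ι with hW₀
  have hidx : W₀.index = p := by
    have h1 : W₀.index ∣ p := by
      rw [hW₀, Subgroup.index_comap, ← hMi]
      exact Subgroup.relIndex_dvd_index_of_normal M _
    rcases (Nat.dvd_prime hp).1 h1 with h2 | h2
    · exfalso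
      rw [Subgroup.index_eq_one] at h2
      apply hzM
      have h3 : (⟨z, hzW⟩ : W) ∈ W₀ := by rw [h2]; trivial
      exact h3
    · exact h2
  have hcP : ∀ k : ℕ, (fun y : G => y⁻¹ * (z : G)⁻¹ * y * z)^[k] u ∈ (S : Subgroup G) := by
    intro k
    induction k with
    | zero => exact hu
    | succ k ih =>
      rw [Function.iterate_succ_apply']
      have hz := hW.1 hzW
      exact Subgroup.mul_mem _ (Subgroup.mul_mem _ (Subgroup.mul_mem _ (Subgroup.inv_mem _ ih)
        (Subgroup.inv_mem _ hz)) ih) hz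
  have hcW : (fun y : G => y⁻¹ * (z : G)⁻¹ * y * z)^[p - 1] u ∈ W := by
    obtain ⟨k, hk⟩ : ∃ k, p - 1 = k + 1 := ⟨p - 2, by have := hp.two_le; omega⟩
    rw [hk, Function.iterate_succ_apply']
    have h1 := le_normalizer_of_weaklyClosed hW (hcP k)
    exact W.mul_mem ((Subgroup.mem_normalizer_iff''.1 h1 _).1 (W.inv_mem hzW)) hzW
  have hcM : ι ⟨_, hcW⟩ = (fun y : E => y⁻¹ * z⁻¹ * y * z)^[p - 1] u := by
    apply Subtype.ext
    rw [coe_iterate]
    rfl
  refine ⟨u, hu, z, hzW, W₀, isCoatom_of_index_prime hp hidx, ?_, ?_⟩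
  · refine ⟨⟨_, hcW⟩, ?_, rfl⟩
    show ι ⟨_, hcW⟩ ∈ M
    rw [hcM]
    exact hmem
  · rintro ⟨w, ⟨w0, hw0, rfl⟩, hw⟩
    let j : W₀ →* M := (ι.comp W₀.subtype).codRestrict M (fun w => w.2)
    have hjw : j w0 = ⟨_, hmem⟩ := by
      apply Subtype.ext
      show ι (w0 : W) = (fun y : E => y⁻¹ * z⁻¹ * y * z)^[p - 1] u
      rw [← hcM]
      congr 1
      exact Subtype.ext hw
    have hne : (ν.comp j) w0 ≠ 1 := by
      rw [MonoidHom.comp_apply, hjw]
      exact hν
    have hki : (ν.comp j).ker.index = p := by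
      have h1 : (ν.comp j).ker.index ∣ p := by
        rw [Subgroup.index_ker]
        have := Subgroup.card_subgroup_dvd_card (ν.comp j).range
        rwa [card_mult_zmod] at this
      rcases (Nat.dvd_prime hp).1 h1 with h2 | h2
      · exfalso
        rw [Subgroup.index_eq_one] at h2
        apply hne
        have h3 : w0 ∈ (ν.comp j).ker := by rw [h2]; trivial
        exact h3
      · exact h2
    exact hne (frattini_le_coatom (isCoatom_of_index_prime hp hki) hw0)

end Cfsg.Agent.S2792
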