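import Cfsg.Statements.S2807
import Cfsg.Agent.Lib.Helper1HWd
import Cfsg.Agent.Lib.Helper86Wreath

set_option autoImplicit false
open Cfsg

namespace Cfsg.Agent.S2807

open Finset Cfsg.Agent.Lib.Helper1HW Cfsg.Agent.Lib.Helper1HWb Cfsg.Agent.Lib.Helper1HWd Cfsg.Agent.Lib.Helper86Wreath

theorem wreath_of_norm {G : Type*} [Group G] [Finite G] {p : ℕ} [hp : Fact p.Prime] (hG : IsPGroup p G)
    (M : Subgroup G) [hMn : M.Normal] (hMi : M.index = p) {C : Type*} [CommGroup C] (hC : Nat.card C = p)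
    (ν : M →* C) (u z : G) (huM : u ∈ M) (hzM : z ∉ M)
    (hmem : (fun y : G => y⁻¹ * z⁻¹ * y * z)^[p - 1] u ∈ M) (hν : ν ⟨_, hmem⟩ ≠ 1) :
    ∃ (W : Sylow p (Equiv.Perm (Fin (p ^ 2))))
      (f : G →* ↥(W : Subgroup (Equiv.Perm (Fin (p ^ 2))))), Function.Surjective f := by
  classical
  have hcl : ∀ (a b : G) (h : M), a⁻¹ * b ∈ M →
      ν (MulAut.conjNormal a⁻¹ h) = ν (MulAut.conjNormal b⁻¹ h) := by
    intro a b h hab
    have h1 : MulAut.conjNormal b⁻¹ h = (⟨a⁻¹ * b, hab⟩ : M)⁻¹ * MulAut.conjNormal a⁻¹ h * ⟨a⁻¹ * b, hab⟩ := by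
      apply Subtype.ext
      simp only [MulAut.conjNormal_apply, Subgroup.coe_mul, Subgroup.coe_inv]
      group
    rw [h1, map_mul, map_mul, map_inv ν, mul_comm, mul_inv_cancel_left]
  let τ : G ⧸ M → (M →* C) := fun c => ν.comp (MulAut.conjNormal (c.out)⁻¹ : MulAut M).toMonoidHom
  have hτv : ∀ c h, τ c h = ν (MulAut.conjNormal (c.out)⁻¹ h) := fun _ _ => rfl
  have hτ : ∀ (t : G) (c : G ⧸ M) (h h' : M), (h' : G) = t * h * t⁻¹ → τ (t • c) h' = τ c h := by
    intro t c h h' hh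
    have h1 : h' = MulAut.conjNormal t h := Subtype.ext (by rw [hh, MulAut.conjNormal_apply])
    rw [hτv, hτv, h1, ← MulAut.mul_apply, ← map_mul]
    have h2 : ((t • c).out)⁻¹ * t = (t⁻¹ * (t • c).out)⁻¹ := by group
    rw [h2]
    symm
    apply hcl
    rw [← mul_assoc, ← mul_inv_rev, ← QuotientGroup.eq, QuotientGroup.out_eq']
    conv_rhs => rw [← QuotientGroup.out_eq' c]
    rfl
  apply wreath_of_family hG M hMi hC τ hτ ⟨u, huM⟩
  set κ : M →* M := (MulAut.conjNormal z⁻¹ : MulAut M).toMonoidHom with hκ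
  have hκi : ∀ (i : ℕ) (a : M), κ^[i] a = MulAut.conjNormal (z ^ i)⁻¹ a := by
    intro i
    induction i with
    | zero => intro a; simp
    | succ i ih =>
      intro a
      rw [Function.iterate_succ_apply', ih, pow_succ, mul_inv_rev, map_mul]
      rfl
  have hδ : ∀ (k : ℕ) (a : M), (((fun m : M => m⁻¹ * κ m)^[k] a : M) : G)
      = (fun y => y⁻¹ * z⁻¹ * y * z)^[k] (a : G) := by
    intro k
    induction k with
    | zero => intro a; rfl
    | succ k ih =>
      intro a
      rw [Function.iterate_succ_apply, Function.iterate_succ_apply, ih]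
      congr 1
      have : ((κ a : M) : G) = z⁻¹ * a * z := by simp [hκ]
      rw [Subgroup.coe_mul, this, Subgroup.coe_inv]
      group
  have hcard : Nat.card (G ⧸ M) = p := hMi
  have hne : (QuotientGroup.mk z : G ⧸ M) ≠ 1 := by rwa [Ne, QuotientGroup.eq_one_iff]
  have hord : orderOf (QuotientGroup.mk z : G ⧸ M) = p := by
    apply orderOf_eq_prime _ hne
    rw [← hcard]
    exact pow_card_eq_one'
  haveI : Fintype (G ⧸ M) := Fintype.ofFinite _
  have hinj : Set.InjOn (fun i : ℕ => (QuotientGroup.mk z : G ⧸ M) ^ i) (range p : Set ℕ) := by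
    intro i hi j hj hij
    rw [coe_range, Set.mem_Iio, ← hord] at hi hj
    exact pow_injOn_Iio_orderOf hi hj hij
  have huniv : (univ : Finset (G ⧸ M)) = (range p).image (fun i : ℕ => (QuotientGroup.mk z : G ⧸ M) ^ i) := by
    symm
    apply Finset.eq_univ_of_card
    rw [Finset.card_image_of_injOn hinj, card_range, ← Nat.card_eq_fintype_card, hcard]
  rw [finprod_eq_prod_of_fintype, huniv, Finset.prod_image hinj]
  have hA : ∀ a : C, a ^ p = 1 := by
    intro a
    rw [← hC]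
    exact pow_card_eq_one'
  have h9 := prod_iterate_eq hp.out hA ν κ ⟨u, huM⟩
  have h10 : (⟨(fun y => y⁻¹ * z⁻¹ * y * z)^[p - 1] u, hmem⟩ : M) = (fun m : M => m⁻¹ * κ m)^[p - 1] ⟨u, huM⟩ :=
    Subtype.ext (hδ (p - 1) ⟨u, huM⟩).symm
  rw [h10, ← h9] at hν
  convert hν using 1
  apply Finset.prod_congr rfl
  intro i _
  rw [hτv, hκi]
  apply hcl
  rw [← QuotientGroup.eq, QuotientGroup.out_eq']
  rfl

/-- Let S be a Sylow p-subgroup of the finite group G. If S ∩ G' ≠ S ∩ (N_G(S))' (derived subgroups), then the wreath product Z_p ≀ Z_p — realised as a Sylow p-subgroup of the symmetric group of degree p² — is a homomorphic image of S. -/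
theorem result {G : Type*} [Group G] [Finite G] {p : ℕ} [Fact p.Prime] (S : Sylow p G) (h : (S : Subgroup G) ⊓ commutator G ≠ (S : Subgroup G) ⊓ ⁅Subgroup.normalizer ((S : Subgroup G) : Set G), Subgroup.normalizer ((S : Subgroup G) : Set G)⁆) : ∃ (P : Sylow p (Equiv.Perm (Fin (p ^ 2)))) (f : ↥(S : Subgroup G) →* ↥(P : Subgroup (Equiv.Perm (Fin (p ^ 2))))), Function.Surjective f := by
  have hW : Cfsg.IsWeaklyClosed (S : Subgroup G) (S : Subgroup G) := by
    refine ⟨le_rfl, fun g hg => ?_⟩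
    apply Subgroup.eq_of_le_of_card_ge hg
    rw [Subgroup.card_map_of_injective (MulAut.conj g).injective]
  obtain ⟨E, u, z, M, ν, hmem, hE, hu, hMn, hMi, huM, hzW, hzM, hν⟩ := hw_exists S _ hW h
  have hES : E = (S : Subgroup G) := by
    rw [hE]
    exact sup_of_le_left (by rw [Subgroup.zpowers_le]; exact hu)
  subst hES
  exact wreath_of_norm S.2 M hMi (card_mult_zmod p) ν u z huM hzM hmem hν

end Cfsg.Agent.S2807
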