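import Cfsg.Statements.S2941
import Cfsg.Agent.Lib.Helper55JComp

set_option autoImplicit false
open Cfsg

namespace Cfsg.Agent.S2941

open Cfsg.Agent.Lib.Helper55Core Cfsg.Agent.Lib.Helper55JComp
open scoped commutatorElement

/-- Let G be a finite group of characteristic 2 type in which every 2-local subgroup is solvable and the centralizer of Ω₁(Z(S)) lies in N_G(S) for every Sylow 2-subgroup S, and let T be a nontrivial 2-subgroup and K a J(T)-component (J the Thompson subgroup generated by the elementary abelian 2-subgroups of largest order). If a subgroup Q is normalized by ⟨K, J(T)⟩ and normalizes J(T), then Q normalizes K. -/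
theorem result {G : Type*} [Group G] [Finite G] (hL : Cfsg.IsCharacteristicTwoType G) (hN : ∀ N : Subgroup G, Cfsg.IsTwoLocal N → Group.IsSolvable ↥N)
    (hZ : ∀ S : Sylow 2 G, Subgroup.centralizer (Cfsg.omegaCenterOf (S : Subgroup G) : Set G) ≤ Subgroup.normalizer ((S : Subgroup G) : Set G)) (T : Subgroup G) (hT : IsPGroup 2 ↥T) (hT1 : T ≠ ⊥) (K : Subgroup G) (hK : Cfsg.IsJComponent T K)
    (Q : Subgroup G) (hQ1 : K ⊔ Cfsg.thompsonSubgroupOf 2 T ≤ Subgroup.normalizer (Q : Set G)) (hQ2 : Q ≤ Subgroup.normalizer (Cfsg.thompsonSubgroupOf 2 T : Set G)) :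
    Q ≤ Subgroup.normalizer (K : Set G) := by
  set J := Cfsg.thompsonSubgroupOf 2 T with hJ
  have hJ2 : IsPGroup 2 ↥J := hT.to_le (thompsonSubgroupOf_le 2 T)
  obtain ⟨hK1, hK2, -⟩ := hK
  have hJK : J ≤ Subgroup.normalizer (K : Set G) := by
    have := le_normalizer_commutator_right K J
    rwa [hK2] at this
  have hKQ : K ≤ Subgroup.normalizer (Q : Set G) := le_sup_left.trans hQ1
  -- conjugates of K by Q lie in K ⊔ J
  have h2 : ∀ q ∈ Q, ∀ x ∈ K, q * x * q⁻¹ ∈ K ⊔ J := by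
    intro q hq
    have h3 : (⁅K, J⁆).map (MulAut.conj q).toMonoidHom ≤ K ⊔ J := by
      rw [Subgroup.commutator_def, MonoidHom.map_closure, Subgroup.closure_le]
      rintro _ ⟨_, ⟨k, hk, j, hj, rfl⟩, rfl⟩
      have hq' : k⁻¹ * q * k ∈ Q := (Subgroup.mem_normalizer_iff''.1 (hKQ hk) q).1 hq
      have h4 : (k⁻¹ * q * k) * j * (k⁻¹ * q * k)⁻¹ ∈ J := (Subgroup.le_normalizer_iff.1 hQ2) _ hq' j hj
      have h5 : q * j⁻¹ * q⁻¹ ∈ J := (Subgroup.le_normalizer_iff.1 hQ2) _ hq _ (J.inv_mem hj)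
      have e : (MulAut.conj q).toMonoidHom ⁅k, j⁆
          = k * ((k⁻¹ * q * k) * j * (k⁻¹ * q * k)⁻¹) * k⁻¹ * (q * j⁻¹ * q⁻¹) := by
        simp only [MulEquiv.coe_toMonoidHom, MulAut.conj_apply, commutatorElement_def]
        group
      rw [e]
      have hkS : k ∈ K ⊔ J := le_sup_left (b := J) hk
      exact (K ⊔ J).mul_mem ((K ⊔ J).mul_mem ((K ⊔ J).mul_mem hkS (le_sup_right (a := K) h4)) ((K ⊔ J).inv_mem hkS))
        (le_sup_right (a := K) h5)
    intro x hx
    rw [hK2] at h3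
    exact h3 ⟨x, hx, rfl⟩
  rw [Subgroup.le_normalizer_iff]
  intro q hq
  have h6 : K.map (MulAut.conj q).toMonoidHom ≤ K := by
    conv_lhs => rw [← hK1]
    rw [MonoidHom.map_closure, Subgroup.closure_le]
    rintro _ ⟨g, ⟨hgK, hgodd⟩, rfl⟩
    have h7 : q * g * q⁻¹ ∈ K ⊔ J := h2 q hq g hgK
    have h8 : (q * g * q⁻¹) ^ orderOf g = 1 := by
      rw [conj_pow, pow_orderOf_eq_one]; simp
    exact mem_of_mem_sup_of_coprime hJK hJ2 h7 (Nat.coprime_two_right.2 hgodd) h8
  intro x hx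
  exact h6 ⟨x, hx, rfl⟩

end Cfsg.Agent.S2941
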