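import Cfsg.Statements.S2943
import Cfsg.Agent.Lib.Helper55JL

set_option autoImplicit false
open Cfsg

namespace Cfsg.Agent.S2943

/-- Let G be a finite group of characteristic 2 type in which every 2-local subgroup is solvable and the centralizer of Ω₁(Z(S)) lies in N_G(S) for every Sylow 2-subgroup S, and let T be a nontrivial 2-subgroup (below, J is the Thompson subgroup generated by the elementary abelian 2-subgroups of largest order), L a subgroup in which T is a Sylow 2-subgroup with J(T) not contained in O₂(L) and C_G(O₂(L)) ≤ O₂(L), and K a J(T)-component contained in L. If Z(T) meets W_K = [Ω₁(Z(O₂(K))), K] nontrivially, then T normalizes K. -/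
theorem result {G : Type*} [Group G] [Finite G] (hL : Cfsg.IsCharacteristicTwoType G) (hN : ∀ N : Subgroup G, Cfsg.IsTwoLocal N → Group.IsSolvable ↥N)
    (hZ : ∀ S : Sylow 2 G, Subgroup.centralizer (Cfsg.omegaCenterOf (S : Subgroup G) : Set G) ≤ Subgroup.normalizer ((S : Subgroup G) : Set G)) (T : Subgroup G) (hT : IsPGroup 2 ↥T) (hT1 : T ≠ ⊥) (L : Subgroup G) (hLT : L ∈ Cfsg.jOvergroups T)
    (K : Subgroup G) (hK : Cfsg.IsJComponent T K) (hKL : K ≤ L)
    (hZW : T ⊓ Subgroup.centralizer (T : Set G) ⊓ Cfsg.wOf K ≠ ⊥) : T ≤ Subgroup.normalizer (K : Set G) := by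
  have z := Cfsg.Agent.Lib.Helper55JL.ZN.mk hL hN hZ
  intro t ht
  rw [Cfsg.Agent.Lib.Helper40Sylow.mem_normalizer_iff_cj]
  have htL : t ∈ L := hLT.1.1 ht
  have h1 := z.isJComponent_conj hT1 hLT hK hKL htL
  have h2 : Cfsg.Agent.Lib.Helper40Sylow.cj t K ≤ L := by
    rintro _ ⟨k, hk, rfl⟩
    exact L.mul_mem (L.mul_mem htL (hKL hk)) (L.inv_mem htL)
  symm
  apply z.eq_of_wOf_inf_ne_bot hT1 hLT hK hKL h1 h2
  intro hbot
  apply hZW
  rw [eq_bot_iff, ← hbot]
  rintro x ⟨⟨hxT, hxC⟩, hxW⟩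
  refine Subgroup.mem_inf.2 ⟨hxW, ?_⟩
  rw [Cfsg.Agent.Lib.Helper55JT.wOf_cj]
  refine ⟨x, hxW, ?_⟩
  have h3 : t * x = x * t := (Subgroup.mem_centralizer_iff.1 hxC) t ht
  simp only [MulEquiv.coe_toMonoidHom, MulAut.conj_apply]
  rw [h3, mul_inv_cancel_right]

end Cfsg.Agent.S2943
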