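import Cfsg.Statements.S2946
import Cfsg.Agent.Lib.Helper55JStruct

set_option autoImplicit false
open Cfsg

namespace Cfsg.Agent.S2946

open Cfsg.Agent.Lib.Helper55Core Cfsg.Agent.Lib.Helper55JComp Cfsg.Agent.Lib.Helper40Sylow
  Cfsg.Agent.Lib.Helper55Four Cfsg.Agent.Lib.Helper13Thompson2 Cfsg.Agent.Lib.Helper55JStruct
open scoped commutatorElement

theorem conj_eq_of_mem_centralizer {G : Type*} [Group G] {H : Subgroup G} {x g : G}
    (hx : x ∈ Subgroup.centralizer (H : Set G)) (hg : g ∈ H) : g * x * g⁻¹ = x := by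
  have := (Subgroup.mem_centralizer_iff.1 hx) g hg
  rw [this, mul_inv_cancel_right]

/-- Let G be a finite group of characteristic 2 type in which every 2-local subgroup is solvable and the centralizer of Ω₁(Z(S)) lies in N_G(S) for every Sylow 2-subgroup S, and let T be a nontrivial 2-subgroup (below, J is the Thompson subgroup generated by the elementary abelian 2-subgroups of largest order), K a J(T)-component and Z₀ = Ω₁(Z(J(T))). Then Z₀ meets W_K = [Ω₁(Z(O₂(K))), K] in a subgroup of order 2, and Z₀ is the product of Z₀ ∩ Z(⟨K, J(T)⟩) and Z₀ ∩ W_K. -/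
theorem result {G : Type*} [Group G] [Finite G] (hL : Cfsg.IsCharacteristicTwoType G) (hN : ∀ N : Subgroup G, Cfsg.IsTwoLocal N → Group.IsSolvable ↥N)
    (hZ : ∀ S : Sylow 2 G, Subgroup.centralizer (Cfsg.omegaCenterOf (S : Subgroup G) : Set G) ≤ Subgroup.normalizer ((S : Subgroup G) : Set G)) (T : Subgroup G) (hT : IsPGroup 2 ↥T) (hT1 : T ≠ ⊥) (K : Subgroup G) (hK : Cfsg.IsJComponent T K)
    (Z₀ : Subgroup G) (hZ₀ : Z₀ = Cfsg.omegaCenterOf (Cfsg.thompsonSubgroupOf 2 T)) :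
    Nat.card ↥(Z₀ ⊓ Cfsg.wOf K) = 2 ∧
      (Z₀ ⊓ ((K ⊔ Cfsg.thompsonSubgroupOf 2 T) ⊓ Subgroup.centralizer ((K ⊔ Cfsg.thompsonSubgroupOf 2 T) : Set G))) ⊔ (Z₀ ⊓ Cfsg.wOf K) = Z₀ := by
  have : Fact (Nat.Prime 2) := ⟨Nat.prime_two⟩
  have h5 := hK.2.2.2.2.1
  have h6 := hK.2.2.2.2.2
  set J := Cfsg.thompsonSubgroupOf 2 T with hJ
  set W := Cfsg.wOf K with hW
  set Q := pCoreOf 2 K with hQ
  have hJ2 : IsPGroup 2 ↥J := hT.to_le (thompsonSubgroupOf_le 2 T)
  obtain ⟨S, hS, hJS⟩ := exists_isSylowIn_ge (p := 2) (Q := J) (H := K ⊔ J) hJ2 le_sup_right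
  have hWJ : W ≤ J := wOf_le_J hT hK
  have hJW : J ≤ Subgroup.normalizer (W : Set G) := le_sup_right.trans (X_le_normalizer_wOf hK)
  have hKW : K ≤ Subgroup.normalizer (W : Set G) := le_sup_left.trans (X_le_normalizer_wOf hK)
  -- first claim
  have hinf : Z₀ ⊓ W = W ⊓ Subgroup.centralizer (J : Set G) := by
    apply le_antisymm
    · rintro z ⟨hz, hzW⟩
      rw [hZ₀] at hz
      exact ⟨hzW, (omegaCenterOf_le _ hz).2⟩
    · rintro w ⟨hw, hwJ⟩
      refine ⟨?_, hw⟩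
      rw [hZ₀]
      exact mem_omegaCenterOf (hWJ hw) hwJ (h6 w hw)
  have hcard : Nat.card ↥(Z₀ ⊓ W) = 2 := by
    rw [hinf]
    exact card_inf_centralizer h5 hJ2 hJW (not_J_le_centralizer_wOf hK)
  refine ⟨hcard, le_antisymm (sup_le inf_le_left inf_le_left) ?_⟩
  intro z hz
  have hzJ : z ∈ J ⊓ Subgroup.centralizer (J : Set G) := by
    rw [hZ₀] at hz; exact omegaCenterOf_le _ hz
  have hz2 : z * z = 1 := by rw [hZ₀] at hz; exact sq_of_mem_omegaCenterOf hz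
  have hzinv : z⁻¹ = z := inv_eq_of_mul_eq_one_left hz2
  have hzB : z ∈ B0 S W := omegaCenterOf_le_B0 hK hS hJS (by rw [hZ₀] at hz; exact hz)
  have hcomm := comm_K_B0 hT hK hS hJS
  -- z commutes with W
  have hzW : ∀ w ∈ W, z * w = w * z := fun w hw => ((Subgroup.mem_centralizer_iff.1 hzJ.2) w (hWJ hw)).symm
  -- Q normalizes Z₀
  have hQZ : Q ≤ Subgroup.normalizer (Z₀ : Set G) := by
    have h1 : S ≤ Subgroup.normalizer (J : Set G) := by
      have := Subgroup.le_normalizer.trans (normalizer_le_normalizer_thompsonOf 2 S)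
      rwa [thompson_eq hK hS hJS] at this
    rw [hZ₀]
    exact ((pCoreOf_le_S hT hK hS).trans h1).trans (normalizer_le_normalizer_omegaCenterOf _)
  have hQK : Q ≤ K := pCoreOf_le K
  have hQW : ∀ q ∈ Q, ∀ w ∈ W, q * w * q⁻¹ = w := fun q hq w hw =>
    conj_eq_of_mem_centralizer (Subgroup.le_centralizer_iff.1 (pCoreOf_le_centralizer_wOf K) hw) hq
  have htau : ∀ q ∈ Q, q * z * q⁻¹ * z⁻¹ ∈ Z₀ ⊓ W := fun q hq =>
    ⟨Z₀.mul_mem ((Subgroup.le_normalizer_iff.1 hQZ) q hq z hz) (Z₀.inv_mem hz), hcomm q (hQK hq) z hzB⟩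
  -- Q centralizes z
  have hQz : ∀ q ∈ Q, q * z * q⁻¹ = z := by
    intro q hq
    by_contra hne
    set t := q * z * q⁻¹ * z⁻¹ with ht
    have ht1 : t ≠ 1 := fun h => hne (mul_inv_eq_one.1 h)
    have htW : t ∈ W := (htau q hq).2
    -- some k ∈ K does not commute with t
    obtain ⟨k, hk, hkt⟩ : ∃ k ∈ K, k * t * k⁻¹ ≠ t := by
      by_contra hcon
      have : t ∈ W ⊓ Subgroup.centralizer (K : Set G) := by
        refine Subgroup.mem_inf.2 ⟨htW, ?_⟩
        rw [Subgroup.mem_centralizer_iff]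
        intro k hk
        have h1 : k * t * k⁻¹ = t := by
          by_contra h
          exact hcon ⟨k, hk, h⟩
        calc k * t = (k * t * k⁻¹) * k := by group
          _ = t * k := by rw [h1]
      rw [wOf_inf_centralizer hK, Subgroup.mem_bot] at this
      exact ht1 this
    have hq' : k * q * k⁻¹ ∈ Q := (Subgroup.le_normalizer_iff.1 (le_normalizer_pCoreOf K)) k hk q hq
    set w := k⁻¹ * z * k⁻¹⁻¹ * z⁻¹ with hw
    have hwW : w ∈ W := hcomm k⁻¹ (K.inv_mem hk) z hzB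
    have e1 : k⁻¹ * z * k = w * z := by rw [hw]; group
    have e2 : q * z * q⁻¹ = t * z := by rw [ht]; group
    have e : (k * q * k⁻¹) * z * (k * q * k⁻¹)⁻¹ * z⁻¹ = k * t * k⁻¹ := by
      calc (k * q * k⁻¹) * z * (k * q * k⁻¹)⁻¹ * z⁻¹
          = k * (q * (k⁻¹ * z * k) * q⁻¹) * k⁻¹ * z⁻¹ := by group
        _ = k * ((q * w * q⁻¹) * (q * z * q⁻¹)) * k⁻¹ * z⁻¹ := by rw [e1]; group
        _ = k * (w * (t * z)) * k⁻¹ * z⁻¹ := by rw [hQW q hq w hwW, e2]
        _ = k * (t * (w * z)) * k⁻¹ * z⁻¹ := by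
            rw [← mul_assoc w t z, comm_of_sq h6 hwW htW, mul_assoc t w z]
        _ = k * (t * (k⁻¹ * z * k)) * k⁻¹ * z⁻¹ := by rw [e1]
        _ = k * t * k⁻¹ := by group
    have h1 := htau _ hq'
    rw [e] at h1
    have h2 : k * t * k⁻¹ ≠ 1 := by
      intro h
      apply ht1
      have : t = k⁻¹ * (k * t * k⁻¹) * k := by group
      rw [this, h]; group
    exact hkt (eq_of_card_two hcard (htau q hq) ht1 h1 h2)
  -- the element k
  obtain ⟨k, hk, hkQ⟩ := exists_not_mem_pCoreOf hK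
  have hk3 : k ^ 3 ∈ Q := pow_three_mem hK hk
  set a := k * z * k⁻¹ with ha
  set b := k * a * k⁻¹ with hb
  have hkb : k * b * k⁻¹ = z := by
    have := hQz _ hk3
    rw [pow_three'] at this
    rw [← this, hb, ha]
    group
  set w₁ := a * z⁻¹ with hw₁
  have hw₁W : w₁ ∈ W := hcomm k hk z hzB
  have hw₂W : b * z⁻¹ ∈ W := by
    have := hcomm (k * k) (K.mul_mem hk hk) z hzB
    have e : k * k * z * (k * k)⁻¹ * z⁻¹ = b * z⁻¹ := by rw [hb, ha]; group
    rwa [e] at this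
  set w₂ := b * z⁻¹ with hw₂
  have ea : a = w₁ * z := by rw [hw₁]; group
  have eb : b = w₂ * z := by rw [hw₂]; group
  set w₀ := w₁ * w₂ with hw₀
  have hw₀W : w₀ ∈ W := W.mul_mem hw₁W hw₂W
  set z' := z * w₀ with hz'
  -- z' = z * a * b
  have ez' : z' = z * a * b := by
    rw [hz', hw₀, ea, eb]
    calc z * (w₁ * w₂) = z * (w₁ * w₂) * (z * z) := by rw [hz2, mul_one]
      _ = z * w₁ * (w₂ * z) * z := by group
      _ = z * w₁ * (z * w₂) * z := by rw [hzW w₂ hw₂W]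
      _ = z * (w₁ * z) * (w₂ * z) := by group
  have ez'' : z' = a * b * z := by
    rw [hz', hw₀, ea, eb]
    calc z * (w₁ * w₂) = (w₁ * w₂) * z := hzW _ hw₀W
      _ = w₁ * (z * z) * w₂ * z := by rw [hz2]; group
      _ = w₁ * z * (z * w₂) * z := by group
      _ = w₁ * z * (w₂ * z) * z := by rw [hzW w₂ hw₂W]
  have hkz' : k * z' * k⁻¹ = z' := by
    calc k * z' * k⁻¹ = k * (z * a * b) * k⁻¹ := by rw [ez']
      _ = (k * z * k⁻¹) * (k * a * k⁻¹) * (k * b * k⁻¹) := by group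
      _ = a * b * z := by rw [hkb]
      _ = z' := ez''.symm
  have hQz' : ∀ q ∈ Q, q * z' * q⁻¹ = z' := by
    intro q hq
    calc q * z' * q⁻¹ = (q * z * q⁻¹) * (q * w₀ * q⁻¹) := by rw [hz']; group
      _ = z' := by rw [hQz q hq, hQW q hq w₀ hw₀W]
  have hKz' : K ≤ Subgroup.centralizer ({z'} : Set G) := by
    refine (K_le_sup_zpowers hK hk hkQ).trans (sup_le ?_ ?_)
    · intro q hq
      rw [Subgroup.mem_centralizer_singleton_iff]
      calc q * z' = (q * z' * q⁻¹) * q := by group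
        _ = z' * q := by rw [hQz' q hq]
    · rw [Subgroup.zpowers_le, Subgroup.mem_centralizer_singleton_iff]
      calc k * z' = (k * z' * k⁻¹) * k := by group
        _ = z' * k := by rw [hkz']
  have hKz'' : ∀ g ∈ K, g * z' * g⁻¹ = z' := by
    intro g hg
    have := Subgroup.mem_centralizer_singleton_iff.1 (hKz' hg)
    rw [this, mul_inv_cancel_right]
  -- J centralizes w₀
  have hJw₀ : ∀ j ∈ J, j * w₀ * j⁻¹ = w₀ := by
    intro j hj
    have hjz : j * z * j⁻¹ = z := conj_eq_of_mem_centralizer hzJ.2 hj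
    have hjw : j * w₀ * j⁻¹ ∈ W := (Subgroup.le_normalizer_iff.1 hJW) j hj w₀ hw₀W
    have h1 : w₀⁻¹ * (j * w₀ * j⁻¹) ∈ W ⊓ Subgroup.centralizer (K : Set G) := by
      refine Subgroup.mem_inf.2 ⟨W.mul_mem (W.inv_mem hw₀W) hjw, ?_⟩
      have e : w₀⁻¹ * (j * w₀ * j⁻¹) = z'⁻¹ * (j * z' * j⁻¹) := by
        have : j * z' * j⁻¹ = (j * z * j⁻¹) * (j * w₀ * j⁻¹) := by rw [hz']; group
        rw [this, hjz, hz']; group
      rw [e, Subgroup.mem_centralizer_iff]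
      intro g hg
      have hg' : j⁻¹ * g * j⁻¹⁻¹ ∈ K := (Subgroup.le_normalizer_iff.1 (J_le_normalizer hK)) j⁻¹ (J.inv_mem hj) g hg
      have h2 : g * (j * z' * j⁻¹) * g⁻¹ = j * z' * j⁻¹ := by
        calc g * (j * z' * j⁻¹) * g⁻¹ = j * ((j⁻¹ * g * j⁻¹⁻¹) * z' * (j⁻¹ * g * j⁻¹⁻¹)⁻¹) * j⁻¹ := by group
          _ = j * z' * j⁻¹ := by rw [hKz'' _ hg']
      have h3 : g * z'⁻¹ * g⁻¹ = z'⁻¹ := by
        have : g * z'⁻¹ * g⁻¹ = (g * z' * g⁻¹)⁻¹ := by group
        rw [this, hKz'' g hg]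
      calc g * (z'⁻¹ * (j * z' * j⁻¹)) = (g * z'⁻¹ * g⁻¹) * (g * (j * z' * j⁻¹) * g⁻¹) * g := by group
        _ = z'⁻¹ * (j * z' * j⁻¹) * g := by rw [h2, h3]
    rw [wOf_inf_centralizer hK, Subgroup.mem_bot] at h1
    exact (inv_mul_eq_one.1 h1).symm
  have hw₀Z : w₀ ∈ Z₀ ⊓ W := by
    rw [hinf]
    refine Subgroup.mem_inf.2 ⟨hw₀W, ?_⟩
    rw [Subgroup.mem_centralizer_iff]
    intro j hj
    calc j * w₀ = (j * w₀ * j⁻¹) * j := by group
      _ = w₀ * j := by rw [hJw₀ j hj]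
  have hz'Z : z' ∈ Z₀ := Z₀.mul_mem hz hw₀Z.1
  have hz'J : z' ∈ J ⊓ Subgroup.centralizer (J : Set G) := by
    rw [hZ₀] at hz'Z; exact omegaCenterOf_le _ hz'Z
  have hz'X : z' ∈ Subgroup.centralizer ((K : Set G) ⊔ (J : Set G)) := by
    have h1 : K ⊔ J ≤ Subgroup.centralizer ({z'} : Set G) := by
      refine sup_le hKz' ?_
      intro j hj
      rw [Subgroup.mem_centralizer_singleton_iff]
      exact ((Subgroup.mem_centralizer_iff.1 hz'J.2) j hj)
    rw [Subgroup.mem_centralizer_iff]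
    intro x hx
    have hx' : x ∈ K ⊔ J := by
      rcases hx with hx | hx
      · exact le_sup_left (b := J) hx
      · exact le_sup_right (a := K) hx
    exact (Subgroup.mem_centralizer_singleton_iff.1 (h1 hx'))
  have e : z = z' * w₀ := by
    rw [hz', mul_assoc, h6 w₀ hw₀W, mul_one]
  rw [e]
  exact Subgroup.mul_mem_sup (Subgroup.mem_inf.2 ⟨hz'Z, Subgroup.mem_inf.2 ⟨le_sup_right (a := K) hz'J.1, hz'X⟩⟩) hw₀Z

end Cfsg.Agent.S2946
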