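import Cfsg.Statements.S2947
import Cfsg.Agent.Lib.Helper37StrEmb

set_option autoImplicit false
open Cfsg

namespace Cfsg.Agent.S2947

open Cfsg.Agent.Lib.Helper37StrEmb

/-- Let G be a finite group of characteristic 2 type in which every 2-local subgroup is solvable and the centralizer of Ω₁(Z(S)) lies in N_G(S) for every Sylow 2-subgroup S; suppose O₂(G) = 1, fix a Sylow 2-subgroup S and a 2-local subgroup M containing N_G(J(S)) (J the Thompson subgroup generated by the elementary abelian 2-subgroups of largest order). Then M is strongly embedded in G (a proper subgroup of even order whose intersection with each conjugate by an element outside M has odd order) if and only if no nontrivial 2-subgroup of M lies in a 2-local subgroup of G not contained in M. -/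
theorem result {G : Type*} [Group G] [Finite G] (hL : Cfsg.IsCharacteristicTwoType G) (hN : ∀ N : Subgroup G, Cfsg.IsTwoLocal N → Group.IsSolvable ↥N)
    (hZ : ∀ S : Sylow 2 G, Subgroup.centralizer (Cfsg.omegaCenterOf (S : Subgroup G) : Set G) ≤ Subgroup.normalizer ((S : Subgroup G) : Set G)) (hO : Cfsg.pCore 2 G = ⊥) (S : Sylow 2 G) (M : Subgroup G) (hM : Cfsg.IsTwoLocal M)
    (hMJ : Subgroup.normalizer (Cfsg.thompsonSubgroupOf 2 (S : Subgroup G) : Set G) ≤ M) :
    Cfsg.IsStronglyEmbedded M ↔ Cfsg.straddlingTwoSubgroups M = ∅ := by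
  have : Fact (Nat.Prime 2) := ⟨Nat.prime_two⟩
  rw [isStronglyEmbedded_iff, pControl_iff_normControl]
  constructor
  · rintro ⟨_, _, hNC⟩
    rw [Set.eq_empty_iff_forall_notMem]
    rintro T ⟨hT2, hT1, hTM, L, ⟨R, hR2, hR1, rfl⟩, hTL, hLM⟩
    apply hLM
    have h1 : IsPGroup 2 ↥(T ⊔ R : Subgroup G) := hT2.to_sup_of_normal_right' hR2 hTL
    have h2 : T ⊔ R ≤ M := by
      apply hNC.pgroup_le _ h1
      intro hbot
      apply hT1
      rw [eq_bot_iff, ← hbot]
      exact le_inf le_sup_left hTM
    exact hNC R (le_sup_right.trans h2) hR2 hR1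
  · intro hemp
    obtain ⟨R, hR2, hR1, rfl⟩ := hM
    refine ⟨?_, ?_, ?_⟩
    · intro htop
      apply hR1
      rw [eq_bot_iff, ← hO]
      exact le_sSup ⟨Subgroup.normalizer_eq_top_iff.1 htop, hR2⟩
    · obtain ⟨t, ht, ht2⟩ := exists_orderOf_of_pgroup R hR2 hR1
      exact ⟨t, Subgroup.le_normalizer ht, ht2⟩
    · intro Q hQM hQ2 hQ1
      by_contra hle
      have : Q ∈ Cfsg.straddlingTwoSubgroups (Subgroup.normalizer (R : Set G)) :=
        ⟨hQ2, hQ1, hQM, _, ⟨Q, hQ2, hQ1, rfl⟩, Subgroup.le_normalizer, hle⟩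
      rw [hemp] at this
      exact this

end Cfsg.Agent.S2947
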