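import Cfsg.Statements.S2949
import Cfsg.Agent.Lib.Helper55JE5

set_option autoImplicit false
open Cfsg

namespace Cfsg.Agent.S2949

/-- Let G be a finite group of characteristic 2 type in which every 2-local subgroup is solvable and the centralizer of Ω₁(Z(S)) lies in N_G(S) for every Sylow 2-subgroup S; suppose O₂(G) = 1, fix a Sylow 2-subgroup S and a 2-local subgroup M containing N_G(J(S)) (J the Thompson subgroup generated by the elementary abelian 2-subgroups of largest order). For every T maximal (for the order of a largest elementary abelian subgroup, then the order of J(T), then the order of T) among the nontrivial 2-subgroups of M lying in a 2-local subgroup not inside M, there is a J(T)-component K not contained in M with J(T) the Thompson subgroup of every Sylow 2-subgroup of N_G(W_K) containing J(T), and O₂(⟨K, T⟩) ≠ 1. -/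
theorem result {G : Type*} [Group G] [Finite G] (hL : Cfsg.IsCharacteristicTwoType G) (hN : ∀ N : Subgroup G, Cfsg.IsTwoLocal N → Group.IsSolvable ↥N)
    (hZ : ∀ S : Sylow 2 G, Subgroup.centralizer (Cfsg.omegaCenterOf (S : Subgroup G) : Set G) ≤ Subgroup.normalizer ((S : Subgroup G) : Set G)) (hO : Cfsg.pCore 2 G = ⊥) (S : Sylow 2 G) (M : Subgroup G) (hM : Cfsg.IsTwoLocal M)
    (hMJ : Subgroup.normalizer (Cfsg.thompsonSubgroupOf 2 (S : Subgroup G) : Set G) ≤ M) (T : Subgroup G) (hT : T ∈ Cfsg.maxStraddlingTwoSubgroups M) :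
    (Cfsg.jComponentsOutside M T).Nonempty := by
  have z : Cfsg.Agent.Lib.Helper55JL.ZN G := ⟨hL, hN, hZ⟩
  have hNJ := Cfsg.Agent.Lib.Helper55JL.normalizer_J_le S hMJ hT
  obtain ⟨hT2, hT1, hTM, L, hL2, hTL, hLM⟩ := hT.1
  obtain ⟨hLT, K, hK, hKL, hKM⟩ := z.exists_comp_not_le S hMJ hT hL2 hLM hTL
  refine ⟨K, ⟨hK, ?_⟩, hKM, ?_⟩
  · intro S' hJS' hS'
    have hloc : Cfsg.IsTwoLocal (Subgroup.normalizer (Cfsg.wOf K : Set G)) :=
      ⟨Cfsg.wOf K, Cfsg.Agent.Lib.Helper55JL.isPGroup_wOf hK, Cfsg.Agent.Lib.Helper55JL.wOf_ne_bot hK, rfl⟩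
    have hnle : ¬ Subgroup.normalizer (Cfsg.wOf K : Set G) ≤ M := fun h =>
      hKM ((le_sup_left.trans (Cfsg.Agent.Lib.Helper55JStruct.X_le_normalizer_wOf hK)).trans h)
    exact (Cfsg.Agent.Lib.Helper55JL.sylow_of_local hNJ hT hloc hnle
      (Cfsg.Agent.Lib.Helper55JStruct.isSylowTwoIn_iff.1 hS') hJS').1
  · have h1 := Cfsg.Agent.Lib.Helper55JB.pCoreOf_ne_bot hT1 hLT.2.2
    have hOT : Cfsg.pCoreOf 2 L ≤ T :=
      Cfsg.Agent.Lib.Helper55JStruct.le_of_isSylowIn_of_normal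
        (Cfsg.Agent.Lib.Helper55JStruct.isSylowTwoIn_iff.1 hLT.1)
        (Cfsg.Agent.Lib.Helper55Core.pCoreOf_le L) (Cfsg.Agent.Lib.Helper55Core.le_normalizer_pCoreOf L)
        (Cfsg.Agent.Lib.Helper55Core.isPGroup_pCoreOf L)
    have h2 : Cfsg.pCoreOf 2 L ≤ Cfsg.pCoreOf 2 (K ⊔ T) :=
      Cfsg.Agent.Lib.Helper55Core.le_pCoreOf (hOT.trans le_sup_right)
        ((sup_le hKL hTL).trans (Cfsg.Agent.Lib.Helper55Core.le_normalizer_pCoreOf L))
        (Cfsg.Agent.Lib.Helper55Core.isPGroup_pCoreOf L)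
    intro h
    apply h1
    rw [eq_bot_iff, ← h]; exact h2

end Cfsg.Agent.S2949
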