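import Cfsg.Statements.S2950
import Cfsg.Agent.Lib.Helper55JU

set_option autoImplicit false
open Cfsg

namespace Cfsg.Agent.S2950

/-- Uniqueness of the maximal 2-local overgroup. Let G be a finite group of characteristic 2 type in which every 2-local subgroup is solvable and the centralizer of Ω₁(Z(S)) lies in N_G(S) for every Sylow 2-subgroup S; suppose O₂(G) = 1, fix a Sylow 2-subgroup S and a 2-local subgroup M containing N_G(J(S)) (J the Thompson subgroup generated by the elementary abelian 2-subgroups of largest order). Let T be maximal (for the order of a largest elementary abelian subgroup, then the order of J(T), then the order of T) among the nontrivial 2-subgroups of M lying in a 2-local subgroup not inside M, and let K be a J(T)-component not contained in M with J(T) the Thompson subgroup of every Sylow 2-subgroup of N_G(W_K) containing J(T), and O₂(⟨K, T⟩) ≠ 1. Then there is exactly one maximal 2-local subgroup L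 of G containing ⟨K, J(T)⟩; moreover K is subnormal in L and T is a Sylow 2-subgroup of L. -/
theorem result {G : Type*} [Group G] [Finite G] (hL : Cfsg.IsCharacteristicTwoType G) (hN : ∀ N : Subgroup G, Cfsg.IsTwoLocal N → Group.IsSolvable ↥N)
    (hZ : ∀ S : Sylow 2 G, Subgroup.centralizer (Cfsg.omegaCenterOf (S : Subgroup G) : Set G) ≤ Subgroup.normalizer ((S : Subgroup G) : Set G)) (hO : Cfsg.pCore 2 G = ⊥) (S : Sylow 2 G) (M : Subgroup G) (hM : Cfsg.IsTwoLocal M)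
    (hMJ : Subgroup.normalizer (Cfsg.thompsonSubgroupOf 2 (S : Subgroup G) : Set G) ≤ M) (T : Subgroup G) (hT : T ∈ Cfsg.maxStraddlingTwoSubgroups M)
    (K : Subgroup G) (hK : K ∈ Cfsg.jComponentsOutside M T) :
    ∃ L : Subgroup G, Cfsg.IsMaximalTwoLocal L ∧ K ⊔ Cfsg.thompsonSubgroupOf 2 T ≤ L ∧
      (∀ L' : Subgroup G, Cfsg.IsMaximalTwoLocal L' → K ⊔ Cfsg.thompsonSubgroupOf 2 T ≤ L' → L' = L) ∧
      (K.subgroupOf L).IsSubnormal ∧ Cfsg.IsSylowTwoIn T L := by
  open Cfsg.Agent.Lib.Helper55JL Cfsg.Agent.Lib.Helper40Sylow Cfsg.Agent.Lib.Helper55Core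
    Cfsg.Agent.Lib.Helper55JT Cfsg.Agent.Lib.Helper55JStruct Cfsg.Agent.Lib.Helper13Thompson2 in
  have z := ZN.mk hL hN hZ
  have hNJ := normalizer_J_le S hMJ hT
  obtain ⟨hK0, hKM, hO2⟩ := hK
  have hK1 := hK0.1
  have hT2 := hT.1.1
  have hT1 := hT.1.2.1
  obtain ⟨LK, hLKmax, hLK⟩ := exists_maximalTwoLocal_ge
    (N := Subgroup.normalizer (Cfsg.wOf K : Set G)) ⟨Cfsg.wOf K, isPGroup_wOf hK1, wOf_ne_bot hK1, rfl⟩
  have claim : ∀ L' : Subgroup G, Cfsg.IsMaximalTwoLocal L' → K ⊔ Cfsg.thompsonSubgroupOf 2 T ≤ L' →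
      ∃ T' : Subgroup G, T' ≠ ⊥ ∧ Cfsg.thompsonSubgroupOf 2 T' = Cfsg.thompsonSubgroupOf 2 T ∧
        L' ∈ Cfsg.jOvergroups T' := by
    intro L' hm hle
    have hLM : ¬ L' ≤ M := fun h => hKM ((le_sup_left.trans hle).trans h)
    obtain ⟨T', hT', hJT'⟩ := exists_isSylowIn_ge (hT2.to_le (thompsonOf_le_self 2 T))
      (le_sup_right.trans hle)
    have h3 := sylow_of_local hNJ hT hm.1 hLM hT' hJT'
    exact ⟨T', h3.2.2.1, h3.1, z.mem_jOvergroups hNJ hT hm.1 hLM hT' hJT'⟩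
  have hKJLK : K ⊔ Cfsg.thompsonSubgroupOf 2 T ≤ LK := (X_le_normalizer_wOf hK1).trans hLK
  obtain ⟨T₂, h2, hJ2, hLK2⟩ := claim LK hLKmax hKJLK
  have uniq : ∀ L' : Subgroup G, Cfsg.IsMaximalTwoLocal L' →
      K ⊔ Cfsg.thompsonSubgroupOf 2 T ≤ L' → L' = LK := by
    intro L' hm hle
    obtain ⟨T₁, h1, hJ1, hL1⟩ := claim L' hm hle
    exact z.maximal_unique h1 h2 (hJ1.trans hJ2.symm) hL1 hLK2 hm hLKmax
      ((isJComponent_congr hJ1).2 hK1) (le_sup_left.trans hle) hLK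
  obtain ⟨L₀, hL₀max, hL₀⟩ := exists_maximalTwoLocal_ge
    (N := Subgroup.normalizer (Cfsg.pCoreOf 2 (K ⊔ T) : Set G)) ⟨_, isPGroup_pCoreOf _, hO2, rfl⟩
  have hKT : K ⊔ T ≤ L₀ := (le_normalizer_pCoreOf _).trans hL₀
  have e : L₀ = LK := uniq L₀ hL₀max (sup_le (le_sup_left.trans hKT)
    ((thompsonOf_le_self 2 T).trans (le_sup_right.trans hKT)))
  have hTLK : T ≤ LK := e ▸ le_sup_right.trans hKT
  have hLKM : ¬ LK ≤ M := fun h => hKM ((le_sup_left.trans hKJLK).trans h)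
  have hSyl := isSylowIn_of_le_local hNJ hT hLKmax.1 hLKM hTLK
  have hov := z.mem_jOvergroups hNJ hT hLKmax.1 hLKM hSyl (thompsonOf_le_self 2 T)
  exact ⟨LK, hLKmax, hKJLK, uniq, z.isSubnormal hT1 hov hK1 (le_sup_left.trans hKJLK),
    isSylowTwoIn_iff.2 hSyl⟩

end Cfsg.Agent.S2950
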