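import Cfsg.Statements.S3103
-- import your own Cfsg.Agent.* helpers here
import Cfsg.Agent.Lib.Helper14PConstr
import Cfsg.Agent.S0012
import Cfsg.Agent.S0029
import Cfsg.Agent.Lib.H69G4GL3

set_option autoImplicit false
open Cfsg

namespace Cfsg.Agent.S3103


section embed
variable (V : Type*) [CommGroup V]

/-- additive version of an automorphism, as a linear map -/
noncomputable def lin [Module (ZMod 2) (Additive V)] (φ : MulAut V) :
    Additive V →ₗ[ZMod 2] Additive V :=
  AddMonoidHom.toZModLinearMap 2 (MonoidHom.toAdditive φ.toMonoidHom)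

theorem lin_apply [Module (ZMod 2) (Additive V)] (φ : MulAut V) (m : Additive V) :
    lin V φ m = Additive.ofMul (φ m.toMul) := rfl

noncomputable def gg [Module (ZMod 2) (Additive V)] (k : ℕ) :
    MulAut V →* Module.End (ZMod 2) (Additive V × (Fin k → ZMod 2)) where
  toFun φ := LinearMap.prodMap (lin V φ) LinearMap.id
  map_one' := by
    ext x <;> simp [lin_apply]
  map_mul' φ ψ := by
    ext x <;> simp [lin_apply]

theorem embed_comm [Finite V] (h2 : ∀ v : V, v ^ 2 = 1) (hc : Nat.card V ≤ 16) :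
    ∃ f : MulAut V →* GL (Fin 4) (ZMod 2), Function.Injective f := by
  letI : Module (ZMod 2) (Additive V) := AddCommGroup.zmodModule (n := 2) (fun x => by
    have := h2 x.toMul
    apply Additive.toMul.injective
    simpa using this)
  haveI : Finite (Additive V) := inferInstanceAs (Finite V)
  have hcard : Nat.card (Additive V) = 2 ^ Module.finrank (ZMod 2) (Additive V) := by
    rw [Module.natCard_eq_pow_finrank (K := ZMod 2) (V := Additive V)]
    simp
  have hr : Module.finrank (ZMod 2) (Additive V) ≤ 4 := by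
    have h1 : Nat.card (Additive V) ≤ 2 ^ 4 := by
      have : Nat.card (Additive V) = Nat.card V := rfl
      omega
    rw [hcard] at h1
    exact (Nat.pow_le_pow_iff_right (by norm_num)).mp h1
  set r := Module.finrank (ZMod 2) (Additive V) with hrdef
  have hfr : Module.finrank (ZMod 2) (Additive V × (Fin (4 - r) → ZMod 2)) = 4 := by
    rw [Module.finrank_prod, Module.finrank_fin_fun, ← hrdef]
    omega
  let b := Module.finBasisOfFinrankEq (ZMod 2) (Additive V × (Fin (4 - r) → ZMod 2)) hfr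
  let e : (Module.End (ZMod 2) (Additive V × (Fin (4 - r) → ZMod 2)))ˣ ≃* GL (Fin 4) (ZMod 2) :=
    Units.mapEquiv (LinearMap.toMatrixAlgEquiv b).toMulEquiv
  refine ⟨e.toMonoidHom.comp (MonoidHom.toHomUnits (gg V (4 - r))), ?_⟩
  intro φ ψ h
  have h1 : MonoidHom.toHomUnits (gg V (4 - r)) φ = MonoidHom.toHomUnits (gg V (4 - r)) ψ :=
    e.injective h
  have h2 : gg V (4 - r) φ = gg V (4 - r) ψ := congrArg Units.val h1
  ext v
  have h3 := congrArg (fun L => (L (Additive.ofMul v, 0)).1) h2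
  exact h3

end embed

theorem embed (V : Type*) [Group V] [Finite V] (h2 : ∀ v : V, v ^ 2 = 1) (hc : Nat.card V ≤ 16) :
    ∃ f : MulAut V →* GL (Fin 4) (ZMod 2), Function.Injective f := by
  letI : CommGroup V := { (inferInstance : Group V) with
    mul_comm := fun a b => by
      have h1 := h2 (a * b)
      have ha := h2 a
      have hb := h2 b
      rw [pow_two] at h1 ha hb
      calc a * b = a * (a * b * (a * b)) * b := by rw [h1, mul_one]
        _ = (a * a) * (b * a) * (b * b) := by group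
        _ = b * a := by rw [ha, hb, one_mul, mul_one] }
  exact embed_comm V h2 hc



open scoped commutatorElement
open Cfsg.Agent.Lib.Helper14CoreB Cfsg.Agent.Lib.Helper14Upper2 Cfsg.Agent.Lib.Helper14PConstr

/-- automorphisms act on the quotient by a characteristic subgroup -/
noncomputable def autQuot {Q : Type*} [Group Q] (N : Subgroup Q) [hN : N.Characteristic] :
    MulAut Q →* MulAut (Q ⧸ N) where
  toFun φ := QuotientGroup.congr N N φ (Subgroup.characteristic_iff_map_eq.mp hN φ)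
  map_one' := by
    ext x
    induction x using QuotientGroup.induction_on
    rfl
  map_mul' φ ψ := by
    ext x
    induction x using QuotientGroup.induction_on
    rfl

theorem autQuot_mk {Q : Type*} [Group Q] (N : Subgroup Q) [hN : N.Characteristic] (φ : MulAut Q)
    (x : Q) : autQuot N φ (x : Q ⧸ N) = ((φ x : Q) : Q ⧸ N) := rfl

theorem cent_le {X : Type*} [Group X] [Finite X] (hc : Cfsg.IsPConstrained 2 X)
    (hO : Cfsg.oddCore X = ⊥) :
    Subgroup.centralizer (pCore 2 X : Set X) ≤ pCore 2 X := by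
  haveI : Fact (Nat.Prime 2) := ⟨Nat.prime_two⟩
  have h1 := isPConstrained_iff.mp hc
  have hO' : pPrimeCore 2 X = ⊥ := hO
  exact centralizer_pCore_le_of_equiv 2
    ((QuotientGroup.quotientMulEquivOfEq hO').trans QuotientGroup.quotientBot) h1

/-- the action of `X` on the Frattini quotient of `O_2(X)` -/
noncomputable def rho (X : Type*) [Group X] :
    X →* MulAut (↥(pCore 2 X) ⧸ frattini ↥(pCore 2 X)) :=
  (autQuot (frattini ↥(pCore 2 X))).comp (MulAut.conjNormal (H := pCore 2 X))

theorem rho_mk (X : Type*) [Group X] (x : X) (k : ↥(pCore 2 X)) :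
    rho X x (k : ↥(pCore 2 X) ⧸ frattini ↥(pCore 2 X)) =
      ((MulAut.conjNormal x k : ↥(pCore 2 X)) : ↥(pCore 2 X) ⧸ frattini ↥(pCore 2 X)) := rfl

theorem ker_rho {X : Type*} [Group X] [Finite X] (hc : Cfsg.IsPConstrained 2 X)
    (hO : Cfsg.oddCore X = ⊥) : (rho X).ker = pCore 2 X := by
  haveI : Fact (Nat.Prime 2) := ⟨Nat.prime_two⟩
  have hQ : IsPGroup 2 ↥(pCore 2 X) := pCore_isPGroup 2
  obtain ⟨hcomm, hsq⟩ := Cfsg.Agent.S0012.result 2 hQ
  apply le_antisymm
  · apply le_pCore inferInstance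
    -- the kernel is a 2-group
    intro ⟨x, hx⟩
    obtain ⟨a, m, hm, hxm⟩ := Nat.exists_eq_two_pow_mul_odd (n := orderOf x) (orderOf_pos x).ne'
    set y := x ^ (2 ^ a) with hy
    have hyK : y ∈ (rho X).ker := Subgroup.pow_mem _ hx _
    have hyo : orderOf y = m := by
      rw [hy, orderOf_pow' x (by positivity), hxm, Nat.gcd_eq_right (Dvd.intro _ rfl)]
      exact Nat.mul_div_cancel_left m (by positivity)
    have hA : Subgroup.zpowers y ≤ Subgroup.centralizer ((pCore 2 X : Subgroup X) : Set X) := by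
      apply Cfsg.Agent.S0029.result (Subgroup.zpowers y) (pCore 2 X)
      · rw [Subgroup.normalizer_eq_top]; exact le_top
      · rw [Nat.card_zpowers, hyo]
        obtain ⟨k, hk⟩ := (hQ.to_subgroup (frattini ↥(pCore 2 X))).exists_card_eq
        rw [hk]
        exact Nat.Coprime.pow_right k (Nat.coprime_two_right.mpr hm)
      · intro b hb k hk
        have hbK : b ∈ (rho X).ker := (Subgroup.zpowers_le.mpr hyK) hb
        have h1 : rho X b ((⟨k, hk⟩ : ↥(pCore 2 X)) : ↥(pCore 2 X) ⧸ frattini ↥(pCore 2 X)) =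
            ((⟨k, hk⟩ : ↥(pCore 2 X)) : ↥(pCore 2 X) ⧸ frattini ↥(pCore 2 X)) := by
          rw [MonoidHom.mem_ker.mp hbK]; rfl
        rw [rho_mk, QuotientGroup.eq_iff_div_mem] at h1
        refine ⟨_, h1, ?_⟩
        simp [div_eq_mul_inv]
    have hyQ : y ∈ pCore 2 X := cent_le hc hO (hA (Subgroup.mem_zpowers y))
    obtain ⟨k, hk⟩ := hQ ⟨y, hyQ⟩
    have hk' : y ^ 2 ^ k = 1 := by simpa using congrArg Subtype.val hk
    have h1 : m ∣ 2 ^ k := hyo ▸ orderOf_dvd_of_pow_eq_one hk'
    have h2 : m = 1 := by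
      have : Nat.Coprime m (2 ^ k) := Nat.Coprime.pow_right k (Nat.coprime_two_right.mpr hm)
      exact Nat.Coprime.eq_one_of_dvd this h1
    refine ⟨a, ?_⟩
    have h3 : y = 1 := by rw [← orderOf_eq_one_iff, hyo, h2]
    ext
    simpa using h3
  · intro q hq
    rw [MonoidHom.mem_ker]
    ext v
    induction v using QuotientGroup.induction_on with
    | H k =>
      rw [rho_mk]
      change _ = (k : ↥(pCore 2 X) ⧸ frattini ↥(pCore 2 X))
      rw [QuotientGroup.eq_iff_div_mem]
      apply hcomm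
      have : (MulAut.conjNormal q k : ↥(pCore 2 X)) / k = ⁅(⟨q, hq⟩ : ↥(pCore 2 X)), k⁆ := by
        ext
        simp [commutatorElement_def, div_eq_mul_inv]
      rw [this]
      exact Subgroup.commutator_mem_commutator (Subgroup.mem_top _) (Subgroup.mem_top _)


theorem card_le {X : Type*} [Group X] [Finite X]
    (h4 : Cfsg.SectionalPRankLE 2 4 ↥(Cfsg.pCore 2 X)) :
    (∀ v : ↥(pCore 2 X) ⧸ frattini ↥(pCore 2 X), v ^ 2 = 1) ∧
      Nat.card (↥(pCore 2 X) ⧸ frattini ↥(pCore 2 X)) ≤ 16 := by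
  haveI : Fact (Nat.Prime 2) := ⟨Nat.prime_two⟩
  have hQ : IsPGroup 2 ↥(pCore 2 X) := pCore_isPGroup 2
  obtain ⟨hcomm, hsq⟩ := Cfsg.Agent.S0012.result 2 hQ
  have hsq' : ∀ v : ↥(pCore 2 X) ⧸ frattini ↥(pCore 2 X), v ^ 2 = 1 := by
    intro v
    induction v using QuotientGroup.induction_on with
    | H k =>
      rw [← QuotientGroup.mk_pow]
      exact (QuotientGroup.eq_one_iff _).mpr (hsq k)
  refine ⟨hsq', ?_⟩
  have hmap : ((frattini ↥(pCore 2 X)).subgroupOf ⊤).map
      (Subgroup.topEquiv : (⊤ : Subgroup ↥(pCore 2 X)) ≃* ↥(pCore 2 X)).toMonoidHom =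
        frattini ↥(pCore 2 X) := by
    ext x
    constructor
    · rintro ⟨y, hy, rfl⟩
      exact hy
    · intro hx
      exact ⟨⟨x, Subgroup.mem_top x⟩, hx, rfl⟩
  let e : (↥(⊤ : Subgroup ↥(pCore 2 X)) ⧸ (frattini ↥(pCore 2 X)).subgroupOf ⊤) ≃*
      (↥(pCore 2 X) ⧸ frattini ↥(pCore 2 X)) :=
    QuotientGroup.congr _ _ Subgroup.topEquiv hmap
  have hsq2 : ∀ w : (↥(⊤ : Subgroup ↥(pCore 2 X)) ⧸ (frattini ↥(pCore 2 X)).subgroupOf ⊤),
      w ^ 2 = 1 := by
    intro w
    apply e.injective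
    rw [map_pow, map_one]
    exact hsq' _
  have hcm : ∀ a b : (↥(⊤ : Subgroup ↥(pCore 2 X)) ⧸ (frattini ↥(pCore 2 X)).subgroupOf ⊤),
      a * b = b * a := by
    intro a b
    have h1 := hsq2 (a * b)
    have ha := hsq2 a
    have hb := hsq2 b
    rw [pow_two] at h1 ha hb
    calc a * b = a * (a * b * (a * b)) * b := by rw [h1, mul_one]
      _ = (a * a) * (b * a) * (b * b) := by group
      _ = b * a := by rw [ha, hb, one_mul, mul_one]
  have h5 := h4 ⊤ ((frattini ↥(pCore 2 X)).subgroupOf ⊤) ⊤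
    ⟨⟨fun a b => Subtype.ext (hcm a b)⟩⟩ (fun a _ => hsq2 a)
  rw [Subgroup.card_top, Nat.card_congr e.toEquiv] at h5
  norm_num at h5
  exact h5



/-- Let X be a finite 2-constrained group with no nontrivial normal subgroup of odd order such that O₂(X) has sectional 2-rank at most 4. Then X/O₂(X) is isomorphic to a subgroup of the alternating group of degree 8. -/
theorem result {X : Type*} [Group X] [Finite X] (hc : Cfsg.IsPConstrained 2 X) (hO : Cfsg.oddCore X = ⊥)
    (h4 : Cfsg.SectionalPRankLE 2 4 ↥(Cfsg.pCore 2 X)) :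
    ∃ f : X ⧸ Cfsg.pCore 2 X →* ↥(alternatingGroup (Fin 8)), Function.Injective f := by
  obtain ⟨hsq, hcard⟩ := card_le h4
  obtain ⟨f, hf⟩ := embed _ hsq hcard
  obtain ⟨e⟩ := Cfsg.Agent.Lib.H69G4GL3.gl4_equiv
  have hker : (rho X).ker = pCore 2 X := ker_rho hc hO
  let i : X ⧸ Cfsg.pCore 2 X ≃* X ⧸ (rho X).ker := QuotientGroup.quotientMulEquivOfEq hker.symm
  refine ⟨(e.toMonoidHom.comp f).comp ((QuotientGroup.kerLift (rho X)).comp i.toMonoidHom), ?_⟩
  intro a b hab
  apply i.injective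
  apply QuotientGroup.kerLift_injective (rho X)
  apply hf
  apply e.injective
  exact hab

end Cfsg.Agent.S3103
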