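import Cfsg.Statements.S3356
import Mathlib

set_option autoImplicit false
open Cfsg

namespace Cfsg.Agent.S3356

theorem card_dvd_of_stabilizer_card {B X : Type*} [Group B] [MulAction B X] [Finite B] [Finite X]
    (k : ℕ) (hk : ∀ x : X, Nat.card (MulAction.stabilizer B x) = k) :
    Nat.card B ∣ k * Nat.card X := by
  classical
  have : Fintype (Quotient (MulAction.orbitRel B X)) := Fintype.ofFinite _
  rw [Nat.card_congr (MulAction.selfEquivSigmaOrbitsQuotientStabilizer B X), Nat.card_sigma,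
    Finset.mul_sum]
  apply Finset.dvd_sum
  intro ω _
  have := Subgroup.card_mul_index (MulAction.stabilizer B ω.out)
  rw [hk] at this
  change Nat.card B ∣ k * (MulAction.stabilizer B ω.out).index
  rw [this]

variable {G : Type*} [Group G]

/-- conjugation action of a subgroup on an invariant subset -/
@[reducible] def conjAction (B : Subgroup G) (X : Set G)
    (hX : ∀ h ∈ B, ∀ y ∈ X, h * y * h⁻¹ ∈ X) : MulAction B X where
  smul h y := ⟨h * y * h⁻¹, hX h h.2 y y.2⟩
  one_smul y := by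
    apply Subtype.ext
    change ((1 : B) : G) * y * ((1 : B) : G)⁻¹ = y
    simp
  mul_smul h h' y := by
    apply Subtype.ext
    change ((h * h' : B) : G) * y * ((h * h' : B) : G)⁻¹ = h * (h' * y * (h' : G)⁻¹) * (h : G)⁻¹
    simp [mul_assoc]

theorem card_dvd_conj [Finite G] (B : Subgroup G) (X : Set G)
    (hX : ∀ h ∈ B, ∀ y ∈ X, h * y * h⁻¹ ∈ X) (k : ℕ)
    (hk : ∀ y ∈ X, Nat.card (B ⊓ Subgroup.centralizer {y} : Subgroup G) = k) :
    Nat.card B ∣ k * Nat.card X := by
  let _ := conjAction B X hX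
  apply card_dvd_of_stabilizer_card
  intro y
  rw [← hk y y.2, ← Subgroup.card_map_of_injective B.subtype_injective]
  congr 2
  ext g
  simp only [Subgroup.mem_map, MulAction.mem_stabilizer_iff, Subgroup.mem_inf,
    Subgroup.mem_centralizer_singleton_iff, Subgroup.subtype_apply]
  constructor
  · rintro ⟨h, hh, rfl⟩
    refine ⟨h.2, ?_⟩
    have h1 : (h : G) * y * (h : G)⁻¹ = y := congrArg Subtype.val hh
    calc (h : G) * y = ((h : G) * y * (h : G)⁻¹) * h := by group
      _ = y * h := by rw [h1]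
  · rintro ⟨hg, hc⟩
    refine ⟨⟨g, hg⟩, ?_, rfl⟩
    apply Subtype.ext
    change g * y * g⁻¹ = y
    rw [hc, mul_inv_cancel_right]

/-- `C_A(n)` -/
abbrev CA (A : Subgroup G) (n : G) : Subgroup G := A ⊓ Subgroup.centralizer {n}

theorem mem_CA {A : Subgroup G} {n h : G} : h ∈ CA A n ↔ h ∈ A ∧ h * n = n * h := by
  rw [Subgroup.mem_inf, Subgroup.mem_centralizer_singleton_iff]

/-- the standing hypotheses -/
def Hyp (N A : Subgroup G) (k : ℕ) : Prop :=
  (∀ h ∈ A, (∀ n ∈ N, h * n = n * h) → h = 1) ∧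
  (∀ n ∈ N, n ≠ 1 → Nat.card (CA A n) = k) ∧ 1 < k

theorem card_ne_one_set [Finite G] (N : Subgroup G) :
    Nat.card ({n | n ∈ N ∧ n ≠ 1} : Set G) + 1 = Nat.card N := by
  classical
  have h1 : ({n | n ∈ N ∧ n ≠ 1} : Set G) = (N : Set G) \ {1} := by
    ext n; simp
  rw [h1, Nat.card_coe_set_eq, Set.ncard_sdiff_singleton_add_one N.one_mem (Set.toFinite _)]
  rfl

theorem lemmaU [Finite G] {N A : Subgroup G} [hN : N.Normal] {k : ℕ} (H : Hyp N A k)
    (X : Set G) (hXN : ∀ y ∈ X, y ∈ N ∧ y ≠ 1) (hcard : Nat.card X ∣ Nat.card N)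
    (hstab : ∀ y ∈ X, CA A y ≤ Subgroup.normalizer X) {y : G} (hy : y ∈ X) :
    CA A y = A ⊓ Subgroup.normalizer X := by
  obtain ⟨-, hk, hk1⟩ := H
  have hle : ∀ y ∈ X, CA A y ≤ A ⊓ Subgroup.normalizer X := fun y hy =>
    le_inf inf_le_left (hstab y hy)
  have h1 : Nat.card (A ⊓ Subgroup.normalizer X : Subgroup G) ∣ k * Nat.card X := by
    apply card_dvd_conj
    · intro h hh z hz
      exact (Subgroup.mem_set_normalizer_iff.1 hh.2 z).1 hz
    · intro z hz
      rw [← hk z (hXN z hz).1 (hXN z hz).2]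
      congr 2
      apply le_antisymm
      · exact le_inf (inf_le_left.trans inf_le_left) inf_le_right
      · exact le_inf (hle z hz) inf_le_right
  have h2 : Nat.card A ∣ k * Nat.card ({n | n ∈ N ∧ n ≠ 1} : Set G) := by
    apply card_dvd_conj
    · intro h _ z hz
      refine ⟨hN.conj_mem z hz.1 h, ?_⟩
      intro h3
      apply hz.2
      calc z = h⁻¹ * (h * z * h⁻¹) * h := by group
        _ = 1 := by rw [h3]; group
    · intro z hz
      exact hk z hz.1 hz.2
  have h3 : k ∣ Nat.card (A ⊓ Subgroup.normalizer X : Subgroup G) := by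
    rw [← hk y (hXN y hy).1 (hXN y hy).2]
    exact Subgroup.card_dvd_of_le (hle y hy)
  obtain ⟨d, hd⟩ := h3
  have hk0 : 0 < k := by omega
  have h4 : d ∣ Nat.card N := by
    rw [hd] at h1
    exact (Nat.dvd_of_mul_dvd_mul_left hk0 h1).trans hcard
  have h5 : d ∣ Nat.card ({n | n ∈ N ∧ n ≠ 1} : Set G) := by
    have : Nat.card (A ⊓ Subgroup.normalizer X : Subgroup G) ∣ Nat.card A :=
      Subgroup.card_dvd_of_le inf_le_left
    rw [hd] at this
    exact Nat.dvd_of_mul_dvd_mul_left hk0 (this.trans h2)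
  have h6 : d = 1 := by
    rw [← card_ne_one_set N] at h4
    exact Nat.dvd_one.1 ((Nat.dvd_add_right h5).1 h4)
  apply Subgroup.eq_of_le_of_card_ge (hle y hy)
  rw [hd, h6, mul_one, hk y (hXN y hy).1 (hXN y hy).2]

theorem CA_eq_of_le [Finite G] {N A : Subgroup G} {k : ℕ} (H : Hyp N A k) {x y : G}
    (hx : x ∈ N) (hx1 : x ≠ 1) (hy : y ∈ N) (hy1 : y ≠ 1) (hle : CA A x ≤ CA A y) :
    CA A x = CA A y := by
  apply Subgroup.eq_of_le_of_card_ge hle
  rw [H.2.1 x hx hx1, H.2.1 y hy hy1]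

/-- no proper nontrivial invariant subgroups -/
theorem partA [Finite G] {N A : Subgroup G} [hN : N.Normal] {k : ℕ} (H : Hyp N A k)
    (K : Subgroup G) (hKN : K ≤ N) (hinv : ∀ h ∈ A, ∀ η ∈ K, h * η * h⁻¹ ∈ K) (hK : K ≠ ⊥) :
    K = N := by
  by_contra hne
  have hex : ∃ x ∈ N, x ∉ K := by
    by_contra hcon
    push Not at hcon
    exact hne (le_antisymm hKN hcon)
  obtain ⟨x₀, hx₀N, hx₀K⟩ := hex
  obtain ⟨η₀, hη₀K, hη₀1⟩ : ∃ η₀ ∈ K, η₀ ≠ 1 := by
    obtain ⟨a, ha⟩ := Subgroup.ne_bot_iff_exists_ne_one.1 hK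
    exact ⟨(a : G), a.2, fun h => ha (Subtype.ext h)⟩
  have key : ∀ x ∈ N, x ∉ K → ∀ η ∈ K, η ≠ 1 → CA A x = CA A η := by
    intro x hxN hxK η hηK hη1
    have hx1 : x ≠ 1 := fun h => hxK (h ▸ K.one_mem)
    let X : Set G := {g | x⁻¹ * g ∈ K}
    have hXN : ∀ y ∈ X, y ∈ N ∧ y ≠ 1 := by
      intro y hy
      constructor
      · have : x * (x⁻¹ * y) ∈ N := N.mul_mem hxN (hKN hy)
        rwa [mul_inv_cancel_left] at this
      · rintro rfl
        apply hxK
        have : x⁻¹ * 1 ∈ K := hy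
        rw [mul_one] at this
        exact K.inv_mem_iff.1 this
    have hcard : Nat.card X ∣ Nat.card N := by
      have e : K ≃ X :=
        { toFun := fun η => ⟨x * η, by change x⁻¹ * (x * η) ∈ K; rw [inv_mul_cancel_left]; exact η.2⟩
          invFun := fun g => ⟨x⁻¹ * g, g.2⟩
          left_inv := fun η => by apply Subtype.ext; simp
          right_inv := fun g => by apply Subtype.ext; simp }
      rw [← Nat.card_congr e]
      exact Subgroup.card_dvd_of_le hKN
    have hstab : ∀ y ∈ X, CA A y ≤ Subgroup.normalizer X := by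
      intro y hy h hh
      obtain ⟨hhA, hhy⟩ := mem_CA.1 hh
      have hXy : ∀ g, g ∈ X ↔ y⁻¹ * g ∈ K := by
        intro g
        have e : y⁻¹ * g = (x⁻¹ * y)⁻¹ * (x⁻¹ * g) := by group
        rw [e]
        exact (K.mul_mem_cancel_left (K.inv_mem hy)).symm
      rw [Subgroup.mem_set_normalizer_iff]
      intro g
      rw [hXy, hXy]
      have e : y⁻¹ * (h * g * h⁻¹) = h * (y⁻¹ * g) * h⁻¹ := by
        have : y⁻¹ * h = h * y⁻¹ := by
          calc y⁻¹ * h = y⁻¹ * (h * y) * y⁻¹ := by group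
            _ = y⁻¹ * (y * h) * y⁻¹ := by rw [hhy]
            _ = h * y⁻¹ := by group
        calc y⁻¹ * (h * g * h⁻¹) = (y⁻¹ * h) * g * h⁻¹ := by group
          _ = (h * y⁻¹) * g * h⁻¹ := by rw [this]
          _ = h * (y⁻¹ * g) * h⁻¹ := by group
      rw [e]
      constructor
      · exact hinv h hhA _
      · intro h3
        have := hinv h⁻¹ (A.inv_mem hhA) _ h3
        have e2 : h⁻¹ * (h * (y⁻¹ * g) * h⁻¹) * h⁻¹⁻¹ = y⁻¹ * g := by group
        rwa [e2] at this
    have hxX : x ∈ X := by change x⁻¹ * x ∈ K; rw [inv_mul_cancel]; exact K.one_mem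
    have hxηX : x * η ∈ X := by change x⁻¹ * (x * η) ∈ K; rw [inv_mul_cancel_left]; exact hηK
    have e1 := lemmaU H X hXN hcard hstab hxX
    have e2 := lemmaU H X hXN hcard hstab hxηX
    apply CA_eq_of_le H hxN hx1 (hKN hηK) hη1
    intro h hh
    have h1 := mem_CA.1 hh
    have h2 : h ∈ CA A (x * η) := by rw [e2, ← e1]; exact hh
    have h3 := (mem_CA.1 h2).2
    refine mem_CA.2 ⟨h1.1, ?_⟩
    calc h * η = x⁻¹ * (x * h) * η := by group
      _ = x⁻¹ * (h * x) * η := by rw [h1.2]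
      _ = x⁻¹ * (h * (x * η)) := by group
      _ = x⁻¹ * ((x * η) * h) := by rw [h3]
      _ = η * h := by group
  -- all point stabilizers coincide
  have hall : ∀ n ∈ N, n ≠ 1 → CA A n = CA A η₀ := by
    intro n hn hn1
    by_cases hnK : n ∈ K
    · rw [← key x₀ hx₀N hx₀K n hnK hn1, key x₀ hx₀N hx₀K η₀ hη₀K hη₀1]
    · exact key n hn hnK η₀ hη₀K hη₀1
  have hbot : CA A η₀ = ⊥ := by
    rw [eq_bot_iff]
    intro h hh
    rw [Subgroup.mem_bot]
    apply H.1 h (mem_CA.1 hh).1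
    intro n hn
    by_cases hn1 : n = 1
    · rw [hn1]; simp
    · have : h ∈ CA A n := by rw [hall n hn hn1]; exact hh
      exact (mem_CA.1 this).2
  have := H.2.1 η₀ (hKN hη₀K) hη₀1
  rw [hbot, Subgroup.card_bot] at this
  have := H.2.2
  omega

@[reducible] def conjActionG (B : Subgroup G) : MulAction B G where
  smul h y := h * y * (h : G)⁻¹
  one_smul y := by
    change ((1 : B) : G) * y * ((1 : B) : G)⁻¹ = y
    simp
  mul_smul h h' y := by
    change ((h * h' : B) : G) * y * ((h * h' : B) : G)⁻¹ = h * (h' * y * (h' : G)⁻¹) * (h : G)⁻¹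
    simp [mul_assoc]

theorem card_class_dvd [Finite G] (B : Subgroup G) (x : G) :
    Nat.card (Set.range (fun n : B => (n : G) * x * (n : G)⁻¹)) ∣ Nat.card B := by
  let _ := conjActionG B
  have h1 : (MulAction.stabilizer B x).index = (MulAction.orbit B x).ncard :=
    MulAction.index_stabilizer B x
  have h2 : MulAction.orbit B x = Set.range (fun n : B => (n : G) * x * (n : G)⁻¹) := rfl
  rw [Nat.card_coe_set_eq, ← h2, ← h1]
  exact Subgroup.index_dvd_card _

theorem CA_conj [Finite G] {N A : Subgroup G} [hN : N.Normal] {k : ℕ} (H : Hyp N A k)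
    {x : G} (hx : x ∈ N) (hx1 : x ≠ 1) {n : G} (hn : n ∈ N) :
    CA A (n * x * n⁻¹) = CA A x := by
  let X : Set G := Set.range (fun n : N => (n : G) * x * (n : G)⁻¹)
  have hXN : ∀ y ∈ X, y ∈ N ∧ y ≠ 1 := by
    rintro _ ⟨m, rfl⟩
    refine ⟨hN.conj_mem x hx m, ?_⟩
    intro h3
    have h3' : (m : G) * x * (m : G)⁻¹ = 1 := h3
    apply hx1
    calc x = (m : G)⁻¹ * ((m : G) * x * (m : G)⁻¹) * m := by group
      _ = 1 := by rw [h3']; group
  have hstab : ∀ y ∈ X, CA A y ≤ Subgroup.normalizer X := by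
    rintro _ ⟨m, rfl⟩ h hh
    obtain ⟨-, hhy⟩ := mem_CA.1 hh
    have hconj : ∀ h : G, h * ((m : G) * x * (m : G)⁻¹) = ((m : G) * x * (m : G)⁻¹) * h →
        ∀ g ∈ X, h * g * h⁻¹ ∈ X := by
      rintro h hhy _ ⟨m', rfl⟩
      refine ⟨⟨h * (m' * (m : G)⁻¹) * h⁻¹ * m, N.mul_mem (hN.conj_mem _
        (N.mul_mem m'.2 (N.inv_mem m.2)) h) m.2⟩, ?_⟩
      change h * (m' * (m : G)⁻¹) * h⁻¹ * m * x * (h * (m' * (m : G)⁻¹) * h⁻¹ * m)⁻¹ = _
      calc h * (m' * (m : G)⁻¹) * h⁻¹ * m * x * (h * (m' * (m : G)⁻¹) * h⁻¹ * m)⁻¹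
          = h * (m' * (m : G)⁻¹) * (h⁻¹ * (((m : G) * x * (m : G)⁻¹) * h)) * (m * (m' : G)⁻¹) * h⁻¹ := by
            group
        _ = h * (m' * (m : G)⁻¹) * (h⁻¹ * (h * ((m : G) * x * (m : G)⁻¹))) * (m * (m' : G)⁻¹) * h⁻¹ := by
            rw [hhy]
        _ = h * ((m' : G) * x * (m' : G)⁻¹) * h⁻¹ := by group
    rw [Subgroup.mem_set_normalizer_iff]
    intro g
    constructor
    · exact hconj h hhy g
    · intro h3
      have hhy' : h⁻¹ * ((m : G) * x * (m : G)⁻¹) = ((m : G) * x * (m : G)⁻¹) * h⁻¹ := by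
        calc h⁻¹ * ((m : G) * x * (m : G)⁻¹) = h⁻¹ * (((m : G) * x * (m : G)⁻¹) * h) * h⁻¹ := by group
          _ = h⁻¹ * (h * ((m : G) * x * (m : G)⁻¹)) * h⁻¹ := by rw [hhy]
          _ = ((m : G) * x * (m : G)⁻¹) * h⁻¹ := by group
      have := hconj h⁻¹ hhy' _ h3
      have e2 : h⁻¹ * (h * g * h⁻¹) * h⁻¹⁻¹ = g := by group
      rwa [e2] at this
  have hcard : Nat.card X ∣ Nat.card N := card_class_dvd N x
  have h1 : x ∈ X := ⟨1, by simp⟩
  have h2 : n * x * n⁻¹ ∈ X := ⟨⟨n, hn⟩, rfl⟩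
  rw [lemmaU H X hXN hcard hstab h1, lemmaU H X hXN hcard hstab h2]

theorem CA_inv (A : Subgroup G) (x : G) : CA A x⁻¹ = CA A x := by
  ext h
  rw [mem_CA, mem_CA]
  constructor
  · rintro ⟨h1, h2⟩
    refine ⟨h1, ?_⟩
    calc h * x = x * (x⁻¹ * h) * x := by group
      _ = x * (h * x⁻¹) * x := by rw [h2]
      _ = x * h := by group
  · rintro ⟨h1, h2⟩
    refine ⟨h1, ?_⟩
    calc h * x⁻¹ = x⁻¹ * (x * h) * x⁻¹ := by group
      _ = x⁻¹ * (h * x) * x⁻¹ := by rw [h2]
      _ = x⁻¹ * h := by group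

theorem commute_of_CA_ne [Finite G] {N A : Subgroup G} [hN : N.Normal] {k : ℕ} (H : Hyp N A k)
    {x y : G} (hx : x ∈ N) (hx1 : x ≠ 1) (hy : y ∈ N) (hy1 : y ≠ 1) (hne : CA A x ≠ CA A y) :
    x * y = y * x := by
  by_contra hc
  have hcN : x * y * x⁻¹ * y⁻¹ ∈ N := N.mul_mem (N.mul_mem (N.mul_mem hx hy) (N.inv_mem hx))
    (N.inv_mem hy)
  have hc1 : x * y * x⁻¹ * y⁻¹ ≠ 1 := by
    intro h
    apply hc
    calc x * y = (x * y * x⁻¹ * y⁻¹) * (y * x) := by group
      _ = y * x := by rw [h, one_mul]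
  have e1 : CA A x = CA A (x * y * x⁻¹ * y⁻¹) := by
    apply CA_eq_of_le H hx hx1 hcN hc1
    intro h hh
    have h1 := mem_CA.1 hh
    have h2 : h ∈ CA A (y * x⁻¹ * y⁻¹) := by
      rw [CA_conj H (N.inv_mem hx) (inv_ne_one.2 hx1) hy, CA_inv]; exact hh
    have h3 := (mem_CA.1 h2).2
    refine mem_CA.2 ⟨h1.1, ?_⟩
    calc h * (x * y * x⁻¹ * y⁻¹) = (h * x) * (y * x⁻¹ * y⁻¹) := by group
      _ = x * (h * (y * x⁻¹ * y⁻¹)) := by rw [h1.2]; group
      _ = x * ((y * x⁻¹ * y⁻¹) * h) := by rw [h3]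
      _ = x * y * x⁻¹ * y⁻¹ * h := by group
  have e2 : CA A y = CA A (x * y * x⁻¹ * y⁻¹) := by
    apply CA_eq_of_le H hy hy1 hcN hc1
    intro h hh
    have h1 : h ∈ CA A y⁻¹ := by rw [CA_inv]; exact hh
    have h1' := mem_CA.1 h1
    have h2 : h ∈ CA A (x * y * x⁻¹) := by
      rw [CA_conj H hy hy1 hx]; exact hh
    have h3 := (mem_CA.1 h2).2
    refine mem_CA.2 ⟨h1'.1, ?_⟩
    calc h * (x * y * x⁻¹ * y⁻¹) = (h * (x * y * x⁻¹)) * y⁻¹ := by group
      _ = (x * y * x⁻¹) * (h * y⁻¹) := by rw [h3]; group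
      _ = (x * y * x⁻¹) * (y⁻¹ * h) := by rw [h1'.2]
      _ = x * y * x⁻¹ * y⁻¹ * h := by group
  exact hne (e1.trans e2.symm)

theorem partB [Finite G] {N A : Subgroup G} [hN : N.Normal] {k : ℕ} (H : Hyp N A k)
    {x y : G} (hx : x ∈ N) (hy : y ∈ N) : x * y = y * x := by
  by_cases hx1 : x = 1
  · rw [hx1]; simp
  by_cases hy1 : y = 1
  · rw [hy1]; simp
  by_cases hne : CA A x = CA A y
  · -- find `h ≠ 1` in the common stabilizer
    have hnb : CA A x ≠ ⊥ := by
      intro hb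
      have := H.2.1 x hx hx1
      rw [hb, Subgroup.card_bot] at this
      have := H.2.2
      omega
    obtain ⟨a, ha⟩ := Subgroup.ne_bot_iff_exists_ne_one.1 hnb
    have haA := (mem_CA.1 a.2).1
    have ha1 : (a : G) ≠ 1 := fun h => ha (Subtype.ext h)
    have hex : ∃ w ∈ N, (a : G) * w ≠ w * a := by
      by_contra hcon
      push Not at hcon
      exact ha1 (H.1 a haA hcon)
    obtain ⟨w, hwN, hw⟩ := hex
    have hw1 : w ≠ 1 := by rintro rfl; simp at hw
    have hwx : CA A w ≠ CA A x := by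
      intro h
      apply hw
      have : (a : G) ∈ CA A w := by rw [h]; exact a.2
      exact (mem_CA.1 this).2
    have hay : (a : G) * y = y * a := by
      have : (a : G) ∈ CA A y := by rw [← hne]; exact a.2
      exact (mem_CA.1 this).2
    have hwy : (a : G) * (w * y) ≠ (w * y) * a := by
      intro h
      apply hw
      calc (a : G) * w = (a * (w * y)) * y⁻¹ := by group
        _ = (w * y * a) * y⁻¹ := by rw [h]
        _ = w * (y * a) * y⁻¹ := by group
        _ = w * (a * y) * y⁻¹ := by rw [hay]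
        _ = w * a := by group
    have hwy1 : w * y ≠ 1 := by
      intro h
      rw [h] at hwy
      simp at hwy
    have hwyx : CA A (w * y) ≠ CA A x := by
      intro h
      apply hwy
      have : (a : G) ∈ CA A (w * y) := by rw [h]; exact a.2
      exact (mem_CA.1 this).2
    have c1 := commute_of_CA_ne H hwN hw1 hx hx1 hwx
    have c2 := commute_of_CA_ne H (N.mul_mem hwN hy) hwy1 hx hx1 hwyx
    calc x * y = w⁻¹ * (w * x) * y := by group
      _ = w⁻¹ * (x * w) * y := by rw [c1]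
      _ = w⁻¹ * (x * (w * y)) := by group
      _ = w⁻¹ * ((w * y) * x) := by rw [c2]
      _ = y * x := by group
  · exact commute_of_CA_ne H hx hx1 hy hy1 hne

theorem partC [Finite G] {N A : Subgroup G} [hN : N.Normal] {k : ℕ} (H : Hyp N A k)
    (hNb : N ≠ ⊥) : ∃ p : ℕ, p.Prime ∧ ∀ x ∈ N, x ^ p = 1 := by
  have hcard : Nat.card N ≠ 1 := by
    intro h
    exact hNb (Subgroup.card_eq_one.1 h)
  have hp : (Nat.card N).minFac.Prime := Nat.minFac_prime hcard
  obtain ⟨p, hpdef⟩ : ∃ p, p = (Nat.card N).minFac := ⟨_, rfl⟩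
  rw [← hpdef] at hp
  have : Fact p.Prime := ⟨hp⟩
  obtain ⟨x, hx⟩ := exists_prime_orderOf_dvd_card' (G := N) p (hpdef ▸ Nat.minFac_dvd _)
  let K : Subgroup G :=
    { carrier := {n | n ∈ N ∧ n ^ p = 1}
      mul_mem' := by
        rintro u v ⟨hu, hu1⟩ ⟨hv, hv1⟩
        refine ⟨N.mul_mem hu hv, ?_⟩
        have hc : Commute u v := partB H hu hv
        rw [hc.mul_pow, hu1, hv1, one_mul]
      one_mem' := ⟨N.one_mem, one_pow _⟩
      inv_mem' := by
        rintro u ⟨hu, hu1⟩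
        exact ⟨N.inv_mem hu, by rw [inv_pow, hu1, inv_one]⟩ }
  have hK : K = N := by
    apply partA H K (fun _ h => h.1)
    · rintro h _ η ⟨hη, hη1⟩
      refine ⟨hN.conj_mem η hη h, ?_⟩
      rw [conj_pow, hη1, mul_one, mul_inv_cancel]
    · intro hb
      have hxK : (x : G) ∈ K := by
        refine ⟨x.2, ?_⟩
        have := pow_orderOf_eq_one x
        rw [hx] at this
        exact_mod_cast congrArg Subtype.val this
      rw [hb, Subgroup.mem_bot] at hxK
      have : x = 1 := Subtype.ext hxK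
      rw [this, orderOf_one] at hx
      exact hp.one_lt.ne hx
  refine ⟨p, hp, fun y hy => ?_⟩
  have : y ∈ K := hK ▸ hy
  exact this.2

theorem partD [Finite G] {N A : Subgroup G} [hN : N.Normal] {k : ℕ} (H : Hyp N A k)
    (hNA : ∀ g : G, ∃ n ∈ N, ∃ a ∈ A, g = n * a)
    (M : Subgroup G) (hM : M.Normal) (hMb : M ≠ ⊥) : N ≤ M := by
  by_cases hb : M ⊓ N = ⊥
  · exfalso
    have hcomm : ∀ m ∈ M, ∀ n ∈ N, m * n = n * m := by
      intro m hm n hn
      have h1 : m * n * m⁻¹ * n⁻¹ ∈ M ⊓ N := by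
        refine ⟨?_, N.mul_mem (hN.conj_mem n hn m) (N.inv_mem hn)⟩
        have := M.mul_mem hm (hM.conj_mem m⁻¹ (M.inv_mem hm) n)
        have e : m * (n * m⁻¹ * n⁻¹) = m * n * m⁻¹ * n⁻¹ := by group
        rwa [e] at this
      rw [hb, Subgroup.mem_bot] at h1
      calc m * n = (m * n * m⁻¹ * n⁻¹) * (n * m) := by group
        _ = n * m := by rw [h1, one_mul]
    obtain ⟨m, hm, hm1⟩ : ∃ m ∈ M, m ≠ 1 := by
      obtain ⟨a, ha⟩ := Subgroup.ne_bot_iff_exists_ne_one.1 hMb
      exact ⟨(a : G), a.2, fun h => ha (Subtype.ext h)⟩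
    obtain ⟨n, hn, a, ha, rfl⟩ := hNA m
    have ha1 : a = 1 := by
      apply H.1 a ha
      intro n' hn'
      have c1 := hcomm _ hm n' hn'
      have c2 := partB H hn hn'
      calc a * n' = n⁻¹ * ((n * a) * n') := by group
        _ = n⁻¹ * (n' * (n * a)) := by rw [c1]
        _ = n⁻¹ * (n' * n) * a := by group
        _ = n⁻¹ * (n * n') * a := by rw [c2]
        _ = n' * a := by group
    rw [ha1, mul_one] at hm hm1
    have : n ∈ M ⊓ N := ⟨hm, hn⟩
    rw [hb, Subgroup.mem_bot] at this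
    exact hm1 this
  · have := partA H (M ⊓ N) inf_le_right
      (fun h _ η hη => ⟨hM.conj_mem η hη.1 h, hN.conj_mem η hη.2 h⟩) hb
    rw [← this]
    exact inf_le_left

theorem card_stab_inf {G Ω : Type*} [Group G] [Finite G] [MulAction G Ω] (a c : Ω) :
    Nat.card (MulAction.stabilizer G a ⊓ MulAction.stabilizer G c : Subgroup G) *
      Nat.card (MulAction.orbit (MulAction.stabilizer G a) c) =
      Nat.card (MulAction.stabilizer G a) := by
  have h1 : (MulAction.stabilizer (MulAction.stabilizer G a) c).index =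
      (MulAction.orbit (MulAction.stabilizer G a) c).ncard :=
    MulAction.index_stabilizer _ c
  rw [Nat.card_coe_set_eq, ← h1, ← Subgroup.card_mul_index
    (MulAction.stabilizer (MulAction.stabilizer G a) c),
    ← Subgroup.card_map_of_injective (MulAction.stabilizer G a).subtype_injective]
  congr 3
  ext g
  simp only [Subgroup.mem_map, MulAction.mem_stabilizer_iff, Subgroup.mem_inf,
    Subgroup.subtype_apply]
  constructor
  · rintro ⟨hg, hc⟩
    exact ⟨⟨g, hg⟩, hc, rfl⟩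
  · rintro ⟨h, hh, rfl⟩
    exact ⟨h.2, hh⟩

/-- Let G be a finite 3/2-transitive permutation group: G acts faithfully and transitively on a finite set, the point stabilizers are non-trivial, and for each point a all orbits of G_a on the remaining points have the same size. Suppose G has a regular normal subgroup N and G is not a Frobenius group (some two-point stabilizer is non-trivial). Then N is an elementary abelian p-group for some prime p, and every non-trivial normal subgroup of G contains N (so N is the unique minimal normal subgroup). -/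
theorem result {G Ω : Type*} [Group G] [Finite G]
    [MulAction G Ω] [FaithfulSMul G Ω] [Finite Ω] (htrans : MulAction.IsPretransitive G Ω)
    (hne : ∀ a : Ω, MulAction.stabilizer G a ≠ ⊥)
    (hhalf : ∀ a b c : Ω, b ≠ a → c ≠ a →
      Nat.card (MulAction.orbit (MulAction.stabilizer G a) b) = Nat.card (MulAction.orbit (MulAction.stabilizer G a) c))
    (N : Subgroup G) [hN : N.Normal] (hNt : MulAction.IsPretransitive N Ω) (hNr : ∀ a : Ω, MulAction.stabilizer N a = ⊥)
    (hnotF : ∃ a b : Ω, a ≠ b ∧ MulAction.stabilizer G a ⊓ MulAction.stabilizer G b ≠ ⊥) :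
    (∃ p : ℕ, p.Prime ∧ IsMulCommutative N ∧ ∀ x ∈ N, x ^ p = 1) ∧
    (∀ M : Subgroup G, M.Normal → M ≠ ⊥ → N ≤ M) := by
  obtain ⟨a, b, hab, hst⟩ := hnotF
  have hreg : ∀ x ∈ N, x • a = a → x = 1 := by
    intro x hx hxa
    have h1 : (⟨x, hx⟩ : N) ∈ MulAction.stabilizer N a := hxa
    rw [hNr a, Subgroup.mem_bot] at h1
    exact congrArg Subtype.val h1
  have hCA : ∀ n ∈ N, CA (MulAction.stabilizer G a) n =
      MulAction.stabilizer G a ⊓ MulAction.stabilizer G (n • a) := by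
    intro n hn
    ext h
    rw [mem_CA, Subgroup.mem_inf, MulAction.mem_stabilizer_iff, MulAction.mem_stabilizer_iff]
    constructor
    · rintro ⟨h1, h2⟩
      refine ⟨h1, ?_⟩
      rw [← mul_smul, h2, mul_smul, h1]
    · rintro ⟨h1, h2⟩
      refine ⟨h1, ?_⟩
      have h3 : h⁻¹ • a = a := by
        rw [inv_smul_eq_iff, h1]
      have h4 : (n⁻¹ * (h * n * h⁻¹)) • a = a := by
        rw [mul_smul, mul_smul, mul_smul, h3, h2, inv_smul_smul]
      have h5 := hreg _ (N.mul_mem (N.inv_mem hn) (hN.conj_mem n hn h)) h4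
      calc h * n = n * (n⁻¹ * (h * n * h⁻¹)) * h := by group
        _ = n * h := by rw [h5, mul_one]
  have hconst : ∀ c : Ω, c ≠ a →
      Nat.card (MulAction.stabilizer G a ⊓ MulAction.stabilizer G c : Subgroup G) =
      Nat.card (MulAction.stabilizer G a ⊓ MulAction.stabilizer G b : Subgroup G) := by
    intro c hc
    have h1 := card_stab_inf (G := G) a c
    have h2 := card_stab_inf (G := G) a b
    rw [hhalf a c b hc hab.symm, ← h2] at h1
    have hpos : 0 < Nat.card (MulAction.orbit (MulAction.stabilizer G a) b) := by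
      have : Nonempty (MulAction.orbit (MulAction.stabilizer G a) b) :=
        ⟨⟨b, MulAction.mem_orbit_self b⟩⟩
      exact Nat.card_pos
    exact Nat.eq_of_mul_eq_mul_right hpos h1
  have H : Hyp N (MulAction.stabilizer G a)
      (Nat.card (MulAction.stabilizer G a ⊓ MulAction.stabilizer G b : Subgroup G)) := by
    refine ⟨?_, ?_, ?_⟩
    · intro h hh hc
      apply FaithfulSMul.eq_of_smul_eq_smul (α := Ω)
      intro c
      obtain ⟨n, rfl⟩ := hNt.exists_smul_eq a c
      change h • ((n : G) • a) = (1 : G) • ((n : G) • a)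
      rw [one_smul, ← mul_smul, hc n n.2, mul_smul]
      congr 1
    · intro n hn hn1
      rw [hCA n hn]
      apply hconst
      intro h
      exact hn1 (hreg n hn h)
    · have h1 : Nat.card (MulAction.stabilizer G a ⊓ MulAction.stabilizer G b : Subgroup G) ≠ 1 :=
        fun h => hst (Subgroup.card_eq_one.1 h)
      have h2 : 0 < Nat.card (MulAction.stabilizer G a ⊓ MulAction.stabilizer G b : Subgroup G) :=
        Nat.card_pos
      omega
  have hNb : N ≠ ⊥ := by
    intro hb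
    obtain ⟨n, hn⟩ := hNt.exists_smul_eq a b
    have h1 : (n : G) = 1 := by
      have h0 : ∀ y ∈ N, y = 1 := by
        intro y hy
        rw [hb, Subgroup.mem_bot] at hy
        exact hy
      exact h0 _ n.2
    apply hab
    have h2 : (n : G) • a = b := hn
    rw [← h2, h1, one_smul]
  have hNA : ∀ g : G, ∃ n ∈ N, ∃ x ∈ MulAction.stabilizer G a, g = n * x := by
    intro g
    obtain ⟨n, hn⟩ := hNt.exists_smul_eq a (g • a)
    have h2 : (n : G) • a = g • a := hn
    refine ⟨n, n.2, (n : G)⁻¹ * g, ?_, by group⟩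
    rw [MulAction.mem_stabilizer_iff, mul_smul, ← h2, inv_smul_smul]
  constructor
  · obtain ⟨p, hp, hx⟩ := partC H hNb
    exact ⟨p, hp, ⟨⟨fun x y => Subtype.ext (partB H x.2 y.2)⟩⟩, hx⟩
  · intro M hM hMb
    exact partD H hNA M hM hMb

end Cfsg.Agent.S3356
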