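import Cfsg.Statements.S3362
import Cfsg.Agent.Lib.Helper61SchreierSims

set_option autoImplicit false
open Cfsg

namespace Cfsg.Agent.S3362

open Cfsg.Agent.Lib.Helper61SchreierSims

abbrev P := Equiv.Perm (Fin 12)

def gs : P := Equiv.swap (3 : Fin 12) 5 * Equiv.swap (3 : Fin 12) 4 * Equiv.swap (6 : Fin 12) 8 * Equiv.swap (6 : Fin 12) 7 * Equiv.swap (9 : Fin 12) 11 * Equiv.swap (9 : Fin 12) 10
def gt : P := Equiv.swap (3 : Fin 12) 9 * Equiv.swap (3 : Fin 12) 6 * Equiv.swap (4 : Fin 12) 10 * Equiv.swap (4 : Fin 12) 7 * Equiv.swap (5 : Fin 12) 11 * Equiv.swap (5 : Fin 12) 8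
def gu : P := Equiv.swap (4 : Fin 12) 9 * Equiv.swap (4 : Fin 12) 5 * Equiv.swap (4 : Fin 12) 6 * Equiv.swap (7 : Fin 12) 10 * Equiv.swap (7 : Fin 12) 11 * Equiv.swap (7 : Fin 12) 8
def gv : P := Equiv.swap (4 : Fin 12) 11 * Equiv.swap (4 : Fin 12) 5 * Equiv.swap (4 : Fin 12) 7 * Equiv.swap (6 : Fin 12) 8 * Equiv.swap (6 : Fin 12) 9 * Equiv.swap (6 : Fin 12) 10
def gw : P := Equiv.swap (4 : Fin 12) 8 * Equiv.swap (4 : Fin 12) 5 * Equiv.swap (4 : Fin 12) 10 * Equiv.swap (6 : Fin 12) 7 * Equiv.swap (6 : Fin 12) 9 * Equiv.swap (6 : Fin 12) 11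
def gx1 : P := Equiv.swap (0 : Fin 12) 3 * Equiv.swap (6 : Fin 12) 7 * Equiv.swap (8 : Fin 12) 10 * Equiv.swap (9 : Fin 12) 11
def gx2 : P := Equiv.swap (0 : Fin 12) 1 * Equiv.swap (6 : Fin 12) 9 * Equiv.swap (7 : Fin 12) 10 * Equiv.swap (8 : Fin 12) 11
def gx3 : P := Equiv.swap (1 : Fin 12) 2 * Equiv.swap (6 : Fin 12) 11 * Equiv.swap (7 : Fin 12) 9 * Equiv.swap (8 : Fin 12) 10

def gens : Fin 8 → P := ![gu, gv, gw, gs, gt, gx1, gx2, gx3]

def Sset (k : ℕ) : Set P := {g | ∃ i : Fin 8, i.val < k ∧ gens i = g}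
def C (k : ℕ) : Subgroup P := Subgroup.closure (Sset k)

theorem C_mono {k k' : ℕ} (h : k' ≤ k) : C k' ≤ C k := by
  apply Subgroup.closure_mono
  rintro g ⟨i, hi, rfl⟩
  exact ⟨i, by omega, rfl⟩

theorem C_zero : C 0 = ⊥ := by
  have : Sset 0 = ∅ := by
    ext g
    simp [Sset]
  rw [C, this, Subgroup.closure_empty]

def W1 : Fin 12 → List (Fin 8) := ![[6, 7], [7], [], [5, 6, 7], [3, 5, 6, 7], [3, 3, 5, 6, 7], [4, 5, 6, 7], [1, 3, 5, 6, 7], [0, 1, 3, 5, 6, 7], [4, 4, 5, 6, 7], [2, 3, 5, 6, 7], [2, 4, 5, 6, 7]]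
def O1 : Finset (Fin 12) := {0, 1, 2, 3, 4, 5, 6, 7, 8, 9, 10, 11}
def W2 : Fin 12 → List (Fin 8) := ![[6], [], [], [5, 6], [3, 5, 6], [3, 3, 5, 6], [4, 5, 6], [1, 3, 5, 6], [0, 1, 3, 5, 6], [4, 4, 5, 6], [2, 3, 5, 6], [2, 4, 5, 6]]
def O2 : Finset (Fin 12) := {0, 1, 3, 4, 5, 6, 7, 8, 9, 10, 11}
def W3 : Fin 12 → List (Fin 8) := ![[], [], [], [5], [3, 5], [3, 3, 5], [4, 5], [1, 3, 5], [0, 1, 3, 5], [4, 4, 5], [2, 3, 5], [2, 4, 5]]
def O3 : Finset (Fin 12) := {0, 3, 4, 5, 6, 7, 8, 9, 10, 11}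
def W4 : Fin 12 → List (Fin 8) := ![[], [], [], [], [3], [3, 3], [4], [1, 3], [0, 1, 3], [4, 4], [2, 3], [2, 4]]
def O4 : Finset (Fin 12) := {3, 4, 5, 6, 7, 8, 9, 10, 11}
def W5 : Fin 12 → List (Fin 8) := ![[], [], [], [], [], [0, 0], [0], [1], [0, 1], [1, 2], [2], [2, 0]]
def O5 : Finset (Fin 12) := {4, 5, 6, 7, 8, 9, 10, 11}

def U (W : Fin 12 → List (Fin 8)) (β : Fin 12) : P := wordProd gens (W β)

def L6 : List (Fin 12 × (Fin 12 → P)) := []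
def L5 : List (Fin 12 × (Fin 12 → P)) := (4, U W5) :: L6
def L4 : List (Fin 12 × (Fin 12 → P)) := (3, U W4) :: L5
def L3 : List (Fin 12 × (Fin 12 → P)) := (0, U W3) :: L4
def L2 : List (Fin 12 × (Fin 12 → P)) := (1, U W2) :: L3

theorem lvl (k k' : ℕ) (hk : k' ≤ k) (b : Fin 12) (O : Finset (Fin 12)) (W : Fin 12 → List (Fin 8))
    (L : List (Fin 12 × (Fin 12 → P)))
    (hL : ∀ p ∈ L, ∀ β, p.2 β ∈ C k')
    (hW : ∀ β, ∀ i ∈ W β, i.val < k)
    (hb : b ∈ O) (hWb : W b = [])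
    (hfix : ∀ i : Fin 8, i.val < k' → gens i b = b)
    (htr : ∀ β ∈ O, U W β b = β)
    (hchk : ∀ i : Fin 8, i.val < k → ∀ β ∈ O, gens i β ∈ O ∧
      sift L ((U W (gens i β))⁻¹ * gens i * U W β) = 1) :
    C k ⊓ MulAction.stabilizer P b = C k' ∧ Nat.card (C k) = O.card * Nat.card (C k') ∧
      (∀ β, U W β ∈ C k) := by
  have hu : ∀ β, U W β ∈ C k := by
    intro β
    apply wordProd_mem
    intro i hi
    exact Subgroup.subset_closure ⟨i, hW β i hi, rfl⟩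
  have hub : U W b = 1 := by
    simp [U, wordProd, hWb]
  have hKb : ∀ g ∈ C k', g • b = b := by
    have : C k' ≤ MulAction.stabilizer P b := by
      rw [C, Subgroup.closure_le]
      rintro g ⟨i, hi, rfl⟩
      exact hfix i hi
    intro g hg
    exact this hg
  have hS : ∀ s ∈ Sset k, ∀ β ∈ O, s • β ∈ O ∧ (U W (s • β))⁻¹ * s * U W β ∈ C k' := by
    rintro s ⟨i, hi, rfl⟩ β hβ
    obtain ⟨h1, h2⟩ := hchk i hi β hβ
    exact ⟨h1, mem_of_sift_eq_one (C k') L hL _ h2⟩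
  refine ⟨?_, ?_, hu⟩
  · exact level_stabilizer (Sset k) (C k') b O (U W) (C_mono hk) hb hub hS hKb
  · exact level_card (Sset k) (C k') b O (U W) (C_mono hk) hb hub hu hS hKb htr

theorem lvl5 : C 3 ⊓ MulAction.stabilizer P (4 : Fin 12) = C 0 ∧ Nat.card (C 3) = O5.card * Nat.card (C 0) ∧
      (∀ β, U W5 β ∈ C 3) :=
  lvl 3 0 (by norm_num) 4 O5 W5 L6 (by simp [L6]) (by decide +kernel) (by decide +kernel)
    (by decide +kernel) (by decide +kernel) (by decide +kernel) (by decide +kernel)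

theorem hL5 : ∀ p ∈ L5, ∀ β, p.2 β ∈ C 3 := by
  intro p hp β
  rcases List.mem_cons.mp hp with rfl | hp
  · exact lvl5.2.2 β
  · simp [L6] at hp

theorem lvl4 : C 5 ⊓ MulAction.stabilizer P (3 : Fin 12) = C 3 ∧ Nat.card (C 5) = O4.card * Nat.card (C 3) ∧
      (∀ β, U W4 β ∈ C 5) :=
  lvl 5 3 (by norm_num) 3 O4 W4 L5 hL5 (by decide +kernel) (by decide +kernel)
    (by decide +kernel) (by decide +kernel) (by decide +kernel) (by decide +kernel)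

theorem hL4 : ∀ p ∈ L4, ∀ β, p.2 β ∈ C 5 := by
  intro p hp β
  rcases List.mem_cons.mp hp with rfl | hp
  · exact lvl4.2.2 β
  · exact C_mono (by norm_num) (hL5 p hp β)

theorem lvl3 : C 6 ⊓ MulAction.stabilizer P (0 : Fin 12) = C 5 ∧ Nat.card (C 6) = O3.card * Nat.card (C 5) ∧
      (∀ β, U W3 β ∈ C 6) :=
  lvl 6 5 (by norm_num) 0 O3 W3 L4 hL4 (by decide +kernel) (by decide +kernel)
    (by decide +kernel) (by decide +kernel) (by decide +kernel) (by decide +kernel)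

theorem hL3 : ∀ p ∈ L3, ∀ β, p.2 β ∈ C 6 := by
  intro p hp β
  rcases List.mem_cons.mp hp with rfl | hp
  · exact lvl3.2.2 β
  · exact C_mono (by norm_num) (hL4 p hp β)

theorem lvl2 : C 7 ⊓ MulAction.stabilizer P (1 : Fin 12) = C 6 ∧ Nat.card (C 7) = O2.card * Nat.card (C 6) ∧
      (∀ β, U W2 β ∈ C 7) :=
  lvl 7 6 (by norm_num) 1 O2 W2 L3 hL3 (by decide +kernel) (by decide +kernel)
    (by decide +kernel) (by decide +kernel) (by decide +kernel) (by decide +kernel)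

theorem hL2 : ∀ p ∈ L2, ∀ β, p.2 β ∈ C 7 := by
  intro p hp β
  rcases List.mem_cons.mp hp with rfl | hp
  · exact lvl2.2.2 β
  · exact C_mono (by norm_num) (hL3 p hp β)

theorem lvl1 : C 8 ⊓ MulAction.stabilizer P (2 : Fin 12) = C 7 ∧ Nat.card (C 8) = O1.card * Nat.card (C 7) ∧
      (∀ β, U W1 β ∈ C 8) :=
  lvl 8 7 (by norm_num) 2 O1 W1 L2 hL2 (by decide +kernel) (by decide +kernel)
    (by decide +kernel) (by decide +kernel) (by decide +kernel) (by decide +kernel)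

theorem card_C0 : Nat.card (C 0) = 1 := by rw [C_zero]; simp
theorem card_C3 : Nat.card (C 3) = 8 := by rw [lvl5.2.1, card_C0]; rfl
theorem card_C5 : Nat.card (C 5) = 72 := by rw [lvl4.2.1, card_C3]; rfl
theorem card_C6 : Nat.card (C 6) = 720 := by rw [lvl3.2.1, card_C5]; rfl
theorem card_C7 : Nat.card (C 7) = 7920 := by rw [lvl2.2.1, card_C6]; rfl
theorem card_C8 : Nat.card (C 8) = 95040 := by rw [lvl1.2.1, card_C7]; rfl

def y₀ : Fin 5 ↪ Fin 12 := ⟨![2, 1, 0, 3, 4], by decide⟩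

theorem inv_apply_self' (f : P) (x : Fin 12) : f⁻¹ (f x) = x := f.symm_apply_apply x

theorem fix_y₀ (g : P) (hg : g ∈ C 8) (hfix : ∀ i, g (y₀ i) = y₀ i) : g = 1 := by
  have h7 : g ∈ C 7 := by
    rw [← lvl1.1]; exact ⟨hg, hfix 0⟩
  have h6 : g ∈ C 6 := by
    rw [← lvl2.1]; exact ⟨h7, hfix 1⟩
  have h5 : g ∈ C 5 := by
    rw [← lvl3.1]; exact ⟨h6, hfix 2⟩
  have h3 : g ∈ C 3 := by
    rw [← lvl4.1]; exact ⟨h5, hfix 3⟩
  have h0 : g ∈ C 0 := by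
    rw [← lvl5.1]; exact ⟨h3, hfix 4⟩
  rw [C_zero, Subgroup.mem_bot] at h0
  exact h0

theorem card_emb : Nat.card (Fin 5 ↪ Fin 12) = 95040 := by
  rw [Nat.card_eq_fintype_card, Fintype.card_embedding_eq]
  simp [Nat.descFactorial]

theorem surj_y₀ : ∀ y : Fin 5 ↪ Fin 12, ∃ g ∈ C 8, ∀ i, g (y₀ i) = y i := by
  let f : C 8 → (Fin 5 ↪ Fin 12) := fun g => y₀.trans (g : P).toEmbedding
  have hinj : Function.Injective f := by
    intro a b hab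
    have hab' : ∀ i, (a : P) (y₀ i) = (b : P) (y₀ i) := by
      intro i
      exact congrArg (fun e : Fin 5 ↪ Fin 12 => e i) hab
    have h1 : (b : P)⁻¹ * (a : P) = 1 := by
      apply fix_y₀ _ ((C 8).mul_mem ((C 8).inv_mem b.2) a.2)
      intro i
      rw [Equiv.Perm.mul_apply, hab' i, inv_apply_self']
    apply Subtype.ext
    exact (inv_mul_eq_one.mp h1).symm
  have hbij := (Nat.bijective_iff_injective_and_card f).mpr ⟨hinj, by rw [card_C8, card_emb]⟩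
  intro y
  obtain ⟨g, hg⟩ := hbij.2 y
  refine ⟨g, g.2, fun i => ?_⟩
  exact congrArg (fun e : Fin 5 ↪ Fin 12 => e i) hg

theorem main (M₁₂ M₁₁ : Subgroup P) (h12 : M₁₂ = C 8) (h11 : M₁₁ = C 7) :
    MulAction.IsMultiplyPretransitive M₁₂ (Fin 12) 5 ∧ (∀ y : Fin 5 ↪ Fin 12, MulAction.stabilizer M₁₂ y = ⊥) ∧
    Nat.card M₁₂ = 95040 ∧ Nat.card M₁₁ = 7920 ∧
    M₁₁ = M₁₂ ⊓ MulAction.stabilizer (Equiv.Perm (Fin 12)) (2 : Fin 12) := by
  subst h12 h11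
  refine ⟨⟨?_⟩, ?_, card_C8, card_C7, lvl1.1.symm⟩
  · intro x y
    obtain ⟨a, ha, hax⟩ := surj_y₀ x
    obtain ⟨b, hb, hby⟩ := surj_y₀ y
    refine ⟨⟨b * a⁻¹, (C 8).mul_mem hb ((C 8).inv_mem ha)⟩, ?_⟩
    apply Function.Embedding.ext
    intro i
    show (b * a⁻¹) (x i) = y i
    rw [← hax i, ← hby i, Equiv.Perm.mul_apply, inv_apply_self']
  · intro y
    obtain ⟨a, ha, hay⟩ := surj_y₀ y
    rw [eq_bot_iff]
    intro g hg
    have hg' : g • y = y := hg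
    have hfix : ∀ i, (g : P) (y i) = y i := by
      intro i
      exact congrArg (fun f : Fin 5 ↪ Fin 12 => f i) hg'
    have h1 : a⁻¹ * (g : P) * a = 1 := by
      apply fix_y₀ _ ((C 8).mul_mem ((C 8).mul_mem ((C 8).inv_mem ha) g.2) ha)
      intro i
      rw [Equiv.Perm.mul_apply, Equiv.Perm.mul_apply, hay i, hfix i, ← hay i, inv_apply_self']
    rw [Subgroup.mem_bot]
    apply Subtype.ext
    show (g : P) = 1
    have : (g : P) = a * (a⁻¹ * (g : P) * a) * a⁻¹ := by group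
    rw [this, h1]; group

theorem set8 : ({gs, gt, gu, gv, gw, gx1, gx2, gx3} : Set P) = Sset 8 := by
  ext g
  constructor
  · rintro (rfl | rfl | rfl | rfl | rfl | rfl | rfl | rfl)
    · exact ⟨3, by norm_num, rfl⟩
    · exact ⟨4, by norm_num, rfl⟩
    · exact ⟨0, by norm_num, rfl⟩
    · exact ⟨1, by norm_num, rfl⟩
    · exact ⟨2, by norm_num, rfl⟩
    · exact ⟨5, by norm_num, rfl⟩
    · exact ⟨6, by norm_num, rfl⟩
    · exact ⟨7, by norm_num, rfl⟩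
  · rintro ⟨i, hi, rfl⟩
    fin_cases i <;> simp [gens]

theorem set7 : ({gs, gt, gu, gv, gw, gx1, gx2} : Set P) = Sset 7 := by
  ext g
  constructor
  · rintro (rfl | rfl | rfl | rfl | rfl | rfl | rfl)
    · exact ⟨3, by norm_num, rfl⟩
    · exact ⟨4, by norm_num, rfl⟩
    · exact ⟨0, by norm_num, rfl⟩
    · exact ⟨1, by norm_num, rfl⟩
    · exact ⟨2, by norm_num, rfl⟩
    · exact ⟨5, by norm_num, rfl⟩
    · exact ⟨6, by norm_num, rfl⟩
  · rintro ⟨i, hi, rfl⟩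
    fin_cases i <;> simp [gens] at hi ⊢

/-- An explicit construction of the Mathieu groups of degrees 11 and 12. On the points 0, …, 11 let s = (3 4 5)(6 7 8)(9 10 11), t = (3 6 9)(4 7 10)(5 8 11), u = (4 6 5 9)(7 8 11 10), v = (4 7 5 11)(6 10 9 8), w = (4 10 5 8)(6 11 9 7), x₁ = (0 3)(6 7)(8 10)(9 11), x₂ = (0 1)(6 9)(7 10)(8 11), x₃ = (1 2)(6 11)(7 9)(8 10) (each written as a product of transpositions). Then the group M₁₂ generated by all eight permutations is sharply 5-transitive on the 12 points and has order 95040, and the group M₁₁ generated by the first seven has order 7920 and is the stabilizer of the point 2 in M₁₂. -/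
theorem result
    (s t u v w x₁ x₂ x₃ : Equiv.Perm (Fin 12))
    (hs : s = Equiv.swap (3 : Fin 12) 5 * Equiv.swap (3 : Fin 12) 4 * Equiv.swap (6 : Fin 12) 8 * Equiv.swap (6 : Fin 12) 7 * Equiv.swap (9 : Fin 12) 11 * Equiv.swap (9 : Fin 12) 10) (ht : t = Equiv.swap (3 : Fin 12) 9 * Equiv.swap (3 : Fin 12) 6 * Equiv.swap (4 : Fin 12) 10 * Equiv.swap (4 : Fin 12) 7 * Equiv.swap (5 : Fin 12) 11 * Equiv.swap (5 : Fin 12) 8)
    (hu : u = Equiv.swap (4 : Fin 12) 9 * Equiv.swap (4 : Fin 12) 5 * Equiv.swap (4 : Fin 12) 6 * Equiv.swap (7 : Fin 12) 10 * Equiv.swap (7 : Fin 12) 11 * Equiv.swap (7 : Fin 12) 8) (hv : v = Equiv.swap (4 : Fin 12) 11 * Equiv.swap (4 : Fin 12) 5 * Equiv.swap (4 : Fin 12) 7 * Equiv.swap (6 : Fin 12) 8 * Equiv.swap (6 : Fin 12) 9 * Equiv.swap (6 : Fin 12) 10) (hw : w = Equiv.swap (4 : Fin 12) 8 * Equiv.swap (4 : Fin 12) 5 * Equiv.swap (4 : Fin 12) 10 * Equiv.swap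 (6 : Fin 12) 7 * Equiv.swap (6 : Fin 12) 9 * Equiv.swap (6 : Fin 12) 11)
    (hx₁ : x₁ = Equiv.swap (0 : Fin 12) 3 * Equiv.swap (6 : Fin 12) 7 * Equiv.swap (8 : Fin 12) 10 * Equiv.swap (9 : Fin 12) 11) (hx₂ : x₂ = Equiv.swap (0 : Fin 12) 1 * Equiv.swap (6 : Fin 12) 9 * Equiv.swap (7 : Fin 12) 10 * Equiv.swap (8 : Fin 12) 11)
    (hx₃ : x₃ = Equiv.swap (1 : Fin 12) 2 * Equiv.swap (6 : Fin 12) 11 * Equiv.swap (7 : Fin 12) 9 * Equiv.swap (8 : Fin 12) 10)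
    (M₁₂ M₁₁ : Subgroup (Equiv.Perm (Fin 12))) (hM₁₂ : M₁₂ = Subgroup.closure {s, t, u, v, w, x₁, x₂, x₃})
    (hM₁₁ : M₁₁ = Subgroup.closure {s, t, u, v, w, x₁, x₂}) :
    MulAction.IsMultiplyPretransitive M₁₂ (Fin 12) 5 ∧ (∀ y : Fin 5 ↪ Fin 12, MulAction.stabilizer M₁₂ y = ⊥) ∧
    Nat.card M₁₂ = 95040 ∧ Nat.card M₁₁ = 7920 ∧
    M₁₁ = M₁₂ ⊓ MulAction.stabilizer (Equiv.Perm (Fin 12)) (2 : Fin 12) := by
  subst hs ht hu hv hw hx₁ hx₂ hx₃
  apply main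
  · rw [hM₁₂]; exact congrArg Subgroup.closure set8
  · rw [hM₁₁]; exact congrArg Subgroup.closure set7

end Cfsg.Agent.S3362
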