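import Cfsg.Statements.S3374
import Cfsg.Agent.Lib.Helper6SL2HomP
import Cfsg.Agent.Lib.Helper75Frobenius

set_option autoImplicit false
open Cfsg

namespace Cfsg.Agent.S3374

instance fact_p : Fact (Nat.Prime 5) := ⟨by norm_num⟩
instance fact_q : Fact (Nat.Prime 11) := ⟨by norm_num⟩

/-- the table of an embedding of `SL(2,5)` into `SL(2,11)` -/
def tbl : List (ZMod 11 × ZMod 11 × ZMod 11 × ZMod 11) :=
  [(1,0,0,1), (1,0,0,1), (1,0,0,1), (1,0,0,1), (1,0,0,1), (1,0,0,1), (1,0,0,1), (1,0,0,1), (1,0,0,1), (1,0,0,1), (1,0,0,1), (1,0,0,1), (1,0,0,1), (1,0,0,1), (1,0,0,1), (1,0,0,1), (1,0,0,1), (1,0,0,1), (1,0,0,1), (1,0,0,1), (1,0,0,1), (1,0,0,1), (1,0,0,1), (1,0,0,1), (1,0,0,1), (1,0,0,1), (1,0,0,1), (1,0,0,1), (1,0,0,1), (1,0,0,1), (1,0,0,1), (1,0,0,1), (1,0,0,1), (1,0,0,1), (1,0,0,1), (1,0,0,1), (1,0,0,1),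 (1,0,0,1), (1,0,0,1), (1,0,0,1), (1,0,0,1), (1,0,0,1), (1,0,0,1), (1,0,0,1), (1,0,0,1), (8,7,8,3), (9,3,5,3), (8,2,7,6), (4,3,5,4), (4,7,8,6), (1,0,0,1), (1,0,0,1), (1,0,0,1), (1,0,0,1), (1,0,0,1), (1,0,0,1), (1,0,0,1), (1,0,0,1), (1,0,0,1), (1,0,0,1), (0,7,3,0), (10,4,2,2), (4,10,0,3), (7,0,9,8), (1,1,8,9), (1,0,0,1), (1,0,0,1), (1,0,0,1), (1,0,0,1), (1,0,0,1), (1,0,0,1), (1,0,0,1), (1,0,0,1), (1,0,0,1), (1,0,0,1), (1,0,0,1), (1,0,0,1), (1,0,0,1), (1,0,0,1), (1,0,0,1), (1,0,0,1), (1,0,0,1), (1,0,0,1), (1,0,0,1), (1,0,0,1), (1,0,0,1), (1,0,0,1), (1,0,0,1), (1,0,0,1), (1,0,0,1), (0,4,8,0), (10,10,3,2), (4,0,2,3), (7,1,0,8), (1,7,9,9), (1,0,0,1), (1,0,0,1), (1,0,0,1), (1,0,0,1), (1,0,0,1), (1,0,0,1), (1,0,0,1), (1,0,0,1), (1,0,0,1), (1,0,0,1), (3,4,3,8), (7,4,3,5), (7,8,6,7), (3,9,4,5), (2,8,6,8), (1,0,0,1),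 (1,0,0,1), (1,0,0,1), (1,0,0,1), (1,0,0,1), (1,0,0,1), (1,0,0,1), (1,0,0,1), (1,0,0,1), (1,0,0,1), (1,0,0,1), (1,0,0,1), (1,0,0,1), (1,0,0,1), (1,0,0,1), (1,0,0,1), (1,0,0,1), (1,0,0,1), (1,0,0,1), (1,0,0,1), (1,0,0,1), (3,5,2,0), (1,0,0,1), (1,0,0,1), (1,0,0,1), (1,0,0,1), (8,4,6,10), (1,0,0,1), (1,0,0,1), (1,0,0,1), (1,0,0,1), (10,7,5,8), (1,0,0,1), (1,0,0,1), (1,0,0,1), (1,0,0,1), (0,6,9,3), (1,0,0,1), (1,0,0,1), (1,0,0,1), (1,0,0,1), (0,1,10,3), (1,0,0,1), (1,0,0,1), (1,0,0,1), (1,0,0,1), (1,0,0,1), (6,7,0,2), (1,0,0,1), (1,0,0,1), (1,0,0,1), (1,0,0,1), (1,0,0,1), (7,9,1,3), (1,0,0,1), (1,0,0,1), (1,0,0,1), (1,0,0,1), (1,0,0,1), (4,9,3,7), (5,7,8,7), (1,0,0,1), (1,0,0,1), (1,0,0,1), (1,0,0,1), (1,0,0,1), (10,3,8,8), (1,0,0,1), (1,0,0,1), (1,0,0,1), (1,0,0,1), (1,0,0,1), (1,0,0,1), (4,5,9,6), (1,0,0,1),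 (2,1,8,10), (1,0,0,1), (1,0,0,1), (1,0,0,1), (1,0,0,1), (1,0,0,1), (1,0,0,1), (2,9,4,2), (1,0,0,1), (1,0,0,1), (1,0,0,1), (1,0,0,1), (1,0,0,1), (1,0,0,1), (4,4,4,7), (1,0,0,1), (8,8,3,10), (1,0,0,1), (1,0,0,1), (1,0,0,1), (1,0,0,1), (1,0,0,1), (1,0,0,1), (1,0,0,1), (6,8,5,5), (1,0,0,1), (1,0,0,1), (10,5,1,5), (1,0,0,1), (1,0,0,1), (2,7,9,10), (1,0,0,1), (1,0,0,1), (1,0,0,1), (1,0,0,1), (1,0,0,1), (1,0,0,1), (1,0,0,1), (7,5,4,3), (1,0,0,1), (1,0,0,1), (3,10,1,0), (1,0,0,1), (1,0,0,1), (1,0,0,1), (3,8,6,9), (1,0,0,1), (1,0,0,1), (1,0,0,1), (1,0,0,1), (1,0,0,1), (1,0,0,1), (1,0,0,1), (1,0,0,1), (6,3,6,5), (1,0,0,1), (1,0,0,1), (1,0,0,1), (4,1,1,6), (1,0,0,1), (1,0,0,1), (1,0,0,1), (6,0,8,2), (1,0,0,1), (1,0,0,1), (1,0,0,1), (1,0,0,1), (1,0,0,1), (10,1,9,1), (1,0,0,1), (1,0,0,1), (1,0,0,1), (1,0,0,1), (9,6,1,2),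 (1,0,0,1), (1,0,0,1), (1,0,0,1), (1,0,0,1), (9,8,9,2), (1,0,0,1), (1,0,0,1), (1,0,0,1), (1,0,0,1), (10,6,7,1), (1,0,0,1), (1,0,0,1), (1,0,0,1), (1,0,0,1), (6,1,7,5), (1,0,0,1), (1,0,0,1), (1,0,0,1), (1,0,0,1), (6,2,9,5), (1,0,0,1), (1,0,0,1), (2,0,3,6), (1,0,0,1), (1,0,0,1), (1,0,0,1), (1,0,0,1), (1,0,0,1), (1,0,0,1), (1,0,0,1), (8,9,1,4), (1,0,0,1), (1,0,0,1), (10,8,4,0), (1,0,0,1), (1,0,0,1), (7,3,5,7), (1,0,0,1), (1,0,0,1), (1,0,0,1), (1,0,0,1), (1,0,0,1), (1,0,0,1), (1,0,0,1), (10,2,10,1), (1,0,0,1), (1,0,0,1), (1,0,0,1), (1,0,0,1), (1,0,0,1), (5,5,9,7), (3,0,9,4), (1,0,0,1), (1,0,0,1), (1,0,0,1), (1,0,0,1), (1,0,0,1), (5,6,10,10), (1,0,0,1), (1,0,0,1), (1,0,0,1), (1,0,0,1), (1,0,0,1), (10,9,6,0), (1,0,0,1), (1,0,0,1), (1,0,0,1), (1,0,0,1), (1,0,0,1), (9,1,6,2), (1,0,0,1), (1,0,0,1), (1,0,0,1), (0,2,5,10),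 (1,0,0,1), (1,0,0,1), (1,0,0,1), (2,2,7,2), (1,0,0,1), (1,0,0,1), (1,0,0,1), (3,1,0,4), (1,0,0,1), (1,0,0,1), (1,0,0,1), (1,0,0,1), (1,0,0,1), (1,0,0,1), (1,0,0,1), (1,0,0,1), (8,5,4,4), (1,0,0,1), (1,0,0,1), (1,0,0,1), (9,5,10,2), (1,0,0,1), (6,9,4,8), (1,0,0,1), (1,0,0,1), (1,0,0,1), (1,0,0,1), (1,0,0,1), (1,0,0,1), (0,3,7,10), (1,0,0,1), (1,0,0,1), (1,0,0,1), (1,0,0,1), (1,0,0,1), (1,0,0,1), (5,1,1,7), (1,0,0,1), (2,4,0,6), (1,0,0,1), (1,0,0,1), (1,0,0,1), (1,0,0,1), (1,0,0,1), (1,10,2,10), (1,0,0,1), (1,0,0,1), (1,0,0,1), (1,0,0,1), (5,10,4,6), (1,0,0,1), (1,0,0,1), (1,0,0,1), (1,0,0,1), (1,5,4,10), (1,0,0,1), (1,0,0,1), (1,0,0,1), (1,0,0,1), (2,3,2,9), (1,0,0,1), (1,0,0,1), (1,0,0,1), (1,0,0,1), (2,5,10,9), (1,0,0,1), (1,0,0,1), (1,0,0,1), (1,0,0,1), (2,6,1,9), (1,0,0,1), (1,0,0,1), (1,0,0,1), (1,0,0,1),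 (1,0,0,1), (1,0,0,1), (9,7,0,5), (1,0,0,1), (6,10,10,4), (1,0,0,1), (1,0,0,1), (1,0,0,1), (1,0,0,1), (1,0,0,1), (1,0,0,1), (0,8,4,1), (1,0,0,1), (5,2,7,3), (1,0,0,1), (1,0,0,1), (1,0,0,1), (1,0,0,1), (1,0,0,1), (1,0,0,1), (2,10,5,9), (1,0,0,1), (1,0,0,1), (1,0,0,1), (3,6,7,7), (1,0,0,1), (1,0,0,1), (1,0,0,1), (8,10,0,7), (1,0,0,1), (1,0,0,1), (1,0,0,1), (1,0,0,1), (1,0,0,1), (1,0,0,1), (1,0,0,1), (1,0,0,1), (9,9,4,9), (1,0,0,1), (1,0,0,1), (1,0,0,1), (0,9,6,1), (1,0,0,1), (1,0,0,1), (1,0,0,1), (1,9,1,10), (1,0,0,1), (1,0,0,1), (1,0,0,1), (1,0,0,1), (1,0,0,1), (1,2,5,0), (1,0,0,1), (1,0,0,1), (1,0,0,1), (1,0,0,1), (1,0,0,1), (6,5,1,1), (8,0,2,7), (1,0,0,1), (1,0,0,1), (1,0,0,1), (1,0,0,1), (1,0,0,1), (6,6,2,4), (1,0,0,1), (1,0,0,1), (1,0,0,1), (1,0,0,1), (1,0,0,1), (5,9,2,6), (1,0,0,1), (1,0,0,1), (4,8,6,4),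 (1,0,0,1), (1,0,0,1), (1,0,0,1), (1,0,0,1), (1,0,0,1), (1,0,0,1), (1,0,0,1), (1,3,7,0), (1,0,0,1), (1,0,0,1), (3,2,10,7), (1,0,0,1), (1,0,0,1), (1,0,0,1), (1,0,0,1), (1,0,0,1), (1,0,0,1), (1,0,0,1), (9,0,8,5), (1,0,0,1), (1,0,0,1), (1,0,0,1), (1,0,0,1), (10,0,0,10), (1,0,0,1), (1,0,0,1), (1,0,0,1), (1,0,0,1), (0,5,2,8), (1,0,0,1), (1,0,0,1), (1,0,0,1), (1,0,0,1), (1,4,6,3), (1,0,0,1), (1,0,0,1), (1,0,0,1), (1,0,0,1), (3,7,5,1), (1,0,0,1), (1,0,0,1), (1,0,0,1), (1,0,0,1), (8,6,9,0), (1,0,0,1), (1,0,0,1), (1,0,0,1), (1,0,0,1), (8,1,10,0), (1,0,0,1), (1,0,0,1), (1,0,0,1), (5,0,3,9), (1,0,0,1), (1,0,0,1), (1,0,0,1), (7,10,10,5), (1,0,0,1), (1,0,0,1), (1,0,0,1), (5,8,5,6), (1,0,0,1), (1,0,0,1), (1,0,0,1), (8,3,5,2), (1,0,0,1), (1,0,0,1), (1,0,0,1), (1,0,0,1), (1,0,0,1), (1,0,0,1), (1,0,0,1), (1,0,0,1), (3,3,8,1),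 (1,0,0,1), (1,0,0,1), (4,6,7,8), (1,0,0,1), (1,0,0,1), (9,4,2,1), (1,0,0,1), (1,0,0,1), (1,0,0,1), (1,0,0,1), (1,0,0,1), (1,0,0,1), (1,0,0,1), (1,6,10,6), (1,0,0,1), (1,0,0,1), (5,3,6,6), (1,0,0,1), (1,0,0,1), (1,0,0,1), (1,0,0,1), (1,0,0,1), (1,0,0,1), (1,0,0,1), (1,8,3,3), (1,0,0,1), (7,7,7,4), (1,0,0,1), (1,0,0,1), (1,0,0,1), (1,0,0,1), (1,0,0,1), (1,0,0,1), (9,2,7,9), (1,0,0,1), (9,10,3,1), (1,0,0,1), (1,0,0,1), (1,0,0,1), (1,0,0,1), (1,0,0,1), (1,0,0,1), (7,6,2,5), (1,0,0,1), (1,0,0,1), (1,0,0,1), (1,0,0,1), (1,0,0,1), (1,0,0,1), (0,10,1,8), (6,4,3,4), (1,0,0,1), (1,0,0,1), (1,0,0,1), (1,0,0,1), (1,0,0,1), (7,2,8,4), (1,0,0,1), (1,0,0,1), (1,0,0,1), (1,0,0,1), (1,0,0,1), (4,2,10,8), (1,0,0,1), (1,0,0,1), (1,0,0,1), (1,0,0,1), (1,0,0,1), (5,4,0,9), (1,0,0,1)]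

def ent (a b c d : ZMod 5) : ZMod 11 × ZMod 11 × ZMod 11 × ZMod 11 :=
  tbl.getD (125 * a.val + 25 * b.val + 5 * c.val + d.val) (1, 0, 0, 1)

def mk (t : ZMod 11 × ZMod 11 × ZMod 11 × ZMod 11) : Matrix.SpecialLinearGroup (Fin 2) (ZMod 11) :=
  if h : t.1 * t.2.2.2 - t.2.1 * t.2.2.1 = 1 then
    ⟨!![t.1, t.2.1; t.2.2.1, t.2.2.2], by rw [Matrix.det_fin_two_of]; exact h⟩
  else 1

/-- multiplication of quadruples -/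
def qmul (s t : ZMod 11 × ZMod 11 × ZMod 11 × ZMod 11) : ZMod 11 × ZMod 11 × ZMod 11 × ZMod 11 :=
  (s.1 * t.1 + s.2.1 * t.2.2.1, s.1 * t.2.1 + s.2.1 * t.2.2.2,
    s.2.2.1 * t.1 + s.2.2.2 * t.2.2.1, s.2.2.1 * t.2.1 + s.2.2.2 * t.2.2.2)

theorem det_ent : ∀ a b c d : ZMod 5,
    (ent a b c d).1 * (ent a b c d).2.2.2 - (ent a b c d).2.1 * (ent a b c d).2.2.1 = 1 := by
  decide +kernel

theorem mk_val (t : ZMod 11 × ZMod 11 × ZMod 11 × ZMod 11) (h : t.1 * t.2.2.2 - t.2.1 * t.2.2.1 = 1) :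
    (mk t).1 = !![t.1, t.2.1; t.2.2.1, t.2.2.2] := by
  have e : mk t = ⟨!![t.1, t.2.1; t.2.2.1, t.2.2.2], by rw [Matrix.det_fin_two_of]; exact h⟩ :=
    dif_pos h
  rw [e]

theorem det_qmul (s t : ZMod 11 × ZMod 11 × ZMod 11 × ZMod 11)
    (hs : s.1 * s.2.2.2 - s.2.1 * s.2.2.1 = 1) (ht : t.1 * t.2.2.2 - t.2.1 * t.2.2.1 = 1) :
    (qmul s t).1 * (qmul s t).2.2.2 - (qmul s t).2.1 * (qmul s t).2.2.1 = 1 := by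
  simp only [qmul]
  have : (s.1 * t.1 + s.2.1 * t.2.2.1) * (s.2.2.1 * t.2.1 + s.2.2.2 * t.2.2.2) -
      (s.1 * t.2.1 + s.2.1 * t.2.2.2) * (s.2.2.1 * t.1 + s.2.2.2 * t.2.2.1) =
      (s.1 * s.2.2.2 - s.2.1 * s.2.2.1) * (t.1 * t.2.2.2 - t.2.1 * t.2.2.1) := by ring
  rw [this, hs, ht, one_mul]

theorem mk_mul (s t : ZMod 11 × ZMod 11 × ZMod 11 × ZMod 11)
    (hs : s.1 * s.2.2.2 - s.2.1 * s.2.2.1 = 1) (ht : t.1 * t.2.2.2 - t.2.1 * t.2.2.1 = 1) :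
    mk s * mk t = mk (qmul s t) := by
  apply Subtype.ext
  rw [Matrix.SpecialLinearGroup.coe_mul, mk_val s hs, mk_val t ht, mk_val _ (det_qmul s t hs ht),
    Matrix.mul_fin_two]
  rfl

theorem hX : ∀ a b c d : ZMod 5, a * d - b * c = 1 →
    ent a (a + b) c (c + d) = qmul (ent a b c d) (ent 1 1 0 1) := by
  decide +kernel

theorem hY : ∀ a b c d : ZMod 5, a * d - b * c = 1 →
    ent (a + b) b (c + d) d = qmul (ent a b c d) (ent 1 0 1 1) := by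
  decide +kernel

theorem hfix : ∀ a b c d : ZMod 5, a * d - b * c = 1 → ¬ (a = 1 ∧ b = 0 ∧ c = 0 ∧ d = 1) →
    ∀ x y : ZMod 11, (ent a b c d).1 * x + (ent a b c d).2.1 * y = x →
      (ent a b c d).2.2.1 * x + (ent a b c d).2.2.2 * y = y → x = 0 ∧ y = 0 := by
  decide +kernel

theorem exists_hom : ∃ φ : Matrix.SpecialLinearGroup (Fin 2) (ZMod 5) →*
    Matrix.SpecialLinearGroup (Fin 2) (ZMod 11),
    ∀ g, φ g = mk (ent (g 0 0) (g 0 1) (g 1 0) (g 1 1)) := by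
  apply Cfsg.Agent.Lib.Helper6SL2HomP.exists_hom_of_entries_zmod 5
    (fun a b c d => mk (ent a b c d))
  · apply Subtype.ext
    rw [mk_val _ (det_ent 1 0 0 1)]
    have : ent 1 0 0 1 = (1, 0, 0, 1) := by decide +kernel
    rw [this]
    ext i j
    fin_cases i <;> fin_cases j <;> rfl
  · intro a b c d h
    rw [mk_mul _ _ (det_ent _ _ _ _) (det_ent _ _ _ _), hX a b c d h]
  · intro a b c d h
    rw [mk_mul _ _ (det_ent _ _ _ _) (det_ent _ _ _ _), hY a b c d h]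

/-- SL(2,5) occurs as a Frobenius complement: there is a finite group L with a subgroup H isomorphic to SL(2,5) which is a non-trivial proper subgroup meeting each conjugate gHg⁻¹ with g outside H trivially. -/
theorem result :
    ∃ (L : Type) (_ : Group L) (_ : Finite L) (H : Subgroup L),
      Cfsg.IsFrobeniusComplement H ∧ Nonempty (H ≃* Matrix.SpecialLinearGroup (Fin 2) (ZMod 5)) := by
  obtain ⟨φ, hφ⟩ := exists_hom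
  let act : DistribMulAction (Matrix.SpecialLinearGroup (Fin 2) (ZMod 5)) (Fin 2 → ZMod 11) :=
    { smul := fun g v => (φ g).1.mulVec v
      one_smul := fun v => by
        change (φ 1).1.mulVec v = v
        rw [map_one]; exact Matrix.one_mulVec v
      mul_smul := fun g h v => by
        change (φ (g * h)).1.mulVec v = (φ g).1.mulVec ((φ h).1.mulVec v)
        rw [map_mul, Matrix.mulVec_mulVec]; rfl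
      smul_zero := fun g => by
        change (φ g).1.mulVec 0 = 0
        rw [Matrix.mulVec_zero]
      smul_add := fun g v w => by
        change (φ g).1.mulVec (v + w) = (φ g).1.mulVec v + (φ g).1.mulVec w
        rw [Matrix.mulVec_add] }
  have hfpf : ∀ g : Matrix.SpecialLinearGroup (Fin 2) (ZMod 5), g ≠ 1 →
      ∀ w : Fin 2 → ZMod 11, g • w = w → w = 0 := by
    intro g hg w hw
    have hw' : (φ g).1.mulVec w = w := hw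
    rw [hφ, mk_val _ (det_ent _ _ _ _)] at hw'
    have hdet : g 0 0 * g 1 1 - g 0 1 * g 1 0 = 1 := by
      have := g.2
      rwa [Matrix.det_fin_two] at this
    have hne : ¬ (g 0 0 = 1 ∧ g 0 1 = 0 ∧ g 1 0 = 0 ∧ g 1 1 = 1) := by
      rintro ⟨h1, h2, h3, h4⟩
      apply hg
      ext i j
      fin_cases i <;> fin_cases j <;> simp [h1, h2, h3, h4]
    have e0 := congrFun hw' 0
    have e1 := congrFun hw' 1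
    simp only [Matrix.mulVec, dotProduct, Fin.sum_univ_two, Matrix.of_apply, Matrix.cons_val_zero,
      Matrix.cons_val_one, Matrix.cons_val', Matrix.cons_val_fin_one] at e0 e1
    obtain ⟨h0, h1⟩ := hfix _ _ _ _ hdet hne (w 0) (w 1) e0 e1
    ext i
    fin_cases i
    · exact h0
    · exact h1
  have hnt : Nontrivial (Matrix.SpecialLinearGroup (Fin 2) (ZMod 5)) := by
    refine ⟨⟨⟨!![1, 1; 0, 1], by rw [Matrix.det_fin_two_of]; ring⟩, 1, ?_⟩⟩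
    intro h
    have := congrFun (congrFun (congrArg Subtype.val h) 0) 1
    simp at this
  obtain ⟨L, j1, j2, C, hC, ⟨e⟩, -⟩ :=
    Cfsg.Agent.Lib.Helper75Frobenius.exists_frobenius_of_distribMulAction
      (H := Matrix.SpecialLinearGroup (Fin 2) (ZMod 5)) (V := Fin 2 → ZMod 11) hfpf
  exact ⟨L, j1, j2, C, hC, ⟨e.symm⟩⟩

end Cfsg.Agent.S3374
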