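import Cfsg.Statements.S3375
import Mathlib

set_option autoImplicit false
open Cfsg

namespace Cfsg.Agent.S3375

variable {H : Type*} [Group H] [Finite H]

theorem gg (γ : MulAut H) (hγ : orderOf γ = 2) (h : H) : γ (γ h) = h := by
  have h2 : γ ^ 2 = 1 := by rw [← hγ]; exact pow_orderOf_eq_one γ
  have : (γ ^ 2) h = h := by rw [h2]; rfl
  simpa [pow_two] using this

/-- the fixed subgroup -/
def fixSub (γ : MulAut H) : Subgroup H where
  carrier := {h | γ h = h}
  mul_mem' := by
    intro a b ha hb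
    simp only [Set.mem_ofPred_eq] at *
    rw [map_mul, ha, hb]
  one_mem' := by simp
  inv_mem' := by
    intro a ha
    simp only [Set.mem_ofPred_eq] at *
    rw [map_inv, ha]

theorem inverted_of_invariant (γ : MulAut H) (hγ : orderOf γ = 2)
    (hfix : Nat.card {h : H // γ h = h} = 2) (M : Subgroup H) (hM : M.index = 2)
    (hinv : ∀ h, h ∈ M ↔ γ h ∈ M) : ∀ a ∈ M, γ a = a⁻¹ := by
  classical
  set C := fixSub γ with hC
  have hCcard : Nat.card C = 2 := hfix
  have hmem : ∀ h : H, h * (γ h)⁻¹ ∈ M := by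
    intro h
    rw [Subgroup.mul_mem_iff_of_index_two hM, inv_mem_iff]
    exact hinv h
  let f : H ⧸ C → M := Quotient.lift (s := QuotientGroup.leftRel C)
    (fun h => (⟨h * (γ h)⁻¹, hmem h⟩ : M)) (by
      intro a b hab
      have hab' : a⁻¹ * b ∈ C := QuotientGroup.leftRel_apply.mp hab
      have h1 : γ (a⁻¹ * b) = a⁻¹ * b := hab'
      rw [map_mul, map_inv] at h1
      apply Subtype.ext
      show a * (γ a)⁻¹ = b * (γ b)⁻¹
      have h2 : γ b = γ a * (a⁻¹ * b) := by rw [← h1]; group
      rw [h2]; group)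
  have hf_inj : Function.Injective f := by
    intro x y
    induction x using QuotientGroup.induction_on with
    | H a =>
    induction y using QuotientGroup.induction_on with
    | H b =>
    intro hxy
    have h1 : a * (γ a)⁻¹ = b * (γ b)⁻¹ := congrArg Subtype.val hxy
    apply QuotientGroup.eq.mpr
    show γ (a⁻¹ * b) = a⁻¹ * b
    rw [map_mul, map_inv]
    have h2 : (γ a)⁻¹ = a⁻¹ * (b * (γ b)⁻¹) := by rw [← h1]; group
    rw [h2]; group
  have hcard : Nat.card (H ⧸ C) = Nat.card M := by
    have e1 : C.index * Nat.card C = Nat.card H := C.index_mul_card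
    have e2 : M.index * Nat.card M = Nat.card H := M.index_mul_card
    rw [hCcard] at e1
    rw [hM] at e2
    have : C.index = Nat.card M := by omega
    exact this
  have hf_surj : Function.Surjective f :=
    ((Nat.bijective_iff_injective_and_card f).mpr ⟨hf_inj, hcard⟩).2
  intro a ha
  obtain ⟨x, hx⟩ := hf_surj ⟨a, ha⟩
  induction x using QuotientGroup.induction_on with
  | H h =>
  have h1 : h * (γ h)⁻¹ = a := congrArg Subtype.val hx
  rw [← h1, map_mul, map_inv, gg γ hγ]
  group

theorem result {H : Type*} [Group H] [Finite H] (γ : MulAut H) (hγ : orderOf γ = 2) :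
    ((∀ h : H, γ h = h → h = 1) → (∀ a b : H, a * b = b * a) ∧ ∀ h : H, γ h = h⁻¹) ∧
    ((Nat.card {h : H // γ h = h} = 2 ∧ ∃ M : Subgroup H, M.index = 2) →
      ∃ A : Subgroup H, A.index = 2 ∧ IsMulCommutative A ∧ (∀ a ∈ A, γ a ∈ A) ∧ ∀ a ∈ A, γ a = a⁻¹) := by
  have hgg := gg γ hγ
  constructor
  · intro hfix
    have hinj : Function.Injective (fun h : H => h * (γ h)⁻¹) := by
      intro a b hab
      have hab' : a * (γ a)⁻¹ = b * (γ b)⁻¹ := hab
      have h1 : γ (a⁻¹ * b) = a⁻¹ * b := by
        rw [map_mul, map_inv]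
        have h2 : (γ a)⁻¹ = a⁻¹ * (b * (γ b)⁻¹) := by rw [← hab']; group
        rw [h2]; group
      have := hfix _ h1
      exact (inv_mul_eq_one.mp this)
    have hsurj : Function.Surjective (fun h : H => h * (γ h)⁻¹) := Finite.surjective_of_injective hinj
    have hinvert : ∀ h : H, γ h = h⁻¹ := by
      intro a
      obtain ⟨h, hh⟩ := hsurj a
      have h1 : h * (γ h)⁻¹ = a := hh
      rw [← h1, map_mul, map_inv, hgg]
      group
    refine ⟨?_, hinvert⟩
    intro a b
    have h1 : γ (a * b) = γ a * γ b := map_mul γ a b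
    rw [hinvert, hinvert, hinvert] at h1
    have h2 : (a * b)⁻¹⁻¹ = (a⁻¹ * b⁻¹)⁻¹ := by rw [h1]
    simpa using h2
  · rintro ⟨hfix, M, hM⟩
    -- it suffices to find an invariant subgroup of index 2
    suffices hs : ∃ A : Subgroup H, A.index = 2 ∧ ∀ h, h ∈ A ↔ γ h ∈ A by
      obtain ⟨A, hA, hAinv⟩ := hs
      have hinvert := inverted_of_invariant γ hγ hfix A hA hAinv
      refine ⟨A, hA, ?_, fun a ha => (hAinv a).mp ha, hinvert⟩
      refine ⟨⟨?_⟩⟩
      rintro ⟨a, ha⟩ ⟨b, hb⟩
      apply Subtype.ext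
      show a * b = b * a
      have h1 : γ (a * b) = γ a * γ b := map_mul γ a b
      rw [hinvert a ha, hinvert b hb, hinvert (a * b) (A.mul_mem ha hb)] at h1
      have h2 : (a * b)⁻¹⁻¹ = (a⁻¹ * b⁻¹)⁻¹ := by rw [h1]
      simpa using h2
    by_cases hall : ∀ h, h ∈ M ↔ γ h ∈ M
    · exact ⟨M, hM, hall⟩
    · push Not at hall
      obtain ⟨a, ha⟩ := hall
      let A : Subgroup H :=
        { carrier := {h | h ∈ M ↔ γ h ∈ M}
          mul_mem' := by
            intro x y hx hy
            simp only [Set.mem_ofPred_eq] at *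
            rw [map_mul, Subgroup.mul_mem_iff_of_index_two hM, Subgroup.mul_mem_iff_of_index_two hM, hx, hy]
          one_mem' := by simp [M.one_mem]
          inv_mem' := by
            intro x hx
            simp only [Set.mem_ofPred_eq] at *
            rw [map_inv, inv_mem_iff, inv_mem_iff, hx] }
      have hAmem : ∀ h, h ∈ A ↔ (h ∈ M ↔ γ h ∈ M) := fun h => Iff.rfl
      refine ⟨A, ?_, ?_⟩
      · rw [Subgroup.index_eq_two_iff]
        refine ⟨a, fun b => ?_⟩
        rw [hAmem, hAmem, map_mul, Subgroup.mul_mem_iff_of_index_two hM, Subgroup.mul_mem_iff_of_index_two hM]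
        unfold Xor
        tauto
      · intro h
        rw [hAmem, hAmem, hgg]
        tauto

end Cfsg.Agent.S3375
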