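import Cfsg.Statements.S3379
import Mathlib

set_option autoImplicit false
open Cfsg

namespace Cfsg.Agent.S3379

variable {G : Type*} [Group G]

theorem conj_pow_iter (x y : G) (r : ℕ) (h : x⁻¹ * y * x = y ^ r) (k : ℕ) :
    (x ^ k)⁻¹ * y * x ^ k = y ^ (r ^ k) := by
  induction k with
  | zero => simp
  | succ k ih =>
    have h1 : (x ^ (k + 1))⁻¹ * y * x ^ (k + 1) = x⁻¹ * ((x ^ k)⁻¹ * y * x ^ k) * x := by
      rw [pow_succ]; group
    rw [h1, ih]
    have h2 : x⁻¹ * y ^ (r ^ k) * x = (x⁻¹ * y * x) ^ (r ^ k) := by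
      have := conj_pow (a := x⁻¹) (b := y) (i := r ^ k)
      simpa using this.symm
    rw [h2, h, ← pow_mul, pow_succ, mul_comm]

theorem comm_of_closure (x y : G) (hxy : x * y = y * x) (hgen : Subgroup.closure {x, y} = ⊤) :
    IsMulCommutative G := by
  have h1 : ({x, y} : Set G) ⊆ Subgroup.centralizer ({x, y} : Set G) := by
    intro a ha
    rw [SetLike.mem_coe, Subgroup.mem_centralizer_iff]
    intro b hb
    simp only [Set.mem_insert_iff, Set.mem_singleton_iff] at ha hb
    rcases ha with rfl | rfl <;> rcases hb with rfl | rfl <;> simp [hxy]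
  have h2 : (⊤ : Subgroup G) ≤ Subgroup.centralizer ({x, y} : Set G) := by
    rw [← hgen, Subgroup.closure_le]; exact h1
  have h3 : ({x, y} : Set G) ⊆ Subgroup.center G := by
    intro a ha
    rw [SetLike.mem_coe, Subgroup.mem_center_iff]
    intro g
    have := Subgroup.mem_centralizer_iff.mp (h2 (Subgroup.mem_top g)) a ha
    exact this.symm
  have h4 : (⊤ : Subgroup G) ≤ Subgroup.center G := by
    rw [← hgen, Subgroup.closure_le]; exact h3
  refine ⟨⟨fun a b => ?_⟩⟩
  exact (Subgroup.mem_center_iff.mp (h4 (Subgroup.mem_top b)) a)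

theorem result {G : Type*} [Group G] [Finite G]
    (hZ : ∀ (p : ℕ) [Fact p.Prime] (P : Sylow p G), IsCyclic (P : Subgroup G)) :
    ∃ (x y : G) (n m r : ℕ), Subgroup.closure {x, y} = ⊤ ∧ orderOf x = n ∧ orderOf y = m ∧
      x⁻¹ * y * x = y ^ r ∧ Nat.Coprime (r - 1) m ∧ Nat.Coprime n m ∧ 1 ≤ r ∧ r ^ n % m = 1 % m := by
  have hG : IsZGroup G := ⟨fun p hp P => by
    have : Fact p.Prime := ⟨hp⟩
    exact hZ p P⟩
  obtain ⟨H, hH⟩ := Subgroup.exists_right_complement'_of_coprime hG.coprime_commutator_index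
  have e1 : Abelianization G ≃* H := hH.symm.QuotientMulEquiv
  have hHc : IsCyclic H := isCyclic_of_surjective _ e1.surjective
  have hNc : IsCyclic (commutator G) := hG.isCyclic_commutator
  obtain ⟨x₀, hx₀⟩ := hHc.exists_generator
  obtain ⟨y₀, hy₀⟩ := hNc.exists_generator
  set x : G := (x₀ : G) with hx
  set y : G := (y₀ : G) with hy
  have hxH : Subgroup.zpowers x = H := by
    ext g
    constructor
    · intro hg
      exact (Subgroup.zpowers_le.mpr x₀.2) hg
    · intro hg
      obtain ⟨k, hk⟩ := Subgroup.mem_zpowers_iff.mp (hx₀ ⟨g, hg⟩)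
      refine Subgroup.mem_zpowers_iff.mpr ⟨k, ?_⟩
      have := congrArg Subtype.val hk
      simpa using this
  have hyN : Subgroup.zpowers y = commutator G := by
    ext g
    constructor
    · intro hg
      exact (Subgroup.zpowers_le.mpr y₀.2) hg
    · intro hg
      obtain ⟨k, hk⟩ := Subgroup.mem_zpowers_iff.mp (hy₀ ⟨g, hg⟩)
      refine Subgroup.mem_zpowers_iff.mpr ⟨k, ?_⟩
      have := congrArg Subtype.val hk
      simpa using this
  have hgen : Subgroup.closure {x, y} = ⊤ := by
    rw [eq_top_iff, ← hH.sup_eq_top, sup_le_iff]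
    constructor
    · rw [← hyN, Subgroup.zpowers_le]
      exact Subgroup.subset_closure (by simp)
    · rw [← hxH, Subgroup.zpowers_le]
      exact Subgroup.subset_closure (by simp)
  have hm : orderOf y = Nat.card (commutator G) := by rw [← hyN, Nat.card_zpowers]
  have hn : orderOf x = (commutator G).index := by
    rw [hH.symm.index_eq_card, ← hxH, Nat.card_zpowers]
  have hmpos : 0 < orderOf y := orderOf_pos y
  -- conjugation exponent
  have hconjN : ∀ g : G, ∃ j : ℕ, g * y * g⁻¹ = y ^ j := by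
    intro g
    have h1 : g * y * g⁻¹ ∈ commutator G :=
      (inferInstance : (commutator G).Normal).conj_mem y y₀.2 g
    rw [← hyN, ← mem_powers_iff_mem_zpowers] at h1
    obtain ⟨j, hj⟩ := h1
    exact ⟨j, hj.symm⟩
  obtain ⟨r₀, hr₀⟩ := hconjN x⁻¹
  rw [inv_inv] at hr₀
  set r := r₀ + orderOf y with hr
  have hconj : x⁻¹ * y * x = y ^ r := by
    rw [hr₀, hr, pow_add, pow_orderOf_eq_one, mul_one]
  have hr1 : 1 ≤ r := by omega
  refine ⟨x, y, orderOf x, orderOf y, r, hgen, rfl, rfl, hconj, ?_, ?_, hr1, ?_⟩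
  · -- coprimality of r - 1 and m
    set D := Subgroup.zpowers (y ^ (r - 1)) with hD
    have hDn : D.Normal := by
      refine ⟨fun d hd g => ?_⟩
      obtain ⟨k, rfl⟩ := Subgroup.mem_zpowers_iff.mp hd
      obtain ⟨j, hj⟩ := hconjN g
      have h1 : g * (y ^ (r - 1)) ^ k * g⁻¹ = ((y ^ (r - 1)) ^ j) ^ k := by
        rw [← conj_zpow, ← conj_pow, hj, ← pow_mul, ← pow_mul, mul_comm]
      rw [h1]
      exact Subgroup.zpow_mem _ (Subgroup.pow_mem _ (Subgroup.mem_zpowers _) _) _
    have hcomm : IsMulCommutative (G ⧸ D) := by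
      apply comm_of_closure (QuotientGroup.mk' D x) (QuotientGroup.mk' D y)
      · rw [← map_mul, ← map_mul]
        apply (QuotientGroup.eq).mpr
        have h1 : (x * y)⁻¹ * (y * x) = y⁻¹ * (x⁻¹ * y * x) := by group
        rw [h1, hconj]
        have h2 : y⁻¹ * y ^ r = y ^ (r - 1) := by
          have : r = (r - 1) + 1 := by omega
          rw [this, pow_succ']
          simp
        rw [h2]
        exact Subgroup.mem_zpowers _
      · have h1 : (Subgroup.closure {x, y}).map (QuotientGroup.mk' D) = ⊤ := by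
          rw [hgen, ← MonoidHom.range_eq_map, MonoidHom.range_eq_top]
          exact QuotientGroup.mk'_surjective D
        rw [MonoidHom.map_closure, Set.image_pair] at h1
        exact h1
    have hle : commutator G ≤ D := Subgroup.Normal.quotient_commutative_iff_commutator_le.mp hcomm
    have hcard : orderOf y ≤ orderOf (y ^ (r - 1)) := by
      rw [hm, ← Nat.card_zpowers (y ^ (r - 1))]
      exact Subgroup.card_le_of_le hle
    rw [orderOf_pow] at hcard
    have hg : Nat.gcd (orderOf y) (r - 1) = 1 := by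
      have hgpos : 0 < Nat.gcd (orderOf y) (r - 1) := Nat.gcd_pos_of_pos_left _ hmpos
      by_contra hne
      have h2 : 2 ≤ Nat.gcd (orderOf y) (r - 1) := by omega
      have h3 : orderOf y / Nat.gcd (orderOf y) (r - 1) < orderOf y := Nat.div_lt_self hmpos h2
      omega
    exact (Nat.coprime_comm.mp hg)
  · rw [hn, hm]
    exact (hG.coprime_commutator_index).symm
  · have h1 := conj_pow_iter x y r hconj (orderOf x)
    rw [pow_orderOf_eq_one] at h1
    have h2 : y ^ (r ^ orderOf x) = y ^ 1 := by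
      rw [← h1]; simp
    exact pow_eq_pow_iff_modEq.mp h2

end Cfsg.Agent.S3379
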