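import Cfsg.Statements.S3380
import Cfsg.Agent.Lib.Helper92Imprim

set_option autoImplicit false
open Cfsg

namespace Cfsg.Agent.S3380

open Cfsg.Agent.Lib.Helper92Imprim

/-- Let a finite p-group G act faithfully and irreducibly on a non-trivial finite vector space V over the field with q elements (q prime), and suppose G is not cyclic, generalized quaternion, dihedral or semidihedral. Then G has a subgroup H of index p and V is the direct sum of p subspaces, each invariant under H, on none of which H acts faithfully, and which every element of G outside H permutes in a single p-cycle. -/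
theorem result
    (q : ℕ) [Fact q.Prime] {V : Type*} [AddCommGroup V] [Module (ZMod q) V] [Finite V] [Nontrivial V]
    {G : Type*} [Group G] [Finite G] (p : ℕ) [Fact p.Prime] (hG : IsPGroup p G)
    (ρ : G →* (V ≃ₗ[ZMod q] V)) (hρ : Function.Injective ρ)
    (hirr : ∀ W : Submodule (ZMod q) V, (∀ g : G, ∀ w ∈ W, ρ g w ∈ W) → W = ⊥ ∨ W = ⊤)
    (hnc : ¬ IsCyclic G) (hnq : ∀ n : ℕ, ¬ Nonempty (G ≃* QuaternionGroup n))
    (hnd : ∀ n : ℕ, ¬ Nonempty (G ≃* DihedralGroup n)) (hnsd : ¬ Cfsg.IsQuasiDihedral G) :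
    ∃ (H : Subgroup G) (W : Fin p → Submodule (ZMod q) V), H.index = p ∧
      iSup W = ⊤ ∧ iSupIndep W ∧
      (∀ h ∈ H, ∀ i, ∀ w ∈ W i, ρ h w ∈ W i) ∧
      (∀ i, ∃ h ∈ H, h ≠ 1 ∧ ∀ w ∈ W i, ρ h w = w) ∧
      ∀ g : G, g ∉ H → ∃ σ : Equiv.Perm (Fin p), orderOf σ = p ∧ ∀ i, (W i).map (ρ g : V →ₗ[ZMod q] V) = W (σ i) := by
  have hpq : p ≠ q := by
    rintro rfl
    apply hnc
    letI : MulAction G V := MulAction.compHom V ρ
    have hsm : ∀ (g : G) (v : V), g • v = ρ g v := fun g v => rfl
    have hdvd : p ∣ Nat.card V := by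
      obtain ⟨v, hv⟩ := exists_ne (0 : V)
      have h1 : p • v = 0 := by
        rw [← Nat.cast_smul_eq_nsmul (ZMod p), ZMod.natCast_self, zero_smul]
      have h2 : addOrderOf v = p := addOrderOf_eq_prime h1 hv
      rw [← h2]
      exact addOrderOf_dvd_natCard v
    obtain ⟨b, hb, hb0⟩ := hG.exists_fixed_point_of_prime_dvd_card_of_fixed_point V hdvd
      (a := 0) (by intro g; rw [hsm, map_zero])
    have hW : (⨅ g : G, fixS ρ g) = ⊤ := by
      rcases hirr (⨅ g : G, fixS ρ g) (by
        intro g w hw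
        have : ρ g w = w := (Submodule.mem_iInf _).mp hw g
        rw [this]; exact hw) with h | h
      · exfalso
        apply hb0
        have : b ∈ (⨅ g : G, fixS ρ g) := (Submodule.mem_iInf _).mpr (fun g => hb g)
        rw [h] at this
        exact ((Submodule.mem_bot _).mp this).symm
      · exact h
    have hone : ∀ g : G, g = 1 := by
      intro g
      apply hρ
      rw [map_one]
      ext v
      have : v ∈ (⨅ g : G, fixS ρ g) := by rw [hW]; trivial
      exact (Submodule.mem_iInf _).mp this g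
    have : Subsingleton G := ⟨fun a b => by rw [hone a, hone b]⟩
    infer_instance
  obtain ⟨z, e, hzZ, hz1, hzp, hep, hez, hconj⟩ := exists_pair_of_not p hG hnc hnq hnd hnsd
  exact imprimitive ρ p hpq hG hρ hirr z e hzZ hz1 hzp hep hez hconj

end Cfsg.Agent.S3380
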