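import Cfsg.Statements.S3381
import Mathlib

set_option autoImplicit false
open Cfsg

namespace Cfsg.Agent.S3381

section
variable {q : ℕ} [Fact q.Prime] {V : Type*} [AddCommGroup V] [Module (ZMod q) V]
  {G : Type*} [Group G] (ρ : G →* (V ≃ₗ[ZMod q] V))

theorem rho_mul (a b : G) (v : V) : ρ (a * b) v = ρ a (ρ b v) := by
  rw [map_mul]; rfl

theorem rho_one (v : V) : ρ 1 v = v := by
  rw [map_one]; rfl

variable (hstab : ∀ v : V, v ≠ 0 → Nat.card {g : G // ρ g v = v} = 2)
include hstab

theorem stab_unique (v : V) (hv : v ≠ 0) (a b : G) (ha : ρ a v = v) (hb : ρ b v = v)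
    (ha1 : a ≠ 1) (hb1 : b ≠ 1) : a = b := by
  have h := (Nat.card_eq_two_iff' (⟨1, rho_one ρ v⟩ : {g : G // ρ g v = v})).mp (hstab v hv)
  have h1 : (⟨a, ha⟩ : {g : G // ρ g v = v}) = ⟨b, hb⟩ := by
    apply h.unique
    · intro h'; exact ha1 (congrArg Subtype.val h')
    · intro h'; exact hb1 (congrArg Subtype.val h')
  exact congrArg Subtype.val h1

theorem stab_exists (v : V) (hv : v ≠ 0) : ∃ t : G, t ≠ 1 ∧ ρ t v = v ∧ t * t = 1 := by
  have h := (Nat.card_eq_two_iff' (⟨1, rho_one ρ v⟩ : {g : G // ρ g v = v})).mp (hstab v hv)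
  obtain ⟨⟨t, ht⟩, ht1, -⟩ := h
  have ht1' : t ≠ 1 := by
    intro h'; apply ht1; exact Subtype.ext h'
  refine ⟨t, ht1', ht, ?_⟩
  by_contra hne
  have h2 : ρ (t * t) v = v := by rw [rho_mul, ht, ht]
  have h3 := stab_unique ρ hstab v hv (t * t) t h2 ht hne ht1'
  apply ht1'
  have : t * t = t * 1 := by rw [h3, mul_one]
  exact mul_left_cancel this

/-- a central involution acts as `v` or `-v` on each vector -/
theorem central_pm (c : G) (hc : c * c = 1) (hc1 : c ≠ 1) (hcc : ∀ g, g * c = c * g) (v : V) :
    ρ c v = v ∨ ρ c v = -v := by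
  by_cases hv : ρ c v = v
  · left; exact hv
  · right
    have hv0 : v ≠ 0 := by
      rintro rfl; apply hv; simp
    obtain ⟨t, ht1, htv, -⟩ := stab_exists ρ hstab v hv0
    by_contra hne
    have hu : v + ρ c v ≠ 0 := by
      intro h; apply hne
      exact (neg_eq_of_add_eq_zero_right h).symm
    have h1 : ρ c (v + ρ c v) = v + ρ c v := by
      rw [map_add, ← rho_mul, hc, rho_one, add_comm]
    have h2 : ρ t (v + ρ c v) = v + ρ c v := by
      rw [map_add, ← rho_mul, hcc t, rho_mul, htv]
    have h3 := stab_unique ρ hstab _ hu c t h1 h2 hc1 ht1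
    apply hv
    rw [h3]; exact htv

theorem central_neg (hρ : Function.Injective ρ) (c : G) (hc : c * c = 1) (hc1 : c ≠ 1)
    (hcc : ∀ g, g * c = c * g) (w : V) : ρ c w = -w := by
  have hex : ∃ v₀, ρ c v₀ ≠ v₀ := by
    by_contra h
    push Not at h
    apply hc1
    apply hρ
    ext v
    rw [h v, rho_one]
  obtain ⟨v₀, hv₀⟩ := hex
  have h0 : ρ c v₀ = -v₀ := (central_pm ρ hstab c hc hc1 hcc v₀).resolve_left hv₀
  rcases central_pm ρ hstab c hc hc1 hcc w with hw | hw
  · rcases central_pm ρ hstab c hc hc1 hcc (w + v₀) with h | h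
    · exfalso
      rw [map_add, hw, h0] at h
      apply hv₀
      rw [h0]
      exact add_left_cancel h
    · rw [map_add, hw, h0, neg_add] at h
      rw [hw]
      exact add_right_cancel h
  · exact hw

end

theorem arith1 (a b M : ℕ) (hM : 0 < M) (ha : a * a ≤ M) (hb : b * b ≤ M) (hab : M ≤ a * b) :
    a * a = M := by
  apply le_antisymm ha
  have h1 : M * M ≤ (a * b) * (a * b) := Nat.mul_le_mul hab hab
  have h2 : (a * b) * (a * b) = (a * a) * (b * b) := by ring
  have h3 : (a * a) * (b * b) ≤ (a * a) * M := Nat.mul_le_mul_left _ hb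
  have h4 : M * M ≤ (a * a) * M := by omega
  exact Nat.le_of_mul_le_mul_right h4 hM

theorem result
    (q : ℕ) [Fact q.Prime] {V : Type*} [AddCommGroup V] [Module (ZMod q) V] [Finite V] [Nontrivial V]
    {G : Type*} [Group G] [Finite G] (ρ : G →* (V ≃ₗ[ZMod q] V)) (hρ : Function.Injective ρ)
    (hstab : ∀ v : V, v ≠ 0 → Nat.card {g : G // ρ g v = v} = 2)
    (z : G) (hz : orderOf z = 2) (hzc : z ∈ Subgroup.center G) :
    ∃ r : ℕ, Nat.card V = q ^ (2 * r) ∧
      Nat.card {g : G // orderOf g = 2 ∧ g ∉ Subgroup.center G} = q ^ r + 1 := by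
  classical
  have hq : q.Prime := Fact.out
  have := Fintype.ofFinite V
  have := Fintype.ofFinite G
  have hzz : z * z = 1 := by
    have := pow_orderOf_eq_one z
    rwa [hz, pow_two] at this
  have hz1 : z ≠ 1 := by
    intro h; rw [h, orderOf_one] at hz; omega
  have hzcomm : ∀ g, g * z = z * g := fun g => Subgroup.mem_center_iff.mp hzc g
  have hzneg : ∀ w, ρ z w = -w := central_neg ρ hstab hρ z hzz hz1 hzcomm
  -- 2 is invertible
  have hneg : ∀ v : V, v ≠ 0 → -v ≠ v := by
    intro v hv h
    -- then z fixes v; also some t; look at char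
    have hq2 : q ≠ 2 := by
      intro hq2
      apply hz1
      apply hρ
      ext w
      rw [hzneg, rho_one]
      have : (2 : ZMod q) • w = 0 := by
        have h2 : (2 : ZMod q) = 0 := by
          have h3 : ((2 : ℕ) : ZMod q) = 0 := by
            rw [ZMod.natCast_eq_zero_iff, hq2]
          exact_mod_cast h3
        rw [h2, zero_smul]
      rw [two_smul] at this
      exact neg_eq_of_add_eq_zero_left this
    have h2 : (2 : ZMod q) • v = 0 := by
      rw [two_smul]
      nth_rewrite 1 [← h]
      exact neg_add_cancel v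
    rcases smul_eq_zero.mp h2 with h3 | h3
    · have h4 : ((2 : ℕ) : ZMod q) = 0 := by exact_mod_cast h3
      rw [ZMod.natCast_eq_zero_iff] at h4
      have := (Nat.prime_dvd_prime_iff_eq hq Nat.prime_two).mp h4
      exact hq2 this
    · exact hv h3
  have hdouble : ∀ v w : V, v + v = w + w → v = w := by
    intro v w h
    by_contra hne
    have h1 : v - w ≠ 0 := sub_ne_zero.mpr hne
    apply hneg _ h1
    have : (v - w) + (v - w) = 0 := by
      have : (v - w) + (v - w) = (v + v) - (w + w) := by abel
      rw [this, h, sub_self]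
    exact neg_eq_of_add_eq_zero_left this
  -- the set of noncentral involutions
  let I : Finset G := Finset.univ.filter (fun g => orderOf g = 2 ∧ g ∉ Subgroup.center G)
  have hImem : ∀ g, g ∈ I ↔ (orderOf g = 2 ∧ g ∉ Subgroup.center G) := by
    intro g; simp [I]
  have hIsq : ∀ t ∈ I, t * t = 1 := by
    intro t ht
    have := pow_orderOf_eq_one t
    rwa [((hImem t).mp ht).1, pow_two] at this
  have hI1 : ∀ t ∈ I, t ≠ 1 := by
    intro t ht h
    have := ((hImem t).mp ht).1
    rw [h, orderOf_one] at this; omega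
  -- each nonzero vector is fixed by a unique element of I
  have hIex : ∀ v : V, v ≠ 0 → ∃ t ∈ I, ρ t v = v := by
    intro v hv
    obtain ⟨t, ht1, htv, htt⟩ := stab_exists ρ hstab v hv
    refine ⟨t, (hImem t).mpr ⟨orderOf_eq_prime (by rw [pow_two]; exact htt) ht1, ?_⟩, htv⟩
    intro hc
    have := central_neg ρ hstab hρ t htt ht1 (fun g => Subgroup.mem_center_iff.mp hc g) v
    rw [htv] at this
    exact hneg v hv this.symm
  have hIuniq : ∀ v : V, v ≠ 0 → ∀ t ∈ I, ∀ s ∈ I, ρ t v = v → ρ s v = v → t = s := by
    intro v hv t ht s hs h1 h2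
    exact stab_unique ρ hstab v hv t s h1 h2 (hI1 t ht) (hI1 s hs)
  let A : G → Finset V := fun t => Finset.univ.filter (fun v => ρ t v = v)
  have hAmem : ∀ t v, v ∈ A t ↔ ρ t v = v := by intro t v; simp [A]
  -- (b)
  have hb : ∀ t ∈ I, ∀ s ∈ I, t ≠ s → (A t).card * (A s).card ≤ Fintype.card V := by
    intro t ht s hs hts
    rw [← Finset.card_product, ← Finset.card_univ]
    apply Finset.card_le_card_of_injOn (fun p => p.1 + p.2) (fun _ _ => Finset.mem_univ _)
    rintro ⟨a, b⟩ hab ⟨a', b'⟩ hab' heq
    simp only [Finset.coe_product, Set.mem_prod, Finset.mem_coe, hAmem] at hab hab'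
    have heq' : a + b = a' + b' := heq
    have h1 : a - a' = b' - b := by
      have : a - a' = (a + b) - (a' + b) := by abel
      rw [this, heq']; abel
    have h2 : ρ t (a - a') = a - a' := by rw [map_sub, hab.1, hab'.1]
    have h3 : ρ s (a - a') = a - a' := by rw [h1, map_sub, hab.2, hab'.2]
    have h4 : a - a' = 0 := by
      by_contra hne
      exact hts (hIuniq _ hne t ht s hs h2 h3)
    have h5 : a = a' := sub_eq_zero.mp h4
    have h6 : b' = b := by rw [h4] at h1; exact sub_eq_zero.mp h1.symm
    rw [h5, h6]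
  -- (c)
  have hc : ∀ t ∈ I, Fintype.card V ≤ (A t).card * (A (z * t)).card := by
    intro t ht
    rw [← Finset.card_product, ← Finset.card_univ]
    apply Finset.card_le_card_of_injOn (fun v => (v + ρ t v, v - ρ t v))
    · intro v _
      simp only [Finset.coe_product, Set.mem_prod, Finset.mem_coe, hAmem]
      constructor
      · rw [map_add, ← rho_mul, hIsq t ht, rho_one, add_comm]
      · rw [rho_mul, hzneg, map_sub, ← rho_mul, hIsq t ht, rho_one]; abel
    · intro v _ w _ heq
      have h1 : v + ρ t v = w + ρ t w := congrArg Prod.fst heq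
      have h2 : v - ρ t v = w - ρ t w := congrArg Prod.snd heq
      apply hdouble
      have : v + v = (v + ρ t v) + (v - ρ t v) := by abel
      rw [this, h1, h2]; abel
  -- z t in I
  have hzI : ∀ t ∈ I, z * t ∈ I := by
    intro t ht
    have htc := ((hImem t).mp ht).2
    rw [hImem]
    constructor
    · apply orderOf_eq_prime
      · rw [pow_two]
        calc z * t * (z * t) = z * (t * z) * t := by group
          _ = z * (z * t) * t := by rw [hzcomm t]
          _ = (z * z) * (t * t) := by group
          _ = 1 := by rw [hzz, hIsq t ht, one_mul]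
      · intro h
        apply htc
        have : t = z := by
          have h2 : z * t = z * z := by rw [h, hzz]
          exact mul_left_cancel h2
        rw [this]; exact hzc
    · intro h
      apply htc
      have : t = z * (z * t) := by rw [← mul_assoc, hzz, one_mul]
      rw [this]
      exact Subgroup.mul_mem _ hzc h
  -- (d) conjugates
  have hd : ∀ t ∈ I, (A t).card * (A t).card ≤ Fintype.card V := by
    intro t ht
    have htc := ((hImem t).mp ht).2
    rw [Subgroup.mem_center_iff] at htc
    push Not at htc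
    obtain ⟨g, hg⟩ := htc
    set s := g * t * g⁻¹ with hs
    have hsI : s ∈ I := by
      rw [hImem]
      constructor
      · have hsc : SemiconjBy g t s := by
          show g * t = s * g
          rw [hs]; group
        rw [← hsc.orderOf_eq]
        exact ((hImem t).mp ht).1
      · intro h
        apply ((hImem t).mp ht).2
        have : t = g⁻¹ * s * g := by rw [hs]; group
        rw [this]
        have hn : (Subgroup.center G).Normal := inferInstance
        have := hn.conj_mem s h g⁻¹
        simpa using this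
    have hst : t ≠ s := by
      intro h
      apply hg
      have : s * g = g * t := by rw [hs]; group
      rw [← this, ← h]
    have hcard : (A s).card = (A t).card := by
      apply Finset.card_bij' (fun v _ => ρ g⁻¹ v) (fun v _ => ρ g v)
      · intro v hv
        rw [hAmem] at hv ⊢
        have : ρ t (ρ g⁻¹ v) = ρ g⁻¹ (ρ s v) := by
          rw [← rho_mul, ← rho_mul, hs]; congr 2; group
        rw [this, hv]
      · intro v hv
        rw [hAmem] at hv ⊢
        have : ρ s (ρ g v) = ρ g (ρ t v) := by
          rw [← rho_mul, ← rho_mul, hs]; congr 2; group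
        rw [this, hv]
      · intro v _
        rw [← rho_mul, mul_inv_cancel, rho_one]
      · intro v _
        rw [← rho_mul, inv_mul_cancel, rho_one]
    have := hb t ht s hsI hst
    rwa [hcard] at this
  have hVpos : 0 < Fintype.card V := Fintype.card_pos
  have hsq : ∀ t ∈ I, (A t).card * (A t).card = Fintype.card V := by
    intro t ht
    exact arith1 _ _ _ hVpos (hd t ht) (hd _ (hzI t ht)) (hc t ht)
  -- pick some t₀
  obtain ⟨v₀, hv₀⟩ := exists_ne (0 : V)
  obtain ⟨t₀, ht₀, -⟩ := hIex v₀ hv₀
  set N := (A t₀).card with hN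
  have hNsq : N * N = Fintype.card V := hsq t₀ ht₀
  have hall : ∀ t ∈ I, (A t).card = N := by
    intro t ht
    have h1 := hsq t ht
    rw [← hNsq] at h1
    exact Nat.mul_self_inj.mp h1
  have hVcard : Fintype.card V = q ^ Module.finrank (ZMod q) V := by
    rw [Module.card_eq_pow_finrank (K := ZMod q) (V := V), ZMod.card]
  have hNdvd : N ∣ q ^ Module.finrank (ZMod q) V := by
    rw [← hVcard, ← hNsq]; exact Dvd.intro _ rfl
  obtain ⟨r, -, hr⟩ := (Nat.dvd_prime_pow hq).mp hNdvd
  refine ⟨r, ?_, ?_⟩
  · rw [Nat.card_eq_fintype_card, ← hNsq, hr, two_mul, pow_add]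
  · -- double counting
    have hcount := Finset.sum_card_bipartiteAbove_eq_sum_card_bipartiteBelow
      (s := I) (t := (Finset.univ : Finset V)) (fun t v => ρ t v = v)
    have hL : ∑ a ∈ I, (Finset.bipartiteAbove (fun t v => ρ t v = v) (Finset.univ : Finset V) a).card
        = I.card * N := by
      rw [Finset.sum_const_nat (m := N)]
      intro t ht
      exact hall t ht
    have hR : ∑ b ∈ (Finset.univ : Finset V), (Finset.bipartiteBelow (fun t v => ρ t v = v) I b).card
        = I.card + (Fintype.card V - 1) := by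
      rw [← Finset.add_sum_erase _ _ (Finset.mem_univ (0 : V))]
      congr 1
      · congr 1
        ext t
        simp [Finset.bipartiteBelow]
      · rw [Finset.sum_const_nat (m := 1)]
        · rw [Finset.card_erase_of_mem (Finset.mem_univ _), Finset.card_univ, mul_one]
        · intro v hv
          have hv0 : v ≠ 0 := Finset.ne_of_mem_erase hv
          rw [Finset.card_eq_one]
          obtain ⟨t, ht, htv⟩ := hIex v hv0
          refine ⟨t, ?_⟩
          ext s
          simp only [Finset.bipartiteBelow, Finset.mem_filter, Finset.mem_singleton]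
          constructor
          · rintro ⟨hs, hsv⟩
            exact hIuniq v hv0 s hs t ht hsv htv
          · rintro rfl
            exact ⟨ht, htv⟩
    rw [hL, hR, ← hNsq] at hcount
    have hIcard : Nat.card {g : G // orderOf g = 2 ∧ g ∉ Subgroup.center G} = I.card := by
      rw [Nat.card_eq_fintype_card, Fintype.card_subtype]
    rw [hIcard, ← hr]
    have hN2 : 2 ≤ N := by
      have h2 : 2 ≤ Fintype.card V := Fintype.one_lt_card
      rw [← hNsq] at h2
      by_contra h
      have : N ≤ 1 := by omega
      have : N * N ≤ 1 := by nlinarith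
      omega
    clear_value N
    obtain ⟨k, rfl⟩ : ∃ k, N = k + 2 := ⟨N - 2, by omega⟩
    have h3 : (k + 2) * (k + 2) - 1 = (k + 1) * (k + 3) := by
      have : (k + 2) * (k + 2) = (k + 1) * (k + 3) + 1 := by ring
      omega
    rw [h3] at hcount
    have h4 : I.card * (k + 1) = (k + 3) * (k + 1) := by nlinarith
    have := Nat.eq_of_mul_eq_mul_right (by omega) h4
    omega

end Cfsg.Agent.S3381
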