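import Cfsg.Statements.S3382
import Cfsg.Agent.Lib.Helper50MonoC

set_option autoImplicit false
open Cfsg

namespace Cfsg.Agent.S3382

open Cfsg.Agent.Lib.Helper50Mono Cfsg.Agent.Lib.Helper50MonoA Cfsg.Agent.Lib.Helper50MonoB Cfsg.Agent.Lib.Helper50MonoC

/-- Let q = 2^m + 1 be a prime other than 5. Then the automorphism group of the group of linear maps of F_q² of the forms (x, y) ↦ (a x, ± a⁻¹ y) and (x, y) ↦ (± a⁻¹ y, a x) with a ≠ 0 is itself a 2-group. -/
theorem result (q m : ℕ) [Fact q.Prime] (hq : q = 2 ^ m + 1) (hq5 : q ≠ 5)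
    (T : Subgroup ((Fin 2 → ZMod q) ≃ₗ[ZMod q] (Fin 2 → ZMod q)))
    (hT : ∀ f, f ∈ T ↔ ∃ a s : ZMod q, a ≠ 0 ∧ (s = 1 ∨ s = -1) ∧
      ((∀ v, f v = ![a * v 0, s * a⁻¹ * v 1]) ∨ (∀ v, f v = ![s * a⁻¹ * v 1, a * v 0]))) :
    IsPGroup 2 (MulAut T) := by
  have hT' : ∀ f, f ∈ T ↔ ∃ a b : ZMod q, (a * b = 1 ∨ a * b = -1) ∧ (Dg f a b ∨ An f a b) := by
    intro f
    rw [hT]
    constructor
    · rintro ⟨a, s, ha, hs, h | h⟩
      · refine ⟨a, s * a⁻¹, ?_, Or.inl h⟩
        have : a * (s * a⁻¹) = s := by field_simp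
        rw [this]; exact hs
      · refine ⟨s * a⁻¹, a, ?_, Or.inr h⟩
        have : s * a⁻¹ * a = s := by field_simp
        rw [this]; exact hs
    · rintro ⟨a, b, hab, h | h⟩
      · have hn := nz hab
        refine ⟨a, a * b, hn.1, hab, Or.inl ?_⟩
        have : a * b * a⁻¹ = b := by
          have := hn.1
          field_simp
        rw [this]; exact h
      · have hn := nz hab
        refine ⟨b, a * b, hn.2, hab, Or.inr ?_⟩
        have : a * b * b⁻¹ = a := by
          have := hn.2
          field_simp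
        rw [this]; exact h
  haveI : Finite ((Fin 2 → ZMod q) ≃ₗ[ZMod q] (Fin 2 → ZMod q)) :=
    Finite.of_injective (fun f => (f : (Fin 2 → ZMod q) → (Fin 2 → ZMod q))) DFunLike.coe_injective
  apply isPGroup_of_odd
  intro α r hr hα
  rcases m with _ | _ | _ | m
  · have hq2 : q = 2 := by simpa using hq
    subst hq2
    exact small2 T hT' α
  · have hq3 : q = 3 := by simpa using hq
    subst hq3
    exact small3 T hT' α r hr hα
  · exact absurd (by simpa using hq) hq5
  · have hq9 : 9 ≤ q := by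
      have : 1 ≤ 2 ^ m := Nat.one_le_two_pow
      rw [hq, pow_add]; omega
    have hnd : ∀ n : ℕ, 0 < n → n < 9 → ((n : ℕ) : ZMod q) ≠ 0 := by
      intro n h0 h9 h
      rw [ZMod.natCast_eq_zero_iff] at h
      have := Nat.le_of_dvd h0 h
      omega
    have h20 : (2 : ZMod q) ≠ 0 := by
      have := hnd 2 (by norm_num) (by norm_num)
      simpa using this
    have h24 : (2 : ZMod q) ^ 4 ≠ 1 := by
      intro h
      have h3 := hnd 3 (by norm_num) (by norm_num)
      have h5 := hnd 5 (by norm_num) (by norm_num)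
      have : ((3 : ℕ) : ZMod q) * ((5 : ℕ) : ZMod q) = 0 := by
        push_cast
        linear_combination h
      rcases mul_eq_zero.mp this with h' | h'
      · exact h3 h'
      · exact h5 h'
    have hi : ∃ i : ZMod q, i * i = -1 := by
      have : IsSquare (-1 : ZMod q) := by
        rw [ZMod.exists_sq_eq_neg_one_iff]
        have : q % 4 = 1 := by
          rw [hq, show m + 1 + 1 + 1 = m + 1 + 2 from rfl, pow_add]
          omega
        omega
      obtain ⟨i, hi⟩ := this
      exact ⟨i, hi.symm⟩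
    have hG : IsPGroup 2 T := by
      intro x
      obtain ⟨a, b, hab, h | h⟩ := (hT' x).mp x.2
      · refine ⟨m + 1 + 1 + 1, ?_⟩
        apply Subtype.ext
        have h2 := h.pow (2 ^ (m + 1 + 1 + 1))
        have e : 2 ^ (m + 1 + 1 + 1) = q - 1 := by omega
        rw [e, ZMod.pow_card_sub_one_eq_one (nz hab).1, ZMod.pow_card_sub_one_eq_one (nz hab).2,
          ← e] at h2
        simpa using h2.ext Dg.one
      · refine ⟨2, ?_⟩
        apply Subtype.ext
        have h2 := (h.mul h).pow 2
        have e1 : (a * b) ^ 2 = 1 := by rcases hab with h | h <;> rw [h] <;> ring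
        have e2 : (b * a) ^ 2 = 1 := by rw [mul_comm]; exact e1
        rw [e1, e2] at h2
        have h3 := h2.ext Dg.one
        rw [← sq, ← pow_mul] at h3
        simpa using h3
    exact big T hT' hG h24 h20 hi α r hr hα

end Cfsg.Agent.S3382
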