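import Cfsg.Statements.S3383
import Mathlib

set_option autoImplicit false
open Cfsg

namespace Cfsg.Agent.S3383

open scoped Pointwise

variable {L : Type*} [Group L]

theorem mem_conj_smul (H : Subgroup L) (g x : L) :
    x ∈ MulAut.conj g • H ↔ g⁻¹ * x * g ∈ H := by
  rw [Subgroup.mem_pointwise_smul_iff_inv_smul_mem]
  simp [MulAut.smul_def, MulAut.conj_apply, ← map_inv]

/-- centralizers of nontrivial elements of a Frobenius complement lie in the complement -/
theorem comm_mem (H : Subgroup L) (hH : Cfsg.IsFrobeniusComplement H) (x : L) (hx : x ∈ H) (hx1 : x ≠ 1)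
    (c : L) (hc : c * x = x * c) : c ∈ H := by
  by_contra hcH
  have h := hH.2.2 c hcH
  have hmem : x ∈ H ⊓ (MulAut.conj c • H) := by
    refine Subgroup.mem_inf.mpr ⟨hx, ?_⟩
    rw [mem_conj_smul]
    have : c⁻¹ * x * c = x := by
      rw [mul_assoc, ← hc]; group
    rw [this]; exact hx
  rw [h] at hmem
  exact hx1 (Subgroup.mem_bot.mp hmem)

theorem result {L : Type*} [Group L] [Finite L]
    (H : Subgroup L) (hH : Cfsg.IsFrobeniusComplement H)
    (K : Subgroup L) (hK : (K : Set L) = Cfsg.frobeniusKernel H) :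
    K.Characteristic ∧ ∀ N : Subgroup L, N.Normal → K ≤ N ∨ N ≤ K := by
  have hKmem : ∀ x, x ∈ K ↔ (x = 1 ∨ ∀ g : L, x ∉ MulAut.conj g • H) := by
    intro x
    rw [← SetLike.mem_coe, hK]; rfl
  have hKnormal : K.Normal := by
    refine ⟨fun k hk g => ?_⟩
    rw [hKmem] at hk ⊢
    rcases hk with rfl | hk
    · left; group
    · right
      intro a ha
      apply hk (g⁻¹ * a)
      rw [mem_conj_smul] at ha ⊢
      have : (g⁻¹ * a)⁻¹ * k * (g⁻¹ * a) = a⁻¹ * (g * k * g⁻¹) * a := by group
      rw [this]; exact ha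
  have hKH : ∀ x, x ∈ K → x ∈ H → x = 1 := by
    intro x hxK hxH
    rcases (hKmem x).mp hxK with h | h
    · exact h
    · exfalso
      apply h 1
      rw [mem_conj_smul]; simpa using hxH
  have hcomp : ∀ N : Subgroup L, N.Normal → K ≤ N ∨ N ≤ K := by
    intro N hN
    by_cases hNK : N ≤ K
    · right; exact hNK
    · left
      obtain ⟨y, hyN, hyK⟩ := SetLike.not_le_iff_exists.mp hNK
      rw [hKmem] at hyK
      push Not at hyK
      obtain ⟨hy1, g, hyg⟩ := hyK
      rw [mem_conj_smul] at hyg
      set x := g⁻¹ * y * g with hx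
      have hxN : x ∈ N := by
        have := hN.conj_mem y hyN g⁻¹
        simpa [hx] using this
      have hx1 : x ≠ 1 := by
        intro h
        apply hy1
        have : y = g * x * g⁻¹ := by rw [hx]; group
        rw [this, h]; group
      -- the map k ↦ x⁻¹ k⁻¹ x k on K
      let f : K → K := fun k => ⟨x⁻¹ * (k : L)⁻¹ * x * k, by
        have h1 : x⁻¹ * (k : L)⁻¹ * x ∈ K := by
          have := hKnormal.conj_mem (k : L)⁻¹ (K.inv_mem k.2) x⁻¹
          simpa using this
        exact K.mul_mem h1 k.2⟩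
      have hf : Function.Injective f := by
        intro a b hab
        have h1 : x⁻¹ * (a : L)⁻¹ * x * a = x⁻¹ * (b : L)⁻¹ * x * b := congrArg Subtype.val hab
        have h2 : ((b : L) * (a : L)⁻¹) * x = x * ((b : L) * (a : L)⁻¹) := by
          have h3 : (a : L)⁻¹ * x * a = (b : L)⁻¹ * x * b := by
            have := congrArg (fun t => x * t) h1
            simpa [mul_assoc] using this
          have h4 : x * a = (a : L) * ((b : L)⁻¹ * x * b) := by rw [← h3]; group
          calc ((b : L) * (a : L)⁻¹) * x = (b : L) * (a : L)⁻¹ * (x * a) * (a : L)⁻¹ := by group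
            _ = (b : L) * (a : L)⁻¹ * ((a : L) * ((b : L)⁻¹ * x * b)) * (a : L)⁻¹ := by rw [h4]
            _ = x * ((b : L) * (a : L)⁻¹) := by group
        have h5 : (b : L) * (a : L)⁻¹ ∈ H := comm_mem H hH x hyg hx1 _ h2
        have h6 : (b : L) * (a : L)⁻¹ = 1 := hKH _ (K.mul_mem b.2 (K.inv_mem a.2)) h5
        apply Subtype.ext
        exact (mul_inv_eq_one.mp h6).symm
      have hfs : Function.Surjective f := Finite.surjective_of_injective hf
      intro k hk
      obtain ⟨a, ha⟩ := hfs ⟨k, hk⟩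
      have h1 : x⁻¹ * (a : L)⁻¹ * x * a = k := congrArg Subtype.val ha
      rw [← h1]
      have h2 : (a : L)⁻¹ * x * a ∈ N := by
        have := hN.conj_mem x hxN (a : L)⁻¹
        simpa using this
      have h3 : x⁻¹ * (a : L)⁻¹ * x * a = x⁻¹ * ((a : L)⁻¹ * x * a) := by group
      rw [h3]
      exact N.mul_mem (N.inv_mem hxN) h2
  refine ⟨?_, hcomp⟩
  rw [Subgroup.characteristic_iff_map_eq]
  intro φ
  have hn : (K.map φ.toMonoidHom).Normal := by
    exact hKnormal.map _ φ.surjective
  have hcard : Nat.card (K.map φ.toMonoidHom) = Nat.card K :=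
    Subgroup.card_map_of_injective φ.injective
  rcases hcomp _ hn with h | h
  · exact (Subgroup.eq_of_le_of_card_ge h (le_of_eq hcard)).symm
  · exact Subgroup.eq_of_le_of_card_ge h (le_of_eq hcard.symm)

end Cfsg.Agent.S3383
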