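import Cfsg.Statements.S3419
import Cfsg.Agent.Lib.Helper12Hall
import Cfsg.Agent.Lib.H78AsTwoP
import Cfsg.Agent.Lib.H78AsNoPR
import Cfsg.Agent.Lib.H78AsFac
import Cfsg.Agent.Lib.H78AsSplit
import Cfsg.Agent.Lib.H78AsCases

set_option autoImplicit false
open Cfsg

namespace Cfsg.Agent.S3419

open Cfsg.Agent.Lib

theorem card_alt (n : ℕ) (hn : 2 ≤ n) :
    2 * Nat.card ↥(alternatingGroup (Fin n)) = n.factorial := by
  haveI : Nontrivial (Fin n) := Fin.nontrivial_iff_two_le.mpr hn
  rw [Nat.card_eq_fintype_card, two_mul_card_alternatingGroup, Fintype.card_perm, Fintype.card_fin]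

/-- Let n ≥ 5 and let G be a finite group with the same order and the same set of element orders as the alternating group of degree n. Then G is not solvable. -/
theorem result {G : Type*} [Group G] [Finite G] (n : ℕ) (hn : 5 ≤ n)
    (hcard : Nat.card G = Nat.card ↥(alternatingGroup (Fin n)))
    (hspec : Set.range (orderOf : G → ℕ) = Set.range (orderOf : ↥(alternatingGroup (Fin n)) → ℕ)) :
    ¬ Group.IsSolvable G := by
  intro hsol
  have key : ∀ m : ℕ, (∀ σ : alternatingGroup (Fin n), orderOf σ ≠ m) → ∀ g : G, orderOf g ≠ m := by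
    intro m h g hg
    have h1 : m ∈ Set.range (orderOf : G → ℕ) := ⟨g, hg⟩
    rw [hspec] at h1
    obtain ⟨σ, hσ⟩ := h1
    exact h σ hσ
  by_cases h6 : n = 6
  · subst h6
    have hc : Nat.card G = 45 * 8 := by
      have := card_alt 6 (by norm_num)
      rw [← hcard] at this
      have h720 : Nat.factorial 6 = 720 := by decide
      omega
    obtain ⟨H, hH⟩ := Helper12Hall.hall_exists 45 8 hc (by norm_num)
    obtain ⟨h, hh⟩ := H78AsCases.order_45 hH
    exact key (5 * 3) (H78AsNoPR.no_order_alt (by norm_num) (by norm_num) (by norm_num)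
      (by norm_num)) (h : G) (by rw [Subgroup.orderOf_coe]; exact hh)
  by_cases h10 : n = 10
  · subst h10
    have hc : Nat.card G = 175 * 10368 := by
      have := card_alt 10 (by norm_num)
      rw [← hcard] at this
      have h720 : Nat.factorial 10 = 3628800 := by decide
      omega
    obtain ⟨H, hH⟩ := Helper12Hall.hall_exists 175 10368 hc (by norm_num)
    obtain ⟨h, hh⟩ := H78AsCases.order_175 hH
    exact key (7 * 5) (H78AsNoPR.no_order_alt (by norm_num) (by norm_num) (by norm_num)
      (by norm_num)) (h : G) (by rw [Subgroup.orderOf_coe]; exact hh)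
  obtain ⟨r, p, hr, hp, h1, h2, h3⟩ := H78AsTwoP.two_primes n hn h6 h10
  have hfp := H78AsFac.fac_alt hp (H78AsTwoP.ne_two hn (by omega)) h3 (by omega)
  have hfr := H78AsFac.fac_alt hr (H78AsTwoP.ne_two hn h1) (by omega) h1
  obtain ⟨k, hk, hcop⟩ := H78AsSplit.split hp hr h2.ne' hfp hfr
  obtain ⟨H, hH⟩ := Helper12Hall.hall_exists (p * r) k (hcard.trans hk) hcop
  obtain ⟨h, hh⟩ := H78AsCases.order_pr hp hr h2 (H78AsTwoP.not_dvd hn hp hr h1 h3) hH
  exact key (p * r) (H78AsNoPR.no_order_alt hp hr h2.ne' (by omega)) (h : G)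
    (by rw [Subgroup.orderOf_coe]; exact hh)

end Cfsg.Agent.S3419
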