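import Cfsg.Statements.S3420
import Cfsg.Agent.Lib.H78AsTwoP
import Cfsg.Agent.Lib.H78AsNoPR
import Cfsg.Agent.Lib.H78AsFac
import Cfsg.Agent.Lib.H78AsFrat
import Cfsg.Agent.Lib.H78AsSimA
import Cfsg.Agent.Lib.H78AsSimB
import Cfsg.Agent.Lib.H78AsQuot
import Cfsg.Agent.Lib.H78AsNC
import Cfsg.Agent.Lib.H78AsChoose

set_option autoImplicit false
open Cfsg

namespace Cfsg.Agent.S3420

open Cfsg.Agent.Lib

/-- Let n ≥ 11 and let G be a finite group with the same order and the same set of element orders as the alternating group of degree n. Then G has normal subgroups N < H such that H/N is a non-abelian simple group whose order is divisible by every prime p with n/2 < p ≤ n. -/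
theorem result {G : Type*} [Group G] [Finite G] (n : ℕ) (hn : 11 ≤ n)
    (hcard : Nat.card G = Nat.card ↥(alternatingGroup (Fin n)))
    (hspec : Set.range (orderOf : G → ℕ) = Set.range (orderOf : ↥(alternatingGroup (Fin n)) → ℕ)) :
    ∃ (N H : Subgroup G) (_ : N.Normal), H.Normal ∧ N < H ∧
      IsSimpleGroup (↥H ⧸ N.subgroupOf H) ∧ ¬ IsMulCommutative (↥H ⧸ N.subgroupOf H) ∧
      ∀ p : ℕ, p.Prime → n < 2 * p → p ≤ n → p ∣ Nat.card (↥H ⧸ N.subgroupOf H) := by
  classical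
  have hn5 : 5 ≤ n := by omega
  have key : ∀ m : ℕ, (∀ σ : alternatingGroup (Fin n), orderOf σ ≠ m) → ∀ g : G, orderOf g ≠ m := by
    intro m h g hg
    have h1 : m ∈ Set.range (orderOf : G → ℕ) := ⟨g, hg⟩
    rw [hspec] at h1
    obtain ⟨σ, hσ⟩ := h1
    exact h σ hσ
  set π : ℕ → Prop := fun p => p.Prime ∧ n < 2 * p ∧ p ≤ n with hπ
  have hfac : ∀ p, π p → (Nat.card G).factorization p = 1 := by
    intro p hp
    rw [hcard]
    exact H78AsFac.fac_alt hp.1 (H78AsTwoP.ne_two hn5 hp.2.1) hp.2.2 hp.2.1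
  have hdvdG : ∀ p, π p → p ∣ Nat.card G := by
    intro p hp
    apply Nat.dvd_of_factorization_pos
    rw [hfac p hp]
    exact one_ne_zero
  have hno : ∀ p r, π p → π r → p ≠ r → ∀ g : G, orderOf g ≠ p * r := by
    intro p r hp hr hne
    exact key (p * r) (H78AsNoPR.no_order_alt hp.1 hr.1 hne (by have := hp.2.1; have := hr.2.1; omega))
  have hdiv : ∀ p r, π p → π r → ¬ r ∣ p - 1 := fun p r hp hr =>
    H78AsTwoP.not_dvd hn5 hp.1 hr.1 hr.2.1 hp.2.2
  obtain ⟨r0, p0, hr0, hp0, h1, h2, h3⟩ := H78AsTwoP.two_primes n hn5 (by omega) (by omega)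
  have hπr0 : π r0 := ⟨hr0, h1, by omega⟩
  have hπp0 : π p0 := ⟨hp0, by omega, h3⟩
  obtain ⟨N, hNn, hNC, hNmax⟩ := H78AsChoose.exists_max_normal
    (fun N : Subgroup G => ∀ p, π p → ¬ p ∣ Nat.card N)
    ⟨⊥, inferInstance, fun p hp hd => by
      rw [Subgroup.card_bot] at hd
      exact hp.1.one_lt.ne' (Nat.dvd_one.mp hd)⟩
  have hNtop : N ≠ ⊤ := by
    rintro rfl
    apply hNC p0 hπp0
    rw [Subgroup.card_top]
    exact hdvdG p0 hπp0
  obtain ⟨H, hHn, hlt, hmin⟩ := H78AsChoose.exists_min_over N hNtop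
  have hex : ¬ (∀ p, π p → ¬ p ∣ Nat.card H) := hNmax H hHn hlt
  push Not at hex
  obtain ⟨s, hsπ, hsH⟩ := hex
  have hall : ∀ t, π t → t ∣ Nat.card H := by
    intro t ht
    by_contra hcon
    by_cases hst : s = t
    · subst hst; exact hcon hsH
    obtain ⟨g, hg⟩ := H78AsFrat.exists_order H hsπ.1 ht.1 hst (hfac s hsπ) hsH (hdvdG t ht) hcon
      (hdiv s t hsπ ht)
    exact hno s t hsπ ht hst g hg
  have hsimple : IsSimpleGroup (↥H ⧸ N.subgroupOf H) :=
    H78AsQuot.simple_quot N H hlt (fun Y hNY hYH hYn => by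
      by_cases hsY : s ∣ Nat.card Y
      · right
        exact H78AsSimA.eq_top_of_dvd N H hmin hsπ.1 (hfac s hsπ) (hNC s hsπ) Y hNY hYH hYn hsY
      · left
        exact H78AsSimB.eq_bot_of_not_dvd N H hlt.le hmin hsπ.1 hsH (hNC s hsπ) Y hNY hYH hYn hsY)
  have hdvdq : ∀ t, π t → t ∣ Nat.card (↥H ⧸ N.subgroupOf H) := by
    intro t ht
    have h4 := H78AsQuot.card_quot N H hlt.le
    have h5 := hall t ht
    rw [h4] at h5
    exact (ht.1.dvd_mul.mp h5).resolve_right (hNC t ht)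
  refine ⟨N, H, hNn, hHn, hlt, hsimple, ?_, fun p hp h1 h2 => hdvdq p ⟨hp, h1, h2⟩⟩
  exact H78AsNC.not_comm hp0 hr0 h2.ne' (hdvdq p0 hπp0) (hdvdq r0 hπr0)

end Cfsg.Agent.S3420
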