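import Cfsg.Statements.S4422
-- import your own Cfsg.Agent.* helpers here

set_option autoImplicit false
open Cfsg

namespace Cfsg.Agent.S4422

theorem modEq_one_of_primes (e : ℕ) : ∀ m : ℕ, m ≠ 0 → (∀ r : ℕ, r.Prime → r ∣ m → r ≡ 1 [MOD e]) → m ≡ 1 [MOD e] := by
  intro m
  induction m using Nat.strong_induction_on with
  | _ m ih =>
    intro hm0 h
    by_cases hm1 : m = 1
    · subst hm1; exact Nat.ModEq.refl _
    · obtain ⟨r, hr, hrm⟩ := Nat.exists_prime_and_dvd hm1
      obtain ⟨k, rfl⟩ := hrm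
      have hk0 : k ≠ 0 := by
        rintro rfl
        simp at hm0
      have hklt : k < r * k := by
        have := hr.two_le
        nlinarith [Nat.pos_of_ne_zero hk0]
      have h1 := ih k hklt hk0 (fun s hs hsk => h s hs (Dvd.dvd.mul_left hsk r))
      have h2 := h r hr (Dvd.intro k rfl)
      simpa using h2.mul h1


/-- Primitive divisors of `q^e - 1` are congruent to 1 modulo `e`. Let `q ≥ 2` and `e ≥ 1` be natural numbers and let `m` be a divisor of `q^e - 1` that is coprime to `q^i - 1` for every `1 ≤ i < e` (so `m` divides the primitive part of `q^e - 1`, the largest such divisor). Then `m ≡ 1 (mod e)`. -/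
theorem result (q e m : ℕ) (hq : 2 ≤ q) (he : 1 ≤ e)
    (hm : m ∣ q ^ e - 1) (hcop : ∀ i : ℕ, 1 ≤ i → i < e → Nat.Coprime m (q ^ i - 1)) :
    m % e = 1 % e := by
  have hpos : 0 < q ^ e - 1 := by
    have : 2 ^ 1 ≤ q ^ e := by
      calc 2 ^ 1 ≤ q ^ 1 := by simpa using hq
        _ ≤ q ^ e := Nat.pow_le_pow_right (by omega) he
    omega
  have hm0 : m ≠ 0 := by
    rintro rfl
    rw [zero_dvd_iff] at hm
    omega
  refine modEq_one_of_primes e m hm0 ?_
  intro r hr hrm
  have : Fact r.Prime := ⟨hr⟩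
  have hone : ∀ i : ℕ, 1 ≤ q ^ i := fun i => Nat.one_le_pow _ _ (by omega)
  have hdvd : ∀ i : ℕ, r ∣ q ^ i - 1 ↔ ((q : ZMod r)) ^ i = 1 := by
    intro i
    rw [← ZMod.natCast_eq_zero_iff, Nat.cast_sub (hone i), sub_eq_zero]
    simp
  have hqe : (q : ZMod r) ^ e = 1 := (hdvd e).mp (hrm.trans hm)
  have hq0 : (q : ZMod r) ≠ 0 := by
    intro h0
    rw [h0, zero_pow (by omega)] at hqe
    exact zero_ne_one hqe
  have hd : orderOf (q : ZMod r) ∣ e := orderOf_dvd_of_pow_eq_one hqe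
  have hdpos : 0 < orderOf (q : ZMod r) := Nat.pos_of_dvd_of_pos hd (by omega)
  have hde : orderOf (q : ZMod r) = e := by
    by_contra hne
    have hlt : orderOf (q : ZMod r) < e := lt_of_le_of_ne (Nat.le_of_dvd (by omega) hd) hne
    have hc := hcop _ hdpos hlt
    have h1 : r ∣ q ^ orderOf (q : ZMod r) - 1 := (hdvd _).mpr (pow_orderOf_eq_one _)
    have := Nat.dvd_gcd hrm h1
    rw [hc.gcd_eq_one] at this
    exact hr.one_lt.ne' (Nat.dvd_one.mp this)
  have he1 : e ∣ r - 1 := by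
    rw [← hde]
    exact orderOf_dvd_of_pow_eq_one (ZMod.pow_card_sub_one_eq_one hq0)
  exact ((Nat.modEq_iff_dvd' hr.one_lt.le).mpr he1).symm

end Cfsg.Agent.S4422
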