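import Cfsg.Statements.S3430
import Cfsg.Agent.Lib.Helper77Cyclo
import Cfsg.Agent.S4422

set_option autoImplicit false
open Cfsg

namespace Cfsg.Agent.S3430

open Cfsg.Agent.Lib.Helper77Cyclo

theorem prime_of_isPrimDiv (q e m r : ℕ) (h : IsPrimDiv q e m) (hr : r.Prime) (hrm : r ∣ m) :
    r ∣ q ^ e - 1 ∧ ∀ k : ℕ, 1 ≤ k → k < e → ¬ r ∣ q ^ k - 1 := by
  refine ⟨hrm.trans h.1, fun k hk hke hd => ?_⟩
  have hc := h.2 k hke hk
  have := Nat.dvd_gcd hrm hd
  rw [hc.gcd_eq_one] at this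
  exact hr.one_lt.ne' (Nat.dvd_one.mp this)

def excPrime : List (ℕ × ℕ × ℕ) := [(2, 3, 7), (2, 8, 17), (2, 20, 41), (4, 3, 7), (4, 6, 13)]

def excBad : List (ℕ × ℕ) := [(2, 6), (2, 4), (2, 10), (2, 12), (2, 18), (3, 4), (3, 6), (5, 6)]

theorem check6 : ∀ p ∈ exc, p ∈ excBad ∨ ∃ t ∈ excPrime, t.1 = p.1 ∧ t.2.1 = p.2 := by decide +kernel

theorem check7 : ∀ t ∈ excPrime, IsPrimDiv t.1 t.2.1 t.2.2 ∧ t.2.1 + 1 < t.2.2 := by decide +kernel

theorem check8 : ∀ t ∈ excPrime, Nat.Prime t.2.2 := by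
  intro t ht
  simp only [excPrime, List.mem_cons, List.not_mem_nil, or_false] at ht
  rcases ht with rfl | rfl | rfl | rfl | rfl <;> norm_num

theorem sq_sub_one (q : ℕ) (hq : 2 ≤ q) : q ^ 2 - 1 = (q + 1) * (q - 1) := by
  obtain ⟨b, rfl⟩ : ∃ b, q = b + 1 := ⟨q - 1, by omega⟩
  have : (b + 1) ^ 2 = (b + 1 + 1) * b + 1 := by ring
  rw [this]; simp

theorem not_dvd_sub_one (q p : ℕ) (hq : 2 ≤ q) (hp : p.Prime) (hp2 : p ≠ 2) (h : p ∣ q + 1) : ¬ p ∣ q - 1 := by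
  intro hd
  have h3 : p ∣ (q + 1) - (q - 1) := Nat.dvd_sub h hd
  have h4 : (q + 1) - (q - 1) = 2 := by omega
  rw [h4] at h3
  exact hp2 ((Nat.prime_dvd_prime_iff_eq hp Nat.prime_two).mp h3)


/-- Let q, n ≥ 2 be integers. Unless (n = 2 and q + 1 = 2^s·3^t for some s ≥ 0 and t ≤ 1), or (q = 2 and n ∈ {4, 6, 10, 12, 18}), or (q = 3 and n ∈ {4, 6}), or (q, n) = (5, 6), there is a prime p dividing q^n − 1 but no q^i − 1 with 1 ≤ i < n (a primitive prime divisor), such that p > n + 1 or p² divides q^n − 1. -/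
theorem result (q n : ℕ) (hq : 2 ≤ q) (hn : 2 ≤ n)
    (h1 : ¬ (n = 2 ∧ ∃ s t : ℕ, t ≤ 1 ∧ q + 1 = 2 ^ s * 3 ^ t))
    (h2 : ¬ (q = 2 ∧ (n = 4 ∨ n = 6 ∨ n = 10 ∨ n = 12 ∨ n = 18)))
    (h3 : ¬ (q = 3 ∧ (n = 4 ∨ n = 6))) (h4 : ¬ (q = 5 ∧ n = 6)) :
    ∃ p : ℕ, p.Prime ∧ p ∣ q ^ n - 1 ∧ (∀ i : ℕ, 1 ≤ i → i < n → ¬ p ∣ q ^ i - 1) ∧ (n + 1 < p ∨ p ^ 2 ∣ q ^ n - 1) := by
  rcases Nat.lt_or_ge n 3 with hn3 | hn3
  · have hn2 : n = 2 := by omega
    subst hn2
    obtain ⟨s, u, hu2, hqu⟩ := Nat.exists_eq_pow_mul_and_not_dvd (show q + 1 ≠ 0 by omega) 2 (by norm_num)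
    have hu0 : u ≠ 0 := by rintro rfl; simp at hu2
    obtain ⟨t, v, hv3, huv⟩ := Nat.exists_eq_pow_mul_and_not_dvd hu0 3 (by norm_num)
    have fin : ∀ p : ℕ, p.Prime → p ≠ 2 → p ∣ q + 1 → (2 + 1 < p ∨ p ^ 2 ∣ q + 1) →
        ∃ p : ℕ, p.Prime ∧ p ∣ q ^ 2 - 1 ∧ (∀ i : ℕ, 1 ≤ i → i < 2 → ¬ p ∣ q ^ i - 1) ∧ (2 + 1 < p ∨ p ^ 2 ∣ q ^ 2 - 1) := by
      intro p hp hp2 hpq hor
      refine ⟨p, hp, ?_, ?_, ?_⟩
      · rw [sq_sub_one q hq]; exact Dvd.dvd.mul_right hpq _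
      · intro i hi1 hi2
        have : i = 1 := by omega
        subst this
        rw [pow_one]
        exact not_dvd_sub_one q p hq hp hp2 hpq
      · rcases hor with h | h
        · exact Or.inl h
        · right
          rw [sq_sub_one q hq]; exact Dvd.dvd.mul_right h _
    by_cases hv1 : v = 1
    · subst hv1
      rw [mul_one] at huv
      have ht2 : 2 ≤ t := by
        by_contra hlt
        exact h1 ⟨rfl, s, t, by omega, by rw [hqu, huv]⟩
      refine fin 3 Nat.prime_three (by norm_num) ?_ (Or.inr ?_)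
      · rw [hqu, huv]
        exact Dvd.dvd.mul_left (dvd_pow_self 3 (by omega)) _
      · rw [hqu, huv]
        exact Dvd.dvd.mul_left (pow_dvd_pow 3 ht2) _
    · obtain ⟨p, hp, hpv⟩ := Nat.exists_prime_and_dvd hv1
      have hpu : p ∣ u := by rw [huv]; exact Dvd.dvd.mul_left hpv _
      have hp2 : p ≠ 2 := by rintro rfl; exact hu2 hpu
      have hp3 : p ≠ 3 := by rintro rfl; exact hv3 hpv
      have hp4 : p ≠ 4 := by rintro rfl; norm_num at hp
      have := hp.two_le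
      refine fin p hp hp2 ?_ (Or.inl (by omega))
      rw [hqu]; exact Dvd.dvd.mul_left hpu _
  · by_cases hex : (q, n) ∈ exc
    · rcases check6 (q, n) hex with h | ⟨t, ht, e1, e2⟩
      · exfalso
        simp only [excBad, List.mem_cons, Prod.mk.injEq, List.not_mem_nil, or_false] at h
        rcases h with ⟨rfl, rfl⟩ | ⟨rfl, rfl⟩ | ⟨rfl, rfl⟩ | ⟨rfl, rfl⟩ | ⟨rfl, rfl⟩ | ⟨rfl, rfl⟩ | ⟨rfl, rfl⟩ | ⟨rfl, rfl⟩
        · exact h2 ⟨rfl, by simp⟩
        · exact h2 ⟨rfl, by simp⟩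
        · exact h2 ⟨rfl, by simp⟩
        · exact h2 ⟨rfl, by simp⟩
        · exact h2 ⟨rfl, by simp⟩
        · exact h3 ⟨rfl, by simp⟩
        · exact h3 ⟨rfl, by simp⟩
        · exact h4 ⟨rfl, rfl⟩
      · obtain ⟨h7, h7'⟩ := check7 t ht
        have h8 := check8 t ht
        simp only at e1 e2
        rw [e1, e2] at h7
        rw [e2] at h7'
        obtain ⟨hA, hB⟩ := prime_of_isPrimDiv q n t.2.2 t.2.2 h7 h8 dvd_rfl
        exact ⟨t.2.2, h8, hA, hB, Or.inl h7'⟩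
    · obtain ⟨m, hm, hm3⟩ := exists_large_primitive q n hq hn3 hex
      have hm1 : m ≠ 1 := by omega
      have hm0 : m ≠ 0 := by omega
      -- every prime factor is at least n + 1
      have hge : ∀ p : ℕ, p.Prime → p ∣ m → n + 1 ≤ p := by
        intro p hp hpm
        obtain ⟨hA, hB⟩ := prime_of_isPrimDiv q n m p hm hp hpm
        have hmod := Cfsg.Agent.S4422.result q n p hq (by omega) hA
          (fun i hi hin => (Nat.Prime.coprime_iff_not_dvd hp).mpr (hB i hi hin))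
        rw [Nat.mod_eq_of_lt (show 1 < n by omega)] at hmod
        by_contra hlt
        have hpn : p ≤ n := by omega
        rcases Nat.lt_or_ge p n with h | h
        · rw [Nat.mod_eq_of_lt h] at hmod
          exact hp.one_lt.ne' hmod
        · have : p = n := by omega
          subst this
          simp at hmod
      by_cases hall : ∀ p : ℕ, p.Prime → p ∣ m → p = n + 1
      · have hpow := Nat.eq_prime_pow_of_unique_prime_dvd hm0 (fun {d} hd hdm => hall d hd hdm)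
        set k := m.primeFactorsList.length with hk
        have hk2 : 2 ≤ k := by
          by_contra hlt
          have : k = 0 ∨ k = 1 := by omega
          rcases this with h | h
          · rw [h, pow_zero] at hpow; omega
          · rw [h, pow_one] at hpow; omega
        have hpr : (n + 1).Prime := by
          have := hall m.minFac (Nat.minFac_prime hm1) (Nat.minFac_dvd m)
          rw [← this]; exact Nat.minFac_prime hm1
        have hdm : (n + 1) ∣ m := by rw [hpow]; exact dvd_pow_self _ (by omega)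
        obtain ⟨hA, hB⟩ := prime_of_isPrimDiv q n m (n + 1) hm hpr hdm
        refine ⟨n + 1, hpr, hA, hB, Or.inr ?_⟩
        refine Dvd.dvd.trans ?_ hm.1
        rw [hpow]; exact pow_dvd_pow _ hk2
      · push Not at hall
        obtain ⟨p, hp, hpm, hne⟩ := hall
        obtain ⟨hA, hB⟩ := prime_of_isPrimDiv q n m p hm hp hpm
        have := hge p hp hpm
        exact ⟨p, hp, hA, hB, Or.inl (by omega)⟩

end Cfsg.Agent.S3430
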