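import Cfsg.Statements.S3704
-- import your own Cfsg.Agent.* helpers here

set_option autoImplicit false
open Cfsg

namespace Cfsg.Agent.S3704

open Matrix

theorem la {Ω C : Type*} [Fintype Ω] [Fintype C] [DecidableEq Ω] [DecidableEq C]
    (hcard : Fintype.card Ω = Fintype.card C) (a b : Ω → C → ℚ) (d l β : ℚ)
    (h1 : ∀ ω, ∑ q, a ω q * a ω q = d)
    (h2 : ∀ ω ω', ω ≠ ω' → ∑ q, a ω q * a ω' q = l)
    (h3 : ∀ ω, ∑ q, b ω q * a ω q = 0)
    (h4 : ∀ ω ω', ω ≠ ω' → ∑ q, b ω q * a ω' q = β)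
    (h5 : ∀ ω, ∑ q, a ω q = d)
    (h6 : l < d) (h7 : 0 ≤ l) : ∃ x y : ℚ, ∀ ω q, b ω q = x - y * a ω q := by
  set n : ℚ := (Fintype.card Ω : ℚ) with hn
  have hn0 : 0 ≤ n := by rw [hn]; positivity
  let A : Matrix Ω C ℚ := Matrix.of a
  let B : Matrix Ω C ℚ := Matrix.of b
  let J₁ : Matrix Ω Ω ℚ := Matrix.of fun _ _ => 1
  let J₂ : Matrix Ω C ℚ := Matrix.of fun _ _ => 1
  set c := d - l with hcdef
  have hc : 0 < c := sub_pos.mpr h6
  have hd : 0 < d := lt_of_le_of_lt h7 h6
  have hAAT : A * Aᵀ = c • (1 : Matrix Ω Ω ℚ) + l • J₁ := by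
    ext i j
    simp only [Matrix.mul_apply, Matrix.transpose_apply, A, Matrix.of_apply, Matrix.add_apply,
      Matrix.smul_apply, J₁, smul_eq_mul, mul_one]
    by_cases hij : i = j
    · subst hij
      rw [h1, Matrix.one_apply_eq, hcdef]; ring
    · rw [h2 i j hij, Matrix.one_apply_ne hij]; ring
  have hBAT : B * Aᵀ = β • J₁ - β • (1 : Matrix Ω Ω ℚ) := by
    ext i j
    simp only [Matrix.mul_apply, Matrix.transpose_apply, A, B, Matrix.of_apply, Matrix.sub_apply,
      Matrix.smul_apply, J₁, smul_eq_mul, mul_one]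
    by_cases hij : i = j
    · subst hij
      rw [h3, Matrix.one_apply_eq]; ring
    · rw [h4 i j hij, Matrix.one_apply_ne hij]; ring
  have hJAT : J₂ * Aᵀ = d • J₁ := by
    ext i j
    simp only [Matrix.mul_apply, Matrix.transpose_apply, A, J₂, Matrix.of_apply,
      Matrix.smul_apply, J₁, smul_eq_mul, mul_one, one_mul]
    exact h5 j
  have hform : ∀ s t s' t' : ℚ, (s • (1 : Matrix Ω Ω ℚ) + t • J₁) * (s' • (1 : Matrix Ω Ω ℚ) + t' • J₁) =
      (s * s') • (1 : Matrix Ω Ω ℚ) + (s * t' + t * s' + t * t' * n) • J₁ := by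
    intro s t s' t'
    ext i j
    simp only [Matrix.mul_apply, Matrix.add_apply, Matrix.smul_apply, J₁, Matrix.of_apply,
      smul_eq_mul, mul_one, Matrix.one_apply]
    simp only [add_mul, mul_add, Finset.sum_add_distrib, mul_ite, ite_mul, mul_one, mul_zero,
      zero_mul, Finset.sum_ite_eq, Finset.sum_ite_eq', Finset.mem_univ, if_true, Finset.sum_const,
      Finset.card_univ, nsmul_eq_mul]
    by_cases hij : i = j
    · simp [hij, hn]; ring
    · simp [hij, hn]; ring
  have hcn : 0 < c + l * n := by positivity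
  set μ := l / (c + l * n) with hμ
  let Minv : Matrix Ω Ω ℚ := c⁻¹ • (1 : Matrix Ω Ω ℚ) + (-(μ / c)) • J₁
  have hM : (c • (1 : Matrix Ω Ω ℚ) + l • J₁) * Minv = 1 := by
    rw [hform]
    have e1 : c * c⁻¹ = 1 := mul_inv_cancel₀ hc.ne'
    have e2 : c * -(μ / c) + l * c⁻¹ + l * -(μ / c) * n = 0 := by
      rw [hμ]; field_simp; ring
    rw [e1, e2]; simp
  have hright : A * (Aᵀ * Minv) = 1 := by rw [← Matrix.mul_assoc, hAAT, hM]
  have hleft : (Aᵀ * Minv) * A = 1 := (Matrix.mul_eq_one_comm_of_card_eq _ _ _ hcard).mp hright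
  have hleftT : Aᵀ * (Minvᵀ * A) = 1 := by
    have := congrArg Matrix.transpose hleft
    rw [Matrix.transpose_mul, Matrix.transpose_mul, Matrix.transpose_transpose,
      Matrix.transpose_one] at this
    exact this
  set y := β / c with hy
  set x := (β + y * l) / d with hx
  have hX : (B + y • A - x • J₂) * Aᵀ = 0 := by
    rw [Matrix.sub_mul, Matrix.add_mul, Matrix.smul_mul, Matrix.smul_mul, hBAT, hAAT, hJAT]
    ext i j
    simp only [Matrix.sub_apply, Matrix.add_apply, Matrix.smul_apply, smul_eq_mul, J₁,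
      Matrix.of_apply, mul_one, Matrix.zero_apply]
    have e1 : y * c = β := by rw [hy]; field_simp
    have e2 : x * d = β + y * l := by rw [hx]; field_simp
    have : β - β * (1 : Matrix Ω Ω ℚ) i j + y * (c * (1 : Matrix Ω Ω ℚ) i j + l) - x * d =
        (y * c - β) * (1 : Matrix Ω Ω ℚ) i j + (β + y * l - x * d) := by ring
    rw [this, e1, e2]; ring
  have hX0 : B + y • A - x • J₂ = 0 := by
    have := congrArg (fun Z => Z * (Minvᵀ * A)) hX
    simp only [Matrix.mul_assoc, hleftT, Matrix.mul_one, Matrix.zero_mul] at this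
    exact this
  refine ⟨x, y, fun ω q => ?_⟩
  have := congrFun (congrFun hX0 ω) q
  simp only [Matrix.sub_apply, Matrix.add_apply, Matrix.smul_apply, smul_eq_mul, J₂, A, B,
    Matrix.of_apply, mul_one, Matrix.zero_apply] at this
  linarith

theorem smul_mem_orbit_iff' {G Ω : Type*} [Group G] [MulAction G Ω] (H : Subgroup G) (h : G)
    (hh : h ∈ H) (w x : Ω) : h • w ∈ MulAction.orbit H x ↔ w ∈ MulAction.orbit H x := by
  have e : h • w = (⟨h, hh⟩ : H) • w := rfl
  rw [e, ← MulAction.orbit_eq_iff, ← MulAction.orbit_eq_iff, MulAction.orbit_smul]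

theorem two_orbits {G Ω : Type*} [Group G] [Finite G] [MulAction G Ω] [Finite Ω]
    (h2 : MulAction.IsMultiplyPretransitive G Ω 2) (H : Subgroup G) (hidx : H.index = Nat.card Ω)
    (x₁ x₂ : Ω) (hne : x₂ ∉ MulAction.orbit H x₁) (z : Ω) :
    z ∈ MulAction.orbit H x₁ ∨ z ∈ MulAction.orbit H x₂ := by
  classical
  have : Fintype Ω := Fintype.ofFinite _
  have : Fintype (G ⧸ H) := Fintype.ofFinite _
  have htr : MulAction.IsPretransitive G Ω := MulAction.isPretransitive_of_is_two_pretransitive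
  rw [MulAction.is_two_pretransitive_iff] at h2
  have hx12 : x₁ ≠ x₂ := by
    rintro rfl
    exact hne (MulAction.mem_orbit_self _)
  let inc : Ω → Ω → G ⧸ H → ℚ := fun x ω =>
    Quotient.lift (fun g : G => if g⁻¹ • ω ∈ MulAction.orbit H x then (1 : ℚ) else 0) (by
      intro g g' hgg'
      have hmem : g⁻¹ * g' ∈ H := QuotientGroup.leftRel_apply.mp hgg'
      have e : g⁻¹ • ω = (g⁻¹ * g') • (g'⁻¹ • ω) := by
        rw [smul_smul]; congr 1; group
      have : (g⁻¹ • ω ∈ MulAction.orbit H x) ↔ (g'⁻¹ • ω ∈ MulAction.orbit H x) := by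
        rw [e, smul_mem_orbit_iff' H _ hmem]
      simp only [this])
  have hinc_mk : ∀ x ω (g : G), inc x ω (QuotientGroup.mk g) =
      if g⁻¹ • ω ∈ MulAction.orbit H x then (1 : ℚ) else 0 := fun x ω g => rfl
  have hinc01 : ∀ x ω q, inc x ω q = 0 ∨ inc x ω q = 1 := by
    intro x ω q
    induction q using QuotientGroup.induction_on with | _ g => ?_
    rw [hinc_mk]
    split_ifs <;> simp
  have hinc_smul : ∀ x (k : G) ω q, inc x (k • ω) (k • q) = inc x ω q := by
    intro x k ω q
    induction q using QuotientGroup.induction_on with | _ g => ?_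
    have e : k • (QuotientGroup.mk g : G ⧸ H) = QuotientGroup.mk (k * g) := rfl
    rw [e, hinc_mk, hinc_mk]
    have e2 : (k * g)⁻¹ • k • ω = g⁻¹ • ω := by
      rw [smul_smul]; congr 1; group
    rw [e2]
  have hinv : ∀ x x' (k : G) ω ω', ∑ q, inc x (k • ω) q * inc x' (k • ω') q =
      ∑ q, inc x ω q * inc x' ω' q := by
    intro x x' k ω ω'
    rw [← Equiv.sum_comp (MulAction.toPerm k) (fun q => inc x (k • ω) q * inc x' (k • ω') q)]
    apply Finset.sum_congr rfl
    intro q _
    simp only [MulAction.toPerm_apply, hinc_smul]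
  have hsq : ∀ x ω q, inc x ω q * inc x ω q = inc x ω q := by
    intro x ω q
    rcases hinc01 x ω q with h | h <;> rw [h] <;> norm_num
  have hcard : Fintype.card Ω = Fintype.card (G ⧸ H) := by
    rw [← Nat.card_eq_fintype_card, ← Nat.card_eq_fintype_card, ← hidx]; rfl
  have h1 : ∀ ω, ∑ q, inc x₁ ω q * inc x₁ ω q = ∑ q, inc x₁ x₁ q * inc x₁ x₁ q := by
    intro ω
    obtain ⟨k, rfl⟩ := MulAction.exists_smul_eq G x₁ ω
    exact hinv _ _ _ _ _
  obtain ⟨x, y, hxy⟩ := la hcard (inc x₁) (inc x₂) (∑ q, inc x₁ x₁ q * inc x₁ x₁ q)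
    (∑ q, inc x₁ x₁ q * inc x₁ x₂ q) (∑ q, inc x₂ x₁ q * inc x₁ x₂ q) h1
    (by
      intro ω ω' hω
      obtain ⟨k, rfl, rfl⟩ := h2 hx12 hω
      exact hinv _ _ _ _ _)
    (by
      intro ω
      apply Finset.sum_eq_zero
      intro q _
      induction q using QuotientGroup.induction_on with | _ g => ?_
      rw [hinc_mk, hinc_mk]
      by_cases ha : g⁻¹ • ω ∈ MulAction.orbit H x₂
      · by_cases hb : g⁻¹ • ω ∈ MulAction.orbit H x₁
        · exfalso
          apply hne
          rw [← MulAction.orbit_eq_iff] at ha hb ⊢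
          rw [← ha, hb]
        · simp [hb]
      · simp [ha])
    (by
      intro ω ω' hω
      obtain ⟨k, rfl, rfl⟩ := h2 hx12 hω
      exact hinv _ _ _ _ _)
    (by
      intro ω
      rw [← h1 ω]
      simp_rw [hsq])
    (by
      apply Finset.sum_lt_sum
      · intro q _
        rcases hinc01 x₁ x₁ q with h | h <;> rcases hinc01 x₁ x₂ q with h' | h' <;>
          rw [h, h'] <;> norm_num
      · refine ⟨QuotientGroup.mk 1, Finset.mem_univ _, ?_⟩
        rw [hinc_mk, hinc_mk]
        simp only [inv_one, one_smul]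
        rw [if_pos (MulAction.mem_orbit_self _), if_neg hne]
        norm_num)
    (by
      apply Finset.sum_nonneg
      intro q _
      rcases hinc01 x₁ x₁ q with h | h <;> rcases hinc01 x₁ x₂ q with h' | h' <;>
        rw [h, h'] <;> norm_num)
  have hne' : x₁ ∉ MulAction.orbit H x₂ := by
    intro h
    apply hne
    rw [← MulAction.orbit_eq_iff] at h ⊢
    exact h.symm
  have e1 := hxy x₁ (QuotientGroup.mk 1)
  have e2 := hxy x₂ (QuotientGroup.mk 1)
  have e3 := hxy z (QuotientGroup.mk 1)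
  rw [hinc_mk, hinc_mk] at e1 e2 e3
  simp only [inv_one, one_smul] at e1 e2 e3
  rw [if_pos (MulAction.mem_orbit_self _), if_neg hne'] at e1
  rw [if_pos (MulAction.mem_orbit_self _), if_neg hne] at e2
  by_contra hcon
  push Not at hcon
  rw [if_neg hcon.1, if_neg hcon.2] at e3
  linarith

/-- Let G be a finite group acting faithfully and 2-transitively on a finite set Ω of size n, and let H be a subgroup of index n in G which is not transitive on Ω and fixes no point of Ω. Then H has exactly two orbits on Ω. -/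
theorem result {G Ω : Type*} [Group G] [Finite G] [MulAction G Ω] [FaithfulSMul G Ω] [Finite Ω] (h2 : MulAction.IsMultiplyPretransitive G Ω 2) (H : Subgroup G) (hidx : H.index = Nat.card Ω) (hnt : ¬ MulAction.IsPretransitive H Ω) (hfix : ∀ a : Ω, ∃ h : H, h • a ≠ a) : Nat.card (MulAction.orbitRel.Quotient H Ω) = 2 := by
  classical
  have hnonempty : Nonempty Ω := by
    by_contra hemp
    rw [not_nonempty_iff] at hemp
    have : Nat.card Ω = 0 := Nat.card_eq_zero.mpr (Or.inl hemp)
    rw [this] at hidx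
    exact H.index_ne_zero_of_finite hidx
  obtain ⟨x₁⟩ := hnonempty
  obtain ⟨x₂, hx₂⟩ : ∃ x₂, x₂ ∉ MulAction.orbit H x₁ := by
    by_contra hcon
    push Not at hcon
    apply hnt
    rw [MulAction.isPretransitive_iff_base x₁]
    intro y
    exact hcon y
  rw [Nat.card_eq_two_iff]
  refine ⟨Quotient.mk _ x₁, Quotient.mk _ x₂, ?_, ?_⟩
  · intro h
    apply hx₂
    have := Quotient.exact h
    exact (MulAction.orbitRel_apply.mp ((MulAction.orbitRel H Ω).symm this))
  · rw [Set.eq_univ_iff_forall]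
    intro q
    induction q using Quotient.inductionOn with | _ z => ?_
    rcases two_orbits h2 H hidx x₁ x₂ hx₂ z with h | h
    · left
      exact Quotient.sound (MulAction.orbitRel_apply.mpr h)
    · right
      exact Quotient.sound (MulAction.orbitRel_apply.mpr h)

end Cfsg.Agent.S3704
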