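import Cfsg.Statements.S3707
import Cfsg.Agent.Lib.Helper16MT

set_option autoImplicit false
open Cfsg

namespace Cfsg.Agent.S3707


open MulAction SubMulAction
open scoped Pointwise

/-- `Σ` is a Jordan set: the pointwise stabilizer of the complement is transitive on `Σ`. -/
def J (G : Type*) {Ω : Type*} [Group G] [MulAction G Ω] (S : Set Ω) : Prop :=
  ∀ x ∈ S, ∀ y ∈ S, ∃ g : G, (∀ z ∉ S, g • z = z) ∧ g • x = y

theorem pretrans_of_J {G Ω : Type*} [Group G] [MulAction G Ω] (s : Set Ω) (h : J G sᶜ) :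
    IsPretransitive (fixingSubgroup G s) (ofFixingSubgroup G s) := by
  constructor
  rintro ⟨x, hx⟩ ⟨y, hy⟩
  rw [mem_ofFixingSubgroup_iff] at hx hy
  obtain ⟨g, hg1, hg2⟩ := h x hx y hy
  refine ⟨⟨g, ?_⟩, ?_⟩
  · rw [mem_fixingSubgroup_iff]
    intro z hz
    exact hg1 z (by simpa using hz)
  · apply Subtype.ext
    exact hg2

theorem J_union {G Ω : Type*} [Group G] [MulAction G Ω] {S T : Set Ω} (hS : J G S) (hT : J G T)
    {w : Ω} (hwS : w ∈ S) (hwT : w ∈ T) : J G (S ∪ T) := by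
  have key : ∀ x ∈ S ∪ T, ∃ g : G, (∀ z ∉ S ∪ T, g • z = z) ∧ g • x = w := by
    rintro x (hx | hx)
    · obtain ⟨g, h1, h2⟩ := hS x hx w hwS
      exact ⟨g, fun z hz => h1 z (fun h => hz (Or.inl h)), h2⟩
    · obtain ⟨g, h1, h2⟩ := hT x hx w hwT
      exact ⟨g, fun z hz => h1 z (fun h => hz (Or.inr h)), h2⟩
  intro x hx y hy
  obtain ⟨g, h1, h2⟩ := key x hx
  obtain ⟨g', h1', h2'⟩ := key y hy
  refine ⟨g'⁻¹ * g, ?_, ?_⟩
  · intro z hz
    rw [mul_smul, h1 z hz, inv_smul_eq_iff, h1' z hz]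
  · rw [mul_smul, h2, inv_smul_eq_iff, h2']

theorem J_smul {G Ω : Type*} [Group G] [MulAction G Ω] {S : Set Ω} (hS : J G S) (a : G) :
    J G (a • S) := by
  intro x hx y hy
  rw [Set.mem_smul_set_iff_inv_smul_mem] at hx hy
  obtain ⟨g, h1, h2⟩ := hS _ hx _ hy
  refine ⟨a * g * a⁻¹, ?_, ?_⟩
  · intro z hz
    rw [Set.mem_smul_set_iff_inv_smul_mem] at hz
    rw [mul_smul, mul_smul, h1 _ hz, smul_inv_smul]
  · rw [mul_smul, mul_smul, h2, smul_inv_smul]

/-- Let G be a finite primitive permutation group on Ω of degree n and Γ ⊂ Ω a subset with 1 < #Γ ≤ n/2 such that the pointwise stabilizer of Ω ∖ Γ is transitive on Γ. Then G is 3-transitive on Ω. -/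
theorem result {G Ω : Type*} [Group G] [Finite G] [MulAction G Ω] [FaithfulSMul G Ω] [Finite Ω] (hprim : MulAction.IsPreprimitive G Ω) (Γ : Set Ω) (h1 : 1 < Γ.ncard) (h2 : 2 * Γ.ncard ≤ Nat.card Ω) (htr : ∀ x ∈ Γ, ∀ y ∈ Γ, ∃ g : G, (∀ z ∉ Γ, g • z = z) ∧ g • x = y) : MulAction.IsMultiplyPretransitive G Ω 3 := by
  classical
  have hJΓ : J G Γ := htr
  set n := Nat.card Ω with hn
  have hcompl : ∀ S : Set Ω, S.ncard + Sᶜ.ncard = n := fun S => Set.ncard_add_ncard_compl S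
  -- `G` is 2-transitive
  have h2t : IsMultiplyPretransitive G Ω 2 := by
    have hc := hcompl Γ
    apply hprim.is_two_pretransitive (s := Γᶜ) (n := Γᶜ.ncard - 1) (by omega) (by omega)
    apply pretrans_of_J
    rwa [compl_compl]
  have h2t' : ∀ a b c d : Ω, a ≠ b → c ≠ d → ∃ g : G, g • a = c ∧ g • b = d :=
    fun a b c d h h' => is_two_pretransitive_iff.mp h2t h h'
  -- the family of Jordan sets missing at least two points
  let JJ : Set (Set Ω) := {U | J G U ∧ ∃ u v, u ≠ v ∧ u ∉ U ∧ v ∉ U}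
  have hΓJJ : Γ ∈ JJ := by
    refine ⟨hJΓ, ?_⟩
    have hc := hcompl Γ
    have : 1 < Γᶜ.ncard := by omega
    obtain ⟨a, ha, b, hb, hab⟩ := (Set.one_lt_ncard).mp this
    exact ⟨a, b, hab, ha, hb⟩
  obtain ⟨S₀, hS₀, hS₀max⟩ := (Set.toFinite JJ).exists_maximalFor Set.ncard JJ ⟨Γ, hΓJJ⟩
  set M := S₀.ncard with hM
  have hmax : ∀ U ∈ JJ, U.ncard ≤ M := by
    intro U hU
    rcases le_total U.ncard M with h | h
    · exact h
    · exact hS₀max hU h
  have hM2 : 2 ≤ M := h1.trans_le (hmax Γ hΓJJ)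
  obtain ⟨hJS₀, u, v, huv, hu, hv⟩ := hS₀
  by_cases h3 : ∃ w, w ∉ S₀ ∧ w ≠ u ∧ w ≠ v
  swap
  · have hs : S₀ = ({u, v} : Set Ω)ᶜ := by
      ext x
      simp only [Set.mem_compl_iff, Set.mem_insert_iff, Set.mem_singleton_iff, not_or]
      constructor
      · intro hx
        exact ⟨fun h => hu (h ▸ hx), fun h => hv (h ▸ hx)⟩
      · intro hx
        by_contra hxS
        exact h3 ⟨x, hxS, hx.1, hx.2⟩
    have h4 := Cfsg.Agent.Lib.Helper16MT.mt_add (G := G) ({u, v} : Set Ω) (j := 1)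
      (by rw [Set.ncard_pair huv]; exact h2t)
      (is_one_pretransitive_iff.mpr (pretrans_of_J _ (by rw [← hs]; exact hJS₀)))
    rw [Set.ncard_pair huv] at h4
    exact h4
  exfalso
  obtain ⟨w, hw, hwu, hwv⟩ := h3
  have hn3 : M + 3 ≤ n := by
    have hc := hcompl S₀
    have h5 : ({u, v, w} : Set Ω).ncard = 3 :=
      Set.ncard_eq_three.mpr ⟨u, v, w, huv, hwu.symm, hwv.symm, rfl⟩
    have h6 : ({u, v, w} : Set Ω).ncard ≤ S₀ᶜ.ncard := by
      apply Set.ncard_le_ncard _ (Set.toFinite _)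
      rintro x (rfl | rfl | rfl)
      · exact hu
      · exact hv
      · exact hw
    omega
  have P1 : ∀ S : Set Ω, J G S → S.ncard = M → ∀ T : Set Ω, J G T → (∃ x, x ∈ S ∧ x ∈ T) →
      (∃ x, x ∈ T ∧ x ∉ S) → ∀ a b, a ∉ S → a ∉ T → b ∉ S → b ∉ T → a = b := by
    rintro S hS hSM T hT ⟨x, hxS, hxT⟩ ⟨y, hyT, hyS⟩ a b haS haT hbS hbT
    by_contra hab
    have hU : S ∪ T ∈ JJ := ⟨J_union hS hT hxS hxT, a, b, hab, by simp [haS, haT], by simp [hbS, hbT]⟩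
    have h5 := hmax _ hU
    have hlt : S.ncard < (S ∪ T).ncard := by
      apply Set.ncard_lt_ncard _ (Set.toFinite _)
      refine ⟨Set.subset_union_left, fun h => hyS (h (Or.inr hyT))⟩
    omega
  have P2 : ∀ a b : Ω, a ≠ b → ∃ S : Set Ω, J G S ∧ S.ncard = M ∧ a ∉ S ∧ b ∉ S := by
    intro a b hab
    obtain ⟨g, hga, hgb⟩ := h2t' u v a b huv hab
    refine ⟨g • S₀, J_smul hJS₀ g, Set.ncard_smul_set g S₀, ?_, ?_⟩
    · rw [Set.mem_smul_set_iff_inv_smul_mem, ← hga, inv_smul_smul]; exact hu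
    · rw [Set.mem_smul_set_iff_inv_smul_mem, ← hgb, inv_smul_smul]; exact hv
  have P3 : ∀ S : Set Ω, S.ncard = M → ∀ a b : Ω, ∃ t, t ∉ S ∧ t ≠ a ∧ t ≠ b := by
    intro S hS a b
    have hc := hcompl S
    have h5 : ({a, b} : Set Ω).ncard ≤ 2 := by
      have := Set.ncard_insert_le a ({b} : Set Ω)
      rwa [Set.ncard_singleton] at this
    have h6 : ({a, b} : Set Ω).ncard < Sᶜ.ncard := by omega
    obtain ⟨t, ht1, ht2⟩ := Set.exists_mem_notMem_of_ncard_lt_ncard h6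
    simp only [Set.mem_insert_iff, Set.mem_singleton_iff, not_or] at ht2
    exact ⟨t, ht1, ht2.1, ht2.2⟩
  rcases Nat.lt_or_ge n (2 * M) with hA | hB
  · -- Case A: any two maximal Jordan sets meet
    have hI : ∀ S T : Set Ω, S.ncard = M → T.ncard = M → ∃ x, x ∈ S ∧ x ∈ T := by
      intro S T hS hT
      by_contra hne
      have hd : Disjoint S T := by
        rw [Set.disjoint_left]
        intro x hxS hxT
        exact hne ⟨x, hxS, hxT⟩
      have h5 := Set.ncard_union_eq hd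
      have h6 : (S ∪ T).ncard ≤ n := by
        have := hcompl (S ∪ T)
        omega
      omega
    have hlam : ∀ S T : Set Ω, J G S → S.ncard = M → J G T → T.ncard = M → ∀ a b, a ≠ b →
        a ∉ S → b ∉ S → a ∉ T → b ∉ T → S = T := by
      intro S T hS hSM hT hTM a b hab haS hbS haT hbT
      by_contra hne
      have hex : ∃ x, x ∈ T ∧ x ∉ S := by
        by_contra h
        apply hne
        symm
        apply Set.eq_of_subset_of_ncard_le _ (by omega)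
        intro x hx
        by_contra hxS
        exact h ⟨x, hx, hxS⟩
      exact hab (P1 S hS hSM T hT (hI S T hSM hTM) hex a b haS haT hbS hbT)
    obtain ⟨x, hx, y, hy, hxy⟩ := (Set.one_lt_ncard).mp h1
    have hii : ∀ S : Set Ω, J G S → S.ncard = M → ∃ e, e ∈ S ∧ e ∈ Γ := by
      intro S hS hSM
      by_contra hdisj
      have hd : ∀ e ∈ Γ, e ∉ S := fun e he heS => hdisj ⟨e, heS, he⟩
      obtain ⟨z, hz⟩ : S.Nonempty := by
        rw [← Set.ncard_pos]; omega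
      have hxz : x ≠ z := fun h => hd x hx (h ▸ hz)
      obtain ⟨S', hS', hS'M, hxS', hzS'⟩ := P2 x z hxz
      have hSS' : S ≠ S' := fun h => hzS' (h ▸ hz)
      have hyS' : y ∈ S' := by
        by_contra h
        exact hSS' (hlam S S' hS hSM hS' hS'M x y hxy (hd x hx) (hd y hy) hxS' h)
      obtain ⟨t, htS', htx, htz⟩ := P3 S' hS'M x z
      have htΓ : t ∉ Γ := by
        intro h
        exact hSS' (hlam S S' hS hSM hS' hS'M x t htx.symm (hd x hx) (hd t h) hxS' htS')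
      have hzΓ : z ∉ Γ := fun h => hd z h hz
      exact htz (P1 S' hS' hS'M Γ hJΓ ⟨y, hyS', hy⟩ ⟨x, hx, hxS'⟩ t z htS' htΓ hzS' hzΓ)
    have hstar : ∀ S : Set Ω, J G S → S.ncard = M → x ∉ S → ∀ c c', c ∉ S → c ∉ Γ → c' ∉ S →
        c' ∉ Γ → c = c' := by
      intro S hS hSM hxS c c' hc1 hc2 hc1' hc2'
      exact P1 S hS hSM Γ hJΓ (hii S hS hSM) ⟨x, hx, hxS⟩ c c' hc1 hc2 hc1' hc2'
    have hchoice : ∀ c : Ω, c ∉ Γ → ∃ t, t ∈ Γ ∧ t ≠ x ∧ ∃ S : Set Ω, J G S ∧ S.ncard = M ∧ x ∉ S ∧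
        c ∉ S ∧ t ∉ S := by
      intro c hc
      have hxc : x ≠ c := fun h => hc (h ▸ hx)
      obtain ⟨S, hS, hSM, hxS, hcS⟩ := P2 x c hxc
      obtain ⟨t, htS, htx, htc⟩ := P3 S hSM x c
      refine ⟨t, ?_, htx, S, hS, hSM, hxS, hcS, htS⟩
      by_contra htΓ
      exact htc (hstar S hS hSM hxS t c htS htΓ hcS hc)
    choose! f hf using hchoice
    have hle : Γᶜ.ncard ≤ (Γ \ {x}).ncard := by
      apply Set.ncard_le_ncard_of_injOn f _ _ (Set.toFinite _)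
      · intro c hc
        exact ⟨(hf c hc).1, (hf c hc).2.1⟩
      · intro c hc c' hc' hcc'
        obtain ⟨-, hne, S, hS, hSM, hxS, hcS, hfS⟩ := hf c hc
        obtain ⟨-, -, S', hS', hS'M, hxS', hcS', hfS'⟩ := hf c' hc'
        rw [← hcc'] at hfS'
        have hSS' := hlam S S' hS hSM hS' hS'M x (f c) hne.symm hxS hfS hxS' hfS'
        rw [← hSS'] at hcS'
        exact hstar S hS hSM hxS c c' hcS hc hcS' hc'
    have h7 := Set.ncard_sdiff_singleton_add_one hx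
    have h8 := hcompl Γ
    omega
  · -- Case B
    obtain ⟨x, hx, x', hx', hxx'⟩ := (Set.one_lt_ncard).mp (show 1 < S₀.ncard by omega)
    have hxu : x ≠ u := fun h => hu (h ▸ hx)
    obtain ⟨g, hgx, hgx'⟩ := h2t' x x' x u hxx' hxu
    set S₁ : Set Ω := g • S₀ with hS₁
    have hJS₁ : J G S₁ := J_smul hJS₀ g
    have hS₁M : S₁.ncard = M := Set.ncard_smul_set g S₀
    have hxS₁ : x ∈ S₁ := by
      rw [hS₁, Set.mem_smul_set_iff_inv_smul_mem, inv_smul_eq_iff.mpr hgx.symm]; exact hx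
    have huS₁ : u ∈ S₁ := by
      rw [hS₁, Set.mem_smul_set_iff_inv_smul_mem, inv_smul_eq_iff.mpr hgx'.symm]; exact hx'
    have hmiss := P1 S₀ hJS₀ rfl S₁ hJS₁ ⟨x, hx, hxS₁⟩ ⟨u, huS₁, hu⟩
    have hc1 : (S₀ ∪ S₁)ᶜ.ncard ≤ 1 := by
      rw [Set.ncard_le_one]
      intro a ha b hb
      simp only [Set.mem_compl_iff, Set.mem_union, not_or] at ha hb
      exact hmiss a b ha.1 ha.2 hb.1 hb.2
    have hc2 := hcompl (S₀ ∪ S₁)
    have hc3 := Set.ncard_union_add_ncard_inter S₀ S₁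
    have hc4 : (S₀ ∩ S₁).ncard ≤ 1 := by omega
    have hone : ∀ e, e ∈ S₀ → e ∈ S₁ → e = x := by
      intro e he0 he1
      exact (Set.ncard_le_one).mp hc4 e ⟨he0, he1⟩ x ⟨hx, hxS₁⟩
    obtain ⟨k, hk1, hk2⟩ := hJS₁ x hxS₁ u huS₁
    set S₂ : Set Ω := k • S₀ with hS₂
    have hJS₂ : J G S₂ := J_smul hJS₀ k
    have hx'S₁ : x' ∉ S₁ := fun h => hxx' (hone x' hx' h).symm
    have hx'S₂ : x' ∈ S₂ := by
      rw [hS₂, Set.mem_smul_set_iff_inv_smul_mem, inv_smul_eq_iff.mpr (hk1 x' hx'S₁).symm]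
      exact hx'
    have huS₂ : u ∈ S₂ := by
      rw [hS₂, Set.mem_smul_set_iff_inv_smul_mem, inv_smul_eq_iff.mpr hk2.symm]; exact hx
    have hsub : ∀ e, e ∈ S₂ → e ∈ S₀ ∨ e = u := by
      intro e he
      obtain ⟨e₀, he₀, rfl⟩ := he
      by_cases h : e₀ ∈ S₁
      · right
        rw [hone e₀ he₀ h]; exact hk2
      · left
        change k • e₀ ∈ S₀
        rw [hk1 e₀ h]; exact he₀
    have hvS₂ : v ∉ S₂ := fun h => by
      rcases hsub v h with h | h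
      · exact hv h
      · exact huv h.symm
    have hwS₂ : w ∉ S₂ := fun h => by
      rcases hsub w h with h | h
      · exact hw h
      · exact hwu h
    exact hwv (P1 S₀ hJS₀ rfl S₂ hJS₂ ⟨x', hx', hx'S₂⟩ ⟨u, huS₂, hu⟩ w v hw hwS₂ hv hvS₂)

end Cfsg.Agent.S3707
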