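import Cfsg.Statements.S3733
-- import your own Cfsg.Agent.* helpers here

set_option autoImplicit false
open Cfsg

namespace Cfsg.Agent.S3733

/-- Let A and V be subgroups of a finite group with V abelian and nontrivial and A normalizing V. Suppose a nonempty finite family of proper subgroups of A partitions A: every non-identity element of A lies in exactly one member. If the number of members minus one is coprime to the order of V, then some member B of the family has a non-identity fixed point on V, that is V ∩ C(B) ≠ 1. -/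
theorem result {G : Type*} [Group G] [Finite G] (A V : Subgroup G) (hVab : IsMulCommutative V) (hV : V ≠ ⊥) (hAV : A ≤ Subgroup.normalizer (V : Set G)) (𝒜 : Finset (Subgroup G)) (hne : 𝒜.Nonempty) (hprop : ∀ B ∈ 𝒜, B < A) (hpart : ∀ a ∈ A, a ≠ 1 → ∃! B, B ∈ 𝒜 ∧ a ∈ B) (hk : (𝒜.card - 1).Coprime (Nat.card V)) : ∃ B ∈ 𝒜, V ⊓ Subgroup.centralizer (B : Set G) ≠ ⊥ := by
  classical
  by_contra hcon
  push Not at hcon
  have : Fintype ↥A := Fintype.ofFinite _
  let _ : CommGroup ↥V := { (inferInstance : Group ↥V) with mul_comm := hVab.is_comm.comm }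
  let ρ : ↥A →* MulAut ↥V := V.normalizerMonoidHom.comp (Subgroup.inclusion hAV)
  have hρ : ∀ (a : ↥A) (v : ↥V), ((ρ a v : ↥V) : G) = a * v * (a : G)⁻¹ := fun a v => rfl
  -- trace over a subgroup B
  let T : Subgroup G → ↥V → ↥V := fun B v => ∏ a ∈ (Finset.univ : Finset ↥A).filter (fun a : ↥A => (a : G) ∈ B), ρ a v
  have hTfix : ∀ (B : Subgroup G) (v : ↥V) (b : ↥A), (b : G) ∈ B → ρ b (T B v) = T B v := by
    intro B v b hb
    simp only [T]
    rw [map_prod]
    refine Finset.prod_bij' (fun a _ => b * a) (fun a _ => b⁻¹ * a) ?_ ?_ ?_ ?_ ?_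
    · intro a ha
      simp only [Finset.mem_filter, Finset.mem_univ, true_and] at ha ⊢
      exact B.mul_mem hb ha
    · intro a ha
      simp only [Finset.mem_filter, Finset.mem_univ, true_and] at ha ⊢
      exact B.mul_mem (B.inv_mem hb) ha
    · intro a _; simp
    · intro a _; simp
    · intro a _
      rw [map_mul]; rfl
  have hT1 : ∀ B ∈ 𝒜, ∀ (B' : Subgroup G), B ≤ B' → ∀ v, T B' v = 1 := by
    intro B hB B' hBB' v
    have hmem : ((T B' v : ↥V) : G) ∈ V ⊓ Subgroup.centralizer (B : Set G) := by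
      refine Subgroup.mem_inf.mpr ⟨(T B' v).2, ?_⟩
      rw [Subgroup.mem_centralizer_iff]
      intro b hb
      have hbA : b ∈ A := (hprop B hB).le hb
      have := congrArg (Subtype.val) (hTfix B' v ⟨b, hbA⟩ (hBB' hb))
      rw [hρ] at this
      simp only at this
      rw [mul_inv_eq_iff_eq_mul] at this
      exact this
    rw [hcon B hB, Subgroup.mem_bot] at hmem
    exact Subtype.ext hmem
  have hcount : ∀ a : ↥A, (𝒜.filter (fun B => (a : G) ∈ B)).card = 1 + (if a = 1 then 𝒜.card - 1 else 0) := by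
    intro a
    by_cases ha : a = 1
    · subst ha
      have : 𝒜.filter (fun B => ((1 : ↥A) : G) ∈ B) = 𝒜 := by
        apply Finset.filter_true_of_mem
        intro B _
        exact B.one_mem
      rw [this, if_pos rfl]
      have := hne.card_pos
      omega
    · rw [if_neg ha, add_zero, Finset.card_eq_one]
      have ha' : (a : G) ≠ 1 := fun h => ha (Subtype.ext h)
      obtain ⟨B, hB, huniq⟩ := hpart a a.2 ha'
      refine ⟨B, ?_⟩
      ext B'
      simp only [Finset.mem_filter, Finset.mem_singleton]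
      exact ⟨fun h => huniq B' h, fun h => h ▸ hB⟩
  have hid : ∀ v : ↥V, ∏ B ∈ 𝒜, T B v = T A v * v ^ (𝒜.card - 1) := by
    intro v
    simp only [T]
    simp_rw [Finset.prod_filter]
    rw [Finset.prod_comm]
    have h1 : ∀ a : ↥A, (∏ B ∈ 𝒜, if (a : G) ∈ B then ρ a v else 1) =
        ρ a v * (if a = 1 then v ^ (𝒜.card - 1) else 1) := by
      intro a
      rw [← Finset.prod_filter, Finset.prod_const, hcount a, pow_add, pow_one]
      by_cases ha : a = 1
      · subst ha
        simp
      · simp [ha]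
    simp_rw [h1]
    rw [Finset.prod_mul_distrib]
    congr 1
    · apply Finset.prod_congr rfl
      intro a _
      rw [if_pos a.2]
    · rw [Finset.prod_ite_eq' Finset.univ (1 : ↥A)]
      simp
  obtain ⟨B0, hB0⟩ := hne
  have hpow : ∀ v : ↥V, v ^ (𝒜.card - 1) = 1 := by
    intro v
    have h1 := hid v
    rw [hT1 B0 hB0 A (hprop B0 hB0).le v, one_mul] at h1
    rw [← h1]
    apply Finset.prod_eq_one
    intro B hB
    exact hT1 B hB B le_rfl v
  apply hV
  rw [eq_bot_iff]
  intro x hx
  rw [Subgroup.mem_bot]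
  have h1 : orderOf (⟨x, hx⟩ : ↥V) ∣ 𝒜.card - 1 := orderOf_dvd_of_pow_eq_one (hpow ⟨x, hx⟩)
  have h2 : orderOf (⟨x, hx⟩ : ↥V) ∣ Nat.card V := orderOf_dvd_natCard _
  have h3 : orderOf (⟨x, hx⟩ : ↥V) = 1 := Nat.eq_one_of_dvd_coprimes hk h1 h2
  rw [orderOf_eq_one_iff] at h3
  exact congrArg Subtype.val h3

end Cfsg.Agent.S3733
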