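import Cfsg.Statements.S3735
-- import your own Cfsg.Agent.* helpers here

set_option autoImplicit false
open Cfsg

namespace Cfsg.Agent.S3735

open scoped Pointwise

theorem comm_of_mem {G : Type*} [Group G] {V : Subgroup G} (hV : IsMulCommutative V) {x y : G}
    (hx : x ∈ V) (hy : y ∈ V) : x * y = y * x :=
  congrArg Subtype.val (hV.is_comm.comm (⟨x, hx⟩ : V) ⟨y, hy⟩)

theorem mem_norm_iff {G : Type*} [Group G] {K : Subgroup G} {g : G} :
    g ∈ Subgroup.normalizer (K : Set G) ↔ MulAut.conj g • K = K :=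
  Subgroup.mem_normalizer_iff_map_conj_eq

theorem le_normalizer_of_comm {G : Type*} [Group G] {V W S : Subgroup G} (hV : IsMulCommutative V)
    (hW : W ≤ V) (hS : S ≤ V) : W ≤ Subgroup.normalizer (S : Set G) := by
  intro w hw
  rw [Subgroup.mem_normalizer_iff]
  intro h
  constructor
  · intro hh
    have : w * h * w⁻¹ = h := by
      rw [comm_of_mem hV (hW hw) (hS hh), mul_assoc, mul_inv_cancel, mul_one]
    rwa [this]
  · intro hh
    have h1 : w * (w * h * w⁻¹) = (w * h * w⁻¹) * w := comm_of_mem hV (hW hw) (hS hh)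
    have : w * h * w⁻¹ = h := by
      have h2 : w * (w * h * w⁻¹) = w * h := by rw [h1]; group
      exact mul_left_cancel h2
    rwa [this] at hh

theorem mem_sup_of_comm {G : Type*} [Group G] {V W S : Subgroup G} (hV : IsMulCommutative V)
    (hW : W ≤ V) (hS : S ≤ V) {x : G} (hx : x ∈ W ⊔ S) : ∃ w ∈ W, ∃ s ∈ S, w * s = x := by
  have := Subgroup.coe_mul_of_left_le_normalizer_right W S (le_normalizer_of_comm hV hW hS)
  have hx' : x ∈ ((W ⊔ S : Subgroup G) : Set G) := hx
  rw [this] at hx'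
  exact Set.mem_mul.mp hx'

/-- Clifford's Theorem for actions on finite abelian groups, first part. Let H and V be subgroups of a finite group with V abelian and H normalizing V, and let A be a normal subgroup of H. If every H-invariant subgroup of V has an H-invariant complement in V, then every A-invariant subgroup of V has an A-invariant complement in V. -/
theorem result {G : Type*} [Group G] [Finite G] (H A V : Subgroup G) (hVab : IsMulCommutative V) (hHV : H ≤ Subgroup.normalizer (V : Set G)) (hAH : A ≤ H) (hAn : H ≤ Subgroup.normalizer (A : Set G)) (hss : ∀ U : Subgroup G, U ≤ V → H ≤ Subgroup.normalizer (U : Set G) → ∃ W : Subgroup G, W ≤ V ∧ H ≤ Subgroup.normalizer (W : Set G) ∧ U ⊓ W = ⊥ ∧ U ⊔ W = V) (U : Subgroup G) (hUV : U ≤ V) (hAU : A ≤ Subgroup.normalizer (U : Set G)) : ∃ W : Subgroup G, W ≤ V ∧ A ≤ Subgroup.normalizer (W : Set G) ∧ U ⊓ W = ⊥ ∧ U ⊔ W = V := by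
  classical
  -- invariance predicate
  let Inv : Subgroup G → Prop := fun W => W ≤ V ∧ A ≤ Subgroup.normalizer (W : Set G)
  let Min : Subgroup G → Prop := fun S => S ≠ ⊥ ∧ Inv S ∧ ∀ T, Inv T → T ≤ S → T = ⊥ ∨ T = S
  have hInvConj : ∀ T, Inv T → ∀ h ∈ H, Inv (MulAut.conj h • T) := by
    intro T hT h hh
    refine ⟨?_, ?_⟩
    · have h1 : MulAut.conj h • V = V := mem_norm_iff.mp (hHV hh)
      rw [← h1]
      exact Subgroup.pointwise_smul_le_pointwise_smul_iff.mpr hT.1
    · intro a ha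
      rw [mem_norm_iff, smul_smul, ← map_mul]
      have ha' : h⁻¹ * a * h ∈ A := by
        have := (Subgroup.mem_normalizer_iff''.mp (hAn hh) a).mp ha
        exact this
      have h2 : a * h = h * (h⁻¹ * a * h) := by group
      rw [h2, map_mul, ← smul_smul, mem_norm_iff.mp (hT.2 ha')]
  have hMinConj : ∀ S, Min S → ∀ h ∈ H, Min (MulAut.conj h • S) := by
    intro S hS h hh
    refine ⟨?_, hInvConj S hS.2.1 h hh, ?_⟩
    · intro h0
      apply hS.1
      have := congrArg (fun K => (MulAut.conj h)⁻¹ • K) h0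
      simpa using this
    · intro T hT hTS
      have hT' : Inv (MulAut.conj h⁻¹ • T) := hInvConj T hT h⁻¹ (H.inv_mem hh)
      have hle : MulAut.conj h⁻¹ • T ≤ S := by
        rw [map_inv, Subgroup.pointwise_smul_subset_iff, inv_inv]
        exact hTS
      rcases hS.2.2 _ hT' hle with h0 | h0
      · left
        have := congrArg (fun K => (MulAut.conj h) • K) h0
        simpa using this
      · right
        have := congrArg (fun K => (MulAut.conj h) • K) h0
        simpa using this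
  -- existence of minimal invariant subgroups
  have hexMin : ∀ W, Inv W → W ≠ ⊥ → ∃ S, Min S ∧ S ≤ W := by
    intro W hW hW0
    have hne : {T : Subgroup G | T ≠ ⊥ ∧ Inv T ∧ T ≤ W}.Nonempty := ⟨W, hW0, hW, le_rfl⟩
    obtain ⟨S, hS, hSmin⟩ := (Set.toFinite {T : Subgroup G | T ≠ ⊥ ∧ Inv T ∧ T ≤ W}).exists_minimal hne
    refine ⟨S, ⟨hS.1, hS.2.1, ?_⟩, hS.2.2⟩
    intro T hT hTS
    by_cases hT0 : T = ⊥
    · exact Or.inl hT0
    · right
      exact le_antisymm hTS (hSmin ⟨hT0, hT, hTS.trans hS.2.2⟩ hTS)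
  set V0 : Subgroup G := sSup {S | Min S} with hV0
  have hV0V : V0 ≤ V := sSup_le fun S hS => hS.2.1.1
  have hV0le : ∀ h ∈ H, MulAut.conj h • V0 ≤ V0 := by
    intro h hh
    rw [Subgroup.pointwise_smul_subset_iff]
    apply sSup_le
    intro S hS
    rw [← Subgroup.pointwise_smul_subset_iff]
    exact le_sSup (hMinConj S hS h hh)
  have hV0H : H ≤ Subgroup.normalizer (V0 : Set G) := by
    intro h hh
    rw [mem_norm_iff]
    apply le_antisymm (hV0le h hh)
    have := hV0le h⁻¹ (H.inv_mem hh)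
    rw [map_inv, Subgroup.pointwise_smul_subset_iff, inv_inv] at this
    exact this
  obtain ⟨W0, hW0V, hW0H, hinf0, hsup0⟩ := hss V0 hV0V hV0H
  have hW0bot : W0 = ⊥ := by
    by_contra hne
    obtain ⟨S, hS, hSW⟩ := hexMin W0 ⟨hW0V, hAH.trans hW0H⟩ hne
    apply hS.1
    rw [eq_bot_iff, ← hinf0]
    exact le_inf (le_sSup hS) hSW
  have hV0eq : V0 = V := by rw [← hsup0, hW0bot, sup_bot_eq]
  -- maximal W
  have hne : {W : Subgroup G | Inv W ∧ U ⊓ W = ⊥}.Nonempty := by
    refine ⟨⊥, ⟨bot_le, ?_⟩, inf_bot_eq _⟩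
    intro a _
    rw [mem_norm_iff]
    simp
  obtain ⟨W, hW, hWmax⟩ := (Set.toFinite {W : Subgroup G | Inv W ∧ U ⊓ W = ⊥}).exists_maximal hne
  refine ⟨W, hW.1.1, hW.1.2, hW.2, ?_⟩
  have hUWV : U ⊔ W ≤ V := sup_le hUV hW.1.1
  apply le_antisymm hUWV
  rw [← hV0eq]
  apply sSup_le
  intro S hS
  by_contra hSUW
  have hInvUW : Inv (U ⊔ W) := by
    refine ⟨hUWV, ?_⟩
    intro a ha
    exact Subgroup.normalizer_inf_normalizer_le_normalizer_sup U W ⟨hAU ha, hW.1.2 ha⟩
  have hInvInf : Inv (S ⊓ (U ⊔ W)) := by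
    refine ⟨inf_le_left.trans hS.2.1.1, ?_⟩
    intro a ha
    rw [mem_norm_iff, Subgroup.smul_inf, mem_norm_iff.mp (hS.2.1.2 ha), mem_norm_iff.mp (hInvUW.2 ha)]
  have hSinf : S ⊓ (U ⊔ W) = ⊥ := by
    rcases hS.2.2 _ hInvInf inf_le_left with h0 | h0
    · exact h0
    · exact absurd (inf_eq_left.mp h0) hSUW
  have hInvWS : Inv (W ⊔ S) := by
    refine ⟨sup_le hW.1.1 hS.2.1.1, ?_⟩
    intro a ha
    exact Subgroup.normalizer_inf_normalizer_le_normalizer_sup W S ⟨hW.1.2 ha, hS.2.1.2 ha⟩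
  have hUWS : U ⊓ (W ⊔ S) = ⊥ := by
    rw [eq_bot_iff]
    intro x hx
    obtain ⟨hxU, hxWS⟩ := hx
    obtain ⟨w, hw, s, hs, rfl⟩ := mem_sup_of_comm hVab hW.1.1 hS.2.1.1 hxWS
    have hs' : s ∈ S ⊓ (U ⊔ W) := by
      refine ⟨hs, ?_⟩
      have : s = w⁻¹ * (w * s) := by group
      rw [this]
      exact Subgroup.mul_mem _ (Subgroup.mem_sup_right (W.inv_mem hw)) (Subgroup.mem_sup_left hxU)
    rw [hSinf, Subgroup.mem_bot] at hs'
    subst hs'
    rw [mul_one] at hxU ⊢
    rw [← hW.2]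
    exact ⟨hxU, hw⟩
  have hle : W ⊔ S ≤ W := hWmax ⟨hInvWS, hUWS⟩ le_sup_left
  exact hSUW ((le_sup_right.trans hle).trans le_sup_right)

end Cfsg.Agent.S3735
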