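import Cfsg.Statements.S3736
import Cfsg.Agent.S0027
import Cfsg.Agent.Lib.Helper30SZ
import Cfsg.Agent.Lib.Helper3PGroup
import Cfsg.Agent.Lib.Helper3Class2

set_option autoImplicit false
open Cfsg

namespace Cfsg.Agent.S3736


open scoped commutatorElement

/-- Key lemma: if `[P,A] = P` with `A` a `p'`-group acting on the `p`-group `P`, then
`C_P(A) ≤ P'`. -/
theorem cent_le_comm {X : Type*} [Group X] [Finite X] {p : ℕ} [Fact p.Prime] (A P : Subgroup X)
    (hP : IsPGroup p P) (hAP : A ≤ Subgroup.normalizer (P : Set X))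
    (hAp : (Nat.card A).Coprime p) (hPA : ⁅P, A⁆ = P)
    (c : ↥P) (hc : ∀ a ∈ A, a * (c : X) * a⁻¹ = c) : c ∈ commutator ↥P := by
  classical
  have _ : Fintype ↥A := Fintype.ofFinite _
  have hcj : ∀ (a : ↥A) (x : ↥P), (a : X) * x * (a : X)⁻¹ ∈ P :=
    fun a x => (Subgroup.mem_normalizer_iff.mp (hAP a.2) x).mp x.2
  let T : ↥P →* Abelianization ↥P :=
    { toFun := fun x => ∏ a : ↥A, Abelianization.of (⟨(a : X) * x * (a : X)⁻¹, hcj a x⟩ : ↥P)
      map_one' := by
        apply Finset.prod_eq_one
        intro a _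
        have : (⟨(a : X) * ((1 : ↥P) : X) * (a : X)⁻¹, hcj a 1⟩ : ↥P) = 1 := by
          apply Subtype.ext; simp
        rw [this, map_one]
      map_mul' := by
        intro x y
        rw [← Finset.prod_mul_distrib]
        apply Finset.prod_congr rfl
        intro a _
        rw [← map_mul]
        congr 1
        apply Subtype.ext
        simp }
  have hT : ∀ x : ↥P, T x = ∏ a : ↥A, Abelianization.of (⟨(a : X) * x * (a : X)⁻¹, hcj a x⟩ : ↥P) :=
    fun _ => rfl
  have hinv : ∀ (b : ↥A) (x : ↥P), T ⟨(b : X) * x * (b : X)⁻¹, hcj b x⟩ = T x := by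
    intro b x
    rw [hT, hT]
    apply Fintype.prod_equiv (Equiv.mulRight b)
    intro a
    congr 1
    apply Subtype.ext
    simp [mul_assoc]
  have hker : P ≤ T.ker.map P.subtype := by
    conv_lhs => rw [← hPA]
    rw [Subgroup.commutator_le]
    intro x hx a ha
    refine ⟨⟨x, hx⟩ * ⟨a * x⁻¹ * a⁻¹, hcj ⟨a, ha⟩ ⟨x, hx⟩⁻¹⟩, ?_, ?_⟩
    · change _ ∈ T.ker
      rw [MonoidHom.mem_ker, map_mul]
      have := hinv ⟨a, ha⟩ (⟨x, hx⟩⁻¹)
      rw [show (⟨a * x⁻¹ * a⁻¹, hcj ⟨a, ha⟩ ⟨x, hx⟩⁻¹⟩ : ↥P) = ⟨((⟨a, ha⟩ : ↥A) : X) * ((⟨x, hx⟩⁻¹ : ↥P) : X) * ((⟨a, ha⟩ : ↥A) : X)⁻¹, hcj ⟨a, ha⟩ ⟨x, hx⟩⁻¹⟩ from rfl, this, map_inv, mul_inv_cancel]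
    · simp [commutatorElement_def, mul_assoc]
  have hTc : T c = 1 := by
    obtain ⟨y, hy, hyc⟩ := hker c.2
    have : y = c := Subtype.ext hyc
    rw [← this]; exact hy
  have hTc' : T c = (Abelianization.of c) ^ (Nat.card A) := by
    rw [hT, Nat.card_eq_fintype_card, ← Finset.card_univ, ← Finset.prod_const]
    apply Finset.prod_congr rfl
    intro a _
    congr 1
    apply Subtype.ext
    exact hc a a.2
  obtain ⟨k, hk⟩ := hP c
  have h1 : (Abelianization.of c) ^ (p ^ k) = 1 := by rw [← map_pow, hk, map_one]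
  have h2 : (Abelianization.of c) ^ (Nat.card A) = 1 := by rw [← hTc', hTc]
  have h3 : Abelianization.of c = 1 := by
    have hcop : (Nat.card A).Coprime (p ^ k) := hAp.pow_right k
    have := pow_gcd_eq_one.mpr ⟨h2, h1⟩
    rwa [hcop.gcd_eq_one, pow_one] at this
  exact (QuotientGroup.eq_one_iff c).mp h3

/-- The Hall–Higman reduction for a minimal non-trivial action. Let B, A and P be subgroups of a finite group with P a p-group, B normalizing P, and A a normal subgroup of B of order prime to p. Suppose A does not centralize P but centralizes every proper B-invariant subgroup of P. Then [P, A] = P; P is elementary abelian or special; B acts irreducibly on P/Φ(P), that is, the only B-invariant subgroups of P containing Φ(P) are Φ(P) and P; and if p is odd then every element of P has order dividing p. -/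
theorem result {X : Type*} [Group X] [Finite X] {p : ℕ} [Fact p.Prime] (B A P : Subgroup X) (hP : IsPGroup p P) (hBP : B ≤ Subgroup.normalizer (P : Set X)) (hAB : A ≤ B) (hAn : B ≤ Subgroup.normalizer (A : Set X)) (hAp : (Nat.card A).Coprime p) (hnt : ⁅P, A⁆ ≠ ⊥) (hmin : ∀ U : Subgroup X, U < P → B ≤ Subgroup.normalizer (U : Set X) → ⁅U, A⁆ = ⊥) : ⁅P, A⁆ = P ∧ (Cfsg.IsElementaryAbelian p P ∨ Cfsg.IsSpecial p ↥P) ∧ (∀ U : Subgroup X, (frattini ↥P).map P.subtype ≤ U → U ≤ P → B ≤ Subgroup.normalizer (U : Set X) → U = (frattini ↥P).map P.subtype ∨ U = P) ∧ (p ≠ 2 → ∀ x ∈ P, x ^ p = 1) := by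
  classical
  have hp : p.Prime := Fact.out
  have hAP : A ≤ Subgroup.normalizer (P : Set X) := hAB.trans hBP
  obtain ⟨n, hn⟩ := IsPGroup.iff_card.mp hP
  have hcop : (Nat.card A).Coprime (Nat.card P) := by rw [hn]; exact hAp.pow_right n
  have hsolvP : Group.IsSolvable ↥P := by
    have : Group.IsNilpotent ↥P := hP.isNilpotent
    infer_instance
  -- (1)
  have h1 : ⁅P, A⁆ = P := by
    have hle : ⁅P, A⁆ ≤ P := Lib.Helper30SZ.commutator_le_of_le_normalizer hAP
    by_contra hne
    have hlt : ⁅P, A⁆ < P := lt_of_le_of_ne hle hne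
    have := hmin _ hlt (Lib.Helper30SZ.le_normalizer_commutator hBP hAn)
    rw [Cfsg.Agent.S0027.result A P hAP hcop (Or.inr hsolvP)] at this
    exact hnt this
  -- every proper `B`-invariant subgroup lies in `P'`
  have hkey : ∀ U : Subgroup X, U < P → B ≤ Subgroup.normalizer (U : Set X) →
      U ≤ (commutator ↥P).map P.subtype := by
    intro U hU hBU x hx
    have hUA := hmin U hU hBU
    rw [Subgroup.commutator_eq_bot_iff_le_centralizer] at hUA
    refine ⟨⟨x, hU.le hx⟩, cent_le_comm A P hP hAP hAp h1 ⟨x, hU.le hx⟩ ?_, rfl⟩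
    intro a ha
    have := (Subgroup.mem_centralizer_iff.mp (hUA hx)) a ha
    change a * x * a⁻¹ = x
    rw [this]; group
  have hchar : ∀ (C : Subgroup ↥P) [C.Characteristic], C ≠ ⊤ → C ≤ commutator ↥P := by
    intro C _ hC
    have hlt : C.map P.subtype < P := by
      refine lt_of_le_of_ne (Subgroup.map_subtype_le C) ?_
      intro h
      apply hC
      rw [eq_top_iff]
      intro x _
      have : (x : X) ∈ C.map P.subtype := by rw [h]; exact x.2
      obtain ⟨y, hy, hyx⟩ := this
      have : y = x := Subtype.ext hyx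
      rwa [← this]
    have := hkey _ hlt (hBP.trans (Lib.Helper30SZ.normalizer_le_normalizer_map_of_characteristic C))
    exact (Subgroup.map_le_map_iff_of_injective P.subtype_injective).mp this
  have hPnt : Nontrivial ↥P := by
    by_contra h
    rw [not_nontrivial_iff_subsingleton] at h
    apply hnt
    have : P = ⊥ := P.eq_bot_of_subsingleton
    rw [this]; simp
  have hcommlt : commutator ↥P ≠ ⊤ := (Group.IsSolvable.commutator_lt_top_of_nontrivial ↥P).ne
  have hfratne : frattini ↥P ≠ ⊤ := by
    intro h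
    have := frattini_nongenerating (K := (⊥ : Subgroup ↥P)) (by rw [h]; simp)
    exact bot_ne_top this
  have hfrat : frattini ↥P = commutator ↥P :=
    le_antisymm (hchar _ hfratne) (Lib.Helper3PGroup.commutator_le_frattini hP)
  -- `P' ≤ Z(P)`
  have hmaplt : ∀ (C : Subgroup ↥P), C ≠ ⊤ → C.map P.subtype < P := by
    intro C hC
    refine lt_of_le_of_ne (Subgroup.map_subtype_le C) ?_
    intro h
    apply hC
    rw [eq_top_iff]
    intro x _
    have : (x : X) ∈ C.map P.subtype := by rw [h]; exact x.2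
    obtain ⟨y, hy, hyx⟩ := this
    have : y = x := Subtype.ext hyx
    rwa [← this]
  have hcz : commutator ↥P ≤ Subgroup.center ↥P := by
    set D : Subgroup X := (commutator ↥P).map P.subtype with hD
    have hND : Subgroup.normalizer (P : Set X) ≤ Subgroup.normalizer (D : Set X) :=
      Lib.Helper30SZ.normalizer_le_normalizer_map_of_characteristic (commutator ↥P)
    have hDA : ⁅D, A⁆ = ⊥ := hmin D (hmaplt _ hcommlt) (hBP.trans hND)
    have hDP : ⁅D, P⁆ ≤ D :=
      Lib.Helper30SZ.commutator_le_of_le_normalizer (Subgroup.le_normalizer.trans hND)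
    have h3 : ⁅⁅P, A⁆, D⁆ = ⊥ := by
      apply Subgroup.commutator_commutator_eq_bot_of_rotate
      · rw [Subgroup.commutator_comm A D, hDA]; simp
      · rw [eq_bot_iff, ← hDA]
        exact Subgroup.commutator_mono hDP le_rfl
    rw [h1, Subgroup.commutator_eq_bot_iff_le_centralizer] at h3
    intro x hx
    rw [Subgroup.mem_center_iff]
    intro y
    apply Subtype.ext
    have hxD : (x : X) ∈ D := ⟨x, hx, rfl⟩
    have := (Subgroup.mem_centralizer_iff.mp (h3 y.2)) x hxD
    simpa using this.symm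
  refine ⟨h1, ?_, ?_, ?_⟩
  · by_cases hZ : Subgroup.center ↥P = ⊤
    · left
      have hcb : commutator ↥P = ⊥ := (commutator_eq_bot_iff_center_eq_top ↥P).mpr hZ
      refine ⟨⟨⟨fun a b => ?_⟩⟩, ?_⟩
      · have : b ∈ Subgroup.center ↥P := by rw [hZ]; exact Subgroup.mem_top b
        exact (Subgroup.mem_center_iff.mp this a)
      · intro a ha
        have := Lib.Helper3PGroup.pow_mem_frattini hP (⟨a, ha⟩ : ↥P)
        rw [hfrat, hcb, Subgroup.mem_bot] at this
        simpa using congrArg Subtype.val this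
    · right
      have hzc : Subgroup.center ↥P = commutator ↥P := le_antisymm (hchar _ hZ) hcz
      exact ⟨hP, by rw [hfrat, hzc], hzc.symm⟩
  · intro U hU1 hU2 hBU
    by_cases hUP : U = P
    · right; exact hUP
    · left
      apply le_antisymm _ hU1
      rw [hfrat]
      exact hkey U (lt_of_le_of_ne hU2 hUP) hBU
  · intro hp2
    have h2 : ⁅commutator ↥P, (⊤ : Subgroup ↥P)⁆ = ⊥ := by
      rw [Subgroup.commutator_eq_bot_iff_le_centralizer, Subgroup.coe_top,
        Subgroup.centralizer_univ]
      exact hcz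
    set Om : Subgroup ↥P := Subgroup.closure {x : ↥P | x ^ p = 1} with hOm
    have hOmchar : Om.Characteristic := by
      rw [Subgroup.characteristic_iff_map_le]
      intro φ
      rw [hOm, MonoidHom.map_closure, Subgroup.closure_le]
      rintro _ ⟨x, hx, rfl⟩
      apply Subgroup.subset_closure
      change (φ x) ^ p = 1
      rw [← map_pow, show x ^ p = 1 from hx, map_one]
    have hexp : ∀ g ∈ Om, g ^ p = 1 := fun g hg =>
      Lib.Helper3Class2.omega_exponent_class2 hp hp2 h2 g hg
    by_cases hOt : Om = ⊤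
    · intro x hx
      have := hexp ⟨x, hx⟩ (by rw [hOt]; exact Subgroup.mem_top _)
      simpa using congrArg Subtype.val this
    · exfalso
      have hOA := hmin _ (hmaplt Om hOt)
        (hBP.trans (Lib.Helper30SZ.normalizer_le_normalizer_map_of_characteristic Om))
      rw [Subgroup.commutator_eq_bot_iff_le_centralizer] at hOA
      have hall := Lib.Helper30Coprime.centralizes_of_fix_order_p p hp2 A hAp P hP hAP (by
        intro a ha x hx hxp
        have hxO : x ∈ Om.map P.subtype :=
          ⟨⟨x, hx⟩, Subgroup.subset_closure (by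
            change (⟨x, hx⟩ : ↥P) ^ p = 1
            apply Subtype.ext; simpa using hxp), rfl⟩
        have := (Subgroup.mem_centralizer_iff.mp (hOA hxO)) a ha
        rw [this]; group)
      apply hnt
      rw [Subgroup.commutator_eq_bot_iff_le_centralizer]
      intro x hx
      rw [Subgroup.mem_centralizer_iff]
      intro a ha
      have := hall a ha x hx
      calc a * x = (a * x * a⁻¹) * a := by group
        _ = x * a := by rw [this]

end Cfsg.Agent.S3736
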