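import Cfsg.Statements.S3738
import Cfsg.Agent.Lib.Helper65E8Main

set_option autoImplicit false
open Cfsg

namespace Cfsg.Agent.S3738

/-- Let d be a non-identity 3-element of a finite group and P a 2-subgroup normalized by d on which ⟨d⟩ acts faithfully (no non-identity power of d centralizes P) and without non-identity fixed points (C_P(d) = 1). If every abelian subgroup of P has 2-rank at most 2, then d has order 3. -/
theorem result {X : Type*} [Group X] [Finite X] (d : X) (n : ℕ) (hn : 1 ≤ n) (hd : orderOf d = 3 ^ n) (P : Subgroup X) (hP : IsPGroup 2 P) (hdP : d ∈ Subgroup.normalizer (P : Set X)) (hfaith : Subgroup.zpowers d ⊓ Subgroup.centralizer (P : Set X) = ⊥) (hfpf : P ⊓ Subgroup.centralizer {d} = ⊥) (hrank : ∀ V : Subgroup X, V ≤ P → IsMulCommutative V → Cfsg.PRankLE 2 2 V) : orderOf d = 3 := by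
  classical
  by_contra hne
  have hn2 : 2 ≤ n := by
    rcases Nat.lt_or_ge n 2 with h | h
    · exfalso
      have : n = 1 := by omega
      rw [this, pow_one] at hd
      exact hne hd
    · exact h
  have hcard4 : ∀ U : Subgroup X, U ≤ P → IsMulCommutative U → (∀ a ∈ U, a ^ 2 = 1) →
      Nat.card U ≤ 4 := by
    intro U hU hc h2
    have := hrank U hU hc ⊤ inferInstance (by
      intro a _
      apply Subtype.ext
      simpa using h2 a a.2)
    rw [Subgroup.card_top] at this
    simpa using this
  set c : X := d ^ 3 ^ (n - 1) with hc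
  have hdn : d ^ 3 ^ n = 1 := by rw [← hd]; exact pow_orderOf_eq_one d
  have hc3 : c ^ 3 = 1 := by
    rw [hc, ← pow_mul, ← pow_succ, show n - 1 + 1 = n by omega]
    exact hdn
  have hc1 : c ≠ 1 := by
    intro h
    have h1 : orderOf d ∣ 3 ^ (n - 1) := orderOf_dvd_of_pow_eq_one h
    rw [hd] at h1
    have h2 := Nat.le_of_dvd (by positivity) h1
    have h3 : 3 ^ (n - 1) < 3 ^ n := Nat.pow_lt_pow_right (by norm_num) (by omega)
    omega
  apply Lib.Helper65E8Main.no_config P hP c d
  · exact ((Commute.refl d).pow_left _).eq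
  · exact hc3
  · exact Subgroup.pow_mem _ hdP _
  · exact hdP
  · by_contra h
    apply hc1
    have hmem : c ∈ Subgroup.zpowers d ⊓ Subgroup.centralizer (P : Set X) := by
      refine Subgroup.mem_inf.mpr ⟨Subgroup.pow_mem _ (Subgroup.mem_zpowers d) _, ?_⟩
      rw [Subgroup.mem_centralizer_iff]
      intro x hx
      by_contra hx'
      exact h ⟨x, hx, fun e => hx' e.symm⟩
    rw [hfaith] at hmem
    exact Subgroup.mem_bot.mp hmem
  · intro U hU hdU _ hUc hU2 u hu
    have h4 := hcard4 U hU hUc hU2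
    let φ : ↥(Subgroup.normalizer (U : Set X)) →* Equiv.Perm ↥U :=
      (MulAut.toPerm ↥U).comp U.normalizerMonoidHom
    let d' : ↥(Subgroup.normalizer (U : Set X)) := ⟨d, hdU⟩
    have _ : Fintype ↥U := Fintype.ofFinite _
    have h24 : (φ d') ^ 24 = 1 := by
      have h1 : (φ d') ^ Nat.card (Equiv.Perm ↥U) = 1 := pow_card_eq_one'
      rw [Nat.card_eq_fintype_card, Fintype.card_perm, ← Nat.card_eq_fintype_card] at h1
      obtain ⟨k, hk⟩ := Nat.factorial_dvd_factorial h4
      have : (24 : ℕ) = (Nat.card ↥U).factorial * k := by rw [← hk]; rfl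
      rw [this, pow_mul, h1, one_pow]
    have h3n : (φ d') ^ 3 ^ n = 1 := by
      rw [← map_pow]
      have : d' ^ 3 ^ n = 1 := Subtype.ext (by simpa using hdn)
      rw [this, map_one]
    have h3 : (φ d') ^ 3 = 1 := by
      have h5 : orderOf (φ d') ∣ 3 := by
        have e1 : orderOf (φ d') ∣ 8 * 3 := orderOf_dvd_of_pow_eq_one h24
        have e2 : orderOf (φ d') ∣ 3 ^ n := orderOf_dvd_of_pow_eq_one h3n
        have e3 : (orderOf (φ d')).Coprime 8 :=
          Nat.Coprime.coprime_dvd_left e2 (Nat.Coprime.pow_left n (by norm_num))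
        exact e3.dvd_of_dvd_mul_left e1
      exact orderOf_dvd_iff_pow_eq_one.mp h5
    have hφc : φ (d' ^ 3 ^ (n - 1)) = 1 := by
      rw [map_pow, show n - 1 = 1 + (n - 2) by omega, pow_add, pow_one, pow_mul, h3, one_pow]
    have h6 := congrArg (fun σ : Equiv.Perm ↥U => ((σ ⟨u, hu⟩ : ↥U) : X)) hφc
    have h7 : c * u * c⁻¹ = u := h6
    calc c * u = (c * u * c⁻¹) * c := by group
      _ = u * c := by rw [h7]
  · intro u hu _ hdu
    have : u ∈ P ⊓ Subgroup.centralizer {d} := by
      refine Subgroup.mem_inf.mpr ⟨hu, ?_⟩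
      rw [Subgroup.mem_centralizer_singleton_iff]
      exact hdu.symm
    rw [hfpf] at this
    exact Subgroup.mem_bot.mp this
  · intro E hE hEc hE2 h8
    have := hcard4 E hE hEc hE2
    omega

end Cfsg.Agent.S3738
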