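import Cfsg.Statements.S3739
import Cfsg.Agent.Lib.Helper65E8Main
import Cfsg.Agent.Lib.Helper1Fitting

set_option autoImplicit false
open Cfsg

namespace Cfsg.Agent.S3739


open Cfsg.Agent.Lib.Helper65E8 Cfsg.Agent.Lib.Helper65E8Main

theorem mem_normalizer_of_conj {G : Type*} [Group G] [Finite G] {U : Subgroup G} {g : G}
    (h : ∀ x ∈ U, g * x * g⁻¹ ∈ U) : g ∈ Subgroup.normalizer (U : Set G) := by
  rw [Subgroup.mem_normalizer_iff_map_conj_eq]
  apply Subgroup.eq_of_le_of_card_ge
  · rintro _ ⟨x, hx, rfl⟩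
    exact h x hx
  · rw [Subgroup.card_map_of_injective (MulAut.conj g).injective]

theorem conj_mem_of_normalizer {G : Type*} [Group G] {U : Subgroup G} {g : G}
    (h : g ∈ Subgroup.normalizer (U : Set G)) {x : G} (hx : x ∈ U) : g * x * g⁻¹ ∈ U :=
  (Subgroup.mem_normalizer_iff.mp h x).mp hx

/-- A central element of order `p` of the `p`-group `H` inside a nontrivial normal subgroup `N`. -/
theorem exists_central {G : Type*} [Group G] [Finite G] {p : ℕ} [Fact p.Prime] (H N : Subgroup G)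
    (hH : IsPGroup p H) (hNH : N ≤ H) (hnorm : H ≤ Subgroup.normalizer (N : Set G)) (hN : N ≠ ⊥) :
    ∃ x ∈ N, x ≠ 1 ∧ x ^ p = 1 ∧ ∀ h ∈ H, x * h = h * x := by
  have hn : (N.subgroupOf H).Normal := (Subgroup.normal_subgroupOf_iff_le_normalizer hNH).mpr hnorm
  have hne : N.subgroupOf H ≠ ⊥ := by
    intro h
    apply hN
    rw [Subgroup.subgroupOf_eq_bot, disjoint_iff, inf_of_le_left hNH] at h
    exact h
  obtain ⟨x, hxN, hxZ, hx1, hxp⟩ :=
    Cfsg.Agent.Lib.Helper3PGroup.exists_central_order_p hH (N.subgroupOf H) hne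
  refine ⟨x, hxN, fun h => hx1 (Subtype.ext h), by simpa using congrArg Subtype.val hxp, ?_⟩
  intro h hh
  exact (congrArg Subtype.val (Subgroup.mem_center_iff.mp hxZ ⟨h, hh⟩)).symm

theorem fixed_of_card_two {G : Type*} [Group G] {F : Subgroup G} (hF : Nat.card F = 2) {g : G}
    (hg : g ∈ Subgroup.normalizer (F : Set G)) : ∃ w ∈ F, w ≠ 1 ∧ g * w * g⁻¹ = w := by
  obtain ⟨z, hz1, hzu⟩ := (Nat.card_eq_two_iff' (1 : ↥F)).mp hF
  refine ⟨z, z.2, fun h => hz1 (Subtype.ext h), ?_⟩
  have h1 : (⟨g * z * g⁻¹, conj_mem_of_normalizer hg z.2⟩ : ↥F) ≠ 1 := by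
    intro h
    apply hz1
    have h2 : g * (z : G) * g⁻¹ = 1 := congrArg Subtype.val h
    apply Subtype.ext
    have : (z : G) = g⁻¹ * (g * z * g⁻¹) * g := by group
    rw [this, h2]; simp
  exact congrArg Subtype.val (hzu _ h1)

/-- Let G be a finite group with C_G(O₂(G)) ≤ O₂(G) containing an element of order 6, and let d be a non-identity 3-element of G normalizing a nontrivial elementary abelian 2-subgroup W with C_W(d) = 1. Then G has an elementary abelian subgroup of order 8. -/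
theorem result {G : Type*} [Group G] [Finite G] (hchar : Subgroup.centralizer (Cfsg.pCore 2 G : Set G) ≤ Cfsg.pCore 2 G) (hsix : ∃ g : G, orderOf g = 6) (d : G) (hd1 : d ≠ 1) (hd : IsPGroup 3 ↥(Subgroup.zpowers d)) (W : Subgroup G) (hW : Cfsg.IsElementaryAbelian 2 W) (hW1 : W ≠ ⊥) (hdW : d ∈ Subgroup.normalizer (W : Set G)) (hfpf : W ⊓ Subgroup.centralizer {d} = ⊥) : ∃ E : Subgroup G, Cfsg.IsElementaryAbelian 2 E ∧ Nat.card E = 8 := by
  classical
  by_contra hno
  have _ : Fact (Nat.Prime 2) := ⟨Nat.prime_two⟩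
  have _ : Fact (Nat.Prime 3) := ⟨by norm_num⟩
  have hno' : ∀ E : Subgroup G, IsMulCommutative E → (∀ a ∈ E, a ^ 2 = 1) → Nat.card E ≠ 8 :=
    fun E h1 h2 h3 => hno ⟨E, ⟨h1, h2⟩, h3⟩
  obtain ⟨hWc, hW2⟩ := hW
  have hWcomm : ∀ a ∈ W, ∀ b ∈ W, a * b = b * a := fun a ha b hb =>
    congrArg Subtype.val (hWc.is_comm.comm (⟨a, ha⟩ : ↥W) ⟨b, hb⟩)
  have hWp : IsPGroup 2 W := by
    intro a
    refine ⟨1, ?_⟩
    apply Subtype.ext
    simpa using hW2 a a.2
  have hfix : ∀ w ∈ W, d * w * d⁻¹ = w → w = 1 := by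
    intro w hw hdw
    have : w ∈ W ⊓ Subgroup.centralizer {d} := by
      refine Subgroup.mem_inf.mpr ⟨hw, ?_⟩
      rw [Subgroup.mem_centralizer_singleton_iff]
      calc w * d = (d * w * d⁻¹) * d := by rw [hdw]
        _ = d * w := by group
    rw [hfpf] at this
    exact Subgroup.mem_bot.mp this
  have hcard2 : ∀ U : Subgroup G, U ≤ W → d ∈ Subgroup.normalizer (U : Set G) → Nat.card U ≠ 2 := by
    intro U hU hdU h2
    obtain ⟨w, hw, hw1, hdw⟩ := fixed_of_card_two h2 hdU
    exact hw1 (hfix w (hU hw) hdw)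
  -- `|W| = 4`
  obtain ⟨k, hk⟩ := IsPGroup.iff_card.mp hWp
  have hk2 : k ≤ 2 := by
    by_contra hlt
    have hdvd : 2 ^ 3 ∣ Nat.card W := by
      rw [hk]; exact pow_dvd_pow 2 (by omega)
    obtain ⟨K, hK⟩ := Sylow.exists_subgroup_card_pow_prime 2 hdvd
    apply hno' (K.map W.subtype)
    · refine ⟨⟨?_⟩⟩
      rintro ⟨_, a, ha, rfl⟩ ⟨_, b, hb, rfl⟩
      apply Subtype.ext
      exact hWcomm _ a.2 _ b.2
    · rintro _ ⟨a, ha, rfl⟩
      exact hW2 _ a.2
    · rw [Subgroup.card_map_of_injective W.subtype_injective, hK]; norm_num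
  have hW4 : Nat.card W = 4 := by
    have hk0 : k ≠ 0 := by
      rintro rfl
      exact hW1 (W.eq_bot_iff_card.mpr (by simpa using hk))
    have hk1 : k ≠ 1 := by
      rintro rfl
      exact hcard2 W le_rfl hdW (by simpa using hk)
    have : k = 2 := by omega
    rw [hk, this]; norm_num
  have hL3 : ∀ U : Subgroup G, U ≤ W → d ∈ Subgroup.normalizer (U : Set G) → U ≠ ⊥ → U = W := by
    intro U hU hdU hne
    apply Subgroup.eq_of_le_of_card_ge hU
    have h1 : Nat.card U ∣ 4 := hW4 ▸ Subgroup.card_dvd_of_le hU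
    have h2 := hcard2 U hU hdU
    have h3 : Nat.card U ≠ 1 := fun h => hne (U.eq_bot_iff_card.mpr h)
    have h4 : Nat.card U ≤ 4 := Nat.le_of_dvd (by norm_num) h1
    rw [hW4]
    interval_cases (Nat.card U) <;> omega
  -- an involution commuting with `W` lies in `W`
  have hinW : ∀ u : G, u ^ 2 = 1 → (∀ a ∈ W, u * a = a * u) → u ∈ W := by
    intro u hu2 huc
    by_contra huW
    obtain ⟨h1, h2, h3⟩ := E8_of_invol W hWcomm hW2 hW4 u huW hu2 huc
    exact hno' _ h1 h2 h3
  set Q : Subgroup G := Cfsg.pCore 2 G with hQdef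
  have hQn : Q.Normal := Cfsg.Agent.Lib.Helper1Fitting.pCore_normal 2
  have hQp : IsPGroup 2 Q := Cfsg.Agent.Lib.Helper1Fitting.pCore_isPGroup 2
  obtain ⟨g, hg6⟩ := hsix
  have hQne : Q ≠ ⊥ := by
    intro h
    rw [h] at hchar
    have hg : g ∈ Subgroup.centralizer (((⊥ : Subgroup G) : Set G)) := by
      rw [Subgroup.mem_centralizer_iff]
      intro x hx
      have : x = 1 := Subgroup.mem_bot.mp hx
      rw [this]; simp
    have := Subgroup.mem_bot.mp (hchar hg)
    rw [this, orderOf_one] at hg6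
    omega
  have hNQ : ∀ x : G, x ∈ Subgroup.normalizer (Q : Set G) := fun x =>
    mem_normalizer_of_conj (fun y hy => hQn.conj_mem y hy x)
  -- `W ≤ Q`
  have hWQ : W ≤ Q := by
    by_contra hWQ
    have hinf : W ⊓ Q = ⊥ := by
      by_contra hne
      have := hL3 (W ⊓ Q) inf_le_left (mem_normalizer_of_conj (fun x hx =>
        Subgroup.mem_inf.mpr ⟨conj_mem_of_normalizer hdW hx.1, hQn.conj_mem x hx.2 d⟩)) hne
      exact hWQ (this ▸ inf_le_right)
    obtain ⟨u, huQ, hu1, hu2, huc⟩ := exists_central (W ⊔ Q) Q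
      (hWp.to_sup_of_normal_right hQp) le_sup_right (fun x _ => hNQ x) hQne
    have huW := hinW u hu2 (fun a ha => huc a (le_sup_left (b := Q) ha))
    have : u ∈ W ⊓ Q := Subgroup.mem_inf.mpr ⟨huW, huQ⟩
    rw [hinf] at this
    exact hu1 (Subgroup.mem_bot.mp this)
  -- `W` is central in `Q`
  have hWZ : ∀ w ∈ W, ∀ x ∈ Q, w * x = x * w := by
    obtain ⟨u, huQ, hu1, hu2, huc⟩ := exists_central Q Q hQp le_rfl (fun x _ => hNQ x) hQne
    have huW := hinW u hu2 (fun a ha => huc a (hWQ ha))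
    have hU : W ⊓ Subgroup.centralizer (Q : Set G) = W := by
      apply hL3 _ inf_le_left
      · apply mem_normalizer_of_conj
        intro x hx
        refine Subgroup.mem_inf.mpr ⟨conj_mem_of_normalizer hdW hx.1, ?_⟩
        rw [Subgroup.mem_centralizer_iff]
        intro y hy
        have h1 := Subgroup.mem_centralizer_iff.mp hx.2 (d⁻¹ * y * d) (by
          have := hQn.conj_mem y hy d⁻¹
          simpa using this)
        calc y * (d * x * d⁻¹) = d * ((d⁻¹ * y * d) * x) * d⁻¹ := by group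
          _ = d * (x * (d⁻¹ * y * d)) * d⁻¹ := by rw [h1]
          _ = d * x * d⁻¹ * y := by group
      · intro h
        have : u ∈ W ⊓ Subgroup.centralizer (Q : Set G) := by
          refine Subgroup.mem_inf.mpr ⟨huW, ?_⟩
          rw [Subgroup.mem_centralizer_iff]
          intro y hy
          exact (huc y hy).symm
        rw [h] at this
        exact hu1 (Subgroup.mem_bot.mp this)
    intro w hw x hx
    have : w ∈ W ⊓ Subgroup.centralizer (Q : Set G) := by rw [hU]; exact hw
    exact (Subgroup.mem_centralizer_iff.mp this.2 x hx).symm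
  -- all involutions of `Q` lie in `W`
  have hinvQ : ∀ u ∈ Q, u ^ 2 = 1 → u ∈ W := fun u hu hu2 =>
    hinW u hu2 (fun a ha => (hWZ a ha u hu).symm)
  -- `W` is normal in `G`
  have hWn : ∀ (x : G), ∀ w ∈ W, x * w * x⁻¹ ∈ W := by
    intro x w hw
    apply hinvQ _ (hQn.conj_mem w (hWQ hw) x)
    rw [conj_pow, hW2 w hw]; simp
  -- the involution `t` and the element `c` of order three
  set t : G := g ^ 3 with ht
  set c : G := g ^ 2 with hc
  have hg6' : g ^ 6 = 1 := by rw [← hg6]; exact pow_orderOf_eq_one g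
  have ht2 : t ^ 2 = 1 := by rw [ht, ← pow_mul]; exact hg6'
  have hc3 : c ^ 3 = 1 := by rw [hc, ← pow_mul]; exact hg6'
  have hc1 : c ≠ 1 := by
    intro h
    have := orderOf_dvd_of_pow_eq_one h
    rw [hg6] at this
    omega
  have hct : c * t = t * c := ((Commute.refl g).pow_pow 2 3).eq
  have htinv : t⁻¹ = t := by
    rw [inv_eq_iff_mul_eq_one, ← pow_two]; exact ht2
  have ht1 : t ≠ 1 := by
    intro h
    have := orderOf_dvd_of_pow_eq_one h
    rw [hg6] at this
    omega
  have h6a : ∃ w₀ ∈ W, w₀ ≠ 1 ∧ c * w₀ * c⁻¹ = w₀ := by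
    by_cases hall : ∀ w ∈ W, t * w = w * t
    · exact ⟨t, hinW t ht2 hall, ht1, by rw [hct]; group⟩
    · have hex : ∃ w ∈ W, t * w ≠ w * t := by
        by_contra h
        apply hall
        intro w hw
        by_contra h'
        exact h ⟨w, hw, h'⟩
      obtain ⟨w, hw, hne⟩ := hex
      set F : Subgroup G := W ⊓ Subgroup.centralizer {t} with hF
      have hw' : t * w * t⁻¹ ∈ W := hWn t w hw
      have hvF : w * (t * w * t⁻¹) ∈ F := by
        refine Subgroup.mem_inf.mpr ⟨W.mul_mem hw hw', ?_⟩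
        rw [Subgroup.mem_centralizer_singleton_iff]
        have e1 := hWcomm w hw _ hw'
        have htt : t * t = 1 := by rw [← pow_two]; exact ht2
        rw [htinv] at e1 ⊢
        calc w * (t * w * t) * t = w * t * w * (t * t) := by group
          _ = (t * t) * (w * t * w) := by rw [htt, mul_one, one_mul]
          _ = t * ((t * w * t) * w) := by group
          _ = t * (w * (t * w * t)) := by rw [e1]
      have hv1 : w * (t * w * t⁻¹) ≠ 1 := by
        intro h
        apply hne
        have h2 := hW2 w hw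
        rw [pow_two] at h2
        have h3 : t * w * t⁻¹ = w := mul_left_cancel (h.trans h2.symm)
        calc t * w = (t * w * t⁻¹) * t := by group
          _ = w * t := by rw [h3]
      have hFcard : Nat.card F = 2 := by
        have h1 : Nat.card F ∣ 4 := hW4 ▸ Subgroup.card_dvd_of_le (inf_le_left : F ≤ W)
        have h3 : Nat.card F ≠ 1 := fun h => by
          have := F.eq_bot_iff_card.mpr h
          rw [this] at hvF
          exact hv1 (Subgroup.mem_bot.mp hvF)
        have h4 : Nat.card F ≠ 4 := fun h => by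
          have hFW : F = W := Subgroup.eq_of_le_of_card_ge inf_le_left (by rw [h, hW4])
          have : w ∈ F := by rw [hFW]; exact hw
          exact hne (Subgroup.mem_centralizer_singleton_iff.mp this.2).symm
        have h5 : Nat.card F ≤ 4 := Nat.le_of_dvd (by norm_num) h1
        interval_cases (Nat.card F) <;> omega
      have hcF : c ∈ Subgroup.normalizer (F : Set G) := by
        apply mem_normalizer_of_conj
        intro x hx
        refine Subgroup.mem_inf.mpr ⟨hWn c x hx.1, ?_⟩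
        rw [Subgroup.mem_centralizer_singleton_iff]
        have h1 : x * t = t * x := Subgroup.mem_centralizer_singleton_iff.mp hx.2
        have h2 : c⁻¹ * t = t * c⁻¹ := by
          calc c⁻¹ * t = c⁻¹ * (t * c) * c⁻¹ := by group
            _ = c⁻¹ * (c * t) * c⁻¹ := by rw [hct]
            _ = t * c⁻¹ := by group
        calc c * x * c⁻¹ * t = c * x * (c⁻¹ * t) := by group
          _ = c * (x * t) * c⁻¹ := by rw [h2]; group
          _ = (c * t) * x * c⁻¹ := by rw [h1]; group
          _ = t * (c * x * c⁻¹) := by rw [hct]; group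
      obtain ⟨w₀, hw₀, hw₀1, hcw₀⟩ := fixed_of_card_two hFcard hcF
      exact ⟨w₀, hw₀.1, hw₀1, hcw₀⟩
  have hcW : ∀ w ∈ W, c * w * c⁻¹ = w := by
    obtain ⟨w₀, hw₀, hw₀1, hcw₀⟩ := h6a
    let α : Set G := {w | w ∈ W ∧ c * w * c⁻¹ ≠ w}
    have h3 : 3 ∣ Nat.card α := by
      apply three_dvd_card (fun x : α => (⟨c * x.1 * c⁻¹, hWn c _ x.2.1, fun h => x.2.2 (by
        have := mul_left_cancel (mul_right_cancel h)
        exact this)⟩ : α))
      · intro x
        apply Subtype.ext
        change c * (c * (c * (x : G) * c⁻¹) * c⁻¹) * c⁻¹ = x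
        have : c * (c * (c * (x : G) * c⁻¹) * c⁻¹) * c⁻¹ = c ^ 3 * x * (c ^ 3)⁻¹ := by
          simp only [pow_succ, pow_zero, one_mul, mul_inv_rev, mul_assoc]
        rw [this, hc3]; simp
      · intro x hx
        exact x.2.2 (congrArg Subtype.val hx)
    have hle : Nat.card α ≤ 2 := by
      rw [Nat.card_coe_set_eq]
      have hsub : α ⊆ (W : Set G) \ {1, w₀} := by
        intro x hx
        refine ⟨hx.1, ?_⟩
        rintro (rfl | rfl)
        · exact hx.2 (by simp)
        · exact hx.2 hcw₀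
      calc α.ncard ≤ ((W : Set G) \ {1, w₀}).ncard := Set.ncard_le_ncard hsub (Set.toFinite _)
        _ = (W : Set G).ncard - ({1, w₀} : Set G).ncard := by
            apply Set.ncard_sdiff _ (Set.toFinite _)
            rintro x (rfl | rfl)
            · exact W.one_mem
            · exact hw₀
        _ = 2 := by
            rw [Set.ncard_pair hw₀1.symm, ← Nat.card_coe_set_eq]
            change Nat.card ↥W - 2 = 2
            rw [hW4]
    have h0 : Nat.card α = 0 := by
      obtain ⟨j, hj⟩ := h3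
      omega
    intro w hw
    by_contra hne
    have : IsEmpty α := by
      rcases Nat.card_eq_zero.mp h0 with h | h
      · exact h
      · exact absurd (Set.toFinite α).to_subtype h.not_finite
    exact this.false ⟨w, hw, hne⟩
  -- an element `c₀` of order three centralizing `W` and commuting with `d`
  set K : Subgroup G := Subgroup.centralizer (W : Set G) with hK
  have hKmem : ∀ x : G, x ∈ K ↔ ∀ w ∈ W, x * w * x⁻¹ = w := by
    intro x
    rw [hK, Subgroup.mem_centralizer_iff]
    constructor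
    · intro h w hw
      rw [← h w hw]; group
    · intro h w hw
      calc w * x = (x * w * x⁻¹) * x := by rw [h w hw]
        _ = x * w := by group
  have hKn : ∀ (x : G), ∀ y ∈ K, x * y * x⁻¹ ∈ K := by
    intro x y hy
    rw [hKmem] at hy ⊢
    intro w hw
    have h1 := hy (x⁻¹ * w * x) (by simpa using hWn x⁻¹ w hw)
    calc x * y * x⁻¹ * w * (x * y * x⁻¹)⁻¹ = x * (y * (x⁻¹ * w * x) * y⁻¹) * x⁻¹ := by group
      _ = x * (x⁻¹ * w * x) * x⁻¹ := by rw [h1]
      _ = w := by group
  obtain ⟨S, hdS⟩ := hd.exists_le_sylow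
  have hcp : IsPGroup 3 ↥(Subgroup.zpowers c) := by
    apply IsPGroup.of_card (n := 1)
    rw [Nat.card_zpowers, pow_one]
    exact orderOf_eq_prime hc3 hc1
  obtain ⟨S', hcS'⟩ := hcp.exists_le_sylow
  obtain ⟨x, hx⟩ := MulAction.exists_smul_eq G S' S
  have hc'S : x * c * x⁻¹ ∈ (S : Subgroup G) := by
    rw [← hx, Sylow.coe_subgroup_smul]
    have := Subgroup.smul_mem_pointwise_smul c (MulAut.conj x) (S' : Subgroup G)
      (hcS' (Subgroup.mem_zpowers c))
    simpa [MulAut.smul_def] using this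
  have hc'K : x * c * x⁻¹ ∈ K := hKn x c ((hKmem c).mpr hcW)
  have hNne : K ⊓ (S : Subgroup G) ≠ ⊥ := by
    intro h
    have : x * c * x⁻¹ ∈ K ⊓ (S : Subgroup G) := Subgroup.mem_inf.mpr ⟨hc'K, hc'S⟩
    rw [h] at this
    apply hc1
    have h2 := Subgroup.mem_bot.mp this
    have : c = x⁻¹ * (x * c * x⁻¹) * x := by group
    rw [this, h2]; simp
  obtain ⟨c₀, hc₀N, hc₀1, hc₀3, hc₀c⟩ := exists_central (p := 3) (S : Subgroup G)
    (K ⊓ (S : Subgroup G)) S.isPGroup' inf_le_right (by
      intro s hs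
      apply mem_normalizer_of_conj
      intro y hy
      exact Subgroup.mem_inf.mpr ⟨hKn s y hy.1,
        (S : Subgroup G).mul_mem ((S : Subgroup G).mul_mem hs hy.2) ((S : Subgroup G).inv_mem hs)⟩) hNne
  have hc₀W : ∀ w ∈ W, c₀ * w = w * c₀ := by
    intro w hw
    have := (hKmem c₀).mp hc₀N.1 w hw
    calc c₀ * w = (c₀ * w * c₀⁻¹) * c₀ := by group
      _ = w * c₀ := by rw [this]
  apply no_config Q hQp c₀ d (hc₀c d (hdS (Subgroup.mem_zpowers d))) hc₀3 (hNQ c₀) (hNQ d)
  · by_contra h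
    have hmem : c₀ ∈ Subgroup.centralizer (Q : Set G) := by
      rw [Subgroup.mem_centralizer_iff]
      intro y hy
      by_contra hy'
      exact h ⟨y, hy, fun e => hy' e.symm⟩
    have hQ := hchar hmem
    obtain ⟨j, hj⟩ := hQp ⟨c₀, hQ⟩
    have hj' : c₀ ^ 2 ^ j = 1 := by simpa using congrArg Subtype.val hj
    have h1 : orderOf c₀ ∣ 2 ^ j := orderOf_dvd_of_pow_eq_one hj'
    rw [orderOf_eq_prime hc₀3 hc₀1] at h1
    have := (Nat.Prime.dvd_of_dvd_pow (by norm_num : Nat.Prime 3) h1)
    omega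
  · intro U hU _ _ _ hU2 u hu
    exact hc₀W u (hinvQ u (hU hu) (hU2 u hu))
  · intro u hu hu2 hdu
    apply hfix u (hinvQ u hu hu2)
    rw [hdu]; group
  · intro E _ h1 h2
    exact hno' E h1 h2

end Cfsg.Agent.S3739
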