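import Cfsg.Statements.S3740
import Mathlib
import Cfsg.Agent.Lib.Helper13SL2d

set_option autoImplicit false
open Cfsg

namespace Cfsg.Agent.S3740

open Cfsg.Agent.Lib.Helper13SL2d

theorem exists_not_commute {G : Type*} [Group G] (R : Subgroup G) (a : G)
    (hnt : ⁅R, Subgroup.zpowers a⁆ ≠ ⊥) : ∃ x ∈ R, a * x ≠ x * a := by
  by_contra hcon
  push Not at hcon
  apply hnt
  rw [Subgroup.commutator_eq_bot_iff_le_centralizer]
  intro x hx
  rw [Subgroup.mem_centralizer_iff]
  intro h hh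
  obtain ⟨n, rfl⟩ := Subgroup.mem_zpowers_iff.mp hh
  exact ((show Commute a x from hcon x hx).zpow_left n).eq


/-- Let F be a finite field of odd characteristic p and let a be a p-element of SL₂(F) normalizing a subgroup R of order prime to p with [R, a] ≠ 1. Then p = 3, R is a quaternion group of order 8, and R⟨a⟩ is isomorphic to SL₂(3). -/
theorem result (F : Type) [Field F] [Fintype F] {p : ℕ} [Fact p.Prime] [CharP F p] (hp : p ≠ 2) (a : Matrix.SpecialLinearGroup (Fin 2) F) (ha : IsPGroup p ↥(Subgroup.zpowers a)) (R : Subgroup (Matrix.SpecialLinearGroup (Fin 2) F)) (hR : (Nat.card R).Coprime p) (haR : a ∈ Subgroup.normalizer (R : Set (Matrix.SpecialLinearGroup (Fin 2) F))) (hnt : ⁅R, Subgroup.zpowers a⁆ ≠ ⊥) : p = 3 ∧ Nonempty (↥R ≃* QuaternionGroup 2) ∧ Nonempty (↥(R ⊔ Subgroup.zpowers a) ≃* Matrix.SpecialLinearGroup (Fin 2) (ZMod 3)) := by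
  obtain ⟨k, hk⟩ := ha ⟨a, Subgroup.mem_zpowers a⟩
  have hak : a ^ p ^ k = 1 := by
    have := congrArg Subtype.val hk
    simpa using this
  obtain ⟨x₀, hx₀, hne⟩ := exists_not_commute R a hnt
  obtain ⟨h3, hQ, hS⟩ := structure_thm hp a k hak R hR haR x₀ hx₀ hne
  subst h3
  exact ⟨rfl, hQ, hS⟩

end Cfsg.Agent.S3740
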