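import Cfsg.Statements.S3741
-- import your own Cfsg.Agent.* helpers here

set_option autoImplicit false
open Cfsg

namespace Cfsg.Agent.S3741

open scoped commutatorElement

theorem key {G : Type*} [Group G] [Finite G] {p : ℕ} [Fact p.Prime] (hG : IsPGroup p G)
    (X Y : Subgroup G) (hcard : Nat.card ↥⁅X, Y⁆ ≤ p) (x : G) (hx : x ∈ X)
    (hxc : x ∉ Subgroup.centralizer (Y : Set G)) :
    p * Nat.card ((Subgroup.centralizer {x}).subgroupOf Y) = Nat.card Y := by
  set H := (Subgroup.centralizer {x}).subgroupOf Y with hH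
  have hp : p.Prime := Fact.out
  have hmem : ∀ y : Y, y ∈ H ↔ x * (y : G) = y * x := by
    intro y
    rw [hH, Subgroup.mem_subgroupOf, Subgroup.mem_centralizer_singleton_iff, eq_comm]
  have h1 : H.index ≤ p := by
    let f0 : Y → ↥⁅X, Y⁆ := fun y => ⟨⁅x, (y : G)⁆, Subgroup.commutator_mem_commutator hx y.2⟩
    have hf0 : ∀ y y' : Y, f0 y = f0 y' ↔ y⁻¹ * y' ∈ H := by
      intro y y'
      rw [hmem]
      simp only [f0, Subtype.mk.injEq, commutatorElement_def, Subgroup.coe_mul, Subgroup.coe_inv]
      constructor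
      · intro h
        have h2 : (y : G) * x⁻¹ * (y : G)⁻¹ = y' * x⁻¹ * (y' : G)⁻¹ := by
          have := congrArg (fun t => x⁻¹ * t) h
          simpa [mul_assoc] using this
        have h3 : x⁻¹ * ((y : G)⁻¹ * y') = (y : G)⁻¹ * y' * x⁻¹ := by
          have := congrArg (fun t => (y : G)⁻¹ * t * y') h2
          simpa [mul_assoc] using this
        have := congrArg (fun t => x * t * x) h3
        simpa [mul_assoc] using this.symm
      · intro h
        have h3 : x⁻¹ * ((y : G)⁻¹ * y') = (y : G)⁻¹ * y' * x⁻¹ := by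
          have := congrArg (fun t => x⁻¹ * t * x⁻¹) h
          simpa [mul_assoc] using this.symm
        have h2 : (y : G) * x⁻¹ * (y : G)⁻¹ = y' * x⁻¹ * (y' : G)⁻¹ := by
          have := congrArg (fun t => (y : G) * t * (y' : G)⁻¹) h3
          simpa [mul_assoc] using this
        have := congrArg (fun t => x * t) h2
        simpa [mul_assoc] using this
    let f : Y ⧸ H → ↥⁅X, Y⁆ := Quotient.lift f0 (by
      intro y y' h
      exact (hf0 y y').mpr (QuotientGroup.leftRel_apply.mp h))
    have hf : Function.Injective f := by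
      intro q q'
      induction q using Quotient.inductionOn with | _ y => ?_
      induction q' using Quotient.inductionOn with | _ y' => ?_
      intro h
      apply Quotient.sound
      exact QuotientGroup.leftRel_apply.mpr ((hf0 y y').mp h)
    exact (Nat.card_le_card_of_injective f hf).trans hcard
  have h2 : H.index ≠ 1 := by
    intro h
    rw [Subgroup.index_eq_one] at h
    apply hxc
    rw [Subgroup.mem_centralizer_iff]
    intro y hy
    have : (⟨y, hy⟩ : Y) ∈ H := by rw [h]; trivial
    exact ((hmem _).mp this).symm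
  obtain ⟨n, hn⟩ := (hG.to_subgroup Y).index H
  have h3 : H.index = p := by
    rw [hn] at h1 h2 ⊢
    have hn1 : n ≤ 1 := by
      by_contra hlt
      push Not at hlt
      have : p ^ 2 ≤ p ^ n := Nat.pow_le_pow_right hp.pos hlt
      have h4 : p * p ≤ p := by
        calc p * p = p ^ 2 := by ring
          _ ≤ p ^ n := this
          _ ≤ p := h1
      have := hp.two_le
      nlinarith
    interval_cases n
    · simp at h2
    · simp
  rw [← H.card_mul_index, h3, mul_comm]

theorem sum_eq {G : Type*} [Group G] [Finite G] {p : ℕ} [Fact p.Prime] (hG : IsPGroup p G)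
    (X Y : Subgroup G) [Fintype X] (hcard : Nat.card ↥⁅X, Y⁆ ≤ p) :
    ∑ x : X, p * Nat.card ((Subgroup.centralizer {(x : G)}).subgroupOf Y) =
      Nat.card X * Nat.card Y +
        Nat.card ((Subgroup.centralizer (Y : Set G)).subgroupOf X) * ((p - 1) * Nat.card Y) := by
  classical
  have hp : p.Prime := Fact.out
  have h1 : ∀ x : X, p * Nat.card ((Subgroup.centralizer {(x : G)}).subgroupOf Y) =
      Nat.card Y + (if x ∈ (Subgroup.centralizer (Y : Set G)).subgroupOf X then (p - 1) * Nat.card Y else 0) := by
    intro x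
    by_cases hx : x ∈ (Subgroup.centralizer (Y : Set G)).subgroupOf X
    · rw [if_pos hx]
      have : (Subgroup.centralizer {(x : G)}).subgroupOf Y = ⊤ := by
        rw [eq_top_iff]
        intro y _
        rw [Subgroup.mem_subgroupOf, Subgroup.mem_centralizer_singleton_iff]
        rw [Subgroup.mem_subgroupOf, Subgroup.mem_centralizer_iff] at hx
        exact hx y y.2
      rw [this, Subgroup.card_top]
      have := hp.pos
      obtain ⟨k, rfl⟩ : ∃ k, p = k + 1 := ⟨p - 1, by omega⟩
      simp only [Nat.add_sub_cancel]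
      ring
    · rw [if_neg hx, add_zero]
      exact key hG X Y hcard x x.2 hx
  simp_rw [h1]
  rw [Finset.sum_add_distrib, Finset.sum_const, Finset.card_univ, smul_eq_mul,
    ← Finset.sum_filter, Finset.sum_const, smul_eq_mul, Nat.card_eq_fintype_card (α := X)]
  congr 2
  rw [Nat.card_eq_fintype_card, Fintype.card_subtype]

theorem sum_comm' {G : Type*} [Group G] [Finite G] (X Y : Subgroup G) [Fintype X] [Fintype Y] :
    ∑ x : X, Nat.card ((Subgroup.centralizer {(x : G)}).subgroupOf Y) =
      ∑ y : Y, Nat.card ((Subgroup.centralizer {(y : G)}).subgroupOf X) := by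
  classical
  have h1 : ∀ (X Y : Subgroup G) [Fintype Y] (x : X),
      Nat.card ((Subgroup.centralizer {(x : G)}).subgroupOf Y) =
      ∑ y : Y, if (x : G) * y = y * x then 1 else 0 := by
    intro X Y _ x
    rw [← Finset.card_filter, Nat.card_eq_fintype_card, Fintype.card_subtype]
    congr 1
    ext y
    simp only [Finset.mem_filter, Finset.mem_univ, true_and]
    rw [Subgroup.mem_subgroupOf, Subgroup.mem_centralizer_singleton_iff, eq_comm]
  simp_rw [h1 X Y, h1 Y X]
  rw [Finset.sum_comm]
  apply Finset.sum_congr rfl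
  intro y _
  apply Finset.sum_congr rfl
  intro x _
  simp only [eq_comm]

/-- Let A and B be subgroups of a finite p-group with [A, B] ≤ A ∩ B and [A, B] of order at most p. Then |A : C_A(B)| = |B : C_B(A)|. -/
theorem result {G : Type*} [Group G] [Finite G] {p : ℕ} [Fact p.Prime] (hG : IsPGroup p G) (A B : Subgroup G) (hAB : ⁅A, B⁆ ≤ A ⊓ B) (hcard : Nat.card ↥⁅A, B⁆ ≤ p) : (A ⊓ Subgroup.centralizer (B : Set G)).relIndex A = (B ⊓ Subgroup.centralizer (A : Set G)).relIndex B := by
  classical
  have hp : p.Prime := Fact.out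
  have : Fintype A := Fintype.ofFinite _
  have : Fintype B := Fintype.ofFinite _
  rw [Subgroup.inf_relIndex_left, Subgroup.inf_relIndex_left]
  have hcard' : Nat.card ↥⁅B, A⁆ ≤ p := by rwa [Subgroup.commutator_comm]
  have h1 := sum_eq hG A B hcard
  have h2 := sum_eq hG B A hcard'
  rw [← Finset.mul_sum] at h1 h2
  rw [sum_comm' A B, h2] at h1
  have hA := ((Subgroup.centralizer (B : Set G)).subgroupOf A).card_mul_index
  have hB := ((Subgroup.centralizer (A : Set G)).subgroupOf B).card_mul_index
  simp only [Subgroup.relIndex]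
  set α0 := Nat.card ((Subgroup.centralizer (B : Set G)).subgroupOf A)
  set β0 := Nat.card ((Subgroup.centralizer (A : Set G)).subgroupOf B)
  set rA := ((Subgroup.centralizer (B : Set G)).subgroupOf A).index
  set rB := ((Subgroup.centralizer (A : Set G)).subgroupOf B).index
  have hα0 : 0 < α0 := Nat.card_pos
  have hβ0 : 0 < β0 := Nat.card_pos
  rw [← hA, ← hB] at h1
  have hp1 : 0 < p - 1 := by have := hp.two_le; omega
  have h3 : β0 * ((p - 1) * (α0 * rA)) = α0 * ((p - 1) * (β0 * rB)) := by
    have : β0 * rB * (α0 * rA) = α0 * rA * (β0 * rB) := by ring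
    omega
  have h4 : (β0 * (p - 1) * α0) * rA = (β0 * (p - 1) * α0) * rB := by
    calc (β0 * (p - 1) * α0) * rA = β0 * ((p - 1) * (α0 * rA)) := by ring
      _ = α0 * ((p - 1) * (β0 * rB)) := h3
      _ = (β0 * (p - 1) * α0) * rB := by ring
  exact Nat.eq_of_mul_eq_mul_left (by positivity) h4

end Cfsg.Agent.S3741
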