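import Cfsg.Statements.S3746
-- import your own Cfsg.Agent.* helpers here
import Cfsg.Agent.Lib.Helper28More

set_option autoImplicit false
open Cfsg

namespace Cfsg.Agent.S3746

open Subgroup Cfsg.Agent.Lib.Helper28Comp Cfsg.Agent.Lib.Helper28Fitting Cfsg.Agent.Lib.Helper28Layer
  Cfsg.Agent.Lib.Helper28Util Cfsg.Agent.Lib.Helper28More
open scoped commutatorElement

/-- Let Z ≤ Z(G) be a central subgroup of a finite group G and E a subgroup of G containing Z whose image E/Z is a component of G/Z (subnormal and quasisimple). Then the derived subgroup [E, E] is a component of G. -/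
theorem result {G : Type*} [Group G] [Finite G] (Z : Subgroup G) (hZ : Z ≤ Subgroup.center G) [Z.Normal] (E : Subgroup G) (hZE : Z ≤ E) (hE : Cfsg.IsComponent (E.map (QuotientGroup.mk' Z))) : Cfsg.IsComponent ⁅E, E⁆ := by
  set q := QuotientGroup.mk' Z with hq
  have hker : q.ker = Z := QuotientGroup.ker_mk' Z
  obtain ⟨hsn, hqs⟩ := isComponent_iff.mp hE
  have hEc : (E.map q).comap q = E := by
    rw [comap_map_eq, hker, sup_eq_left.mpr hZE]
  have hEsn : Sn E ⊤ := by
    have := hsn.comap q
    rwa [hEc, comap_top] at this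
  set D := ⁅E, E⁆ with hD
  have hDE : NormIn D E := commutator_self_normIn E
  have hZc : ∀ A : Subgroup G, ⁅A, Z⁆ = ⊥ := by
    intro A
    rw [eq_bot_iff, ← commutator_center_right A]
    exact commutator_mono le_rfl hZ
  have hmapD : D.map q = E.map q := by
    rw [hD, map_commutator, hqs.perfect]
  have sup_of_map : ∀ A B : Subgroup G, A.map q = B.map q → A ⊔ Z = B ⊔ Z := by
    intro A B h
    have := congrArg (comap q) h
    rwa [comap_map_eq, comap_map_eq, hker] at this
  have comm_sup : ∀ A : Subgroup G, ⁅A ⊔ Z, A ⊔ Z⁆ ≤ ⁅A, A⁆ := by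
    intro A
    refine (commutator_sup_self_le (hZc A)).trans ?_
    rw [hZc Z, sup_bot_eq]
  have hDZ : D ⊔ Z = E := by
    rw [sup_of_map D E hmapD, sup_eq_left.mpr hZE]
  rw [isComponent_iff]
  refine ⟨hDE.sn.trans hEsn, ?_, ?_, ?_⟩
  · apply le_antisymm (commutator_le_self D)
    calc D = ⁅D ⊔ Z, D ⊔ Z⁆ := by rw [hDZ]
      _ ≤ ⁅D, D⁆ := comm_sup D
  · intro h
    apply hqs.ne_bot
    rw [← hmapD, h, Subgroup.map_bot]
  · intro N hN
    have hN' : NormIn (N.map q) (E.map q) := by
      rw [← hmapD]; exact hN.map q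
    rcases hqs.2.2 _ hN' with h | h
    · left
      apply le_antisymm hN.1
      have h1 : N ⊔ Z = E := by rw [sup_of_map N E h, sup_eq_left.mpr hZE]
      calc D = ⁅N ⊔ Z, N ⊔ Z⁆ := by rw [h1]
        _ ≤ ⁅N, N⁆ := comm_sup N
        _ ≤ N := commutator_le_self N
    · right
      have hperf : ⁅D, D⁆ = D := by
        apply le_antisymm (commutator_le_self D)
        calc D = ⁅D ⊔ Z, D ⊔ Z⁆ := by rw [hDZ]
          _ ≤ ⁅D, D⁆ := comm_sup D
      rw [← commutator_eq_bot_iff_le_centralizer]
      apply perfect_three hperf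
      have h1 : ⁅N, D⁆ ≤ Z := by
        rw [← hker, ← Subgroup.map_eq_bot_iff, map_commutator, hmapD,
          commutator_eq_bot_iff_le_centralizer]
        exact h
      rw [eq_bot_iff, ← hZc D, commutator_comm D Z]
      exact commutator_mono h1 le_rfl

end Cfsg.Agent.S3746
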