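import Cfsg.Statements.S3747
import Cfsg.Agent.Lib.Helper27Balance
import Cfsg.Agent.S3743
import Mathlib

set_option autoImplicit false
open Cfsg

namespace Cfsg.Agent.S3747

open Subgroup Cfsg.Agent.Lib.Helper27Basic Cfsg.Agent.Lib.Helper27Core
  Cfsg.Agent.Lib.Helper27PComp Cfsg.Agent.Lib.Helper27Balance
open scoped Pointwise commutatorElement

theorem centerless_sSup {G : Type*} [Group G] (S : Set (Subgroup G)) (hfin : S.Finite) :
    (∀ L ∈ S, ∀ L' ∈ S, L ≠ L' → ∀ a ∈ L, ∀ b ∈ L', a * b = b * a) →
    (∀ L ∈ S, ∀ x ∈ L, (∀ y ∈ L, x * y = y * x) → x = 1) →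
    ∀ z ∈ sSup S, (∀ L ∈ S, ∀ y ∈ L, z * y = y * z) → z = 1 := by
  induction S, hfin using Set.Finite.induction_on with
  | empty =>
    intro _ _ z hz _
    rw [sSup_empty] at hz
    exact Subgroup.mem_bot.1 hz
  | @insert L S' hL _ ih =>
    intro hcomm hcl z hz hzc
    rw [sSup_insert] at hz
    have hPL : sSup S' ≤ centralizer (L : Set G) := by
      apply sSup_le
      intro L' hL' b hb
      rw [mem_centralizer_iff]
      intro a ha
      have hne : L ≠ L' := by
        rintro rfl; exact hL hL'
      exact hcomm L (Set.mem_insert _ _) L' (Set.mem_insert_of_mem _ hL') hne a ha b hb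
    have hz' : z ∈ ((L ⊔ sSup S' : Subgroup G) : Set G) := hz
    rw [Subgroup.coe_mul_of_right_le_normalizer_left L (sSup S')
      (hPL.trans (centralizer_le_normalizer _))] at hz'
    obtain ⟨l, hl, p, hp, hlp⟩ := Set.mem_mul.1 hz'
    have hl' : l ∈ L := hl
    have hp' : p ∈ sSup S' := hp
    have hl1 : l = 1 := by
      apply hcl L (Set.mem_insert _ _) l hl'
      intro y hy
      have h1 : z * y = y * z := hzc L (Set.mem_insert _ _) y hy
      have h2 : y * p = p * y := mem_centralizer_iff.1 (hPL hp') y hy
      rw [← hlp] at h1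
      have h3 : l * y * p = y * l * p := by
        calc l * y * p = l * (y * p) := by group
          _ = l * (p * y) := by rw [h2]
          _ = l * p * y := by group
          _ = y * (l * p) := h1
          _ = y * l * p := by group
      exact mul_right_cancel h3
    have hzp : z = p := by rw [← hlp, hl1, one_mul]
    rw [hzp]
    apply ih (fun A hA B hB => hcomm A (Set.mem_insert_of_mem _ hA) B (Set.mem_insert_of_mem _ hB))
      (fun A hA => hcl A (Set.mem_insert_of_mem _ hA)) p hp'
    intro A hA y hy
    rw [← hzp]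
    exact hzc A (Set.mem_insert_of_mem _ hA) y hy

theorem partA {G : Type*} [Group G] [Finite G] (K : Subgroup G) (hK : Cfsg.IsComponent K)
    (hZ : Subgroup.center ↥K = ⊥) :
    Subgroup.normalClosure (K : Set G) ≠ ⊥ ∧ ∀ N : Subgroup G, N.Normal →
      N ≤ Subgroup.normalClosure (K : Set G) → N = ⊥ ∨ N = Subgroup.normalClosure (K : Set G) := by
  have hKne : K ≠ ⊥ := (isComponent_iff.1 hK).2.ne_bot
  have hZ' : ∀ x ∈ K, (∀ y ∈ K, x * y = y * x) → x = 1 := by
    intro x hx hxy
    have : (⟨x, hx⟩ : K) ∈ Subgroup.center K := by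
      rw [Subgroup.mem_center_iff]
      intro y
      exact Subtype.ext (hxy y y.2).symm
    rw [hZ, Subgroup.mem_bot] at this
    exact congrArg Subtype.val this
  refine ⟨?_, ?_⟩
  · intro h
    apply hKne
    rw [eq_bot_iff, ← h]
    exact Subgroup.le_normalClosure
  intro N hN hNle
  set S : Set (Subgroup G) := {L | ∃ g : G, L = cj g K} with hS
  have hSn : (sSup S).Normal := by
    have key : ∀ g : G, cj g (sSup S) ≤ sSup S := by
      intro g
      unfold cj
      rw [map_le_iff_le_comap]
      apply sSup_le
      rintro L ⟨h, rfl⟩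
      rw [← map_le_iff_le_comap]
      apply le_sSup
      refine ⟨g * h, ?_⟩
      unfold cj
      rw [Subgroup.map_map]
      congr 1
      ext x
      simp [mul_assoc]
    refine ⟨fun n hn g => ?_⟩
    exact key g (Subgroup.mem_map_of_mem (MulAut.conj g).toMonoidHom hn)
  have hKS : K ≤ sSup S := by
    apply le_sSup
    refine ⟨1, ?_⟩
    ext x
    rw [mem_cj]; simp
  have hcl : Subgroup.normalClosure (K : Set G) ≤ sSup S := Subgroup.normalClosure_le_normal hKS
  rcases comp_le_or_comm hK hN.isSubnormal with h | h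
  · right
    exact le_antisymm hNle (Subgroup.normalClosure_le_normal h)
  · left
    rw [comm_eq_bot_iff] at h
    rw [eq_bot_iff]
    intro z hz
    rw [Subgroup.mem_bot]
    apply centerless_sSup S (Set.toFinite S) ?_ ?_ z (hcl (hNle hz)) ?_
    · rintro L ⟨g, rfl⟩ L' ⟨g', rfl⟩ hne
      have := comp_comm (isComponent_cj hK g) (isComponent_cj hK g') hne
      rw [comm_eq_bot_iff] at this
      exact this
    · rintro L ⟨g, rfl⟩ x hx hxy
      rw [mem_cj] at hx
      have h1 : g⁻¹ * x * g = 1 := by
        apply hZ' _ hx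
        intro y hy
        have hy' : g * y * g⁻¹ ∈ cj g K := by
          rw [mem_cj]
          have : g⁻¹ * (g * y * g⁻¹) * g = y := by group
          rw [this]; exact hy
        have h2 := hxy _ hy'
        calc g⁻¹ * x * g * y = g⁻¹ * (x * (g * y * g⁻¹)) * g := by group
          _ = g⁻¹ * ((g * y * g⁻¹) * x) * g := by rw [h2]
          _ = y * (g⁻¹ * x * g) := by group
      have h3 : x = g * (g⁻¹ * x * g) * g⁻¹ := by group
      rw [h3, h1]; group
    · rintro L ⟨g, rfl⟩ y hy
      rw [mem_cj] at hy
      have hz' : g⁻¹ * z * g ∈ N := by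
        have := hN.conj_mem z hz g⁻¹
        rwa [inv_inv] at this
      have h2 := h _ hy _ hz'
      calc z * y = g * ((g⁻¹ * z * g) * (g⁻¹ * y * g)) * g⁻¹ := by group
        _ = g * ((g⁻¹ * y * g) * (g⁻¹ * z * g)) * g⁻¹ := by rw [h2]
        _ = y * z := by group

theorem nilpotent_of_comm {H : Type*} [Group H] (h : ∀ a b : H, a * b = b * a) :
    Group.IsNilpotent H := by
  let _ : CommGroup H := { (inferInstance : Group H) with mul_comm := h }
  infer_instance

/-- Let G be a finite group. (a) If K is a component of G with trivial centre, then the normal closure of K in G is a minimal normal subgroup of G. (b) If the Fitting subgroup of G is trivial, then the layer E(G) is generated by the minimal normal subgroups of G. -/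
theorem result {G : Type*} [Group G] [Finite G] : (∀ K : Subgroup G, Cfsg.IsComponent K → Subgroup.center ↥K = ⊥ → (Subgroup.normalClosure (K : Set G) ≠ ⊥ ∧ ∀ N : Subgroup G, N.Normal → N ≤ Subgroup.normalClosure (K : Set G) → N = ⊥ ∨ N = Subgroup.normalClosure (K : Set G))) ∧ (Cfsg.fittingSubgroup G = ⊥ → sSup {N : Subgroup G | N ≠ ⊥ ∧ N.Normal ∧ ∀ N' : Subgroup G, N'.Normal → N' ≤ N → N' = ⊥ ∨ N' = N} = Cfsg.layer G) := by
  refine ⟨fun K hK hZ => partA K hK hZ, ?_⟩
  intro hF
  have hlayer := layer_normal G
  apply le_antisymm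
  · apply sSup_le
    rintro N ⟨hN1, hNn, hNmin⟩
    obtain ⟨K, hKmin⟩ := (Set.toFinite {K : Subgroup G | K.IsSubnormal ∧ K ≠ ⊥ ∧ K ≤ N}).exists_minimal
      ⟨N, hNn.isSubnormal, hN1, le_rfl⟩
    obtain ⟨⟨hKsn, hK1, hKN⟩, hKm⟩ := hKmin
    have hnt : Nontrivial K := (Subgroup.nontrivial_iff_ne_bot K).2 hK1
    have hsimple : ∀ M : Subgroup K, M.Normal → M = ⊥ ∨ M = ⊤ := by
      intro M hM
      by_cases hM1 : M = ⊥
      · exact Or.inl hM1
      right
      have h1 : (M.map K.subtype).IsSubnormal :=
        (isSubnormal_map_subtype_iff hKsn M).2 hM.isSubnormal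
      have h2 : M.map K.subtype ≠ ⊥ := by
        intro h
        exact hM1 ((Subgroup.map_eq_bot_iff_of_injective M K.subtype_injective).1 h)
      have h3 : M.map K.subtype ≤ K := Subgroup.map_subtype_le M
      have h4 := hKm ⟨h1, h2, h3.trans hKN⟩ h3
      rw [eq_top_iff]
      intro x _
      obtain ⟨y, hy, hyx⟩ := Subgroup.mem_map.1 (h4 x.2)
      have : y = x := Subtype.ext hyx
      rw [← this]; exact hy
    have hnc : ¬ ∀ a b : K, a * b = b * a := by
      intro h
      have := (Cfsg.Agent.S3743.result K hKsn).1 (nilpotent_of_comm h)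
      rw [hF] at this
      exact hK1 (eq_bot_iff.2 this)
    have hQ : Cfsg.IsQuasisimple K := by
      rw [isQuasisimple_iff]
      refine ⟨?_, hnt, ?_⟩
      · rw [Group.isPerfect_def]
        rcases hsimple (commutator K) inferInstance with h | h
        · exfalso
          apply hnc
          intro a b
          have : ⁅a, b⁆ ∈ commutator K :=
            Subgroup.commutator_mem_commutator (Subgroup.mem_top a) (Subgroup.mem_top b)
          rw [h, Subgroup.mem_bot] at this
          exact commutatorElement_eq_one_iff_mul_comm.1 this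
        · exact h
      · intro M hM
        rcases hsimple M hM with h | h
        · right; rw [h]; exact bot_le
        · left; exact h
    have hcomp : Cfsg.IsComponent K := ⟨hKsn, hQ⟩
    have hKl : K ≤ Cfsg.layer G := le_sSup hcomp
    have h5 : Subgroup.normalClosure (K : Set G) ≤ N := Subgroup.normalClosure_le_normal hKN
    have h6 : Subgroup.normalClosure (K : Set G) ≤ Cfsg.layer G :=
      Subgroup.normalClosure_le_normal hKl
    rcases hNmin _ Subgroup.normalClosure_normal h5 with h | h
    · exfalso
      apply hK1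
      rw [eq_bot_iff, ← h]
      exact Subgroup.le_normalClosure
    · rw [← h]; exact h6
  · apply sSup_le
    intro K hK
    have hZ : Subgroup.center ↥K = ⊥ := by
      have h1 : ((Subgroup.center K).map K.subtype).IsSubnormal :=
        (isSubnormal_map_subtype_iff hK.1 _).2 (inferInstance : (Subgroup.center K).Normal).isSubnormal
      have h2 : Group.IsNilpotent ↥((Subgroup.center K).map K.subtype) := by
        apply nilpotent_of_comm
        rintro ⟨a, ha⟩ ⟨b, hb⟩
        obtain ⟨a', ha', rfl⟩ := Subgroup.mem_map.1 ha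
        obtain ⟨b', hb', rfl⟩ := Subgroup.mem_map.1 hb
        apply Subtype.ext
        have := (Subgroup.mem_center_iff.1 ha') b'
        exact (congrArg Subtype.val this).symm
      have h3 := (Cfsg.Agent.S3743.result _ h1).1 h2
      rw [hF] at h3
      exact (Subgroup.map_eq_bot_iff_of_injective _ K.subtype_injective).1 (eq_bot_iff.2 h3)
    obtain ⟨hA1, hA2⟩ := partA K hK hZ
    exact Subgroup.le_normalClosure.trans (le_sSup ⟨hA1, Subgroup.normalClosure_normal, hA2⟩)

end Cfsg.Agent.S3747
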