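import Cfsg.Statements.S3748
import Cfsg.Agent.Lib.Helper66Subnormal
import Cfsg.Agent.S0008

set_option autoImplicit false
open Cfsg

namespace Cfsg.Agent.S3748

open Cfsg.Agent.Lib.Helper66Subnormal

theorem part1 {G : Type*} [Group G] [Finite G] (M : Subgroup G) (hM : M ≠ ⊤) (hprim : ∀ N : Subgroup G, N ≤ M → M ≤ Subgroup.normalizer (N : Set G) → N ≠ ⊥ → Subgroup.normalizer (N : Set G) = M) : ∀ L : Subgroup G, L.IsSubnormal → L ≤ M → L = ⊥ := by
  intro L hL hLM
  by_contra hL0
  have htop : (⊤ : Subgroup G) ≠ ⊥ := by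
    intro h
    apply hM
    rw [eq_top_iff, h]; exact bot_le
  obtain ⟨A, _, hA⟩ := exists_isMinNormal_le (⊤ : Subgroup G) htop
  let X : Subgroup G := Subgroup.closure {x | ∃ m ∈ M, ∃ l ∈ L, x = m * l * m⁻¹}
  have hXM : X ≤ M := by
    rw [Subgroup.closure_le]
    rintro _ ⟨m, hm, l, hl, rfl⟩
    exact M.mul_mem (M.mul_mem hm (hLM hl)) (M.inv_mem hm)
  have hMX : M ≤ Subgroup.normalizer (X : Set G) := by
    rw [Subgroup.le_normalizer_closure_iff]
    rintro k hk _ ⟨m, hm, l, hl, rfl⟩
    apply Subgroup.subset_closure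
    exact ⟨k * m, M.mul_mem hk hm, l, hl, by group⟩
  have hLX : L ≤ X := by
    intro l hl
    apply Subgroup.subset_closure
    exact ⟨1, M.one_mem, l, hl, by simp⟩
  have hX0 : X ≠ ⊥ := by
    intro h
    apply hL0
    rw [eq_bot_iff, ← h]; exact hLX
  have hNX := hprim X hXM hMX hX0
  have hAX : A ≤ Subgroup.normalizer (X : Set G) := by
    rw [Subgroup.le_normalizer_closure_iff]
    rintro a ha _ ⟨m, hm, l, hl, rfl⟩
    have hsub : (L.map (MulAut.conj m).toMonoidHom).IsSubnormal :=
      hL.map (MulAut.conj m).surjective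
    have h1 := hA.le_normalizer_of_isSubnormal hsub ha
    have h2 : a * (m * l * m⁻¹) * a⁻¹ ∈ L.map (MulAut.conj m).toMonoidHom :=
      conj_mem_of_mem_normalizer h1 ⟨l, hl, by simp⟩
    obtain ⟨l', hl', hEq⟩ := h2
    apply Subgroup.subset_closure
    exact ⟨m, hm, l', hl', by rw [← hEq]; simp⟩
  rw [hNX] at hAX
  have hAn : Subgroup.normalizer (A : Set G) = ⊤ := Subgroup.normalizer_eq_top_iff.2 hA.1
  have := hprim A hAX (by rw [hAn]; exact le_top) hA.2.1
  rw [hAn] at this
  exact hM this.symm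

theorem part2 {G : Type*} [Group G] [Finite G] (hF : Group.IsNilpotent (Cfsg.fittingSubgroup G)) (M : Subgroup G) (hM : M ≠ ⊤) (hprim : ∀ N : Subgroup G, N ≤ M → M ≤ Subgroup.normalizer (N : Set G) → N ≠ ⊥ → Subgroup.normalizer (N : Set G) = M) : M ⊓ Cfsg.fittingSubgroup G = ⊥ := by
  by_contra hX0
  set F := Cfsg.fittingSubgroup G with hFdef
  have hFn : F.Normal := Subgroup.sSup_normal _ (fun _ h => h.1)
  have hFN : Subgroup.normalizer (F : Set G) = ⊤ := Subgroup.normalizer_eq_top_iff.2 hFn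
  have hMX : M ≤ Subgroup.normalizer ((M ⊓ F : Subgroup G) : Set G) := by
    refine le_trans ?_ Subgroup.inf_normalizer_le_normalizer_inf
    rw [hFN]
    exact le_inf Subgroup.le_normalizer le_top
  have hNX := hprim (M ⊓ F) inf_le_left hMX hX0
  have hnc : NormalizerCondition F := Group.normalizerCondition_of_isNilpotent
  have htop : (M ⊓ F).subgroupOf F = ⊤ := by
    by_contra hne
    have hlt := hnc ((M ⊓ F).subgroupOf F) (lt_top_iff_ne_top.2 hne)
    rw [← Subgroup.subgroupOf_normalizer_eq inf_le_right, hNX] at hlt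
    apply hlt.ne
    ext x
    simp [Subgroup.mem_subgroupOf]
  rw [Subgroup.subgroupOf_eq_top] at htop
  have hFM : F ≤ M := htop.trans inf_le_left
  have hF0 : F ≠ ⊥ := by
    intro h
    apply hX0
    rw [h]; simp
  have := hprim F hFM (by rw [hFN]; exact le_top) hF0
  rw [hFN] at this
  exact hM this.symm

/-- Call a proper subgroup M of G primitive when M = N_G(N) for every non-trivial normal subgroup N of M. If M is a primitive subgroup of the finite group G, then no non-trivial subnormal subgroup of G is contained in M; in particular M ∩ F(G) = 1. -/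
theorem result {G : Type*} [Group G] [Finite G] (M : Subgroup G) (hM : M ≠ ⊤) (hprim : ∀ N : Subgroup G, N ≤ M → M ≤ Subgroup.normalizer (N : Set G) → N ≠ ⊥ → Subgroup.normalizer (N : Set G) = M) : (∀ L : Subgroup G, L.IsSubnormal → L ≤ M → L = ⊥) ∧ M ⊓ Cfsg.fittingSubgroup G = ⊥ :=
  ⟨part1 M hM hprim, part2 Cfsg.Agent.S0008.result M hM hprim⟩

end Cfsg.Agent.S3748
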