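import Cfsg.Statements.S3749
import Cfsg.Agent.Lib.Helper66Coprime
import Cfsg.Agent.Lib.Helper66Basic2

set_option autoImplicit false
open Cfsg

namespace Cfsg.Agent.S3749

open Cfsg.Agent.Lib.Helper66Coprime Cfsg.Agent.Lib.Helper66Basic2

/-- Call a proper subgroup M of G primitive when M = N_G(N) for every non-trivial normal subgroup N of M. Let M be a primitive subgroup of the finite group G, p a prime with O_p(M) ≠ 1, and N a normal subgroup of G with M ∩ N = 1. Then p does not divide the order of N; for every prime q there is exactly one Sylow q-subgroup of N normalized by M; and if the order of N has at least two prime divisors then M is not a maximal subgroup of G. -/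
theorem result {G : Type*} [Group G] [Finite G] (M : Subgroup G) (hM : M ≠ ⊤) (hprim : ∀ N : Subgroup G, N ≤ M → M ≤ Subgroup.normalizer (N : Set G) → N ≠ ⊥ → Subgroup.normalizer (N : Set G) = M) {p : ℕ} [Fact p.Prime] (hOp : Cfsg.pCore p ↥M ≠ ⊥) (N : Subgroup G) [N.Normal] (hMN : M ⊓ N = ⊥) : ¬ p ∣ Nat.card N ∧ (∀ q : ℕ, [Fact q.Prime] → ∃! Q : Sylow q ↥N, M ≤ Subgroup.normalizer ((Q : Subgroup ↥N).map N.subtype : Set G)) ∧ ((∃ q r : ℕ, q.Prime ∧ r.Prime ∧ q ≠ r ∧ q ∣ Nat.card N ∧ r ∣ Nat.card N) → ¬ IsCoatom M) := by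
  let act : MulDistribMulAction ↥M ↥N :=
    MulDistribMulAction.compHom ↥N ((MulAut.conjNormal (H := N)).comp M.subtype)
  have hact : ∀ (m : M) (n : N), ((m • n : N) : G) = (m : G) * n * (m : G)⁻¹ := fun m n => rfl
  set P' := Cfsg.pCore p ↥M with hP'def
  have hP' : IsPGroup p P' := Sylow.sSup_of_normal _ (fun _ h => h.2) (fun _ h => h.1)
  have hP'n : P'.Normal := inferInstance
  have hPM : P'.map M.subtype ≤ M := Subgroup.map_subtype_le P'
  have hMP : M ≤ Subgroup.normalizer ((P'.map M.subtype : Subgroup G) : Set G) := by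
    rw [Subgroup.le_normalizer_iff]
    rintro m hm _ ⟨x, hx, rfl⟩
    exact ⟨⟨m, hm⟩ * x * ⟨m, hm⟩⁻¹, hP'n.conj_mem x hx _, by simp⟩
  have hP0 : P'.map M.subtype ≠ ⊥ := by
    intro h
    exact hOp ((Subgroup.map_eq_bot_iff_of_injective _ M.subtype_injective).1 h)
  have hNP := hprim _ hPM hMP hP0
  have hfix : ∀ n : N, (∀ x : P', x • n = n) → n = 1 := by
    intro n hn
    have h1 : (n : G) ∈ Subgroup.centralizer ((P'.map M.subtype : Subgroup G) : Set G) := by
      rw [Subgroup.mem_centralizer_iff]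
      rintro _ ⟨x, hx, rfl⟩
      have h2 := congrArg Subtype.val (hn ⟨x, hx⟩)
      have h3 : ((x : M) : G) * n * ((x : M) : G)⁻¹ = n := h2
      have h4 : ((x : M) : G) * n = n * ((x : M) : G) := by
        calc ((x : M) : G) * n = (((x : M) : G) * n * ((x : M) : G)⁻¹) * ((x : M) : G) := by group
          _ = n * ((x : M) : G) := by rw [h3]
      exact h4
    have h2 : (n : G) ∈ M := by
      rw [← hNP]
      exact Subgroup.centralizer_le_normalizer _ h1
    have h3 : (n : G) ∈ M ⊓ N := ⟨h2, n.2⟩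
    rw [hMN, Subgroup.mem_bot] at h3
    exact Subtype.ext h3
  have hpN : ¬ p ∣ Nat.card N := by
    intro h
    obtain ⟨n, hn1, hn⟩ := exists_fixed_ne_one hP' h
    exact hn1 (hfix n hn)
  have hinv : ∀ (q : ℕ) (Q : Sylow q ↥N), (∀ m : M, m • Q = Q) ↔
      M ≤ Subgroup.normalizer ((Q : Subgroup ↥N).map N.subtype : Set G) := by
    intro q Q
    constructor
    · intro h
      rw [Subgroup.le_normalizer_iff]
      rintro m hm _ ⟨x, hx, rfl⟩
      refine ⟨(⟨m, hm⟩ : M) • x, ?_, rfl⟩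
      have h1 : (⟨m, hm⟩ : M) • x ∈ (⟨m, hm⟩ : M) • Q := by
        rw [sylow_mem_smul_iff, inv_smul_smul]; exact hx
      rw [h] at h1
      exact h1
    · intro h m
      apply SetLike.ext
      intro z
      rw [sylow_mem_smul_iff]
      have hm := h (M.inv_mem m.2)
      have h1 := Subgroup.mem_normalizer_iff.1 hm (z : G)
      constructor
      · intro hz
        have h2 : ((m : G)⁻¹ * z * (m : G)⁻¹⁻¹) ∈ (Q : Subgroup ↥N).map N.subtype :=
          ⟨m⁻¹ • z, hz, by rw [Subgroup.coe_subtype, hact]; simp⟩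
        obtain ⟨y, hy, hyz⟩ := h1.2 h2
        have : y = z := Subtype.ext hyz
        rw [← this]; exact hy
      · intro hz
        obtain ⟨y, hy, hyz⟩ := h1.1 ⟨z, hz, rfl⟩
        have : y = m⁻¹ • z := by
          apply Subtype.ext
          rw [hact]
          simpa using hyz
        rw [← this]; exact hy
  have huniq : ∀ (q : ℕ) [Fact q.Prime] (Q₁ Q₂ : Sylow q ↥N), (∀ x : P', x • Q₁ = Q₁) →
      (∀ x : P', x • Q₂ = Q₂) → Q₁ = Q₂ := by
    intro q _ Q₁ Q₂ h₁ h₂
    obtain ⟨n, hn, hnQ⟩ := exists_fixed_conj hP' hpN q Q₁ Q₂ h₁ h₂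
    rw [hfix n hn, one_smul] at hnQ
    exact hnQ
  have hex : ∀ (q : ℕ) [Fact q.Prime], ∃ Q : Sylow q ↥N, (∀ m : M, m • Q = Q) := by
    intro q _
    obtain ⟨Q, hQ⟩ := exists_fixed_sylow hP' hpN q
    refine ⟨Q, fun m => ?_⟩
    symm
    apply huniq q Q (m • Q) hQ
    intro x
    have h1 : m⁻¹ * (x : M) * m ∈ P' := by
      have := hP'n.conj_mem x x.2 m⁻¹
      simpa using this
    have h2 : (⟨m⁻¹ * (x : M) * m, h1⟩ : P') • Q = Q := hQ _
    have h3 : (m⁻¹ * (x : M) * m) • Q = Q := h2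
    calc x • (m • Q) = (x : M) • (m • Q) := rfl
      _ = (m * (m⁻¹ * (x : M) * m)) • Q := by rw [← mul_smul]; congr 1; group
      _ = m • Q := by rw [mul_smul, h3]
  refine ⟨hpN, ?_, ?_⟩
  · intro q _
    obtain ⟨Q, hQ⟩ := hex q
    refine ⟨Q, (hinv q Q).1 hQ, ?_⟩
    intro Q₂ hQ₂
    have h2 := (hinv q Q₂).2 hQ₂
    exact huniq q Q₂ Q (fun x => h2 x) (fun x => hQ x)
  · rintro ⟨q, r, hq, hr, hqr, hqN, hrN⟩ hco
    have : Fact q.Prime := ⟨hq⟩
    obtain ⟨Q, hQ⟩ := hex q
    have hMQ := (hinv q Q).1 hQ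
    set Q' := (Q : Subgroup ↥N).map N.subtype with hQ'
    have hQ'N : Q' ≤ N := Subgroup.map_subtype_le _
    have hQ0 : (Q : Subgroup ↥N) ≠ ⊥ := Q.ne_bot_of_dvd_card hqN
    have hQ'0 : Q' ≠ ⊥ := by
      intro h
      exact hQ0 ((Subgroup.map_eq_bot_iff_of_injective _ N.subtype_injective).1 h)
    have hlt : M < M ⊔ Q' := by
      refine lt_of_le_of_ne le_sup_left ?_
      intro h
      have h1 : Q' ≤ M := by rw [h]; exact le_sup_right
      have h2 : Q' ≤ M ⊓ N := le_inf h1 hQ'N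
      rw [hMN] at h2
      exact hQ'0 (eq_bot_iff.2 h2)
    have htop := hco.2 _ hlt
    have hNQ : N ≤ Q' := by
      intro x hx
      have hx' : x ∈ M ⊔ Q' := by rw [htop]; trivial
      obtain ⟨y, hy, z, hz, rfl⟩ := (mem_sup_of_le_normalizer hMQ).1 hx'
      have h1 : y ∈ N := by
        have := N.mul_mem hx (N.inv_mem (hQ'N hz))
        simpa using this
      have h2 : y ∈ M ⊓ N := ⟨hy, h1⟩
      rw [hMN, Subgroup.mem_bot] at h2
      rw [h2, one_mul]; exact hz
    have hEq : Q' = N := le_antisymm hQ'N hNQ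
    have hcard : Nat.card N = Nat.card (Q : Subgroup ↥N) := by
      have h1 : Nat.card Q' = Nat.card (Q : Subgroup ↥N) :=
        Subgroup.card_map_of_injective N.subtype_injective
      rw [← h1]
      exact (congrArg (fun H : Subgroup G => Nat.card H) hEq).symm
    obtain ⟨k, hk⟩ := IsPGroup.iff_card.1 Q.isPGroup'
    rw [hcard, hk] at hrN
    have := (Nat.prime_dvd_prime_iff_eq hr hq).1 (hr.dvd_of_dvd_pow hrN)
    exact hqr this.symm

end Cfsg.Agent.S3749
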