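import Cfsg.Statements.S3750
-- import your own Cfsg.Agent.* helpers here
import Cfsg.Agent.Lib.Helper28More

set_option autoImplicit false
open Cfsg

namespace Cfsg.Agent.S3750

open Subgroup Cfsg.Agent.Lib.Helper28Comp Cfsg.Agent.Lib.Helper28Fitting Cfsg.Agent.Lib.Helper28Layer
  Cfsg.Agent.Lib.Helper28Util Cfsg.Agent.Lib.Helper28More
open scoped commutatorElement

/-- Call a proper subgroup M of G primitive when M = N_G(N) for every non-trivial normal subgroup N of M. Let M be a primitive subgroup of the finite group G and N a normal subgroup of G with M ∩ F*(N) ≠ 1. Then F(G) = 1 and F*(N) = F*(G) = E(G); in particular every minimal normal subgroup of G is contained in N. -/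
theorem result {G : Type*} [Group G] [Finite G] (M : Subgroup G) (hM : M ≠ ⊤) (hprim : ∀ N : Subgroup G, N ≤ M → M ≤ Subgroup.normalizer (N : Set G) → N ≠ ⊥ → Subgroup.normalizer (N : Set G) = M) (N : Subgroup G) [N.Normal] (hMF : M ⊓ (Cfsg.generalizedFittingSubgroup ↥N).map N.subtype ≠ ⊥) : Cfsg.fittingSubgroup G = ⊥ ∧ (Cfsg.generalizedFittingSubgroup ↥N).map N.subtype = Cfsg.generalizedFittingSubgroup G ∧ Cfsg.generalizedFittingSubgroup G = Cfsg.layer G ∧ ∀ K : Subgroup G, K.Normal → K ≠ ⊥ → (∀ K' : Subgroup G, K'.Normal → K' ≤ K → K' = ⊥ ∨ K' = K) → K ≤ N := by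
  rw [map_gfit] at hMF ⊢
  have hNn : NormIn N ⊤ := normIn_top_iff.mpr inferInstance
  have core_free : ∀ X : Subgroup G, X.Normal → X ≤ M → X = ⊥ := by
    intro X hX hXM
    by_contra hne
    have h1 := hprim X hXM (by rw [normalizer_eq_top_iff.mpr hX]; exact le_top) hne
    rw [normalizer_eq_top_iff.mpr hX] at h1
    exact hM h1.symm
  have norm_of : ∀ A : Subgroup G, normalizer (N : Set G) ≤ normalizer (A : Set G) → A.Normal := by
    intro A h
    rw [← normalizer_eq_top_iff, eq_top_iff]
    refine le_trans ?_ h
    rw [normalizer_eq_top_iff.mpr inferInstance]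
  have hFn : (gfitIn N).Normal := norm_of _ (normalizer_le_normalizer_gfitIn N)
  set D := M ⊓ gfitIn N with hD
  have hDM : normalizer (D : Set G) = M := by
    apply hprim D inf_le_left _ hMF
    refine le_trans ?_ inf_normalizer_le_normalizer_inf
    exact le_inf le_normalizer (by rw [normalizer_eq_top_iff.mpr hFn]; exact le_top)
  have hCD : centralizer (D : Set G) ≤ M := by
    rw [← hDM]; exact centralizer_le_normalizer _
  have hDN : D ≤ N := inf_le_right.trans (gfitIn_le N)
  -- centralizer of N is trivial
  have hCN : centralizer (N : Set G) = ⊥ :=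
    core_free _ inferInstance ((centralizer_le hDN).trans hCD)
  have hcenF : cen (gfitIn N) = ⊥ := by
    apply core_free
    · unfold cen; infer_instance
    · exact (cen_le_centralizer _).trans ((centralizer_le inf_le_right).trans hCD)
  have hFitN : fittingIn N = ⊥ := by
    by_contra hne
    have hnil := fittingIn_isNilpotent N
    have hnt : Nontrivial (fittingIn N) := (nontrivial_iff_ne_bot _).mpr hne
    apply Group.IsNilpotent.center_ne_bot (G := fittingIn N)
    apply map_injective (fittingIn N).subtype_injective
    rw [map_center, Subgroup.map_bot, eq_bot_iff, ← hcenF]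
    refine le_inf ((cen_le _).trans (fittingIn_le_gfitIn N)) ?_
    rw [le_centralizer_iff]
    unfold gfitIn
    refine sup_le ?_ ?_
    · refine le_trans ?_ (centralizer_le (cen_le _))
      rw [← commutator_eq_bot_iff_le_centralizer]
      exact commutator_layerIn_fittingIn N
    · rw [le_centralizer_iff]; exact cen_le_centralizer _
  have hgN : gfitIn N = layerIn N := by unfold gfitIn; rw [hFitN, sup_bot_eq]
  have hFitG : Cfsg.fittingSubgroup G = ⊥ := by
    apply core_free _ fitting_normal
    refine le_trans ?_ hCD
    refine le_trans ?_ (centralizer_le (show (D : Set G) ⊆ layerIn (⊤ : Subgroup G) from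
      fun x hx => layerIn_le_of_sn hNn.sn (hgN ▸ (mem_inf.mp hx).2)))
    rw [← commutator_eq_bot_iff_le_centralizer, commutator_comm, fitting_eq]
    exact commutator_layerIn_fittingIn _
  have hlay : layerIn N = layerIn (⊤ : Subgroup G) := by
    apply le_antisymm (layerIn_le_of_sn hNn.sn)
    apply sSup_le
    intro L hL
    rcases hL.le_or_commute hNn.sn with h | h
    · exact compIn_le_layerIn (hL.of_le h le_top)
    · exfalso
      apply hL.2.ne_bot
      rw [eq_bot_iff, ← hCN]
      exact commutator_eq_bot_iff_le_centralizer.mp h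
  have hgG : Cfsg.generalizedFittingSubgroup G = Cfsg.layer G := by
    unfold Cfsg.generalizedFittingSubgroup; rw [hFitG, sup_bot_eq]
  refine ⟨hFitG, ?_, hgG, ?_⟩
  · rw [hgG, hgN, hlay, layer_eq]
  · intro K hK hK1 hKmin
    have hKN : (K ⊓ N).Normal := inferInstance
    rcases hKmin _ hKN inf_le_left with h | h
    · exfalso
      apply hK1
      rw [eq_bot_iff, ← hCN, ← commutator_eq_bot_iff_le_centralizer, eq_bot_iff, ← h]
      exact commutator_le_inf K N
    · exact inf_eq_left.mp h

end Cfsg.Agent.S3750
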