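import Cfsg.Statements.S3751
import Cfsg.Agent.Lib.Helper40Sylow
import Cfsg.Agent.Lib.Helper86Group
import Cfsg.Agent.Lib.Helper66Basic

set_option autoImplicit false
open Cfsg

namespace Cfsg.Agent.S3751

open Cfsg.Agent.Lib.Helper40Sylow

variable {G : Type*} [Group G]

/-- `O_p(M)` as a subgroup of `G`. -/
def Op (p : ℕ) (M : Subgroup G) : Subgroup G := (Cfsg.pCore p ↥M).map M.subtype

theorem Op_isPGroup (p : ℕ) (M : Subgroup G) : IsPGroup p (Op p M) :=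
  (Cfsg.Agent.Lib.Helper86Group.pCore_isPGroup p ↥M).map _

theorem Op_le (p : ℕ) (M : Subgroup G) : Op p M ≤ M := Subgroup.map_subtype_le _

theorem pCore_normal (p : ℕ) (X : Type*) [Group X] : (Cfsg.pCore p X).Normal := by
  unfold Cfsg.pCore
  constructor
  intro n hn g
  have hmap : (sSup {N : Subgroup X | N.Normal ∧ IsPGroup p N}).map (MulAut.conj g).toMonoidHom
      ≤ sSup {N : Subgroup X | N.Normal ∧ IsPGroup p N} := by
    rw [Subgroup.map_le_iff_le_comap]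
    apply sSup_le
    rintro N ⟨hN, hp⟩
    intro x hx
    rw [Subgroup.mem_comap]
    exact (le_sSup (show N ∈ {N : Subgroup X | N.Normal ∧ IsPGroup p N} from ⟨hN, hp⟩)) (hN.conj_mem x hx g)
  exact hmap ⟨n, hn, rfl⟩

theorem le_normalizer_Op (p : ℕ) (M : Subgroup G) : M ≤ Subgroup.normalizer (Op p M : Set G) := by
  have hn := pCore_normal p ↥M
  intro m hm
  rw [Subgroup.mem_normalizer_iff]
  intro x
  constructor
  · rintro ⟨y, hy, rfl⟩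
    exact ⟨⟨m, hm⟩ * y * ⟨m, hm⟩⁻¹, hn.conj_mem y hy _, rfl⟩
  · rintro ⟨y, hy, hyx⟩
    refine ⟨⟨m, hm⟩⁻¹ * y * ⟨m, hm⟩, ?_, ?_⟩
    · have := hn.conj_mem y hy ⟨m, hm⟩⁻¹
      simpa using this
    · simp only [Subgroup.subtype_apply, Subgroup.coe_mul, Subgroup.coe_inv] at hyx ⊢
      rw [hyx]; group

theorem le_Op {p : ℕ} {M Q : Subgroup G} (hQ : IsPGroup p Q) (hQM : Q ≤ M)
    (hn : M ≤ Subgroup.normalizer (Q : Set G)) : Q ≤ Op p M := by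
  have h1 : (Q.subgroupOf M).Normal := by
    constructor
    intro n hn' g
    rw [Subgroup.mem_subgroupOf] at hn' ⊢
    have := (Subgroup.mem_normalizer_iff.mp (hn g.2) n).mp hn'
    simpa using this
  have h2 : IsPGroup p (Q.subgroupOf M) := hQ.comap_subtype
  have h3 := Cfsg.Agent.Lib.Helper86Group.le_pCore h1 h2
  intro x hx
  exact ⟨⟨x, hQM hx⟩, h3 (by rw [Subgroup.mem_subgroupOf]; exact hx), rfl⟩

theorem normalizer_le_normalizer_Op [Finite G] (p : ℕ) (M : Subgroup G) :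
    Subgroup.normalizer (M : Set G) ≤ Subgroup.normalizer (Op p M : Set G) := by
  intro g hg
  rw [mem_normalizer_iff_cj] at hg ⊢
  apply cj_eq_of_le
  apply le_Op (isPGroup_cj (Op_isPGroup p M) g)
  · calc cj g (Op p M) ≤ cj g M := cj_mono (Op_le p M)
      _ = M := hg
  · rw [normalizer_cj]
    calc M = cj g M := hg.symm
      _ ≤ _ := cj_mono (le_normalizer_Op p M)

/-- `T` is a maximal `p`-subgroup of `M`. -/
def MaxP (p : ℕ) (T M : Subgroup G) : Prop :=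
  IsPGroup p T ∧ T ≤ M ∧ ∀ T' : Subgroup G, IsPGroup p T' → T' ≤ M → T ≤ T' → T' = T

theorem Op_le_of_maxP {p : ℕ} {T M : Subgroup G} (h : MaxP p T M) : Op p M ≤ T := by
  obtain ⟨hT, hTM, hmax⟩ := h
  have hn : T ≤ Subgroup.normalizer (Op p M : Set G) := hTM.trans (le_normalizer_Op p M)
  have hp : IsPGroup p (Op p M ⊔ T : Subgroup G) :=
    IsPGroup.to_sup_of_normal_left' (Op_isPGroup p M) hT hn
  have := hmax _ hp (sup_le (Op_le p M) hTM) le_sup_right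
  calc Op p M ≤ Op p M ⊔ T := le_sup_left
    _ = T := this

def PLoc (p : ℕ) (M : Subgroup G) : Prop :=
  ∃ T : Subgroup G, IsPGroup p T ∧ T ≠ ⊥ ∧ M = Subgroup.normalizer (T : Set G)

def MaxPLoc (p : ℕ) (M : Subgroup G) : Prop :=
  PLoc p M ∧ ∀ L : Subgroup G, PLoc p L → M ≤ L → L = M

theorem PLoc.cj {p : ℕ} {M : Subgroup G} (h : PLoc p M) (g : G) : PLoc p (cj g M) := by
  obtain ⟨T, hT, hT0, rfl⟩ := h
  refine ⟨Cfsg.Agent.Lib.Helper40Sylow.cj g T, isPGroup_cj hT g, ?_, (normalizer_cj g T).symm⟩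
  intro h0
  apply hT0
  apply cj_injective g
  rw [h0]
  simp

theorem MaxPLoc.cj {p : ℕ} {M : Subgroup G} (h : MaxPLoc p M) (g : G) : MaxPLoc p (cj g M) := by
  refine ⟨h.1.cj g, ?_⟩
  intro L hL hML
  have h1 := h.2 _ (hL.cj g⁻¹) (cj_le_iff.mp hML)
  rw [← h1, cj_cj_inv]

theorem MaxPLoc.Op_ne_bot {p : ℕ} {M : Subgroup G} (h : MaxPLoc p M) : Op p M ≠ ⊥ := by
  obtain ⟨⟨T, hT, hT0, rfl⟩, -⟩ := h
  intro h0
  apply hT0
  rw [eq_bot_iff, ← h0]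
  exact le_Op hT Subgroup.le_normalizer le_rfl

theorem MaxPLoc.normalizer_Op {p : ℕ} {M : Subgroup G} (h : MaxPLoc p M) :
    Subgroup.normalizer (Op p M : Set G) = M :=
  h.2 _ ⟨Op p M, Op_isPGroup p M, h.Op_ne_bot, rfl⟩ (le_normalizer_Op p M)

theorem MaxPLoc.normalizer_le [Finite G] {p : ℕ} {M : Subgroup G} (h : MaxPLoc p M) :
    Subgroup.normalizer (M : Set G) ≤ M := by
  calc _ ≤ Subgroup.normalizer (Op p M : Set G) := normalizer_le_normalizer_Op p M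
    _ = M := h.normalizer_Op

theorem exists_maxPLoc_ge [Finite G] {p : ℕ} {M : Subgroup G} (h : PLoc p M) :
    ∃ L, MaxPLoc p L ∧ M ≤ L := by
  obtain ⟨L, hL⟩ := (Set.toFinite {L : Subgroup G | PLoc p L ∧ M ≤ L}).exists_maximal ⟨M, h, le_rfl⟩
  refine ⟨L, ⟨hL.1.1, ?_⟩, hL.1.2⟩
  intro L' hL' hLL'
  exact le_antisymm (hL.2 ⟨hL', hL.1.2.trans hLL'⟩ hLL') hLL'

/-- Lemma P. -/
theorem MaxPLoc.normalizer_eq [Finite G] {p : ℕ} {M : Subgroup G} (h : MaxPLoc p M)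
    (hchar : Subgroup.centralizer (Cfsg.pCore p ↥M : Set ↥M) ≤ Cfsg.pCore p ↥M)
    {A : Subgroup G} (hA0 : A ≠ ⊥) (hAM : A ≤ M) (hMA : M ≤ Subgroup.normalizer (A : Set G)) :
    Subgroup.normalizer (A : Set G) = M := by
  have hQ0 : A ⊓ Op p M ≠ ⊥ := by
    intro h0
    apply hA0
    rw [eq_bot_iff, ← h0]
    refine le_inf le_rfl ?_
    intro a ha
    refine ⟨⟨a, hAM ha⟩, hchar ?_, rfl⟩
    rw [Subgroup.mem_centralizer_iff]
    intro y hy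
    have hyO : (y : G) ∈ Op p M := ⟨y, hy, rfl⟩
    -- the commutator lies in `A ⊓ Op p M`
    have h1 : (y : G) * a * (y : G)⁻¹ * a⁻¹ ∈ A ⊓ Op p M := by
      constructor
      · have := (Subgroup.mem_normalizer_iff.mp (hMA y.2) a).mp ha
        exact A.mul_mem this (A.inv_mem ha)
      · have := (Subgroup.mem_normalizer_iff.mp (le_normalizer_Op p M (hAM ha)) (y : G)⁻¹).mp
          ((Op p M).inv_mem hyO)
        have h2 := (Op p M).mul_mem hyO this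
        have e : (y : G) * (a * (y : G)⁻¹ * a⁻¹) = (y : G) * a * (y : G)⁻¹ * a⁻¹ := by group
        rwa [e] at h2
    rw [h0, Subgroup.mem_bot] at h1
    apply Subtype.ext
    simp only [Subgroup.coe_mul]
    have : (y : G) * a = ((y : G) * a * (y : G)⁻¹ * a⁻¹) * (a * y) := by group
    rw [this, h1, one_mul]
  have hOA : Op p A ≠ ⊥ := by
    intro h0
    apply hQ0
    rw [eq_bot_iff, ← h0]
    apply le_Op ((Op_isPGroup p M).to_le inf_le_right) inf_le_left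
    intro a ha
    have h1 : a ∈ Subgroup.normalizer (A : Set G) := Subgroup.le_normalizer ha
    have h2 : a ∈ Subgroup.normalizer (Op p M : Set G) := le_normalizer_Op p M (hAM ha)
    rw [mem_normalizer_iff_cj] at h1 h2 ⊢
    rw [cj_inf, h1, h2]
  have h1 : Subgroup.normalizer (Op p A : Set G) = M :=
    h.2 _ ⟨Op p A, Op_isPGroup p A, hOA, rfl⟩ (hMA.trans (normalizer_le_normalizer_Op p A))
  apply le_antisymm _ hMA
  calc _ ≤ Subgroup.normalizer (Op p A : Set G) := normalizer_le_normalizer_Op p A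
    _ = M := h1

theorem charp_of_ploc {p : ℕ} (hloc : Cfsg.IsOfLocalCharacteristic p G) {M : Subgroup G}
    (h : PLoc p M) : Subgroup.centralizer (Cfsg.pCore p ↥M : Set ↥M) ≤ Cfsg.pCore p ↥M := by
  obtain ⟨T, hT, hT0, rfl⟩ := h
  exact hloc.2 T hT hT0

/-- The final lemma. -/
theorem final [Finite G] {p : ℕ} (hloc : Cfsg.IsOfLocalCharacteristic p G)
    {M₁ M₂ T : Subgroup G} (h₁ : MaxPLoc p M₁) (h₂ : MaxPLoc p M₂) (hne : M₁ ≠ M₂)
    (hT₁ : MaxP p T M₁) (hT₂ : MaxP p T M₂) :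
    (∃ M₁ M₂ : Subgroup G, M₁ ≠ M₂ ∧ (∀ A : Subgroup G, A ≠ ⊥ → A ≤ M₁ ⊓ M₂ → (M₁ ≤ Subgroup.normalizer (A : Set G) → M₂ ⊓ Subgroup.normalizer (A : Set G) = M₁ ⊓ M₂) ∧ (M₂ ≤ Subgroup.normalizer (A : Set G) → M₁ ⊓ Subgroup.normalizer (A : Set G) = M₁ ⊓ M₂)) ∧ Subgroup.centralizer (Cfsg.pCore p ↥M₁ : Set ↥M₁) ≤ Cfsg.pCore p ↥M₁ ∧ Subgroup.centralizer (Cfsg.pCore p ↥M₂ : Set ↥M₂) ≤ Cfsg.pCore p ↥M₂ ∧ (Cfsg.pCore p ↥M₁).map M₁.subtype ⊔ (Cfsg.pCore p ↥M₂).map M₂.subtype ≤ M₁ ⊓ M₂) := by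
  refine ⟨M₁, M₂, hne, ?_, charp_of_ploc hloc h₁.1, charp_of_ploc hloc h₂.1, ?_⟩
  · intro A hA0 hA
    constructor
    · intro hn
      rw [h₁.normalizer_eq (charp_of_ploc hloc h₁.1) hA0 (hA.trans inf_le_left) hn, inf_comm]
    · intro hn
      rw [h₂.normalizer_eq (charp_of_ploc hloc h₂.1) hA0 (hA.trans inf_le_right) hn]
  · apply sup_le
    · exact (Op_le_of_maxP hT₁).trans (le_inf hT₁.2.1 hT₂.2.1)
    · exact (Op_le_of_maxP hT₂).trans (le_inf hT₁.2.1 hT₂.2.1)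

theorem MaxP.cj {p : ℕ} {T M : Subgroup G} (h : MaxP p T M) (g : G) : MaxP p (cj g T) (cj g M) := by
  refine ⟨isPGroup_cj h.1 g, cj_mono h.2.1, ?_⟩
  intro T' hT' hT'M hTT'
  have := h.2.2 _ (isPGroup_cj hT' g⁻¹) (by rw [cj_le_iff, inv_inv]; exact hT'M) (cj_le_iff.mp hTT')
  rw [← this, cj_cj_inv]

/-- asymmetric step -/
theorem step [Finite G] {p : ℕ} [Fact p.Prime] {M₁ M₂ T : Subgroup G}
    (h₁ : MaxPLoc p M₁) (h₂ : MaxPLoc p M₂) (hne : M₁ ≠ M₂)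
    (hT : IsPGroup p T) (hT0 : T ≠ ⊥) (hT₁ : T ≤ M₁) (hT₂ : T ≤ M₂)
    (hmax : ∀ T' L₁ L₂ : Subgroup G, IsPGroup p T' → MaxPLoc p L₁ → MaxPLoc p L₂ → L₁ ≠ L₂ →
      T' ≤ L₁ → T' ≤ L₂ → T ≤ T' → T' = T)
    (hnot : ¬ MaxP p T M₁) :
    ∃ x, x ∈ Subgroup.normalizer (T : Set G) ∧ x ∉ M₂ ∧ Subgroup.normalizer (T : Set G) ≤ M₁
      ∧ x ∉ T ∧ IsPGroup p (T ⊔ Subgroup.zpowers x : Subgroup G) := by
  have : ∃ T₁ : Subgroup G, IsPGroup p T₁ ∧ T₁ ≤ M₁ ∧ T < T₁ := by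
    by_contra hcon
    apply hnot
    refine ⟨hT, hT₁, ?_⟩
    intro T' hT' hT'M hTT'
    by_contra hne'
    exact hcon ⟨T', hT', hT'M, lt_of_le_of_ne hTT' (Ne.symm hne')⟩
  obtain ⟨T₁, hT₁p, hT₁M, hlt⟩ := this
  obtain ⟨x, hxT₁, hxN, hxT⟩ := Cfsg.Agent.Lib.Helper86Group.exists_mem_normalizer_not_mem T₁ T hT₁p hlt
  have hle : T ⊔ Subgroup.zpowers x ≤ T₁ := sup_le hlt.le (by rwa [Subgroup.zpowers_le])
  have hp : IsPGroup p (T ⊔ Subgroup.zpowers x : Subgroup G) := hT₁p.to_le hle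
  have hxs : x ∈ T ⊔ Subgroup.zpowers x := (le_sup_right : Subgroup.zpowers x ≤ _) (Subgroup.mem_zpowers x)
  have hneT : T ⊔ Subgroup.zpowers x ≠ T := by
    intro h; rw [h] at hxs; exact hxT hxs
  obtain ⟨L, hL, hNL⟩ := exists_maxPLoc_ge (p := p) (M := Subgroup.normalizer (T : Set G)) ⟨T, hT, hT0, rfl⟩
  have hsN : T ⊔ Subgroup.zpowers x ≤ Subgroup.normalizer (T : Set G) :=
    sup_le Subgroup.le_normalizer (by rwa [Subgroup.zpowers_le])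
  have hLM : L = M₁ := by
    by_contra hLM
    exact hneT (hmax _ L M₁ hp hL h₁ hLM (hsN.trans hNL) (hle.trans hT₁M) le_sup_left)
  refine ⟨x, hxN, ?_, hLM ▸ hNL, hxT, hp⟩
  intro hxM₂
  exact hneT (hmax _ M₁ M₂ hp h₁ h₂ hne (hle.trans hT₁M)
    (sup_le hT₂ (by rwa [Subgroup.zpowers_le])) le_sup_left)

/-- Two distinct subgroups M₁, M₂ of G form a primitive pair when, for {i, j} = {1, 2}, every non-trivial normal subgroup A of M_i contained in M₁ ∩ M₂ satisfies N_{M_j}(A) = M₁ ∩ M₂; the pair has characteristic p when moreover C_{M_i}(O_p(M_i)) ≤ O_p(M_i) for both i and O_p(M₁)O_p(M₂) ≤ M₁ ∩ M₂. Let G be a finite group, p a prime dividing its order, with O_p(G) = 1 and every p-local subgroup of characteristic p. Then either G has a primitive pair of characteristic p, or every maximal p-local subgroup M of G is strongly p-embedded in G: M is a proper subgroup, p divides its order,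 and for every g ∉ M the order of M ∩ gMg⁻¹ is prime to p. -/
theorem result {G : Type*} [Group G] [Finite G] {p : ℕ} [Fact p.Prime] (hloc : Cfsg.IsOfLocalCharacteristic p G) (hOp : Cfsg.pCore p G = ⊥) : (∃ M₁ M₂ : Subgroup G, M₁ ≠ M₂ ∧ (∀ A : Subgroup G, A ≠ ⊥ → A ≤ M₁ ⊓ M₂ → (M₁ ≤ Subgroup.normalizer (A : Set G) → M₂ ⊓ Subgroup.normalizer (A : Set G) = M₁ ⊓ M₂) ∧ (M₂ ≤ Subgroup.normalizer (A : Set G) → M₁ ⊓ Subgroup.normalizer (A : Set G) = M₁ ⊓ M₂)) ∧ Subgroup.centralizer (Cfsg.pCore p ↥M₁ : Set ↥M₁) ≤ Cfsg.pCore p ↥M₁ ∧ Subgroup.centralizer (Cfsg.pCore p ↥M₂ : Set ↥M₂) ≤ Cfsg.pCore p ↥M₂ ∧ (Cfsg.pCore p ↥M₁).map M₁.subtype ⊔ (Cfsg.pCore p ↥M₂).map M₂.subtype ≤ M₁ ⊓ M₂) ∨ (∀ M : Subgroup G, (∃ T : Subgroup G, IsPGroup p T ∧ T ≠ ⊥ ∧ M = Subgroup.normalizer (T : Set G)) → (∀ L : Subgroup G, (∃ T : Subgroup G, IsPGroup p T ∧ T ≠ ⊥ ∧ L = Subgroup.normalizer (T : Set G)) → M ≤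 L → L = M) → M ≠ ⊤ ∧ p ∣ Nat.card M ∧ ∀ g : G, g ∉ M → ¬ p ∣ Nat.card ↥(M ⊓ M.map (MulAut.conj g).toMonoidHom)) := by
  by_cases hbad : ∃ (M : Subgroup G) (g : G), MaxPLoc p M ∧ g ∉ M ∧ p ∣ Nat.card ↥(M ⊓ cj g M)
  · left
    obtain ⟨M, g, hM, hg, hdvd⟩ := hbad
    -- the set of common p-subgroups
    let S : Set (Subgroup G) := {T | IsPGroup p T ∧ T ≠ ⊥ ∧ ∃ L₁ L₂ : Subgroup G,
      MaxPLoc p L₁ ∧ MaxPLoc p L₂ ∧ L₁ ≠ L₂ ∧ T ≤ L₁ ∧ T ≤ L₂}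
    have hS : S.Nonempty := by
      obtain ⟨x, hx⟩ := exists_prime_orderOf_dvd_card' (G := ↥(M ⊓ cj g M)) p hdvd
      refine ⟨Subgroup.zpowers (x : G), ?_, ?_, M, cj g M, hM, hM.cj g, ?_, ?_, ?_⟩
      · apply IsPGroup.of_card (n := 1)
        rw [Nat.card_zpowers, Subgroup.orderOf_coe, hx, pow_one]
      · intro h0
        rw [Subgroup.zpowers_eq_bot] at h0
        have : x = 1 := Subtype.ext h0
        rw [this, orderOf_one] at hx
        exact (Fact.out : p.Prime).one_lt.ne hx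
      · intro he
        exact hg (hM.normalizer_le (mem_normalizer_iff_cj.mpr he.symm))
      · rw [Subgroup.zpowers_le]; exact x.2.1
      · rw [Subgroup.zpowers_le]; exact x.2.2
    obtain ⟨T, hTS, hTmax⟩ := (Set.toFinite S).exists_maximal hS
    obtain ⟨hT, hT0, M₁, M₂, h₁, h₂, hne, hT₁, hT₂⟩ := hTS
    have hmax : ∀ T' L₁ L₂ : Subgroup G, IsPGroup p T' → MaxPLoc p L₁ → MaxPLoc p L₂ → L₁ ≠ L₂ →
        T' ≤ L₁ → T' ≤ L₂ → T ≤ T' → T' = T := by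
      intro T' L₁ L₂ hT' hL₁ hL₂ hLne h1 h2 hTT'
      have hT'0 : T' ≠ ⊥ := by
        intro h0; apply hT0; rw [eq_bot_iff, ← h0]; exact hTT'
      exact le_antisymm (hTmax ⟨hT', hT'0, L₁, L₂, hL₁, hL₂, hLne, h1, h2⟩ hTT') hTT'
    -- general construction
    have key : ∀ M₁ M₂ : Subgroup G, MaxPLoc p M₁ → MaxPLoc p M₂ → M₁ ≠ M₂ → T ≤ M₁ → T ≤ M₂ →
        ¬ MaxP p T M₁ → ∃ x, x ∉ M₂ ∧ cj x T = T ∧ MaxP p T M₂ := by
      intro M₁ M₂ h₁ h₂ hne hT₁ hT₂ hnot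
      obtain ⟨x, hxN, hxM₂, hN₁, hxT, hp⟩ := step h₁ h₂ hne hT hT0 hT₁ hT₂ hmax hnot
      refine ⟨x, hxM₂, mem_normalizer_iff_cj.mp hxN, ?_⟩
      by_contra hnot₂
      obtain ⟨y, hyN, hyM₁, hN₂, -, -⟩ := step h₂ h₁ hne.symm hT hT0 hT₂ hT₁ hmax hnot₂
      exact hyM₁ (hN₁ hyN)
    by_cases hc₁ : MaxP p T M₁
    · by_cases hc₂ : MaxP p T M₂
      · exact final hloc h₁ h₂ hne hc₁ hc₂
      · obtain ⟨x, hx, hxT, -⟩ := key M₂ M₁ h₂ h₁ hne.symm hT₂ hT₁ hc₂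
        have h3 : MaxP p T (cj x M₁) := by
          have := hc₁.cj x
          rwa [hxT] at this
        refine final hloc h₁ (h₁.cj x) ?_ hc₁ h3
        intro he
        exact hx (h₁.normalizer_le (mem_normalizer_iff_cj.mpr he.symm))
    · obtain ⟨x, hx, hxT, hc₂⟩ := key M₁ M₂ h₁ h₂ hne hT₁ hT₂ hc₁
      have h3 : MaxP p T (cj x M₂) := by
        have := hc₂.cj x
        rwa [hxT] at this
      refine final hloc h₂ (h₂.cj x) ?_ hc₂ h3
      intro he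
      exact hx (h₂.normalizer_le (mem_normalizer_iff_cj.mpr he.symm))
  · right
    intro M hM hMmax
    have hMP : MaxPLoc p M := ⟨hM, hMmax⟩
    refine ⟨?_, ?_, ?_⟩
    · rintro rfl
      apply hMP.Op_ne_bot
      rw [eq_bot_iff, ← hOp]
      apply Cfsg.Agent.Lib.Helper86Group.le_pCore _ (Op_isPGroup p ⊤)
      rw [← Subgroup.normalizer_eq_top_iff]
      exact hMP.normalizer_Op
    · have h1 : Nat.card (Op p M) ∣ Nat.card M := Subgroup.card_dvd_of_le (Op_le p M)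
      obtain ⟨n, hn⟩ := (Op_isPGroup p M).exists_card_eq
      rcases Nat.eq_zero_or_pos n with h0 | h0
      · exfalso
        apply hMP.Op_ne_bot
        rw [h0, pow_zero] at hn
        exact Subgroup.card_eq_one.mp hn
      · refine dvd_trans ?_ h1
        rw [hn]
        exact dvd_pow_self p h0.ne'
    · intro g hg hdvd
      exact hbad ⟨M, g, hMP, hg, hdvd⟩

end Cfsg.Agent.S3751
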