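import Cfsg.Statements.S3755
import Cfsg.Agent.Lib.Helper52FF6
import Cfsg.Agent.Lib.Helper1Fitting

set_option autoImplicit false
open Cfsg

namespace Cfsg.Agent.S3755

open Subgroup
open Cfsg.Agent.Lib.Helper52FF2 Cfsg.Agent.Lib.Helper52FF6

theorem four_le_of_dvd {d k : ℕ} (h : d ∣ 2 ^ k) (h2 : 2 < d) : 4 ≤ d := by
  obtain ⟨j, -, rfl⟩ := (Nat.dvd_prime_pow Nat.prime_two).mp h
  match j, h2 with
  | 0, h2 => simp at h2
  | 1, h2 => simp at h2
  | (j + 2), _ =>
    have : 1 ≤ 2 ^ j := Nat.one_le_two_pow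
    calc 4 = 1 * 4 := by norm_num
      _ ≤ 2 ^ j * 4 := Nat.mul_le_mul_right 4 this
      _ = 2 ^ (j + 2) := by ring

theorem bound {X : Type*} [Group X] [Finite X] (M V : Subgroup X)
    (hV : Cfsg.IsElementaryAbelian 2 V) (hMV : M ≤ Subgroup.normalizer (V : Set X))
    (hfaith : M ⊓ Subgroup.centralizer (V : Set X) = ⊥)
    (hcon : Subgroup.centralizer (Cfsg.pPrimeCore 2 ↥M : Set ↥M) ≤ Cfsg.pPrimeCore 2 ↥M)
    (hno : ¬ Cfsg.Involves (Equiv.Perm (Fin 3)) ↥M) :
    ∀ (n : ℕ) (A : Subgroup X), A ≤ M → Cfsg.IsElementaryAbelian 2 A → Nat.card A = n →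
      Nat.card A ^ 2 ≤ (V ⊓ Subgroup.centralizer (A : Set X)).relIndex V := by
  have : Fact (Nat.Prime 2) := ⟨Nat.prime_two⟩
  set Y₀ := Cfsg.pPrimeCore 2 ↥M with hY₀
  have hY₀n : Y₀.Normal := Cfsg.Agent.Lib.Helper1Fitting.pPrimeCore_normal 2
  have hY₀c : (Nat.card Y₀).Coprime 2 := Cfsg.Agent.Lib.Helper1Fitting.card_pPrimeCore_coprime 2
  set Y : Subgroup X := Y₀.map M.subtype with hY
  have hYM : Y ≤ M := map_subtype_le _
  have hYodd : Odd (Nat.card Y) := by
    rw [hY, card_map_of_injective M.subtype_injective]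
    exact Nat.coprime_two_right.mp hY₀c
  have hV2 : IsPGroup 2 V := fun v => ⟨1, by
    apply Subtype.ext
    simpa using hV.2 v v.2⟩
  intro n
  induction n using Nat.strong_induction_on with
  | _ n ih =>
    intro A hAM hA hn
    by_cases hAbot : A = ⊥
    · subst hAbot
      have h1 : (V ⊓ Subgroup.centralizer (((⊥ : Subgroup X) : Subgroup X) : Set X)).relIndex V ≠ 0 :=
        Subgroup.index_ne_zero_of_finite
      rw [card_bot]
      simp only [one_pow]
      omega
    have hA2 : IsPGroup 2 A := fun v => ⟨1, by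
      apply Subtype.ext
      simpa using hA.2 v v.2⟩
    have hne : ∃ b ∈ A, ∃ y ∈ Y, y⁻¹ * (b * y * b⁻¹) ∉ centralizer (V : Set X) := by
      by_contra hc
      push Not at hc
      apply hAbot
      have hcomm : ∀ b ∈ A, ∀ y ∈ Y, y * b = b * y := by
        intro b hb y hy
        have h1 : y⁻¹ * (b * y * b⁻¹) ∈ M ⊓ centralizer (V : Set X) :=
          ⟨M.mul_mem (M.inv_mem (hYM hy)) (M.mul_mem (M.mul_mem (hAM hb) (hYM hy))
            (M.inv_mem (hAM hb))), hc b hb y hy⟩
        rw [hfaith, mem_bot] at h1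
        calc y * b = y * (y⁻¹ * (b * y * b⁻¹)) * b := by rw [h1]; group
          _ = b * y := by group
      have hAY : A ≤ Y := by
        intro a ha
        refine ⟨⟨a, hAM ha⟩, hcon ?_, rfl⟩
        rw [mem_centralizer_iff]
        intro y hy
        apply Subtype.ext
        exact hcomm a ha y ⟨y, hy, rfl⟩
      rw [eq_bot_iff]
      intro a ha
      rw [mem_bot]
      exact eq_one_of_sq_of_odd hYodd (hAY ha) (hA.2 a ha)
    have hex : ∃ B' ≤ A, B'.relIndex A = 2 ∧ 2 * Nat.card ↥(V ⊓ centralizer (A : Set X)) <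
        Nat.card ↥(V ⊓ centralizer (B' : Set X)) := by
      by_contra hc
      push Not at hc
      obtain ⟨W, hW4, y, hy, b, hb, hyN, hbN, hyW, hbW⟩ := ff2_config V A Y hV (hAM.trans hMV)
        (hYM.trans hMV) (fun b hb => by
          have := hA.2 b hb
          rw [pow_two] at this
          rw [this]; exact one_mem _) hYodd (fun b hb y hy => by
          refine ⟨b * y * b⁻¹, ?_, by rw [inv_mul_cancel]; exact one_mem _⟩
          obtain ⟨y₀, hy₀, rfl⟩ := hy
          exact ⟨⟨b, hAM hb⟩ * y₀ * ⟨b, hAM hb⟩⁻¹, hY₀n.conj_mem _ hy₀ _, rfl⟩) hne hc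
      apply hno
      refine involves_S3 M W hW4 y b (hYM hy) (hAM hb) hyN hbN ⟨Nat.card Y, hYodd, ?_⟩ hyW
        ⟨1, by simpa using hA.2 b hb⟩ hbW
      have := pow_card_eq_one' (G := Y) (x := ⟨y, hy⟩)
      have h3 := congrArg Subtype.val this
      rwa [Subgroup.coe_pow] at h3
    obtain ⟨B', hB'A, hidx, hlt⟩ := hex
    have hB'e : Cfsg.IsElementaryAbelian 2 B' := by
      refine ⟨⟨⟨fun a b => ?_⟩⟩, fun a ha => hA.2 a (hB'A ha)⟩
      apply Subtype.ext
      have := hA.1.is_comm.comm ⟨a, hB'A a.2⟩ ⟨b, hB'A b.2⟩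
      exact congrArg (fun z : A => (z : X)) this
    have hcardA : Nat.card A = 2 * Nat.card B' := by
      rw [← relIndex_mul_card hB'A, hidx]
    have hposB : 0 < Nat.card B' := Nat.card_pos
    have hIH := ih (Nat.card B') (by omega) B' (hB'A.trans hAM) hB'e rfl
    have hle1 : V ⊓ centralizer (A : Set X) ≤ V ⊓ centralizer (B' : Set X) :=
      inf_le_inf_left _ (centralizer_le (by exact_mod_cast hB'A))
    have hle2 : V ⊓ centralizer (B' : Set X) ≤ V := inf_le_left
    rw [← relIndex_mul_relIndex _ _ _ hle1 hle2]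
    have h4 : 4 ≤ (V ⊓ centralizer (A : Set X)).relIndex (V ⊓ centralizer (B' : Set X)) := by
      obtain ⟨k, hk⟩ := (IsPGroup.iff_card.mp (hV2.to_le hle2))
      apply four_le_of_dvd (k := k)
      · rw [← hk]
        exact ⟨_, (relIndex_mul_card hle1).symm⟩
      · have h5 := relIndex_mul_card hle1
        rw [← h5] at hlt
        exact Nat.lt_of_mul_lt_mul_right hlt
    calc Nat.card A ^ 2 = 4 * Nat.card B' ^ 2 := by rw [hcardA]; ring
      _ ≤ _ := Nat.mul_le_mul h4 hIH

/-- Let M and V be subgroups of a finite group with V an elementary abelian 2-group, M normalizing V and acting faithfully on it (M ∩ C(V) = 1), and C_M(O_{2'}(M)) ≤ O_{2'}(M). If some elementary abelian 2-subgroup A of M satisfies |V : C_V(A)| < |A|², then M has a section isomorphic to the symmetric group of degree 3. -/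
theorem result {X : Type*} [Group X] [Finite X] (M V : Subgroup X) (hV : Cfsg.IsElementaryAbelian 2 V) (hMV : M ≤ Subgroup.normalizer (V : Set X)) (hfaith : M ⊓ Subgroup.centralizer (V : Set X) = ⊥) (hcon : Subgroup.centralizer (Cfsg.pPrimeCore 2 ↥M : Set ↥M) ≤ Cfsg.pPrimeCore 2 ↥M) (A : Subgroup X) (hAM : A ≤ M) (hA : Cfsg.IsElementaryAbelian 2 A) (hsmall : (V ⊓ Subgroup.centralizer (A : Set X)).relIndex V < Nat.card A ^ 2) : Cfsg.Involves (Equiv.Perm (Fin 3)) ↥M := by
  by_contra hno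
  have := bound M V hV hMV hfaith hcon hno _ A hAM hA rfl
  omega

end Cfsg.Agent.S3755
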