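import Cfsg.Statements.S3760

set_option autoImplicit false
open Cfsg

namespace Cfsg.Agent.S3760

/-- Let the group G act transitively on a set X, let x ∈ X with stabilizer H = G_x, and let K ≤ H. Then N_G(K) acts transitively on the set of fixed points of K if and only if every G-conjugate of K contained in H is already an H-conjugate of K. -/
theorem result {G : Type*} [Group G] {X : Type*} [MulAction G X] (htrans : ∀ a b : X, ∃ g : G, g • a = b) (x : X) (K : Subgroup G) (hK : K ≤ MulAction.stabilizer G x) : (∀ a b : X, (∀ k ∈ K, k • a = a) → (∀ k ∈ K, k • b = b) → ∃ g ∈ Subgroup.normalizer (K : Set G), g • a = b) ↔ ∀ g : G, K.map (MulAut.conj g).toMonoidHom ≤ MulAction.stabilizer G x → ∃ h ∈ MulAction.stabilizer G x, K.map (MulAut.conj g).toMonoidHom = K.map (MulAut.conj h).toMonoidHom := by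
  constructor
  · intro H g hg
    have hx : ∀ k ∈ K, k • x = x := fun k hk => hK hk
    have hgx : ∀ k ∈ K, k • (g⁻¹ • x) = g⁻¹ • x := by
      intro k hk
      have h1 : (g * k * g⁻¹) • x = x := by
        apply hg
        exact ⟨k, hk, by simp⟩
      calc k • (g⁻¹ • x) = g⁻¹ • ((g * k * g⁻¹) • x) := by
            simp only [← mul_smul]; congr 1; group
        _ = g⁻¹ • x := by rw [h1]
    obtain ⟨n, hn, hnx⟩ := H x (g⁻¹ • x) hx hgx
    refine ⟨g * n, ?_, ?_⟩
    · rw [MulAction.mem_stabilizer_iff, mul_smul, hnx, smul_inv_smul]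
    · rw [Subgroup.mem_normalizer_iff_map_conj_eq] at hn
      have : (MulAut.conj (g * n)).toMonoidHom = (MulAut.conj g).toMonoidHom.comp (MulAut.conj n).toMonoidHom := by
        ext y; simp [mul_assoc]
      rw [this, ← Subgroup.map_map]
      congr 1
      exact hn.symm
  · intro H
    have key : ∀ a : X, (∀ k ∈ K, k • a = a) → ∃ n ∈ Subgroup.normalizer (K : Set G), n • a = x := by
      intro a ha
      obtain ⟨g, hg⟩ := htrans a x
      have h1 : K.map (MulAut.conj g).toMonoidHom ≤ MulAction.stabilizer G x := by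
        rintro _ ⟨k, hk, rfl⟩
        rw [MulAction.mem_stabilizer_iff]
        simp only [MulEquiv.coe_toMonoidHom, MulAut.conj_apply]
        rw [← hg, mul_smul, mul_smul, inv_smul_smul, ha k hk]
      obtain ⟨h, hh, hEq⟩ := H g h1
      refine ⟨h⁻¹ * g, ?_, ?_⟩
      · rw [Subgroup.mem_normalizer_iff_map_conj_eq]
        have : ((MulAut.conj (h⁻¹ * g) : MulAut G) : G →* G) = (MulAut.conj h⁻¹).toMonoidHom.comp (MulAut.conj g).toMonoidHom := by
          ext y; simp [mul_assoc]
        rw [this, ← Subgroup.map_map, hEq, Subgroup.map_map]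
        have h2 : (MulAut.conj h⁻¹).toMonoidHom.comp (MulAut.conj h).toMonoidHom = MonoidHom.id G := by
          ext y; simp [mul_assoc]
        rw [h2, Subgroup.map_id]
      · rw [mul_smul, hg]
        rw [MulAction.mem_stabilizer_iff] at hh
        rw [inv_smul_eq_iff, hh]
    intro a b ha hb
    obtain ⟨n, hn, hna⟩ := key a ha
    obtain ⟨m, hm, hmb⟩ := key b hb
    refine ⟨m⁻¹ * n, Subgroup.mul_mem _ (Subgroup.inv_mem _ hm) hn, ?_⟩
    rw [mul_smul, hna, inv_smul_eq_iff, hmb]

end Cfsg.Agent.S3760
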