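import Cfsg.Statements.S3762
import Cfsg.Agent.Lib.H93SYCritA
import Cfsg.Agent.Lib.H93SYCritT
import Cfsg.Agent.Lib.H93SYClaimA
import Cfsg.Agent.Lib.H93SYExE
import Cfsg.Agent.Lib.H93SYFact
import Cfsg.Agent.Lib.H93SYESrec
import Cfsg.Agent.Lib.H93SYUseS
import Cfsg.Agent.Lib.H93SYNoB
import Cfsg.Agent.Lib.H93SYSmallR
import Cfsg.Agent.Lib.H93SYESmul

set_option autoImplicit false
open Cfsg

namespace Cfsg.Agent.S3762

open Cfsg.Agent.Helper93SYDefs in
theorem arith {p n : ℕ} (hp : p.Prime) (hn : n ≠ 0) (h : ¬ p * ex p ∣ p ^ n) : n = 1 ∨ (p = 2 ∧ n = 2) := by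
  by_cases h2 : p = 2
  · subst h2
    have e : ex 2 = 4 := by simp [ex, Cfsg.Agent.Lib.Helper53Crit.ex]
    rw [e] at h
    by_contra hcon
    push Not at hcon
    apply h
    have h3 : 3 ≤ n := by
      have := hcon.2 rfl
      have := hcon.1
      omega
    exact (by norm_num : (2 * 4 : ℕ) = 2 ^ 3) ▸ pow_dvd_pow 2 h3
  · have e : ex p = p := by simp [ex, Cfsg.Agent.Lib.Helper53Crit.ex, h2]
    rw [e] at h
    left
    by_contra hcon
    apply h
    rw [← pow_two]
    exact pow_dvd_pow p (by omega)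

open Cfsg.Agent.Helper93SYDefs in
theorem arith2 {n : ℕ} (h : 2 * ex 2 ∣ 2 ^ n) : 16 ≤ 2 ^ (n + 1) := by
  have e : ex 2 = 4 := by simp [ex, Cfsg.Agent.Lib.Helper53Crit.ex]
  rw [e] at h
  have := Nat.le_of_dvd (by positivity) h
  rw [pow_succ]; omega

/-- Let G be a finite p-group of symplectic type: every characteristic abelian subgroup of G is cyclic. Then G = E ∗ R is a central product of subgroups E and R (they commute elementwise and generate G) where E is extraspecial or trivial, and R is cyclic, or p = 2 and R is dihedral, semidihedral or generalized quaternion of order at least 16. -/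
theorem result {G : Type*} [Group G] [Finite G] {p : ℕ} [Fact p.Prime] (hG : IsPGroup p G) (hsymp : ∀ A : Subgroup G, A.Characteristic → IsMulCommutative A → IsCyclic A) : ∃ E R : Subgroup G, (∀ e ∈ E, ∀ r ∈ R, e * r = r * e) ∧ E ⊔ R = ⊤ ∧ (E = ⊥ ∨ Cfsg.IsExtraspecial p ↥E) ∧ (IsCyclic R ∨ (p = 2 ∧ 16 ≤ Nat.card R ∧ ((∃ m : ℕ, Nonempty (↥R ≃* DihedralGroup m)) ∨ (∃ m : ℕ, Nonempty (↥R ≃* QuaternionGroup m)) ∨ Cfsg.IsQuasiDihedral ↥R))) := by
  classical
  by_cases hnt : Nontrivial G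
  swap
  · rw [not_nontrivial_iff_subsingleton] at hnt
    refine ⟨⊥, ⊤, ?_, bot_sup_eq _, Or.inl rfl, Or.inl ?_⟩
    · intro e _ r _; exact Subsingleton.elim _ _
    · exact isCyclic_of_subsingleton
  obtain ⟨C, hCchar, hCC, hCpow, hCcomm⟩ := H93SYCritA.exists_crit hG
  have hZchar : (Subgroup.centralizer (C : Set G)).Characteristic := inferInstance
  have hZcomm : IsMulCommutative ↥(Subgroup.centralizer (C : Set G)) :=
    ⟨⟨fun a b => Subtype.ext ((Subgroup.mem_centralizer_iff.mp b.2 a (hCC a.2)))⟩⟩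
  have hZcyc := hsymp _ hZchar hZcomm
  have hZ1 : Subgroup.centralizer (C : Set G) ≠ ⊥ := by
    intro hb
    haveI := hG.center_nontrivial
    obtain ⟨c, hc⟩ := exists_ne (1 : Subgroup.center G)
    apply hc
    have h1 : (c : G) ∈ Subgroup.centralizer (C : Set G) := Subgroup.center_le_centralizer _ c.2
    rw [hb] at h1
    exact Subtype.ext (Subgroup.mem_bot.mp h1)
  obtain ⟨T, hT1, hT2, hT3⟩ := H93SYCritT.exists_T hG _ hZcyc hZ1
  have h : Helper93SYDefs.Sy p C (Subgroup.centralizer (C : Set G)) T :=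
    ⟨hCchar, hZchar, hCC, fun g => by
      rw [Subgroup.mem_centralizer_iff]
      constructor <;> intro hh x hx <;> exact (hh x hx).symm, hZcyc, hCpow, hCcomm, hT1, hT2, hT3⟩
  generalize Subgroup.centralizer (C : Set G) = Z at *
  have hA := H93SYClaimA.claimA hG hsymp h
  obtain ⟨E, hEC, hE, hEe, hCE⟩ := H93SYExE.exists_E h hA
  have hfac := H93SYFact.factor h E hEC hE
  have memR : ∀ r, r ∈ Subgroup.centralizer (E : Set G) ↔ ∀ x ∈ E, r * x = x * r := fun r => by
    rw [Subgroup.mem_centralizer_iff]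
    constructor <;> intro hh x hx <;> exact (hh x hx).symm
  generalize Subgroup.centralizer (E : Set G) = R at *
  have hZR : Z ≤ R := fun z hz => (memR z).mpr fun x hx => (h.Z_comm hz (hEC hx)).eq
  have hcen : ∀ r ∈ R, (∀ z ∈ Z, r * z = z * r) → r ∈ Z := by
    intro r hr hrz
    rw [h.Zcen]
    intro x hx
    obtain ⟨a, ha, z, hz, rfl⟩ := hCE x hx
    rw [← mul_assoc, (memR r).mp hr a ha, mul_assoc, hrz z hz, mul_assoc]
  have hfinal : (IsCyclic R ∨ (p = 2 ∧ 16 ≤ Nat.card R ∧ ((∃ m : ℕ, Nonempty (↥R ≃* DihedralGroup m)) ∨ (∃ m : ℕ, Nonempty (↥R ≃* QuaternionGroup m)) ∨ Cfsg.IsQuasiDihedral ↥R))) →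
      ∃ E R : Subgroup G, (∀ e ∈ E, ∀ r ∈ R, e * r = r * e) ∧ E ⊔ R = ⊤ ∧ (E = ⊥ ∨ Cfsg.IsExtraspecial p ↥E) ∧ (IsCyclic R ∨ (p = 2 ∧ 16 ≤ Nat.card R ∧ ((∃ m : ℕ, Nonempty (↥R ≃* DihedralGroup m)) ∨ (∃ m : ℕ, Nonempty (↥R ≃* QuaternionGroup m)) ∨ Cfsg.IsQuasiDihedral ↥R))) := by
    intro hR
    by_cases hET : E = T
    · refine ⟨⊥, R, ?_, ?_, Or.inl rfl, hR⟩
      · intro e he r _; rw [Subgroup.mem_bot.mp he]; simp
      · rw [bot_sup_eq, eq_top_iff]
        intro g _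
        rw [memR]
        intro x hx
        exact (h.Tcen x (hET ▸ hx) g).symm
    · refine ⟨E, R, ?_, ?_, Or.inr (H93SYESrec.isExtraspecial hG E T h.Tcard h.Tcen hE hET), hR⟩
      · intro e he r hr; exact ((memR r).mp hr e he).symm
      · rw [eq_top_iff]
        intro g _
        obtain ⟨k, hk, hkg⟩ := hfac g
        have e1 : g = k * (k⁻¹ * g) := by group
        rw [e1]
        exact mul_mem ((le_sup_left : E ≤ E ⊔ R) hk) ((le_sup_right : R ≤ E ⊔ R) ((memR _).mpr hkg))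
  by_cases hRZ : R ≤ Z
  · have e1 : R = Z := le_antisymm hRZ hZR
    exact hfinal (Or.inl (e1 ▸ hZcyc))
  · obtain ⟨r₀, hr₀R, hr₀Z⟩ := SetLike.not_le_iff_exists.mp hRZ
    have hna : ∃ a ∈ R, ∃ b ∈ R, a * b ≠ b * a := by
      by_contra hcon
      push Not at hcon
      exact hr₀Z (hcen r₀ hr₀R (fun z hz => hcon r₀ hr₀R z (hZR hz)))
    obtain ⟨n, hn⟩ := IsPGroup.iff_card.mp (hG.to_subgroup Z)
    haveI := h.Zchar
    have hZn : ∀ r ∈ R, ∀ z ∈ Z, r * z * r⁻¹ ∈ Z := fun r _ z hz =>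
      (inferInstance : Z.Normal).conj_mem z hz r
    by_cases hbig : p * Helper93SYDefs.ex p ∣ Nat.card Z
    · rcases H93SYUseS.use_S3761 hG R Z hZR hZn hZcyc n hn hcen hna with
        ⟨hp, hc, hiso⟩ | ⟨y, hyR, hyZ, hyp, hyc, hform⟩
      · apply hfinal
        right
        refine ⟨hp, ?_, hiso⟩
        subst hp
        rw [hc]
        rw [hn] at hbig
        exact arith2 hbig
      · exact (H93SYNoB.noB hsymp h E hEC hE hfac y ((memR y).mp hyR) hyc
          (fun r hr1 hr2 => hform r ((memR r).mpr hr1) hr2) hEe hbig hyZ hyp).elim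
    · have hn0 : n ≠ 0 := by
        rintro rfl
        rw [pow_zero] at hn
        exact hZ1 (Subgroup.card_eq_one.mp hn)
      rw [hn] at hbig
      rcases arith (Fact.out : p.Prime) hn0 hbig with rfl | ⟨rfl, rfl⟩
      · exfalso
        have hZT : T = Z := Subgroup.eq_of_le_of_card_ge h.TZ (by rw [hn, h.Tcard, pow_one])
        exact hr₀Z (hcen r₀ hr₀R (fun z hz => (h.Tcen z (hZT ▸ hz) r₀).symm))
      · have hRs := H93SYSmallR.smallR R Z T hZR hZn hZcyc (by rw [hn]; norm_num) hT1 hcen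
          ⟨r₀, hr₀R, hr₀Z⟩
        have htop := H93SYESmul.esin_top E R T hE hRs
          (fun a ha r hr => ((memR r).mp hr a ha).symm)
          (fun g => by
            obtain ⟨k, hk, hkg⟩ := hfac g
            exact ⟨k, hk, k⁻¹ * g, (memR _).mpr hkg, by group⟩) h.Tcen
        have hne : (⊤ : Subgroup G) ≠ T := by
          intro hh
          exact hr₀Z (h.TZ (hh ▸ Subgroup.mem_top r₀))
        refine ⟨⊤, ⊥, ?_, by simp, Or.inr (H93SYESrec.isExtraspecial hG ⊤ T h.Tcard h.Tcen htop hne),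
          Or.inl ?_⟩
        · intro e _ r hr; rw [Subgroup.mem_bot.mp hr]; simp
        · exact isCyclic_of_subsingleton

end Cfsg.Agent.S3762
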