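import Cfsg.Statements.S3763
import Cfsg.Agent.Lib.Helper91ES2

set_option autoImplicit false
open Cfsg

namespace Cfsg.Agent.S3763

/-- Let E be an extraspecial 2-group of order 2^(2n+1). Then the largest elementary abelian subgroups of E have order 2^n or 2^(n+1); and two extraspecial 2-groups of the same order whose largest elementary abelian subgroups have the same order are isomorphic. -/
theorem result {E : Type*} [Group E] [Finite E] (hE : Cfsg.IsExtraspecial 2 E) (n : ℕ) (hn : Nat.card E = 2 ^ (2 * n + 1)) : ((Cfsg.PRankLE 2 n E ∧ ¬ Cfsg.PRankLE 2 (n - 1) E) ∨ (Cfsg.PRankLE 2 (n + 1) E ∧ ¬ Cfsg.PRankLE 2 n E)) ∧ ∀ (E' : Type*) [Group E'] [Finite E'], Cfsg.IsExtraspecial 2 E' → Nat.card E' = Nat.card E → (∀ k : ℕ, Cfsg.PRankLE 2 k E ↔ Cfsg.PRankLE 2 k E') → Nonempty (E ≃* E') := by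
  obtain ⟨m, hm, c, t⟩ := Cfsg.Agent.Lib.Helper91ES2.classify hE
  have e : m = n := by
    rw [c] at hn
    have := Nat.pow_right_injective le_rfl hn
    omega
  subst e
  have hp := Cfsg.Agent.Lib.Helper91ES2.prank_plus m hm
  have hmn := Cfsg.Agent.Lib.Helper91ES2.prank_minus m hm
  constructor
  · rcases t with ⟨⟨a⟩⟩ | ⟨⟨a⟩⟩
    · right
      exact ⟨(Cfsg.Agent.Lib.Helper91ES2.prankLE_congr a 2 _).2 hp.1,
        fun h => hp.2 ((Cfsg.Agent.Lib.Helper91ES2.prankLE_congr a 2 _).1 h)⟩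
    · left
      exact ⟨(Cfsg.Agent.Lib.Helper91ES2.prankLE_congr a 2 _).2 hmn.1,
        fun h => hmn.2 ((Cfsg.Agent.Lib.Helper91ES2.prankLE_congr a 2 _).1 h)⟩
  · intro E' _ _ hE' hcard hrank
    obtain ⟨m', _, c', t'⟩ := Cfsg.Agent.Lib.Helper91ES2.classify hE'
    have e' : m' = m := by
      rw [c', c] at hcard
      have := Nat.pow_right_injective le_rfl hcard
      omega
    subst e'
    rcases t with ⟨⟨a⟩⟩ | ⟨⟨a⟩⟩ <;> rcases t' with ⟨⟨a'⟩⟩ | ⟨⟨a'⟩⟩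
    · exact ⟨a.trans a'.symm⟩
    · exfalso
      have h1 : Cfsg.PRankLE 2 m' E' := (Cfsg.Agent.Lib.Helper91ES2.prankLE_congr a' 2 _).2 hmn.1
      exact hp.2 ((Cfsg.Agent.Lib.Helper91ES2.prankLE_congr a 2 _).1 ((hrank m').2 h1))
    · exfalso
      have h1 : Cfsg.PRankLE 2 m' E := (Cfsg.Agent.Lib.Helper91ES2.prankLE_congr a 2 _).2 hmn.1
      exact hp.2 ((Cfsg.Agent.Lib.Helper91ES2.prankLE_congr a' 2 _).1 ((hrank m').1 h1))
    · exact ⟨a.trans a'.symm⟩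

end Cfsg.Agent.S3763
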