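import Cfsg.Statements.S3764
import Cfsg.Agent.Lib.Helper15HHMain
import Cfsg.Agent.Lib.Helper15HHGrp
import Mathlib

set_option autoImplicit false
open Cfsg

namespace Cfsg.Agent.S3764

open scoped commutatorElement
open Cfsg.Agent.Lib.Helper15HHMain Cfsg.Agent.Lib.Helper15HHGrp Cfsg.Agent.Lib.Helper15HHGen

/-- Let p, q, r be distinct primes and let X, Q, V be subgroups of a finite group with X of order r, Q an extraspecial q-group normalized by X with C_Q(X) = Z(Q), and V an elementary abelian p-group normalized by X and Q on which XQ acts faithfully ((X ⊔ Q) ∩ C(V) = 1). If C_V(X) = 1, then q = 2, r = 2^n + 1 for some n, and Q has order 2^(2n+1). -/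
theorem result {G : Type*} [Group G] [Finite G] {p q r : ℕ} (hp : p.Prime) (hq : q.Prime) (hr : r.Prime) (hpq : p ≠ q) (hpr : p ≠ r) (hqr : q ≠ r) (X Q V : Subgroup G) (hX : Nat.card X = r) (hQ : Cfsg.IsExtraspecial q ↥Q) (hXQ : X ≤ Subgroup.normalizer (Q : Set G)) (hCQ : Q ⊓ Subgroup.centralizer (X : Set G) = (Subgroup.center ↥Q).map Q.subtype) (hV : Cfsg.IsElementaryAbelian p V) (hXV : X ≤ Subgroup.normalizer (V : Set G)) (hQV : Q ≤ Subgroup.normalizer (V : Set G)) (hfaith : (X ⊔ Q) ⊓ Subgroup.centralizer (V : Set G) = ⊥) (hCV : V ⊓ Subgroup.centralizer (X : Set G) = ⊥) : q = 2 ∧ ∃ n : ℕ, r = 2 ^ n + 1 ∧ Nat.card Q = 2 ^ (2 * n + 1) := by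
  haveI := Fact.mk hp
  haveI := Fact.mk hr
  haveI := Fact.mk hq
  obtain ⟨⟨hQp, -, hcommQ⟩, hcardZ⟩ := hQ
  -- a generator of X
  have hXne : X ≠ ⊥ := by
    intro h
    rw [h, Subgroup.card_bot] at hX
    exact hr.one_lt.ne hX
  obtain ⟨x, hxX, hx1⟩ : ∃ x ∈ X, x ≠ 1 := by
    obtain ⟨a, ha⟩ := X.ne_bot_iff_exists_ne_one.mp hXne
    exact ⟨(a : G), a.2, fun h => ha (Subtype.ext h)⟩
  have hzp : Subgroup.zpowers x = X := by
    have hle : Subgroup.zpowers x ≤ X := (Subgroup.zpowers_le).mpr hxX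
    have hdvd : Nat.card (Subgroup.zpowers x) ∣ r := hX ▸ Subgroup.card_dvd_of_le hle
    rcases (Nat.dvd_prime hr).mp hdvd with h | h
    · exfalso
      rw [Subgroup.card_eq_one, Subgroup.zpowers_eq_bot] at h
      exact hx1 h
    · exact Subgroup.eq_of_le_of_card_ge hle (by rw [h, hX])
  have hxr : x ^ r = 1 := by
    have := pow_card_eq_one' (G := X) (x := ⟨x, hxX⟩)
    rw [hX] at this
    exact congrArg Subtype.val this
  have hcent : ∀ v : G, x * v = v * x → v ∈ Subgroup.centralizer (X : Set G) := by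
    intro v hxv
    rw [← hzp, Subgroup.mem_centralizer_iff]
    intro y hy
    obtain ⟨k, rfl⟩ := Subgroup.mem_zpowers_iff.mp hy
    exact ((Commute.zpow_left (show Commute x v from hxv) k)).eq
  have hCVx : ∀ v ∈ V, x * v = v * x → v = 1 := by
    intro v hv hxv
    have : v ∈ V ⊓ Subgroup.centralizer (X : Set G) := Subgroup.mem_inf.mpr ⟨hv, hcent v hxv⟩
    rwa [hCV, Subgroup.mem_bot] at this
  have hfaithQ : Q ⊓ Subgroup.centralizer (V : Set G) = ⊥ := by
    rw [eq_bot_iff, ← hfaith]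
    exact inf_le_inf_right _ le_sup_right
  let F := AlgebraicClosure (ZMod p)
  obtain ⟨d, ρ, Xo, σ, hρ, hXr, hfix, hσ, hσx⟩ :=
    grp_setup Q V x hxr (hXQ hxX) hV (hXV hxX) hQV hfaithQ hCVx F
  have hcast : ∀ n : ℕ, n.Prime → p ≠ n → (n : F) ≠ 0 := by
    intro n hn hpn h
    rw [CharP.cast_eq_zero_iff F p n] at h
    exact hpn ((Nat.prime_dvd_prime_iff_eq hp hn).mp h)
  have hQF : (Nat.card Q : F) ≠ 0 := card_cast_ne_zero hQp hq (hcast q hq hpq)
  set Z : Subgroup Q := Subgroup.center Q with hZdef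
  -- fixed points of σ are the centre
  have hfixZ : ∀ t : Q, σ t = t ↔ t ∈ Z := by
    intro t
    have h1 : (t : G) ∈ Q ⊓ Subgroup.centralizer (X : Set G) ↔ t ∈ Z := by
      rw [hCQ, Subgroup.mem_map]
      constructor
      · rintro ⟨y, hy, hyt⟩
        have : y = t := Subtype.ext hyt
        rwa [← this]
      · intro h
        exact ⟨t, h, rfl⟩
    rw [← h1]
    constructor
    · intro h
      refine Subgroup.mem_inf.mpr ⟨t.2, hcent _ ?_⟩
      have h2 := congrArg Subtype.val h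
      rw [hσx] at h2
      exact mul_inv_eq_iff_eq_mul.mp h2
    · intro h
      apply Subtype.ext
      rw [hσx]
      have h2 := (Subgroup.mem_centralizer_iff.mp (Subgroup.mem_inf.mp h).2) x hxX
      rw [h2, mul_inv_cancel_right]
  have hZfix : ∀ z ∈ Z, σ z = z := fun z hz => (hfixZ z).mpr hz
  have hZc : ∀ z ∈ Z, ∀ t, z * t = t * z := fun z hz t => (Subgroup.mem_center_iff.mp hz t).symm
  have hcomm : ∀ u t : Q, ⁅u, t⁆ ∈ Z := by
    intro u t
    rw [← hcommQ]
    exact Subgroup.commutator_mem_commutator (Subgroup.mem_top u) (Subgroup.mem_top t)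
  have hpow : ∀ t, (⇑σ)^[r] t = t := by
    intro t
    have h := pow_intertwine Xo σ ρ hσ r t
    rw [hXr, one_mul, mul_one] at h
    exact (hρ h).symm
  have hfree : ∀ t, σ t * t⁻¹ ∈ Z → t ∈ Z := by
    intro t ht
    set z := σ t * t⁻¹ with hz
    have h1 : ∀ k : ℕ, (⇑σ)^[k] t = z ^ k * t := by
      intro k
      induction k with
      | zero => simp
      | succ k ih =>
        rw [Function.iterate_succ_apply', ih, map_mul, map_pow, hZfix z ht, pow_succ, mul_assoc]
        congr 1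
        rw [hz, inv_mul_cancel_right]
    have h2 : z ^ r = 1 := by
      have := h1 r
      rw [hpow] at this
      exact (mul_eq_right.mp this.symm)
    have h3 : z = 1 := by
      obtain ⟨k, hk⟩ := hQp z
      have hcop : Nat.Coprime (q ^ k) r := Nat.Coprime.pow_left _ ((Nat.coprime_primes hq hr).mpr hqr)
      have := pow_gcd_eq_one.mpr ⟨hk, h2⟩
      rwa [hcop.gcd_eq_one, pow_one] at this
    rw [← hfixZ]
    rw [hz] at h3
    exact mul_inv_eq_one.mp h3
  -- a nontrivial central element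
  have hZne : Z ≠ ⊥ := by
    intro h
    rw [h, Subgroup.card_bot] at hcardZ
    exact hq.one_lt.ne hcardZ
  obtain ⟨c, hcZ, hc1⟩ : ∃ c ∈ Z, c ≠ 1 := by
    obtain ⟨a, ha⟩ := Z.ne_bot_iff_exists_ne_one.mp hZne
    exact ⟨(a : Q), a.2, fun h => ha (Subtype.ext h)⟩
  have hρc : ρ c ≠ 1 := fun h => hc1 (hρ (h.trans (map_one ρ).symm))
  have hM : ∀ M : Subgroup Q, M ≤ Z → c ∉ M → ∀ t : Q, t ∉ Z → ∃ u : Q, ⁅u, t⁆ ∉ M := by
    intro M hMZ hcM t ht
    have hMbot : M = ⊥ := by
      have hdvd : Nat.card M ∣ q := hcardZ ▸ Subgroup.card_dvd_of_le hMZ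
      rcases (Nat.dvd_prime hq).mp hdvd with h | h
      · exact Subgroup.card_eq_one.mp h
      · exfalso
        have : M = Z := Subgroup.eq_of_le_of_card_ge hMZ (by rw [h, hcardZ])
        exact hcM (this ▸ hcZ)
    by_contra hall
    push Not at hall
    apply ht
    rw [hZdef, Subgroup.mem_center_iff]
    intro u
    have := hall u
    rw [hMbot, Subgroup.mem_bot] at this
    exact commutatorElement_eq_one_iff_mul_comm.mp this
  have hidx := nonabelian_core σ ρ hQF Xo r hr (hcast r hr hpr) hXr hσ hfix Z hZfix hZc hcomm hfree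
    c hcZ hρc hM
  have hidx1 : Z.index ≠ 1 := by
    intro h
    rw [Subgroup.index_eq_one] at h
    -- Q abelian, so commutator trivial
    apply hZne
    rw [← hcommQ, commutator_def, Subgroup.commutator_eq_bot_iff_le_centralizer]
    intro a _
    rw [Subgroup.mem_centralizer_iff]
    intro b _
    exact hZc b (by rw [h]; exact Subgroup.mem_top _) a
  have hidx2 : Z.index = (r - 1) ^ 2 := hidx.resolve_left hidx1
  obtain ⟨kQ, hkQ⟩ := IsPGroup.iff_card.mp hQp
  obtain ⟨j, -, hj⟩ := (Nat.dvd_prime_pow hq).mp (hkQ ▸ Z.index_dvd_card)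
  obtain ⟨h2, m, hm, hjm⟩ := fermat_arith hq hr (hidx2.symm.trans hj) (hidx2 ▸ hidx1)
  refine ⟨h2, m, hm, ?_⟩
  rw [← Z.card_mul_index, hcardZ, hj, hjm, h2]
  ring

end Cfsg.Agent.S3764
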