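import Cfsg.Statements.S3765
import Cfsg.Agent.Lib.Helper15HHMain
import Cfsg.Agent.Lib.Helper15HHGrp
import Mathlib

set_option autoImplicit false
open Cfsg

namespace Cfsg.Agent.S3765

open Cfsg.Agent.Lib.Helper15HHMain Cfsg.Agent.Lib.Helper15HHGrp

/-- Let p, q, r be distinct primes and let X, Q, V be subgroups of a finite group with X of order r normalizing the q-group Q and acting faithfully on it (X ∩ C(Q) = 1), and V a nontrivial elementary abelian p-group normalized by X and Q on which XQ acts faithfully. If q = 2 and r has the form 2^n + 1, assume in addition that Q is abelian. Then C_V(X) ≠ 1. -/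
theorem result {G : Type*} [Group G] [Finite G] {p q r : ℕ} (hp : p.Prime) (hq : q.Prime) (hr : r.Prime) (hpq : p ≠ q) (hpr : p ≠ r) (hqr : q ≠ r) (X Q V : Subgroup G) (hX : Nat.card X = r) (hQ : IsPGroup q Q) (hXQ : X ≤ Subgroup.normalizer (Q : Set G)) (hXfaith : X ⊓ Subgroup.centralizer (Q : Set G) = ⊥) (hV : Cfsg.IsElementaryAbelian p V) (hV1 : V ≠ ⊥) (hXV : X ≤ Subgroup.normalizer (V : Set G)) (hQV : Q ≤ Subgroup.normalizer (V : Set G)) (hfaith : (X ⊔ Q) ⊓ Subgroup.centralizer (V : Set G) = ⊥) (hexc : q = 2 → (∃ n : ℕ, r = 2 ^ n + 1) → IsMulCommutative Q) : V ⊓ Subgroup.centralizer (X : Set G) ≠ ⊥ := by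
  intro hCV
  haveI := Fact.mk hp
  haveI := Fact.mk hr
  -- a generator of X
  have hXne : X ≠ ⊥ := by
    intro h
    rw [h, Subgroup.card_bot] at hX
    exact hr.one_lt.ne hX
  obtain ⟨x, hxX, hx1⟩ : ∃ x ∈ X, x ≠ 1 := by
    obtain ⟨a, ha⟩ := X.ne_bot_iff_exists_ne_one.mp hXne
    exact ⟨(a : G), a.2, fun h => ha (Subtype.ext h)⟩
  have hzp : Subgroup.zpowers x = X := by
    have hle : Subgroup.zpowers x ≤ X := (Subgroup.zpowers_le).mpr hxX
    have hdvd : Nat.card (Subgroup.zpowers x) ∣ r := hX ▸ Subgroup.card_dvd_of_le hle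
    rcases (Nat.dvd_prime hr).mp hdvd with h | h
    · exfalso
      rw [Subgroup.card_eq_one, Subgroup.zpowers_eq_bot] at h
      exact hx1 h
    · exact Subgroup.eq_of_le_of_card_ge hle (by rw [h, hX])
  have hxr : x ^ r = 1 := by
    have := pow_card_eq_one' (G := X) (x := ⟨x, hxX⟩)
    rw [hX] at this
    exact congrArg Subtype.val this
  have hCVx : ∀ v ∈ V, x * v = v * x → v = 1 := by
    intro v hv hxv
    have : v ∈ V ⊓ Subgroup.centralizer (X : Set G) := by
      refine Subgroup.mem_inf.mpr ⟨hv, ?_⟩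
      rw [← hzp, Subgroup.mem_centralizer_iff]
      intro y hy
      obtain ⟨k, rfl⟩ := Subgroup.mem_zpowers_iff.mp hy
      exact ((Commute.zpow_left (show Commute x v from hxv) k)).eq
    rwa [hCV, Subgroup.mem_bot] at this
  have hfaithQ : Q ⊓ Subgroup.centralizer (V : Set G) = ⊥ := by
    rw [eq_bot_iff, ← hfaith]
    exact inf_le_inf_right _ le_sup_right
  let F := AlgebraicClosure (ZMod p)
  obtain ⟨d, ρ, Xo, σ, hρ, hXr, hfix, hσ, hσx⟩ :=
    grp_setup Q V x hxr (hXQ hxX) hV (hXV hxX) hQV hfaithQ hCVx F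
  have hcast : ∀ n : ℕ, n.Prime → p ≠ n → (n : F) ≠ 0 := by
    intro n hn hpn h
    rw [CharP.cast_eq_zero_iff F p n] at h
    exact hpn ((Nat.prime_dvd_prime_iff_eq hp hn).mp h)
  have key := main_gen Xo r hr (hcast r hr hpr) hXr hfix q hq hqr (hcast q hq hpq) Q σ ρ hρ hQ
    (fun h2 hm u t => by
      haveI := hexc h2 hm
      exact mul_comm' u t) hσ
  have : x ∈ X ⊓ Subgroup.centralizer (Q : Set G) := by
    refine Subgroup.mem_inf.mpr ⟨hxX, ?_⟩
    rw [Subgroup.mem_centralizer_iff]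
    intro t ht
    have h1 := congrArg Subtype.val (key ⟨t, ht⟩)
    rw [hσx] at h1
    exact (mul_inv_eq_iff_eq_mul.mp h1).symm
  rw [hXfaith, Subgroup.mem_bot] at this
  exact hx1 this

end Cfsg.Agent.S3765
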