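import Cfsg.Statements.S3766
import Cfsg.Agent.Lib.Helper66Comm
import Cfsg.Agent.Lib.Helper28Layer

set_option autoImplicit false
open Cfsg

namespace Cfsg.Agent.S3766

open scoped commutatorElement
open Cfsg.Agent.Lib.Helper66Comm Cfsg.Agent.Lib.Helper28Comp Cfsg.Agent.Lib.Helper28Layer

variable {G : Type*} [Group G]

def IsChief (U V : Subgroup G) : Prop :=
  U.Normal ∧ V.Normal ∧ V < U ∧ ∀ W : Subgroup G, W.Normal → V ≤ W → W ≤ U → W = V ∨ W = U

/-- centralizer of the section `A / B` -/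
def twoStep (A B : Subgroup G) (hB : B.Normal) : Subgroup G where
  carrier := {g | ∀ y ∈ A, ⁅y, g⁆ ∈ B}
  one_mem' := by
    intro y _
    simp [B.one_mem]
  mul_mem' := by
    intro g h hg hh y hy
    have e : ⁅y, g * h⁆ = ⁅y, g⁆ * (g * ⁅y, h⁆ * g⁻¹) := by
      simp only [commutatorElement_def]; group
    rw [e]
    exact B.mul_mem (hg y hy) (hB.conj_mem _ (hh y hy) g)
  inv_mem' := by
    intro g hg y hy
    have e : ⁅y, g⁻¹⁆ = g⁻¹ * (⁅y, g⁆)⁻¹ * g⁻¹⁻¹ := by
      simp only [commutatorElement_def]; group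
    rw [e]
    exact hB.conj_mem _ (B.inv_mem (hg y hy)) g⁻¹

theorem mem_twoStep (A B : Subgroup G) (hB : B.Normal) (g : G) :
    g ∈ twoStep A B hB ↔ ∀ y ∈ A, ⁅y, g⁆ ∈ B := Iff.rfl

theorem twoStep_normal (A B : Subgroup G) (hA : A.Normal) (hB : B.Normal) :
    (twoStep A B hB).Normal := by
  constructor
  intro g hg x y hy
  have h1 : ⁅x⁻¹ * y * x⁻¹⁻¹, g⁆ ∈ B := hg _ (hA.conj_mem y hy x⁻¹)
  have e : ⁅y, x * g * x⁻¹⁆ = x * ⁅x⁻¹ * y * x⁻¹⁻¹, g⁆ * x⁻¹ := by
    simp only [commutatorElement_def]; group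
  rw [e]
  exact hB.conj_mem _ h1 x

/-- a nilpotent normal subgroup centralizes every chief factor -/
theorem fwd (F : Subgroup G) [hF : F.Normal] (hnil : Group.IsNilpotent F) {U V : Subgroup G}
    (h : IsChief U V) : ⁅U, F⁆ ≤ V := by
  obtain ⟨hU, hV, hlt, hmin⟩ := h
  obtain ⟨n, hn⟩ := (Subgroup.isNilpotent_iff_lowerCentralSeries F).1 hnil
  have hW : (⁅U, F⁆ ⊔ V).Normal := inferInstance
  rcases hmin _ hW le_sup_right (sup_le (Subgroup.commutator_le_left _ _) hlt.le) with h1 | h1
  · rw [← h1]; exact le_sup_left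
  · exfalso
    have key : ∀ k, U ≤ F.lowerCentralSeries k ⊔ V := by
      intro k
      induction k with
      | zero =>
        calc U = ⁅U, F⁆ ⊔ V := h1.symm
          _ ≤ F ⊔ V := sup_le_sup_right (Subgroup.commutator_le_right _ _) V
      | succ k ih =>
        calc U = ⁅U, F⁆ ⊔ V := h1.symm
          _ ≤ ⁅F.lowerCentralSeries k ⊔ V, F⁆ ⊔ V :=
            sup_le_sup_right (Subgroup.commutator_mono ih le_rfl) V
          _ ≤ (⁅F.lowerCentralSeries k, F⁆ ⊔ V) ⊔ V :=
            sup_le_sup_right (commutator_sup_le _ _ _) V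
          _ = F.lowerCentralSeries (k + 1) ⊔ V := by rw [sup_assoc, sup_idem]; rfl
    have := key n
    rw [hn, bot_sup_eq] at this
    exact absurd this (not_le_of_gt hlt)

def iter (K : Subgroup G) (X : Subgroup G) : ℕ → Subgroup G
  | 0 => X
  | m + 1 => ⁅iter K X m, K⁆

theorem iter_mono (K : Subgroup G) {X Y : Subgroup G} (h : X ≤ Y) : ∀ m, iter K X m ≤ iter K Y m
  | 0 => h
  | m + 1 => Subgroup.commutator_mono (iter_mono K h m) le_rfl

theorem iter_succ' (K X : Subgroup G) : ∀ m, iter K X (m + 1) = iter K ⁅X, K⁆ m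
  | 0 => rfl
  | m + 1 => by
    change ⁅iter K X (m + 1), K⁆ = ⁅iter K ⁅X, K⁆ m, K⁆
    rw [iter_succ' K X m]

theorem descend [Finite G] (F K : Subgroup G)
    (hK : ∀ U V : Subgroup G, IsChief U V → U ≤ F → ⁅U, K⁆ ≤ V) :
    ∀ (n : ℕ) (X : Subgroup G), Nat.card X = n → X.Normal → X ≤ F → ∃ m, iter K X m = ⊥ := by
  intro n
  induction n using Nat.strong_induction_on with
  | _ n ih =>
    intro X hn hXn hXF
    by_cases hX : X = ⊥
    · exact ⟨0, hX⟩
    let S : Set (Subgroup G) := {V | V.Normal ∧ V < X}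
    have hS : S.Nonempty := ⟨⊥, inferInstance, bot_lt_iff_ne_bot.2 hX⟩
    obtain ⟨V, hV, hmax⟩ := (Set.toFinite S).exists_maximal hS
    have hchief : IsChief X V := by
      refine ⟨hXn, hV.1, hV.2, ?_⟩
      intro W hW hVW hWX
      by_cases h : W = X
      · exact Or.inr h
      · left
        exact le_antisymm (hmax ⟨hW, lt_of_le_of_ne hWX h⟩ hVW) hVW
    have h1 := hK X V hchief hXF
    have hcard : Nat.card V < n := by
      rw [← hn]
      refine lt_of_le_of_ne (Subgroup.card_le_of_le hV.2.le) ?_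
      intro h
      exact hV.2.ne (Subgroup.eq_of_le_of_card_ge hV.2.le h.ge)
    obtain ⟨m, hm⟩ := ih _ hcard V rfl hV.1 (hV.2.le.trans hXF)
    refine ⟨m + 1, ?_⟩
    rw [iter_succ', eq_bot_iff, ← hm]
    exact iter_mono K h1 m

def der (C : Subgroup G) : ℕ → Subgroup G
  | 0 => C
  | i + 1 => ⁅der C i, der C i⁆

theorem der_le (C : Subgroup G) : ∀ i, der C i ≤ derivedSeries G i
  | 0 => le_top
  | i + 1 => Subgroup.commutator_mono (der_le C i) (der_le C i)

theorem der_normal (C : Subgroup G) (hC : C.Normal) : ∀ i, (der C i).Normal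
  | 0 => hC
  | i + 1 => by
    have := der_normal C hC i
    change (⁅der C i, der C i⁆).Normal
    infer_instance

theorem der_le_self (C : Subgroup G) : ∀ i, der C i ≤ C
  | 0 => le_rfl
  | i + 1 => (Subgroup.commutator_le_self _).trans (der_le_self C i)

theorem bwd [Finite G] (hG : Group.IsSolvable G) (N : Subgroup G) [hN : N.Normal] (g : G) (hgN : g ∈ N)
    (hg : ∀ U V : Subgroup G, IsChief U V → U ≤ fittingIn N → ∀ u ∈ U, ⁅u, g⁆ ∈ V) :
    g ∈ fittingIn N := by
  set F := fittingIn N with hF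
  have hFn : F.Normal := by
    rw [← Subgroup.normalizer_eq_top_iff, eq_top_iff]
    calc (⊤ : Subgroup G) = Subgroup.normalizer (N : Set G) := (Subgroup.normalizer_eq_top_iff.2 hN).symm
      _ ≤ _ := normalizer_le_normalizer_fittingIn N
  have hFnil : Group.IsNilpotent F := fittingIn_isNilpotent N
  have hFN : F ≤ N := fittingIn_le N
  let Cen : Subgroup G := ⨅ (w : {w : Subgroup G × Subgroup G // IsChief w.1 w.2 ∧ w.1 ≤ F}),
    twoStep w.1.1 w.1.2 w.2.1.2.1
  have hCenn : Cen.Normal := by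
    apply Subgroup.normal_iInf_normal
    intro w
    exact twoStep_normal _ _ w.2.1.1 _
  have hCen : ∀ x, x ∈ Cen ↔ ∀ U V : Subgroup G, IsChief U V → U ≤ F → ∀ u ∈ U, ⁅u, x⁆ ∈ V := by
    intro x
    simp only [Cen, Subgroup.mem_iInf]
    constructor
    · intro h U V hUV hU
      exact h ⟨(U, V), hUV, hU⟩
    · intro h w
      exact h _ _ w.2.1 w.2.2
  have hFCen : F ≤ Cen := by
    intro x hx
    rw [hCen]
    intro U V hUV _ u hu
    exact fwd F hFnil hUV (Subgroup.commutator_mem_commutator hu hx)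
  set C := N ⊓ Cen with hC
  have hCn : C.Normal := inferInstance
  have hgC : g ∈ C := ⟨hgN, (hCen g).2 hg⟩
  obtain ⟨k, hk⟩ := hG.solvable
  have hstep : ∀ i, der C (i + 1) ≤ F → der C i ≤ F := by
    intro i hi
    set D := der C i with hD
    have hDn : D.Normal := der_normal C hCn i
    have hDC : D ≤ C := der_le_self C i
    have hDD : ⁅D, D⁆ ≤ F := hi
    set K := D ⊔ F with hKdef
    have hKn : K.Normal := inferInstance
    have hKN : K ≤ N := sup_le (hDC.trans inf_le_left) hFN
    have hKCen : K ≤ Cen := sup_le (hDC.trans inf_le_right) hFCen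
    have hKK : ⁅K, K⁆ ≤ F := by
      calc ⁅K, K⁆ ≤ ⁅D, K⁆ ⊔ F := commutator_sup_le D F K
        _ ≤ F := by
          apply sup_le _ le_rfl
          rw [Subgroup.commutator_comm]
          calc ⁅K, D⁆ ≤ ⁅D, D⁆ ⊔ F := commutator_sup_le D F D
            _ ≤ F := sup_le hDD le_rfl
    have hKch : ∀ U V : Subgroup G, IsChief U V → U ≤ F → ⁅U, K⁆ ≤ V := by
      intro U V hUV hU
      rw [Subgroup.commutator_le]
      intro u hu x hx
      exact (hCen x).1 (hKCen hx) U V hUV hU u hu
    obtain ⟨m, hm⟩ := descend F K hKch _ F rfl hFn le_rfl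
    have hlcs : ∀ j, K.lowerCentralSeries (j + 1) ≤ iter K F j := by
      intro j
      induction j with
      | zero => exact hKK
      | succ j ih => exact Subgroup.commutator_mono ih le_rfl
    have hKnil : Group.IsNilpotent K := by
      rw [Subgroup.isNilpotent_iff_lowerCentralSeries]
      exact ⟨m + 1, eq_bot_iff.2 (hm ▸ hlcs m)⟩
    have hKF : K ≤ F := by
      apply le_fittingIn _ hKnil
      refine ⟨hKN, ?_⟩
      rw [Subgroup.normalizer_eq_top_iff.2 hKn]; exact le_top
    exact le_sup_left.trans hKF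
  have hall : ∀ j i, i + j = k → der C i ≤ F := by
    intro j
    induction j with
    | zero =>
      intro i hi
      have hik : i = k := by omega
      subst hik
      have h1 := der_le C i
      rw [hk] at h1
      exact h1.trans bot_le
    | succ j ih =>
      intro i hi
      exact hstep i (ih (i + 1) (by omega))
  exact hall k 0 (by omega) hgC

/-- Let G be a finite solvable group and N a normal subgroup of G. Call a pair V < U of normal subgroups of G a chief factor of G when no normal subgroup of G lies strictly between them; an element g centralizes the chief factor U/V when u g u⁻¹ g⁻¹ ∈ V for all u ∈ U. Then an element of G lies in the Fitting subgroup F(N) if and only if it lies in N and centralizes every chief factor of G; and also if and only if it lies in N and centralizes every chief factor U/V of G with U ≤ F(N). -/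
theorem result {G : Type*} [Group G] [Finite G] (hG : Group.IsSolvable G) (N : Subgroup G) [N.Normal] (g : G) : (g ∈ (Cfsg.fittingSubgroup ↥N).map N.subtype ↔ g ∈ N ∧ ∀ U V : Subgroup G, (U.Normal ∧ V.Normal ∧ V < U ∧ ∀ W : Subgroup G, W.Normal → V ≤ W → W ≤ U → W = V ∨ W = U) → ∀ u ∈ U, u * g * u⁻¹ * g⁻¹ ∈ V) ∧ (g ∈ (Cfsg.fittingSubgroup ↥N).map N.subtype ↔ g ∈ N ∧ ∀ U V : Subgroup G, (U.Normal ∧ V.Normal ∧ V < U ∧ ∀ W : Subgroup G, W.Normal → V ≤ W → W ≤ U → W = V ∨ W = U) → U ≤ (Cfsg.fittingSubgroup ↥N).map N.subtype → ∀ u ∈ U, u * g * u⁻¹ * g⁻¹ ∈ V) := by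
  rw [map_fitting]
  have hN : N.Normal := inferInstance
  have hFn : (fittingIn N).Normal := by
    rw [← Subgroup.normalizer_eq_top_iff, eq_top_iff]
    calc (⊤ : Subgroup G) = Subgroup.normalizer (N : Set G) := (Subgroup.normalizer_eq_top_iff.2 hN).symm
      _ ≤ _ := normalizer_le_normalizer_fittingIn N
  have hFnil : Group.IsNilpotent (fittingIn N) := fittingIn_isNilpotent N
  constructor
  · constructor
    · intro h
      refine ⟨fittingIn_le N h, ?_⟩
      intro U V hUV u hu
      exact fwd (fittingIn N) hFnil hUV (Subgroup.commutator_mem_commutator hu h)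
    · rintro ⟨hgN, h⟩
      exact bwd hG N g hgN (fun U V hUV _ u hu => h U V hUV u hu)
  · constructor
    · intro h
      refine ⟨fittingIn_le N h, ?_⟩
      intro U V hUV _ u hu
      exact fwd (fittingIn N) hFnil hUV (Subgroup.commutator_mem_commutator hu h)
    · rintro ⟨hgN, h⟩
      exact bwd hG N g hgN (fun U V hUV hU u hu => h U V hUV hU u hu)

end Cfsg.Agent.S3766
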