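import Cfsg.Statements.S3768
import Mathlib

set_option autoImplicit false
open Cfsg

namespace Cfsg.Agent.S3768

open scoped Pointwise

variable {G : Type*} [Group G]

theorem mem_conj_smul (H : Subgroup G) (g x : G) :
    x ∈ MulAut.conj g • H ↔ g⁻¹ * x * g ∈ H := by
  rw [Subgroup.mem_pointwise_smul_iff_inv_smul_mem]
  simp [MulAut.smul_def]

theorem ti {R : Subgroup G} (hR : Cfsg.IsFrobeniusComplement R) {r g : G} (hr : r ∈ R)
    (hr1 : r ≠ 1) (h : g * r * g⁻¹ ∈ R) : g ∈ R := by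
  by_contra hg
  have h1 := hR.2.2 g hg
  have h2 : g * r * g⁻¹ ∈ R ⊓ MulAut.conj g • R := by
    refine Subgroup.mem_inf.2 ⟨h, ?_⟩
    rw [mem_conj_smul]
    have : g⁻¹ * (g * r * g⁻¹) * g = r := by group
    rw [this]; exact hr
  rw [h1, Subgroup.mem_bot] at h2
  apply hr1
  have : r = g⁻¹ * (g * r * g⁻¹) * g := by group
  rw [this, h2]; group

theorem lemA [Finite G] {R : Subgroup G} (hR : Cfsg.IsFrobeniusComplement R) (N : Subgroup G)
    [hN : N.Normal] {r : G} (hr : r ∈ R) (hrN : r ∉ N) (x : G) (hx : r⁻¹ * x ∈ N) :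
    ∃ n ∈ N, n⁻¹ * x * n ∈ R := by
  classical
  have := Fintype.ofFinite ↥N
  have := Fintype.ofFinite ↥(R ⊓ N)
  have hmem : ∀ y : ↥N × ↥(R ⊓ N), r⁻¹ * ((y.1 : G) * (r * (y.2 : G)) * (y.1 : G)⁻¹) ∈ N := by
    intro y
    have h1 : r⁻¹ * (y.1 : G) * r⁻¹⁻¹ ∈ N := hN.conj_mem _ y.1.2 _
    have h2 : r⁻¹ * ((y.1 : G) * (r * (y.2 : G)) * (y.1 : G)⁻¹)
        = (r⁻¹ * (y.1 : G) * r⁻¹⁻¹) * (y.2 : G) * (y.1 : G)⁻¹ := by group
    rw [h2]
    exact N.mul_mem (N.mul_mem h1 y.2.2.2) (N.inv_mem y.1.2)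
  let f : ↥N × ↥(R ⊓ N) → ↥N := fun y => ⟨_, hmem y⟩
  have hf : ∀ y z, f y = f z →
      (y.1 : G) * (r * (y.2 : G)) * (y.1 : G)⁻¹ = (z.1 : G) * (r * (z.2 : G)) * (z.1 : G)⁻¹ := by
    intro y z h
    have := congrArg Subtype.val h
    exact mul_left_cancel this
  have hfib : ∀ a ∈ (Finset.univ.image f),
      (Finset.univ.filter (fun y => f y = a)).card ≤ Fintype.card ↥(R ⊓ N) := by
    intro a ha
    obtain ⟨z, -, rfl⟩ := Finset.mem_image.1 ha
    have key : ∀ y, f y = f z → (z.1 : G)⁻¹ * (y.1 : G) ∈ R ⊓ N := by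
      intro y hy
      refine ⟨?_, N.mul_mem (N.inv_mem z.1.2) y.1.2⟩
      have h1 := hf y z hy
      have hrt : r * (y.2 : G) ∈ R := R.mul_mem hr y.2.2.1
      have hrt1 : r * (y.2 : G) ≠ 1 := by
        intro h
        apply hrN
        have : r = (y.2 : G)⁻¹ := eq_inv_of_mul_eq_one_left h
        rw [this]; exact N.inv_mem y.2.2.2
      apply ti hR hrt hrt1
      have h2 : (z.1 : G)⁻¹ * (y.1 : G) * (r * (y.2 : G)) * ((z.1 : G)⁻¹ * (y.1 : G))⁻¹
          = (z.1 : G)⁻¹ * ((y.1 : G) * (r * (y.2 : G)) * (y.1 : G)⁻¹) * (z.1 : G) := by group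
      rw [h2, h1]
      have h3 : (z.1 : G)⁻¹ * ((z.1 : G) * (r * (z.2 : G)) * (z.1 : G)⁻¹) * (z.1 : G)
          = r * (z.2 : G) := by group
      rw [h3]
      exact R.mul_mem hr z.2.2.1
    let g : {y // f y = f z} → ↥(R ⊓ N) := fun y => ⟨_, key y.1 y.2⟩
    have ginj : Function.Injective g := by
      intro y₁ y₂ h
      have h1 : (z.1 : G)⁻¹ * (y₁.1.1 : G) = (z.1 : G)⁻¹ * (y₂.1.1 : G) := congrArg Subtype.val h
      have h2 : (y₁.1.1 : G) = (y₂.1.1 : G) := mul_left_cancel h1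
      have h3 := hf y₁.1 y₂.1 (y₁.2.trans y₂.2.symm)
      rw [h2] at h3
      have h4 : (y₁.1.2 : G) = (y₂.1.2 : G) :=
        mul_left_cancel (mul_left_cancel (mul_right_cancel h3))
      apply Subtype.ext
      exact Prod.ext (Subtype.ext h2) (Subtype.ext h4)
    calc (Finset.univ.filter (fun y => f y = f z)).card
        = Fintype.card {y // f y = f z} := (Fintype.card_subtype _).symm
      _ ≤ Fintype.card ↥(R ⊓ N) := Fintype.card_le_of_injective g ginj
  have h1 := Finset.card_le_mul_card_image (f := f) Finset.univ _ hfib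
  rw [Finset.card_univ, Fintype.card_prod, mul_comm] at h1
  have hpos : 0 < Fintype.card ↥(R ⊓ N) := Fintype.card_pos
  have h2 : Fintype.card ↥N ≤ (Finset.univ.image f).card := Nat.le_of_mul_le_mul_left h1 hpos
  have h3 : Finset.univ.image f = Finset.univ := by
    apply Finset.eq_univ_of_card
    exact le_antisymm (Finset.card_le_univ _) h2
  have h4 : (⟨r⁻¹ * x, hx⟩ : ↥N) ∈ Finset.univ.image f := by rw [h3]; exact Finset.mem_univ _
  obtain ⟨y, -, hy⟩ := Finset.mem_image.1 h4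
  have h5 : (y.1 : G) * (r * (y.2 : G)) * (y.1 : G)⁻¹ = x :=
    mul_left_cancel (congrArg Subtype.val hy)
  refine ⟨y.1, y.1.2, ?_⟩
  rw [← h5]
  have : (y.1 : G)⁻¹ * ((y.1 : G) * (r * (y.2 : G)) * (y.1 : G)⁻¹) * (y.1 : G) = r * (y.2 : G) := by
    group
  rw [this]
  exact R.mul_mem hr y.2.2.1

theorem lemC [Finite G] {R : Subgroup G} (hR : Cfsg.IsFrobeniusComplement R) (N : Subgroup G)
    [hN : N.Normal] (htop : R ⊔ N = ⊤) : Cfsg.frobeniusKernel R ⊆ N := by
  intro x hx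
  by_contra hxN
  have hx' : x ∈ R ⊔ N := by rw [htop]; trivial
  obtain ⟨r, hr, n, hn, rfl⟩ := Subgroup.mem_sup_of_normal_right.1 hx'
  have hrN : r ∉ N := fun h => hxN (N.mul_mem h hn)
  obtain ⟨m, _, hm⟩ := lemA hR N hr hrN (r * n) (by simpa using hn)
  rcases hx with h1 | h1
  · apply hxN; rw [h1]; exact N.one_mem
  · exact h1 m ((mem_conj_smul R m _).2 hm)

theorem lemB [Finite G] {R : Subgroup G} (hR : Cfsg.IsFrobeniusComplement R) (N : Subgroup G)
    [hN : N.Normal] (hne : R ⊓ N ≠ ⊥) : R ⊔ N = ⊤ := by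
  obtain ⟨⟨x, hx⟩, hx1'⟩ := (Subgroup.ne_bot_iff_exists_ne_one (H := R ⊓ N)).1 hne
  have hx1 : x ≠ 1 := fun h => hx1' (Subtype.ext h)
  have ho1 : orderOf x ≠ 1 := fun h => hx1 (orderOf_eq_one_iff.1 h)
  have ho0 : orderOf x ≠ 0 := (orderOf_pos x).ne'
  set p := (orderOf x).minFac with hp
  have hpp : p.Prime := Nat.minFac_prime ho1
  have : Fact p.Prime := ⟨hpp⟩
  set y := x ^ (orderOf x / p) with hy
  have hyo : orderOf y = p := orderOf_pow_orderOf_div ho0 (Nat.minFac_dvd _)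
  have hyRN : y ∈ R ⊓ N := (R ⊓ N).pow_mem hx _
  have hy1 : y ≠ 1 := by
    intro h
    rw [h, orderOf_one] at hyo
    exact hpp.one_lt.ne hyo
  let y' : ↥N := ⟨y, hyRN.2⟩
  have hy'o : orderOf y' = p := by
    rw [← hyo]
    exact (Subgroup.orderOf_mk y hyRN.2)
  have hz : IsPGroup p (Subgroup.zpowers y') := by
    apply IsPGroup.of_card (n := 1)
    rw [Nat.card_zpowers, hy'o, pow_one]
  obtain ⟨S, hS⟩ := hz.exists_le_sylow
  have hy'S : y' ∈ S := hS (Subgroup.mem_zpowers y')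
  have : Nontrivial ↥S := ⟨⟨⟨y', hy'S⟩, 1, fun h => hy1 (congrArg (fun a : ↥S => ((a : ↥N) : G)) h)⟩⟩
  have := S.isPGroup'.center_nontrivial
  obtain ⟨z, hz1⟩ := exists_ne (1 : Subgroup.center ↥S)
  have hzc := z.2
  set z₀ : G := (((z : ↥S) : ↥N) : G) with hz₀
  have hz₀1 : z₀ ≠ 1 := by
    intro h
    apply hz1
    apply Subtype.ext; apply Subtype.ext; apply Subtype.ext
    exact h
  have hcomm : ∀ s : ↥S, ((s : ↥N) : G) * z₀ = z₀ * ((s : ↥N) : G) := by
    intro s
    have := (Subgroup.mem_center_iff.1 hzc) s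
    exact congrArg (fun a : ↥S => ((a : ↥N) : G)) this
  have hz₀R : z₀ ∈ R := by
    apply ti hR hyRN.1 hy1
    have h1 := hcomm ⟨y', hy'S⟩
    have h2 : y * z₀ = z₀ * y := h1
    rw [← h2]; simpa using hyRN.1
  have hSR : ∀ s : ↥S, ((s : ↥N) : G) ∈ R := by
    intro s
    apply ti hR hz₀R hz₀1
    rw [hcomm s]; simpa using hz₀R
  have hnorm : Subgroup.normalizer (((S : Subgroup ↥N).map N.subtype : Subgroup G) : Set G) ≤ R := by
    intro g hg
    apply ti hR hz₀R hz₀1
    have h1 : z₀ ∈ (S : Subgroup ↥N).map N.subtype := ⟨(z : ↥S), (z : ↥S).2, rfl⟩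
    obtain ⟨s, hs, hsg⟩ := (Subgroup.mem_normalizer_iff.1 hg z₀).1 h1
    rw [← hsg]
    exact hSR ⟨s, hs⟩
  have hfr := Sylow.normalizer_sup_eq_top S
  rw [eq_top_iff, ← hfr]
  exact sup_le_sup_right hnorm N

/-- Let G be a finite Frobenius group with Frobenius complement R and Frobenius kernel K (the identity together with the elements in no conjugate of R), and let N be a normal subgroup of G not containing K. Then G/N is a Frobenius group with Frobenius complement RN/N whose Frobenius kernel is the image of K. -/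
theorem result {G : Type*} [Group G] [Finite G] (R : Subgroup G) (hR : Cfsg.IsFrobeniusComplement R) (N : Subgroup G) [N.Normal] (hKN : ¬ Cfsg.frobeniusKernel R ⊆ N) : Cfsg.IsFrobeniusComplement (R.map (QuotientGroup.mk' N)) ∧ Cfsg.frobeniusKernel (R.map (QuotientGroup.mk' N)) = QuotientGroup.mk' N '' Cfsg.frobeniusKernel R := by
  have hsup : R ⊔ N ≠ ⊤ := fun h => hKN (lemC hR N h)
  have hinf : R ⊓ N = ⊥ := by
    by_contra h
    exact hsup (lemB hR N h)
  have hker : ∀ x : G, QuotientGroup.mk' N x = 1 ↔ x ∈ N := by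
    intro x
    rw [← MonoidHom.mem_ker, QuotientGroup.ker_mk']
  -- key: if `mk x = mk r ≠ 1` with `r ∈ R` then `x` is conjugate into `R`
  have key : ∀ (x r : G), r ∈ R → QuotientGroup.mk' N x = QuotientGroup.mk' N r →
      QuotientGroup.mk' N x ≠ 1 → ∃ n ∈ N, n⁻¹ * x * n ∈ R := by
    intro x r hr hxr hx1
    have hrN : r ∉ N := by
      intro h
      apply hx1
      rw [hxr, hker]; exact h
    apply lemA hR N hr hrN x
    rw [← hker, map_mul, map_inv, hxr, inv_mul_cancel]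
  refine ⟨⟨?_, ?_, ?_⟩, ?_⟩
  · intro h
    rw [Subgroup.map_eq_bot_iff, QuotientGroup.ker_mk'] at h
    apply hR.1
    rw [← hinf]
    exact (inf_eq_left.2 h).symm
  · intro h
    apply hsup
    have := congrArg (Subgroup.comap (QuotientGroup.mk' N)) h
    rwa [Subgroup.comap_map_eq, QuotientGroup.ker_mk', Subgroup.comap_top] at this
  · intro g' hg'
    obtain ⟨g, rfl⟩ := QuotientGroup.mk'_surjective N g'
    rw [eq_bot_iff]
    intro x' hx'
    rw [Subgroup.mem_bot]
    by_contra hx1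
    obtain ⟨⟨r, hr, hrx⟩, h2⟩ := Subgroup.mem_inf.1 hx'
    rw [mem_conj_smul] at h2
    obtain ⟨r', hr', hr'x⟩ := h2
    have e1 : QuotientGroup.mk' N (g * r' * g⁻¹) = QuotientGroup.mk' N r := by
      rw [map_mul, map_mul, map_inv, hr'x, hrx]; group
    have e2 : QuotientGroup.mk' N (g * r' * g⁻¹) ≠ 1 := by rw [e1, hrx]; exact hx1
    obtain ⟨n, hn, hnR⟩ := key _ r hr e1 e2
    have hr'1 : r' ≠ 1 := by
      rintro rfl
      apply e2; simp
    have h3 : n⁻¹ * g ∈ R := by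
      apply ti hR hr' hr'1
      have : n⁻¹ * g * r' * (n⁻¹ * g)⁻¹ = n⁻¹ * (g * r' * g⁻¹) * n := by group
      rw [this]; exact hnR
    apply hg'
    refine ⟨n⁻¹ * g, h3, ?_⟩
    rw [map_mul, map_inv, (hker n).2 hn]; simp
  · ext y'
    constructor
    · intro hy'
      obtain ⟨y, rfl⟩ := QuotientGroup.mk'_surjective N y'
      rcases hy' with h1 | h1
      · exact ⟨1, Or.inl rfl, by rw [h1, map_one]⟩
      · refine ⟨y, Or.inr ?_, rfl⟩
        intro g hg
        apply h1 (QuotientGroup.mk' N g)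
        rw [mem_conj_smul] at hg ⊢
        exact ⟨_, hg, by simp⟩
    · rintro ⟨x, hx, rfl⟩
      by_cases hx1 : QuotientGroup.mk' N x = 1
      · exact Or.inl hx1
      · right
        intro g' hg'
        obtain ⟨g, rfl⟩ := QuotientGroup.mk'_surjective N g'
        rw [mem_conj_smul] at hg'
        obtain ⟨r, hr, hrx⟩ := hg'
        have e1 : QuotientGroup.mk' N (g⁻¹ * x * g) = QuotientGroup.mk' N r := by
          rw [hrx]; simp
        have e2 : QuotientGroup.mk' N (g⁻¹ * x * g) ≠ 1 := by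
          intro h
          apply hx1
          have h' : (QuotientGroup.mk' N g)⁻¹ * QuotientGroup.mk' N x * QuotientGroup.mk' N g = 1 := by
            simpa using h
          have : QuotientGroup.mk' N x = QuotientGroup.mk' N g *
              ((QuotientGroup.mk' N g)⁻¹ * QuotientGroup.mk' N x * QuotientGroup.mk' N g) *
              (QuotientGroup.mk' N g)⁻¹ := by group
          rw [this, h']; group
        obtain ⟨n, _, hnR⟩ := key _ r hr e1 e2
        rcases hx with h | h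
        · apply hx1; rw [h, map_one]
        · apply h (g * n)
          rw [mem_conj_smul]
          have : (g * n)⁻¹ * x * (g * n) = n⁻¹ * (g⁻¹ * x * g) * n := by group
          rw [this]; exact hnR

end Cfsg.Agent.S3768
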