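import Cfsg.Statements.S3771
import Mathlib
import Cfsg.Agent.Lib.Helper31PGroup
import Cfsg.Agent.Lib.Helper73Class

set_option autoImplicit false
open Cfsg

namespace Cfsg.Agent.S3771

/-- Let p be a prime and R a finite p-group of p-rank at most 2 (no elementary abelian subgroup of order p³) in which every element has order dividing p. Then R has order at most p³. -/
theorem result {R : Type*} [Group R] [Finite R] {p : ℕ} [Fact p.Prime] (hR : IsPGroup p R) (hrank : Cfsg.PRankLE p 2 R) (hexp : ∀ x : R, x ^ p = 1) : Nat.card R ≤ p ^ 3 := by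
  classical
  have hp : p.Prime := Fact.out
  obtain ⟨A, -, hAn, hAc, hCA⟩ := Cfsg.Agent.Lib.Helper31PGroup.exists_normal_self_centralizing hR ⊥
    inferInstance ⟨⟨fun a b => Subsingleton.elim _ _⟩⟩
  have hA2 : Nat.card A ≤ p ^ 2 := hrank A hAc (fun a _ => hexp a)
  by_cases hAz : A ≤ Subgroup.center R
  · have h1 : Subgroup.centralizer (A : Set R) = ⊤ := by
      rw [eq_top_iff]
      intro g _
      rw [Subgroup.mem_centralizer_iff]
      intro a ha
      exact ((Subgroup.mem_center_iff.mp (hAz ha)) g).symm
    rw [hCA] at h1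
    have h2 : Nat.card R = Nat.card A := by rw [h1, Subgroup.card_top]
    rw [h2]
    exact hA2.trans (Nat.pow_le_pow_right hp.pos (by norm_num))
  · obtain ⟨y, hyA, hyc⟩ := SetLike.not_le_iff_exists.mp hAz
    have hAbot : A ≠ ⊥ := by rintro rfl; exact hAz bot_le
    obtain ⟨z, hzA, hzc, hz1⟩ := Cfsg.Agent.Lib.Helper31PGroup.exists_center_mem_of_normal hR A hAbot
    set B : Subgroup R := A ⊓ Subgroup.center R with hB
    set D : Subgroup R := B ⊔ Subgroup.zpowers y with hD
    obtain ⟨a, ha⟩ := IsPGroup.iff_card.mp (hR.to_subgroup A)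
    obtain ⟨b, hb⟩ := IsPGroup.iff_card.mp (hR.to_subgroup B)
    obtain ⟨d, hd⟩ := IsPGroup.iff_card.mp (hR.to_subgroup D)
    have hDA : D ≤ A := sup_le inf_le_left (by rw [Subgroup.zpowers_le]; exact hyA)
    have hBD : B ≤ D := le_sup_left
    have hyD : y ∈ D := (le_sup_right : Subgroup.zpowers y ≤ D) (Subgroup.mem_zpowers y)
    have ha2 : a ≤ 2 := by
      rw [ha] at hA2
      exact (Nat.pow_le_pow_iff_right hp.one_lt).mp hA2
    have hb1 : 1 ≤ b := by
      rcases Nat.eq_zero_or_pos b with h0 | h0
      · exfalso
        rw [h0, pow_zero, Subgroup.card_eq_one] at hb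
        have : z ∈ B := ⟨hzA, hzc⟩
        rw [hb, Subgroup.mem_bot] at this
        exact hz1 this
      · exact h0
    have hbd : b < d := by
      by_contra hcon
      push Not at hcon
      have h1 : B = D := Subgroup.eq_of_le_of_card_ge hBD (by
        rw [hb, hd]; exact Nat.pow_le_pow_right hp.pos hcon)
      have : y ∈ B := h1 ▸ hyD
      exact hyc this.2
    have hda : d ≤ a := by
      have := Subgroup.card_le_of_le hDA
      rw [hd, ha] at this
      exact (Nat.pow_le_pow_iff_right hp.one_lt).mp this
    have hDeq : D = A := Subgroup.eq_of_le_of_card_ge hDA (by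
      rw [hd, ha]; exact Nat.pow_le_pow_right hp.pos (by omega))
    have hCle : Subgroup.centralizer ({y} : Set R) ≤ A := by
      rw [← hCA]
      intro g hg
      rw [Subgroup.mem_centralizer_iff]
      have hle : A ≤ Subgroup.centralizer ({g} : Set R) := by
        rw [← hDeq]
        apply sup_le
        · intro x hx
          rw [Subgroup.mem_centralizer_singleton_iff]
          exact ((Subgroup.mem_center_iff.mp hx.2) g).symm
        · rw [Subgroup.zpowers_le, Subgroup.mem_centralizer_singleton_iff]
          exact (Subgroup.mem_centralizer_singleton_iff.mp hg).symm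
      intro x hx
      exact (Subgroup.mem_centralizer_singleton_iff.mp (hle hx))
    have hidx : (Subgroup.centralizer ({y} : Set R)).index ≤ p := by
      obtain ⟨k, hk⟩ := hR.index (Subgroup.centralizer ({y} : Set R))
      have h1 : (Subgroup.centralizer ({y} : Set R)).index < p ^ 2 := by
        rw [Cfsg.Agent.Lib.Helper73Class.index_centralizer_eq_card]
        have hsub : {x : R | IsConj y x} ⊆ (A : Set R) \ {1} := by
          intro x hx
          obtain ⟨c, rfl⟩ := isConj_iff.mp hx
          refine ⟨hAn.conj_mem y hyA c, ?_⟩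
          intro h1
          apply hyc
          have h2 : c * y * c⁻¹ = 1 := h1
          have h3 : y = 1 := by
            have := congrArg (fun w => c⁻¹ * w * c) h2
            simpa [mul_assoc] using this
          rw [h3]; exact Subgroup.one_mem _
        have h2 : ({x : R | IsConj y x}).ncard ≤ ((A : Set R) \ {1}).ncard :=
          Set.ncard_le_ncard hsub (Set.toFinite _)
        rw [Set.ncard_sdiff_singleton_of_mem (Subgroup.one_mem A)] at h2
        have h3 : (A : Set R).ncard = Nat.card A := rfl
        have h4 : Nat.card {x : R // IsConj y x} = ({x : R | IsConj y x}).ncard := rfl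
        have h5 : 0 < Nat.card A := Nat.card_pos
        rw [h4]
        omega
      rw [hk] at h1 ⊢
      have hk1 : k < 2 := (Nat.pow_lt_pow_iff_right hp.one_lt).mp h1
      calc p ^ k ≤ p ^ 1 := Nat.pow_le_pow_right hp.pos (by omega)
        _ = p := pow_one p
    have hmul := Subgroup.card_mul_index (Subgroup.centralizer ({y} : Set R))
    rw [← hmul]
    calc Nat.card (Subgroup.centralizer ({y} : Set R)) * (Subgroup.centralizer ({y} : Set R)).index
        ≤ p ^ 2 * p := Nat.mul_le_mul ((Subgroup.card_le_of_le hCle).trans hA2) hidx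
      _ = p ^ 3 := by ring

end Cfsg.Agent.S3771
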