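import Cfsg.Statements.S3772
import Cfsg.Agent.Lib.Helper3PGroup

set_option autoImplicit false
open Cfsg

namespace Cfsg.Agent.S3772

open Cfsg.Agent.Lib.Helper3PGroup
open scoped Classical
open scoped commutatorElement

variable {G : Type*} [Group G]

/-- sign -/
noncomputable def chi (w : G) : ℤ := if w = 1 then 1 else -1

theorem chi_one : chi (1 : G) = 1 := by simp [chi]

theorem chi_of_ne {w : G} (h : w ≠ 1) : chi w = -1 := by simp [chi, h]

theorem chi_eq_one_iff {w : G} : chi w = 1 ↔ w = 1 := by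
  unfold chi
  split_ifs with h
  · simp [h]
  · simp [h]

theorem chi_sq (w : G) : chi w * chi w = 1 := by
  unfold chi
  split_ifs <;> simp

theorem chi_mul {z : G} (hz : z ≠ 1) (hzz : z * z = 1) {w w' : G} (h : w = 1 ∨ w = z)
    (h' : w' = 1 ∨ w' = z) : chi (w * w') = chi w * chi w' := by
  rcases h with rfl | rfl <;> rcases h' with rfl | rfl
  · simp [chi_one]
  · simp [chi_one]
  · simp [chi_one]
  · rw [hzz, chi_one, chi_of_ne hz]; norm_num

/-- the setting -/
structure Setting (G : Type*) [Group G] (z : G) : Prop where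
  hz : z ≠ 1
  hzz : z * z = 1
  hzc : ∀ g : G, g * z = z * g
  hsq : ∀ x : G, x ^ 2 = 1 ∨ x ^ 2 = z
  hcomm : ∀ x y : G, x * y * x⁻¹ * y⁻¹ = 1 ∨ x * y * x⁻¹ * y⁻¹ = z

noncomputable def phi (x : G) : ℤ := chi (x ^ 2)
noncomputable def beta (x y : G) : ℤ := chi (x * y * x⁻¹ * y⁻¹)

theorem phi_sq (x : G) : phi x * phi x = 1 := chi_sq _

theorem beta_eq_one_iff {x y : G} : beta x y = 1 ↔ x * y = y * x := by
  unfold beta
  rw [chi_eq_one_iff]
  constructor
  · intro h
    calc x * y = (x * y * x⁻¹ * y⁻¹) * (y * x) := by group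
      _ = y * x := by rw [h, one_mul]
  · intro h
    calc x * y * x⁻¹ * y⁻¹ = (x * y) * x⁻¹ * y⁻¹ := by group
      _ = 1 := by rw [h]; group

theorem beta_eq_neg_one_of {x y : G} (h : x * y ≠ y * x) : beta x y = -1 := by
  unfold beta
  apply chi_of_ne
  intro h1
  exact h (beta_eq_one_iff.mp (by unfold beta; rw [h1, chi_one]))

variable {z : G}

theorem Setting.central (S : Setting G z) {w : G} (h : w = 1 ∨ w = z) (g : G) : g * w = w * g := by
  rcases h with rfl | rfl
  · simp
  · exact S.hzc g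

theorem Setting.inv_eq (S : Setting G z) {w : G} (h : w = 1 ∨ w = z) : w⁻¹ = w := by
  rcases h with rfl | rfl
  · simp
  · exact inv_eq_of_mul_eq_one_left S.hzz

theorem Setting.two_mul (S : Setting G z) {w w' : G} (h : w = 1 ∨ w = z) (h' : w' = 1 ∨ w' = z) :
    w * w' = 1 ∨ w * w' = z := by
  rcases h with rfl | rfl <;> rcases h' with rfl | rfl
  · simp
  · simp
  · simp
  · left; exact S.hzz

theorem Setting.phi_mul (S : Setting G z) (x y : G) : phi (x * y) = phi x * phi y * beta x y := by
  have hk := S.hcomm x y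
  set k := x * y * x⁻¹ * y⁻¹ with hkdef
  have h1 : y * x = k⁻¹ * (x * y) := by rw [hkdef]; group
  have h2 : (x * y) ^ 2 = x ^ 2 * y ^ 2 * k := by
    calc (x * y) ^ 2 = x * (y * x) * y := by rw [pow_two]; group
      _ = x * (k * (x * y)) * y := by rw [h1, S.inv_eq hk]
      _ = (x * k) * x * y * y := by group
      _ = (k * x) * x * y * y := by rw [S.central hk x]
      _ = k * (x ^ 2 * y ^ 2) := by rw [pow_two, pow_two]; group
      _ = x ^ 2 * y ^ 2 * k := (S.central hk _).symm
  unfold phi beta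
  rw [h2, chi_mul S.hz S.hzz (S.two_mul (S.hsq x) (S.hsq y)) hk, chi_mul S.hz S.hzz (S.hsq x) (S.hsq y)]

theorem Setting.beta_mul (S : Setting G z) (x x' y : G) :
    beta (x * x') y = beta x y * beta x' y := by
  have hk := S.hcomm x' y
  have h2 : (x * x') * y * (x * x')⁻¹ * y⁻¹ = (x * y * x⁻¹ * y⁻¹) * (x' * y * x'⁻¹ * y⁻¹) := by
    calc (x * x') * y * (x * x')⁻¹ * y⁻¹ = (x * (x' * y * x'⁻¹ * y⁻¹)) * y * x⁻¹ * y⁻¹ := by group
      _ = ((x' * y * x'⁻¹ * y⁻¹) * x) * y * x⁻¹ * y⁻¹ := by rw [S.central hk x]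
      _ = (x' * y * x'⁻¹ * y⁻¹) * (x * y * x⁻¹ * y⁻¹) := by group
      _ = (x * y * x⁻¹ * y⁻¹) * (x' * y * x'⁻¹ * y⁻¹) := (S.central hk _).symm
  unfold beta
  rw [h2, chi_mul S.hz S.hzz (S.hcomm x y) hk]

theorem sum_eq_zero_of_neg [Fintype G] (f : G → ℤ) (g : G) (h : ∀ x, f (g * x) = - f x) :
    ∑ x, f x = 0 := by
  have h1 : ∑ x, f x = ∑ x, f (g * x) :=
    (Fintype.sum_equiv (Equiv.mulLeft g) (fun x => f (g * x)) f (fun x => rfl)).symm
  have h2 : ∑ x, f (g * x) = - ∑ x, f x := by
    rw [← Finset.sum_neg_distrib]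
    exact Finset.sum_congr rfl (fun x _ => h x)
  omega

theorem Setting.sum_beta [Fintype G] (S : Setting G z) (y : G) :
    ∑ x, beta x y = if y ∈ Subgroup.center G then (Fintype.card G : ℤ) else 0 := by
  split_ifs with hy
  · have : ∀ x : G, beta x y = 1 := by
      intro x
      rw [beta_eq_one_iff]
      exact (Subgroup.mem_center_iff.mp hy x)
    simp [this]
  · rw [Subgroup.mem_center_iff] at hy
    push Not at hy
    obtain ⟨g, hg⟩ := hy
    apply sum_eq_zero_of_neg _ g
    intro x
    rw [S.beta_mul, beta_eq_neg_one_of hg]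
    ring

/-- the main identity -/
theorem Setting.sq_sum [Fintype G] (S : Setting G z) :
    (∑ x : G, phi x) ^ 2 = (Fintype.card G : ℤ) * ∑ y, (if y ∈ Subgroup.center G then phi y else 0) := by
  have h1 : (∑ x : G, phi x) ^ 2 = ∑ x : G, ∑ y : G, phi x * phi y := by
    rw [pow_two, Finset.sum_mul_sum]
  have h2 : ∀ x : G, ∑ y : G, phi x * phi y = ∑ y : G, phi y * beta x y := by
    intro x
    have e : ∑ y : G, phi x * phi y = ∑ y : G, phi x * phi (x * y) :=
      (Fintype.sum_equiv (Equiv.mulLeft x) (fun y => phi x * phi (x * y)) (fun y => phi x * phi y)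
        (fun y => rfl)).symm
    rw [e]
    apply Finset.sum_congr rfl
    intro y _
    rw [S.phi_mul]
    calc phi x * (phi x * phi y * beta x y) = (phi x * phi x) * (phi y * beta x y) := by ring
      _ = phi y * beta x y := by rw [phi_sq, one_mul]
  rw [h1, Finset.sum_congr rfl (fun x _ => h2 x), Finset.sum_comm, Finset.mul_sum]
  apply Finset.sum_congr rfl
  intro y _
  rw [← Finset.mul_sum, S.sum_beta]
  split_ifs <;> ring

theorem Setting.sum_center [Fintype G] (S : Setting G z) :
    ((∀ y ∈ Subgroup.center G, y ^ 2 = 1) ∧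
      ∑ y, (if y ∈ Subgroup.center G then phi y else 0) = (Nat.card (Subgroup.center G) : ℤ)) ∨
    ∑ y, (if y ∈ Subgroup.center G then phi y else 0) = 0 := by
  by_cases h : ∀ y ∈ Subgroup.center G, y ^ 2 = 1
  · left
    refine ⟨h, ?_⟩
    have h1 : ∀ y : G, (if y ∈ Subgroup.center G then phi y else 0) =
        if y ∈ Subgroup.center G then (1 : ℤ) else 0 := by
      intro y
      split_ifs with hy
      · unfold phi; rw [h y hy, chi_one]
      · rfl
    rw [Finset.sum_congr rfl (fun y _ => h1 y), Finset.sum_boole]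
    congr 1
    rw [Nat.card_eq_fintype_card, Fintype.card_subtype]
  · right
    push Not at h
    obtain ⟨g, hg, hg2⟩ := h
    apply sum_eq_zero_of_neg _ g
    intro x
    have hiff : g * x ∈ Subgroup.center G ↔ x ∈ Subgroup.center G := by
      constructor
      · intro h
        have := (Subgroup.center G).mul_mem ((Subgroup.center G).inv_mem hg) h
        simpa using this
      · intro h
        exact (Subgroup.center G).mul_mem hg h
    by_cases hx : x ∈ Subgroup.center G
    · rw [if_pos (hiff.mpr hx), if_pos hx, S.phi_mul]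
      have e1 : phi g = -1 := chi_of_ne hg2
      have e2 : beta g x = 1 := beta_eq_one_iff.mpr (Subgroup.mem_center_iff.mp hg x).symm
      rw [e1, e2]; ring
    · rw [if_neg (fun h => hx (hiff.mp h)), if_neg hx]; simp

theorem sum_phi [Fintype G] :
    ∑ x : G, phi x = 2 * (Nat.card {x : G // x ^ 2 = 1} : ℤ) - (Fintype.card G : ℤ) := by
  have h1 : ∀ x : G, phi x = 2 * (if x ^ 2 = 1 then (1 : ℤ) else 0) - 1 := by
    intro x
    unfold phi chi
    split_ifs <;> norm_num
  rw [Finset.sum_congr rfl (fun x _ => h1 x), Finset.sum_sub_distrib, ← Finset.mul_sum,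
    Finset.sum_boole]
  have e : (Nat.card {x : G // x ^ 2 = 1}) = (Finset.univ.filter (fun x : G => x ^ 2 = 1)).card := by
    rw [Nat.card_eq_fintype_card, Fintype.card_subtype]
  rw [e]
  simp


/-- the arithmetic core -/
theorem arith {d m : ℕ} {j : ℕ} {T : ℤ} (hT : T = 2 * (j : ℤ) - 2 ^ (d + 1))
    (hsq : T ^ 2 = 2 ^ (d + 1) * 2 ^ m) (hm1 : 1 ≤ m) (hm2 : m ≤ d) :
    ∃ r : ℕ, 1 ≤ r ∧ 2 * r ≤ d ∧ 2 * r + m = d + 1 ∧ (j = 2 ^ d + 2 ^ (d - r) ∨ j + 2 ^ (d - r) = 2 ^ d) := by
  have h1 : T.natAbs ^ 2 = 2 ^ (d + 1 + m) := by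
    have : ((T.natAbs ^ 2 : ℕ) : ℤ) = ((2 ^ (d + 1 + m) : ℕ) : ℤ) := by
      push_cast
      rw [sq_abs, hsq]; ring
    exact_mod_cast this
  have h2 : T.natAbs ∣ 2 ^ (d + 1 + m) := by
    rw [← h1]; exact dvd_pow_self _ (by norm_num)
  obtain ⟨t, -, ht⟩ := (Nat.dvd_prime_pow Nat.prime_two).mp h2
  rw [ht, ← pow_mul] at h1
  have h3 : t * 2 = d + 1 + m := Nat.pow_right_injective (le_refl 2) h1
  have ht1 : 1 ≤ t := by omega
  refine ⟨d + 1 - t, by omega, by omega, by omega, ?_⟩
  have e : d - (d + 1 - t) = t - 1 := by omega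
  rw [e]
  have h4 : (2 : ℤ) ^ t = 2 * 2 ^ (t - 1) := by
    rw [← pow_succ']; congr 1; omega
  have h5 : (2 : ℤ) ^ (d + 1) = 2 * 2 ^ d := by rw [pow_succ']
  rcases Int.natAbs_eq T with hh | hh
  · left
    rw [ht] at hh
    push_cast at hh
    have : (j : ℤ) = 2 ^ d + 2 ^ (t - 1) := by linarith
    exact_mod_cast this
  · right
    rw [ht] at hh
    push_cast at hh
    have : (j : ℤ) + 2 ^ (t - 1) = 2 ^ d := by linarith
    exact_mod_cast this

theorem exists_setting [Finite G] (hG : IsPGroup 2 G) (hΦ : Nat.card (frattini G) = 2) :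
    ∃ z : G, Setting G z ∧ ∀ w : G, w ∈ frattini G ↔ (w = 1 ∨ w = z) := by
  have : Fact (Nat.Prime 2) := ⟨Nat.prime_two⟩
  have hne : frattini G ≠ ⊥ := by
    intro h
    rw [h] at hΦ
    simp at hΦ
  obtain ⟨z, hzΦ, hz1⟩ : ∃ z : G, z ∈ frattini G ∧ z ≠ 1 := by
    obtain ⟨a, ha⟩ := Subgroup.ne_bot_iff_exists_ne_one.mp hne
    exact ⟨(a : G), a.2, fun h => ha (Subtype.ext h)⟩
  have hmem : ∀ w : G, w ∈ frattini G ↔ (w = 1 ∨ w = z) := by
    intro w
    constructor
    · intro hw
      by_contra hcon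
      push Not at hcon
      -- three distinct elements
      have hfin : Fintype (frattini G) := Fintype.ofFinite _
      have h3 : 3 ≤ Fintype.card (frattini G) := by
        have : ({(1 : frattini G), ⟨z, hzΦ⟩, ⟨w, hw⟩} : Finset (frattini G)).card = 3 := by
          rw [Finset.card_insert_of_notMem, Finset.card_insert_of_notMem, Finset.card_singleton]
          · simp only [Finset.mem_singleton]
            intro h
            exact hcon.2 (congrArg Subtype.val h).symm
          · simp only [Finset.mem_insert, Finset.mem_singleton]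
            rintro (h | h)
            · exact hz1 (congrArg Subtype.val h).symm
            · exact hcon.1 (congrArg Subtype.val h).symm
        rw [← this]
        exact Finset.card_le_univ _
      rw [← Nat.card_eq_fintype_card, hΦ] at h3
      omega
    · rintro (rfl | rfl)
      · exact Subgroup.one_mem _
      · exact hzΦ
  have hn : (frattini G).Normal := inferInstance
  refine ⟨z, ⟨hz1, ?_, ?_, ?_, ?_⟩, hmem⟩
  · rcases (hmem (z * z)).mp ((frattini G).mul_mem hzΦ hzΦ) with h | h
    · exact h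
    · exfalso
      apply hz1
      calc z = z⁻¹ * (z * z) := by group
        _ = 1 := by rw [h]; group
  · intro g
    rcases (hmem (g * z * g⁻¹)).mp (hn.conj_mem z hzΦ g) with h | h
    · exfalso
      apply hz1
      calc z = g⁻¹ * (g * z * g⁻¹) * g := by group
        _ = 1 := by rw [h]; group
    · calc g * z = (g * z * g⁻¹) * g := by group
        _ = z * g := by rw [h]
  · intro x
    exact (hmem _).mp (pow_mem_frattini hG x)
  · intro x y
    apply (hmem _).mp
    apply commutator_le_frattini hG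
    have := Subgroup.commutator_mem_commutator (Subgroup.mem_top x) (Subgroup.mem_top y)
    rwa [commutatorElement_def] at this

/-- Let G be a finite 2-group whose Frattini subgroup Φ(G) has order 2, with |G : Φ(G)| = 2^d, and let j be the number of elements x of G with x² = 1. Then j = 2^d, or j = 2^d + 2^(d−r) or j = 2^d − 2^(d−r) for some positive integer r with 2r ≤ d. Moreover if d = 2r and j is 2^d + 2^r or 2^d − 2^r, then G is extraspecial. -/
theorem result {G : Type*} [Group G] [Finite G] (hG : IsPGroup 2 G) (hΦ : Nat.card (frattini G) = 2) (d : ℕ) (hd : (frattini G).index = 2 ^ d) : (Nat.card {x : G // x ^ 2 = 1} = 2 ^ d ∨ ∃ r : ℕ, 1 ≤ r ∧ 2 * r ≤ d ∧ (Nat.card {x : G // x ^ 2 = 1} = 2 ^ d + 2 ^ (d - r) ∨ Nat.card {x : G // x ^ 2 = 1} + 2 ^ (d - r) = 2 ^ d)) ∧ (∀ r : ℕ, d = 2 * r → (Nat.card {x : G // x ^ 2 = 1} = 2 ^ d + 2 ^ r ∨ Nat.card {x : G // x ^ 2 = 1} + 2 ^ r = 2 ^ d) → Cfsg.IsExtraspecial 2 G) := by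
  have : Fact (Nat.Prime 2) := ⟨Nat.prime_two⟩
  have hfin : Fintype G := Fintype.ofFinite G
  obtain ⟨z, S, hmem⟩ := exists_setting hG hΦ
  set j := Nat.card {x : G // x ^ 2 = 1} with hj
  have hcard : Fintype.card G = 2 ^ (d + 1) := by
    rw [← Nat.card_eq_fintype_card, ← Subgroup.card_mul_index (frattini G), hΦ, hd, pow_succ']
  have hT : (∑ x : G, phi x) = 2 * (j : ℤ) - 2 ^ (d + 1) := by
    rw [sum_phi, hcard]; push_cast; rfl
  have hsq := S.sq_sum
  rw [hcard] at hsq
  push_cast at hsq
  -- the centre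
  have hΦZ : frattini G ≤ Subgroup.center G := by
    intro w hw
    rw [Subgroup.mem_center_iff]
    intro g
    exact S.central ((hmem w).mp hw) g
  obtain ⟨m, hm⟩ := (hG.to_subgroup (Subgroup.center G)).exists_card_eq
  have hm1 : 1 ≤ m := by
    have h1 : Nat.card (frattini G) ∣ Nat.card (Subgroup.center G) := Subgroup.card_dvd_of_le hΦZ
    rw [hΦ, hm] at h1
    rcases Nat.eq_zero_or_pos m with h0 | h0
    · rw [h0, pow_zero] at h1
      exact absurd (Nat.le_of_dvd one_pos h1) (by norm_num)
    · exact h0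
  -- if all central elements are involutions then the centre is proper
  have hm2 : (∀ y ∈ Subgroup.center G, y ^ 2 = 1) → (d + 1 + m) % 2 = 0 → m ≤ d := by
    intro hall hpar
    have hle : 2 ^ m ≤ 2 ^ (d + 1) := by
      rw [← hm, ← hcard, ← Nat.card_eq_fintype_card]
      exact Subgroup.card_le_card_group _
    have hle' : m ≤ d + 1 := (Nat.pow_le_pow_iff_right (by norm_num)).mp hle
    by_contra hcon
    have hmd : m = d + 1 := by omega
    have htop : Subgroup.center G = ⊤ := by
      apply Subgroup.eq_top_of_card_eq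
      rw [hm, hmd, Nat.card_eq_fintype_card, hcard]
    have h1 : frattini G ≤ ⊥ := by
      apply frattini_le_of_elementary (p := 2) ⊥
      · rw [commutator_def, Subgroup.commutator_le]
        intro x _ y _
        rw [Subgroup.mem_bot, commutatorElement_eq_one_iff_mul_comm]
        have hx : x ∈ Subgroup.center G := by rw [htop]; trivial
        exact (Subgroup.mem_center_iff.mp hx y).symm
      · intro x
        rw [Subgroup.mem_bot]
        exact hall x (by rw [htop]; trivial)
    rw [le_bot_iff] at h1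
    rw [h1] at hΦ
    simp at hΦ
  constructor
  · rcases S.sum_center with ⟨hall, hs⟩ | hs
    · right
      rw [hs, hm] at hsq
      push_cast at hsq
      have hpar : (d + 1 + m) % 2 = 0 := by
        -- from the square
        have h1 : (∑ x : G, phi x).natAbs ^ 2 = 2 ^ (d + 1 + m) := by
          have : (((∑ x : G, phi x).natAbs ^ 2 : ℕ) : ℤ) = ((2 ^ (d + 1 + m) : ℕ) : ℤ) := by
            push_cast
            rw [sq_abs, hsq]; ring
          exact_mod_cast this
        have h2 : (∑ x : G, phi x).natAbs ∣ 2 ^ (d + 1 + m) := by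
          rw [← h1]; exact dvd_pow_self _ (by norm_num)
        obtain ⟨t, -, ht⟩ := (Nat.dvd_prime_pow Nat.prime_two).mp h2
        rw [ht, ← pow_mul] at h1
        have h3 : t * 2 = d + 1 + m := Nat.pow_right_injective (le_refl 2) h1
        omega
      obtain ⟨r, hr1, hr2, -, hr⟩ := arith hT hsq hm1 (hm2 hall hpar)
      exact ⟨r, hr1, hr2, hr⟩
    · left
      rw [hs, mul_zero] at hsq
      have h0 : (∑ x : G, phi x) = 0 := by
        exact pow_eq_zero_iff (by norm_num) |>.mp hsq
      rw [hT] at h0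
      have h5 : (2 : ℤ) ^ (d + 1) = 2 * 2 ^ d := by rw [pow_succ']
      have : (j : ℤ) = 2 ^ d := by linarith
      exact_mod_cast this
  · intro r hdr hjr
    -- T^2 = 2^(d+2)
    have hTsq : (∑ x : G, phi x) ^ 2 = 2 ^ (d + 2) := by
      have h5 : (2 : ℤ) ^ (d + 1) = 2 * 2 ^ d := by rw [pow_succ']
      have h6 : (2 : ℤ) ^ (d + 2) = (2 * 2 ^ r) ^ 2 := by
        rw [hdr, mul_pow, ← pow_mul, pow_add]; ring
      rw [h6, hT]
      rcases hjr with h | h
      · have : (j : ℤ) = 2 ^ d + 2 ^ r := by exact_mod_cast h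
        rw [this, h5]; ring
      · have : (j : ℤ) + 2 ^ r = 2 ^ d := by exact_mod_cast h
        have e : (j : ℤ) = 2 ^ d - 2 ^ r := by linarith
        rw [e, h5]; ring
    have hZ2 : Nat.card (Subgroup.center G) = 2 := by
      rcases S.sum_center with ⟨hall, hs⟩ | hs
      · rw [hs, hTsq] at hsq
        have h7 : (2 : ℤ) ^ (d + 2) = 2 ^ (d + 1) * 2 := by rw [pow_succ]
        rw [h7] at hsq
        have h8 : (2 : ℤ) ^ (d + 1) ≠ 0 := by positivity
        have := mul_left_cancel₀ h8 hsq
        exact_mod_cast this.symm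
      · rw [hs, mul_zero, hTsq] at hsq
        exact absurd hsq (by positivity)
    have hΦeq : frattini G = Subgroup.center G :=
      Subgroup.eq_of_le_of_card_ge hΦZ (by rw [hZ2, hΦ])
    have hcomm_le : commutator G ≤ frattini G := commutator_le_frattini hG
    have hcomm_ne : commutator G ≠ ⊥ := by
      intro h0
      have htop : Subgroup.center G = ⊤ := by
        rw [eq_top_iff]
        intro x _
        rw [Subgroup.mem_center_iff]
        intro y
        have : ⁅y, x⁆ ∈ commutator G :=
          Subgroup.commutator_mem_commutator (Subgroup.mem_top y) (Subgroup.mem_top x)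
        rw [h0, Subgroup.mem_bot, commutatorElement_eq_one_iff_mul_comm] at this
        exact this
      have h1 : Nat.card G = 2 := by
        rw [← hZ2, htop, Subgroup.card_top]
      rw [Nat.card_eq_fintype_card, hcard] at h1
      have hd0 : d = 0 := by
        have : 2 ^ (d + 1) = 2 ^ 1 := by rw [h1, pow_one]
        have := Nat.pow_right_injective (le_refl 2) this
        omega
      -- then the Frattini subgroup is everything, but G is elementary abelian
      have h2 : frattini G ≤ ⊥ := by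
        apply frattini_le_of_elementary (p := 2) ⊥
        · rw [h0]
        · intro x
          rw [Subgroup.mem_bot]
          have := pow_card_eq_one' (G := G) (x := x)
          rwa [Nat.card_eq_fintype_card, hcard, hd0] at this
      rw [le_bot_iff] at h2
      rw [h2] at hΦ
      simp at hΦ
    have hcomm_eq : commutator G = frattini G := by
      apply Subgroup.eq_of_le_of_card_ge hcomm_le
      rw [hΦ]
      have := (Subgroup.one_lt_card_iff_ne_bot (commutator G)).mpr hcomm_ne
      omega
    exact ⟨⟨hG, hΦeq, hcomm_eq.trans hΦeq⟩, hZ2⟩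

end Cfsg.Agent.S3772
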