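import Cfsg.Statements.S3773
import Cfsg.Agent.Lib.Helper3PGroup

set_option autoImplicit false
open Cfsg

namespace Cfsg.Agent.S3773

open Cfsg.Agent.Lib.Helper3PGroup
open scoped Classical
open scoped commutatorElement

variable {G : Type*} [Group G]

/-- `S` is a central subgroup of exponent two containing all squares and commutators -/
structure Base (S : Subgroup G) : Prop where
  central : ∀ s ∈ S, ∀ g : G, g * s = s * g
  exp : ∀ s ∈ S, s * s = 1
  sq : ∀ x : G, x ^ 2 ∈ S
  comm : ∀ x y : G, x * y * x⁻¹ * y⁻¹ ∈ S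

/-- a sign character on `S` -/
structure IsSign (S : Subgroup G) (ε : G → ℤ) : Prop where
  pm : ∀ s ∈ S, ε s = 1 ∨ ε s = -1
  mul : ∀ s ∈ S, ∀ s' ∈ S, ε (s * s') = ε s * ε s'

variable {S : Subgroup G} {ε μ : G → ℤ}

theorem IsSign.sq (h : IsSign S ε) {s : G} (hs : s ∈ S) : ε s * ε s = 1 := by
  rcases h.pm s hs with e | e <;> rw [e] <;> norm_num

theorem IsSign.one (h : IsSign S ε) : ε 1 = 1 := by
  have h1 := h.mul 1 S.one_mem 1 S.one_mem
  rw [one_mul, h.sq S.one_mem] at h1
  exact h1

theorem IsSign.prod (h : IsSign S ε) (h' : IsSign S μ) : IsSign S (fun g => ε g * μ g) where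
  pm := by
    intro s hs
    rcases h.pm s hs with e | e <;> rcases h'.pm s hs with e' | e' <;> simp [e, e']
  mul := by
    intro s hs s' hs'
    simp only [h.mul s hs s' hs', h'.mul s hs s' hs']
    ring

theorem isSign_one (S : Subgroup G) : IsSign S (fun _ => (1 : ℤ)) :=
  ⟨fun _ _ => Or.inl rfl, fun _ _ _ _ => by simp⟩

theorem Base.inv_eq (hB : Base S) {s : G} (hs : s ∈ S) : s⁻¹ = s :=
  inv_eq_of_mul_eq_one_left (hB.exp s hs)

def phi (ε : G → ℤ) (x : G) : ℤ := ε (x ^ 2)
def beta (ε : G → ℤ) (x y : G) : ℤ := ε (x * y * x⁻¹ * y⁻¹)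

theorem phi_sq (hB : Base S) (h : IsSign S ε) (x : G) : phi ε x * phi ε x = 1 := h.sq (hB.sq x)

theorem sq_mul (hB : Base S) (x y : G) : (x * y) ^ 2 = x ^ 2 * y ^ 2 * (x * y * x⁻¹ * y⁻¹) := by
  have hk := hB.comm x y
  set k := x * y * x⁻¹ * y⁻¹ with hkdef
  have h1 : y * x = k⁻¹ * (x * y) := by rw [hkdef]; group
  calc (x * y) ^ 2 = x * (y * x) * y := by rw [pow_two]; group
    _ = x * (k * (x * y)) * y := by rw [h1, hB.inv_eq hk]
    _ = (x * k) * x * y * y := by group
    _ = (k * x) * x * y * y := by rw [hB.central k hk x]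
    _ = k * (x ^ 2 * y ^ 2) := by rw [pow_two, pow_two]; group
    _ = x ^ 2 * y ^ 2 * k := (hB.central k hk _).symm

theorem phi_mul (hB : Base S) (h : IsSign S ε) (x y : G) :
    phi ε (x * y) = phi ε x * phi ε y * beta ε x y := by
  unfold phi beta
  rw [sq_mul hB, h.mul _ (S.mul_mem (hB.sq x) (hB.sq y)) _ (hB.comm x y),
    h.mul _ (hB.sq x) _ (hB.sq y)]

theorem beta_mul (hB : Base S) (h : IsSign S ε) (x x' y : G) :
    beta ε (x * x') y = beta ε x y * beta ε x' y := by
  have hk := hB.comm x' y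
  have h2 : (x * x') * y * (x * x')⁻¹ * y⁻¹ = (x * y * x⁻¹ * y⁻¹) * (x' * y * x'⁻¹ * y⁻¹) := by
    calc (x * x') * y * (x * x')⁻¹ * y⁻¹ = (x * (x' * y * x'⁻¹ * y⁻¹)) * y * x⁻¹ * y⁻¹ := by group
      _ = ((x' * y * x'⁻¹ * y⁻¹) * x) * y * x⁻¹ * y⁻¹ := by rw [hB.central _ hk x]
      _ = (x' * y * x'⁻¹ * y⁻¹) * (x * y * x⁻¹ * y⁻¹) := by group
      _ = (x * y * x⁻¹ * y⁻¹) * (x' * y * x'⁻¹ * y⁻¹) := (hB.central _ hk _).symm
  unfold beta
  rw [h2, h.mul _ (hB.comm x y) _ hk]

theorem beta_symm (hB : Base S) (x y : G) : beta ε x y = beta ε y x := by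
  unfold beta
  have : y * x * y⁻¹ * x⁻¹ = (x * y * x⁻¹ * y⁻¹)⁻¹ := by group
  rw [this, hB.inv_eq (hB.comm x y)]

theorem beta_pm (hB : Base S) (h : IsSign S ε) (x y : G) : beta ε x y = 1 ∨ beta ε x y = -1 :=
  h.pm _ (hB.comm x y)

/-- the radical -/
def Rad (hB : Base S) (h : IsSign S ε) : Subgroup G where
  carrier := {y | ∀ x, beta ε x y = 1}
  one_mem' := by
    intro x
    unfold beta
    have : x * 1 * x⁻¹ * 1⁻¹ = 1 := by group
    rw [this, h.one]
  mul_mem' := by
    intro y y' hy hy' x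
    rw [beta_symm hB, beta_mul hB h, beta_symm hB y x, beta_symm hB y' x, hy x, hy' x, one_mul]
  inv_mem' := by
    intro y hy x
    have h1 : beta ε (y * y⁻¹) x = 1 := by
      unfold beta
      have : y * y⁻¹ * x * (y * y⁻¹)⁻¹ * x⁻¹ = 1 := by group
      rw [this, h.one]
    rw [beta_mul hB h, beta_symm hB y x, hy x, one_mul] at h1
    rw [beta_symm hB]; exact h1

theorem mem_Rad (hB : Base S) (h : IsSign S ε) {y : G} : y ∈ Rad hB h ↔ ∀ x, beta ε x y = 1 := Iff.rfl

theorem center_le_Rad (hB : Base S) (h : IsSign S ε) : Subgroup.center G ≤ Rad hB h := by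
  intro y hy x
  unfold beta
  have : x * y * x⁻¹ * y⁻¹ = 1 := by
    rw [Subgroup.mem_center_iff.mp hy x]; group
  rw [this, h.one]

theorem sum_eq_zero_of_neg [Fintype G] (f : G → ℤ) (g : G) (h : ∀ x, f (g * x) = - f x) :
    ∑ x, f x = 0 := by
  have h1 : ∑ x, f x = ∑ x, f (g * x) :=
    (Fintype.sum_equiv (Equiv.mulLeft g) (fun x => f (g * x)) f (fun x => rfl)).symm
  have h2 : ∑ x, f (g * x) = - ∑ x, f x := by
    rw [← Finset.sum_neg_distrib]
    exact Finset.sum_congr rfl (fun x _ => h x)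
  omega

theorem sum_beta [Fintype G] (hB : Base S) (h : IsSign S ε) (y : G) :
    ∑ x, beta ε x y = if y ∈ Rad hB h then (Fintype.card G : ℤ) else 0 := by
  split_ifs with hy
  · have : ∀ x : G, beta ε x y = 1 := hy
    simp [this]
  · rw [mem_Rad] at hy
    push Not at hy
    obtain ⟨g, hg⟩ := hy
    have hg' : beta ε g y = -1 := (beta_pm hB h g y).resolve_left hg
    apply sum_eq_zero_of_neg _ g
    intro x
    rw [beta_mul hB h, hg']
    ring

theorem sq_sum [Fintype G] (hB : Base S) (h : IsSign S ε) :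
    (∑ x : G, phi ε x) ^ 2 = (Fintype.card G : ℤ) * ∑ y, (if y ∈ Rad hB h then phi ε y else 0) := by
  have h1 : (∑ x : G, phi ε x) ^ 2 = ∑ x : G, ∑ y : G, phi ε x * phi ε y := by
    rw [pow_two, Finset.sum_mul_sum]
  have h2 : ∀ x : G, ∑ y : G, phi ε x * phi ε y = ∑ y : G, phi ε y * beta ε x y := by
    intro x
    have e : ∑ y : G, phi ε x * phi ε y = ∑ y : G, phi ε x * phi ε (x * y) :=
      (Fintype.sum_equiv (Equiv.mulLeft x) (fun y => phi ε x * phi ε (x * y))
        (fun y => phi ε x * phi ε y) (fun y => rfl)).symm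
    rw [e]
    apply Finset.sum_congr rfl
    intro y _
    rw [phi_mul hB h]
    calc phi ε x * (phi ε x * phi ε y * beta ε x y)
        = (phi ε x * phi ε x) * (phi ε y * beta ε x y) := by ring
      _ = phi ε y * beta ε x y := by rw [phi_sq hB h, one_mul]
  rw [h1, Finset.sum_congr rfl (fun x _ => h2 x), Finset.sum_comm, Finset.mul_sum]
  apply Finset.sum_congr rfl
  intro y _
  rw [← Finset.mul_sum, sum_beta hB h]
  split_ifs <;> ring

theorem sum_Rad [Fintype G] (hB : Base S) (h : IsSign S ε) :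
    ∑ y, (if y ∈ Rad hB h then phi ε y else 0) = (Nat.card (Rad hB h) : ℤ) ∨
    ∑ y, (if y ∈ Rad hB h then phi ε y else 0) = 0 := by
  by_cases hall : ∀ y ∈ Rad hB h, phi ε y = 1
  · left
    have h1 : ∀ y : G, (if y ∈ Rad hB h then phi ε y else 0) =
        if y ∈ Rad hB h then (1 : ℤ) else 0 := by
      intro y
      split_ifs with hy
      · exact hall y hy
      · rfl
    rw [Finset.sum_congr rfl (fun y _ => h1 y), Finset.sum_boole]
    congr 1
    rw [Nat.card_eq_fintype_card, Fintype.card_subtype]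
  · right
    push Not at hall
    obtain ⟨g, hg, hg2⟩ := hall
    have hg3 : phi ε g = -1 := (h.pm _ (hB.sq g)).resolve_left hg2
    apply sum_eq_zero_of_neg _ g
    intro x
    have hiff : g * x ∈ Rad hB h ↔ x ∈ Rad hB h := by
      constructor
      · intro h'
        have := (Rad hB h).mul_mem ((Rad hB h).inv_mem hg) h'
        simpa using this
      · intro h'
        exact (Rad hB h).mul_mem hg h'
    by_cases hx : x ∈ Rad hB h
    · rw [if_pos (hiff.mpr hx), if_pos hx, phi_mul hB h, hg3, hx g]; ring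
    · rw [if_neg (fun h' => hx (hiff.mp h')), if_neg hx]; simp

/-- divisibility of the character sums -/
theorem T_dvd [Fintype G] (hG : IsPGroup 2 G) (hB : Base S) (h : IsSign S ε) {g ζ : ℕ}
    (hg : Fintype.card G = 2 ^ g) (hζ : Nat.card (Subgroup.center G) = 2 ^ ζ) :
    (2 : ℤ) ^ ((g + ζ + 1) / 2) ∣ ∑ x : G, phi ε x := by
  have : Fact (Nat.Prime 2) := ⟨Nat.prime_two⟩
  have hsq := sq_sum hB h
  rcases sum_Rad hB h with hs | hs
  · obtain ⟨r, hr⟩ := (hG.to_subgroup (Rad hB h)).exists_card_eq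
    have hζr : ζ ≤ r := by
      have h1 : Nat.card (Subgroup.center G) ∣ Nat.card (Rad hB h) :=
        Subgroup.card_dvd_of_le (center_le_Rad hB h)
      rw [hζ, hr] at h1
      exact (Nat.pow_dvd_pow_iff_le_right (by norm_num)).mp h1
    rw [hs, hr, hg] at hsq
    push_cast at hsq
    set T := ∑ x : G, phi ε x with hT
    have h1 : T.natAbs ^ 2 = 2 ^ (g + r) := by
      have : ((T.natAbs ^ 2 : ℕ) : ℤ) = ((2 ^ (g + r) : ℕ) : ℤ) := by
        push_cast
        rw [sq_abs, hsq]; ring
      exact_mod_cast this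
    have h2 : T.natAbs ∣ 2 ^ (g + r) := by
      rw [← h1]; exact dvd_pow_self _ (by norm_num)
    obtain ⟨t, -, ht⟩ := (Nat.dvd_prime_pow Nat.prime_two).mp h2
    rw [ht, ← pow_mul] at h1
    have h3 : t * 2 = g + r := Nat.pow_right_injective (le_refl 2) h1
    have h4 : (g + ζ + 1) / 2 ≤ t := by omega
    rw [← Int.dvd_natAbs, ht]
    push_cast
    exact pow_dvd_pow 2 h4
  · rw [hs, mul_zero] at hsq
    have h0 : (∑ x : G, phi ε x) = 0 := pow_eq_zero_iff (by norm_num) |>.mp hsq
    rw [h0]; exact dvd_zero _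

/-- partial sums -/
noncomputable def A [Fintype G] (S' : Subgroup G) (ε : G → ℤ) : ℤ :=
  ∑ x : G, (if x ^ 2 ∈ S' then ε (x ^ 2) else 0)

/-- kernel of a sign inside `S'` -/
def Ker (hμ : IsSign S μ) (S' : Subgroup G) (hS' : S' ≤ S) : Subgroup G where
  carrier := {s | s ∈ S' ∧ μ s = 1}
  one_mem' := ⟨S'.one_mem, hμ.one⟩
  mul_mem' := by
    rintro a b ⟨ha, ha1⟩ ⟨hb, hb1⟩
    exact ⟨S'.mul_mem ha hb, by rw [hμ.mul a (hS' ha) b (hS' hb), ha1, hb1, one_mul]⟩
  inv_mem' := by
    rintro a ⟨ha, ha1⟩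
    refine ⟨S'.inv_mem ha, ?_⟩
    have h1 := hμ.mul a (hS' ha) a⁻¹ (hS' (S'.inv_mem ha))
    rw [mul_inv_cancel, hμ.one, ha1, one_mul] at h1
    exact h1.symm

theorem A_step [Fintype G] (hμ : IsSign S μ) (S' : Subgroup G) (hS' : S' ≤ S) (ε : G → ℤ) :
    2 * A (Ker hμ S' hS') ε = A S' ε + A S' (fun g => ε g * μ g) := by
  unfold A
  rw [Finset.mul_sum, ← Finset.sum_add_distrib]
  apply Finset.sum_congr rfl
  intro x _
  by_cases hx : x ^ 2 ∈ S'
  · rcases hμ.pm _ (hS' hx) with e | e
    · have : x ^ 2 ∈ Ker hμ S' hS' := ⟨hx, e⟩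
      rw [if_pos this, if_pos hx, if_pos hx]; simp only [e]; ring
    · have : x ^ 2 ∉ Ker hμ S' hS' := by
        rintro ⟨-, e'⟩
        rw [e] at e'; norm_num at e'
      rw [if_neg this, if_pos hx, if_pos hx]; simp only [e]; ring
  · have : x ^ 2 ∉ Ker hμ S' hS' := fun h => hx h.1
    rw [if_neg this, if_neg hx, if_neg hx]; ring

/-- separation of points -/
theorem exists_sign [Finite G] (hG : IsPGroup 2 G) (hB : Base S) {t : G} (ht : t ∈ S) (ht1 : t ≠ 1) :
    ∃ μ : G → ℤ, IsSign S μ ∧ μ t = -1 := by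
  have : Fact (Nat.Prime 2) := ⟨Nat.prime_two⟩
  have hS : IsPGroup 2 S := hG.to_subgroup S
  have h1 : frattini S ≤ ⊥ := by
    apply frattini_le_of_elementary (p := 2) ⊥
    · rw [commutator_def, Subgroup.commutator_le]
      intro x _ y _
      rw [Subgroup.mem_bot, commutatorElement_eq_one_iff_mul_comm]
      apply Subtype.ext
      exact hB.central y y.2 x
    · intro x
      rw [Subgroup.mem_bot]
      apply Subtype.ext
      simp only [Subgroup.coe_pow, Subgroup.coe_one]
      rw [pow_two]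
      exact hB.exp x x.2
  have h2 : (⟨t, ht⟩ : S) ∉ frattini S := by
    intro h
    have := h1 h
    rw [Subgroup.mem_bot] at this
    exact ht1 (congrArg Subtype.val this)
  rw [mem_frattini_iff] at h2
  push Not at h2
  obtain ⟨M, hM, htM⟩ := h2
  have hidx : M.index = 2 := coatom_index hS hM
  refine ⟨fun g => if h : g ∈ S then (if (⟨g, h⟩ : S) ∈ M then 1 else -1) else 1, ⟨?_, ?_⟩, ?_⟩
  · intro s hs
    simp only [dif_pos hs]
    split_ifs
    · left; rfl
    · right; rfl
  · intro s hs s' hs'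
    simp only [dif_pos hs, dif_pos hs', dif_pos (S.mul_mem hs hs')]
    have key := Subgroup.mul_mem_iff_of_index_two hidx (a := ⟨s, hs⟩) (b := ⟨s', hs'⟩)
    have e : (⟨s * s', S.mul_mem hs hs'⟩ : S) = ⟨s, hs⟩ * ⟨s', hs'⟩ := rfl
    rw [e]
    by_cases h1 : (⟨s, hs⟩ : S) ∈ M <;> by_cases h2 : (⟨s', hs'⟩ : S) ∈ M
    · rw [if_pos (key.mpr (by simp [h1, h2])), if_pos h1, if_pos h2]; norm_num
    · rw [if_neg (fun h => by have := key.mp h; simp [h1, h2] at this), if_pos h1, if_neg h2]; norm_num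
    · rw [if_neg (fun h => by have := key.mp h; simp [h1, h2] at this), if_neg h1, if_pos h2]; norm_num
    · rw [if_pos (key.mpr (by simp [h1, h2])), if_neg h1, if_neg h2]; norm_num
  · simp only [dif_pos ht, if_neg htM]

theorem chain [Fintype G] (hG : IsPGroup 2 G) (hB : Base S) (E : ℕ) :
    ∀ (n : ℕ) (S' : Subgroup G) (_ : S' ≤ S) (k : ℕ), Nat.card S' = n → 2 ^ k * Nat.card S' ≤ Nat.card S →
      (∀ ε : G → ℤ, IsSign S ε → (2 : ℤ) ^ E ∣ 2 ^ k * A S' ε) →
      2 ^ E ≤ Nat.card S * Nat.card {x : G // x ^ 2 = 1} := by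
  intro n
  induction n using Nat.strong_induction_on with
  | _ n ih =>
    intro S' hS' k hn hk hP
    by_cases hbot : S' = ⊥
    · subst hbot
      have h1 := hP _ (isSign_one S)
      have h2 : A (⊥ : Subgroup G) (fun _ => (1 : ℤ)) = (Nat.card {x : G // x ^ 2 = 1} : ℤ) := by
        unfold A
        simp only [Subgroup.mem_bot]
        rw [Finset.sum_boole]
        congr 1
        rw [Nat.card_eq_fintype_card, Fintype.card_subtype]
      rw [h2] at h1
      have h3 : (2 ^ E : ℕ) ∣ 2 ^ k * Nat.card {x : G // x ^ 2 = 1} := by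
        exact_mod_cast h1
      have hpos : 0 < Nat.card {x : G // x ^ 2 = 1} := by
        have : Nonempty {x : G // x ^ 2 = 1} := ⟨⟨1, by simp⟩⟩
        exact Nat.card_pos
      have h4 := Nat.le_of_dvd (Nat.mul_pos (by positivity) hpos) h3
      have h5 : 2 ^ k ≤ Nat.card S := by simpa using hk
      exact h4.trans (Nat.mul_le_mul_right _ h5)
    · obtain ⟨a, ha⟩ := Subgroup.ne_bot_iff_exists_ne_one.mp hbot
      have ht : (a : G) ∈ S := hS' a.2
      have ht1 : (a : G) ≠ 1 := fun h => ha (Subtype.ext h)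
      obtain ⟨μ, hμ, hμt⟩ := exists_sign hG hB ht ht1
      have hle : Ker hμ S' hS' ≤ S' := fun s hs => hs.1
      have hne : Ker hμ S' hS' ≠ S' := by
        intro h
        have : (a : G) ∈ Ker hμ S' hS' := by rw [h]; exact a.2
        have h2 := this.2
        rw [hμt] at h2; norm_num at h2
      have hdvd : Nat.card (Ker hμ S' hS') ∣ Nat.card S' := Subgroup.card_dvd_of_le hle
      obtain ⟨c, hc⟩ := hdvd
      have hc2 : 2 ≤ c := by
        rcases Nat.lt_or_ge c 2 with h | h
        · exfalso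
          interval_cases c
          · rw [mul_zero] at hc
            exact Nat.card_pos.ne' hc
          · rw [mul_one] at hc
            exact hne (Subgroup.eq_of_le_of_card_ge hle hc.le)
        · exact h
      have hpos : 0 < Nat.card (Ker hμ S' hS') := Nat.card_pos
      have h2le : 2 * Nat.card (Ker hμ S' hS') ≤ Nat.card S' := by
        rw [hc, mul_comm]; exact Nat.mul_le_mul_left _ hc2
      apply ih (Nat.card (Ker hμ S' hS')) (by omega) (Ker hμ S' hS') (hle.trans hS') (k + 1) rfl
      · calc 2 ^ (k + 1) * Nat.card (Ker hμ S' hS') = 2 ^ k * (2 * Nat.card (Ker hμ S' hS')) := by ring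
          _ ≤ 2 ^ k * Nat.card S' := Nat.mul_le_mul_left _ h2le
          _ ≤ Nat.card S := hk
      · intro ε hε
        have e : (2 : ℤ) ^ (k + 1) * A (Ker hμ S' hS') ε
            = 2 ^ k * A S' ε + 2 ^ k * A S' (fun g => ε g * μ g) := by
          rw [pow_succ, mul_assoc, A_step hμ S' hS' ε]; ring
        rw [e]
        exact dvd_add (hP ε hε) (hP _ (hε.prod hμ))

/-- the key inequality -/
theorem ineq [Finite G] (hG : IsPGroup 2 G) (S : Subgroup G) (hB : Base S) :
    Nat.card G * Nat.card (Subgroup.center G) ≤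
      (Nat.card {x : G // x ^ 2 = 1}) ^ 2 * (Nat.card S) ^ 2 := by
  have : Fact (Nat.Prime 2) := ⟨Nat.prime_two⟩
  have hfin : Fintype G := Fintype.ofFinite G
  obtain ⟨g, hg⟩ := hG.exists_card_eq
  obtain ⟨ζ, hζ⟩ := (hG.to_subgroup (Subgroup.center G)).exists_card_eq
  have hg' : Fintype.card G = 2 ^ g := by rw [← Nat.card_eq_fintype_card]; exact hg
  have h1 := chain hG hB ((g + ζ + 1) / 2) (Nat.card S) S le_rfl 0 rfl (by simp) (by
    intro ε hε
    have h2 : A S ε = ∑ x : G, phi ε x := by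
      unfold A phi
      apply Finset.sum_congr rfl
      intro x _
      rw [if_pos (hB.sq x)]
    rw [pow_zero, one_mul, h2]
    exact T_dvd hG hB hε hg' hζ)
  rw [hg, hζ, ← pow_add]
  calc 2 ^ (g + ζ) ≤ 2 ^ (2 * ((g + ζ + 1) / 2)) := Nat.pow_le_pow_right (by norm_num) (by omega)
    _ = (2 ^ ((g + ζ + 1) / 2)) ^ 2 := by rw [← pow_mul, mul_comm]
    _ ≤ (Nat.card S * Nat.card {x : G // x ^ 2 = 1}) ^ 2 := Nat.pow_le_pow_left h1 2
    _ = _ := by ring


/-- central elements of order at most two -/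
def S1 (G : Type*) [Group G] : Subgroup G where
  carrier := {s | (∀ g : G, g * s = s * g) ∧ s * s = 1}
  one_mem' := ⟨fun g => by simp, by simp⟩
  mul_mem' := by
    rintro a b ⟨ha, ha1⟩ ⟨hb, hb1⟩
    refine ⟨fun g => ?_, ?_⟩
    · calc g * (a * b) = (g * a) * b := by group
        _ = a * (g * b) := by rw [ha g]; group
        _ = a * b * g := by rw [hb g]; group
    · calc a * b * (a * b) = a * (b * a) * b := by group
        _ = (a * a) * (b * b) := by rw [ha b]; group
        _ = 1 := by rw [ha1, hb1, one_mul]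
  inv_mem' := by
    rintro a ⟨ha, ha1⟩
    have : a⁻¹ = a := inv_eq_of_mul_eq_one_left ha1
    rw [Set.mem_ofPred_eq, this]
    exact ⟨ha, ha1⟩

theorem base_frattini [Finite G] (hG : IsPGroup 2 G)
    (hcl : (⊤ : Subgroup G).lowerCentralSeries 2 = ⊥) (hexp : ∀ x : G, x ^ 4 = 1)
    (hN : ∀ x y : G, x ^ 2 = 1 → y ^ 2 = 1 → (x * y) ^ 2 = 1) : Base (frattini G) := by
  have : Fact (Nat.Prime 2) := ⟨Nat.prime_two⟩
  have kc : ∀ x y g : G, g * (x * y * x⁻¹ * y⁻¹) = (x * y * x⁻¹ * y⁻¹) * g := by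
    intro x y g
    have h1 : ⁅⁅x, y⁆, g⁆ ∈ (⊤ : Subgroup G).lowerCentralSeries 2 :=
      Subgroup.commutator_mem_commutator
        (Subgroup.commutator_mem_commutator (Subgroup.mem_top x) (Subgroup.mem_top y))
        (Subgroup.mem_top g)
    rw [hcl, Subgroup.mem_bot, commutatorElement_eq_one_iff_mul_comm, commutatorElement_def] at h1
    exact h1.symm
  have kk : ∀ x y : G, (x * y * x⁻¹ * y⁻¹) * (x * y * x⁻¹ * y⁻¹) = 1 := by
    intro x y
    set k := x * y * x⁻¹ * y⁻¹ with hk
    have hkc : ∀ g, g * k = k * g := kc x y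
    have hkc' : ∀ g, g * k⁻¹ = k⁻¹ * g := by
      intro g
      calc g * k⁻¹ = k⁻¹ * (k * g) * k⁻¹ := by group
        _ = k⁻¹ * (g * k) * k⁻¹ := by rw [hkc g]
        _ = k⁻¹ * g := by group
    have h1 : y * x = k⁻¹ * (x * y) := by rw [hk]; group
    have h2 : (x * y) ^ 2 = k⁻¹ * (x ^ 2 * y ^ 2) := by
      calc (x * y) ^ 2 = x * (y * x) * y := by rw [pow_two]; group
        _ = (x * k⁻¹) * x * y * y := by rw [h1]; group
        _ = (k⁻¹ * x) * x * y * y := by rw [hkc' x]
        _ = k⁻¹ * (x ^ 2 * y ^ 2) := by rw [pow_two, pow_two]; group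
    have h3 : (x ^ 2 * y ^ 2) ^ 2 = 1 := by
      apply hN
      · rw [← pow_mul]; exact hexp x
      · rw [← pow_mul]; exact hexp y
    have h4 : (x * y) ^ 4 = k⁻¹ * k⁻¹ := by
      calc (x * y) ^ 4 = ((x * y) ^ 2) ^ 2 := by rw [← pow_mul]
        _ = k⁻¹ * ((x ^ 2 * y ^ 2) * k⁻¹) * (x ^ 2 * y ^ 2) := by rw [h2, pow_two]; group
        _ = k⁻¹ * (k⁻¹ * (x ^ 2 * y ^ 2)) * (x ^ 2 * y ^ 2) := by rw [hkc' (x ^ 2 * y ^ 2)]
        _ = k⁻¹ * k⁻¹ * (x ^ 2 * y ^ 2) ^ 2 := by rw [pow_two (x ^ 2 * y ^ 2)]; simp only [mul_assoc]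
        _ = k⁻¹ * k⁻¹ := by rw [h3, mul_one]
    rw [hexp] at h4
    calc k * k = (k⁻¹ * k⁻¹)⁻¹ := by simp
      _ = 1 := by rw [← h4, inv_one]
  have sqc : ∀ x g : G, g * x ^ 2 = x ^ 2 * g := by
    intro x g
    have hkc := kc x g
    have hkk := kk x g
    set k := x * g * x⁻¹ * g⁻¹ with hk
    have h1 : x * g = k * (g * x) := by rw [hk]; group
    calc g * x ^ 2 = (k * k) * (g * x * x) := by rw [hkk, one_mul, pow_two]; group
      _ = k * (k * (g * x)) * x := by group
      _ = k * (x * g) * x := by rw [← h1]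
      _ = (k * x) * (g * x) := by group
      _ = (x * k) * (g * x) := by rw [hkc x]
      _ = x * (k * (g * x)) := by group
      _ = x * (x * g) := by rw [← h1]
      _ = x ^ 2 * g := by rw [pow_two]; group
  have hle : frattini G ≤ S1 G := by
    apply frattini_le_of_elementary (p := 2)
    · rw [commutator_def, Subgroup.commutator_le]
      intro x _ y _
      rw [commutatorElement_def]
      exact ⟨kc x y, kk x y⟩
    · intro x
      refine ⟨sqc x, ?_⟩
      rw [← pow_two, ← pow_mul]; exact hexp x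
  refine ⟨fun s hs => (hle hs).1, fun s hs => (hle hs).2, fun x => pow_mem_frattini hG x, ?_⟩
  intro x y
  apply commutator_le_frattini hG
  have := Subgroup.commutator_mem_commutator (Subgroup.mem_top x) (Subgroup.mem_top y)
  rwa [commutatorElement_def] at this

/-- the subgroup of elements with square in `H` -/
def SqIn (hB : Base S) (H : Subgroup G) (hH : ∀ x y : G, x * y * x⁻¹ * y⁻¹ ∈ H) : Subgroup G where
  carrier := {x | x ^ 2 ∈ H}
  one_mem' := by simp [H.one_mem]
  mul_mem' := by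
    intro a b ha hb
    rw [Set.mem_ofPred_eq, sq_mul hB]
    exact H.mul_mem (H.mul_mem ha hb) (hH a b)
  inv_mem' := by
    intro a ha
    rw [Set.mem_ofPred_eq, inv_pow]
    exact H.inv_mem ha

/-- Let G be a finite 2-group of nilpotency class at most 2 and exponent dividing 4 in which the elements x with x² = 1 form a subgroup N. Then |G| ≤ |N|³, and |G| < |N|³ unless G is special. -/
theorem result {G : Type*} [Group G] [Finite G] (hG : IsPGroup 2 G) (hcl : (⊤ : Subgroup G).lowerCentralSeries 2 = ⊥) (hexp : ∀ x : G, x ^ 4 = 1) (hN : ∀ x y : G, x ^ 2 = 1 → y ^ 2 = 1 → (x * y) ^ 2 = 1) : Nat.card G ≤ Nat.card {x : G // x ^ 2 = 1} ^ 3 ∧ (¬ Cfsg.IsSpecial 2 G → Nat.card G < Nat.card {x : G // x ^ 2 = 1} ^ 3) := by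
  have : Fact (Nat.Prime 2) := ⟨Nat.prime_two⟩
  have hB := base_frattini hG hcl hexp hN
  have hI := ineq hG (frattini G) hB
  set j := Nat.card {x : G // x ^ 2 = 1} with hj
  set f := Nat.card (frattini G) with hf
  set c := Nat.card (Subgroup.center G) with hc
  have hΦZ : frattini G ≤ Subgroup.center G := by
    intro s hs
    rw [Subgroup.mem_center_iff]
    exact hB.central s hs
  have hfc : f ≤ c := Subgroup.card_le_of_le hΦZ
  have hfj : f ≤ j := by
    apply Nat.card_le_card_of_injective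
      (fun s : frattini G => (⟨(s : G), by rw [pow_two]; exact hB.exp s s.2⟩ : {x : G // x ^ 2 = 1}))
    intro a b hab
    apply Subtype.ext
    exact congrArg (fun t : {x : G // x ^ 2 = 1} => (t : G)) hab
  have hfpos : 0 < f := Nat.card_pos
  have hcpos : 0 < c := Nat.card_pos
  have hjpos : 0 < j := lt_of_lt_of_le hfpos hfj
  constructor
  · have h1 : Nat.card G * f ≤ (j ^ 2 * f) * f := by
      calc Nat.card G * f ≤ Nat.card G * c := Nat.mul_le_mul_left _ hfc
        _ ≤ j ^ 2 * f ^ 2 := hI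
        _ = (j ^ 2 * f) * f := by ring
    have h2 : Nat.card G ≤ j ^ 2 * f := Nat.le_of_mul_le_mul_right h1 hfpos
    calc Nat.card G ≤ j ^ 2 * f := h2
      _ ≤ j ^ 2 * j := Nat.mul_le_mul_left _ hfj
      _ = j ^ 3 := by ring
  · intro hns
    by_contra hcon
    push Not at hcon
    apply hns
    -- j ≤ f
    have h1 : j * (j ^ 2 * c) ≤ f * (j ^ 2 * c) := by
      calc j * (j ^ 2 * c) = j ^ 3 * c := by ring
        _ ≤ Nat.card G * c := Nat.mul_le_mul_right _ hcon
        _ ≤ j ^ 2 * f ^ 2 := hI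
        _ = f * (j ^ 2 * f) := by ring
        _ ≤ f * (j ^ 2 * c) := Nat.mul_le_mul_left _ (Nat.mul_le_mul_left _ hfc)
    have hjf : j ≤ f := Nat.le_of_mul_le_mul_right h1 (by positivity)
    have hjf' : j = f := le_antisymm hjf hfj
    have h2 : c * j ^ 3 ≤ f * j ^ 3 := by
      calc c * j ^ 3 = j ^ 3 * c := by ring
        _ ≤ Nat.card G * c := Nat.mul_le_mul_right _ hcon
        _ ≤ j ^ 2 * f ^ 2 := hI
        _ = f * j ^ 3 := by rw [← hjf']; ring
    have hcf : c ≤ f := Nat.le_of_mul_le_mul_right h2 (by positivity)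
    have hΦeq : frattini G = Subgroup.center G := Subgroup.eq_of_le_of_card_ge hΦZ hcf
    have hcomm_le : commutator G ≤ frattini G := commutator_le_frattini hG
    have hcomm_eq : commutator G = frattini G := by
      by_contra hne
      have hnt : (commutator G).subgroupOf (frattini G) ≠ ⊤ := by
        intro h
        rw [Subgroup.subgroupOf_eq_top] at h
        exact hne (le_antisymm hcomm_le h)
      obtain ⟨M, hM, hMle⟩ := (eq_top_or_exists_le_coatom _).resolve_left hnt
      have hidx : M.index = 2 := coatom_index (hG.to_subgroup _) hM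
      set H := M.map (frattini G).subtype with hH
      have hHΦ : H ≤ frattini G := Subgroup.map_subtype_le _
      have hHcard : f = Nat.card H * 2 := by
        rw [hH, Subgroup.card_map_of_injective (frattini G).subtype_injective, ← hidx,
          Subgroup.card_mul_index]
      have hmemH : ∀ (s : G) (hs : s ∈ frattini G), s ∈ H ↔ (⟨s, hs⟩ : frattini G) ∈ M := by
        intro s hs
        constructor
        · rintro ⟨y, hy, hys⟩
          have : y = ⟨s, hs⟩ := Subtype.ext hys
          rwa [← this]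
        · intro h
          exact ⟨⟨s, hs⟩, h, rfl⟩
      have hcH : ∀ x y : G, x * y * x⁻¹ * y⁻¹ ∈ H := by
        intro x y
        have h1 : x * y * x⁻¹ * y⁻¹ ∈ commutator G := by
          have := Subgroup.commutator_mem_commutator (Subgroup.mem_top x) (Subgroup.mem_top y)
          rwa [commutatorElement_def] at this
        rw [hmemH _ (hcomm_le h1)]
        apply hMle
        rw [Subgroup.mem_subgroupOf]
        exact h1
      set G0 := SqIn hB H hcH with hG0
      have hmemG0 : ∀ x : G, x ∈ G0 ↔ x ^ 2 ∈ H := fun x => Iff.rfl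
      -- index at most two
      have hidx0 : Nat.card G ≤ 2 * Nat.card G0 := by
        by_cases hall : ∃ a, a ∉ G0
        · obtain ⟨a, ha⟩ := hall
          have h2 : G0.index = 2 := by
            rw [Subgroup.index_eq_two_iff]
            refine ⟨a, fun b => ?_⟩
            by_cases hb : b ∈ G0
            · right
              refine ⟨hb, fun hba => ha ?_⟩
              have := G0.mul_mem (G0.inv_mem hb) hba
              simpa using this
            · left
              refine ⟨?_, hb⟩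
              rw [hmemG0, sq_mul hB]
              refine H.mul_mem ?_ (hcH b a)
              rw [hmemG0, hmemH _ (hB.sq _)] at ha hb
              rw [hmemH _ ((frattini G).mul_mem (hB.sq b) (hB.sq a))]
              have key := Subgroup.mul_mem_iff_of_index_two hidx
                (a := ⟨b ^ 2, hB.sq b⟩) (b := ⟨a ^ 2, hB.sq a⟩)
              exact key.mpr (by simp [ha, hb])
          rw [← Subgroup.card_mul_index G0, h2, mul_comm]
        · push Not at hall
          have : G0 = ⊤ := by rw [eq_top_iff]; intro x _; exact hall x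
          rw [this, Subgroup.card_top]; omega
      have hΦG0 : frattini G ≤ G0 := by
        intro s hs
        rw [hmemG0, pow_two, hB.exp s hs]
        exact H.one_mem
      have hHG0 : H ≤ G0 := hHΦ.trans hΦG0
      -- the inequality for G0
      have hB0 : Base (H.subgroupOf G0) := by
        refine ⟨?_, ?_, ?_, ?_⟩
        · intro s hs g
          apply Subtype.ext
          exact hB.central s (hHΦ (Subgroup.mem_subgroupOf.mp hs)) g
        · intro s hs
          apply Subtype.ext
          exact hB.exp s (hHΦ (Subgroup.mem_subgroupOf.mp hs))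
        · intro x
          rw [Subgroup.mem_subgroupOf]
          exact x.2
        · intro x y
          rw [Subgroup.mem_subgroupOf]
          exact hcH x y
      have hI0 := ineq (hG.to_subgroup G0) (H.subgroupOf G0) hB0
      have e1 : Nat.card (H.subgroupOf G0) = Nat.card H :=
        Nat.card_congr (Subgroup.subgroupOfEquivOfLe hHG0).toEquiv
      have e2 : Nat.card {x : G0 // x ^ 2 = 1} ≤ j := by
        apply Nat.card_le_card_of_injective
          (fun s : {x : G0 // x ^ 2 = 1} => (⟨((s : G0) : G), by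
            have := congrArg (fun t : G0 => (t : G)) s.2
            simpa using this⟩ : {x : G // x ^ 2 = 1}))
        intro a b hab
        apply Subtype.ext
        apply Subtype.ext
        exact congrArg (fun t : {x : G // x ^ 2 = 1} => (t : G)) hab
      have e3 : f ≤ Nat.card (Subgroup.center G0) := by
        have h3 : (frattini G).subgroupOf G0 ≤ Subgroup.center G0 := by
          intro s hs
          rw [Subgroup.mem_center_iff]
          intro g
          apply Subtype.ext
          exact hB.central s (Subgroup.mem_subgroupOf.mp hs) g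
        have h4 : Nat.card ((frattini G).subgroupOf G0) = f :=
          Nat.card_congr (Subgroup.subgroupOfEquivOfLe hΦG0).toEquiv
        rw [← h4]
        exact Subgroup.card_le_of_le h3
      rw [e1] at hI0
      set h := Nat.card H with hh
      have hhpos : 0 < h := Nat.card_pos
      have h5 : (2 * Nat.card G0) * h ≤ (j ^ 2 * h) * h := by
        calc (2 * Nat.card G0) * h = Nat.card G0 * f := by rw [hHcard]; ring
          _ ≤ Nat.card G0 * Nat.card (Subgroup.center G0) := Nat.mul_le_mul_left _ e3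
          _ ≤ Nat.card {x : G0 // x ^ 2 = 1} ^ 2 * h ^ 2 := hI0
          _ ≤ j ^ 2 * h ^ 2 := Nat.mul_le_mul_right _ (Nat.pow_le_pow_left e2 2)
          _ = (j ^ 2 * h) * h := by ring
      have h6 : 2 * Nat.card G0 ≤ j ^ 2 * h := Nat.le_of_mul_le_mul_right h5 hhpos
      have h7 : j * j ^ 2 ≤ h * j ^ 2 := by
        calc j * j ^ 2 = j ^ 3 := by ring
          _ ≤ Nat.card G := hcon
          _ ≤ 2 * Nat.card G0 := hidx0
          _ ≤ j ^ 2 * h := h6
          _ = h * j ^ 2 := by ring
      have h8 : j ≤ h := Nat.le_of_mul_le_mul_right h7 (by positivity)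
      omega
    exact ⟨hG, hΦeq, hcomm_eq.trans hΦeq⟩

end Cfsg.Agent.S3773
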