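import Cfsg.Statements.S3774
import Mathlib

set_option autoImplicit false
open Cfsg

namespace Cfsg.Agent.S3774

variable {G : Type*} [Group G]

/-- the involution in the cyclic group generated by `x` -/
noncomputable def iota (x : G) : G := x ^ (orderOf x / 2)

theorem iota_sq [Finite G] (hG : IsPGroup 2 G) {x : G} (hx : x ≠ 1) : iota x ^ 2 = 1 := by
  have : Fact (Nat.Prime 2) := ⟨Nat.prime_two⟩
  have h2 : 2 ∣ orderOf x := hG.dvd_orderOf hx
  rw [iota, ← pow_mul, Nat.div_mul_cancel h2, pow_orderOf_eq_one]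

theorem iota_ne_one [Finite G] {x : G} (hx : x ≠ 1) (hG : IsPGroup 2 G) : iota x ≠ 1 := by
  have : Fact (Nat.Prime 2) := ⟨Nat.prime_two⟩
  have h2 : 2 ∣ orderOf x := hG.dvd_orderOf hx
  have hpos : 0 < orderOf x := orderOf_pos x
  apply pow_ne_one_of_lt_orderOf
  · obtain ⟨k, hk⟩ := h2
    omega
  · omega

theorem iota_map (a : MulAut G) (x : G) : iota (a x) = a (iota x) := by
  rw [iota, iota, map_pow, MulEquiv.orderOf_eq]

theorem iota_of_sq {z : G} (hz : z ≠ 1) (hz2 : z ^ 2 = 1) : iota z = z := by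
  have : orderOf z = 2 := orderOf_eq_prime hz2 hz
  rw [iota, this]; simp

/-- Let G be a nontrivial finite 2-group whose automorphism group permutes the involutions of G transitively. Then every involution of G is central, so that the involutions together with 1 form the subgroup Ω₁(Z(G)), and if this subgroup has order q then |G| is a power of q. -/
theorem result {G : Type*} [Group G] [Finite G] [Nontrivial G] (hG : IsPGroup 2 G) (htrans : ∀ x y : G, x ≠ 1 → x ^ 2 = 1 → y ≠ 1 → y ^ 2 = 1 → ∃ a : MulAut G, a x = y) : (∀ x : G, x ^ 2 = 1 → x ∈ Subgroup.center G) ∧ ∃ m : ℕ, Nat.card G = Nat.card {z : G // z ^ 2 = 1} ^ m := by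
  have : Fact (Nat.Prime 2) := ⟨Nat.prime_two⟩
  have := hG.center_nontrivial
  obtain ⟨z, hz1⟩ := exists_ne (1 : Subgroup.center G)
  have hz1' : (z : G) ≠ 1 := fun h => hz1 (Subtype.ext h)
  set z₀ : G := iota (z : G) with hz₀
  have hz₀c : z₀ ∈ Subgroup.center G := Subgroup.pow_mem _ z.2 _
  have hz₀1 : z₀ ≠ 1 := iota_ne_one hz1' hG
  have hz₀2 : z₀ ^ 2 = 1 := iota_sq hG hz1'
  have hcent : ∀ x : G, x ^ 2 = 1 → x ∈ Subgroup.center G := by
    intro x hx
    by_cases hx1 : x = 1
    · rw [hx1]; exact Subgroup.one_mem _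
    obtain ⟨a, ha⟩ := htrans z₀ x hz₀1 hz₀2 hx1 hx
    rw [Subgroup.mem_center_iff]
    intro g
    have h1 := (Subgroup.mem_center_iff.1 hz₀c) (a.symm g)
    have h2 := congrArg a h1
    rw [map_mul, map_mul, ha, MulEquiv.apply_symm_apply] at h2
    exact h2
  refine ⟨hcent, ?_⟩
  -- the subgroup of involutions
  let N : Subgroup G :=
    { carrier := {x | x ^ 2 = 1}
      mul_mem' := by
        intro a b ha hb
        have hc : Commute a b := ((Subgroup.mem_center_iff.1 (hcent a ha)) b).symm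
        change (a * b) ^ 2 = 1
        rw [hc.mul_pow, ha, hb, one_mul]
      one_mem' := one_pow 2
      inv_mem' := by
        intro a ha
        change (a⁻¹) ^ 2 = 1
        rw [inv_pow, ha, inv_one] }
  have hNcard : Nat.card {z : G // z ^ 2 = 1} = Nat.card N := rfl
  obtain ⟨n, hn⟩ := IsPGroup.iff_card.1 hG
  obtain ⟨k, hk⟩ := IsPGroup.iff_card.1 (hG.to_subgroup N)
  -- the counting
  choose! a ha using fun y : G => fun h : y ≠ 1 ∧ y ^ 2 = 1 => htrans z₀ y hz₀1 hz₀2 h.1 h.2
  let X := {x : G // x ≠ 1}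
  let Y := {y : G // y ≠ 1 ∧ y ^ 2 = 1}
  let F := {x : G // x ≠ 1 ∧ iota x = z₀}
  let e : Y × F → X := fun w => ⟨a w.1.1 w.2.1, by
    intro h
    apply w.2.2.1
    have : a w.1.1 w.2.1 = a w.1.1 1 := by rw [h, map_one]
    exact (a w.1.1).injective this⟩
  have he : Function.Bijective e := by
    constructor
    · rintro ⟨y, f⟩ ⟨y', f'⟩ h
      have h1 : a y.1 f.1 = a y'.1 f'.1 := congrArg Subtype.val h
      have h2 : iota (a y.1 f.1) = y.1 := by rw [iota_map, f.2.2, ha y.1 y.2]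
      have h3 : iota (a y'.1 f'.1) = y'.1 := by rw [iota_map, f'.2.2, ha y'.1 y'.2]
      have h4 : y.1 = y'.1 := by rw [← h2, ← h3, h1]
      have h5 : y = y' := Subtype.ext h4
      subst h5
      have h6 : f.1 = f'.1 := (a y.1).injective h1
      rw [Subtype.ext h6]
    · rintro ⟨x, hx⟩
      have hy : iota x ≠ 1 ∧ iota x ^ 2 = 1 := ⟨iota_ne_one hx hG, iota_sq hG hx⟩
      refine ⟨(⟨iota x, hy⟩, ⟨(a (iota x)).symm x, ?_, ?_⟩), ?_⟩
      · intro h
        apply hx
        have := congrArg (a (iota x)) h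
        rwa [MulEquiv.apply_symm_apply, map_one] at this
      · have h1 : iota ((a (iota x)).symm x) = (a (iota x)).symm (iota x) :=
          iota_map (a (iota x)).symm x
        rw [h1, MulEquiv.symm_apply_eq, ha _ hy]
      · apply Subtype.ext
        exact MulEquiv.apply_symm_apply _ _
  have hcard : Nat.card X = Nat.card Y * Nat.card F := by
    rw [← Nat.card_prod]
    exact (Nat.card_congr (Equiv.ofBijective e he)).symm
  have hX : Nat.card X = Nat.card G - 1 := by
    have h1 : Nat.card X = ({x : G | x ≠ 1} : Set G).ncard := rfl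
    have h2 : ({x : G | x ≠ 1} : Set G) = Set.univ \ {1} := by ext; simp
    rw [h1, h2, Set.ncard_sdiff_singleton_of_mem (Set.mem_univ _), Set.ncard_univ]
  have hY : Nat.card Y = Nat.card N - 1 := by
    have h1 : Nat.card Y = ({y : G | y ≠ 1 ∧ y ^ 2 = 1} : Set G).ncard := rfl
    have h2 : ({y : G | y ≠ 1 ∧ y ^ 2 = 1} : Set G) = (N : Set G) \ {1} := by
      ext y
      simp only [Set.mem_sdiff, Set.mem_singleton_iff]
      exact ⟨fun h => ⟨h.2, h.1⟩, fun h => ⟨h.2, h.1⟩⟩
    have h3 : Nat.card N = (N : Set G).ncard := rfl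
    rw [h1, h2, Set.ncard_sdiff_singleton_of_mem N.one_mem, h3]
  rw [hX, hY, hn, hk] at hcard
  have hdvd : 2 ^ k - 1 ∣ 2 ^ n - 1 := Dvd.intro _ hcard.symm
  have hgcd := Nat.pow_sub_one_gcd_pow_sub_one 2 k n
  rw [Nat.gcd_eq_left hdvd] at hgcd
  have hpow : 2 ^ k = 2 ^ (Nat.gcd k n) := by
    have h1 : 0 < 2 ^ k := by positivity
    have h2 : 0 < 2 ^ (Nat.gcd k n) := by positivity
    omega
  have hkn : k = Nat.gcd k n := Nat.pow_right_injective (le_refl 2) hpow
  have hkdvd : k ∣ n := by rw [hkn]; exact Nat.gcd_dvd_right k n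
  obtain ⟨m, hm⟩ := hkdvd
  refine ⟨m, ?_⟩
  rw [hNcard, hn, hk, hm, pow_mul]

end Cfsg.Agent.S3774
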