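import Cfsg.Statements.S3775
import Cfsg.Agent.Lib.Helper65Bridge2

set_option autoImplicit false
open Cfsg

namespace Cfsg.Agent.S3775

open Cfsg.Agent.Lib.Helper65Bridge Cfsg.Agent.Lib.Helper65Bridge2

theorem inv_iff {A : Type*} [CommGroup A] (X : Subgroup (MulAut A)) (B : Subgroup A) :
    (∀ x ∈ X, B.map x.toMonoidHom = B) ↔ Inv X B := by
  constructor
  · intro h x b hb
    have : (x : MulAut A) b ∈ B.map (x : MulAut A).toMonoidHom := ⟨b, hb, rfl⟩
    rw [h x x.2] at this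
    exact this
  · intro h x hx
    apply le_antisymm
    · rintro _ ⟨b, hb, rfl⟩
      exact h ⟨x, hx⟩ b hb
    · intro b hb
      refine ⟨x⁻¹ b, h ⟨x⁻¹, X.inv_mem hx⟩ b hb, ?_⟩
      show x (x⁻¹ b) = b
      simp

theorem pow_pow_of_le {A : Type*} [Monoid A] {p i j : ℕ} (hij : i ≤ j) {a : A} (h : a ^ (p ^ i) = 1) :
    a ^ (p ^ j) = 1 := by
  obtain ⟨t, rfl⟩ := Nat.exists_eq_add_of_le hij
  rw [pow_add, pow_mul, h, one_pow]


/-- Let A be a finite abelian p-group and X a group of automorphisms of A of order prime to p. Call a subgroup of A invariant when every element of X maps it onto itself. Then the following are equivalent: (i) A is not the direct product of two nontrivial invariant subgroups; (ii) every invariant subgroup of A is one of the subgroups Ω_i(A) = {a : a^(p^i) = 1}; (iii) the subgroup Ω₁(A) of elements of order dividing p has no invariant subgroups other than 1 and itself. -/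
theorem result {A : Type*} [CommGroup A] [Finite A] {p : ℕ} [Fact p.Prime] (hA : IsPGroup p A) (X : Subgroup (MulAut A)) (hX : (Nat.card X).Coprime p) : ((¬ ∃ B C : Subgroup A, B ≠ ⊥ ∧ C ≠ ⊥ ∧ (∀ x ∈ X, B.map x.toMonoidHom = B) ∧ (∀ x ∈ X, C.map x.toMonoidHom = C) ∧ B ⊓ C = ⊥ ∧ B ⊔ C = ⊤) ↔ (∀ B : Subgroup A, (∀ x ∈ X, B.map x.toMonoidHom = B) → ∃ i : ℕ, ∀ a : A, a ∈ B ↔ a ^ p ^ i = 1)) ∧ ((∀ B : Subgroup A, (∀ x ∈ X, B.map x.toMonoidHom = B) → ∃ i : ℕ, ∀ a : A, a ∈ B ↔ a ^ p ^ i = 1) ↔ (∀ B : Subgroup A, (∀ x ∈ X, B.map x.toMonoidHom = B) → (∀ b ∈ B, b ^ p = 1) → B = ⊥ ∨ ∀ a : A, a ∈ B ↔ a ^ p = 1)) := by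
  classical
  have hp : p.Prime := Fact.out
  simp only [inv_iff]
  -- (ii) → (iii)
  have h23 : (∀ B : Subgroup A, Inv X B → ∃ i : ℕ, ∀ a : A, a ∈ B ↔ a ^ p ^ i = 1) →
      (∀ B : Subgroup A, Inv X B → (∀ b ∈ B, b ^ p = 1) → B = ⊥ ∨ ∀ a : A, a ∈ B ↔ a ^ p = 1) := by
    intro h B hB hBp
    obtain ⟨i, hi⟩ := h B hB
    rcases Nat.eq_zero_or_pos i with rfl | hpos
    · left
      rw [Subgroup.eq_bot_iff_forall]
      intro x hx
      simpa using (hi x).mp hx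
    · right
      intro a
      refine ⟨hBp a, fun ha => (hi a).mpr ?_⟩
      have : a ^ (p ^ 1) = 1 := by rwa [pow_one]
      exact pow_pow_of_le hpos this
  -- (iii) → (ii)
  have h32 : (∀ B : Subgroup A, Inv X B → (∀ b ∈ B, b ^ p = 1) → B = ⊥ ∨ ∀ a : A, a ∈ B ↔ a ^ p = 1) →
      (∀ B : Subgroup A, Inv X B → ∃ i : ℕ, ∀ a : A, a ∈ B ↔ a ^ p ^ i = 1) := by
    intro h B hB
    have hex : ∃ i, ∀ b ∈ B, b ^ (p ^ i) = 1 := by
      obtain ⟨n, hn⟩ := IsPGroup.iff_card.mp hA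
      exact ⟨n, fun a _ => by rw [← hn]; exact pow_card_eq_one'⟩
    have hi := Nat.find_spec hex
    refine ⟨Nat.find hex, fun a => ⟨hi a, ?_⟩⟩
    rcases Nat.eq_zero_or_pos (Nat.find hex) with h0 | hpos
    · rw [h0]
      intro ha
      have : a = 1 := by simpa using ha
      rw [this]; exact B.one_mem
    obtain ⟨i', hi'⟩ := Nat.exists_eq_succ_of_ne_zero hpos.ne'
    have hmin : ¬ ∀ b ∈ B, b ^ (p ^ i') = 1 := Nat.find_min hex (by omega)
    push Not at hmin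
    obtain ⟨b₀, hb₀, hb₀1⟩ := hmin
    set B' : Subgroup A := B.map (powMonoidHom (p ^ i')) with hB'
    have hB'inv : Inv X B' := by
      rintro y _ ⟨b, hb, rfl⟩
      refine ⟨y • b, hB y b hb, ?_⟩
      show (y • b) ^ (p ^ i') = y • (b ^ (p ^ i'))
      rw [smul_pow']
    have hB'p : ∀ b ∈ B', b ^ p = 1 := by
      rintro _ ⟨b, hb, rfl⟩
      show (b ^ (p ^ i')) ^ p = 1
      rw [← pow_mul, ← pow_succ]
      have := hi b hb
      rwa [hi'] at this
    have hB'1 : B' ≠ ⊥ := by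
      intro hbot
      have : b₀ ^ (p ^ i') ∈ B' := ⟨b₀, hb₀, rfl⟩
      rw [hbot] at this
      exact hb₀1 this
    have hB'all : ∀ a : A, a ∈ B' ↔ a ^ p = 1 := by
      rcases h B' hB'inv hB'p with h1 | h1
      · exact absurd h1 hB'1
      · exact h1
    have key : ∀ j, j ≤ i' + 1 → ∀ a : A, a ^ (p ^ j) = 1 → a ∈ B := by
      intro j
      induction j with
      | zero =>
        intro _ a ha
        have : a = 1 := by simpa using ha
        rw [this]; exact B.one_mem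
      | succ j ih =>
        intro hj a ha
        have h1 : a ^ (p ^ j) ∈ B' := by
          rw [hB'all, ← pow_mul, ← pow_succ]; exact ha
        obtain ⟨b, hb, hba⟩ := h1
        have hba' : b ^ (p ^ i') = a ^ (p ^ j) := hba
        obtain ⟨t, ht⟩ : ∃ t, i' = t + j := ⟨i' - j, by omega⟩
        have h2 : (a * (b ^ (p ^ t))⁻¹) ^ (p ^ j) = 1 := by
          rw [mul_pow, inv_pow, ← pow_mul, ← pow_add, ← ht, hba', mul_inv_cancel]
        have h3 := ih (by omega) _ h2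
        have := B.mul_mem h3 (B.pow_mem hb (p ^ t))
        simpa using this
    intro ha
    exact key _ (by omega) a ha
  -- (ii) → (i)
  have h21 : (∀ B : Subgroup A, Inv X B → ∃ i : ℕ, ∀ a : A, a ∈ B ↔ a ^ p ^ i = 1) →
      ¬ ∃ B C : Subgroup A, B ≠ ⊥ ∧ C ≠ ⊥ ∧ Inv X B ∧ Inv X C ∧ B ⊓ C = ⊥ ∧ B ⊔ C = ⊤ := by
    rintro h ⟨B, C, hB1, hC1, hB, hC, hBC, -⟩
    obtain ⟨i, hi⟩ := h B hB
    obtain ⟨j, hj⟩ := h C hC
    rcases le_total i j with hij | hij
    · have : B ≤ C := fun a ha => (hj a).mpr (pow_pow_of_le hij ((hi a).mp ha))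
      rw [inf_eq_left.mpr this] at hBC
      exact hB1 hBC
    · have : C ≤ B := fun a ha => (hi a).mpr (pow_pow_of_le hij ((hj a).mp ha))
      rw [inf_eq_right.mpr this] at hBC
      exact hC1 hBC
  -- (i) → (iii)
  have h13 : (¬ ∃ B C : Subgroup A, B ≠ ⊥ ∧ C ≠ ⊥ ∧ Inv X B ∧ Inv X C ∧ B ⊓ C = ⊥ ∧ B ⊔ C = ⊤) →
      (∀ B : Subgroup A, Inv X B → (∀ b ∈ B, b ^ p = 1) → B = ⊥ ∨ ∀ a : A, a ∈ B ↔ a ^ p = 1) := by
    intro h B hB hBp
    by_cases hB1 : B = ⊥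
    · exact Or.inl hB1
    right
    have hind : ∀ B C : Subgroup A, Inv X B → Inv X C → B ⊓ C = ⊥ → B ⊔ C = ⊤ → B = ⊥ ∨ C = ⊥ := by
      intro B C hB hC h1 h2
      by_contra hne
      push Not at hne
      exact h ⟨B, C, hne.1, hne.2, hB, hC, h1, h2⟩
    intro a
    exact ⟨hBp a, socle_irred hA hX hind B hB hBp hB1 a⟩
  exact ⟨⟨fun h => h32 (h13 h), h21⟩, ⟨h23, h32⟩⟩

end Cfsg.Agent.S3775
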