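import Cfsg.Statements.S3778
import Mathlib

set_option autoImplicit false
open Cfsg

namespace Cfsg.Agent.S3778

open scoped commutatorElement

variable {G : Type*} [Group G]

/-- two-step centralizer of `A / B` -/
def twoStep (A B : Subgroup G) [hB : B.Normal] : Subgroup G where
  carrier := {g | ∀ y ∈ A, ⁅y, g⁆ ∈ B}
  one_mem' := by
    intro y _
    simp [commutatorElement_def, B.one_mem]
  mul_mem' := by
    intro g h hg hh y hy
    have e : ⁅y, g * h⁆ = ⁅y, g⁆ * (g * ⁅y, h⁆ * g⁻¹) := by
      simp only [commutatorElement_def]; group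
    rw [e]
    exact B.mul_mem (hg y hy) (hB.conj_mem _ (hh y hy) g)
  inv_mem' := by
    intro g hg y hy
    have e : ⁅y, g⁻¹⁆ = g⁻¹ * (⁅y, g⁆)⁻¹ * g⁻¹⁻¹ := by
      simp only [commutatorElement_def]; group
    rw [e]
    exact hB.conj_mem _ (B.inv_mem (hg y hy)) g⁻¹

theorem mem_twoStep (A B : Subgroup G) [B.Normal] (g : G) :
    g ∈ twoStep A B ↔ ∀ y ∈ A, ⁅y, g⁆ ∈ B := Iff.rfl

theorem p_le_relIndex [Finite G] {p : ℕ} [hp : Fact p.Prime] (hG : IsPGroup p G)
    {H K : Subgroup G} (hne : ¬ K ≤ H) : p ≤ H.relIndex K := by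
  have hne1 : H.relIndex K ≠ 1 := fun h => hne (Subgroup.relIndex_eq_one.1 h)
  obtain ⟨m, hm⟩ := IsPGroup.iff_card.1 hG
  have hdvd : H.relIndex K ∣ p ^ m := by
    rw [← hm]
    exact (Subgroup.relIndex_dvd_card H K).trans (Subgroup.card_subgroup_dvd_card K)
  obtain ⟨j, _, hj⟩ := (Nat.dvd_prime_pow hp.out).1 hdvd
  have hj1 : j ≠ 0 := by
    rintro rfl
    exact hne1 (by simpa using hj)
  rw [hj]
  calc p = p ^ 1 := (pow_one p).symm
    _ ≤ p ^ j := Nat.pow_le_pow_right hp.out.pos (Nat.one_le_iff_ne_zero.2 hj1)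

/-- If G is a finite p-group in which every conjugacy class has at most p^b elements (every element has centralizer of index at most p^b), then G is abelian when b = 0, and when b ≥ 1 its nilpotency class c satisfies (c − 1)(p − 1) < bp, that is c < bp/(p − 1) + 1, and hence c ≤ 2b. -/
theorem result {G : Type*} [Group G] [Finite G] {p : ℕ} [Fact p.Prime] (hG : IsPGroup p G) (b : ℕ) (hb : ∀ x : G, (Subgroup.centralizer ({x} : Set G)).index ≤ p ^ b) : ∃ c : ℕ, (⊤ : Subgroup G).lowerCentralSeries c = ⊥ ∧ (b ≠ 0 → (c - 1) * (p - 1) < b * p ∧ c ≤ 2 * b) ∧ (b = 0 → c ≤ 1) := by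
  classical
  have hp : p.Prime := Fact.out
  have hnil : Group.IsNilpotent G := hG.isNilpotent
  have hex : ∃ n, (⊤ : Subgroup G).lowerCentralSeries n = ⊥ :=
    Subgroup.nilpotent_iff_lowerCentralSeries.1 hnil
  set L : ℕ → Subgroup G := (⊤ : Subgroup G).lowerCentralSeries with hL
  set c := Nat.find hex with hc
  have hLc : L c = ⊥ := Nat.find_spec hex
  have hLmin : ∀ i < c, L i ≠ ⊥ := fun i hi => Nat.find_min hex hi
  have hLn : ∀ i, (L i).Normal := fun i => inferInstance
  have hLsucc : ∀ i, L (i + 1) = ⁅L i, ⊤⁆ := fun i => rfl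
  have hLanti : Antitone L := Subgroup.lowerCentralSeries_antitone _
  have hstrict : ∀ j < c, L (j + 1) ≠ L j := by
    intro j hj h
    have h1 : ∀ k, L (j + k) = L j := by
      intro k
      induction k with
      | zero => rfl
      | succ k ih => rw [← add_assoc, hLsucc, ih, ← hLsucc, h]
    have h2 := h1 (c - j)
    rw [Nat.add_sub_cancel' hj.le, hLc] at h2
    exact hLmin j hj h2.symm
  refine ⟨c, hLc, ?_, ?_⟩
  swap
  · intro hb0
    apply Nat.find_min' hex
    change ⁅(⊤ : Subgroup G), ⊤⁆ = ⊥
    rw [Subgroup.commutator_eq_bot_iff_le_centralizer]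
    intro x _
    rw [Subgroup.mem_centralizer_iff]
    intro y _
    have h1 := hb y
    rw [hb0, pow_zero] at h1
    have h2 : (Subgroup.centralizer ({y} : Set G)).index = 1 :=
      le_antisymm h1 (Nat.one_le_iff_ne_zero.2 Subgroup.index_ne_zero_of_finite)
    have h3 := Subgroup.index_eq_one.1 h2
    have h4 : x ∈ Subgroup.centralizer ({y} : Set G) := by rw [h3]; trivial
    exact (Subgroup.mem_centralizer_iff.1 h4) y rfl
  intro hb0
  let K : ℕ → Subgroup G := fun i => twoStep (L i) (L (i + 2))
  have hKne : ∀ i, i + 1 < c → ¬ (⊤ : Subgroup G) ≤ K i := by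
    intro i hi h
    apply hstrict (i + 1) hi
    apply le_antisymm (hLanti (Nat.le_succ _))
    rw [hLsucc i, Subgroup.commutator_le]
    intro y hy g _
    exact (mem_twoStep _ _ g).1 (h (Subgroup.mem_top g)) y hy
  have hKcard : ∀ i, i + 1 < c → p * Nat.card (K i) ≤ Nat.card G := by
    intro i hi
    have h1 := p_le_relIndex hG (hKne i hi)
    rw [Subgroup.relIndex_top_right] at h1
    rw [← Subgroup.card_mul_index (K i), mul_comm]
    exact Nat.mul_le_mul_left _ h1
  -- Claim A
  have hA : ∀ (x : G) (j : ℕ), p ^ ((Finset.range j).filter (fun i => x ∉ K i)).card ≤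
      (L j ⊔ Subgroup.centralizer ({x} : Set G)).index := by
    intro x j
    induction j with
    | zero => simp [hL]
    | succ j ih =>
      have hle : L (j + 1) ⊔ Subgroup.centralizer ({x} : Set G) ≤
          L j ⊔ Subgroup.centralizer ({x} : Set G) := sup_le_sup_right (hLanti (Nat.le_succ _)) _
      rw [← Subgroup.relIndex_mul_index hle, Finset.range_add_one, Finset.filter_insert]
      by_cases hx : x ∉ K j
      · rw [if_pos hx, Finset.card_insert_of_notMem (by simp), pow_succ, mul_comm]
        apply Nat.mul_le_mul _ ih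
        apply p_le_relIndex hG
        intro hcon
        rw [mem_twoStep] at hx
        push Not at hx
        obtain ⟨y, hy, hyx⟩ := hx
        have hy' : y ∈ L (j + 1) ⊔ Subgroup.centralizer ({x} : Set G) :=
          hcon (Subgroup.mem_sup_left hy)
        obtain ⟨u, hu, t, ht, rfl⟩ := Subgroup.mem_sup_of_normal_left.1 hy'
        apply hyx
        have htx : t * x * t⁻¹ = x := by
          have := (Subgroup.mem_centralizer_iff.1 ht) x rfl
          rw [← this]; group
        have e : ⁅u * t, x⁆ = ⁅u, x⁆ := by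
          simp only [commutatorElement_def]
          calc u * t * x * (u * t)⁻¹ * x⁻¹ = u * (t * x * t⁻¹) * u⁻¹ * x⁻¹ := by group
            _ = u * x * u⁻¹ * x⁻¹ := by rw [htx]
        rw [e, hLsucc (j + 1)]
        exact Subgroup.commutator_mem_commutator hu (Subgroup.mem_top x)
      · rw [if_neg hx]
        calc _ ≤ _ := ih
          _ ≤ _ := Nat.le_mul_of_pos_left _ (Nat.pos_of_ne_zero (by
            intro h
            have := Subgroup.relIndex_mul_index hle
            rw [h, zero_mul] at this
            exact Subgroup.index_ne_zero_of_finite this.symm))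
  have := Fintype.ofFinite G
  let f : G → ℕ := fun x => ((Finset.range (c - 1)).filter (fun i => x ∉ K i)).card
  have hfb : ∀ x, f x ≤ b := by
    intro x
    have h1 := hA x (c - 1)
    have h2 : (L (c - 1) ⊔ Subgroup.centralizer ({x} : Set G)).index ≤
        (Subgroup.centralizer ({x} : Set G)).index :=
      Nat.le_of_dvd (Nat.pos_of_ne_zero Subgroup.index_ne_zero_of_finite)
        (Subgroup.index_dvd_of_le le_sup_right)
    have h3 := h1.trans (h2.trans (hb x))
    exact (Nat.pow_le_pow_iff_right hp.one_lt).1 h3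
  have hf1 : f 1 = 0 := by
    simp only [f, Finset.card_eq_zero, Finset.filter_eq_empty_iff]
    intro i _
    simp
  have hsum1 : ∑ x : G, f x ≤ b * (Nat.card G - 1) := by
    rw [← Finset.add_sum_erase Finset.univ f (Finset.mem_univ 1), hf1, zero_add]
    calc ∑ x ∈ Finset.univ.erase (1 : G), f x ≤ ∑ x ∈ Finset.univ.erase (1 : G), b :=
          Finset.sum_le_sum (fun x _ => hfb x)
      _ = b * (Nat.card G - 1) := by
          rw [Finset.sum_const, Finset.card_erase_of_mem (Finset.mem_univ _), Finset.card_univ,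
            Nat.card_eq_fintype_card, smul_eq_mul, mul_comm]
  have hsum2 : ∑ x : G, f x = ∑ i ∈ Finset.range (c - 1), (Nat.card G - Nat.card (K i)) := by
    simp only [f, Finset.card_filter]
    rw [Finset.sum_comm]
    apply Finset.sum_congr rfl
    intro i _
    rw [← Finset.card_filter]
    have h1 : (Finset.univ.filter (fun x : G => x ∉ K i)) =
        Finset.univ \ (Finset.univ.filter (fun x : G => x ∈ K i)) := by
      ext x; simp
    rw [h1, Finset.card_sdiff_of_subset (Finset.subset_univ _), Finset.card_univ,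
      Nat.card_eq_fintype_card, Nat.card_eq_fintype_card, Fintype.card_subtype]
  have hsum3 : (c - 1) * ((p - 1) * Nat.card G) ≤
      p * ∑ i ∈ Finset.range (c - 1), (Nat.card G - Nat.card (K i)) := by
    rw [Finset.mul_sum]
    calc (c - 1) * ((p - 1) * Nat.card G)
        = ∑ i ∈ Finset.range (c - 1), (p - 1) * Nat.card G := by
          rw [Finset.sum_const, Finset.card_range, smul_eq_mul]
      _ ≤ _ := by
          apply Finset.sum_le_sum
          intro i hi
          have hi' : i + 1 < c := by
            have := Finset.mem_range.1 hi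
            omega
          have h1 := hKcard i hi'
          rw [Nat.mul_sub, Nat.sub_mul, one_mul]
          omega
  have hcardpos : 0 < Nat.card G := Nat.card_pos
  have hmain : (c - 1) * (p - 1) < b * p := by
    have h1 : (c - 1) * ((p - 1) * Nat.card G) ≤ p * (b * (Nat.card G - 1)) := by
      calc _ ≤ _ := hsum3
        _ = p * ∑ x : G, f x := by rw [hsum2]
        _ ≤ _ := Nat.mul_le_mul_left _ hsum1
    have h2 : p * (b * (Nat.card G - 1)) < p * (b * Nat.card G) := by
      apply Nat.mul_lt_mul_of_pos_left _ hp.pos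
      apply Nat.mul_lt_mul_of_pos_left _ (Nat.pos_of_ne_zero hb0)
      omega
    have h3 : ((c - 1) * (p - 1)) * Nat.card G < (b * p) * Nat.card G := by
      calc ((c - 1) * (p - 1)) * Nat.card G = (c - 1) * ((p - 1) * Nat.card G) := by ring
        _ < p * (b * Nat.card G) := lt_of_le_of_lt h1 h2
        _ = (b * p) * Nat.card G := by ring
    exact Nat.lt_of_mul_lt_mul_right h3
  refine ⟨hmain, ?_⟩
  by_contra hcon
  push Not at hcon
  obtain ⟨p', rfl⟩ : ∃ p', p = p' + 2 := ⟨p - 2, by have := hp.two_le; omega⟩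
  obtain ⟨c', hc'⟩ : ∃ c', c - 1 = 2 * b + c' := ⟨c - 1 - 2 * b, by omega⟩
  rw [hc'] at hmain
  have : p' + 2 - 1 = p' + 1 := by omega
  rw [this] at hmain
  nlinarith

end Cfsg.Agent.S3778
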