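import Cfsg.Statements.S3780
import Mathlib

set_option autoImplicit false
open Cfsg

namespace Cfsg.Agent.S3780


def kerE {A : Type*} [AddCommGroup A] (e : AddMonoid.End A) : AddSubgroup A where
  carrier := {x | e x = 0}
  add_mem' := by
    intro a b ha hb
    simp only [Set.mem_ofPred_eq] at ha hb ⊢
    rw [map_add, ha, hb, add_zero]
  zero_mem' := map_zero e
  neg_mem' := by
    intro a ha
    simp only [Set.mem_ofPred_eq] at ha ⊢
    rw [map_neg, ha, neg_zero]

theorem mem_kerE {A : Type*} [AddCommGroup A] (e : AddMonoid.End A) (x : A) :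
    x ∈ kerE e ↔ e x = 0 := Iff.rfl

theorem card_le_of_hom {A : Type*} [AddCommGroup A] [Finite A] (f : A →+ A) (X Y Z : AddSubgroup A)
    (h1 : ∀ x ∈ X, f x ∈ Y) (h2 : ∀ x ∈ X, f x = 0 → x ∈ Z) :
    Nat.card X ≤ Nat.card Z * Nat.card Y := by
  let g : X →+ A := f.comp X.subtype
  have e1 : Nat.card g.ker * Nat.card g.range = Nat.card X := by
    rw [← AddSubgroup.index_ker, AddSubgroup.card_mul_index]
  rw [← e1]
  apply Nat.mul_le_mul
  · apply Nat.card_le_card_of_injective (fun x : g.ker => (⟨x.1.1, h2 _ x.1.2 x.2⟩ : Z))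
    intro x y h
    apply Subtype.ext; apply Subtype.ext
    exact congrArg (fun z : Z => (z : A)) h
  · apply AddSubgroup.card_le_of_le
    rintro _ ⟨x, rfl⟩
    exact h1 _ x.2

theorem card_ker_le {A : Type*} [AddCommGroup A] [Finite A] {p : ℕ} (hp : p.Prime)
    (a : AddMonoid.End A) (ha : a ^ p = 1) :
    Nat.card (kerE (p : AddMonoid.End A)) ≤ Nat.card (kerE (a - 1)) ^ p := by
  set t : AddMonoid.End A := a - 1 with ht
  set P : AddMonoid.End A := (p : AddMonoid.End A) with hP
  have hcomm : ∀ s : AddMonoid.End A, P * s = s * P := fun s => (Nat.cast_commute p s).eq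
  obtain ⟨s, hs⟩ : ∃ s, t ^ p = P * s := by
    obtain ⟨r, hr⟩ := (Commute.neg_one_right a).exists_add_pow_prime_eq hp
    rw [← sub_eq_add_neg, ha] at hr
    rcases hp.eq_two_or_odd' with rfl | hodd
    · refine ⟨1 + a * (-1) * r, ?_⟩
      rw [ht, hr, hP]
      simp only [Nat.cast_ofNat]
      noncomm_ring
    · refine ⟨a * (-1) * r, ?_⟩
      rw [ht, hr, hP, hodd.neg_one_pow]
      noncomm_ring
  let L : ℕ → AddSubgroup A := fun k => kerE P ⊓ kerE (t ^ k)
  have hLp : L p = kerE P := by
    apply inf_eq_left.2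
    intro x hx
    rw [mem_kerE] at hx ⊢
    rw [hs, hcomm]
    change s (P x) = 0
    rw [hx, map_zero]
  have hstep : ∀ k, Nat.card (L (k + 1)) ≤ Nat.card (L k) * Nat.card (L 1) := by
    intro k
    apply card_le_of_hom (t ^ k : AddMonoid.End A)
    · intro x hx
      obtain ⟨hx1, hx2⟩ := AddSubgroup.mem_inf.1 hx
      rw [mem_kerE] at hx1 hx2
      apply AddSubgroup.mem_inf.2
      constructor
      · rw [mem_kerE]
        change (P * t ^ k) x = 0
        rw [hcomm]
        change (t ^ k) (P x) = 0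
        rw [hx1, map_zero]
      · rw [mem_kerE]
        change (t ^ 1 * t ^ k) x = 0
        rw [← pow_add, add_comm]
        exact hx2
    · intro x hx h0
      exact AddSubgroup.mem_inf.2 ⟨(AddSubgroup.mem_inf.1 hx).1, h0⟩
  have hpow : ∀ k, Nat.card (L k) ≤ Nat.card (L 1) ^ k := by
    intro k
    induction k with
    | zero =>
      have : L 0 = ⊥ := by
        rw [eq_bot_iff]
        intro x hx
        have := (AddSubgroup.mem_inf.1 hx).2
        rw [mem_kerE, pow_zero] at this
        exact this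
      rw [this]; simp
    | succ k ih =>
      calc Nat.card (L (k + 1)) ≤ Nat.card (L k) * Nat.card (L 1) := hstep k
        _ ≤ Nat.card (L 1) ^ k * Nat.card (L 1) := Nat.mul_le_mul_right _ ih
        _ = Nat.card (L 1) ^ (k + 1) := (pow_succ _ _).symm
  have hL1 : Nat.card (L 1) ≤ Nat.card (kerE t) := by
    apply AddSubgroup.card_le_of_le
    intro x hx
    have := (AddSubgroup.mem_inf.1 hx).2
    rwa [pow_one] at this
  calc Nat.card (kerE P) = Nat.card (L p) := by rw [hLp]
    _ ≤ Nat.card (L 1) ^ p := hpow p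
    _ ≤ _ := Nat.pow_le_pow_left hL1 p



theorem exists_gen {V : Type*} [Group V] [Finite V] {p : ℕ} [hp : Fact p.Prime] (hV : IsPGroup p V) :
    ∀ (e : ℕ) (H : Subgroup V), H.index ≤ p ^ e →
      ∃ S : Finset V, S.card ≤ e ∧ Subgroup.closure (S : Set V) ⊔ H = ⊤ := by
  classical
  intro e
  induction e with
  | zero =>
    intro H hH
    refine ⟨∅, by simp, ?_⟩
    have h1 : H.index ≠ 0 := Subgroup.index_ne_zero_of_finite
    have h2 : H.index = 1 := by simp at hH; omega
    rw [Subgroup.index_eq_one.1 h2]; simp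
  | succ e ih =>
    intro H hH
    by_cases htop : H = ⊤
    · exact ⟨∅, by simp, by rw [htop]; simp⟩
    obtain ⟨x, hx⟩ : ∃ x, x ∉ H := by
      by_contra h
      push Not at h
      exact htop (eq_top_iff.2 fun y _ => h y)
    set H' := H ⊔ Subgroup.zpowers x with hH'
    have hle : H ≤ H' := le_sup_left
    have hmul := Subgroup.relIndex_mul_index hle
    have hne1 : H.relIndex H' ≠ 1 := by
      intro h
      have := Subgroup.relIndex_eq_one.1 h
      exact hx (this (le_sup_right (a := H) (Subgroup.mem_zpowers x)))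
    obtain ⟨m, hm⟩ := IsPGroup.iff_card.1 hV
    have hdvd : H.relIndex H' ∣ p ^ m := by
      rw [← hm]
      exact (Subgroup.relIndex_dvd_card H H').trans (Subgroup.card_subgroup_dvd_card H')
    obtain ⟨j, _, hj⟩ := (Nat.dvd_prime_pow hp.out).1 hdvd
    have hj1 : j ≠ 0 := by
      rintro rfl
      exact hne1 (by simpa using hj)
    have hple : p ≤ H.relIndex H' := by
      rw [hj]
      calc p = p ^ 1 := (pow_one p).symm
        _ ≤ p ^ j := Nat.pow_le_pow_right hp.out.pos (Nat.one_le_iff_ne_zero.2 hj1)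
    have hidx : H'.index ≤ p ^ e := by
      have h1 : p * H'.index ≤ p * p ^ e := by
        calc p * H'.index ≤ H.relIndex H' * H'.index := Nat.mul_le_mul_right _ hple
          _ = H.index := hmul
          _ ≤ p ^ (e + 1) := hH
          _ = p * p ^ e := by ring
      exact Nat.le_of_mul_le_mul_left h1 hp.out.pos
    obtain ⟨S', hS'c, hS'⟩ := ih H' hidx
    refine ⟨insert x S', (Finset.card_insert_le _ _).trans (by omega), ?_⟩
    rw [Finset.coe_insert, Set.insert_eq, Subgroup.closure_union, ← Subgroup.zpowers_eq_closure, ← hS', hH']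
    ac_rfl

theorem eq_top_of_sup_pow {V : Type*} [CommGroup V] [Finite V] {p : ℕ} [hp : Fact p.Prime]
    (hV : IsPGroup p V) (H : Subgroup V) (h : H ⊔ (powMonoidHom p : V →* V).range = ⊤) : H = ⊤ := by
  have h1 : ∀ v : V, ∃ x ∈ H, ∃ u : V, v = x * u ^ p := by
    intro v
    have hv : v ∈ H ⊔ (powMonoidHom p : V →* V).range := by rw [h]; trivial
    obtain ⟨x, hx, y, ⟨u, rfl⟩, rfl⟩ := Subgroup.mem_sup.1 hv
    exact ⟨x, hx, u, rfl⟩
  have h2 : ∀ (k : ℕ) (v : V), ∃ x ∈ H, ∃ u : V, v = x * u ^ (p ^ k) := by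
    intro k
    induction k with
    | zero => intro v; exact ⟨1, H.one_mem, v, by simp⟩
    | succ k ih =>
      intro v
      obtain ⟨x, hx, w, rfl⟩ := ih v
      obtain ⟨y, hy, u, rfl⟩ := h1 w
      refine ⟨x * y ^ (p ^ k), H.mul_mem hx (H.pow_mem hy _), u, ?_⟩
      rw [mul_pow, ← pow_mul, mul_assoc, pow_succ, mul_comm p]
  obtain ⟨m, hm⟩ := IsPGroup.iff_card.1 hV
  rw [eq_top_iff]
  intro v _
  obtain ⟨x, hx, u, rfl⟩ := h2 m v
  rw [← hm, pow_card_eq_one', mul_one]
  exact hx


/-- Let V be a finite abelian p-group and α an automorphism of V of order p whose fixed-point subgroup has order p^n. Then V can be generated by pn elements: some subset of V with at most pn elements generates V. -/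
theorem result {V : Type*} [CommGroup V] [Finite V] {p : ℕ} [Fact p.Prime] (hV : IsPGroup p V) (α : MulAut V) (hα : orderOf α = p) (n : ℕ) (hfix : Nat.card {v : V // α v = v} = p ^ n) : ∃ S : Finset V, S.card ≤ p * n ∧ Subgroup.closure (S : Set V) = ⊤ := by
  have hp : p.Prime := Fact.out
  let a : AddMonoid.End (Additive V) := MonoidHom.toAdditive α.toMonoidHom
  have hak : ∀ k : ℕ, a ^ k = MonoidHom.toAdditive (α ^ k).toMonoidHom := by
    intro k
    induction k with
    | zero => rfl
    | succ k ih =>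
      rw [pow_succ, ih, pow_succ]
      rfl
  have ha : a ^ p = 1 := by
    rw [hak, ← hα, pow_orderOf_eq_one]
    rfl
  have h1 := card_ker_le hp a ha
  have e1 : Nat.card (kerE (a - 1)) = p ^ n := by
    rw [← hfix]
    apply Nat.card_congr
    refine Equiv.subtypeEquiv Additive.toMul ?_
    intro x
    rw [mem_kerE]
    change a x - x = 0 ↔ _
    rw [sub_eq_zero]
    exact Iff.rfl
  have e2 : Nat.card (kerE (p : AddMonoid.End (Additive V))) = Nat.card (powMonoidHom p : V →* V).ker := by
    apply Nat.card_congr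
    refine Equiv.subtypeEquiv Additive.toMul ?_
    intro x
    rw [mem_kerE, MonoidHom.mem_ker]
    exact Iff.rfl
  have h2 : (powMonoidHom p : V →* V).range.index ≤ p ^ (p * n) := by
    rw [Subgroup.index_range, ← e2]
    calc _ ≤ _ := h1
      _ = p ^ (p * n) := by rw [e1, ← pow_mul, mul_comm]
  obtain ⟨S, hS, hSt⟩ := exists_gen hV _ _ h2
  exact ⟨S, hS, eq_top_of_sup_pow hV _ hSt⟩

end Cfsg.Agent.S3780
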