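import Cfsg.Statements.S3781
import Cfsg.Agent.Lib.Helper66Comm

set_option autoImplicit false
open Cfsg

namespace Cfsg.Agent.S3781

open Cfsg.Agent.Lib.Helper66Comm

theorem p_le_relIndex {G : Type*} [Group G] [Finite G] {p : ℕ} [hp : Fact p.Prime] (hG : IsPGroup p G)
    {H K : Subgroup G} (hne : ¬ K ≤ H) : p ≤ H.relIndex K := by
  have hne1 : H.relIndex K ≠ 1 := fun h => hne (Subgroup.relIndex_eq_one.1 h)
  obtain ⟨m, hm⟩ := IsPGroup.iff_card.1 hG
  have hdvd : H.relIndex K ∣ p ^ m := by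
    rw [← hm]
    exact (Subgroup.relIndex_dvd_card H K).trans (Subgroup.card_subgroup_dvd_card K)
  obtain ⟨j, _, hj⟩ := (Nat.dvd_prime_pow hp.out).1 hdvd
  have hj1 : j ≠ 0 := by
    rintro rfl
    exact hne1 (by simpa using hj)
  rw [hj]
  calc p = p ^ 1 := (pow_one p).symm
    _ ≤ p ^ j := Nat.pow_le_pow_right hp.out.pos (Nat.one_le_iff_ne_zero.2 hj1)

/-- the chain `Z 0 = Y`, `Z (j+1) = [Z j, G] M` -/
def chainZ {G : Type*} [Group G] (Y M : Subgroup G) : ℕ → Subgroup G
  | 0 => Y
  | j + 1 => ⁅chainZ Y M j, (⊤ : Subgroup G)⁆ ⊔ M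

/-- Let G be a finite p-group and n ≥ 1, and write γ_1(G) = G, γ_{k+1}(G) = [γ_k(G), G], and likewise γ_k(N) for a subgroup N. Let N be a normal subgroup of G contained in γ_n(G). If i > 1 and γ_{i+1}(N) ≠ 1, then |γ_i(N) : γ_{i+1}(N)| ≥ p^n. -/
theorem result {G : Type*} [Group G] [Finite G] {p : ℕ} [Fact p.Prime] (hG : IsPGroup p G) (n : ℕ) (hn : 1 ≤ n) (N : Subgroup G) [N.Normal] (hN : N ≤ (⊤ : Subgroup G).lowerCentralSeries (n - 1)) (i : ℕ) (hi : 1 < i) (hne : N.lowerCentralSeries i ≠ ⊥) : p ^ n ≤ (N.lowerCentralSeries i).relIndex (N.lowerCentralSeries (i - 1)) := by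
  have hnil : Group.IsNilpotent G := hG.isNilpotent
  obtain ⟨i', rfl⟩ : ∃ i', i = i' + 1 := ⟨i - 1, by omega⟩
  rw [Nat.add_sub_cancel]
  set Y := N.lowerCentralSeries i' with hY
  set M := N.lowerCentralSeries (i' + 1) with hM
  have hMY : M = ⁅Y, N⁆ := rfl
  have hYn : Y.Normal := inferInstance
  have hMn : M.Normal := inferInstance
  have hMleY : M ≤ Y := Subgroup.lowerCentralSeries_antitone N (Nat.le_succ _)
  set Z := chainZ Y M with hZ
  have hZ0 : Z 0 = Y := rfl
  have hZs : ∀ j, Z (j + 1) = ⁅Z j, (⊤ : Subgroup G)⁆ ⊔ M := fun j => rfl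
  have hZn : ∀ j, (Z j).Normal := by
    intro j
    induction j with
    | zero => exact hYn
    | succ j ih => rw [hZs]; infer_instance
  have hMZ : ∀ j, M ≤ Z j := by
    intro j
    cases j with
    | zero => exact hMleY
    | succ j => rw [hZs]; exact le_sup_right
  have hZanti : ∀ j, Z (j + 1) ≤ Z j := by
    intro j
    have := hZn j
    rw [hZs]
    exact sup_le (Subgroup.commutator_le_left _ _) (hMZ j)
  have hstrict : ∀ j, Z j ≠ M → ¬ Z j ≤ Z (j + 1) := by
    intro j hj hle
    apply hj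
    apply le_antisymm _ (hMZ j)
    apply le_of_le_commutator_sup
    rw [← hZs]; exact hle
  have hkey : ∀ j, Z j ≠ M → p ^ j * M.relIndex (Z j) ≤ M.relIndex Y := by
    intro j
    induction j with
    | zero => intro _; simp [hZ0]
    | succ j ih =>
      intro hj
      have hj' : Z j ≠ M := by
        intro h
        apply hj
        rw [hZs, h]
        exact sup_eq_right.2 (Subgroup.commutator_le_left _ _)
      have h1 := ih hj'
      have h2 := Subgroup.relIndex_mul_relIndex M (Z (j + 1)) (Z j) (hMZ _) (hZanti j)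
      have h3 := p_le_relIndex hG (hstrict j hj')
      calc p ^ (j + 1) * M.relIndex (Z (j + 1))
          = p ^ j * (M.relIndex (Z (j + 1)) * p) := by ring
        _ ≤ p ^ j * (M.relIndex (Z (j + 1)) * (Z (j + 1)).relIndex (Z j)) :=
          Nat.mul_le_mul_left _ (Nat.mul_le_mul_left _ h3)
        _ = p ^ j * M.relIndex (Z j) := by rw [h2]
        _ ≤ _ := h1
  have hfin : Z (n - 1) ≠ M := by
    intro hEq
    let W : ℕ → Subgroup G := fun j => if j < n then Z j else ⁅M, (⊤ : Subgroup G)⁆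
    have hWn : ∀ j, (W j).Normal := by
      intro j
      by_cases h : j < n
      · simp only [W, if_pos h]; exact hZn j
      · simp only [W, if_neg h]; infer_instance
    have hW : ∀ j, ⁅W j, (⊤ : Subgroup G)⁆ ≤ W (j + 1) := by
      intro j
      by_cases h : j + 1 < n
      · have h' : j < n := by omega
        simp only [W, if_pos h, if_pos h']
        rw [hZs]; exact le_sup_left
      · by_cases h' : j < n
        · have hj : j = n - 1 := by omega
          simp only [W, if_neg h, if_pos h']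
          rw [hj, hEq]
        · simp only [W, if_neg h, if_neg h']
          exact Subgroup.commutator_le_left _ _
    have h1 := chain_commutator_le W hWn hW (n - 1) 0
    have h2 : W 0 = Y := by simp only [W, if_pos (show 0 < n by omega)]; rfl
    have h3 : W (0 + (n - 1) + 1) = ⁅M, (⊤ : Subgroup G)⁆ := by
      simp only [W, if_neg (show ¬ (0 + (n - 1) + 1 < n) by omega)]
    rw [h2, h3] at h1
    have h4 : M ≤ ⁅M, (⊤ : Subgroup G)⁆ ⊔ ⊥ := by
      rw [sup_bot_eq]
      calc M = ⁅Y, N⁆ := hMY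
        _ ≤ ⁅Y, (⊤ : Subgroup G).lowerCentralSeries (n - 1)⁆ := Subgroup.commutator_mono le_rfl hN
        _ ≤ _ := h1
    have h5 := le_of_le_commutator_sup M ⊥ h4
    exact hne (eq_bot_iff.2 h5)
  have h1 := hkey (n - 1) hfin
  have h2 : p ≤ M.relIndex (Z (n - 1)) := by
    apply p_le_relIndex hG
    intro h
    exact hfin (le_antisymm h (hMZ _))
  calc p ^ n = p ^ (n - 1) * p := by
        rw [← pow_succ]; congr 1; omega
    _ ≤ p ^ (n - 1) * M.relIndex (Z (n - 1)) := Nat.mul_le_mul_left _ h2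
    _ ≤ _ := h1

end Cfsg.Agent.S3781
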