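import Mathlib
import Cfsg.Statements.S3783
import Cfsg.Agent.S0635
import Cfsg.Agent.Lib.Helper36Frob
import Cfsg.Agent.Lib.Helper55HH
import Cfsg.Agent.Lib.Helper56Iso2
import Cfsg.Agent.Lib.Helper2Coprime
import Cfsg.Agent.Lib.Helper30Coprime
import Cfsg.Agent.Lib.Helper1SylowInv
import Cfsg.Agent.Lib.Helper30SZ
import Cfsg.Agent.Lib.Helper1Fitting

set_option autoImplicit false
open Cfsg

namespace Cfsg.Agent.S3783
open Subgroup
open scoped commutatorElement

/-- ordered product of the translates of `v` under the powers of `x` -/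
def pr {G V : Type*} [Group G] [Group V] (ρ : G →* MulAut V) (x : G) (v : V) : ℕ → V
  | 0 => 1
  | k + 1 => pr ρ x v k * ρ (x ^ k) v

open Cfsg.Agent.Lib.Helper36Frob in
theorem exists_norm_ne {G V : Type*} [Group G] [Finite G] [Group V] [Finite V]
    (hcomm : ∀ a b : V, a * b = b * a) (ρ : G →* MulAut V) {A : Subgroup G} (x : G)
    (hxA : ∀ r ∈ zpowers x, ∀ a ∈ A, r * a * r⁻¹ ∈ A)
    (hfpf : ∀ r ∈ zpowers x, r ≠ 1 → ∀ a ∈ A, r * a = a * r → a = 1)
    (hcop : (Nat.card A).Coprime (Nat.card V))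
    (hnt : ∃ a ∈ A, ∃ v : V, ρ a v ≠ v) :
    ∃ v : V, pr ρ x v (orderOf x) ≠ 1 := by
  classical
  let _ : CommGroup V := { (inferInstance : Group V) with mul_comm := hcomm }
  let _ : DistribMulAction G (Additive V) :=
    { smul := fun g a => Additive.ofMul (ρ g a.toMul)
      one_smul := fun a => by
        change Additive.ofMul (ρ 1 a.toMul) = a
        simp
      mul_smul := fun g h a => by
        change Additive.ofMul (ρ (g * h) a.toMul) = Additive.ofMul (ρ g (ρ h a.toMul))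
        simp
      smul_zero := fun g => by
        change Additive.ofMul (ρ g 1) = 0
        simp
      smul_add := fun g a b => by
        change Additive.ofMul (ρ g (a.toMul * b.toMul)) =
          Additive.ofMul (ρ g a.toMul) + Additive.ofMul (ρ g b.toMul)
        simp }
  obtain ⟨a, ha, w, hw⟩ := hnt
  set w' : Additive V := Additive.ofMul w with hw'
  set v0 : Additive V := a • w' - w' with hv0
  have hv0ne : v0 ≠ 0 := by
    intro h
    apply hw
    have : a • w' = w' := sub_eq_zero.mp h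
    exact congrArg Additive.toMul this
  have hv : ∀ r ∈ zpowers x, r ≠ 1 → nrm A (r • v0) = 0 := by
    intro r hr _
    have e1 : r • v0 = (r * a * r⁻¹) • (r • w') - r • w' := by
      rw [hv0, smul_sub, ← mul_smul, ← mul_smul]
      congr 2
      group
    rw [e1, map_sub, nrm_smul (hxA r hr a ha), sub_self]
  have key := norm_identity (V := Additive V) (A := A) (R := zpowers x) hxA hfpf hv
  have hne : Nat.card A • v0 ≠ 0 := fun h => hv0ne (eq_zero_of_nsmul (V := Additive V) hcop h)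
  rw [← key] at hne
  obtain ⟨y, _, hy⟩ := Finset.exists_ne_zero_of_sum_ne_zero hne
  have hy' : nrm (zpowers x) ((y : G)⁻¹ • v0) ≠ 0 := by
    intro h
    apply hy
    rw [h, smul_zero]
  set u : Additive V := (y : G)⁻¹ • v0 with hu
  refine ⟨u.toMul, ?_⟩
  have hpr : ∀ k : ℕ, Additive.ofMul (pr ρ x u.toMul k) = ∑ i ∈ Finset.range k, (x ^ i) • u := by
    intro k
    induction k with
    | zero => simp [pr]
    | succ k ih =>
      rw [Finset.sum_range_succ, ← ih]
      rfl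
  intro h
  apply hy'
  rw [nrm_apply]
  have e2 := hpr (orderOf x)
  rw [h, ← Fin.sum_univ_eq_sum_range (fun i => (x ^ i) • u)] at e2
  letI : Fintype (zpowers x) := Fintype.ofFinite _
  have e3 := Fintype.sum_equiv (finEquivZPowers (isOfFinOrder_of_finite x))
    (fun i : Fin (orderOf x) => (x ^ (i : ℕ)) • u) (fun h : zpowers x => (h : G) • u)
    (fun i => by rw [finEquivZPowers_apply])
  rw [← e2] at e3
  exact e3.symm

/-- the set generating the "Frattini-like" subgroup -/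
def fset {G : Type*} [Group G] (l : ℕ) (L : Subgroup G) : Set G :=
  {z | (∃ x ∈ L, z = x ^ l) ∨ (∃ x ∈ L, ∃ y ∈ L, z = x * y * x⁻¹ * y⁻¹)}

theorem exists_phi {G : Type*} [Group G] [Finite G] (l : ℕ) [Fact l.Prime] (L : Subgroup G) [hLn : L.Normal]
    (hL : IsPGroup l L) (hne : L ≠ ⊥) :
    ∃ N : Subgroup G, N.Normal ∧ N ≤ L ∧ Nat.card N < Nat.card L ∧ (∀ x ∈ L, x ^ l ∈ N) ∧
      ∀ x ∈ L, ∀ y ∈ L, x * y * x⁻¹ * y⁻¹ ∈ N := by
  haveI : Nontrivial L := (Subgroup.nontrivial_iff_ne_bot L).mpr hne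
  obtain ⟨M, hM, hMp, hMc⟩ := Cfsg.Agent.Lib.Helper30Coprime.exists_proper_of_pGroup l hL this
  have hconj : Group.conjugatesOfSet (fset l L) ⊆ fset l L := by
    intro z hz
    rw [Group.mem_conjugatesOfSet_iff] at hz
    obtain ⟨a, ha, hc⟩ := hz
    obtain ⟨g, hg⟩ := isConj_iff.mp hc
    rcases ha with ⟨x, hx, rfl⟩ | ⟨x, hx, y, hy, rfl⟩
    · left
      refine ⟨g * x * g⁻¹, hLn.conj_mem x hx g, ?_⟩
      rw [← hg, conj_pow]
    · right
      refine ⟨g * x * g⁻¹, hLn.conj_mem x hx g, g * y * g⁻¹, hLn.conj_mem y hy g, ?_⟩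
      rw [← hg]; group
  have hsub : fset l L ⊆ (M.map L.subtype : Subgroup G) := by
    intro z hz
    rcases hz with ⟨x, hx, rfl⟩ | ⟨x, hx, y, hy, rfl⟩
    · exact ⟨⟨x, hx⟩ ^ l, hMp _, rfl⟩
    · exact ⟨_, hMc ⟨x, hx⟩ ⟨y, hy⟩, rfl⟩
  have hle : normalClosure (fset l L) ≤ M.map L.subtype := by
    rw [normalClosure, closure_le]
    exact hconj.trans hsub
  have hlt : M.map L.subtype < L := by
    refine lt_of_le_of_ne (map_subtype_le _) ?_
    intro h
    apply hM
    rw [eq_top_iff]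
    intro x _
    have : (x : G) ∈ M.map L.subtype := by rw [h]; exact x.2
    obtain ⟨y, hy, hyx⟩ := this
    have : y = x := Subtype.ext hyx
    rwa [← this]
  refine ⟨normalClosure (fset l L), inferInstance, hle.trans hlt.le, ?_, ?_, ?_⟩
  · exact lt_of_le_of_lt (Subgroup.card_le_of_le hle) (Cfsg.Agent.Lib.Helper30Coprime.card_lt_of_lt hlt)
  · intro x hx
    exact subset_normalClosure (Or.inl ⟨x, hx, rfl⟩)
  · intro x hx y hy
    exact subset_normalClosure (Or.inr ⟨x, hx, y, hy, rfl⟩)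



theorem exists_big {G : Type*} [Group G] [Finite G] {p : ℕ} [hp : Fact p.Prime] (A : Subgroup G) (x : G)
    (hxA : ∀ r ∈ zpowers x, ∀ a ∈ A, r * a * r⁻¹ ∈ A)
    (hfpf : ∀ r ∈ zpowers x, r ≠ 1 → ∀ a ∈ A, r * a = a * r → a = 1)
    (hAp : (Nat.card A).Coprime p) :
    ∀ n : ℕ, ∀ L : Subgroup G, L.Normal → Nat.card L ≤ n → IsPGroup p L →
      ¬ A ≤ centralizer (L : Set G) → ∃ v ∈ L, (v * x) ^ orderOf x ≠ 1 := by
  intro n
  induction n with
  | zero =>
    intro L _ hc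
    exact absurd hc (by have := Nat.card_pos (α := L); omega)
  | succ n ih =>
    intro L hLn hc hL hAL
    have hne : L ≠ ⊥ := by
      rintro rfl
      apply hAL
      intro d _
      rw [mem_centralizer_iff]
      intro y hy
      have : y = 1 := hy
      rw [this, one_mul, mul_one]
    obtain ⟨N, hNn, hNL, hNc, hNp, hNcomm⟩ := exists_phi p L hL hne
    by_cases hAN : A ≤ centralizer (N : Set G)
    swap
    · obtain ⟨v, hv, h⟩ := ih N hNn (by omega) (hL.to_le hNL) hAN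
      exact ⟨v, hNL hv, h⟩
    set π := QuotientGroup.mk' N with hπ
    haveI hVn : (L.map π).Normal := hLn.map π (QuotientGroup.mk'_surjective N)
    set ρ : G →* MulAut ↥(L.map π) := (MulAut.conjNormal (H := L.map π)).comp π with hρ
    have hρa : ∀ (g : G) (v : ↥(L.map π)), ((ρ g v : ↥(L.map π)) : G ⧸ N) = π g * v * (π g)⁻¹ := by
      intro g v
      rfl
    have hcardA : ∀ k : ℕ, (Nat.card A).Coprime (p ^ k) := fun k => Nat.Coprime.pow_right k hAp
    obtain ⟨kL, hkL⟩ := hL.exists_card_eq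
    obtain ⟨v, hv⟩ := exists_norm_ne (V := ↥(L.map π))
      (by
        rintro ⟨_, a, ha, rfl⟩ ⟨_, b, hb, rfl⟩
        apply Subtype.ext
        show π a * π b = π b * π a
        rw [← map_mul, ← map_mul]
        apply (QuotientGroup.eq).mpr
        have := hNcomm b⁻¹ (L.inv_mem hb) a⁻¹ (L.inv_mem ha)
        convert this using 1
        group) ρ (A := A) x hxA hfpf
      (Nat.Coprime.coprime_dvd_right (Subgroup.card_map_dvd L π) (hkL ▸ hcardA kL))
      (by
        by_contra hcon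
        push Not at hcon
        apply hAL
        rw [Cfsg.Agent.Lib.Helper30Coprime.le_centralizer_iff_conj]
        apply Cfsg.Agent.Lib.Helper30Coprime.centralizes_of_chain (N := N)
        · obtain ⟨kN, hkN⟩ := (hL.to_le hNL).exists_card_eq
          rw [hkN]; exact hcardA kN
        · exact Cfsg.Agent.Lib.Helper30Coprime.le_centralizer_iff_conj.mp hAN
        · intro a ha l hl
          have h1 := hcon a ha ⟨π l, l, hl, rfl⟩
          have h2 : π a * π l * (π a)⁻¹ = π l := by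
            have := congrArg Subtype.val h1
            rwa [hρa] at this
          apply (QuotientGroup.eq).mp
          show π l = π (a * l * a⁻¹)
          rw [map_mul, map_mul, map_inv, h2])
    obtain ⟨_, l, hl, rfl⟩ := v
    refine ⟨l, hl, ?_⟩
    have hpow : ∀ k : ℕ, π ((l * x) ^ k) =
        ((pr ρ x ⟨π l, l, hl, rfl⟩ k : ↥(L.map π)) : G ⧸ N) * π x ^ k := by
      intro k
      induction k with
      | zero => simp [pr]
      | succ k ihk =>
        rw [pow_succ, map_mul, ihk]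
        show _ = ((pr ρ x ⟨π l, l, hl, rfl⟩ k * ρ (x ^ k) ⟨π l, l, hl, rfl⟩ : ↥(L.map π)) : G ⧸ N) * _
        rw [Subgroup.coe_mul, hρa, map_pow, map_mul, pow_succ]
        group
    intro h
    apply hv
    have h1 := hpow (orderOf x)
    rw [h, map_one, ← map_pow, pow_orderOf_eq_one, map_one, mul_one] at h1
    exact Subtype.ext h1.symm


open Cfsg.Agent.Lib.Helper14CoreB Cfsg.Agent.Lib.Helper1Basic in
/-- finding an invariant `q`-subgroup of `G / O_p(G)` on which the element of order `p` acts non trivially -/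
theorem exists_q {G : Type*} [Group G] [Finite G] {p : ℕ} [hp : Fact p.Prime] (hG : IsPSolvable p G)
    (h0 : pCore p G = ⊥) (x y : G) (k : ℕ) (hxk : x ^ p ^ k = 1) (hy : y ∈ zpowers x) (hy1 : y ≠ 1) :
    ∃ (q : ℕ) (_ : Fact q.Prime) (Q : Subgroup G), q ≠ p ∧ IsPGroup q Q ∧
      (∀ a ∈ Q, x * a * x⁻¹ ∈ Q) ∧ ∃ a ∈ Q, y * a ≠ a * y := by
  by_contra hcon
  push Not at hcon
  set N := pPrimeCore p G with hN
  have hCN : centralizer (N : Set G) ≤ N := Cfsg.Agent.Lib.Helper55HH.centralizer_pPrimeCore_le hG h0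
  have hNp : (Nat.card N).Coprime p := card_pPrimeCore_coprime p
  have hyk : y ^ p ^ k = 1 := by
    obtain ⟨j, rfl⟩ := mem_zpowers_iff.mp hy
    rw [← zpow_natCast, ← zpow_mul, mul_comm, zpow_mul, zpow_natCast, hxk, one_zpow]
  have hyN : y ∉ N := by
    intro h
    apply hy1
    exact Cfsg.Agent.Lib.Helper14HH.eq_one_of_pow_coprime
      (Cfsg.Agent.Lib.Helper14HH.pow_card_of_mem h) hyk (Nat.Coprime.pow_right k hNp)
  apply hyN
  apply hCN
  rw [mem_centralizer_iff]
  set X := zpowers x with hX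
  have hXc : (Nat.card X).Coprime (Nat.card N) := by
    rw [hX, Nat.card_zpowers]
    exact Nat.Coprime.coprime_dvd_left (orderOf_dvd_of_pow_eq_one hxk) (Nat.Coprime.pow_left k hNp.symm)
  set C : Subgroup G := N ⊓ centralizer ({y} : Set G) with hC
  have hidx : C.relIndex N = 1 := by
    rw [Nat.eq_one_iff_not_exists_prime_dvd]
    intro q hq hqd
    haveI : Fact q.Prime := ⟨hq⟩
    obtain ⟨Q, hQ⟩ := Cfsg.Agent.Lib.Helper1SylowInv.exists_invariant_sylow X N
      (by rw [normalizer_eq_top]; exact le_top) hXc (Or.inl inferInstance) q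
    set Q' := (Q : Subgroup N).map N.subtype with hQ'
    have hQ'q : IsPGroup q Q' := Q.2.map _
    have hQC : Q' ≤ C := by
      refine le_inf (map_subtype_le _) ?_
      intro a ha
      rw [mem_centralizer_singleton_iff]
      by_cases hqp : q = p
      · -- then Q' is trivial
        have h1 : a ^ Nat.card N = 1 :=
          Cfsg.Agent.Lib.Helper14HH.pow_card_of_mem (map_subtype_le _ ha)
        obtain ⟨j, hj⟩ := (hQ'q ⟨a, ha⟩)
        have h2 : a ^ q ^ j = 1 := congrArg Subtype.val hj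
        rw [hqp] at h2
        have : a = 1 := Cfsg.Agent.Lib.Helper14HH.eq_one_of_pow_coprime h1 h2
          (Nat.Coprime.pow_right j hNp)
        rw [this, one_mul, mul_one]
      · exact (hcon q ⟨hq⟩ Q' hqp hQ'q
          (fun a ha => conj_mem_of_le_normalizer hQ (mem_zpowers x) ha) a ha).symm
    have h3 : Q'.relIndex N = (Q : Subgroup N).index := by
      rw [Subgroup.relIndex, hQ']
      congr 1
      ext z
      rw [mem_subgroupOf]
      constructor
      · rintro ⟨w, hw, hwz⟩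
        have : w = z := Subtype.ext hwz
        rwa [← this]
      · intro hz
        exact ⟨z, hz, rfl⟩
    exact Q.not_dvd_index (h3 ▸ hqd.trans (Subgroup.relIndex_dvd_of_le_left N hQC))
  have hNC : N ≤ C := Subgroup.relIndex_eq_one.mp hidx
  intro a ha
  have : a ∈ centralizer ({y} : Set G) := (hNC ha).2
  rw [mem_centralizer_singleton_iff] at this
  exact this

theorem lift_pgroup {G : Type*} [Group G] [Finite G] (N : Subgroup G) [N.Normal] {q : ℕ}
    [Fact q.Prime] (Qb : Subgroup (G ⧸ N)) (hQb : IsPGroup q Qb) :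
    ∃ Q : Subgroup G, IsPGroup q Q ∧ Q.map (QuotientGroup.mk' N) = Qb := by
  set M1 := Qb.comap (QuotientGroup.mk' N) with hM1
  let f : M1 →* Qb := (QuotientGroup.mk' N).subgroupComap Qb
  have hf : Function.Surjective f :=
    (QuotientGroup.mk' N).subgroupComap_surjective_of_surjective Qb (QuotientGroup.mk'_surjective N)
  obtain ⟨Q1⟩ : Nonempty (Sylow q M1) := inferInstance
  have htop : ((Q1.mapSurjective hf : Sylow q Qb) : Subgroup Qb) = ⊤ :=
    ((Q1.mapSurjective hf).3 (hQb.to_subgroup ⊤) le_top).symm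
  refine ⟨(Q1 : Subgroup M1).map M1.subtype, Q1.2.map _, ?_⟩
  ext b
  constructor
  · rintro ⟨_, ⟨m, _, rfl⟩, rfl⟩
    exact m.2
  · intro hb
    have h1 : (⟨b, hb⟩ : Qb) ∈ ((Q1.mapSurjective hf : Sylow q Qb) : Subgroup Qb) :=
      htop ▸ mem_top _
    obtain ⟨m, hm, hmb⟩ := h1
    exact ⟨m.1, ⟨m, hm, rfl⟩, congrArg Subtype.val hmb⟩

theorem conj_pow_mem {G : Type*} [Group G] {Q : Subgroup G} {x : G}
    (h : ∀ a ∈ Q, x * a * x⁻¹ ∈ Q) (k : ℕ) : ∀ a ∈ Q, x ^ k * a * (x ^ k)⁻¹ ∈ Q := by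
  induction k with
  | zero => intro a ha; simpa using ha
  | succ k ih =>
    intro a ha
    have := h _ (ih a ha)
    have e : x ^ (k + 1) * a * (x ^ (k + 1))⁻¹ = x * (x ^ k * a * (x ^ k)⁻¹) * x⁻¹ := by
      rw [pow_succ']; group
    rw [e]; exact this

theorem conj_zpowers_mem {G : Type*} [Group G] [Finite G] {Q : Subgroup G} {x : G}
    (h : ∀ a ∈ Q, x * a * x⁻¹ ∈ Q) : ∀ r ∈ zpowers x, ∀ a ∈ Q, r * a * r⁻¹ ∈ Q := by
  intro r hr a ha
  obtain ⟨k, hk⟩ := (mem_powers_iff_mem_zpowers).mpr hr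
  have hk' : x ^ k = r := hk
  rw [← hk']
  exact conj_pow_mem h k a ha

/-- the local lemma -/
theorem loc {G : Type*} [Group G] [Finite G] {p : ℕ} [hp : Fact p.Prime] (R : Subgroup G) [R.Normal]
    (hR : IsPGroup p R) (hCR : centralizer (R : Set G) ≤ R) (Q : Subgroup G)
    (hQc : ∀ a ∈ Q, ∀ b ∈ Q, a * b = b * a) (hQp : (Nat.card Q).Coprime p) (x : G)
    (hxQ : ∀ a ∈ Q, x * a * x⁻¹ ∈ Q) (n : ℕ) (hx : x ^ p ^ (n + 1) = 1)
    (hy : ∃ a ∈ Q, x ^ p ^ n * a ≠ a * x ^ p ^ n) :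
    ∃ v ∈ R, (v * x) ^ p ^ (n + 1) ≠ 1 := by
  set y := x ^ p ^ n with hydef
  have hy1 : y ≠ 1 := by
    intro h
    obtain ⟨a, _, ha⟩ := hy
    rw [h] at ha
    simp at ha
  have hox : orderOf x = p ^ (n + 1) := orderOf_eq_prime_pow hy1 hx
  have hyp : y ^ p = 1 := by rw [hydef, ← pow_mul, ← pow_succ, hx]
  have hoy : orderOf y = p := orderOf_eq_prime hyp hy1
  have hzQ := conj_zpowers_mem hxQ
  have hyx : y ∈ zpowers x := hydef ▸ pow_mem (mem_zpowers x) _
  set Y := zpowers y with hY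
  have hYx : Y ≤ zpowers x := zpowers_le.mpr hyx
  have hYQ : Y ≤ normalizer (Q : Set G) :=
    Cfsg.Agent.Lib.Helper1Basic.le_normalizer_of_forall_conj_mem (fun r hr a ha => hzQ r (hYx hr) a ha)
  have hYc : Nat.card Y = p := by rw [hY, Nat.card_zpowers, hoy]
  have : IsMulCommutative Q := ⟨⟨fun a b => Subtype.ext (hQc a a.2 b b.2)⟩⟩
  obtain ⟨hd1, hd2⟩ := Cfsg.Agent.Lib.Helper2Coprime.abelian_decomposition Y Q hYQ
    (by rw [hYc]; exact hQp.symm)
  set A := ⁅Q, Y⁆ with hA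
  have hAQ : A ≤ Q := hd2 ▸ le_sup_right
  have hA1 : A ≠ ⊥ := by
    intro h
    rw [h, sup_bot_eq] at hd2
    obtain ⟨a, ha, hne⟩ := hy
    apply hne
    have h1 : a ∈ Q ⊓ centralizer (Y : Set G) := by rw [hd2]; exact ha
    exact mem_centralizer_iff.mp h1.2 y (mem_zpowers y)
  have hAp : (Nat.card A).Coprime p := Nat.Coprime.coprime_dvd_left (card_dvd_of_le hAQ) hQp
  have hxA : ∀ r ∈ zpowers x, ∀ a ∈ A, r * a * r⁻¹ ∈ A := by
    intro r hr
    have hle : A ≤ A.comap (MulAut.conj r).toMonoidHom := by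
      rw [hA, commutator_le]
      intro g₁ h₁ g₂ h₂
      rw [mem_comap]
      have e : (MulAut.conj r).toMonoidHom ⁅g₁, g₂⁆ = ⁅r * g₁ * r⁻¹, r * g₂ * r⁻¹⁆ := by
        simp only [MulEquiv.coe_toMonoidHom, MulAut.conj_apply, commutatorElement_def]; group
      rw [e]
      apply commutator_mem_commutator (hzQ r hr g₁ h₁)
      have hcomm : r * g₂ = g₂ * r := by
        obtain ⟨i, rfl⟩ := mem_zpowers_iff.mp hr
        obtain ⟨j, rfl⟩ := mem_zpowers_iff.mp (hYx h₂)
        rw [← zpow_add, ← zpow_add, add_comm]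
      rw [hcomm]; simpa using h₂
    intro a ha
    exact hle ha
  have hfpf : ∀ r ∈ zpowers x, r ≠ 1 → ∀ a ∈ A, r * a = a * r → a = 1 := by
    intro r hr hr1 a ha hra
    obtain ⟨k, hkr⟩ := (mem_powers_iff_mem_zpowers).mpr hr
    have hkr' : x ^ k = r := hkr
    subst hkr'
    have hk0 : k ≠ 0 := by rintro rfl; simp at hr1
    obtain ⟨j, u, hu, hk⟩ := Nat.exists_eq_pow_mul_and_not_dvd hk0 p hp.out.ne_one
    have hjn : j ≤ n := by
      by_contra hlt
      apply hr1
      have : p ^ (n + 1) ∣ k := by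
        rw [hk]; exact Dvd.dvd.mul_right (pow_dvd_pow p (by omega)) u
      obtain ⟨c, rfl⟩ := this
      rw [pow_mul, hx, one_pow]
    have ht : (x ^ k) ^ p ^ (n - j) = y ^ u := by
      rw [hydef, ← pow_mul, ← pow_mul, hk]
      congr 1
      calc p ^ j * u * p ^ (n - j) = p ^ j * p ^ (n - j) * u := by ring
        _ = p ^ n * u := by rw [← pow_add]; congr 2; omega
    have hc1 : Commute (x ^ k) a := hra
    have hc2 : Commute (y ^ u) a := ht ▸ hc1.pow_left _
    obtain ⟨m, hm⟩ := exists_pow_eq_self_of_coprime (x := y) (n := u)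
      (by rw [hoy]; exact ((Nat.Prime.coprime_iff_not_dvd hp.out).mpr hu).symm)
    have hc3 : Commute y a := hm ▸ hc2.pow_left m
    have h1 : a ∈ (Q ⊓ centralizer (Y : Set G)) ⊓ A := by
      refine mem_inf.mpr ⟨mem_inf.mpr ⟨hAQ ha, ?_⟩, ha⟩
      rw [mem_centralizer_iff]
      intro z hz
      obtain ⟨i, rfl⟩ := mem_zpowers_iff.mp hz
      exact (hc3.zpow_left i)
    rw [hd1, mem_bot] at h1
    exact h1
  have hAR : ¬ A ≤ centralizer (R : Set G) := by
    intro h
    apply hA1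
    have h1 : IsPGroup p A := hR.to_le (h.trans hCR)
    obtain ⟨k, hk⟩ := IsPGroup.iff_card.mp h1
    rw [hk] at hAp
    rcases Nat.eq_zero_or_pos k with rfl | hkpos
    · rw [pow_zero] at hk; exact card_eq_one.mp hk
    · exfalso
      have := Nat.Coprime.coprime_dvd_left (dvd_pow_self p hkpos.ne') hAp
      rw [Nat.coprime_self] at this
      exact hp.out.ne_one this
  obtain ⟨v, hv, hne⟩ := exists_big A x hxA hfpf hAp (Nat.card R) R inferInstance le_rfl hR hAR
  exact ⟨v, hv, hox ▸ hne⟩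

/-- every `q`-subgroup, `q ≠ p`, is abelian -/
def AbQ (p : ℕ) (G : Type*) [Group G] : Prop :=
  ∀ (q : ℕ) [Fact q.Prime], q ≠ p → ∀ Q : Subgroup G, IsPGroup q Q → ∀ a ∈ Q, ∀ b ∈ Q, a * b = b * a

/-- every `p`-element has order dividing `p ^ n` -/
def ExpP (p n : ℕ) (G : Type*) [Group G] : Prop :=
  ∀ x : G, (∃ k : ℕ, x ^ p ^ k = 1) → x ^ p ^ n = 1

theorem AbQ.quot {G : Type*} [Group G] [Finite G] {p : ℕ} (h : AbQ p G) (N : Subgroup G) [N.Normal] :
    AbQ p (G ⧸ N) := by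
  intro q _ hq Qb hQb a ha b hb
  obtain ⟨Q, hQ, rfl⟩ := lift_pgroup N Qb hQb
  obtain ⟨a', ha', rfl⟩ := ha
  obtain ⟨b', hb', rfl⟩ := hb
  rw [← map_mul, ← map_mul, h q hq Q hQ a' ha' b' hb']

theorem exists_lift_pelt {G : Type*} [Group G] [Finite G] {p : ℕ} [Fact p.Prime] (N : Subgroup G)
    [N.Normal] (y : G ⧸ N) (hy : ∃ k : ℕ, y ^ p ^ k = 1) :
    ∃ x : G, (∃ k : ℕ, x ^ p ^ k = 1) ∧ QuotientGroup.mk' N x = y := by
  obtain ⟨k, hk⟩ := hy
  have hz : IsPGroup p (zpowers y) := by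
    apply IsPGroup.of_card (n := (Nat.card (zpowers y)).factorization p)
    rw [Nat.card_zpowers]
    obtain ⟨j, _, hj⟩ := (Nat.dvd_prime_pow Fact.out).mp (orderOf_dvd_of_pow_eq_one hk)
    rw [hj, Nat.Prime.factorization_pow Fact.out]; simp
  obtain ⟨Q, hQ, hQm⟩ := lift_pgroup N (zpowers y) hz
  have : y ∈ Q.map (QuotientGroup.mk' N) := hQm ▸ mem_zpowers y
  obtain ⟨x, hx, hxy⟩ := this
  obtain ⟨j, hj⟩ := hQ ⟨x, hx⟩
  exact ⟨x, ⟨j, congrArg Subtype.val hj⟩, hxy⟩

theorem ExpP.quot {G : Type*} [Group G] [Finite G] {p n : ℕ} [Fact p.Prime] (h : ExpP p n G)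
    (N : Subgroup G) [N.Normal] : ExpP p n (G ⧸ N) := by
  intro y hy
  obtain ⟨x, hx, rfl⟩ := exists_lift_pelt N y hy
  rw [← map_pow, h x hx, map_one]

open Cfsg.Agent.Lib.Helper14Upper Cfsg.Agent.Lib.Helper14Upper2 Cfsg.Agent.Lib.Helper14HH
  Cfsg.Agent.Lib.Helper14PSolvQ Cfsg.Agent.Lib.Helper14CoreB

theorem key1 {G : Type*} [Group G] [Finite G] {p : ℕ} [hp : Fact p.Prime] (hG : IsPSolvable p G)
    (h0 : pPrimeCore p G = ⊥) (hab : AbQ p G) (n : ℕ) (hexp : ExpP p (n + 1) G) (x : G)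
    (hx : ∃ k : ℕ, x ^ p ^ k = 1) : x ^ p ^ n ∈ pCore p G := by
  by_contra hxn
  set R := pCore p G with hR
  have hCR : centralizer (R : Set G) ≤ R := centralizer_pCore_le hG h0
  have hRp : IsPGroup p R := pCore_isPGroup p
  have hGb : IsPSolvable p (G ⧸ R) := isPSolvable_quotient _ hG
  have h0b : pCore p (G ⧸ R) = ⊥ := Cfsg.Agent.Lib.Helper56Iso2.pCore_quot_eq_bot
  set π := QuotientGroup.mk' R with hπ
  have hpelt : ∀ z : G, π z = π x → z ^ p ^ (n + 1) = 1 := by
    intro z hz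
    apply hexp
    have h1 : π (z ^ p ^ (n + 1)) = 1 := by rw [map_pow, hz, ← map_pow, hexp x hx, map_one]
    have h2 : z ^ p ^ (n + 1) ∈ R := (QuotientGroup.eq_one_iff _).mp h1
    obtain ⟨j, hj⟩ := hRp ⟨_, h2⟩
    refine ⟨n + 1 + j, ?_⟩
    rw [pow_add, pow_mul]
    exact congrArg Subtype.val hj
  obtain ⟨q, hq, Qb, hqp, hQb, hxQb, ab, hab', hne⟩ := exists_q hGb h0b (π x) (π (x ^ p ^ n)) (n + 1)
    (by rw [← map_pow, hexp x hx, map_one])
    (by rw [map_pow]; exact pow_mem (mem_zpowers _) _)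
    (fun h => hxn ((QuotientGroup.eq_one_iff _).mp h))
  obtain ⟨Q, hQ, hQm⟩ := lift_pgroup R Qb hQb
  have hQcop : (Nat.card Q).Coprime p := by
    obtain ⟨k, hk⟩ := IsPGroup.iff_card.mp hQ
    rw [hk]
    exact Nat.Coprime.pow_left k ((Nat.coprime_primes hq.out hp.out).mpr hqp)
  have hQR : (Nat.card Q).Coprime (Nat.card R) := by
    obtain ⟨k, hk⟩ := IsPGroup.iff_card.mp hRp
    rw [hk]
    exact Nat.Coprime.pow_right k hQcop
  -- the conjugate of `Q` by `x`
  set B := Q.map (MulAut.conj x).toMonoidHom with hB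
  have hBle : B ≤ R ⊔ Q := by
    rintro _ ⟨a, ha, rfl⟩
    have h1 : π x * π a * (π x)⁻¹ ∈ Qb := hxQb _ (hQm ▸ mem_map_of_mem π ha)
    rw [← hQm] at h1
    obtain ⟨b, hb, hbe⟩ := h1
    have h2 : x * a * x⁻¹ * b⁻¹ ∈ R := by
      apply (QuotientGroup.eq_one_iff _).mp
      show π (x * a * x⁻¹ * b⁻¹) = 1
      rw [map_mul, map_mul, map_mul, map_inv, map_inv, hbe]; group
    have e : (MulAut.conj x).toMonoidHom a = (x * a * x⁻¹ * b⁻¹) * b := by
      simp [MulAut.conj_apply]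
    rw [e]
    exact mul_mem (le_sup_left (a := R) h2) (le_sup_right (a := R) hb)
  have hQsol : Group.IsSolvable Q := by
    have := hQ.isNilpotent
    infer_instance
  obtain ⟨r, hr, hrB⟩ := Cfsg.Agent.Lib.Helper30SZ.sz_conj (N := R) (A := Q) (B := B)
    (by rw [normalizer_eq_top]; exact le_top) hQR (Or.inl hQsol) hBle
    (card_map_of_injective (MulAut.conj x).injective)
  set x' := r⁻¹ * x with hx'
  have hπx' : π x' = π x := by
    have h1 : π r = 1 := (QuotientGroup.eq_one_iff r).mpr hr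
    rw [hx', map_mul, map_inv, h1]; simp
  have hx'Q : ∀ a ∈ Q, x' * a * x'⁻¹ ∈ Q := by
    intro a ha
    have h1 : x * a * x⁻¹ ∈ B := ⟨a, ha, by simp [MulAut.conj_apply]⟩
    have h2 := (hrB _).mp h1
    have e : x' * a * x'⁻¹ = r⁻¹ * (x * a * x⁻¹) * r := by rw [hx']; group
    rw [e]; exact h2
  have hy' : ∃ a ∈ Q, x' ^ p ^ n * a ≠ a * x' ^ p ^ n := by
    rw [← hQm] at hab'
    obtain ⟨a, ha, rfl⟩ := hab'
    refine ⟨a, ha, fun h => hne ?_⟩
    have := congrArg π h
    rw [map_mul, map_mul, map_pow, hπx', ← map_pow] at this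
    exact this
  obtain ⟨v, hv, hvne⟩ := loc R hRp hCR Q (hab q hqp Q hQ) hQcop x' hx'Q n (hpelt x' hπx') hy'
  apply hvne
  apply hpelt
  have h1 : π v = 1 := (QuotientGroup.eq_one_iff v).mpr hv
  rw [map_mul, h1, one_mul, hπx']

theorem key {G : Type*} [Group G] [Finite G] {p : ℕ} [hp : Fact p.Prime] (hG : IsPSolvable p G)
    (hab : AbQ p G) (n : ℕ) (hexp : ExpP p (n + 1) G) (x : G)
    (hx : ∃ k : ℕ, x ^ p ^ k = 1) : x ^ p ^ n ∈ (upperPSeries p G 2).1 := by
  rw [show 2 = 1 + 1 from rfl, upper_succ_odd p (by simp), Subgroup.mem_comap]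
  have h0 : Cfsg.pPrimeCore p (G ⧸ (Cfsg.upperPSeries p G 1).1) = ⊥ :=
    pPrimeCore_quotient_comap_eq_bot p (Cfsg.upperPSeries p G 0).1 _
      (upper_succ_even p (by simp))
  rw [map_pow]
  apply key1 (isPSolvable_quotient _ hG) h0 (hab.quot _) n (hexp.quot _)
  obtain ⟨k, hk⟩ := hx
  exact ⟨k, by rw [← map_pow, hk, map_one]⟩

universe u

theorem main (p : ℕ) [Fact p.Prime] (n : ℕ) : ∀ (G : Type u) [Group G] [Finite G],
    IsPSolvable p G → AbQ p G → ExpP p n G → PLengthLE p n G := by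
  induction n with
  | zero =>
    intro G _ _ _ _ hexp
    obtain ⟨S⟩ : Nonempty (Sylow p G) := inferInstance
    apply Cfsg.Agent.S0635.base S
    refine ⟨fun a b => ?_⟩
    have h1 : ∀ c : (S : Subgroup G), c = 1 := by
      intro c
      obtain ⟨k, hk⟩ := S.2 c
      have := hexp c ⟨k, congrArg Subtype.val hk⟩
      apply Subtype.ext
      simpa using this
    rw [h1 a, h1 b]
  | succ n ih =>
    intro G _ _ hsol hab hexp
    set U := (Cfsg.upperPSeries p G 2).1 with hU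
    have hexp' : ExpP p n (G ⧸ U) := by
      intro y hy
      obtain ⟨x, hx, rfl⟩ := exists_lift_pelt U y hy
      rw [← map_pow]
      exact (QuotientGroup.eq_one_iff _).mpr (key hsol hab n hexp x hx)
    have h3 := ih (G ⧸ U) (isPSolvable_quotient _ hsol) (hab.quot U) hexp'
    unfold Cfsg.PLengthLE at h3 ⊢
    rw [show 2 * (n + 1) + 1 = (2 * n + 1) + 2 from by ring, upper_shift, h3, Subgroup.comap_top]

/-- Let G be a finite p-soluble group in which, for every prime q ≠ p, the Sylow q-subgroups are abelian. If the Sylow p-subgroups of G have exponent dividing p^n, then G has p-length at most n. -/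
theorem result {G : Type*} [Group G] [Finite G] {p : ℕ} [Fact p.Prime] (hG : Cfsg.IsPSolvable p G) (hab : ∀ (q : ℕ) [Fact q.Prime], q ≠ p → ∀ Q : Sylow q G, IsMulCommutative (Q : Subgroup G)) (n : ℕ) (hexp : ∀ (P : Sylow p G), ∀ x ∈ (P : Subgroup G), x ^ p ^ n = 1) : Cfsg.PLengthLE p n G := by
  apply main p n G hG
  · intro q _ hq Q hQ a ha b hb
    obtain ⟨S, hS⟩ := hQ.exists_le_sylow
    have := hab q hq S
    exact congrArg Subtype.val (this.is_comm.comm ⟨a, hS ha⟩ ⟨b, hS hb⟩)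
  · rintro x ⟨k, hk⟩
    have hz : IsPGroup p (zpowers x) := by
      apply IsPGroup.of_card (n := (Nat.card (zpowers x)).factorization p)
      rw [Nat.card_zpowers]
      obtain ⟨j, _, hj⟩ := (Nat.dvd_prime_pow Fact.out).mp (orderOf_dvd_of_pow_eq_one hk)
      rw [hj, Nat.Prime.factorization_pow Fact.out]; simp
    obtain ⟨S, hS⟩ := hz.exists_le_sylow
    exact hexp S x (hS (mem_zpowers x))

end Cfsg.Agent.S3783
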