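import Cfsg.Statements.S3784
import Mathlib.NumberTheory.Fermat

set_option autoImplicit false
open Cfsg

namespace Cfsg.Agent.S3784

theorem odd_dvd_two_pow {S b : ℕ} (hS : Odd S) (h : S ∣ 2 ^ b) : S = 1 := by
  obtain ⟨k, _, rfl⟩ := (Nat.dvd_prime_pow Nat.prime_two).1 h
  rcases Nat.eq_zero_or_pos k with rfl | hk
  · simp
  · exfalso
    have : Even (2 ^ k) := (Nat.even_pow).2 ⟨even_two, hk.ne'⟩
    exact (Nat.not_odd_iff_even.2 this) hS

theorem lemA (x : ℕ) (hx : Odd x) : ∀ m : ℕ, ∃ S, Odd S ∧ x ^ (2 * m + 1) + 1 = (x + 1) * S := by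
  intro m
  induction m with
  | zero => exact ⟨1, odd_one, by simp⟩
  | succ m ih =>
    obtain ⟨S, hS, hEq⟩ := ih
    have hS1 : 1 ≤ S := hS.pos
    have hx1 : 1 ≤ x := hx.pos
    have hle : x ≤ x * x * S := by nlinarith
    refine ⟨x * x * S + 1 - x, ?_, ?_⟩
    · have h1 : Odd (x * x * S) := (hx.mul hx).mul hS
      obtain ⟨u, hu⟩ := h1
      obtain ⟨v, hv⟩ := hx
      have : x * x * S + 1 - x = 2 * (u - v) + 1 := by omega
      rw [this]; exact ⟨u - v, rfl⟩
    · obtain ⟨t, ht⟩ : ∃ t, x * x * S = x + t := ⟨x * x * S - x, by omega⟩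
      have : x * x * S + 1 - x = t + 1 := by omega
      rw [this]
      have e1 : x ^ (2 * (m + 1) + 1) = x * x * x ^ (2 * m + 1) := by ring
      have e2 : x * x * (x ^ (2 * m + 1) + 1) = x * x * ((x + 1) * S) := by rw [hEq]
      have e3 : x * x * ((x + 1) * S) = (x + 1) * (x + t) := by rw [← ht]; ring
      rw [e1]
      nlinarith

theorem lemB (x : ℕ) (hx : Odd x) : ∀ n : ℕ, (∑ i ∈ Finset.range n, x ^ i) % 2 = n % 2 := by
  intro n
  induction n with
  | zero => simp
  | succ n ih =>
    rw [Finset.sum_range_succ]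
    have : x ^ n % 2 = 1 := Nat.odd_iff.1 (hx.pow)
    omega

/-- Let p, q be primes and a, b positive integers with p^a = q^b + 1. Then either p = 2, b = 1, a is prime and q = 2^a − 1; or q = 2, a = 1, b is a power of 2 and p = 2^b + 1; or p^a = 9 and q^b = 8. -/
theorem result (p q a b : ℕ) (hp : p.Prime) (hq : q.Prime) (ha : 1 ≤ a) (hb : 1 ≤ b) (h : p ^ a = q ^ b + 1) : (p = 2 ∧ b = 1 ∧ a.Prime ∧ q + 1 = 2 ^ a) ∨ (q = 2 ∧ a = 1 ∧ (∃ m : ℕ, b = 2 ^ m) ∧ p = 2 ^ b + 1) ∨ (p ^ a = 9 ∧ q ^ b = 8) := by
  rcases hq.eq_two_or_odd' with rfl | hqo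
  · -- q = 2
    right
    have hpo : Odd p := by
      rcases hp.eq_two_or_odd' with rfl | h'
      · exfalso
        have h1 : Even (2 ^ a) := (Nat.even_pow).2 ⟨even_two, by omega⟩
        have h2 : Even (2 ^ b) := (Nat.even_pow).2 ⟨even_two, by omega⟩
        rw [h] at h1
        have := (Nat.even_add_one).1 h1
        exact this h2
      · exact h'
    rcases Nat.lt_or_ge 1 a with ha1 | ha1
    · right
      rcases Nat.even_or_odd a with hae | hao
      · obtain ⟨c, hc⟩ := hae
        have hc1 : 1 ≤ c := by omega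
        set y := p ^ c with hy
        have hyo : Odd y := hpo.pow
        have hyy : y * y = 2 ^ b + 1 := by rw [← h, hc, pow_add]
        have hy1 : 1 ≤ y := hyo.pos
        obtain ⟨z, hz⟩ : ∃ z, y = z + 1 := ⟨y - 1, by omega⟩
        have hprod : z * (z + 2) = 2 ^ b := by
          have : (z + 1) * (z + 1) = 2 ^ b + 1 := by rw [← hz]; exact hyy
          nlinarith
        obtain ⟨i, _, hi⟩ := (Nat.dvd_prime_pow Nat.prime_two).1 (Dvd.intro _ hprod)
        obtain ⟨j, _, hj⟩ := (Nat.dvd_prime_pow Nat.prime_two).1 (Dvd.intro_left _ hprod)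
        have hi1 : i = 1 := by
          rcases Nat.lt_trichotomy i 1 with hi0 | hi0 | hi0
          · exfalso
            have : i = 0 := by omega
            subst this
            simp at hi
            rw [hz, hi] at hyo
            exact absurd hyo (by decide)
          · exact hi0
          · exfalso
            obtain ⟨i', rfl⟩ : ∃ i', i = i' + 2 := ⟨i - 2, by omega⟩
            have hz4 : z = 4 * 2 ^ i' := by rw [hi]; ring
            have hpos : 0 < 2 ^ i' := by positivity
            rcases Nat.lt_or_ge j 2 with hj2 | hj2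
            · have : 2 ^ j ≤ 2 ^ 1 := Nat.pow_le_pow_right (by norm_num) (by omega)
              omega
            · obtain ⟨j', rfl⟩ : ∃ j', j = j' + 2 := ⟨j - 2, by omega⟩
              have : 2 ^ (j' + 2) = 4 * 2 ^ j' := by ring
              omega
        subst hi1
        have hz2 : z = 2 := by simpa using hi
        have hy3 : y = 3 := by omega
        have : p ^ a = 9 := by rw [hc, pow_add, ← hy, hy3]; norm_num
        exact ⟨this, by omega⟩
      · exfalso
        have hp1 : 1 ≤ p := hp.one_lt.le
        obtain ⟨x, hx⟩ : ∃ x, p = x + 1 := ⟨p - 1, by omega⟩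
        have hg := geom_sum_mul_add x a
        rw [← hx, h] at hg
        have hg' : (∑ i ∈ Finset.range a, p ^ i) * x = 2 ^ b := by omega
        have hodd : Odd (∑ i ∈ Finset.range a, p ^ i) := by
          rw [Nat.odd_iff, lemB p hpo a]; exact Nat.odd_iff.1 hao
        have h1 := odd_dvd_two_pow hodd (Dvd.intro _ hg')
        have h2 : 1 + p ≤ ∑ i ∈ Finset.range a, p ^ i := by
          obtain ⟨a', rfl⟩ : ∃ a', a = a' + 2 := ⟨a - 2, by omega⟩
          rw [Finset.sum_range_succ', Finset.sum_range_succ']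
          simp
          omega
        omega
    · left
      have ha1' : a = 1 := by omega
      subst ha1'
      rw [pow_one] at h
      refine ⟨rfl, rfl, ?_, h⟩
      exact Nat.pow_of_pow_add_prime (by norm_num) (by omega) (h ▸ hp)
  · -- q odd
    left
    have hp2 : p = 2 := by
      have h1 : Even (q ^ b + 1) := (hqo.pow).add_one
      rw [← h] at h1
      have := ((Nat.even_pow).1 h1).1
      exact (hp.even_iff).1 this
    subst hp2
    have hb1 : b = 1 := by
      rcases Nat.even_or_odd b with hbe | hbo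
      · exfalso
        obtain ⟨c, hc⟩ := hbe
        set y := q ^ c with hy
        have hyo : Odd y := hqo.pow
        have hyy : 2 ^ a = y * y + 1 := by rw [h, hc, pow_add]
        obtain ⟨v, hv⟩ := hyo
        have h4 : y * y + 1 = 4 * (v * v + v) + 2 := by rw [hv]; ring
        rcases Nat.lt_or_ge a 2 with ha2 | ha2
        · have : a = 1 := by omega
          subst this
          have hy2 : 2 ≤ y := by
            have h5 : q ^ 1 ≤ q ^ c := Nat.pow_le_pow_right hq.pos (by omega)
            have h6 := hq.two_le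
            rw [pow_one] at h5
            omega
          nlinarith
        · obtain ⟨a', rfl⟩ : ∃ a', a = a' + 2 := ⟨a - 2, by omega⟩
          have : 2 ^ (a' + 2) = 4 * 2 ^ a' := by ring
          omega
      · obtain ⟨m, hm⟩ := hbo
        obtain ⟨S, hS, hEq⟩ := lemA q hqo m
        rw [← hm, ← h] at hEq
        have hS1 := odd_dvd_two_pow hS (Dvd.intro_left _ hEq.symm)
        rw [hS1, mul_one, h] at hEq
        have hqq : q ^ b = q ^ 1 := by rw [pow_one]; omega
        exact Nat.pow_right_injective hq.two_le hqq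
    subst hb1
    rw [pow_one] at h
    refine ⟨rfl, rfl, ?_, h.symm⟩
    have ha1 : a ≠ 1 := by
      rintro rfl
      have := hq.two_le
      omega
    have hP : (2 ^ a - 1).Prime := by
      have : 2 ^ a - 1 = q := by omega
      rw [this]; exact hq
    exact (Nat.prime_of_pow_sub_one_prime ha1 hP).2

end Cfsg.Agent.S3784
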