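import Cfsg.Statements.S3785
import Cfsg.Agent.S0044
import Cfsg.Agent.Lib.Helper1Fitting
import Cfsg.Agent.Lib.Helper30Coprime
import Cfsg.Agent.Lib.Helper40Sylow

set_option autoImplicit false
open Cfsg

namespace Cfsg.Agent.S3785

open Cfsg.Agent.Lib.Helper1Fitting Cfsg.Agent.Lib.Helper1Char

variable {G : Type*} [Group G]

theorem pCore_le_fitting [Finite G] {p : ℕ} (hp : p.Prime) : pCore p G ≤ fittingSubgroup G := by
  rw [fitting_eq_iSup_pCore]
  exact le_iSup (fun q : Nat.Primes => pCore (q : ℕ) G) ⟨p, hp⟩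

/-- a `p`-subgroup of the Fitting subgroup lies in `O_p(G)` -/
theorem le_pCore_of_le_fitting [Finite G] {p : ℕ} [Fact p.Prime] {S : Subgroup G} (hS : IsPGroup p S)
    (hSF : S ≤ fittingSubgroup G) : S ≤ pCore p G := by
  have hFn : (fittingSubgroup G).Normal := fitting_normal
  have hN : Group.IsNilpotent (fittingSubgroup G) := fitting_isNilpotent
  obtain ⟨P, hP⟩ := (hS.comap_subtype (K := fittingSubgroup G)).exists_le_sylow
  have htfae : Group.IsNilpotent (fittingSubgroup G) ↔ ∀ (p : ℕ), Fact (Nat.Prime p) →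
      ∀ (P : Sylow p (fittingSubgroup G)), (P : Subgroup (fittingSubgroup G)).Normal :=
    (Group.isNilpotent_of_finite_tfae (G := fittingSubgroup G)).out 0 3
  have hPn : (P : Subgroup (fittingSubgroup G)).Normal := htfae.mp hN p inferInstance P
  have hPc : (P : Subgroup (fittingSubgroup G)).Characteristic := P.characteristic_of_normal hPn
  have h1 : ((P : Subgroup (fittingSubgroup G)).map (fittingSubgroup G).subtype).Normal :=
    normal_map_of_characteristic _
  refine le_trans ?_ (le_pCore h1 (P.isPGroup'.map _))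
  intro x hx
  exact ⟨⟨x, hSF hx⟩, hP (by rw [Subgroup.mem_comap]; exact hx), rfl⟩

/-- The centralizer of the elements of prime order of `F(G)`. -/
def K (G : Type*) [Group G] : Subgroup G :=
  Subgroup.centralizer {x : G | x ∈ fittingSubgroup G ∧ (orderOf x).Prime}

theorem K_normal : (K G).Normal := by
  have hFn : (fittingSubgroup G).Normal := fitting_normal
  constructor
  intro n hn g
  unfold K at hn ⊢
  rw [Subgroup.mem_centralizer_iff] at hn ⊢
  rintro x ⟨hxF, hxo⟩
  have h1 : g⁻¹ * x * g ∈ {x : G | x ∈ fittingSubgroup G ∧ (orderOf x).Prime} := by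
    constructor
    · have := hFn.conj_mem x hxF g⁻¹
      simpa using this
    · have : orderOf (g⁻¹ * x * g) = orderOf x := by
        have := orderOf_injective (MulAut.conj g⁻¹).toMonoidHom (MulAut.conj g⁻¹).injective x
        simpa [MulAut.conj_apply] using this
      rw [this]; exact hxo
  have h2 := hn _ h1
  calc x * (g * n * g⁻¹) = g * ((g⁻¹ * x * g) * n) * g⁻¹ := by group
    _ = g * (n * (g⁻¹ * x * g)) * g⁻¹ := by rw [h2]
    _ = g * n * g⁻¹ * x := by group

/-- (1) an `s`-subgroup of `K` centralizes `O_p(G)` for `p ≠ s`. -/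
theorem centralizes_pCore [Finite G] (hodd : Odd (Nat.card (fittingSubgroup G))) {s p : ℕ}
    [Fact s.Prime] [Fact p.Prime] (hsp : s ≠ p) {S : Subgroup G} (hS : IsPGroup s S) (hSK : S ≤ K G) :
    S ≤ Subgroup.centralizer (pCore p G : Set G) := by
  have hp : p.Prime := Fact.out
  have hs : s.Prime := Fact.out
  by_cases hp2 : p = 2
  · subst hp2
    have h1 : pCore 2 G = ⊥ := by
      obtain ⟨n, hn⟩ := (pCore_isPGroup (G := G) 2).exists_card_eq
      have h2 : Nat.card (pCore 2 G) ∣ Nat.card (fittingSubgroup G) :=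
        Subgroup.card_dvd_of_le (pCore_le_fitting hp)
      rcases Nat.eq_zero_or_pos n with h0 | h0
      · rw [h0, pow_zero] at hn
        exact Subgroup.card_eq_one.mp hn
      · exfalso
        have h3 : 2 ∣ Nat.card (fittingSubgroup G) := by
          refine dvd_trans ?_ h2
          rw [hn]; exact dvd_pow_self 2 h0.ne'
        exact (Nat.not_even_iff_odd.mpr hodd) (even_iff_two_dvd.mpr h3)
    rw [h1]
    intro x _
    rw [Subgroup.mem_centralizer_iff]
    intro y hy
    have : y = 1 := by simpa using hy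
    rw [this]; simp
  · rw [Cfsg.Agent.Lib.Helper30Coprime.le_centralizer_iff_conj]
    have hn : (pCore p G).Normal := Cfsg.Agent.Lib.Helper1Fitting.pCore_normal p
    apply Cfsg.Agent.Lib.Helper30Coprime.centralizes_of_fix_order_p p hp2 S _ (pCore p G)
      (pCore_isPGroup p)
    · rw [Subgroup.normalizer_eq_top_iff.mpr hn]; exact le_top
    · intro a ha x hx hxp
      by_cases hx1 : x = 1
      · rw [hx1]; simp
      · have ho : orderOf x = p := orderOf_eq_prime hxp hx1
        have h1 := hSK ha
        unfold K at h1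
        rw [Subgroup.mem_centralizer_iff] at h1
        have h2 := h1 x ⟨pCore_le_fitting hp hx, by rw [ho]; exact hp⟩
        rw [← h2]; group
    · obtain ⟨n, hn⟩ := hS.exists_card_eq
      rw [hn]
      exact Nat.Coprime.pow_left n ((Nat.coprime_primes hs hp).mpr hsp)

/-- `D_q` -/
def Dq (G : Type*) [Group G] (q : ℕ) : Subgroup G :=
  K G ⊓ ⨅ (p : Nat.Primes), ⨅ (_ : (p : ℕ) ≠ q), Subgroup.centralizer (pCore (p : ℕ) G : Set G)

theorem Dq_normal (q : ℕ) : (Dq G q).Normal := by
  have h1 : (K G).Normal := K_normal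
  have h2 : (⨅ (p : Nat.Primes), ⨅ (_ : (p : ℕ) ≠ q),
      Subgroup.centralizer (pCore (p : ℕ) G : Set G)).Normal := by
    apply Subgroup.normal_iInf_normal
    intro p
    apply Subgroup.normal_iInf_normal
    intro _
    have : (pCore (p : ℕ) G).Normal := Cfsg.Agent.Lib.Helper1Fitting.pCore_normal _
    infer_instance
  unfold Dq
  infer_instance

theorem Dq_le_centralizer {q p : ℕ} (hp : p.Prime) (hpq : p ≠ q) :
    Dq G q ≤ Subgroup.centralizer (pCore p G : Set G) := by
  unfold Dq
  refine inf_le_right.trans ?_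
  exact (iInf_le _ (⟨p, hp⟩ : Nat.Primes)).trans (iInf_le _ hpq)

theorem le_Dq [Finite G] (hodd : Odd (Nat.card (fittingSubgroup G))) {q : ℕ} [Fact q.Prime]
    {T : Subgroup G} (hT : IsPGroup q T) (hTK : T ≤ K G) : T ≤ Dq G q := by
  unfold Dq
  refine le_inf hTK (le_iInf fun p => le_iInf fun hpq => ?_)
  have := Fact.mk p.2
  exact centralizes_pCore hodd (Ne.symm hpq) hT hTK

theorem Dq_isNilpotent [Finite G] [Group.IsSolvable G] (hodd : Odd (Nat.card (fittingSubgroup G)))
    {q : ℕ} [Fact q.Prime] : Group.IsNilpotent (Dq G q) := by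
  have hq : q.Prime := Fact.out
  apply Group.of_quotient_center_nilpotent
  have hidx : ∃ k, (Subgroup.center (Dq G q)).index = q ^ k := by
    refine ⟨_, Nat.eq_prime_pow_of_unique_prime_dvd Subgroup.index_ne_zero_of_finite ?_⟩
    intro s hs hsd
    by_contra hsq
    have := Fact.mk hs
    let S : Sylow s (Dq G q) := Classical.arbitrary _
    apply S.not_dvd_index
    refine hsd.trans (Subgroup.index_dvd_of_le ?_)
    -- `S ≤ center`
    set S' : Subgroup G := (S : Subgroup (Dq G q)).map (Dq G q).subtype with hS'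
    have hS'p : IsPGroup s S' := S.isPGroup'.map _
    have hS'D : S' ≤ Dq G q := Subgroup.map_subtype_le _
    have hS'K : S' ≤ K G := hS'D.trans inf_le_left
    have h1 : S' ≤ Subgroup.centralizer (fittingSubgroup G : Set G) := by
      rw [Subgroup.le_centralizer_iff, fitting_eq_iSup_pCore]
      apply iSup_le
      intro p
      rw [← Subgroup.le_centralizer_iff]
      have := Fact.mk p.2
      by_cases hps : (p : ℕ) = s
      · exact hS'D.trans (Dq_le_centralizer p.2 (by rw [hps]; exact hsq))
      · exact centralizes_pCore hodd (Ne.symm hps) hS'p hS'K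
    have h2 : S' ≤ pCore s G := le_pCore_of_le_fitting hS'p (h1.trans Cfsg.Agent.S0044.result)
    intro x hx
    rw [Subgroup.mem_center_iff]
    intro y
    have hx' : (x : G) ∈ pCore s G := h2 ⟨x, hx, rfl⟩
    have hy := Dq_le_centralizer (G := G) hs hsq y.2
    rw [Subgroup.mem_centralizer_iff] at hy
    apply Subtype.ext
    simp only [Subgroup.coe_mul]
    exact (hy x hx').symm
  obtain ⟨k, hk⟩ := hidx
  have : IsPGroup q (↥(Dq G q) ⧸ Subgroup.center ↥(Dq G q)) := IsPGroup.of_card (n := k) hk
  exact this.isNilpotent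

/-- Let G be a finite solvable group whose Fitting subgroup F(G) has odd order. If an element g of G commutes with every element of prime order of F(G), then g ∈ F(G). -/
theorem result {G : Type*} [Group G] [Finite G] (hG : Group.IsSolvable G) (hodd : Odd (Nat.card (Cfsg.fittingSubgroup G))) (g : G) (hg : ∀ x ∈ Cfsg.fittingSubgroup G, (orderOf x).Prime → g * x = x * g) : g ∈ Cfsg.fittingSubgroup G := by
  have hgK : g ∈ K G := by
    unfold K
    rw [Subgroup.mem_centralizer_iff]
    rintro x ⟨hxF, hxo⟩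
    exact (hg x hxF hxo).symm
  suffices h : K G ≤ fittingSubgroup G from h hgK
  rw [← Subgroup.relIndex_eq_one]
  by_contra hne
  obtain ⟨q, hq, hqd⟩ := Nat.exists_prime_and_dvd hne
  have := Fact.mk hq
  obtain ⟨T, hT, -⟩ := Cfsg.Agent.Lib.Helper40Sylow.exists_isSylowIn_ge (p := q) (Q := (⊥ : Subgroup G))
    (H := K G) IsPGroup.of_bot bot_le
  apply hT.2.2
  refine hqd.trans (Subgroup.relIndex_dvd_of_le_left _ ?_)
  exact (le_Dq hodd hT.2.1 hT.1).trans (le_fitting (Dq_normal q) (Dq_isNilpotent hodd))

end Cfsg.Agent.S3785
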