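import Cfsg.Statements.S3788
import Cfsg.Agent.Lib.H87CNMain
import Cfsg.Agent.Lib.Helper31PLength

set_option autoImplicit false
open Cfsg

namespace Cfsg.Agent.S3788

/-- Let G be a finite p-soluble group, P a Sylow p-subgroup of G and A a cyclic normal subgroup of P. If p is odd, or if no section of G is isomorphic to the symmetric group of degree 4, then A ≤ O_{p',p}(G). -/
theorem result {G : Type*} [Group G] [Finite G] {p : ℕ} [Fact p.Prime] (hG : Cfsg.IsPSolvable p G) (P : Sylow p G) (A : Subgroup G) (hAP : A ≤ (P : Subgroup G)) (hAn : (P : Subgroup G) ≤ Subgroup.normalizer (A : Set G)) (hA : IsCyclic A) (h : p ≠ 2 ∨ ¬ Cfsg.Involves (Equiv.Perm (Fin 4)) G) : A ≤ Cfsg.pPrimePCore p G := by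
  classical
  set N := Cfsg.pPrimeCore p G with hN
  set π := QuotientGroup.mk' N with hπ
  obtain ⟨⟨a, haA⟩, hgen⟩ := hA.exists_generator
  have hgen' : ∀ x ∈ A, x ∈ Subgroup.zpowers a := by
    intro x hx
    obtain ⟨k, hk⟩ := Subgroup.mem_zpowers_iff.1 (hgen ⟨x, hx⟩)
    refine Subgroup.mem_zpowers_iff.2 ⟨k, ?_⟩
    have := congrArg Subtype.val hk
    simpa using this
  have hap : ∃ k : ℕ, a ^ p ^ k = 1 := by
    obtain ⟨k, hk⟩ := P.isPGroup' ⟨a, hAP haA⟩
    refine ⟨k, ?_⟩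
    have := congrArg Subtype.val hk
    simpa using this
  have key : π a ∈ Cfsg.pCore p (G ⧸ N) := by
    apply Cfsg.Agent.Lib.H87CNMain.main (Cfsg.Agent.Lib.Helper38PSolv.isPSolvable_quotient N hG)
      (Cfsg.Agent.Lib.Helper60Core.pPrimeCore_quotient_eq_bot p) (π a)
    · obtain ⟨k, hk⟩ := hap
      exact ⟨k, by rw [← map_pow, hk, map_one]⟩
    · intro w hw
      obtain ⟨w, rfl⟩ := QuotientGroup.mk'_surjective N w
      have hw' : w ∈ Cfsg.pPrimePCore p G := hw
      have hw2 := Cfsg.Agent.Lib.Helper31PLength.pPrimePCore_le_sup p G P hw'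
      have hw3 : w ∈ ((Cfsg.pPrimeCore p G ⊔ (P : Subgroup G) : Subgroup G) : Set G) := hw2
      rw [Subgroup.normal_mul] at hw3
      obtain ⟨n, hn, u, hu, rfl⟩ := Set.mem_mul.1 hw3
      have h1 : π (n * u) = π u := by
        rw [map_mul, show π n = 1 from (QuotientGroup.eq_one_iff n).2 hn, one_mul]
      rw [show (QuotientGroup.mk' N) (n * u) = π u from h1]
      have h2 : u * a⁻¹ * u⁻¹ ∈ A :=
        (Subgroup.mem_normalizer_iff.1 (hAn hu) a⁻¹).1 (A.inv_mem haA)
      have h3 : a * u * a⁻¹ * u⁻¹ ∈ A := by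
        have : a * u * a⁻¹ * u⁻¹ = a * (u * a⁻¹ * u⁻¹) := by group
        rw [this]; exact A.mul_mem haA h2
      obtain ⟨k, hk⟩ := Subgroup.mem_zpowers_iff.1 (hgen' _ h3)
      refine Subgroup.mem_zpowers_iff.2 ⟨k, ?_⟩
      rw [← map_zpow, hk]
      simp only [map_mul, map_inv]
    · rcases h with h | h
      · exact Or.inl h
      · exact Or.inr (fun h' => h (Cfsg.Agent.Lib.Helper24Section.Involves.trans h'
          (Cfsg.Agent.Lib.Helper24Section.involves_quotient N)))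
  intro x hx
  obtain ⟨k, hk⟩ := Subgroup.mem_zpowers_iff.1 (hgen' x hx)
  change π x ∈ Cfsg.pCore p (G ⧸ N)
  rw [← hk, map_zpow]
  exact Subgroup.zpow_mem _ key k

end Cfsg.Agent.S3788
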