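import Cfsg.Statements.S3789
import Cfsg.Agent.Lib.H87DLTop
import Cfsg.Agent.Lib.H87DLBase
import Cfsg.Agent.Lib.H87DLQuot
import Cfsg.Agent.Lib.Helper14Upper2

set_option autoImplicit false
open Cfsg

namespace Cfsg.Agent.S3789

/-- Let p be an odd prime and G a finite p-soluble group whose Sylow p-subgroups have derived length at most d. Then G has p-length at most d. -/
theorem result {G : Type*} [Group G] [Finite G] {p : ℕ} [Fact p.Prime] (hp : p ≠ 2) (hG : Cfsg.IsPSolvable p G) (d : ℕ) (hd : ∀ P : Sylow p G, derivedSeries ↥(P : Subgroup G) d = ⊥) : Cfsg.PLengthLE p d G := by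
  induction d generalizing G with
  | zero =>
    obtain ⟨P⟩ : Nonempty (Sylow p G) := inferInstance
    exact Cfsg.Agent.Lib.H87DLBase.base P (hd P)
  | succ d ih =>
    have h2 : (Cfsg.upperPSeries p G 2).1 = Cfsg.pPrimePCore p G :=
      Cfsg.Agent.Lib.Helper31PLength.ups_two p G
    have hq := Cfsg.Agent.Lib.H87DLQuot.quot (p := p) (Cfsg.upperPSeries p G 2).1 d (fun P => by
      rw [h2]
      exact Cfsg.Agent.Lib.H87DLTop.top hp hG P d (hd P))
    have h3 := ih (Cfsg.Agent.Lib.Helper38PSolv.isPSolvable_quotient _ hG) hq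
    unfold Cfsg.PLengthLE at h3 ⊢
    have h4 := Cfsg.Agent.Lib.Helper14Upper2.upper_shift (G := G) p (2 * d + 1)
    have h5 : 2 * (d + 1) + 1 = 2 * d + 1 + 2 := by ring
    rw [h5, h4, h3, Subgroup.comap_top]

end Cfsg.Agent.S3789
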