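import Cfsg.Statements.S3790
import Cfsg.Agent.Lib.Helper66PLen

set_option autoImplicit false
open Cfsg

namespace Cfsg.Agent.S3790

open Cfsg.Agent.Lib.Helper66PLen

variable {G : Type*} [Group G]

theorem relIndex_dvd_relIndex_of_le [Finite G] {A A' B' B : Subgroup G} (h1 : A ≤ A') (h2 : A' ≤ B')
    (h3 : B' ≤ B) : A'.relIndex B' ∣ A.relIndex B := by
  rw [← Subgroup.relIndex_mul_relIndex A A' B h1 (h2.trans h3),
    ← Subgroup.relIndex_mul_relIndex A' B' B h2 h3]
  exact Dvd.dvd.mul_left (Dvd.intro _ rfl) _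

/-- from a `q`-series to a `p`-series, given that all `q'`-sections have `p`-length at most `m` -/
theorem len_of_len {p q m : ℕ} (hqp : Nat.Coprime q p) (P : Subgroup G → Subgroup G → Prop)
    (hP : ∀ A A' B' B : Subgroup G, A ≤ A' → A' ≤ B' → B' ≤ B → P A B → P A' B')
    (hm : ∀ A B : Subgroup G, PP q A B → P A B → Len p m A B) :
    ∀ (l : ℕ) (A B : Subgroup G), Len q l A B → P A B → Len p ((1 + l) * m) A B
  | 0, A, B, h, hPAB => by
    simpa using hm A B h hPAB
  | l + 1, A, B, ⟨C, D, h1, h2, h3⟩, hPAB => by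
    have hAC := h1.le
    have hCD := h2.2.2.1
    have hDB := h3.2.2.1
    have e1 := len_of_len hqp P hP hm l A C h1 (hP A A C B le_rfl hAC (hCD.trans hDB) hPAB)
    have e2 : Len p 0 C D := by
      obtain ⟨hC, hD, hle, j, hj⟩ := h2
      exact ⟨hC, hD, hle, by rw [hj]; exact Nat.Coprime.pow_left j hqp⟩
    have e3 := hm D B h3 (hP A D B B (hAC.trans hCD) hDB le_rfl hPAB)
    have := (e1.trans e2).trans e3
    have e : (1 + l) * m + 0 + m = (1 + (l + 1)) * m := by ring
    rwa [e] at this

/-- Let G be a finite solvable group and p a prime. Suppose p₁, …, p_r are distinct primes, all different from p, that include every prime dividing the order of G other than p, and that G has p_i-length at most l_i for each i. Then G has p-length at most the product of the numbers 1 + l_i. -/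
theorem result {G : Type*} [Group G] [Finite G] (hG : Group.IsSolvable G) (p : ℕ) [Fact p.Prime] (r : ℕ) (q : Fin r → ℕ) (hq : ∀ i, (q i).Prime ∧ q i ≠ p) (hinj : Function.Injective q) (hcover : ∀ s : ℕ, s.Prime → s ∣ Nat.card G → s ≠ p → ∃ i, q i = s) (l : Fin r → ℕ) (hl : ∀ i, Cfsg.PLengthLE (q i) (l i) G) : Cfsg.PLengthLE p (Finset.univ.prod fun i => 1 + l i) G := by
  classical
  have hp : p.Prime := Fact.out
  have H : ∀ i, ∀ A B : Subgroup G, A.Normal → B.Normal → A ≤ B → Len (q i) (l i) A B := by
    intro i A B hA hB hAB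
    have := Fact.mk (hq i).1
    exact (len_of_pLengthLE (hl i)).section (hq i).1 hA hB hAB
  have key : ∀ s : Finset (Fin r), ∀ A B : Subgroup G, A.Normal → B.Normal → A ≤ B →
      (∀ t : ℕ, t.Prime → t ∣ A.relIndex B → t ≠ p → ∃ i ∈ s, q i = t) →
      Len p (s.prod fun i => 1 + l i) A B := by
    intro s
    induction s using Finset.induction_on with
    | empty =>
      intro A B hA hB hAB hpr
      have hne : A.relIndex B ≠ 0 := by
        intro h0
        have := Subgroup.relIndex_dvd_card A B
        rw [h0, zero_dvd_iff] at this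
        exact Nat.card_pos.ne' this
      have hpow : A.relIndex B = p ^ (A.relIndex B).primeFactorsList.length := by
        apply Nat.eq_prime_pow_of_unique_prime_dvd hne
        intro d hd hdvd
        by_contra hdp
        obtain ⟨i, hi, -⟩ := hpr d hd hdvd hdp
        simp at hi
      rw [Finset.prod_empty]
      exact ⟨A, B, PP.refl p hA, ⟨hA, hB, hAB, _, hpow⟩, PP.refl p hB⟩
    | insert i s hi ih =>
      intro A B hA hB hAB hpr
      rw [Finset.prod_insert hi]
      have hqp : Nat.Coprime (q i) p := (Nat.coprime_primes (hq i).1 hp).mpr (hq i).2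
      refine len_of_len hqp
        (fun A B => ∀ t : ℕ, t.Prime → t ∣ A.relIndex B → t ≠ p → ∃ j ∈ insert i s, q j = t)
        ?_ ?_ (l i) A B (H i A B hA hB hAB) hpr
      · intro A A' B' B h1 h2 h3 hP t ht htd htp
        exact hP t ht (htd.trans (relIndex_dvd_relIndex_of_le h1 h2 h3)) htp
      · intro A B hPP hP
        apply ih A B hPP.1 hPP.2.1 hPP.2.2.1
        intro t ht htd htp
        obtain ⟨j, hj, hjt⟩ := hP t ht htd htp
        rcases Finset.mem_insert.mp hj with rfl | hj
        · exfalso
          have h1 : t ∣ Nat.gcd (A.relIndex B) (q j) := Nat.dvd_gcd htd (by rw [hjt])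
          rw [hPP.2.2.2] at h1
          exact ht.one_lt.ne' (Nat.dvd_one.mp h1)
        · exact ⟨j, hj, hjt⟩
  apply pLengthLE_of_len
  apply key Finset.univ ⊥ ⊤ inferInstance inferInstance bot_le
  intro t ht htd htp
  rw [Subgroup.relIndex_bot_left] at htd
  have : t ∣ Nat.card G := by
    rwa [Nat.card_congr (Subgroup.topEquiv (G := G)).toEquiv] at htd
  obtain ⟨i, hi⟩ := hcover t ht this htp
  exact ⟨i, Finset.mem_univ i, hi⟩

end Cfsg.Agent.S3790
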