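import Cfsg.Statements.S3791
import Cfsg.Agent.Lib.Helper66PLen
import Cfsg.Agent.Lib.Helper66Comm
import Cfsg.Agent.Lib.Helper66Basic

set_option autoImplicit false
open Cfsg

namespace Cfsg.Agent.S3791

open Cfsg.Agent.Lib.Helper66PLen

variable {G : Type*} [Group G]

/-- derived series of a subgroup, inside `G` -/
def D : ℕ → Subgroup G → Subgroup G
  | 0, H => H
  | n + 1, H => ⁅D n H, D n H⁆

theorem D_mono : ∀ (n : ℕ) {H K : Subgroup G}, H ≤ K → D n H ≤ D n K
  | 0, _, _, h => h
  | n + 1, _, _, h => Subgroup.commutator_mono (D_mono n h) (D_mono n h)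

theorem D_add (a : ℕ) (H : Subgroup G) : ∀ b : ℕ, D (a + b) H = D b (D a H)
  | 0 => rfl
  | b + 1 => by
    show ⁅D (a + b) H, D (a + b) H⁆ = ⁅D b (D a H), D b (D a H)⁆
    rw [D_add a H b]

theorem derivedSeries_eq_D : ∀ n : ℕ, derivedSeries G n = D n ⊤
  | 0 => rfl
  | n + 1 => by
    show ⁅derivedSeries G n, derivedSeries G n⁆ = ⁅D n ⊤, D n ⊤⁆
    rw [derivedSeries_eq_D n]

theorem map_derivedSeries_eq_D (P : Subgroup G) :
    ∀ n : ℕ, (derivedSeries ↥P n).map P.subtype = D n P
  | 0 => by
    show (⊤ : Subgroup ↥P).map P.subtype = P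
    rw [← MonoidHom.range_eq_map, Subgroup.range_subtype]
  | n + 1 => by
    show (⁅derivedSeries ↥P n, derivedSeries ↥P n⁆).map P.subtype = ⁅D n P, D n P⁆
    rw [Subgroup.map_commutator, map_derivedSeries_eq_D P n]

theorem D_sup_le (N : Subgroup G) [N.Normal] (X : Subgroup G) : ∀ n : ℕ, D n (X ⊔ N) ≤ D n X ⊔ N
  | 0 => le_rfl
  | n + 1 => by
    show ⁅D n (X ⊔ N), D n (X ⊔ N)⁆ ≤ ⁅D n X, D n X⁆ ⊔ N
    have h := D_sup_le N X n
    calc ⁅D n (X ⊔ N), D n (X ⊔ N)⁆ ≤ ⁅D n X ⊔ N, D n X ⊔ N⁆ := Subgroup.commutator_mono h h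
      _ ≤ ⁅D n X, D n X ⊔ N⁆ ⊔ N := Cfsg.Agent.Lib.Helper66Comm.commutator_sup_le _ _ _
      _ = ⁅D n X ⊔ N, D n X⁆ ⊔ N := by rw [Subgroup.commutator_comm]
      _ ≤ (⁅D n X, D n X⁆ ⊔ N) ⊔ N :=
        sup_le_sup_right (Cfsg.Agent.Lib.Helper66Comm.commutator_sup_le _ _ _) _
      _ = ⁅D n X, D n X⁆ ⊔ N := by rw [sup_assoc, sup_idem]

theorem le_sylow_sup [Finite G] {q : ℕ} [Fact q.Prime] {N M : Subgroup G} (h : PS q N M)
    (S : Sylow q G) : M ≤ (S : Subgroup G) ⊔ N := by
  obtain ⟨hN, hM, hNM, m, hm⟩ := h
  rw [← Subgroup.relIndex_eq_one]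
  have h1 : ((S : Subgroup G) ⊔ N).relIndex M ∣ q ^ m := by
    rw [← hm]; exact Subgroup.relIndex_dvd_of_le_left M le_sup_right
  obtain ⟨j, -, hj⟩ := (Nat.dvd_prime_pow (Fact.out : q.Prime)).mp h1
  -- the index also divides the index of `S ⊔ N`
  have h2 : ((S : Subgroup G) ⊔ N).relIndex M ∣ (S : Subgroup G).index := by
    have e1 : ((S : Subgroup G) ⊔ N).relIndex M = ((S : Subgroup G) ⊔ N).relIndex (((S : Subgroup G) ⊔ N) ⊔ M) := by
      have a1 := Cfsg.Agent.Lib.Helper66Basic.card_inf_mul_relIndex_sup ((S : Subgroup G) ⊔ N) M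
      have a2 : Nat.card ↥(((S : Subgroup G) ⊔ N) ⊓ M) * ((S : Subgroup G) ⊔ N).relIndex M = Nat.card M := by
        have := Subgroup.relIndex_mul_relIndex ⊥ (((S : Subgroup G) ⊔ N) ⊓ M) M bot_le inf_le_right
        rwa [Subgroup.relIndex_bot_left, Subgroup.relIndex_bot_left, Subgroup.inf_relIndex_right] at this
      exact Nat.eq_of_mul_eq_mul_left Nat.card_pos (a2.trans a1.symm)
    rw [e1]
    exact (Subgroup.relIndex_dvd_index_of_le le_sup_left).trans
      (Subgroup.index_dvd_of_le le_sup_left)
  rcases Nat.eq_zero_or_pos j with h0 | h0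
  · rw [hj, h0, pow_zero]
  · exfalso
    apply S.not_dvd_index
    refine dvd_trans ?_ h2
    rw [hj]
    exact dvd_pow_self q h0.ne'

theorem D_le_of_PS [Finite G] {q : ℕ} [Fact q.Prime] {N M : Subgroup G} (h : PS q N M)
    (S : Sylow q G) {d : ℕ} (hd : derivedSeries ↥(S : Subgroup G) d = ⊥) : D d M ≤ N := by
  have hN := h.1
  have h1 : D d (S : Subgroup G) = ⊥ := by
    rw [← map_derivedSeries_eq_D, hd, Subgroup.map_bot]
  calc D d M ≤ D d ((S : Subgroup G) ⊔ N) := D_mono d (le_sylow_sup h S)
    _ ≤ D d (S : Subgroup G) ⊔ N := D_sup_le N _ d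
    _ = N := by rw [h1, bot_sup_eq]

/-- The Hall–Higman bound on derived length: let G be a finite solvable group, let p₁, …, p_r be distinct primes that include every prime dividing the order of G, and suppose that for each i the Sylow p_i-subgroups of G have derived length at most d_i and G has p_i-length at most l_i. Then G has derived length at most Σ d_i l_i. -/
theorem result {G : Type*} [Group G] [Finite G] (hG : Group.IsSolvable G) (r : ℕ) (q : Fin r → ℕ) (hq : ∀ i, (q i).Prime) (hinj : Function.Injective q) (hcover : ∀ s : ℕ, s.Prime → s ∣ Nat.card G → ∃ i, q i = s) (d l : Fin r → ℕ) (hd : ∀ i, ∀ P : Subgroup G, (haveI := Fact.mk (hq i); ∃ S : Sylow (q i) G, (S : Subgroup G) = P) → derivedSeries ↥P (d i) = ⊥) (hl : ∀ i, Cfsg.PLengthLE (q i) (l i) G) : derivedSeries G (Finset.univ.sum fun i => d i * l i) = ⊥ := by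
  classical
  have key : ∀ n : ℕ, ∀ l : Fin r → ℕ, (Finset.univ.sum fun i => l i) = n → ∀ K : Subgroup G,
      K.Normal → (∀ i, Len (q i) (l i) K ⊤) → D (Finset.univ.sum fun i => d i * l i) (⊤ : Subgroup G) ≤ K := by
    intro n
    induction n with
    | zero =>
      intro l hsum K hK hlen
      -- all l i = 0, so the index of K is coprime to all primes
      have hl0 : ∀ i, l i = 0 := by
        intro i
        have := (Finset.sum_eq_zero_iff.mp hsum) i (Finset.mem_univ i)
        exact this
      have h1 : K.relIndex ⊤ = 1 := by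
        by_contra hne
        obtain ⟨t, ht, htd⟩ := Nat.exists_prime_and_dvd hne
        have htG : t ∣ Nat.card G := by
          rw [Subgroup.relIndex_top_right] at htd
          exact htd.trans (Subgroup.index_dvd_card K)
        obtain ⟨i, hi⟩ := hcover t ht htG
        have h2 := hlen i
        rw [hl0 i] at h2
        have h3 : t ∣ Nat.gcd (K.relIndex ⊤) (q i) := Nat.dvd_gcd htd (by rw [hi])
        rw [h2.2.2.2] at h3
        exact ht.one_lt.ne' (Nat.dvd_one.mp h3)
      rw [Subgroup.relIndex_eq_one] at h1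
      exact le_top.trans h1
    | succ n ih =>
      intro l hsum K hK hlen
      -- for each i a normal subgroup N i
      have hN : ∀ i, ∃ N : Subgroup G, PP (q i) K N ∧
          D (Finset.univ.sum fun i => d i * l i) (⊤ : Subgroup G) ≤ N := by
        intro i
        rcases Nat.eq_zero_or_pos (l i) with h0 | h0
        · refine ⟨⊤, ?_, le_top⟩
          have := hlen i
          rwa [h0] at this
        · obtain ⟨k, hk⟩ := Nat.exists_eq_succ_of_ne_zero h0.ne'
          have h1 := hlen i
          rw [hk] at h1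
          obtain ⟨N, M, hKN, hNM, hM⟩ := Len.bottom h1
          refine ⟨N, hKN, ?_⟩
          let l' : Fin r → ℕ := Function.update l i k
          have hl'i : l' i = k := Function.update_self i k l
          have hl'j : ∀ j, j ≠ i → l' j = l j := fun j hj => Function.update_of_ne hj k l
          have hsum' : (Finset.univ.sum fun j => l' j) = n := by
            have e1 := Finset.add_sum_erase Finset.univ (fun j => l j) (Finset.mem_univ i)
            have e2 := Finset.add_sum_erase Finset.univ (fun j => l' j) (Finset.mem_univ i)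
            have e3 : (Finset.univ.erase i).sum (fun j => l' j) = (Finset.univ.erase i).sum (fun j => l j) :=
              Finset.sum_congr rfl (fun j hj => hl'j j (Finset.ne_of_mem_erase hj))
            rw [e3, hl'i] at e2
            omega
          have hdsum : (Finset.univ.sum fun j => d j * l j) = (Finset.univ.sum fun j => d j * l' j) + d i := by
            have e1 := Finset.add_sum_erase Finset.univ (fun j => d j * l j) (Finset.mem_univ i)
            have e2 := Finset.add_sum_erase Finset.univ (fun j => d j * l' j) (Finset.mem_univ i)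
            have e3 : (Finset.univ.erase i).sum (fun j => d j * l' j) = (Finset.univ.erase i).sum (fun j => d j * l j) :=
              Finset.sum_congr rfl (fun j hj => by rw [hl'j j (Finset.ne_of_mem_erase hj)])
            rw [e3, hl'i] at e2
            rw [hk] at e1
            rw [← e1, ← e2, Nat.succ_eq_add_one]
            ring
          have hKM : K ≤ M := hKN.2.2.1.trans hNM.2.2.1
          have h2 : D (Finset.univ.sum fun j => d j * l' j) (⊤ : Subgroup G) ≤ M := by
            apply ih l' hsum' M hNM.2.1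
            intro j
            by_cases hj : j = i
            · subst hj
              rw [hl'i]; exact hM
            · rw [hl'j j hj]
              exact (hlen j).upper (hq j) hNM.2.1 hKM
          rw [hdsum, D_add]
          have := Fact.mk (hq i)
          let S : Sylow (q i) G := Classical.arbitrary _
          exact (D_mono (d i) h2).trans (D_le_of_PS hNM S (hd i S ⟨S, rfl⟩))
      choose N hN1 hN2 using hN
      -- the intersection of the N i
      let I : Subgroup G := ⨅ i, N i
      have hDI : D (Finset.univ.sum fun i => d i * l i) (⊤ : Subgroup G) ≤ I := le_iInf hN2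
      have hKI : K ≤ I := le_iInf fun i => (hN1 i).2.2.1
      have h1 : K.relIndex I = 1 := by
        by_contra hne
        obtain ⟨t, ht, htd⟩ := Nat.exists_prime_and_dvd hne
        have htG : t ∣ Nat.card G :=
          htd.trans ((Subgroup.relIndex_dvd_card K I).trans (Subgroup.card_subgroup_dvd_card I))
        obtain ⟨i, hi⟩ := hcover t ht htG
        have h2 : K.relIndex I ∣ K.relIndex (N i) := relIndex_dvd_of_le_right (iInf_le _ i)
        have h3 : t ∣ Nat.gcd (K.relIndex (N i)) (q i) := Nat.dvd_gcd (htd.trans h2) (by rw [hi])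
        rw [(hN1 i).2.2.2] at h3
        exact ht.one_lt.ne' (Nat.dvd_one.mp h3)
      rw [Subgroup.relIndex_eq_one] at h1
      exact hDI.trans h1
  rw [derivedSeries_eq_D, eq_bot_iff]
  apply key _ l rfl ⊥ inferInstance
  intro i
  have := Fact.mk (hq i)
  exact len_of_pLengthLE (hl i)

end Cfsg.Agent.S3791
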