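import Cfsg.Statements.S3794
import Cfsg.Agent.Lib.Helper66Fpf
import Cfsg.Agent.Lib.Helper66Basic
import Cfsg.Agent.Lib.Helper1Fitting
import Cfsg.Agent.S3751
import Cfsg.Agent.S0552

set_option autoImplicit false
open Cfsg

namespace Cfsg.Agent.S3794

open Cfsg.Agent.Lib.Helper66Fpf Cfsg.Agent.S3751

section action3

variable {V : Type*} [CommGroup V] [Finite V] {X : Type*} [Group X] [Finite X]
  [MulDistribMulAction X V] [FaithfulSMul X V]

theorem conj_mem_of_normalizer {K : Subgroup X} {g : X} (hg : g ∈ Subgroup.normalizer (K : Set X))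
    {y : X} (hy : y ∈ K) : g⁻¹ * y * g ∈ K := by
  have h := (Subgroup.mem_normalizer_iff.mp (Subgroup.inv_mem _ hg) y).mp hy
  simpa using h

omit [Finite X] in
theorem comm_of_comm {t x : X} (ht2 : t * t = 1) (hodd : Odd (orderOf (x⁻¹ * (t * x * t⁻¹))))
    (htc : t * (x⁻¹ * (t * x * t⁻¹)) = (x⁻¹ * (t * x * t⁻¹)) * t) : t * x = x * t := by
  set c := x⁻¹ * (t * x * t⁻¹) with hcdef
  have e1 : t * x * t⁻¹ = x * c := by rw [hcdef]; group
  have e2 : t * c * t⁻¹ = c := by rw [htc]; group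
  have e3 : t * (t * x * t⁻¹) * t⁻¹ = x := by
    have : t * (t * x * t⁻¹) * t⁻¹ = (t * t) * x * (t * t)⁻¹ := by group
    rw [this, ht2]; group
  have e4 : t * (x * c) * t⁻¹ = (t * x * t⁻¹) * (t * c * t⁻¹) := by group
  rw [e1, e4, e1, e2] at e3
  have e5 : c * c = 1 := by
    have : x * (c * c) = x * 1 := by rw [mul_one, ← mul_assoc]; exact e3
    exact mul_left_cancel this
  have e6 : c = 1 := eq_one_of_sq_eq_one hodd e5
  rw [e6, mul_one] at e1
  exact mul_inv_eq_iff_eq_mul.mp e1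

theorem keyL {p : ℕ} [Fact p.Prime] (hV : IsPGroup p V) [Nontrivial V] (s t : X) (hst : t = s * s)
    (ht2 : t * t = 1) (hsV : ∀ v : V, s • v = v → v = 1)
    (H : Subgroup X) (hsol : Group.IsSolvable H) (hodd : Odd (Nat.card H))
    (hsH : ∀ x ∈ H, s * x * s⁻¹ ∈ H)
    (hfH : ∀ x ∈ H, s * x * s⁻¹ = x → x = 1)
    (h1 : ∀ x ∈ H, t * x = x * t → ∀ v : V, t • v = v → x • v = v)
    (hirr : ∀ U : Subgroup V, (∀ x ∈ H, ∀ u ∈ U, x • u ∈ U) → (∀ u ∈ U, s • u ∈ U) →
      U = ⊥ ∨ U = ⊤) :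
    ∀ x ∈ H, t * x = x * t := by
  have hsN : s ∈ Subgroup.normalizer (H : Set X) :=
    Cfsg.Agent.Lib.Helper66Basic.mem_normalizer_of_conj_mem H s hsH
  -- (a)
  have ha : ∀ y ∈ Op p H, y = 1 := by
    set P := Op p H with hP
    let U : Subgroup V :=
      { carrier := {v | ∀ y ∈ P, y • v = v}
        mul_mem' := by
          intro a b ha hb y hy
          rw [smul_mul', ha y hy, hb y hy]
        one_mem' := by
          intro y _
          rw [smul_one]
        inv_mem' := by
          intro a ha y hy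
          rw [smul_inv', ha y hy] }
    have hinvU : ∀ g ∈ Subgroup.normalizer (P : Set X), ∀ u ∈ U, g • u ∈ U := by
      intro g hg u hu y hy
      have h2 := hu _ (conj_mem_of_normalizer hg hy)
      have e : y • g • u = g • ((g⁻¹ * y * g) • u) := by
        rw [← mul_smul, ← mul_smul]; congr 1; group
      rw [e, h2]
    have hU := hirr U (fun x hx => hinvU x (le_normalizer_Op p H hx))
      (hinvU s (normalizer_le_normalizer_Op p H hsN))
    have hUne : U ≠ ⊥ := by
      have hdvd : p ∣ Nat.card V := by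
        rcases hV.card_eq_or_dvd with h | h
        · exact absurd h (Finite.one_lt_card).ne'
        · exact h
      have hPp : IsPGroup p P := Op_isPGroup p H
      obtain ⟨b, hb, hb1⟩ := hPp.exists_fixed_point_of_prime_dvd_card_of_fixed_point V hdvd
        (a := 1) (by
          intro y
          exact smul_one _)
      intro hbot
      have : b ∈ U := by
        intro y hy
        exact hb ⟨y, hy⟩
      rw [hbot, Subgroup.mem_bot] at this
      exact hb1 this.symm
    have hUtop : U = ⊤ := hU.resolve_left hUne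
    intro y hy
    apply FaithfulSMul.eq_of_smul_eq_smul (α := V)
    intro v
    rw [one_smul]
    have : v ∈ U := by rw [hUtop]; exact Subgroup.mem_top v
    exact this y hy
  -- (b)
  have hb : ∀ q : ℕ, q.Prime → ∀ y ∈ Op q H, t * y = y * t := by
    intro q hq y hy
    by_cases hqp : q = p
    · subst hqp
      rw [ha y hy, mul_one, one_mul]
    have := Fact.mk hq
    have hQH : Op q H ≤ H := Op_le q H
    have hsolQ : Group.IsSolvable (Op q H) :=
      Group.isSolvable_of_isSolvable_injective (Subgroup.inclusion_injective hQH)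
    have hcop : (Nat.card V).Coprime (Nat.card (Op q H)) := by
      obtain ⟨a, ha'⟩ := IsPGroup.iff_card.mp hV
      obtain ⟨b, hb'⟩ := IsPGroup.iff_card.mp (Op_isPGroup q H)
      rw [ha', hb']
      exact Nat.Coprime.pow _ _ ((Nat.coprime_primes (Fact.out) hq).mpr (Ne.symm hqp))
    have hoddQ : Odd (Nat.card (Op q H)) := Odd.of_dvd_nat hodd (Subgroup.card_dvd_of_le hQH)
    have hsQ : ∀ x ∈ Op q H, s * x * s⁻¹ ∈ Op q H := by
      intro x hx
      exact (Subgroup.mem_normalizer_iff.mp (normalizer_le_normalizer_Op q H hsN) x).mp hx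
    exact keyK (V := V) s t hst ht2 hsV (Op q H) hsolQ hcop hoddQ (fun x hx => hfH x (hQH hx))
      (fun x hx => h1 x (hQH hx)) _ (Op q H) rfl le_rfl hsQ y hy
  -- (c)
  set F := (Cfsg.fittingSubgroup ↥H).map H.subtype with hF
  have hc : ∀ f ∈ F, t * f = f * t := by
    have : F ≤ Subgroup.centralizer ({t} : Set X) := by
      rw [hF, Cfsg.Agent.Lib.Helper1Fitting.fitting_eq_iSup_pCore, Subgroup.map_iSup]
      apply iSup_le
      intro q y hy
      rw [Subgroup.mem_centralizer_singleton_iff]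
      exact (hb q q.2 y hy).symm
    intro f hf
    exact (Subgroup.mem_centralizer_singleton_iff.mp (this hf)).symm
  have hFn : ∀ x ∈ H, ∀ f ∈ F, x * f * x⁻¹ ∈ F := by
    rintro x hx _ ⟨f, hf, rfl⟩
    exact ⟨⟨x, hx⟩ * f * ⟨x, hx⟩⁻¹,
      (Cfsg.Agent.Lib.Helper1Fitting.fitting_normal).conj_mem f hf _, rfl⟩
  have htH : ∀ x ∈ H, t * x * t⁻¹ ∈ H := by
    intro x hx
    have := hsH _ (hsH x hx)
    have e : t * x * t⁻¹ = s * (s * x * s⁻¹) * s⁻¹ := by rw [hst]; group
    rw [e]; exact this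
  intro x hx
  have hcH : x⁻¹ * (t * x * t⁻¹) ∈ H := H.mul_mem (H.inv_mem hx) (htH x hx)
  apply comm_of_comm ht2 (odd_orderOf hodd hcH)
  apply hc
  have hcen : (⟨x⁻¹ * (t * x * t⁻¹), hcH⟩ : H) ∈
      Subgroup.centralizer (Cfsg.fittingSubgroup ↥H : Set ↥H) := by
    rw [Subgroup.mem_centralizer_iff]
    intro f hf
    apply Subtype.ext
    have hfF : (f : X) ∈ F := ⟨f, hf, rfl⟩
    show (f : X) * (x⁻¹ * (t * x * t⁻¹)) = (x⁻¹ * (t * x * t⁻¹)) * (f : X)
    have ha' : t⁻¹ * (f : X) * t = f := by rw [mul_assoc, ← hc f hfF]; group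
    have hb' : t * (x * f * x⁻¹) * t⁻¹ = x * f * x⁻¹ := by
      rw [hc _ (hFn x hx f hfF)]; group
    have e : (x⁻¹ * (t * x * t⁻¹)) * f * (x⁻¹ * (t * x * t⁻¹))⁻¹
        = x⁻¹ * (t * (x * (t⁻¹ * f * t) * x⁻¹) * t⁻¹) * x := by group
    rw [ha', hb'] at e
    have e2 : x⁻¹ * (x * (f : X) * x⁻¹) * x = f := by group
    rw [e2] at e
    exact (mul_inv_eq_iff_eq_mul.mp e).symm
  exact ⟨_, Cfsg.Agent.S0552.centralizer_fitting_le hcen, rfl⟩

end action3

section main

variable {G : Type*} [Group G] [Finite G]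

theorem abelian_of_min (hsol : Group.IsSolvable G) (σ : MulAut G) (V : Subgroup G) [V.Normal]
    (hVne : V ≠ ⊥) (hσV : ∀ v ∈ V, σ v ∈ V)
    (hmin : ∀ W : Subgroup G, W.Normal → (∀ w ∈ W, σ w ∈ W) → W ≤ V → W = ⊥ ∨ W = V) :
    ∀ a ∈ V, ∀ b ∈ V, a * b = b * a := by
  have hlt : ⁅V, V⁆ < V := Group.IsSolvable.commutator_lt_of_ne_bot hVne
  have hinv : ∀ w ∈ ⁅V, V⁆, σ w ∈ ⁅V, V⁆ := by
    have : ⁅V, V⁆ ≤ (⁅V, V⁆).comap σ.toMonoidHom := by
      rw [Subgroup.commutator_le]
      intro a ha b hb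
      show σ _ ∈ ⁅V, V⁆
      rw [map_commutatorElement]
      exact Subgroup.commutator_mem_commutator (hσV a ha) (hσV b hb)
    intro w hw
    exact this hw
  have h0 : ⁅V, V⁆ = ⊥ := (hmin _ inferInstance hinv hlt.le).resolve_right hlt.ne
  rw [Subgroup.commutator_eq_bot_iff_le_centralizer] at h0
  intro a ha b hb
  exact (Subgroup.mem_centralizer_iff.mp (h0 hb) a ha)

theorem exponent_of_min (σ : MulAut G) (V : Subgroup G) [V.Normal]
    (hVne : V ≠ ⊥)
    (hmin : ∀ W : Subgroup G, W.Normal → (∀ w ∈ W, σ w ∈ W) → W ≤ V → W = ⊥ ∨ W = V)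
    (hσV : ∀ v ∈ V, σ v ∈ V)
    (hab : ∀ a ∈ V, ∀ b ∈ V, a * b = b * a) :
    ∃ p : ℕ, p.Prime ∧ ∀ v ∈ V, v ^ p = 1 := by
  have hc : Nat.card V ≠ 1 := ((Subgroup.one_lt_card_iff_ne_bot V).mpr hVne).ne'
  obtain ⟨p, hp, hdvd⟩ := Nat.exists_prime_and_dvd hc
  refine ⟨p, hp, ?_⟩
  have := Fact.mk hp
  obtain ⟨x, hx⟩ := exists_prime_orderOf_dvd_card' p hdvd
  let W : Subgroup G :=
    { carrier := {v | v ∈ V ∧ v ^ p = 1}
      mul_mem' := by
        rintro a b ⟨ha, ha'⟩ ⟨hb, hb'⟩
        refine ⟨V.mul_mem ha hb, ?_⟩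
        rw [(show Commute a b from hab a ha b hb).mul_pow, ha', hb', one_mul]
      one_mem' := ⟨V.one_mem, one_pow _⟩
      inv_mem' := by
        rintro a ⟨ha, ha'⟩
        exact ⟨V.inv_mem ha, by rw [inv_pow, ha', inv_one]⟩ }
  have hWn : W.Normal := by
    constructor
    rintro a ⟨ha, ha'⟩ g
    exact ⟨‹V.Normal›.conj_mem a ha g, by rw [conj_pow, ha']; group⟩
  have hWσ : ∀ w ∈ W, σ w ∈ W := by
    rintro a ⟨ha, ha'⟩
    exact ⟨hσV a ha, by rw [← map_pow, ha', map_one]⟩
  have hWV : W ≤ V := fun a ha => ha.1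
  have hWne : W ≠ ⊥ := by
    intro hbot
    have h1 : (x : G) ∈ W := by
      refine ⟨x.2, ?_⟩
      have := pow_orderOf_eq_one x
      rw [hx] at this
      exact congrArg Subtype.val this
    rw [hbot, Subgroup.mem_bot] at h1
    have h2 : x = 1 := Subtype.ext h1
    rw [h2, orderOf_one] at hx
    exact hp.one_lt.ne hx
  have hWV' : W = V := (hmin W hWn hWσ hWV).resolve_left hWne
  intro v hv
  rw [← hWV'] at hv
  exact hv.2

theorem step (hsol : Group.IsSolvable G) (σ : MulAut G) (hσ : ∀ g, σ (σ (σ (σ g))) = g)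
    (hf : ∀ g, σ g = g → g = 1) (hodd : Odd (Nat.card G)) (V : Subgroup G) [V.Normal]
    (hVne : V ≠ ⊥) (hσV : ∀ v ∈ V, σ v ∈ V)
    (hmin : ∀ W : Subgroup G, W.Normal → (∀ w ∈ W, σ w ∈ W) → W ≤ V → W = ⊥ ∨ W = V) :
    ∀ g : G, ∀ v ∈ V, (g⁻¹ * σ (σ g)) * v = v * (g⁻¹ * σ (σ g)) := by
  have hab := abelian_of_min hsol σ V hVne hσV hmin
  obtain ⟨p, hp, hexp⟩ := exponent_of_min σ V hVne hmin hσV hab
  have := Fact.mk hp
  let _ : CommGroup V := { (inferInstance : Group V) with
    mul_comm := fun a b => Subtype.ext (hab a a.2 b b.2) }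
  have hVp : IsPGroup p V := by
    intro v
    refine ⟨1, ?_⟩
    rw [pow_one]
    exact Subtype.ext (hexp v v.2)
  have hVnt : Nontrivial V := (Subgroup.nontrivial_iff_ne_bot V).mpr hVne
  let φ : G →* MulAut V := MulAut.conjNormal
  let f : V →* V :=
    { toFun := fun v => ⟨σ v, hσV v v.2⟩
      map_one' := Subtype.ext (map_one σ)
      map_mul' := fun a b => Subtype.ext (map_mul σ (a : G) (b : G)) }
  have hfinj : Function.Injective f := by
    intro a b h
    exact Subtype.ext (σ.injective (congrArg Subtype.val h))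
  let s : MulAut V := MulEquiv.ofBijective f (Finite.injective_iff_bijective.mp hfinj)
  have hs : ∀ v : V, ((s v : V) : G) = σ v := fun v => rfl
  have hφ : ∀ (g : G) (v : V), ((φ g v : V) : G) = g * v * g⁻¹ := fun g v =>
    MulAut.conjNormal_apply g v
  have hφσ : ∀ g, s * φ g * s⁻¹ = φ (σ g) := by
    intro g
    rw [mul_inv_eq_iff_eq_mul]
    ext v
    rw [MulAut.mul_apply, MulAut.mul_apply, hs, hφ, hφ, hs, map_mul, map_mul, map_inv]
  set t : MulAut V := s * s with ht
  have htv : ∀ v : V, ((t v : V) : G) = σ (σ v) := fun v => rfl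
  have ht2 : t * t = 1 := by
    ext v
    rw [MulAut.mul_apply, htv, htv, hσ]
    rfl
  have hφτ : ∀ g, t * φ g * t⁻¹ = φ (σ (σ g)) := by
    intro g
    rw [← hφσ, ← hφσ, ht]
    group
  have hsV : ∀ v : V, s • v = v → v = 1 := by
    intro v hv
    apply Subtype.ext
    apply hf
    have := congrArg Subtype.val hv
    exact this
  set C := φ.ker with hC
  have hσC : ∀ c ∈ C, σ c ∈ C := by
    intro c hc
    rw [hC, MonoidHom.mem_ker] at hc ⊢
    rw [← hφσ, hc]
    group
  have hoddx : ∀ x : G, Odd (orderOf x) := fun x => Odd.of_dvd_nat hodd (orderOf_dvd_natCard x)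
  have key := keyL (V := V) (X := MulAut V) hVp s t ht ht2 hsV φ.range
    (Group.isSolvable_of_surjective φ.rangeRestrict_surjective)
    (Odd.of_dvd_nat hodd (Subgroup.card_range_dvd φ))
    (by
      rintro _ ⟨g, rfl⟩
      exact ⟨σ g, (hφσ g).symm⟩)
    (by
      rintro _ ⟨g, rfl⟩ h
      rw [hφσ] at h
      have h1 : g⁻¹ * σ g ∈ C := by
        rw [hC, MonoidHom.mem_ker, map_mul, map_inv, h, inv_mul_cancel]
      have h2 := mem_of_lang σ hf C hσC h1
      exact h2)
    (by
      rintro _ ⟨g, rfl⟩ h v hv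
      have h0 : φ (σ (σ g)) = φ g := by
        rw [← hφτ, h]; group
      set c := g⁻¹ * σ (σ g) with hc
      have hcC : c ∈ C := by
        rw [hC, MonoidHom.mem_ker, hc, map_mul, map_inv, h0, inv_mul_cancel]
      have hτc : σ (σ c) = c⁻¹ := by
        rw [hc, map_mul, map_mul, map_inv, map_inv, hσ]; group
      obtain ⟨m, hm⟩ := hoddx c
      set d := c ^ (m + 1) with hd
      have hdd : d * d = c := by
        rw [hd, ← pow_add]
        have : m + 1 + (m + 1) = orderOf c + 1 := by omega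
        rw [this, pow_succ, pow_orderOf_eq_one, one_mul]
      have hdC : d ∈ C := C.pow_mem hcC _
      have hτd : σ (σ d) = d⁻¹ := by
        rw [hd, map_pow, map_pow, hτc, inv_pow]
      have hgd : σ (σ (g * d)) = g * d := by
        rw [map_mul, map_mul, hτd]
        have : σ (σ g) = g * c := by rw [hc]; group
        rw [this, ← hdd]; group
      have hv' : σ (σ (v : G)) = v := congrArg Subtype.val hv
      have hcomm := fixed_sq_comm σ hf hgd hv'
      have hφd : φ d = 1 := hdC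
      have e : φ g = φ (g * d) := by rw [map_mul, hφd, mul_one]
      rw [e]
      apply Subtype.ext
      show ((φ (g * d) v : V) : G) = v
      rw [hφ, hcomm]; group)
    (by
      intro U hU1 hU2
      have hn : (U.map V.subtype).Normal := by
        constructor
        rintro _ ⟨u, hu, rfl⟩ g
        exact ⟨φ g u, hU1 _ ⟨g, rfl⟩ u hu, hφ g u⟩
      have hσU : ∀ w ∈ U.map V.subtype, σ w ∈ U.map V.subtype := by
        rintro _ ⟨u, hu, rfl⟩
        exact ⟨s u, hU2 u hu, hs u⟩
      rcases hmin _ hn hσU (Subgroup.map_subtype_le U) with h | h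
      · left
        exact (Subgroup.map_eq_bot_iff_of_injective U V.subtype_injective).mp h
      · right
        rw [eq_top_iff]
        intro v _
        have : (v : G) ∈ U.map V.subtype := by rw [h]; exact v.2
        obtain ⟨u, hu, huv⟩ := this
        have : u = v := Subtype.ext huv
        rwa [← this])
  intro g v hv
  have h1 := key (φ g) ⟨g, rfl⟩
  have h0 : φ (σ (σ g)) = φ g := by
    rw [← hφτ, h1]; group
  have h2 : φ (g⁻¹ * σ (σ g)) = 1 := by rw [map_mul, map_inv, h0, inv_mul_cancel]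
  have h3 := hφ (g⁻¹ * σ (σ g)) ⟨v, hv⟩
  rw [h2] at h3
  have h4 : v = g⁻¹ * σ (σ g) * v * (g⁻¹ * σ (σ g))⁻¹ := h3
  exact (eq_mul_inv_iff_mul_eq.mp h4).symm

end main

theorem main.{u} : ∀ n : ℕ, ∀ (G : Type u) [Group G] [Finite G], Nat.card G = n →
    Group.IsSolvable G → ∀ σ : MulAut G, (∀ g, σ (σ (σ (σ g))) = g) → (∀ g, σ g = g → g = 1) →
    Odd (Nat.card G) →
    ∃ N : Subgroup G, N.Normal ∧ Group.IsNilpotent N ∧ ∀ g, g⁻¹ * σ (σ g) ∈ N := by
  intro n
  induction n using Nat.strong_induction_on with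
  | _ n ih =>
  intro G _ _ hn hsol σ hσ hf hodd
  by_cases hG : Subsingleton G
  · refine ⟨⊥, inferInstance, inferInstance, ?_⟩
    intro g
    rw [Subgroup.mem_bot]
    exact Subsingleton.elim _ _
  rw [not_subsingleton_iff_nontrivial] at hG
  let S : Set (Subgroup G) := {V | V ≠ ⊥ ∧ V.Normal ∧ ∀ v ∈ V, σ v ∈ V}
  have hSne : S.Nonempty := ⟨⊤, top_ne_bot, inferInstance, fun _ _ => Subgroup.mem_top _⟩
  obtain ⟨V, hV⟩ := (Set.toFinite S).exists_minimal hSne
  obtain ⟨hVne, hVn, hσV⟩ := hV.prop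
  have hmin : ∀ W : Subgroup G, W.Normal → (∀ w ∈ W, σ w ∈ W) → W ≤ V → W = ⊥ ∨ W = V := by
    intro W hWn hWσ hWV
    by_cases hW : W = ⊥
    · exact Or.inl hW
    · exact Or.inr (hV.eq_of_le ⟨hW, hWn, hWσ⟩ hWV)
  have hstep := step hsol σ hσ hf hodd V hVne hσV hmin
  have hmap : V.map (σ : G →* G) = V := by
    apply Subgroup.eq_of_le_of_card_ge
    · rintro _ ⟨v, hv, rfl⟩
      exact hσV v hv
    · rw [Subgroup.card_map_of_injective σ.injective]
  let σ' : MulAut (G ⧸ V) := QuotientGroup.congr V V σ hmap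
  have hσ' : ∀ g : G, σ' (g : G ⧸ V) = ((σ g : G) : G ⧸ V) := fun g =>
    QuotientGroup.congr_mk V V σ hmap g
  have hcard := Subgroup.card_eq_card_quotient_mul_card_subgroup V
  have hV1 : 1 < Nat.card V := (Subgroup.one_lt_card_iff_ne_bot V).mpr hVne
  have hlt : Nat.card (G ⧸ V) < n := by
    rw [← hn, hcard]
    have : 0 < Nat.card (G ⧸ V) := Nat.card_pos
    nlinarith
  obtain ⟨N', hN'n, hN'nil, hN'⟩ := ih _ hlt (G ⧸ V) rfl inferInstance σ'
    (by
      intro x
      induction x using QuotientGroup.induction_on with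
      | H g => rw [hσ', hσ', hσ', hσ', hσ])
    (by
      intro x
      induction x using QuotientGroup.induction_on with
      | H g =>
        intro h
        rw [hσ', eq_comm, QuotientGroup.eq] at h
        rw [QuotientGroup.eq_one_iff]
        exact mem_of_lang σ hf V hσV h)
    (Odd.of_dvd_nat hodd (Dvd.intro _ hcard.symm))
  refine ⟨N'.comap (QuotientGroup.mk' V) ⊓ Subgroup.centralizer (V : Set G), inferInstance, ?_, ?_⟩
  · set N := N'.comap (QuotientGroup.mk' V) ⊓ Subgroup.centralizer (V : Set G) with hN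
    let f : N →* N' := ((QuotientGroup.mk' V).comp N.subtype).codRestrict N' (fun x => x.2.1)
    apply Subgroup.isNilpotent_of_ker_le_center f
    intro x hx
    rw [MonoidHom.mem_ker] at hx
    have h1 : ((x : G) : G ⧸ V) = 1 := congrArg Subtype.val hx
    rw [QuotientGroup.eq_one_iff] at h1
    rw [Subgroup.mem_center_iff]
    intro y
    apply Subtype.ext
    exact (Subgroup.mem_centralizer_iff.mp y.2.2 x h1).symm
  · intro g
    rw [Subgroup.mem_inf]
    constructor
    · rw [Subgroup.mem_comap]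
      have := hN' (g : G ⧸ V)
      rw [hσ', hσ'] at this
      exact this
    · rw [Subgroup.mem_centralizer_iff]
      intro v hv
      exact (hstep g v hv).symm

/-- Let G be a finite solvable group with an automorphism σ satisfying σ⁴ = 1 and fixing only the identity. Then the derived subgroup G' is nilpotent. -/
theorem result {G : Type*} [Group G] [Finite G] (hG : Group.IsSolvable G) (σ : MulAut G) (hσ : σ ^ 4 = 1) (hfpf : ∀ g : G, σ g = g → g = 1) : Group.IsNilpotent (commutator G) := by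
  have hσ4 : ∀ g, σ (σ (σ (σ g))) = g := by
    intro g
    have := DFunLike.congr_fun hσ g
    simpa [pow_succ, MulAut.mul_apply] using this
  obtain ⟨N, hNn, hNnil, hN⟩ := main _ G rfl hG σ hσ4 hfpf (odd_card_of_fpf σ hσ hfpf)
  have hinv : ∀ g : G, ((σ g : G) : G ⧸ N) = (g : G ⧸ N)⁻¹ := by
    intro g
    obtain ⟨h, _, rfl⟩ := lang σ ⊤ (fun _ _ => Subgroup.mem_top _) (fun x _ => hfpf x) g
      (Subgroup.mem_top g)
    rw [← QuotientGroup.mk_inv, eq_comm, QuotientGroup.eq]
    have e : (h⁻¹ * σ h)⁻¹⁻¹ * σ (h⁻¹ * σ h) = h⁻¹ * σ (σ h) := by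
      rw [map_mul, map_inv]; group
    rw [e]
    exact hN h
  have hle : commutator G ≤ N := by
    rw [commutator_def, Subgroup.commutator_le]
    intro a _ b _
    rw [← QuotientGroup.eq_one_iff, commutatorElement_def]
    have h1 := hinv (a * b)
    rw [map_mul, QuotientGroup.mk_mul, hinv, hinv, QuotientGroup.mk_mul, mul_inv_rev] at h1
    have h2 : (a : G ⧸ N) * b = b * a := by
      have := congrArg (·⁻¹) h1
      simpa using this.symm
    rw [QuotientGroup.mk_mul, QuotientGroup.mk_mul, QuotientGroup.mk_mul, h2,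
      QuotientGroup.mk_inv, QuotientGroup.mk_inv]
    group
  exact Subgroup.isNilpotent_of_ker_le_center (Subgroup.inclusion hle) (by
    rw [(Subgroup.inclusion hle).ker_eq_bot (Subgroup.inclusion_injective hle)]
    exact bot_le)

end Cfsg.Agent.S3794
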