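import Cfsg.Statements.S3797
import Cfsg.Agent.Lib.H16ThCore
import Cfsg.Agent.Lib.H16ThRed
import Cfsg.Agent.Lib.H16ThNS
import Cfsg.Agent.Lib.H16ThY
import Cfsg.Agent.Lib.H16ThHomo
import Cfsg.Agent.Lib.Helper66GY

set_option autoImplicit false
open Cfsg

namespace Cfsg.Agent.S3797

open Subgroup Cfsg.Agent.Lib.Helper14CoreB Cfsg.Agent.Lib.Helper66PLen Cfsg.Agent.Lib

/-- Let G be a finite solvable group of even order whose Sylow 2-subgroups contain more than one involution, and suppose all involutions of G are conjugate. Then G has 2-length at most 1, and a Sylow 2-subgroup S of G is either homocyclic (a direct product of cyclic groups of one common order) or a non-abelian 2-group with more than one involution admitting a solvable group of automorphisms transitive on its involutions. -/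
theorem result {G : Type*} [Group G] [Finite G] (hG : Group.IsSolvable G) (heven : Even (Nat.card G)) (S : Sylow 2 G) (htwo : ∃ x y : G, x ∈ (S : Subgroup G) ∧ y ∈ (S : Subgroup G) ∧ x ≠ y ∧ x ≠ 1 ∧ x ^ 2 = 1 ∧ y ≠ 1 ∧ y ^ 2 = 1) (hconj : ∀ x y : G, x ≠ 1 → x ^ 2 = 1 → y ≠ 1 → y ^ 2 = 1 → IsConj x y) : Cfsg.PLengthLE 2 1 G ∧ ((∃ m r : ℕ, Nonempty (↥(S : Subgroup G) ≃* (Fin r → Multiplicative (ZMod (2 ^ m))))) ∨ (¬ IsMulCommutative (S : Subgroup G) ∧ ∃ Y : Subgroup (MulAut ↥(S : Subgroup G)), Group.IsSolvable Y ∧ ∀ x y : ↥(S : Subgroup G), x ≠ 1 → x ^ 2 = 1 → y ≠ 1 → y ^ 2 = 1 → ∃ a ∈ Y, a x = y)) := by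
  haveI : Fact (Nat.Prime 2) := ⟨Nat.prime_two⟩
  set N := pPrimeCore 2 G with hN
  have hNn : N.Normal := by rw [hN]; infer_instance
  set π := QuotientGroup.mk' N with hπ
  have hπs : Function.Surjective π := QuotientGroup.mk'_surjective N
  have hNcop : (Nat.card N).Coprime 2 := card_pPrimeCore_coprime 2
  have hbot : pPrimeCore 2 (G ⧸ N) = ⊥ := pPrimeCore_quotient_eq_bot 2
  have hsq : Group.IsSolvable (G ⧸ N) := inferInstance
  obtain ⟨hconj', htwo'⟩ := H16ThRed.red S htwo hconj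
  have hidx : (pCore 2 (G ⧸ N)).index.Coprime 2 := H16ThCore.core hsq hbot hconj' htwo'
  constructor
  · apply pLengthLE_of_len
    have hPn : (pCore 2 (G ⧸ N)).Normal := inferInstance
    refine ⟨N, (pCore 2 (G ⧸ N)).comap π, ?_, ?_, ?_⟩
    · refine ⟨normal_bot, hNn, bot_le, ?_⟩
      rw [relIndex_bot_left]
      exact hNcop
    · refine ⟨hNn, hPn.comap π, le_comap_mk N _, ?_⟩
      rw [relIndex_comap_mk]
      exact (IsPGroup.iff_card).mp (pCore_isPGroup 2)
    · refine ⟨hPn.comap π, normal_top, le_top, ?_⟩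
      rw [relIndex_top_right, index_comap_of_surjective _ hπs]
      exact hidx
  · obtain ⟨Y, hYs, hY⟩ := H16ThY.exists_Y hG (S : Subgroup G) (fun x hx y hy hx1 hx2 hy1 hy2 =>
      H16ThNS.conj_in_normalizer S hidx x y hx hy (hconj x y hx1 hx2 hy1 hy2))
    by_cases hc : IsMulCommutative (S : Subgroup G)
    · left
      apply H16ThHomo.homocyclic (fun a b => hc.is_comm.comm a b) S.isPGroup'
      intro x y hx1 hx2 hy1 hy2
      obtain ⟨a, _, ha⟩ := hY x y hx1 hx2 hy1 hy2
      exact ⟨a, ha⟩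
    · right
      exact ⟨hc, Y, hYs, hY⟩

end Cfsg.Agent.S3797
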