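import Cfsg.Statements.S3798
import Cfsg.Agent.Lib.Helper66GY

set_option autoImplicit false
open Cfsg

namespace Cfsg.Agent.S3798

open Subgroup Cfsg.Agent.Lib.Helper14CoreB Cfsg.Agent.Lib.Helper66GY Cfsg.Agent.Lib.Helper66PLen

/-- a subgroup of order `p` of `G / O_{p'}(G)` is generated by the image of an element of
order `p`. -/
theorem exists_lift {G : Type*} [Group G] [Finite G] {p : ℕ} [Fact p.Prime]
    (U : Subgroup (G ⧸ pPrimeCore p G)) (hU : Nat.card U = p) :
    ∃ y : G, orderOf y = p ∧ zpowers (QuotientGroup.mk' (pPrimeCore p G) y) = U := by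
  have hpp : p.Prime := Fact.out
  set N := pPrimeCore p G with hN
  set π := QuotientGroup.mk' N with hπ
  have hNcop : (Nat.card N).Coprime p := card_pPrimeCore_coprime p
  have hnt : Nontrivial U := by
    rw [← Finite.one_lt_card_iff_nontrivial, hU]
    exact hpp.one_lt
  obtain ⟨u, hu⟩ := exists_ne (1 : U)
  have hu1 : (u : G ⧸ N) ≠ 1 := fun h => hu (Subtype.ext h)
  have hup : (u : G ⧸ N) ^ p = 1 := by
    have : u ^ p = 1 := by
      have h0 : u ^ Nat.card U = 1 := pow_card_eq_one'
      rwa [hU] at h0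
    have := congrArg Subtype.val this
    simpa using this
  have huo : orderOf (u : G ⧸ N) = p := orderOf_eq_prime hup hu1
  obtain ⟨x, hx⟩ := QuotientGroup.mk'_surjective N (u : G ⧸ N)
  have hxN : x ^ p ∈ N := by
    rw [← QuotientGroup.eq_one_iff]
    have : π (x ^ p) = 1 := by rw [map_pow, hx, hup]
    exact this
  set m := orderOf (x ^ p) with hm
  have hmdvd : m ∣ Nat.card N := by
    have : orderOf (⟨x ^ p, hxN⟩ : N) = m := by
      rw [hm, ← orderOf_coe]
    rw [← this]
    exact orderOf_dvd_natCard _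
  have hmcop : m.Coprime p := Nat.Coprime.coprime_dvd_left hmdvd hNcop
  have hyp : (x ^ m) ^ p = 1 := by
    rw [← pow_mul, mul_comm, pow_mul, hm, pow_orderOf_eq_one]
  have hπy : π (x ^ m) = (u : G ⧸ N) ^ m := by rw [map_pow, hx]
  have hπy1 : π (x ^ m) ≠ 1 := by
    rw [hπy]
    intro h1
    have := orderOf_dvd_of_pow_eq_one h1
    rw [huo] at this
    have h2 : p ∣ Nat.gcd m p := Nat.dvd_gcd this dvd_rfl
    rw [hmcop.gcd_eq_one] at h2
    exact hpp.one_lt.ne' (Nat.dvd_one.mp h2)
  have hy1 : x ^ m ≠ 1 := by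
    intro h1
    apply hπy1
    rw [h1, map_one]
  refine ⟨x ^ m, orderOf_eq_prime hyp hy1, ?_⟩
  apply eq_of_le_of_card_ge
  · rw [zpowers_le, hπy]
    exact U.pow_mem u.2 m
  · rw [Nat.card_zpowers, hU]
    have : orderOf (π (x ^ m)) = p := by
      apply orderOf_eq_prime _ hπy1
      rw [← map_pow, hyp, map_one]
    rw [this]

/-- The Gaschütz–Yen Theorem: let G be a finite p-soluble group, p an odd prime dividing its order, such that the automorphism group of G permutes the subgroups of G of order p transitively. Then G has p-length at most 1. -/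
theorem result {G : Type*} [Group G] [Finite G] {p : ℕ} [Fact p.Prime] (hp : p ≠ 2) (hdvd : p ∣ Nat.card G) (hG : Cfsg.IsPSolvable p G) (htrans : ∀ U V : Subgroup G, Nat.card U = p → Nat.card V = p → ∃ a : MulAut G, U.map a.toMonoidHom = V) : Cfsg.PLengthLE p 1 G := by
  set N := pPrimeCore p G with hN
  have hNn : N.Normal := by rw [hN]; infer_instance
  set π := QuotientGroup.mk' N with hπ
  have hπs : Function.Surjective π := QuotientGroup.mk'_surjective N
  have hNcop : (Nat.card N).Coprime p := card_pPrimeCore_coprime p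
  have hNinv : ∀ (φ : MulAut G) (x : G), x ∈ N → φ x ∈ N := fun φ x hx => pPrimeCore_aut p φ hx
  have hs : IsPSolvable p (G ⧸ N) := Cfsg.Agent.Lib.Helper14PSolvQ.isPSolvable_quotient N hG
  have hbot : pPrimeCore p (G ⧸ N) = ⊥ := pPrimeCore_quotient_eq_bot p
  have ht : Trans p (G ⧸ N) := by
    intro U V hU hV
    obtain ⟨y, hy, hyU⟩ := exists_lift U hU
    obtain ⟨z, hz, hzV⟩ := exists_lift V hV
    obtain ⟨a, ha⟩ := htrans (zpowers y) (zpowers z) (by rw [Nat.card_zpowers, hy])
      (by rw [Nat.card_zpowers, hz])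
    refine ⟨quotAut N hNinv a, ?_⟩
    rw [← hyU, ← hzV, MonoidHom.map_zpowers]
    have h1 : (quotAut N hNinv a).toMonoidHom (QuotientGroup.mk' N y) = QuotientGroup.mk' N (a y) :=
      quotAut_mk N hNinv a y
    rw [h1, ← MonoidHom.map_zpowers (QuotientGroup.mk' (pPrimeCore p G)) z, ← ha,
      MonoidHom.map_zpowers, MonoidHom.map_zpowers]
    rfl
  have hidx := index_pCore_coprime hp hs hbot ht
  apply pLengthLE_of_len
  have hPn : (pCore p (G ⧸ N)).Normal := inferInstance
  refine ⟨N, (pCore p (G ⧸ N)).comap π, ?_, ?_, ?_⟩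
  · refine ⟨normal_bot, hNn, bot_le, ?_⟩
    rw [relIndex_bot_left]
    exact hNcop
  · refine ⟨hNn, hPn.comap π, le_comap_mk N _, ?_⟩
    rw [relIndex_comap_mk]
    exact (IsPGroup.iff_card).mp (pCore_isPGroup p)
  · refine ⟨hPn.comap π, normal_top, le_top, ?_⟩
    rw [relIndex_top_right, index_comap_of_surjective _ hπs]
    exact hidx

end Cfsg.Agent.S3798
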