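import Cfsg.Statements.S3799
import Mathlib
import Cfsg.Agent.Lib.Helper21Heis

set_option autoImplicit false
open Cfsg

namespace Cfsg.Agent.S3799

/-- For every odd prime p and every n ≥ 1 there is an extraspecial p-group of order p^(1+2n) and exponent p; concretely, the general linear group of degree n + 2 over the field with p elements contains such a subgroup. -/
theorem result (p : ℕ) [Fact p.Prime] (hp : p ≠ 2) (n : ℕ) (hn : 1 ≤ n) : ∃ E : Subgroup (Matrix.GeneralLinearGroup (Fin (n + 2)) (ZMod p)), Cfsg.IsExtraspecial p ↥E ∧ Nat.card E = p ^ (1 + 2 * n) ∧ ∀ x ∈ E, x ^ p = 1 := by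
  classical
  have hpp : p.Prime := Fact.out
  have hfr : Module.finrank (ZMod p) (Cfsg.Agent.Lib.Helper21Heis.W n (ZMod p)) = n + 2 := by
    rw [Module.finrank_prod, Module.finrank_prod, Module.finrank_self, Module.finrank_fin_fun]
    ring
  let B : Module.Basis (Fin (n + 2)) (ZMod p) (Cfsg.Agent.Lib.Helper21Heis.W n (ZMod p)) :=
    Module.finBasisOfFinrankEq (ZMod p) _ hfr
  let Φ : Cfsg.Agent.Lib.Helper21Heis.Heis n (ZMod p) →* Matrix.GeneralLinearGroup (Fin (n + 2)) (ZMod p) :=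
    (Units.map (MonoidHomClass.toMonoidHom (LinearMap.toMatrixAlgEquiv B))).comp
      (Cfsg.Agent.Lib.Helper21Heis.rho n (ZMod p)).toHomUnits
  have hΦ : Function.Injective Φ := by
    intro h k hhk
    apply Cfsg.Agent.Lib.Helper21Heis.rho_injective
    have h1 : ((Φ h : Matrix.GeneralLinearGroup (Fin (n + 2)) (ZMod p)) : Matrix (Fin (n + 2)) (Fin (n + 2)) (ZMod p)) = Φ k := by
      rw [hhk]
    exact (LinearMap.toMatrixAlgEquiv B).injective h1
  have hcardE : Nat.card Φ.range = p ^ (1 + 2 * n) := by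
    rw [← Cfsg.Agent.Lib.Helper21Heis.card_heis (n := n) p]
    exact (Nat.card_congr (MonoidHom.ofInjective hΦ).toEquiv).symm
  have hcardT : Nat.card ((Cfsg.Agent.Lib.Helper21Heis.Zc n (ZMod p)).map Φ) = p := by
    rw [Subgroup.card_map_of_injective hΦ, Cfsg.Agent.Lib.Helper21Heis.card_Zc]
  refine ⟨Φ.range, ?_, hcardE, ?_⟩
  · have hfin : Finite Φ.range := Nat.finite_of_card_ne_zero (by rw [hcardE]; exact (pow_pos hpp.pos _).ne')
    apply Cfsg.Agent.Lib.Helper21Heis.isExtraspecial' Φ.range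
      ((Cfsg.Agent.Lib.Helper21Heis.Zc n (ZMod p)).map Φ) (IsPGroup.of_card hcardE) hcardT
    · rintro _ ⟨t, ht, rfl⟩ _ ⟨g, rfl⟩
      rw [← map_mul, ← map_mul, Cfsg.Agent.Lib.Helper21Heis.Zc_central t ht g]
    · refine ⟨?_, ?_, ?_, ?_⟩
      · rintro _ ⟨t, _, rfl⟩
        exact ⟨t, rfl⟩
      · rintro _ ⟨x, rfl⟩ _ ⟨y, rfl⟩
        rw [← map_commutatorElement]
        exact ⟨_, Cfsg.Agent.Lib.Helper21Heis.comm_mem x y, rfl⟩
      · rintro _ ⟨x, rfl⟩
        rw [← map_pow, Cfsg.Agent.Lib.Helper21Heis.pow_char p hp x, map_one]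
        exact Subgroup.one_mem _
      · rintro _ ⟨x, rfl⟩ hx
        refine ⟨x, Cfsg.Agent.Lib.Helper21Heis.mem_Zc_of_central x ?_, rfl⟩
        intro y
        apply hΦ
        rw [map_mul, map_mul]
        exact hx _ ⟨y, rfl⟩
    · intro heq
      rw [heq, hcardT] at hcardE
      have h1 : p ^ 1 < p ^ (1 + 2 * n) := Nat.pow_lt_pow_right hpp.one_lt (by omega)
      rw [pow_one] at h1
      omega
  · rintro _ ⟨x, rfl⟩
    rw [← map_pow, Cfsg.Agent.Lib.Helper21Heis.pow_char p hp x, map_one]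

end Cfsg.Agent.S3799
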