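import Cfsg.Statements.S3800
import Cfsg.Agent.Lib.Helper66Basic

set_option autoImplicit false
open Cfsg

namespace Cfsg.Agent.S3800

open Cfsg.Agent.Lib.Helper66Basic

/-- Let G be a finite group, N a normal subgroup of G whose order is prime to p, and P a p-subgroup of G. Then in G/N the normalizer of the image of P is the image of N_G(P), and the centralizer of the image of P is the image of C_G(P). -/
theorem result {G : Type*} [Group G] [Finite G] {p : ℕ} [Fact p.Prime] (N : Subgroup G) [N.Normal] (hN : (Nat.card N).Coprime p) (P : Subgroup G) (hP : IsPGroup p P) : Subgroup.normalizer ((P.map (QuotientGroup.mk' N)) : Set (G ⧸ N)) = (Subgroup.normalizer (P : Set G)).map (QuotientGroup.mk' N) ∧ Subgroup.centralizer ((P.map (QuotientGroup.mk' N)) : Set (G ⧸ N)) = (Subgroup.centralizer (P : Set G)).map (QuotientGroup.mk' N) := by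
  have key : ∀ g : G, (QuotientGroup.mk' N g) ∈ Subgroup.normalizer ((P.map (QuotientGroup.mk' N)) : Set (G ⧸ N)) →
      ∃ n ∈ N, n * g ∈ Subgroup.normalizer (P : Set G) := by
    intro g hg
    have hQ : IsPGroup p (P.map (MulAut.conj g).toMonoidHom) := hP.map _
    have hle : P.map (MulAut.conj g).toMonoidHom ≤ P ⊔ N := by
      rintro _ ⟨x, hx, rfl⟩
      have h1 : QuotientGroup.mk' N g * QuotientGroup.mk' N x * (QuotientGroup.mk' N g)⁻¹ ∈ P.map (QuotientGroup.mk' N) :=
        (Subgroup.mem_normalizer_iff.1 hg _).1 ⟨x, hx, rfl⟩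
      obtain ⟨y, hy, hyx⟩ := h1
      have h2 : QuotientGroup.mk' N (y⁻¹ * (g * x * g⁻¹)) = 1 := by
        simp only [map_mul, map_inv, hyx]; group
      have h3 : y⁻¹ * (g * x * g⁻¹) ∈ N := by
        rwa [← MonoidHom.mem_ker, QuotientGroup.ker_mk'] at h2
      have h4 : g * x * g⁻¹ = y * (y⁻¹ * (g * x * g⁻¹)) := by group
      simp only [MulEquiv.coe_toMonoidHom, MulAut.conj_apply]
      rw [h4]
      exact Subgroup.mul_mem_sup hy h3
    obtain ⟨n, hn, hnP⟩ := exists_conj_mem_of_le_sup N hN P _ hP hQ hle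
    refine ⟨n, hn, mem_normalizer_of_conj_mem P _ ?_⟩
    intro x hx
    have := hnP (g * x * g⁻¹) ⟨x, hx, by simp⟩
    have e : n * g * x * (n * g)⁻¹ = n * (g * x * g⁻¹) * n⁻¹ := by group
    rwa [e]
  have hPN : P ⊓ N = ⊥ := by
    apply disjoint_iff.1
    apply Subgroup.disjoint_of_coprime_natCard
    obtain ⟨k, hk⟩ := (IsPGroup.iff_card.1 hP)
    rw [hk]
    exact (Nat.Coprime.pow_left k hN.symm)
  constructor
  · apply le_antisymm
    · intro x hx
      obtain ⟨g, rfl⟩ := QuotientGroup.mk'_surjective N x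
      obtain ⟨n, hn, hng⟩ := key g hx
      refine ⟨n * g, hng, ?_⟩
      rw [map_mul]
      have : QuotientGroup.mk' N n = 1 := by
        rw [← MonoidHom.mem_ker, QuotientGroup.ker_mk']; exact hn
      rw [this, one_mul]
    · exact Subgroup.le_normalizer_map _
  · apply le_antisymm
    · intro x hx
      obtain ⟨g, rfl⟩ := QuotientGroup.mk'_surjective N x
      have hx' : QuotientGroup.mk' N g ∈ Subgroup.normalizer ((P.map (QuotientGroup.mk' N)) : Set (G ⧸ N)) :=
        Subgroup.centralizer_le_normalizer _ hx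
      obtain ⟨n, hn, hng⟩ := key g hx'
      have hn1 : QuotientGroup.mk' N n = 1 := by
        rw [← MonoidHom.mem_ker, QuotientGroup.ker_mk']; exact hn
      refine ⟨n * g, ?_, by rw [map_mul, hn1, one_mul]⟩
      rw [SetLike.mem_coe, Subgroup.mem_centralizer_iff]
      intro y hy
      have hy' : y ∈ P := hy
      have h1 : (n * g) * y * (n * g)⁻¹ ∈ P := (Subgroup.mem_normalizer_iff.1 hng y).1 hy'
      have h2 : (n * g) * y * (n * g)⁻¹ * y⁻¹ ∈ P := P.mul_mem h1 (P.inv_mem hy')
      have h3 : (n * g) * y * (n * g)⁻¹ * y⁻¹ ∈ N := by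
        rw [← QuotientGroup.ker_mk' N, MonoidHom.mem_ker]
        have hc := (Subgroup.mem_centralizer_iff.1 hx) (QuotientGroup.mk' N y) ⟨y, hy', rfl⟩
        simp only [map_mul, map_inv, hn1, one_mul]
        rw [← hc]; group
      have h4 : (n * g) * y * (n * g)⁻¹ * y⁻¹ ∈ P ⊓ N := ⟨h2, h3⟩
      rw [hPN, Subgroup.mem_bot] at h4
      have h5 : (n * g) * y = y * (n * g) := by
        have : (n * g) * y = ((n * g) * y * (n * g)⁻¹ * y⁻¹) * (y * (n * g)) := by group
        rw [this, h4, one_mul]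
      exact h5.symm
    · rintro _ ⟨g, hg, rfl⟩
      rw [Subgroup.mem_centralizer_iff]
      rintro _ ⟨y, hy, rfl⟩
      rw [← map_mul, ← map_mul, (Subgroup.mem_centralizer_iff.1 hg) y hy]

end Cfsg.Agent.S3800
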