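import Cfsg.Statements.S3950
import Cfsg.Agent.Lib.Helper69BilExt
import Cfsg.Agent.Lib.Helper69Schur
import Cfsg.Agent.S3979

set_option autoImplicit false
open Cfsg

namespace Cfsg.Agent.S3950

open Cfsg.Agent.Lib.Helper69BilExt Cfsg.Agent.Lib.Helper69Schur

/-- A finite abelian group has trivial Schur multiplier if and only if it is cyclic. -/
theorem result {G : Type*} [CommGroup G] [Finite G] : Cfsg.HasCyclicSchurMultiplier G 1 ↔ IsCyclic G := by
  constructor
  · intro h
    rw [hasTrivialMultiplier_iff] at h
    classical
    obtain ⟨ι, _, n, h1, ⟨e⟩⟩ := CommGroup.equiv_prod_multiplicative_zmod_of_finite G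
    by_cases hcop : Pairwise (Function.onFun Nat.Coprime n)
    · let e1 : Multiplicative (ZMod (∏ i, n i)) ≃* G :=
        ((AddEquiv.toMultiplicative (ZMod.prodEquivPi n hcop).toAddEquiv).trans
          (MulEquiv.piMultiplicative _)).trans e.symm
      exact (MulEquiv.isCyclic e1).1 inferInstance
    · exfalso
      unfold Pairwise at hcop
      push Not at hcop
      obtain ⟨i, j, hij, hc⟩ := hcop
      obtain ⟨p, hp, hpi, hpj⟩ := Nat.Prime.not_coprime_iff_dvd.1 hc
      haveI : Fact p.Prime := ⟨hp⟩
      let f : G →* Multiplicative (ZMod p) :=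
        ((AddMonoidHom.toMultiplicative (ZMod.castHom hpi (ZMod p)).toAddMonoidHom).comp
          (Pi.evalMonoidHom (fun i => Multiplicative (ZMod (n i))) i)).comp e.toMonoidHom
      let f' : G →* Multiplicative (ZMod p) :=
        ((AddMonoidHom.toMultiplicative (ZMod.castHom hpj (ZMod p)).toAddMonoidHom).comp
          (Pi.evalMonoidHom (fun i => Multiplicative (ZMod (n i))) j)).comp e.toMonoidHom
      have hstem := isStemExtension_mulBil (fun a b : G => mul_comm a b) p f f'
        (e.symm (Pi.mulSingle i (Multiplicative.ofAdd 1)))
        (e.symm (Pi.mulSingle j (Multiplicative.ofAdd 1))) (by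
          have h1 : (ZMod.cast (1 : ZMod (n i)) : ZMod p) = 1 := by
            have := map_one (ZMod.castHom hpi (ZMod p))
            simpa using this
          have h2 : (ZMod.cast (1 : ZMod (n j)) : ZMod p) = 1 := by
            have := map_one (ZMod.castHom hpj (ZMod p))
            simpa using this
          simp [f, f', h1, h2, Pi.mulSingle_apply, hij, hij.symm])
      have hbot := h _ _ hstem
      have hcard : Nat.card (BilExt.proj (mulBil f f')).ker = p := by
        rw [Nat.card_congr (BilExt.kerEquiv _).toEquiv]
        simp
      rw [hbot] at hcard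
      simp at hcard
      exact hp.one_lt.ne hcard
  · intro h
    exact Cfsg.Agent.S3979.result

end Cfsg.Agent.S3950
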