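import Cfsg.Statements.S3951
import Cfsg.Agent.Lib.Helper69BilExt

set_option autoImplicit false
open Cfsg

namespace Cfsg.Agent.S3951

open Cfsg.Agent.Lib.Helper69BilExt

/-- For positive integers `m` and `n` with `n` dividing `m`, the Schur multiplier of the abelian group `ZMod m × ZMod n` (written multiplicatively) is cyclic of order `n`. In particular the elementary abelian group of order `p ^ 2` has multiplier of order `p`. -/
theorem result (m n : ℕ) [NeZero m] [NeZero n] (hnm : n ∣ m) : Cfsg.HasCyclicSchurMultiplier (Multiplicative (ZMod m × ZMod n)) n := by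
  constructor
  · let f : Multiplicative (ZMod m × ZMod n) →* Multiplicative (ZMod n) :=
      AddMonoidHom.toMultiplicative
        ((ZMod.castHom hnm (ZMod n)).toAddMonoidHom.comp (AddMonoidHom.fst _ _))
    let f' : Multiplicative (ZMod m × ZMod n) →* Multiplicative (ZMod n) :=
      AddMonoidHom.toMultiplicative (AddMonoidHom.snd _ _)
    refine ⟨BilExt (mulBil f f'), inferInstance, inferInstance, BilExt.proj _, ?_,
      ⟨BilExt.kerEquiv _⟩⟩
    apply isStemExtension_mulBil (fun a b => mul_comm a b) n f f'
      (Multiplicative.ofAdd (1, 0)) (Multiplicative.ofAdd (0, 1))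
    have h1 : (ZMod.cast (1 : ZMod m) : ZMod n) = 1 := by
      have := map_one (ZMod.castHom hnm (ZMod n))
      simpa using this
    simp [f, f', h1]
  · intro Γ _ _ σ hσ
    obtain ⟨x, hx⟩ := hσ.1 (Multiplicative.ofAdd (1, 0))
    obtain ⟨y, hy⟩ := hσ.1 (Multiplicative.ofAdd (0, 1))
    apply exists_surj_of_two_gen σ hσ (fun a b => mul_comm a b) x y
    · intro g
      obtain ⟨a, ha⟩ := ZMod.intCast_surjective (Multiplicative.toAdd (σ g)).1
      obtain ⟨b, hb⟩ := ZMod.intCast_surjective (Multiplicative.toAdd (σ g)).2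
      refine ⟨a, b, ?_⟩
      rw [hx, hy, ← ofAdd_zsmul, ← ofAdd_zsmul, ← ofAdd_add]
      apply Multiplicative.toAdd.injective
      ext
      · simp [ha]
      · simp [hb]
    · rw [hy, ← ofAdd_nsmul]
      apply Multiplicative.toAdd.injective
      ext <;> simp

end Cfsg.Agent.S3951
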