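import Mathlib
import Cfsg.Statements.S3952
import Cfsg.Agent.Lib.Helper4Char2
import Cfsg.Agent.Lib.Helper79Central
import Cfsg.Agent.Lib.Helper82Irr

set_option autoImplicit false
open Cfsg

namespace Cfsg.Agent.S3952

open Cfsg.Agent.Lib

/-- determinant argument: the central character on a central subgroup inside the commutator
subgroup has order dividing the degree. -/
theorem centralHom_pow {Γ : Type*} [Group Γ] (K : Subgroup Γ)
    (hKc : K ≤ Subgroup.center Γ) (hKd : K ≤ commutator Γ) (χ : Cfsg.IrrCharacter Γ) :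
    (Helper79Central.centralHom χ.2 K hKc) ^ (Cfsg.charDegree (χ : Γ → ℂ)) = 1 := by
  obtain ⟨n, ρ, hirr, hχ⟩ := id χ.2
  have := hirr
  ext k
  rw [MonoidHom.pow_apply, MonoidHom.one_apply, Units.val_pow_eq_pow_val, Units.val_one,
    Helper79Central.centralHom_apply]
  obtain ⟨c, hc⟩ := Helper82Schur.schur_scalar ρ (ρ k) (by
    intro h
    have h1 : ρ k * ρ h = ρ h * ρ k := by
      rw [← map_mul, ← map_mul, Subgroup.mem_center_iff.mp (hKc k.2) h]
    exact h1)
  have h1 : ρ.character 1 ≠ 0 := Helper82Schur.char_one_ne_zero ρ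
  have h2 : ρ.character k = c * ρ.character 1 := by
    unfold Representation.character
    rw [hc, map_one]
    simp [LinearMap.trace_id]
  have h3 : (χ : Γ → ℂ) k / (χ : Γ → ℂ) 1 = c := by
    rw [← hχ, h2]
    field_simp
  rw [h3]
  have hd : Cfsg.charDegree (χ : Γ → ℂ) = Module.finrank ℂ (Fin n → ℂ) := by
    have h4 : ((Cfsg.charDegree (χ : Γ → ℂ) : ℕ) : ℂ) = (Module.finrank ℂ (Fin n → ℂ) : ℂ) := by
      rw [Helper82Irr.irr_charDegree_cast, ← hχ, Representation.char_one]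
    exact_mod_cast h4
  rw [hd]
  let D : Γ →* ℂˣ := MonoidHom.toHomUnits ((LinearMap.det : _ →* ℂ).comp ρ)
  have hD : D k = 1 := by
    have : (k : Γ) ∈ D.ker := Abelianization.commutator_subset_ker D (hKd k.2)
    exact this
  have hD' : ((D k : ℂˣ) : ℂ) = LinearMap.det (ρ k) := rfl
  rw [hD, hc, LinearMap.det_smul, LinearMap.det_id, mul_one] at hD'
  exact hD'.symm

theorem core {Γ : Type*} [Group Γ] [Finite Γ] (K : Subgroup Γ)
    (hKc : K ≤ Subgroup.center Γ) (hKd : K ≤ commutator Γ) {A : Type*} [CommGroup A]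
    (e : K ≃* A) : Monoid.exponent A ^ 2 ∣ K.index := by
  classical
  have : Fintype Γ := Fintype.ofFinite Γ
  have : Fintype K := Fintype.ofFinite K
  have : Finite A := Finite.of_equiv K e.toEquiv
  have : NeZero (Monoid.exponent A) := ⟨Monoid.exponent_ne_zero_of_finite⟩
  obtain ⟨e1⟩ := CommGroup.monoidHom_mulEquiv_of_hasEnoughRootsOfUnity A ℂ
  obtain ⟨a, ha⟩ := Monoid.exists_orderOf_eq_exponent (G := A) (Monoid.ExponentExists.of_finite)
  let lamA : A →* ℂˣ := e1.symm a
  have hlamA : orderOf lamA = Monoid.exponent A := by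
    rw [← ha]; exact MulEquiv.orderOf_eq e1.symm a
  let lam : K →* ℂˣ := lamA.comp e.toMonoidHom
  let μ : Cfsg.IrrCharacter Γ → (K →* ℂˣ) := fun χ => Helper79Central.centralHom χ.2 K hKc
  let d : Cfsg.IrrCharacter Γ → ℕ := fun χ => Cfsg.charDegree (χ : Γ → ℂ)
  have hdvd : ∀ χ, μ χ = lam → Monoid.exponent A ∣ d χ := by
    intro χ hχ
    rw [← hlamA, orderOf_dvd_iff_pow_eq_one]
    have h1 := centralHom_pow K hKc hKd χ
    change (μ χ) ^ (d χ) = 1 at h1
    rw [hχ] at h1
    ext x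
    have h2 := congrArg (fun f : K →* ℂˣ => f (e.symm x)) h1
    simp only [MonoidHom.pow_apply, MonoidHom.one_apply] at h2
    have h3 : lam (e.symm x) = lamA x := by simp [lam]
    rw [h3] at h2
    rw [MonoidHom.pow_apply, h2]
    rfl
  have hχk : ∀ (χ : Cfsg.IrrCharacter Γ) (k : K), (χ : Γ → ℂ) k = (d χ : ℂ) * ((μ χ k : ℂˣ) : ℂ) := by
    intro χ k
    have h1 : (χ : Γ → ℂ) 1 ≠ 0 := Helper82Schur.irr_one_ne_zero χ
    rw [Helper79Central.centralHom_apply, Helper82Irr.irr_charDegree_cast]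
    field_simp
  have hS1 : ∑ k : K, (((lam k)⁻¹ : ℂˣ) : ℂ) * ∑ χ : Cfsg.IrrCharacter Γ, (χ : Γ → ℂ) 1 * (χ : Γ → ℂ) k
      = (Nat.card Γ : ℂ) := by
    rw [Finset.sum_eq_single (1 : K)]
    · rw [Helper4Char2.sum_degree_mul]
      simp
    · intro b _ hb
      rw [Helper4Char2.sum_degree_mul, if_neg, mul_zero]
      intro h
      exact hb (Subtype.ext h)
    · intro h; exact absurd (Finset.mem_univ _) h
  have hS2 : ∑ k : K, (((lam k)⁻¹ : ℂˣ) : ℂ) * ∑ χ : Cfsg.IrrCharacter Γ, (χ : Γ → ℂ) 1 * (χ : Γ → ℂ) k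
      = ∑ χ : Cfsg.IrrCharacter Γ, ((if μ χ = lam then (d χ) ^ 2 * Nat.card K else 0 : ℕ) : ℂ) := by
    simp_rw [Finset.mul_sum]
    rw [Finset.sum_comm]
    refine Finset.sum_congr rfl fun χ _ => ?_
    have h1 : ∀ k : K, (((lam k)⁻¹ : ℂˣ) : ℂ) * ((χ : Γ → ℂ) 1 * (χ : Γ → ℂ) k)
        = (d χ : ℂ) ^ 2 * ((Units.coeHom ℂ).comp (lam⁻¹ * μ χ)) k := by
      intro k
      rw [hχk χ k, ← Helper82Irr.irr_charDegree_cast]
      simp only [MonoidHom.coe_comp, Function.comp_apply, MonoidHom.mul_apply, MonoidHom.inv_apply,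
        Units.coeHom_apply, Units.val_mul]
      ring
    simp_rw [h1]
    rw [← Finset.mul_sum, sum_hom_units]
    by_cases hχ : μ χ = lam
    · rw [if_pos hχ, if_pos]
      · rw [Nat.card_eq_fintype_card]; push_cast; ring
      · rw [hχ]
        ext k
        simp
    · rw [if_neg hχ, if_neg]
      · simp
      · intro h
        apply hχ
        ext k
        have h2 := congrArg (fun f : K →* ℂ => f k) h
        simp only [MonoidHom.coe_comp, Function.comp_apply, MonoidHom.mul_apply,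
          MonoidHom.inv_apply, Units.coeHom_apply, MonoidHom.one_apply] at h2
        have h3 : (lam k)⁻¹ * μ χ k = 1 := Units.ext h2
        rw [inv_mul_eq_one] at h3
        rw [h3]
  have hS3 : Nat.card Γ = ∑ χ : Cfsg.IrrCharacter Γ, (if μ χ = lam then (d χ) ^ 2 * Nat.card K else 0) := by
    have := hS1.symm.trans hS2
    exact_mod_cast this
  have hS4 : Monoid.exponent A ^ 2 * Nat.card K ∣ Nat.card Γ := by
    rw [hS3]
    refine Finset.dvd_sum fun χ _ => ?_
    by_cases hχ : μ χ = lam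
    · rw [if_pos hχ]
      exact Nat.mul_dvd_mul (pow_dvd_pow_of_dvd (hdvd χ hχ) 2) dvd_rfl
    · rw [if_neg hχ]; exact dvd_zero _
  rw [← K.index_mul_card] at hS4
  exact Nat.dvd_of_mul_dvd_mul_right Nat.card_pos hS4

/-- If `A` is the Schur multiplier of the finite group `Q`, then the square of the exponent of `A` divides the order of `Q`. -/
theorem result {Q : Type*} [Group Q] [Finite Q] {A : Type*} [CommGroup A] (hA : Cfsg.HasSchurMultiplier Q A) : Monoid.exponent A ^ 2 ∣ Nat.card Q := by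
  obtain ⟨Γ, _, _, σ, hσ, ⟨e⟩⟩ := hA.1
  have h := core σ.ker hσ.2.1 hσ.2.2 e
  rwa [Subgroup.index_ker, MonoidHom.range_eq_top.2 hσ.1, Subgroup.card_top] at h

end Cfsg.Agent.S3952
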