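import Cfsg.Statements.S3955
import Cfsg.Agent.Lib.Helper69Schur

set_option autoImplicit false
open Cfsg

namespace Cfsg.Agent.S3955

open Cfsg.Agent.Lib.Helper69Schur
open scoped IsMulCommutative

theorem center_GL_divisible (n : ℕ) (m : ℕ) (hm : m ≠ 0) (d : Subgroup.center (GL (Fin n) ℂ)) :
    ∃ x : Subgroup.center (GL (Fin n) ℂ), x ^ m = d := by
  obtain ⟨d, hd⟩ := d
  have hd' := hd
  rw [Matrix.GeneralLinearGroup.center_eq_range_scalar] at hd'
  obtain ⟨c, rfl⟩ := hd'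
  obtain ⟨z, hz⟩ := IsAlgClosed.exists_pow_nat_eq (c : ℂ) (Nat.pos_of_ne_zero hm)
  have hz0 : z ≠ 0 := by
    rintro rfl
    rw [zero_pow hm] at hz
    exact c.ne_zero hz.symm
  refine ⟨⟨Matrix.GeneralLinearGroup.scalar (Fin n) (Units.mk0 z hz0), ?_⟩, ?_⟩
  · rw [Matrix.GeneralLinearGroup.center_eq_range_scalar]
    exact ⟨_, rfl⟩
  · apply Subtype.ext
    change (Matrix.GeneralLinearGroup.scalar (Fin n) (Units.mk0 z hz0)) ^ m = _
    rw [← map_pow]
    congr 1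
    apply Units.ext
    simpa using hz

/-- Let `Q` be a finite group with Schur multiplier `A`, and let `σ : Γ →* Q` be a finite stem extension whose kernel is isomorphic to `A` (a Schur covering group of `Q`). Then every homomorphism `γ` from `Q` to the quotient of `GL n ℂ` by its centre lifts along `σ`: there is a homomorphism `ρ : Γ →* GL n ℂ` which, followed by the quotient map, equals `γ ∘ σ`. -/
theorem result {Q : Type*} [Group Q] [Finite Q] {A : Type*} [CommGroup A] (hA : Cfsg.HasSchurMultiplier Q A) {Γ : Type*} [Group Γ] [Finite Γ] (σ : Γ →* Q) (hσ : Cfsg.IsStemExtension σ) (hk : Nonempty (σ.ker ≃* A)) (n : ℕ) (γ : Q →* (GL (Fin n) ℂ ⧸ Subgroup.center (GL (Fin n) ℂ))) : ∃ ρ : Γ →* GL (Fin n) ℂ, (QuotientGroup.mk' (Subgroup.center (GL (Fin n) ℂ))).comp ρ = γ.comp σ := by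
  let q := QuotientGroup.mk' (Subgroup.center (GL (Fin n) ℂ))
  let τ := pb1 γ q
  have hτs : Function.Surjective τ := pb1_surjective γ q (QuotientGroup.mk'_surjective _)
  have hτc : τ.ker ≤ Subgroup.center _ := ker_pb1_le_center γ q (by rw [QuotientGroup.ker_mk'])
  have hbot := pb_ker_inf_commutator_eq_bot hA σ hσ hk τ hτs hτc
  let r : pb σ τ →* GL (Fin n) ℂ := (pb2 γ q).comp (pb2 σ τ)
  have hqr : ∀ p, q (r p) = γ (σ (pb1 σ τ p)) := by
    intro p
    rw [pb_comm σ τ p]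
    exact (pb_comm γ q (pb2 σ τ p)).symm
  have hrL : ∀ l : (pb1 σ τ).ker, r l ∈ Subgroup.center (GL (Fin n) ℂ) := by
    intro l
    rw [← QuotientGroup.eq_one_iff]
    have h1 := hqr l
    have h2 : pb1 σ τ l = 1 := l.2
    rw [h2, map_one, map_one] at h1
    exact h1
  let χ : (pb1 σ τ).ker →* Subgroup.center (GL (Fin n) ℂ) :=
    (r.comp (pb1 σ τ).ker.subtype).codRestrict _ hrL
  obtain ⟨ψ, hψ⟩ := exists_extension_of_divisible (pb1 σ τ).ker hbot (center_GL_divisible n) χ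
  let ρ' : pb σ τ →* GL (Fin n) ℂ := MonoidHom.mk' (fun p => r p * ((ψ p : GL (Fin n) ℂ))⁻¹) (by
    intro a b
    have hc := Subgroup.mem_center_iff.1 (Subgroup.inv_mem _ (ψ a).2)
    simp only [map_mul, Subgroup.coe_mul, mul_inv_rev]
    calc r a * r b * ((ψ b : GL (Fin n) ℂ)⁻¹ * (ψ a : GL (Fin n) ℂ)⁻¹)
        = r a * ((r b * (ψ b : GL (Fin n) ℂ)⁻¹) * (ψ a : GL (Fin n) ℂ)⁻¹) := by group
      _ = r a * ((ψ a : GL (Fin n) ℂ)⁻¹ * (r b * (ψ b : GL (Fin n) ℂ)⁻¹)) := by rw [hc]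
      _ = _ := by group)
  have hker : (pb1 σ τ).ker ≤ ρ'.ker := by
    intro l hl
    rw [MonoidHom.mem_ker]
    change r l * ((ψ l : GL (Fin n) ℂ))⁻¹ = 1
    have := hψ ⟨l, hl⟩
    have h2 : (ψ l : GL (Fin n) ℂ) = r l := congrArg Subtype.val this
    rw [h2, mul_inv_cancel]
  have hs1 := pb1_surjective σ τ hτs
  refine ⟨(pb1 σ τ).liftOfSurjective hs1 ⟨ρ', hker⟩, ?_⟩
  ext x
  obtain ⟨p, rfl⟩ := hs1 x
  simp only [MonoidHom.comp_apply]
  rw [MonoidHom.liftOfRightInverse_comp_apply]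
  change q (r p * ((ψ p : GL (Fin n) ℂ))⁻¹) = _
  rw [map_mul, map_inv, hqr]
  have : q (ψ p : GL (Fin n) ℂ) = 1 := (QuotientGroup.eq_one_iff _).2 (ψ p).2
  rw [this]; simp

end Cfsg.Agent.S3955
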