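import Cfsg.Statements.S3956
import Cfsg.Agent.Lib.Helper69Schur

set_option autoImplicit false
universe u v
open Cfsg

namespace Cfsg.Agent.S3956

open Cfsg.Agent.Lib.Helper69Schur
open scoped IsMulCommutative

/-- Let `σ : Γ →* Q` be a finite stem extension of the finite group `Q` such that every homomorphism from `Q` to the quotient of `GL n ℂ` by its centre, for every `n`, lifts along `σ` to a homomorphism `Γ →* GL n ℂ`. Then `σ` is a Schur covering group of `Q`: for every finite stem extension `τ : Δ →* Q` with `Δ` in the same universe as `Q`, the kernel of `τ` is a homomorphic image of the kernel of `σ`. -/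
theorem result {Q : Type u} [Group Q] [Finite Q] {Γ : Type v} [Group Γ] [Finite Γ] (σ : Γ →* Q) (hσ : Cfsg.IsStemExtension σ) (hlift : ∀ (n : ℕ) (γ : Q →* (GL (Fin n) ℂ ⧸ Subgroup.center (GL (Fin n) ℂ))), ∃ ρ : Γ →* GL (Fin n) ℂ, (QuotientGroup.mk' (Subgroup.center (GL (Fin n) ℂ))).comp ρ = γ.comp σ) (Δ : Type u) [Group Δ] [Finite Δ] (τ : Δ →* Q) (hτ : Cfsg.IsStemExtension τ) : ∃ π : σ.ker →* τ.ker, Function.Surjective π := by
  apply exists_surj_ker_of_pb σ τ hσ.1 hτ.1 hσ.2.2 hτ.2.2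
  rw [eq_bot_iff]
  intro p hp
  obtain ⟨hp1, hp2⟩ := Subgroup.mem_inf.1 hp
  rw [MonoidHom.mem_ker] at hp1
  have hl : pb2 σ τ p ∈ τ.ker := by
    rw [MonoidHom.mem_ker, ← pb_comm, hp1, map_one]
  rw [Subgroup.mem_bot]
  by_contra hne
  have hl1 : (⟨pb2 σ τ p, hl⟩ : τ.ker) ≠ 1 := by
    intro h
    apply hne
    apply pb_ext σ τ
    · rw [hp1, map_one]
    · rw [map_one]; exact congrArg Subtype.val h
  obtain ⟨lam, hlam⟩ := exists_char_ne_one τ.ker hτ.2.1 _ hl1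
  obtain ⟨N, R, hN, hR⟩ := exists_monomial_rep τ hτ.1 hτ.2.1 lam
  let q := QuotientGroup.mk' (Subgroup.center (GL (Fin N) ℂ))
  have hker : τ.ker ≤ (q.comp R).ker := by
    intro l hl
    rw [MonoidHom.mem_ker]
    change q (R l) = 1
    rw [hR ⟨l, hl⟩]
    apply (QuotientGroup.eq_one_iff _).2
    rw [Matrix.GeneralLinearGroup.center_eq_range_scalar]
    exact ⟨_, rfl⟩
  let γ := τ.liftOfSurjective hτ.1 ⟨q.comp R, hker⟩
  have hγ : ∀ δ, γ (τ δ) = q (R δ) := fun δ => MonoidHom.liftOfRightInverse_comp_apply _ _ _ _ δ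
  obtain ⟨ρ, hρ⟩ := hlift N γ
  have hρ' : ∀ x, q (ρ x) = γ (σ x) := fun x => congrArg (fun f : Γ →* _ => f x) hρ
  have hmem : ∀ a : pb σ τ, (ρ (pb1 σ τ a))⁻¹ * R (pb2 σ τ a) ∈ Subgroup.center (GL (Fin N) ℂ) := by
    intro a
    rw [← QuotientGroup.eq]
    change q (ρ (pb1 σ τ a)) = q (R (pb2 σ τ a))
    rw [hρ', pb_comm, hγ]
  let ψ : pb σ τ →* Subgroup.center (GL (Fin N) ℂ) := MonoidHom.mk'
    (fun a => ⟨(ρ (pb1 σ τ a))⁻¹ * R (pb2 σ τ a), hmem a⟩) (by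
      intro a b
      apply Subtype.ext
      have hc := Subgroup.mem_center_iff.1 (hmem a)
      simp only [map_mul, Subgroup.coe_mul, mul_inv_rev]
      calc (ρ (pb1 σ τ b))⁻¹ * (ρ (pb1 σ τ a))⁻¹ * (R (pb2 σ τ a) * R (pb2 σ τ b))
          = (ρ (pb1 σ τ b))⁻¹ * ((ρ (pb1 σ τ a))⁻¹ * R (pb2 σ τ a)) * R (pb2 σ τ b) := by group
        _ = ((ρ (pb1 σ τ a))⁻¹ * R (pb2 σ τ a)) * (ρ (pb1 σ τ b))⁻¹ * R (pb2 σ τ b) := by rw [hc]
        _ = _ := by group)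
  have hψ : ψ p = 1 := Abelianization.commutator_subset_ker ψ hp2
  have h1 : (ρ (pb1 σ τ p))⁻¹ * R (pb2 σ τ p) = 1 := congrArg Subtype.val hψ
  rw [hp1, map_one, inv_one, one_mul, hR ⟨_, hl⟩] at h1
  apply hlam
  have h2 := congrArg (fun g : GL (Fin N) ℂ => (g : Matrix (Fin N) (Fin N) ℂ) ⟨0, hN⟩ ⟨0, hN⟩) h1
  apply Units.ext
  simpa using h2

end Cfsg.Agent.S3956
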