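import Cfsg.Statements.S3957
import Cfsg.Agent.Lib.Helper69Schur

set_option autoImplicit false
universe u v
open Cfsg

namespace Cfsg.Agent.S3957

open Cfsg.Agent.Lib.Helper69Schur

/-- Let `Q` be a finite group with Schur multiplier `A` and let `τ : Δ →* Q` be a finite stem extension, `Δ` in the universe of `Q`. Then there is a finite stem extension `σ : Γ →* Q` with kernel isomorphic to `A` (a Schur covering group) and a surjective homomorphism `β : Γ →* Δ` with `τ ∘ β = σ`. -/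
theorem result {Q : Type u} [Group Q] [Finite Q] {A : Type v} [CommGroup A] (hA : Cfsg.HasSchurMultiplier Q A) {Δ : Type u} [Group Δ] [Finite Δ] (τ : Δ →* Q) (hτ : Cfsg.IsStemExtension τ) : ∃ (Γ : Type u) (_ : Group Γ) (_ : Finite Γ) (σ : Γ →* Q), Cfsg.IsStemExtension σ ∧ Nonempty (σ.ker ≃* A) ∧ ∃ β : Γ →* Δ, Function.Surjective β ∧ τ.comp β = σ := by
  obtain ⟨η, hη⟩ := exists_lift (piQ Q) τ hτ.1 hτ.2.1
  have hη' : ∀ e, τ (η e) = eps (piQ Q) e := fun e => by rw [← hη]; rfl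
  have hmap := map_mult_eq (piQ Q) (piQ_surjective Q) τ hτ.2.1 η hη
  rw [inf_eq_left.2 hτ.2.2] at hmap
  have hsurj : Function.Surjective η := by
    intro δ
    obtain ⟨e, he⟩ := eps_surjective (piQ Q) (piQ_surjective Q) (τ δ)
    have h1 : (η e)⁻¹ * δ ∈ τ.ker := by
      rw [MonoidHom.mem_ker, map_mul, map_inv, hη', he]; simp
    rw [← hmap] at h1
    obtain ⟨m, -, hm⟩ := h1
    refine ⟨e * m, ?_⟩
    rw [map_mul, hm]; group
  have hN : η.ker ≤ (eps (piQ Q)).ker := by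
    intro x hx
    rw [MonoidHom.mem_ker] at hx ⊢
    rw [← hη', hx, map_one]
  have hNM : (eps (piQ Q)).ker ≤ η.ker ⊔ mult (piQ Q) := by
    intro x hx
    have h1 : η x ∈ τ.ker := by
      rw [MonoidHom.mem_ker, hη']; exact hx
    rw [← hmap] at h1
    obtain ⟨m, hm, hmx⟩ := h1
    have : x = (x * m⁻¹) * m := by group
    rw [this]
    refine Subgroup.mul_mem _ (Subgroup.mem_sup_left ?_) (Subgroup.mem_sup_right hm)
    rw [MonoidHom.mem_ker, map_mul, map_inv, hmx]; simp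
  obtain ⟨C, hC, h1, h2⟩ := exists_compl (piQ Q) η.ker hN hNM
  have hCn : C.Normal := normal_of_le_center ((hC.trans hN).trans (ker_eps_le_center _))
  obtain ⟨hs, hf, ⟨e⟩⟩ := cover_of_compl (piQ Q) (piQ_surjective Q) C (hC.trans hN) h1 h2
  obtain ⟨eA⟩ := equiv_mult_of_hasSchurMultiplier (piQ Q) (piQ_surjective Q) hA
  refine ⟨CE (piQ Q) ⧸ C, inferInstance, hf, _, hs, ⟨e.symm.trans eA.symm⟩,
    QuotientGroup.lift C η hC, ?_, ?_⟩
  · intro δ
    obtain ⟨x, rfl⟩ := hsurj δ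
    exact ⟨QuotientGroup.mk x, rfl⟩
  · apply MonoidHom.ext
    intro x
    obtain ⟨x, rfl⟩ := QuotientGroup.mk_surjective x
    exact hη' x

end Cfsg.Agent.S3957
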