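import Cfsg.Statements.S3960
import Cfsg.Agent.Lib.Helper69Schur

set_option autoImplicit false
universe u
open Cfsg

namespace Cfsg.Agent.S3960

open Cfsg.Agent.Lib.Helper69Schur

/-- A finite perfect group `Q` has a universal central extension: a finite perfect group `G` in the universe of `Q` and a surjective homomorphism `π : G →* Q` with central kernel such that for every group `X` in that universe and every surjective homomorphism `ξ : X →* Q` with central kernel there is exactly one homomorphism `η : G →* X` with `ξ ∘ η = π`. -/
theorem result {Q : Type u} [Group Q] [Finite Q] (hQ : Group.IsPerfect Q) : ∃ (G : Type u) (_ : Group G) (_ : Finite G) (π : G →* Q), Group.IsPerfect G ∧ Function.Surjective π ∧ π.ker ≤ Subgroup.center G ∧ ∀ (X : Type u) [Group X] (ξ : X →* Q), Function.Surjective ξ → ξ.ker ≤ Subgroup.center X → ∃! η : G →* X, ξ.comp η = π := by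
  set E := CE (piQ Q) with hE
  set ε := eps (piQ Q) with hε
  have hεs : Function.Surjective ε := eps_surjective _ (piQ_surjective Q)
  -- every element of E is congruent to an element of E' modulo the kernel
  have hkey : ∀ a : E, ∃ e ∈ commutator E, ε e = ε a := by
    intro a
    have h1 : ε a ∈ commutator Q := by rw [hQ.commutator_eq_top]; exact Subgroup.mem_top _
    have h2 : commutator Q ≤ (commutator E).map ε := by
      apply commutator_le_map
      intro q
      obtain ⟨e, rfl⟩ := hεs q
      exact ⟨e, by simp [Subgroup.one_mem]⟩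
    obtain ⟨e, he, hea⟩ := h2 h1
    exact ⟨e, he, hea⟩
  have hperf : Group.IsPerfect ↥(commutator E) := by
    rw [Subgroup.isPerfect_iff]
    apply le_antisymm
    · exact Subgroup.commutator_le_left _ _
    · have := commutator_le_map (commutator E).subtype (by
        intro a
        obtain ⟨e, he, hea⟩ := hkey a
        refine ⟨⟨e, he⟩, ker_eps_le_center _ ?_⟩
        rw [MonoidHom.mem_ker, map_mul, map_inv]
        change (ε e)⁻¹ * ε a = 1
        rw [hea]; simp)
      rwa [Subgroup.map_subtype_commutator] at this
  refine ⟨↥(commutator E), inferInstance, finite_commutator_CE _, ε.comp (commutator E).subtype,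
    hperf, ?_, ?_, ?_⟩
  · intro q
    obtain ⟨a, rfl⟩ := hεs q
    obtain ⟨e, he, hea⟩ := hkey a
    exact ⟨⟨e, he⟩, hea⟩
  · intro x hx
    have h1 : (x : E) ∈ ε.ker := hx
    have h2 := ker_eps_le_center _ h1
    rw [Subgroup.mem_center_iff] at h2 ⊢
    intro g
    exact Subtype.ext (h2 g)
  · intro X _ ξ hξ hc
    obtain ⟨η, hη⟩ := exists_lift (piQ Q) ξ hξ hc
    refine ⟨η.comp (commutator E).subtype, ?_, ?_⟩
    · change ξ.comp (η.comp (commutator E).subtype) = ε.comp (commutator E).subtype
      rw [← MonoidHom.comp_assoc, hη]
    · intro η' hη'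
      apply hom_ext_of_perfect hperf ξ hc
      rw [hη', ← MonoidHom.comp_assoc, hη]

end Cfsg.Agent.S3960
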