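import Cfsg.Statements.S3962

set_option autoImplicit false
open Cfsg

namespace Cfsg.Agent.S3962

/-- Let `G` be a perfect group and `π : G →* Q` a surjective homomorphism whose kernel is central. Then `π` maps the centre of `G` onto the centre of `Q`. Taking `π` to be the map to `G ⧸ Z(G)` shows that the central quotient of a perfect group has trivial centre. -/
theorem result {G Q : Type*} [Group G] [Group Q] (hG : Group.IsPerfect G) (π : G →* Q) (hπ : Function.Surjective π) (hker : π.ker ≤ Subgroup.center G) : (Subgroup.center G).map π = Subgroup.center Q := by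
  apply le_antisymm
  · rintro _ ⟨z, hz, rfl⟩
    rw [Subgroup.mem_center_iff]
    intro q
    obtain ⟨g, rfl⟩ := hπ q
    rw [← map_mul, ← map_mul, (Subgroup.mem_center_iff.1 hz g)]
  · intro q hq
    obtain ⟨g, rfl⟩ := hπ q
    refine ⟨g, ?_, rfl⟩
    have hc : ∀ x : G, g * x * g⁻¹ * x⁻¹ ∈ Subgroup.center G := by
      intro x
      apply hker
      rw [MonoidHom.mem_ker]
      have := Subgroup.mem_center_iff.1 hq (π x)
      simp only [map_mul, map_inv]
      rw [← this]
      group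
    have hle : commutator G ≤ Subgroup.centralizer {g} := by
      rw [commutator_eq_closure, Subgroup.closure_le]
      rintro _ ⟨x, y, rfl⟩
      rw [SetLike.mem_coe, Subgroup.mem_centralizer_singleton_iff]
      obtain ⟨a, ha⟩ : ∃ a, a = g * x * g⁻¹ * x⁻¹ := ⟨_, rfl⟩
      obtain ⟨b, hb⟩ : ∃ b, b = g * y * g⁻¹ * y⁻¹ := ⟨_, rfl⟩
      have hac : ∀ u, u * a = a * u := by
        rw [ha]; exact Subgroup.mem_center_iff.1 (hc x)
      have hbc : ∀ u, u * b = b * u := by
        rw [hb]; exact Subgroup.mem_center_iff.1 (hc y)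
      have hx : g * x = a * x * g := by rw [ha]; group
      have hy : g * y = b * y * g := by rw [hb]; group
      have hx' : g * x⁻¹ = a⁻¹ * x⁻¹ * g := by
        have : x⁻¹ * a⁻¹ = a⁻¹ * x⁻¹ := by
          rw [← mul_inv_rev, ← mul_inv_rev, hac]
        rw [← this, ha]; group
      have hy' : g * y⁻¹ = b⁻¹ * y⁻¹ * g := by
        have : y⁻¹ * b⁻¹ = b⁻¹ * y⁻¹ := by
          rw [← mul_inv_rev, ← mul_inv_rev, hbc]
        rw [← this, hb]; group
      have hai : ∀ u, u * a⁻¹ = a⁻¹ * u := by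
        intro u
        have := hac (a⁻¹ * u * a⁻¹)
        calc u * a⁻¹ = a * (a⁻¹ * u * a⁻¹) := by group
          _ = a⁻¹ * u * a⁻¹ * a := (hac _).symm
          _ = a⁻¹ * u := by group
      have hbi : ∀ u, u * b⁻¹ = b⁻¹ * u := by
        intro u
        calc u * b⁻¹ = b * (b⁻¹ * u * b⁻¹) := by group
          _ = b⁻¹ * u * b⁻¹ * b := (hbc _).symm
          _ = b⁻¹ * u := by group
      rw [commutatorElement_def]
      symm
      calc g * (x * y * x⁻¹ * y⁻¹) = (g * x) * y * x⁻¹ * y⁻¹ := by group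
        _ = a * x * (g * y) * x⁻¹ * y⁻¹ := by rw [hx]; group
        _ = a * x * b * y * (g * x⁻¹) * y⁻¹ := by rw [hy]; group
        _ = a * x * b * y * a⁻¹ * x⁻¹ * (g * y⁻¹) := by rw [hx']; group
        _ = a * x * b * y * a⁻¹ * x⁻¹ * b⁻¹ * y⁻¹ * g := by rw [hy']; group
        _ = a * (x * b) * (y * a⁻¹) * (x⁻¹ * b⁻¹) * y⁻¹ * g := by group
        _ = a * (b * x) * (a⁻¹ * y) * (b⁻¹ * x⁻¹) * y⁻¹ * g := by rw [hbc, hai, hbi]
        _ = a * b * (x * a⁻¹) * (y * b⁻¹) * x⁻¹ * y⁻¹ * g := by group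
        _ = a * b * (a⁻¹ * x) * (b⁻¹ * y) * x⁻¹ * y⁻¹ * g := by rw [hai, hbi]
        _ = a * (b * a⁻¹) * (x * b⁻¹) * y * x⁻¹ * y⁻¹ * g := by group
        _ = a * (a⁻¹ * b) * (b⁻¹ * x) * y * x⁻¹ * y⁻¹ * g := by rw [hai, hbi]
        _ = x * y * x⁻¹ * y⁻¹ * g := by group
    rw [hG.commutator_eq_top] at hle
    rw [SetLike.mem_coe, Subgroup.mem_center_iff]
    intro x
    have hx := hle (Subgroup.mem_top x)
    rw [Subgroup.mem_centralizer_singleton_iff] at hx
    exact hx

end Cfsg.Agent.S3962
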