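import Cfsg.Statements.S3961
import Cfsg.Agent.Lib.Helper69Schur
import Cfsg.Agent.S3962

set_option autoImplicit false
universe u v
open Cfsg

namespace Cfsg.Agent.S3961

open Cfsg.Agent.Lib.Helper69Schur

/-- Let `π : G →* Q` be a surjective homomorphism with central kernel from a finite perfect group `G` (a perfect cover of `Q`). Then `π` is universal, in the sense that every surjective homomorphism `ξ : X →* Q` with central kernel from a group `X` in the universe of `G` admits a homomorphism `η : G →* X` with `ξ ∘ η = π`, if and only if `G` has trivial Schur multiplier. -/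
theorem result {G : Type u} {Q : Type v} [Group G] [Group Q] [Finite G] (hG : Group.IsPerfect G) (π : G →* Q) (hπ : Function.Surjective π) (hker : π.ker ≤ Subgroup.center G) : (∀ (X : Type u) [Group X] (ξ : X →* Q), Function.Surjective ξ → ξ.ker ≤ Subgroup.center X → ∃ η : G →* X, ξ.comp η = π) ↔ Cfsg.HasCyclicSchurMultiplier G 1 := by
  constructor
  · intro huniv
    rw [hasTrivialMultiplier_iff]
    intro E _ _ τ hτ
    -- E is perfect
    have hEp : Group.IsPerfect E := by
      constructor
      rw [eq_top_iff]
      intro e _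
      have h1 : τ e ∈ commutator G := by rw [hG.commutator_eq_top]; exact Subgroup.mem_top _
      obtain ⟨e', he', hee⟩ := commutator_le_map_of_surjective τ hτ.1 h1
      have h2 : e'⁻¹ * e ∈ τ.ker := by
        rw [MonoidHom.mem_ker, map_mul, map_inv, hee]; simp
      have : e = e' * (e'⁻¹ * e) := by group
      rw [this]
      exact Subgroup.mul_mem _ he' (hτ.2.2 h2)
    have hcen : (π.comp τ).ker ≤ Subgroup.center E := by
      intro x hx
      have h1 : τ x ∈ Subgroup.center G := hker hx
      rw [← Cfsg.Agent.S3962.result hEp τ hτ.1 hτ.2.1] at h1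
      obtain ⟨z, hz, hzx⟩ := h1
      have h2 : z⁻¹ * x ∈ τ.ker := by
        rw [MonoidHom.mem_ker, map_mul, map_inv, hzx]; simp
      have : x = z * (z⁻¹ * x) := by group
      rw [this]
      exact Subgroup.mul_mem _ hz (hτ.2.1 h2)
    obtain ⟨η, hη⟩ := huniv E (π.comp τ) (hπ.comp hτ.1) hcen
    have hid : τ.comp η = MonoidHom.id G := by
      apply hom_ext_of_perfect hG π hker
      rw [← MonoidHom.comp_assoc, hη]; rfl
    have hid' : ∀ g, τ (η g) = g := fun g => by
      have := congrArg (fun f : G →* G => f g) hid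
      exact this
    have hle := commutator_le_map η (by
      intro a
      refine ⟨τ a, hτ.2.1 ?_⟩
      rw [MonoidHom.mem_ker, map_mul, map_inv, hid']; simp)
    rw [eq_bot_iff]
    intro k hk
    obtain ⟨g, -, rfl⟩ := hle (hτ.2.2 hk)
    rw [MonoidHom.mem_ker, hid'] at hk
    rw [hk, map_one]
    exact Subgroup.one_mem _
  · intro hM X _ ξ hξ hc
    obtain ⟨f, hf⟩ := exists_surj_of_hasSchurMultiplier hM (pb1 π ξ) (pb1_surjective π ξ hξ)
      (ker_pb1_le_center π ξ hc)
    have hbot : (pb1 π ξ).ker ⊓ commutator (pb π ξ) = ⊥ := by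
      rw [eq_bot_iff]
      intro x hx
      obtain ⟨a, ha⟩ := hf ⟨x, hx⟩
      have h1 : a = 1 := Subsingleton.elim _ _
      rw [h1, map_one] at ha
      rw [Subgroup.mem_bot]
      exact (congrArg Subtype.val ha).symm
    let θ : commutator (pb π ξ) →* G := (pb1 π ξ).comp (commutator (pb π ξ)).subtype
    have hθ : Function.Bijective θ := by
      constructor
      · rw [injective_iff_map_eq_one]
        intro d hd
        have h2 : d.1 ∈ (pb1 π ξ).ker ⊓ commutator (pb π ξ) := Subgroup.mem_inf.2 ⟨hd, d.2⟩
        rw [hbot, Subgroup.mem_bot] at h2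
        exact Subtype.ext h2
      · intro g
        have h1 : g ∈ commutator G := by rw [hG.commutator_eq_top]; exact Subgroup.mem_top _
        obtain ⟨p, hp, rfl⟩ := commutator_le_map_of_surjective _ (pb1_surjective π ξ hξ) h1
        exact ⟨⟨p, hp⟩, rfl⟩
    let e := MulEquiv.ofBijective θ hθ
    refine ⟨((pb2 π ξ).comp (commutator (pb π ξ)).subtype).comp e.symm.toMonoidHom, ?_⟩
    ext g
    change ξ (pb2 π ξ (e.symm g).1) = π g
    rw [← pb_comm]
    have : pb1 π ξ (e.symm g).1 = e (e.symm g) := rfl
    rw [this, MulEquiv.apply_symm_apply]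

end Cfsg.Agent.S3961
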