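import Cfsg.Statements.S3964
import Cfsg.Agent.Lib.Helper69Dih
import Cfsg.Agent.Lib.Helper69Schur

set_option autoImplicit false
open Cfsg

namespace Cfsg.Agent.S3964

open Cfsg.Agent.Lib.Helper69Dih Cfsg.Agent.Lib.Helper69Schur

/-- common part for dihedral groups -/
theorem dihedral_aux (n : ℕ) {Γ : Type*} [Group Γ] (σ : Γ →* DihedralGroup n)
    (hσ : Cfsg.IsStemExtension σ) :
    ∃ c : Γ, c ^ n = 1 ∧ σ c = DihedralGroup.r 2 ∧ ∀ k ∈ σ.ker, k ∈ Subgroup.zpowers c := by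
  obtain ⟨x, hx⟩ := hσ.1 (DihedralGroup.r 1)
  obtain ⟨y, hy⟩ := hσ.1 (DihedralGroup.sr 0)
  obtain ⟨c, h1, h2, h3⟩ := dihedral_type σ hσ x y (by
      intro g
      rw [hx, hy]
      rcases σ g with i | i
      · obtain ⟨a, rfl⟩ := ZMod.intCast_surjective i
        exact ⟨a, 0, by simp⟩
      · obtain ⟨a, rfl⟩ := ZMod.intCast_surjective i
        exact ⟨-a, 1, by simp⟩)
    (by rw [hx, hy]; simp) n (by
      have : x ^ n ∈ σ.ker := by
        rw [MonoidHom.mem_ker, map_pow, hx]; simp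
      exact (Subgroup.mem_center_iff.1 (hσ.2.1 this) y).symm)
  refine ⟨c, h1, ?_, h3⟩
  rw [h2, hx]
  simp

/-- For odd `n` the dihedral group of order `2 n` has trivial Schur multiplier. -/
theorem result (n : ℕ) (hn : Odd n) : Cfsg.HasCyclicSchurMultiplier (DihedralGroup n) 1 := by
  haveI : NeZero n := ⟨by rintro rfl; simp at hn⟩
  rw [hasTrivialMultiplier_iff]
  intro Γ _ _ σ hσ
  obtain ⟨c, h1, h2, h3⟩ := dihedral_aux n σ hσ
  rw [eq_bot_iff]
  intro k hk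
  obtain ⟨i, rfl⟩ := Subgroup.mem_zpowers_iff.1 (h3 k hk)
  rw [MonoidHom.mem_ker, map_zpow, h2, DihedralGroup.r_zpow, DihedralGroup.one_def] at hk
  injection hk with hk
  have h4 : ((2 * i : ℤ) : ZMod n) = 0 := by push_cast; exact hk
  rw [ZMod.intCast_zmod_eq_zero_iff_dvd] at h4
  have hcop : IsCoprime (n : ℤ) 2 := by
    rw [Int.isCoprime_iff_gcd_eq_one]
    have := Nat.coprime_two_right.2 hn
    simpa [Int.gcd] using this
  obtain ⟨j, rfl⟩ := hcop.dvd_of_dvd_mul_left h4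
  rw [Subgroup.mem_bot, zpow_mul, zpow_natCast, h1, one_zpow]

end Cfsg.Agent.S3964
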