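import Mathlib
import Cfsg.Statements.S3966

set_option autoImplicit false
open Cfsg
open scoped commutatorElement

namespace Cfsg.Agent.S3966

open QuaternionGroup DihedralGroup in
/-- the natural map -/
def sig (n : ℕ) : QuaternionGroup n →* DihedralGroup n where
  toFun
    | a i => r (ZMod.castHom (Dvd.intro_left 2 rfl : n ∣ 2 * n) (ZMod n) i)
    | xa i => sr (ZMod.castHom (Dvd.intro_left 2 rfl : n ∣ 2 * n) (ZMod n) i)
  map_one' := by
    rw [QuaternionGroup.one_def]
    simp
  map_mul' := by
    rintro (i | i) (j | j) <;> simp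

theorem sig_a (n : ℕ) (i : ZMod (2 * n)) : sig n (QuaternionGroup.a i) =
    DihedralGroup.r (ZMod.castHom (Dvd.intro_left 2 rfl : n ∣ 2 * n) (ZMod n) i) := rfl

theorem sig_xa (n : ℕ) (i : ZMod (2 * n)) : sig n (QuaternionGroup.xa i) =
    DihedralGroup.sr (ZMod.castHom (Dvd.intro_left 2 rfl : n ∣ 2 * n) (ZMod n) i) := rfl

theorem sig_surj (n : ℕ) : Function.Surjective (sig n) := by
  have hs := ZMod.castHom_surjective (Dvd.intro_left 2 rfl : n ∣ 2 * n)
  rintro (i | i)
  · obtain ⟨j, rfl⟩ := hs i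
    exact ⟨QuaternionGroup.a j, rfl⟩
  · obtain ⟨j, rfl⟩ := hs i
    exact ⟨QuaternionGroup.xa j, rfl⟩

theorem mem_ker (n : ℕ) [NeZero n] (x : QuaternionGroup n) (hx : x ∈ (sig n).ker) :
    ∃ k : ℕ, x = QuaternionGroup.a ((n * k : ℕ) : ZMod (2 * n)) := by
  rw [MonoidHom.mem_ker] at hx
  rcases x with i | i
  · rw [sig_a, DihedralGroup.one_def] at hx
    injection hx with hx
    have h1 : ((i.val : ℕ) : ZMod n) = 0 := by
      rw [← hx]
      conv_rhs => rw [← ZMod.natCast_zmod_val i]
      simp
    rw [ZMod.natCast_eq_zero_iff] at h1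
    obtain ⟨k, hk⟩ := h1
    refine ⟨k, ?_⟩
    rw [← hk, ZMod.natCast_zmod_val]
  · rw [sig_xa, DihedralGroup.one_def] at hx
    cases hx

/-- For even `n ≥ 2` the dicyclic group of order `4 n` is a stem extension of the dihedral group of order `2 n` with kernel of order `2`: there is a surjective homomorphism `QuaternionGroup n →* DihedralGroup n` whose kernel is central, lies in the commutator subgroup and has two elements. Together with the order of the multiplier this exhibits the dicyclic group as a Schur covering group of the dihedral group. -/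
theorem result (n : ℕ) [NeZero n] (hn : Even n) : ∃ σ : QuaternionGroup n →* DihedralGroup n, Cfsg.IsStemExtension σ ∧ Nat.card σ.ker = 2 := by
  refine ⟨sig n, ⟨sig_surj n, ?_, ?_⟩, ?_⟩
  · intro x hx
    obtain ⟨k, rfl⟩ := mem_ker n x hx
    have h2 : ((n * k : ℕ) : ZMod (2 * n)) + ((n * k : ℕ) : ZMod (2 * n)) = 0 := by
      rw [← Nat.cast_add, ZMod.natCast_eq_zero_iff]
      exact ⟨k, by ring⟩
    rw [Subgroup.mem_center_iff]
    rintro (j | j)
    · simp [add_comm]
    · simp only [QuaternionGroup.xa_mul_a, QuaternionGroup.a_mul_xa]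
      congr 1
      rw [sub_eq_add_neg]
      congr 1
      exact eq_neg_of_add_eq_zero_left h2
  · intro x hx
    obtain ⟨k, rfl⟩ := mem_ker n x hx
    obtain ⟨m, hm⟩ := hn
    have : (QuaternionGroup.a ((n * k : ℕ) : ZMod (2 * n)) : QuaternionGroup n) =
        ⁅QuaternionGroup.a ((m * k : ℕ) : ZMod (2 * n)), QuaternionGroup.xa 0⁆ := by
      have hinv1 : (QuaternionGroup.a ((m * k : ℕ) : ZMod (2 * n)) : QuaternionGroup n)⁻¹ =
        QuaternionGroup.a (-((m * k : ℕ) : ZMod (2 * n))) := rfl
      have hinv2 : (QuaternionGroup.xa 0 : QuaternionGroup n)⁻¹ = QuaternionGroup.xa (n + 0) := rfl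
      rw [commutatorElement_def, hinv1, hinv2]
      simp only [QuaternionGroup.xa_mul_a, QuaternionGroup.a_mul_xa, QuaternionGroup.xa_mul_xa]
      congr 1
      have h2n : ((n : ℕ) : ZMod (2 * n)) + ((n : ℕ) : ZMod (2 * n)) = 0 := by
        rw [← Nat.cast_add, ZMod.natCast_eq_zero_iff]
        exact ⟨1, by ring⟩
      have : ((n * k : ℕ) : ZMod (2 * n)) = ((m * k : ℕ) : ZMod (2 * n)) + ((m * k : ℕ) : ZMod (2 * n)) := by
        rw [← Nat.cast_add]; congr 1; rw [hm]; ring
      rw [this]
      linear_combination -h2n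
    rw [this]
    exact Subgroup.commutator_mem_commutator (Subgroup.mem_top _) (Subgroup.mem_top _)
  · have h1 := Subgroup.card_eq_card_quotient_mul_card_subgroup (sig n).ker
    have h2 : Nat.card (QuaternionGroup n ⧸ (sig n).ker) = Nat.card (DihedralGroup n) :=
      Nat.card_congr (QuotientGroup.quotientKerEquivOfSurjective (sig n) (sig_surj n)).toEquiv
    rw [h2, DihedralGroup.nat_card, Nat.card_eq_fintype_card, QuaternionGroup.card] at h1
    have hn0 : 0 < n := Nat.pos_of_ne_zero (NeZero.ne n)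
    have : 2 * n * 2 = 2 * n * Nat.card (sig n).ker := by rw [← h1]; ring
    exact (Nat.eq_of_mul_eq_mul_left (by positivity) this).symm

end Cfsg.Agent.S3966
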