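import Cfsg.Statements.S3965
import Cfsg.Agent.Lib.Helper69Dih
import Cfsg.Agent.S3964
import Cfsg.Agent.S3966

set_option autoImplicit false
open Cfsg

namespace Cfsg.Agent.S3965

open Cfsg.Agent.Lib.Helper69Dih Cfsg.Agent.Lib.Helper69BilExt

/-- For even `n ≥ 2` the dihedral group of order `2 n` has Schur multiplier cyclic of order `2`. -/
theorem result (n : ℕ) [NeZero n] (hn : Even n) : Cfsg.HasCyclicSchurMultiplier (DihedralGroup n) 2 := by
  constructor
  · obtain ⟨σ, hσ, hcard⟩ := Cfsg.Agent.S3966.result n hn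
    haveI : Fact (Nat.Prime 2) := ⟨Nat.prime_two⟩
    exact ⟨QuaternionGroup n, inferInstance, inferInstance, σ, hσ,
      ⟨mulEquivOfPrimeCardEq (p := 2) hcard (by simp)⟩⟩
  · intro Γ _ _ σ hσ
    obtain ⟨c, h1, h2, h3⟩ := Cfsg.Agent.S3964.dihedral_aux n σ hσ
    obtain ⟨m, hm⟩ := hn
    have hdK : c ^ m ∈ σ.ker := by
      rw [MonoidHom.mem_ker, map_pow, h2, DihedralGroup.r_pow, DihedralGroup.one_def]
      congr 1
      have : ((n : ℕ) : ZMod n) = 0 := ZMod.natCast_self n
      rw [hm] at this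
      push_cast at this
      rw [two_mul]; 
      have h5 : ((m : ℕ) : ZMod (m + m)) + ((m : ℕ) : ZMod (m + m)) = 0 := this
      subst hm
      exact h5
    apply exists_surj_zmod (⟨c ^ m, hdK⟩ : σ.ker) 2
    · apply Subtype.ext
      change (c ^ m) ^ 2 = 1
      rw [← pow_mul, mul_two, ← hm, h1]
    · rintro ⟨k, hk⟩
      obtain ⟨i, rfl⟩ := Subgroup.mem_zpowers_iff.1 (h3 k hk)
      have hk' := hk
      rw [MonoidHom.mem_ker, map_zpow, h2, DihedralGroup.r_zpow, DihedralGroup.one_def] at hk'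
      injection hk' with hk'
      have h4 : ((2 * i : ℤ) : ZMod n) = 0 := by push_cast; exact hk'
      rw [ZMod.intCast_zmod_eq_zero_iff_dvd] at h4
      have hm0 : (m : ℤ) ≠ 0 := by
        intro h0
        have : m = 0 := by exact_mod_cast h0
        have hn0 := NeZero.ne n
        omega
      have h5 : (m : ℤ) ∣ i := by
        rw [hm] at h4
        push_cast at h4
        rw [← two_mul] at h4
        exact (mul_dvd_mul_iff_left (by norm_num : (2 : ℤ) ≠ 0)).1 h4
      obtain ⟨j, rfl⟩ := h5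
      rw [Subgroup.mem_zpowers_iff]
      refine ⟨j, Subtype.ext ?_⟩
      change ((⟨c ^ m, hdK⟩ : σ.ker) ^ j : σ.ker).1 = c ^ ((m : ℤ) * j)
      rw [Subgroup.coe_zpow, zpow_mul, zpow_natCast]

end Cfsg.Agent.S3965
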