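import Mathlib
import Cfsg.Statements.S3968
import Cfsg.Agent.Lib.Helper4Burnside
import Cfsg.Agent.Lib.Helper82Mult
import Cfsg.Agent.Lib.Helper79Central
import Cfsg.Agent.Lib.Helper82Linear

set_option autoImplicit false
open Cfsg

namespace Cfsg.Agent.S3968

open Cfsg.Agent.Lib
open scoped commutatorElement

/-- Let `p` be a prime and `G` a finite group with a faithful irreducible complex character of degree `p` (so `G` is an irreducible linear group in `p` variables). If `p ^ 2` divides the order of `G`, then the centre of `G` is nontrivial. -/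
theorem result {G : Type*} [Group G] [Finite G] (p : ℕ) (hp : p.Prime) (χ : Cfsg.IrrCharacter G) (hdeg : χ.1 1 = p) (hfaith : ∀ g : G, χ.1 g = χ.1 1 → g = 1) (hdiv : p ^ 2 ∣ Nat.card G) : Subgroup.center G ≠ ⊥ := by
  classical
  intro hZ
  have : Fact p.Prime := ⟨hp⟩
  have := Fintype.ofFinite G
  obtain ⟨n, ρ, hirr, hχ⟩ := χ.2
  have := hirr
  have hn : Module.finrank ℂ (Fin n → ℂ) = p := by
    have h1 : ρ.character 1 = (p : ℂ) := by rw [hχ]; exact hdeg
    rw [Representation.char_one] at h1
    exact_mod_cast h1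
  obtain ⟨P, hPidx, hcardP, hPp⟩ : ∃ P : Subgroup G, ¬ p ∣ P.index ∧ p ^ 2 ∣ Nat.card P ∧
      IsPGroup p P := by
    let P0 : Sylow p G := default
    exact ⟨P0, P0.not_dvd_index, P0.pow_dvd_card_of_pow_dvd_card hdiv, P0.isPGroup'⟩
  have key1 : ∀ z : G, (∀ x ∈ P, x * z = z * x) → z ≠ 1 → χ.1 z = 0 := by
    intro z hz hz1
    have hle : P ≤ Subgroup.centralizer ({z} : Set G) := by
      intro x hx
      rw [Subgroup.mem_centralizer_singleton_iff]
      exact hz x hx
    have hcop : Nat.Coprime (Module.finrank ℂ (Fin n → ℂ))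
        (Subgroup.centralizer ({z} : Set G)).index := by
      rw [hn, Nat.Prime.coprime_iff_not_dvd hp]
      intro hd
      exact hPidx (hd.trans (Subgroup.index_dvd_of_le hle))
    rcases Helper4Burnside.char_eq_zero_or_norm_eq_of_coprime ρ z hcop with h | h
    · rw [← hχ]; exact h
    · exfalso
      obtain ⟨ω, hω⟩ := (Helper4Eigen.norm_char_eq_finrank_iff ρ z).1 h
      apply hz1
      have hzc : z ∈ Subgroup.center G := by
        rw [Subgroup.mem_center_iff]
        intro g
        have h1 : ρ (g * z * g⁻¹ * z⁻¹) = LinearMap.id := by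
          have h2 : ρ (g * z) = ρ (z * g) := by
            rw [map_mul, map_mul, hω]
            ext v
            simp
          have h3 : g * z * g⁻¹ * z⁻¹ = (g * z) * (z * g)⁻¹ := by group
          rw [h3, map_mul, h2, ← map_mul, mul_inv_cancel, map_one]
          rfl
        have h4 := (Helper4Eigen.char_eq_finrank_iff ρ (g * z * g⁻¹ * z⁻¹)).2 h1
        have h5 : g * z * g⁻¹ * z⁻¹ = 1 := by
          apply hfaith
          rw [← hχ, h4, Representation.char_one]
        calc g * z = (g * z * g⁻¹ * z⁻¹) * (z * g) := by group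
          _ = z * g := by rw [h5, one_mul]
      rw [hZ] at hzc
      exact Subgroup.mem_bot.1 hzc
  -- the restricted character
  have hφ : Cfsg.IsCharacter P (fun h : P => χ.1 h) :=
    Helper82Mult.isCharacter_restrict (Helper82Irr.irr_isCharacter χ) P
  set φ : P → ℂ := fun h : P => χ.1 h with hφdef
  have : Fintype P := Fintype.ofFinite P
  have hφdeg : Cfsg.charDegree φ = p := by
    have h1 := Helper82Irr.charDegree_cast hφ
    have h2 : φ 1 = (p : ℂ) := hdeg
    rw [h2] at h1
    exact_mod_cast h1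
  obtain ⟨m, hm, hsum⟩ := Helper82Mult.exists_mult hφ
  by_cases hcase : ∃ ψ : Cfsg.IrrCharacter P, m ψ ≠ 0 ∧ (ψ : P → ℂ) 1 ≠ 1
  · obtain ⟨ψ, hmψ, hψ1⟩ := hcase
    have hdvd : Cfsg.charDegree (ψ : P → ℂ) ∣ Nat.card P := by
      obtain ⟨k, σ, hσ, hσψ⟩ := ψ.2
      have := hσ
      have h1 := Helper4Char3.finrank_dvd_card σ
      have h2 : ((Cfsg.charDegree (ψ : P → ℂ) : ℕ) : ℂ) = (Module.finrank ℂ (Fin k → ℂ) : ℂ) := by
        rw [Helper82Irr.irr_charDegree_cast, ← hσψ, Representation.char_one]
      have h3 : Cfsg.charDegree (ψ : P → ℂ) = Module.finrank ℂ (Fin k → ℂ) := by exact_mod_cast h2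
      rw [h3]; exact h1
    obtain ⟨k, hk⟩ := IsPGroup.iff_card.1 hPp
    rw [hk] at hdvd
    obtain ⟨j, -, hj⟩ := (Nat.dvd_prime_pow hp).1 hdvd
    have hj0 : j ≠ 0 := by
      intro h0
      apply hψ1
      rw [← Helper82Irr.irr_charDegree_cast, hj, h0]
      simp
    have hle : Cfsg.charDegree φ ≤ Cfsg.charDegree (ψ : P → ℂ) := by
      rw [hφdeg, hj]
      calc p = p ^ 1 := (pow_one p).symm
        _ ≤ p ^ j := Nat.pow_le_pow_right hp.pos (Nat.one_le_iff_ne_zero.2 hj0)
    have heq : φ = (ψ : P → ℂ) := by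
      apply Helper82Mult.eq_of_degree_le hφ ψ _ hle
      rw [hm]
      exact_mod_cast hmψ
    have : Nontrivial P := by
      rw [← Finite.one_lt_card_iff_nontrivial]
      have h1 : p ^ 2 ≤ Nat.card P := Nat.le_of_dvd Nat.card_pos hcardP
      have h2 : 1 < p ^ 2 := Nat.one_lt_pow (by norm_num) hp.one_lt
      omega
    have hnt : Nontrivial (Subgroup.center P) := hPp.center_nontrivial
    obtain ⟨⟨z, hzc⟩, hz1⟩ := exists_ne (1 : Subgroup.center P)
    have hz1' : z ≠ 1 := fun h => hz1 (Subtype.ext h)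
    have h0 : φ z = 0 := by
      apply key1
      · intro x hx
        have := Subgroup.mem_center_iff.1 hzc ⟨x, hx⟩
        exact congrArg Subtype.val this
      · intro h
        exact hz1' (Subtype.ext h)
    have h1 := Helper79Central.irr_central_mul ψ.2 hzc z⁻¹
    rw [mul_inv_cancel, ← heq, h0, zero_div, zero_mul] at h1
    have h2 : φ 1 = (p : ℂ) := hdeg
    rw [h2] at h1
    exact hp.ne_zero (by exact_mod_cast h1)
  · push Not at hcase
    have hcomm : ∀ g ∈ commutator P, g = 1 := by
      intro g hg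
      have h1 : φ g = φ 1 := by
        rw [hsum]
        simp only [Finset.sum_apply, Pi.smul_apply, smul_eq_mul]
        refine Finset.sum_congr rfl fun ψ _ => ?_
        by_cases h0 : m ψ = 0
        · rw [h0]; simp
        · rw [Helper82Linear.irr_linear_eq_one_of_mem_commutator ψ (hcase ψ h0) hg, hcase ψ h0]
      have h2 := hfaith (g : G) h1
      exact Subtype.ext h2
    have hab : ∀ x y : P, x * y = y * x := by
      intro x y
      have h1 : ⁅x, y⁆ ∈ commutator P := Subgroup.commutator_mem_commutator (Subgroup.mem_top x) (Subgroup.mem_top y)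
      have h2 := hcomm _ h1
      rw [commutatorElement_eq_one_iff_mul_comm] at h2
      exact h2
    have hvan : ∀ z : P, z ≠ 1 → φ z = 0 := by
      intro z hz
      apply key1
      · intro x hx
        exact congrArg Subtype.val (hab ⟨x, hx⟩ z)
      · intro h
        exact hz (Subtype.ext h)
    obtain ⟨N, hN⟩ := Helper82Mult.exists_nat_classInner hφ
      (Helper82Irr.irr_isCharacter (Helper82Linear.irrOne P))
    have hsum2 : ∑ g : P, φ g * (starRingEnd ℂ) (((Helper82Linear.irrOne P : Cfsg.IrrCharacter P) : P → ℂ) g) = (p : ℂ) := by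
      rw [Finset.sum_eq_single (1 : P)]
      · have h2 : φ 1 = (p : ℂ) := hdeg
        rw [h2]
        simp [Helper82Linear.irrOne]
      · intro b _ hb
        rw [hvan b hb, zero_mul]
      · intro h; exact absurd (Finset.mem_univ _) h
    unfold Cfsg.classInner at hN
    rw [hsum2] at hN
    have hc0 : (Nat.card P : ℂ) ≠ 0 := by exact_mod_cast Nat.card_pos.ne'
    have h3 : (p : ℂ) = ((N * Nat.card P : ℕ) : ℂ) := by
      push_cast
      field_simp at hN
      rw [hN, mul_comm]
    have h4 : p = N * Nat.card P := by exact_mod_cast h3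
    have h5 : p ^ 2 ∣ p := hcardP.trans ⟨N, by rw [h4]; ring⟩
    have h6 : p ^ 2 ≤ p := Nat.le_of_dvd hp.pos h5
    have h7 : p < p ^ 2 := by
      calc p = p ^ 1 := (pow_one p).symm
        _ < p ^ 2 := Nat.pow_lt_pow_right hp.one_lt (by norm_num)
    omega

end Cfsg.Agent.S3968
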