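import Cfsg.Statements.S3970
import Cfsg.Agent.S3969

set_option autoImplicit false
open Cfsg

namespace Cfsg.Agent.S3970

open Subgroup Cfsg.Agent.Lib.Helper11Frobenius

universe u

theorem sq_dvd_of_two_le_rank {H : Type*} [Group H] [Finite H] (p : ℕ) [Fact p.Prime]
    (hH : IsPGroup p H) (h2 : 2 ≤ Group.rank H) : p ^ 2 ∣ Nat.card H := by
  obtain ⟨k, hk⟩ := IsPGroup.iff_card.mp hH
  rcases Nat.lt_or_ge k 2 with hlt | hge
  · exfalso
    interval_cases k
    · have : Subsingleton H := (Nat.card_eq_one_iff_unique.mp (by simpa using hk)).1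
      have := Group.rank_eq_zero (G := H)
      omega
    · have hc : IsCyclic H := isCyclic_of_prime_card (p := p) (by simpa using hk)
      obtain ⟨g, hg⟩ := hc.exists_generator
      have : Group.rank H ≤ ({g} : Finset H).card := Group.rank_le (by
        rw [Finset.coe_singleton, ← Subgroup.zpowers_eq_closure]
        exact (Subgroup.eq_top_iff' _).mpr hg)
      simp at this
      omega
  · rw [hk]; exact pow_dvd_pow p hge

theorem aux (n : ℕ) : ∀ (G : Type u) [Group G] [Finite G], Nat.card G = n →
    (∀ p : ℕ, p.Prime → p ∣ Nat.card G → (∃ q : ℕ, q.Prime ∧ q ∣ Nat.card G ∧ p < q) →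
      ∀ P : Sylow p G, IsMulCommutative (P : Subgroup G) ∧ Group.rank (P : Subgroup G) ≤ 2) →
    ¬ 12 ∣ Nat.card G → Group.IsSolvable G := by
  induction n using Nat.strong_induction_on with
  | _ n ih =>
  intro G _ _ hn h h12
  by_cases h1 : Nat.card G = 1
  · have : Subsingleton G := (Nat.card_eq_one_iff_unique.mp h1).1
    infer_instance
  obtain ⟨p, hpdef⟩ : ∃ p, p = (Nat.card G).minFac := ⟨_, rfl⟩
  have hp : p.Prime := hpdef ▸ Nat.minFac_prime h1
  have hpd : p ∣ Nat.card G := hpdef ▸ Nat.minFac_dvd _
  haveI : Fact p.Prime := ⟨hp⟩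
  have hmin : ∀ s : ℕ, s.Prime → s ∣ Nat.card G → p ≤ s := fun s hs hsd =>
    hpdef ▸ Nat.minFac_le_of_dvd hs.two_le hsd
  have hp2le := hp.two_le
  by_cases hq : ∃ q : ℕ, q.Prime ∧ q ∣ Nat.card G ∧ p < q
  · let P : Sylow p G := default
    obtain ⟨hab, hrank⟩ := h p hp hpd hq P
    have hcop : Nat.Coprime (Nat.card G)
        (∏ i ∈ Finset.Icc 1 (Group.rank (P : Subgroup G)), (p ^ i - 1)) := by
      apply Nat.Coprime.prod_right
      intro i hi
      rw [Finset.mem_Icc] at hi
      apply Nat.coprime_of_dvd
      intro s hs hsG hsp
      have hps := hmin s hs hsG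
      have hi2 : i = 1 ∨ i = 2 := by omega
      have hs1 : ¬ s ∣ p - 1 := by
        intro hd
        have := Nat.le_of_dvd (by omega) hd
        omega
      rcases hi2 with hi1 | hi2
      · rw [hi1, pow_one] at hsp; exact hs1 hsp
      · have hfact : p ^ 2 - 1 = (p - 1) * (p + 1) := by
          obtain ⟨m, hm⟩ : ∃ m, p = m + 1 := ⟨p - 1, by omega⟩
          rw [hm]
          have : (m + 1) ^ 2 = m * (m + 1 + 1) + 1 := by ring
          rw [this]; simp
        rw [hi2, hfact] at hsp
        rcases (hs.dvd_mul).mp hsp with hd | hd
        · exact hs1 hd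
        · have hle := Nat.le_of_dvd (by omega) hd
          have hcase : s = p ∨ s = p + 1 := by omega
          rcases hcase with hsp' | hsp'
          · rw [hsp'] at hd
            have : p ∣ 1 := (Nat.dvd_add_right (dvd_refl p)).mp hd
            exact hp.one_lt.ne' (Nat.dvd_one.mp this)
          · have hp2 : p = 2 := by
              rcases hp.eq_two_or_odd' with h | h
              · exact h
              · have hev : Even (p + 1) := h.add_one
                rw [← hsp'] at hev
                have := hs.even_iff.mp hev
                omega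
            have h4 : p ^ 2 ∣ Nat.card (P : Subgroup G) :=
              sq_dvd_of_two_le_rank p P.isPGroup' (hi2 ▸ hi.2)
            have h4' : 4 ∣ Nat.card G := by
              have := h4.trans (Subgroup.card_subgroup_dvd_card _)
              rw [hp2] at this
              simpa using this
            have h3 : 3 ∣ Nat.card G := by
              rw [hsp', hp2] at hsG
              simpa using hsG
            exact h12 (Nat.Coprime.mul_dvd_of_dvd_of_dvd (by norm_num : Nat.Coprime 4 3) h4' h3)
    have hnpc := Cfsg.Agent.S3969.result p P hab hcop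
    obtain ⟨N, hN, hNc, k, hk⟩ := hasNPC_iff.mpr hnpc
    have hNlt : Nat.card N < n := by
      rw [← hn]
      have hle : Nat.card N ∣ Nat.card G := Subgroup.card_subgroup_dvd_card N
      rcases (Nat.le_of_dvd Nat.card_pos hle).lt_or_eq with h | h
      · exact h
      · exfalso
        rw [h] at hNc
        exact (Nat.Prime.coprime_iff_not_dvd hp).mp hNc.symm hpd
    have hcardG : Nat.card G = Nat.card N * p ^ k := by rw [← hk]; exact (N.card_mul_index).symm
    have hNsol : Group.IsSolvable N := by
      apply ih (Nat.card N) hNlt N rfl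
      · rintro s hs hsN ⟨q, hq, hqN, hsq⟩ Q
        have hsG : s ∣ Nat.card G := hsN.trans (Subgroup.card_subgroup_dvd_card N)
        have hsp : s ≠ p := by
          intro hsp
          rw [hsp] at hsN
          exact (Nat.Prime.coprime_iff_not_dvd hp).mp hNc.symm hsN
        haveI : Fact s.Prime := ⟨hs⟩
        have hfac : (Nat.card G).factorization s = (Nat.card N).factorization s := by
          rw [hcardG, Nat.factorization_mul (Nat.card_pos.ne') (pow_ne_zero _ hp.ne_zero),
            Nat.factorization_pow, hp.factorization]
          simp [Finsupp.single_apply, hsp.symm]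
        let Q' : Subgroup G := (Q : Subgroup N).map N.subtype
        have hQ'card : Nat.card Q' = s ^ (Nat.card G).factorization s := by
          rw [hfac, ← Q.card_eq_multiplicity]
          exact Subgroup.card_map_of_injective N.subtype_injective
        obtain ⟨hc, hr⟩ := h s hs hsG
          ⟨q, hq, hqN.trans (Subgroup.card_subgroup_dvd_card N), hsq⟩ (Sylow.ofCard Q' hQ'card)
        let e : (Q : Subgroup N) ≃* Q' :=
          (Q : Subgroup N).equivMapOfInjective N.subtype N.subtype_injective
        constructor
        · refine ⟨⟨fun a b => ?_⟩⟩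
          apply e.injective
          rw [map_mul, map_mul]
          exact hc.is_comm.comm (e a) (e b)
        · rw [Group.rank_congr e]; exact hr
      · intro hd; exact h12 (hd.trans (Subgroup.card_subgroup_dvd_card N))
    have hQsol : Group.IsSolvable (G ⧸ N) := by
      have h1 : IsPGroup p (G ⧸ N) := IsPGroup.of_card (n := k) (by rw [← hk]; rfl)
      have := h1.isNilpotent
      infer_instance
    exact (Group.isSolvable_iff_subgroup_quotient N).mpr ⟨hNsol, hQsol⟩
  · have h1 : IsPGroup p G := by
      apply IsPGroup.of_card (n := (Nat.card G).primeFactorsList.length)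
      apply Nat.eq_prime_pow_of_unique_prime_dvd Nat.card_pos.ne'
      intro d hd hdG
      by_contra hne
      exact hq ⟨d, hd, hdG, lt_of_le_of_ne (hmin d hd hdG) (Ne.symm hne)⟩
    have := h1.isNilpotent
    infer_instance



/-- Let `G` be a finite group such that for every prime `p` dividing its order, other than the largest such prime, the Sylow `p`-subgroups are abelian and generated by at most two elements, and suppose `12` does not divide the order of `G`. Then `G` is solvable. In particular a group of cube-free order not divisible by `12` is solvable. -/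
theorem result {G : Type*} [Group G] [Finite G] (h : ∀ p : ℕ, p.Prime → p ∣ Nat.card G → (∃ q : ℕ, q.Prime ∧ q ∣ Nat.card G ∧ p < q) → ∀ P : Sylow p G, IsMulCommutative (P : Subgroup G) ∧ Group.rank (P : Subgroup G) ≤ 2) (h12 : ¬ 12 ∣ Nat.card G) : Group.IsSolvable G := by
  exact aux _ G rfl h h12

end Cfsg.Agent.S3970
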