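import Cfsg.Statements.S3971
import Cfsg.Agent.Lib.Helper11CyclicTwo

set_option autoImplicit false
open Cfsg

namespace Cfsg.Agent.S3971

/-- Let `G` be a finite group of order `2 ^ a * n` with `n` odd and not divisible by `3`, and suppose `G` has an element of order `2 ^ (a - 1)` (so a Sylow `2`-subgroup has a cyclic subgroup of index at most `2`). Then `G` has a normal subgroup of order `n`. -/
theorem result {G : Type*} [Group G] [Finite G] (a n : ℕ) (hG : Nat.card G = 2 ^ a * n) (hn : Odd n) (h3 : ¬ 3 ∣ n) (hx : ∃ x : G, orderOf x = 2 ^ (a - 1)) : ∃ N : Subgroup G, N.Normal ∧ Nat.card N = n := by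
  obtain ⟨x, hx⟩ := hx
  have hn2 : Nat.Coprime n 2 := (Nat.coprime_two_left.mpr hn).symm
  set Z := Subgroup.zpowers x with hZ
  have hZp : IsPGroup 2 Z := IsPGroup.of_card (n := a - 1) (by rw [hZ, Nat.card_zpowers, hx])
  obtain ⟨P, hZP⟩ := hZp.exists_le_sylow
  obtain ⟨m, hm⟩ := IsPGroup.iff_card.mp P.isPGroup'
  have hPcard : Nat.card (P : Subgroup G) = 2 ^ a := by
    have hm' : Nat.card (P : Subgroup G) = 2 ^ m := hm
    have e2 : 2 ^ m * (P : Subgroup G).index = 2 ^ a * n := by
      rw [← hm', ← hG]; exact (P : Subgroup G).card_mul_index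
    have hidx : ((P : Subgroup G).index).Coprime 2 :=
      ((Nat.Prime.coprime_iff_not_dvd Nat.prime_two).mpr P.not_dvd_index).symm
    have d1 : 2 ^ m ∣ 2 ^ a := by
      have : 2 ^ m ∣ 2 ^ a * n := by rw [← e2]; exact dvd_mul_right _ _
      exact (Nat.Coprime.dvd_mul_right (Nat.Coprime.pow_left m hn2.symm)).mp this
    have d2 : 2 ^ a ∣ 2 ^ m := by
      have : 2 ^ a ∣ 2 ^ m * (P : Subgroup G).index := by rw [e2]; exact dvd_mul_right _ _
      exact (Nat.Coprime.dvd_mul_right (Nat.Coprime.pow_left a hidx.symm)).mp this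
    rw [hm', Nat.dvd_antisymm d1 d2]
  have hZidx : (Z.subgroupOf (P : Subgroup G)).index ∣ 2 := by
    have h1 := (Z.subgroupOf (P : Subgroup G)).card_mul_index
    have h2 : Nat.card (Z.subgroupOf (P : Subgroup G)) = 2 ^ (a - 1) := by
      rw [← hx, ← Nat.card_zpowers]
      exact Nat.card_congr (Subgroup.subgroupOfEquivOfLe hZP).toEquiv
    rw [h2, hPcard] at h1
    rcases Nat.eq_zero_or_pos a with rfl | ha
    · have h4 : (Z.subgroupOf (P : Subgroup G)).index = 1 := by simpa using h1
      rw [h4]; norm_num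
    · have h3 : 2 ^ a = 2 ^ (a - 1) * 2 := by rw [← pow_succ]; congr 1; omega
      rw [h3] at h1
      have := Nat.eq_of_mul_eq_mul_left (by positivity) h1
      rw [this]
  have hZn : (Z.subgroupOf (P : Subgroup G)).Normal := by
    rcases (Nat.dvd_prime Nat.prime_two).mp hZidx with h | h
    · rw [Subgroup.index_eq_one] at h
      rw [h]; infer_instance
    · exact Subgroup.normal_of_index_eq_two h
  have hF : Lib.Helper11Frobenius.FrobCond 2 G := by
    apply Lib.Helper11Frobenius.frobCond_of_sylow P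
    intro Q hQP g hg hgp
    have hodd : Odd (orderOf g) := Nat.coprime_two_left.mp hgp.symm
    have hg3 : ¬ 3 ∣ orderOf g := by
      intro h
      have h1 : 3 ∣ 2 ^ a * n := hG ▸ h.trans (orderOf_dvd_natCard g)
      rcases (Nat.Prime.dvd_mul Nat.prime_three).mp h1 with h2 | h2
      · have := Nat.prime_three.dvd_of_dvd_pow h2
        norm_num at this
      · exact h3 h2
    apply Lib.Helper11CyclicTwo.cyclic_index_two_aut Q (Q ⊓ Z) (P.isPGroup'.to_le hQP) inf_le_left
      (Subgroup.isCyclic_of_le (inf_le_right : Q ⊓ Z ≤ Z)) _ g hodd hg3 hg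
    have h1 : ((Q ⊓ Z).subgroupOf Q).index = Z.relIndex Q := by
      rw [← Subgroup.relIndex, Subgroup.inf_relIndex_left]
    rw [h1, ← Subgroup.relIndex_subgroupOf hQP]
    exact (Subgroup.relIndex_dvd_index_of_normal _ _).trans hZidx
  obtain ⟨N, hN, h1, k, hk⟩ := Lib.Helper11Frobenius.frobenius hF
  refine ⟨N, hN, ?_⟩
  have e1 : Nat.card N * 2 ^ k = 2 ^ a * n := by rw [← hk, ← hG]; exact N.card_mul_index
  have d1 : Nat.card N ∣ n := by
    have : Nat.card N ∣ 2 ^ a * n := by rw [← e1]; exact dvd_mul_right _ _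
    exact (Nat.Coprime.dvd_mul_left (Nat.Coprime.pow_right a h1)).mp this
  have d2 : n ∣ Nat.card N := by
    have : n ∣ Nat.card N * 2 ^ k := by rw [e1]; exact dvd_mul_left _ _
    exact (Nat.Coprime.dvd_mul_right (Nat.Coprime.pow_right k hn2)).mp this
  exact Nat.dvd_antisymm d1 d2

end Cfsg.Agent.S3971
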