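import Cfsg.Statements.S3972
import Cfsg.Agent.Lib.Helper75SchurC

set_option autoImplicit false
open Cfsg

namespace Cfsg.Agent.S3972

open scoped Pointwise

/-- an element of order `p ^ m` on `p ^ m` points generates a transitive group -/
theorem zpowers_transitive {G Ω : Type*} [Group G] [MulAction G Ω] [FaithfulSMul G Ω] [Fintype Ω]
    (p m : ℕ) (hp : p.Prime) (hm : 1 ≤ m) (hΩ : Fintype.card Ω = p ^ m) (g : G)
    (hg : orderOf g = p ^ m) : MulAction.IsPretransitive (Subgroup.zpowers g) Ω := by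
  classical
  have h1 : g ^ (p ^ (m - 1)) ≠ 1 := by
    apply pow_ne_one_of_lt_orderOf (pow_pos hp.pos _).ne'
    rw [hg]
    exact Nat.pow_lt_pow_right hp.one_lt (by omega)
  obtain ⟨x, hx⟩ : ∃ x : Ω, g ^ (p ^ (m - 1)) • x ≠ x := by
    by_contra hcon
    push Not at hcon
    apply h1
    apply FaithfulSMul.eq_of_smul_eq_smul (α := Ω)
    intro a
    rw [hcon a, one_smul]
  have h2 : Function.minimalPeriod (g • ·) x ∣ p ^ m := by
    rw [← MulAction.pow_smul_eq_iff_minimalPeriod_dvd, ← hg, pow_orderOf_eq_one, one_smul]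
  obtain ⟨j, hj, hj'⟩ := (Nat.dvd_prime_pow hp).1 h2
  have hjm : j = m := by
    by_contra hne
    apply hx
    rw [MulAction.pow_smul_eq_iff_minimalPeriod_dvd, hj']
    exact pow_dvd_pow p (by omega)
  rw [hjm, MulAction.minimalPeriod_eq_card, ← hΩ] at hj'
  have h3 : MulAction.orbit (Subgroup.zpowers g) x = Set.univ := by
    rw [← Set.toFinset_inj, Set.toFinset_univ]
    apply Finset.eq_univ_of_card
    rw [Set.toFinset_card]
    exact hj'
  constructor
  intro a b
  have ha : a ∈ MulAction.orbit (Subgroup.zpowers g) x := by rw [h3]; trivial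
  have hb : b ∈ MulAction.orbit (Subgroup.zpowers g) x := by rw [h3]; trivial
  obtain ⟨u, rfl⟩ := ha
  obtain ⟨v, rfl⟩ := hb
  exact ⟨v * u⁻¹, by simp [mul_smul]⟩

/-- `g ^ (p ^ (m-1))` stabilises every block with at least two points -/
theorem pow_mem_stabilizer {G Ω : Type*} [Group G] [MulAction G Ω]
    (p m : ℕ) (hp : p.Prime) (hm : 1 ≤ m) (g : G) (hg : orderOf g = p ^ m)
    (htr : MulAction.IsPretransitive (Subgroup.zpowers g) Ω)
    (B : Set Ω) (hB : MulAction.IsBlock G B) (hB2 : ¬ B.Subsingleton) :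
    g ^ (p ^ (m - 1)) • B = B := by
  rw [Set.not_subsingleton_iff] at hB2
  obtain ⟨x, hx, y, hy, hxy⟩ := hB2
  obtain ⟨⟨u, hu⟩, huy⟩ := htr.exists_smul_eq x y
  obtain ⟨i, rfl⟩ := Subgroup.mem_zpowers_iff.1 hu
  have huy' : g ^ i • x = y := huy
  have h1 : g ^ i ∈ MulAction.stabilizer G B := by
    rw [MulAction.mem_stabilizer_iff]
    exact hB.smul_eq_of_mem hx (by rw [huy']; exact hy)
  have h2 : ¬ ((p ^ m : ℕ) : ℤ) ∣ i := by
    intro h
    apply hxy
    rw [← huy', ← hg] at *
    rw [(orderOf_dvd_iff_zpow_eq_one).1 h, one_smul]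
  have h3 : g ^ ((Int.gcd i (p ^ m : ℕ) : ℕ) : ℤ) ∈ MulAction.stabilizer G B := by
    rw [Int.gcd_eq_gcd_ab, zpow_add, zpow_mul, zpow_mul]
    apply Subgroup.mul_mem
    · exact Subgroup.zpow_mem _ h1 _
    · apply Subgroup.zpow_mem
      rw [zpow_natCast, ← hg, pow_orderOf_eq_one]
      exact Subgroup.one_mem _
  have h4 : Int.gcd i (p ^ m : ℕ) ∣ p ^ m := by
    have := Int.gcd_dvd_right i ((p ^ m : ℕ) : ℤ)
    exact_mod_cast this
  obtain ⟨a, ha, ha'⟩ := (Nat.dvd_prime_pow hp).1 h4
  have ham : a ≠ m := by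
    intro h
    apply h2
    rw [h] at ha'
    rw [← ha']
    exact Int.gcd_dvd_left i _
  rw [ha', zpow_natCast] at h3
  have h5 : g ^ (p ^ (m - 1)) = (g ^ (p ^ a)) ^ (p ^ (m - 1 - a)) := by
    rw [← pow_mul, ← pow_add]
    congr 2
    omega
  have h6 : g ^ (p ^ (m - 1)) ∈ MulAction.stabilizer G B := by
    rw [h5]
    exact Subgroup.pow_mem _ h3 _
  exact h6

/-- Let `p` be a prime, `m ≥ 2`, and `G` a transitive but not doubly transitive permutation group on `p ^ m` points containing a permutation of order `p ^ m` (necessarily a full cycle). Then `G` is imprimitive, and the normal closure in `G` of the `p ^ (m - 1)`-th power of that permutation is an intransitive normal subgroup. -/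
theorem result {Ω : Type*} [Fintype Ω] [DecidableEq Ω] (p m : ℕ) (hp : p.Prime) (hm : 2 ≤ m) (hΩ : Fintype.card Ω = p ^ m) (G : Subgroup (Equiv.Perm Ω)) (htr : MulAction.IsPretransitive G Ω) (h2 : ¬ MulAction.IsMultiplyPretransitive G Ω 2) (g : G) (hg : orderOf g = p ^ m) : ¬ MulAction.IsPreprimitive G Ω ∧ ¬ MulAction.IsPretransitive (Subgroup.normalClosure ({g ^ (p ^ (m - 1))} : Set G)) Ω := by
  classical
  have htrz := zpowers_transitive (G := G) (Ω := Ω) p m hp (by omega) hΩ g hg
  have hnp : ¬ MulAction.IsPreprimitive G Ω := by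
    intro hprim
    apply h2
    apply Cfsg.Agent.Lib.Helper75Schur.schur hprim g htrz hp (k := p ^ (m - 1))
    · calc 2 ≤ p := hp.two_le
        _ = p ^ 1 := (pow_one p).symm
        _ ≤ p ^ (m - 1) := Nat.pow_le_pow_right hp.pos (by omega)
    · rw [Nat.card_eq_fintype_card, hΩ, ← pow_succ']
      congr 1
      omega
  refine ⟨hnp, ?_⟩
  -- a nontrivial block
  obtain ⟨B, hB, hBt⟩ : ∃ B : Set Ω, MulAction.IsBlock G B ∧ ¬ MulAction.IsTrivialBlock B := by
    by_contra hcon
    push Not at hcon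
    exact hnp { toIsPretransitive := htr, isTrivialBlock_of_isBlock := fun {B} hB => hcon B hB }
  rw [MulAction.IsTrivialBlock, not_or] at hBt
  obtain ⟨hB1, hB2⟩ := hBt
  -- the kernel on the block system
  let K : Subgroup G :=
    { carrier := {k | ∀ h : G, k • (h • B) = h • B}
      one_mem' := fun h => one_smul _ _
      mul_mem' := fun {a b} ha hb h => by rw [mul_smul, hb h, ha h]
      inv_mem' := fun {a} ha h => by
        rw [inv_smul_eq_iff, ha h] }
  have hKn : K.Normal := by
    constructor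
    intro k hk a h
    have := hk (a⁻¹ * h)
    rw [mul_smul, mul_smul, ← mul_smul a⁻¹ h B, this, mul_smul, smul_inv_smul]
  have hz : g ^ (p ^ (m - 1)) ∈ K := by
    intro h
    apply pow_mem_stabilizer p m hp (by omega) g hg htrz (h • B) (hB.translate h)
    intro hs
    apply hB1
    intro a ha b hb
    have := hs (Set.smul_mem_smul_set (a := h) ha) (Set.smul_mem_smul_set (a := h) hb)
    exact MulAction.injective h this
  have hle : Subgroup.normalClosure ({g ^ (p ^ (m - 1))} : Set G) ≤ K :=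
    Subgroup.normalClosure_le_normal (by simpa using hz)
  intro htrN
  obtain ⟨x, hx⟩ : B.Nonempty := by
    rw [Set.nonempty_iff_ne_empty]
    rintro rfl
    exact hB1 Set.subsingleton_empty
  obtain ⟨y, hy⟩ : ∃ y, y ∉ B := by
    by_contra hcon
    push Not at hcon
    exact hB2 (Set.eq_univ_of_forall hcon)
  obtain ⟨⟨k, hk⟩, hky⟩ := htrN.exists_smul_eq x y
  have h1 := hle hk 1
  rw [one_smul] at h1
  apply hy
  rw [← hky, ← h1]
  exact Set.smul_mem_smul_set hx

end Cfsg.Agent.S3972
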