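import Cfsg.Statements.S3973
import Cfsg.Agent.Lib.Helper69Schur

set_option autoImplicit false
open Cfsg

namespace Cfsg.Agent.S3973

open Cfsg.Agent.Lib.Helper69Schur
open scoped IsMulCommutative

/-- If a finite group is presented by `n` generators and a finite set of `r` relators, then its Schur multiplier can be generated by `r - n` elements. In particular a finite group with a presentation having as many relators as generators has trivial Schur multiplier. -/
theorem result (n : ℕ) (rels : Finset (FreeGroup (Fin n))) [Finite (PresentedGroup (rels : Set (FreeGroup (Fin n))))] {A : Type*} [CommGroup A] [Finite A] (hA : Cfsg.HasSchurMultiplier (PresentedGroup (rels : Set (FreeGroup (Fin n)))) A) : Group.rank A ≤ rels.card - n := by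
  classical
  set π := PresentedGroup.mk (rels : Set (FreeGroup (Fin n))) with hπdef
  have hπ : Function.Surjective π := PresentedGroup.mk_surjective _
  obtain ⟨eA⟩ := equiv_mult_of_hasSchurMultiplier π hπ hA
  -- the images of the relators
  have hrel : ∀ i : rels, (QuotientGroup.mk (i : FreeGroup (Fin n)) : CE π) ∈ (eps π).ker := by
    intro i
    rw [MonoidHom.mem_ker, eps_mk]
    exact PresentedGroup.one_of_mem i.2
  let v : rels → Additive (Subgroup.center (CE π)) := fun i =>
    Additive.ofMul ⟨QuotientGroup.mk (i : FreeGroup (Fin n)), ker_eps_le_center π (hrel i)⟩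
  let φ : (rels → ℤ) →ₗ[ℤ] Additive (Subgroup.center (CE π)) := Fintype.linearCombination ℤ v
  -- every element of the kernel is in the range of φ
  have hS : (eps π).ker ≤ Subgroup.closure (Set.range fun i : rels =>
      (QuotientGroup.mk (i : FreeGroup (Fin n)) : CE π)) := by
    set S := Subgroup.closure (Set.range fun i : rels =>
      (QuotientGroup.mk (i : FreeGroup (Fin n)) : CE π)) with hSdef
    have hSc : S ≤ Subgroup.center (CE π) := by
      rw [hSdef, Subgroup.closure_le]
      rintro _ ⟨i, rfl⟩
      exact ker_eps_le_center π (hrel i)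
    have hSn : S.Normal := normal_of_le_center hSc
    have hle : Subgroup.normalClosure (rels : Set (FreeGroup (Fin n))) ≤
        S.comap (QuotientGroup.mk' (FR π)) := by
      apply Subgroup.normalClosure_le_normal
      intro r hr
      exact Subgroup.subset_closure ⟨⟨r, hr⟩, rfl⟩
    intro x hx
    obtain ⟨f, rfl⟩ := QuotientGroup.mk_surjective x
    rw [MonoidHom.mem_ker, eps_mk] at hx
    exact hle (PresentedGroup.mk_eq_one_iff.1 hx)
  have hφ : ∀ x ∈ (eps π).ker, ∃ c : rels → ℤ, ((Additive.toMul (φ c) : Subgroup.center (CE π)) : CE π) = x := by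
    intro x hx
    have hx' := hS hx
    clear hx
    induction hx' using Subgroup.closure_induction with
    | mem y hy =>
      obtain ⟨i, rfl⟩ := hy
      refine ⟨Pi.single i 1, ?_⟩
      simp [φ, v]
    | one => exact ⟨0, by simp⟩
    | mul a b _ _ ha hb =>
      obtain ⟨c, rfl⟩ := ha
      obtain ⟨d, rfl⟩ := hb
      exact ⟨c + d, by simp⟩
    | inv a _ ha =>
      obtain ⟨c, rfl⟩ := ha
      exact ⟨-c, by simp⟩
  have hφker : ∀ c, ((Additive.toMul (φ c) : Subgroup.center (CE π)) : CE π) ∈ (eps π).ker := by
    intro c
    have : φ c = ∑ i, c i • v i := Fintype.linearCombination_apply ℤ v c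
    rw [this, toMul_sum]
    apply Finset.prod_induction _ (fun z : Subgroup.center (CE π) => (z : CE π) ∈ (eps π).ker)
    · intro a b ha hb
      exact Subgroup.mul_mem _ ha hb
    · exact Subgroup.one_mem _
    · intro i _
      rw [toMul_zsmul, Subgroup.coe_zpow]
      exact Subgroup.zpow_mem _ (hrel i) _
  -- the map to the free abelian group
  let ab : Additive (Subgroup.center (CE π)) →ₗ[ℤ] FreeAbelianGroup (Fin n) :=
    (MonoidHom.toAdditive ((abE π).comp (Subgroup.center (CE π)).subtype)).toIntLinearMap
  let ψ : (rels → ℤ) →ₗ[ℤ] FreeAbelianGroup (Fin n) := ab.comp φ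
  have hfree : Module.Free ℤ (FreeAbelianGroup (Fin n)) := Module.Free.of_basis (FreeAbelianGroup.basis (Fin n))
  have hfin : Module.Finite ℤ (FreeAbelianGroup (Fin n)) := Module.Finite.of_basis (FreeAbelianGroup.basis (Fin n))
  have hrankL : Module.finrank ℤ (FreeAbelianGroup (Fin n)) = n := by
    rw [Module.finrank_eq_card_basis (FreeAbelianGroup.basis (Fin n)), Fintype.card_fin]
  have htors : Module.IsTorsion ℤ (FreeAbelianGroup (Fin n) ⧸ LinearMap.range ψ) := by
    intro y
    obtain ⟨y, rfl⟩ := Submodule.Quotient.mk_surjective _ y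
    obtain ⟨f, hf⟩ : ∃ f : FreeGroup (Fin n), Additive.ofMul (Abelianization.of f) = y :=
      ⟨_, QuotientGroup.out_eq' (Additive.toMul y)⟩
    refine ⟨⟨(Nat.card (PresentedGroup (rels : Set (FreeGroup (Fin n)))) : ℤ), ?_⟩, ?_⟩
    · rw [mem_nonZeroDivisors_iff_ne_zero]
      exact_mod_cast Nat.card_pos.ne'
    · rw [Submonoid.mk_smul, ← Submodule.Quotient.mk_smul, Submodule.Quotient.mk_eq_zero]
      have h1 : (QuotientGroup.mk (f ^ Nat.card (PresentedGroup (rels : Set (FreeGroup (Fin n))))) : CE π) ∈ (eps π).ker := by
        rw [MonoidHom.mem_ker, eps_mk, map_pow, pow_card_eq_one']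
      obtain ⟨c, hc⟩ := hφ _ h1
      refine ⟨c, ?_⟩
      change Additive.ofMul (abE π ((Additive.toMul (φ c) : Subgroup.center (CE π)) : CE π)) = _
      rw [hc, ← hf]
      exact (natCast_zsmul (G := Additive (Abelianization (FreeGroup (Fin n))))
        (Additive.ofMul (Abelianization.of f)) _).symm
  have hrange : Module.finrank ℤ (LinearMap.range ψ) = n := by
    have := (LinearMap.range ψ).finrank_quotient_add_finrank
    rw [htors.finrank_eq_zero, zero_add, hrankL] at this
    exact this
  have hker : Module.finrank ℤ (LinearMap.ker ψ) = rels.card - n := by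
    have := (LinearMap.ker ψ).finrank_quotient_add_finrank
    rw [LinearEquiv.finrank_eq ψ.quotKerEquivRange, hrange, Module.finrank_fintype_fun_eq_card,
      Fintype.card_coe] at this
    omega
  -- the map from the kernel of ψ to the multiplier
  have hmult : ∀ c : LinearMap.ker ψ, ((Additive.toMul (φ c) : Subgroup.center (CE π)) : CE π) ∈ mult π := by
    intro c
    refine Subgroup.mem_inf.2 ⟨hφker c, ?_⟩
    rw [← ker_abE, MonoidHom.mem_ker]
    have := c.2
    rw [LinearMap.mem_ker] at this
    exact congrArg Additive.toMul this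
  let θ : Multiplicative (LinearMap.ker ψ) →* A :=
    eA.symm.toMonoidHom.comp
    { toFun := fun c => ⟨_, hmult (Multiplicative.toAdd c)⟩
      map_one' := by
        apply Subtype.ext
        simp
      map_mul' := fun c d => by
        apply Subtype.ext
        simp }
  have hθ : Function.Surjective θ := by
    apply eA.symm.surjective.comp
    rintro ⟨m, hm⟩
    obtain ⟨c, hc⟩ := hφ m (Subgroup.mem_inf.1 hm).1
    refine ⟨Multiplicative.ofAdd ⟨c, ?_⟩, Subtype.ext hc⟩
    rw [LinearMap.mem_ker]
    change Additive.ofMul (abE π ((Additive.toMul (φ c) : Subgroup.center (CE π)) : CE π)) = 0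
    rw [hc]
    have h2 := (Subgroup.mem_inf.1 hm).2
    rw [← ker_abE, MonoidHom.mem_ker] at h2
    rw [h2]; rfl
  let b := Module.finBasis ℤ (LinearMap.ker ψ)
  let S : Finset A := Finset.univ.image (fun i => θ (Multiplicative.ofAdd (b i)))
  have hSgen : Subgroup.closure (S : Set A) = ⊤ := by
    rw [eq_top_iff]
    intro a _
    obtain ⟨c, rfl⟩ := hθ a
    have hspan : Multiplicative.toAdd c ∈ Submodule.span ℤ (Set.range b) := by
      rw [b.span_eq]; exact Submodule.mem_top
    have key : ∀ x ∈ Submodule.span ℤ (Set.range b), θ (Multiplicative.ofAdd x) ∈ Subgroup.closure (S : Set A) := by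
      intro x hx
      induction hx using Submodule.span_induction with
      | mem y hy =>
        obtain ⟨i, rfl⟩ := hy
        apply Subgroup.subset_closure
        simp only [S, Finset.coe_image, Finset.coe_univ, Set.image_univ]
        exact ⟨i, rfl⟩
      | zero => rw [ofAdd_zero, map_one]; exact Subgroup.one_mem _
      | add x y _ _ hx hy => rw [ofAdd_add, map_mul]; exact Subgroup.mul_mem _ hx hy
      | smul r x _ hx => rw [ofAdd_zsmul, map_zpow]; exact Subgroup.zpow_mem _ hx r
    exact key _ hspan
  calc Group.rank A ≤ S.card := Group.rank_le hSgen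
    _ ≤ (Finset.univ : Finset (Fin (Module.finrank ℤ (LinearMap.ker ψ)))).card := Finset.card_image_le
    _ = rels.card - n := by rw [Finset.card_univ, Fintype.card_fin, hker]

end Cfsg.Agent.S3973
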