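import Cfsg.Statements.S3977
import Mathlib

set_option autoImplicit false
open Cfsg

namespace Cfsg.Agent.S3977

universe u

theorem pow_mul_comm_aux {G : Type u} [Group G] (x y c : G) (h : y * x = x * y * c)
    (hcy : Commute c y) (k : ℕ) : y ^ k * x = x * y ^ k * c ^ k := by
  induction k with
  | zero => simp
  | succ k ih =>
    calc y ^ (k + 1) * x = y * (y ^ k * x) := by rw [pow_succ', mul_assoc]
      _ = y * (x * y ^ k * c ^ k) := by rw [ih]
      _ = (y * x) * y ^ k * c ^ k := by simp only [mul_assoc]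
      _ = x * y * c * y ^ k * c ^ k := by rw [h]
      _ = x * y * (c * y ^ k) * c ^ k := by simp only [mul_assoc]
      _ = x * y * (y ^ k * c) * c ^ k := by rw [(hcy.pow_right k).eq]
      _ = x * (y * y ^ k) * (c * c ^ k) := by simp only [mul_assoc]
      _ = x * y ^ (k + 1) * c ^ (k + 1) := by rw [← pow_succ', ← pow_succ']

theorem mul_pow_aux {G : Type u} [Group G] (x y c : G) (h : y * x = x * y * c)
    (hcx : Commute c x) (hcy : Commute c y) (k : ℕ) :
    (x * y) ^ k = x ^ k * y ^ k * c ^ (k.choose 2) := by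
  induction k with
  | zero => simp
  | succ k ih =>
    have hch : (k + 1).choose 2 = k + k.choose 2 := by
      rw [Nat.choose_succ_succ' k 1, Nat.choose_one_right]
    calc (x * y) ^ (k + 1) = (x * y) ^ k * (x * y) := pow_succ _ _
      _ = x ^ k * y ^ k * c ^ (k.choose 2) * (x * y) := by rw [ih]
      _ = x ^ k * y ^ k * (c ^ (k.choose 2) * (x * y)) := by simp only [mul_assoc]
      _ = x ^ k * y ^ k * ((x * y) * c ^ (k.choose 2)) := by
          rw [((hcx.mul_right hcy).pow_left (k.choose 2)).eq]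
      _ = x ^ k * (y ^ k * x) * y * c ^ (k.choose 2) := by simp only [mul_assoc]
      _ = x ^ k * (x * y ^ k * c ^ k) * y * c ^ (k.choose 2) := by
          rw [pow_mul_comm_aux x y c h hcy k]
      _ = x ^ k * x * y ^ k * (c ^ k * y) * c ^ (k.choose 2) := by simp only [mul_assoc]
      _ = x ^ k * x * y ^ k * (y * c ^ k) * c ^ (k.choose 2) := by rw [(hcy.pow_left k).eq]
      _ = (x ^ k * x) * (y ^ k * y) * (c ^ k * c ^ (k.choose 2)) := by simp only [mul_assoc]
      _ = x ^ (k + 1) * y ^ (k + 1) * c ^ ((k + 1).choose 2) := by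
          rw [← pow_succ, ← pow_succ, ← pow_add, hch]

theorem cyclic_of_unique_max (p : ℕ) (hp : p.Prime) (k : ℕ) (G : Type u) [Group G] [Finite G]
    (hG : Nat.card G = p ^ (k + 1))
    (huniq : ∀ H K : Subgroup G, Nat.card H = p ^ k → Nat.card K = p ^ k → H = K) : IsCyclic G := by
  have : Fact p.Prime := ⟨hp⟩
  have hdvd : p ^ k ∣ Nat.card G := by rw [hG]; exact pow_dvd_pow p (Nat.le_succ k)
  obtain ⟨H, hH⟩ := Sylow.exists_subgroup_card_pow_prime p hdvd
  have hne : H ≠ ⊤ := by
    rintro rfl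
    rw [Subgroup.card_top, hG] at hH
    have := Nat.pow_right_injective hp.two_le hH
    omega
  obtain ⟨x, hx⟩ : ∃ x, x ∉ H := by
    by_contra h
    push Not at h
    exact hne (eq_top_iff.mpr fun x _ => h x)
  have htop : Subgroup.zpowers x = ⊤ := by
    by_contra hcon
    obtain ⟨j, hj, hcard⟩ := (Nat.dvd_prime_pow hp).mp
      (hG ▸ Subgroup.card_subgroup_dvd_card (Subgroup.zpowers x))
    have hjk : j ≤ k := by
      by_contra hjk
      have : j = k + 1 := by omega
      subst this
      exact hcon (Subgroup.eq_top_of_card_eq _ (by rw [hcard, hG]))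
    obtain ⟨K, hK, hle⟩ := Sylow.exists_subgroup_card_pow_prime_le p hdvd (Subgroup.zpowers x) hcard hjk
    have := huniq K H hK hH
    exact hx (this ▸ hle (Subgroup.mem_zpowers x))
  exact isCyclic_iff_exists_zpowers_eq_top.mpr ⟨x, htop⟩

theorem prime_index_facts (p : ℕ) (hp : p.Prime) (m : ℕ) (G : Type u) [Group G] [Finite G]
    (hG : Nat.card G = p ^ (m + 1)) (M : Subgroup G) (hM : Nat.card M = p ^ m) :
    (∀ x : G, x ^ p ∈ M) ∧ (∀ x y : G, y⁻¹ * x⁻¹ * y * x ∈ M) := by
  have : Fact p.Prime := ⟨hp⟩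
  have hidx : M.index = p := by
    have h1 := M.card_mul_index
    rw [hM, hG, pow_succ] at h1
    exact Nat.eq_of_mul_eq_mul_left (pow_pos hp.pos m) h1
  have hnorm : M.Normal := by
    apply Subgroup.normal_of_index_eq_minFac_card
    rw [hidx, hG, Nat.Prime.pow_minFac hp (Nat.succ_ne_zero m)]
  have hcard : Nat.card (G ⧸ M) = p := by rw [← Subgroup.index_eq_card, hidx]
  have hcyc : IsCyclic (G ⧸ M) := isCyclic_of_prime_card hcard
  constructor
  · intro x
    rw [← QuotientGroup.eq_one_iff, QuotientGroup.mk_pow, ← hcard]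
    exact pow_card_eq_one'
  · intro x y
    rw [← QuotientGroup.eq_one_iff]
    have hc : ∀ a b : G ⧸ M, a * b = b * a := (IsCyclic.commGroup (α := G ⧸ M)).mul_comm
    simp only [QuotientGroup.mk_mul, QuotientGroup.mk_inv]
    rw [mul_assoc (_ * _), hc (y : G ⧸ M) (x : G ⧸ M)]
    group

theorem main (p : ℕ) (hp : p.Prime) : ∀ (m : ℕ) (G : Type u) [Group G] [Finite G] (s : ℕ),
    Nat.card G = p ^ m → 1 ≤ s → s < m → (p ≠ 2 ∨ 2 ≤ s) →
    (∀ H K : Subgroup G, Nat.card H = p ^ s → Nat.card K = p ^ s → H = K) → IsCyclic G := by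
  intro m
  induction m with
  | zero => intro G _ _ s _ _ h; omega
  | succ m ih =>
    intro G _ _ s hG hs hsm h2 huniq
    have : Fact p.Prime := ⟨hp⟩
    by_cases hsm' : s = m
    · subst hsm'; exact cyclic_of_unique_max p hp s G hG huniq
    have hsm2 : s < m := by omega
    by_cases hu : ∀ H K : Subgroup G, Nat.card H = p ^ m → Nat.card K = p ^ m → H = K
    · exact cyclic_of_unique_max p hp m G hG hu
    exfalso
    push Not at hu
    obtain ⟨M1, M2, hM1, hM2, hne⟩ := hu
    have hcyc : ∀ M : Subgroup G, Nat.card M = p ^ m → IsCyclic M := by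
      intro M hM
      refine ih M s hM hs hsm2 h2 ?_
      intro H K hH hK
      have h1 : Nat.card (H.map M.subtype) = p ^ s := by
        rw [Subgroup.card_map_of_injective M.subtype_injective]; exact hH
      have h2 : Nat.card (K.map M.subtype) = p ^ s := by
        rw [Subgroup.card_map_of_injective M.subtype_injective]; exact hK
      exact Subgroup.map_injective M.subtype_injective (huniq _ _ h1 h2)
    have hab : ∀ M : Subgroup G, Nat.card M = p ^ m → ∀ u ∈ M, ∀ v ∈ M, Commute u v := by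
      intro M hM u hu v hv
      have := hcyc M hM
      have hc := (IsCyclic.commGroup (α := M)).mul_comm ⟨u, hu⟩ ⟨v, hv⟩
      exact congrArg Subtype.val hc
    have := hcyc M1 hM1
    obtain ⟨⟨a, haM1⟩, ha⟩ := IsCyclic.exists_monoid_generator (α := M1)
    have ha' : ∀ z ∈ M1, ∃ i : ℕ, a ^ i = z := by
      intro z hz
      obtain ⟨i, hi⟩ := (Submonoid.mem_powers_iff _ _).mp (ha ⟨z, hz⟩)
      exact ⟨i, by simpa using congrArg Subtype.val hi⟩
    obtain ⟨x, hxM2, hxM1⟩ : ∃ x ∈ M2, x ∉ M1 := by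
      by_contra hcon
      push Not at hcon
      exact hne (Subgroup.eq_of_le_of_card_ge hcon (by rw [hM1, hM2])).symm
    obtain ⟨hpow1, hcomm1⟩ := prime_index_facts p hp m G hG M1 hM1
    obtain ⟨hpow2, hcomm2⟩ := prime_index_facts p hp m G hG M2 hM2
    obtain ⟨i, hi⟩ := ha' (x ^ p) (hpow1 x)
    have hpi : p ∣ i := by
      by_contra hpi
      have hcop : Nat.Coprime i (orderOf a) := by
        have h1 : orderOf a ∣ p ^ m := by
          rw [← hM1, ← Subgroup.orderOf_mk a haM1]
          exact orderOf_dvd_natCard _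
        exact Nat.Coprime.coprime_dvd_right h1
          (Nat.Coprime.pow_right m ((Nat.Prime.coprime_iff_not_dvd hp).mpr hpi).symm)
      obtain ⟨k, hk⟩ := exists_pow_eq_self_of_coprime hcop
      have haM2 : a ∈ M2 := by rw [← hk, hi]; exact pow_mem (pow_mem hxM2 p) k
      have hle : M1 ≤ M2 := by
        intro z hz
        obtain ⟨i, rfl⟩ := ha' z hz
        exact pow_mem haM2 i
      exact hne (Subgroup.eq_of_le_of_card_ge hle (by rw [hM1, hM2]))
    obtain ⟨j, rfl⟩ := hpi
    obtain ⟨y, hy⟩ : ∃ y, y = (a ^ j)⁻¹ := ⟨_, rfl⟩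
    have hyM1 : y ∈ M1 := by rw [hy]; exact inv_mem (pow_mem haM1 j)
    obtain ⟨c, hc⟩ : ∃ c, c = y⁻¹ * x⁻¹ * y * x := ⟨_, rfl⟩
    have hyx : y * x = x * y * c := by rw [hc]; group
    have hcM1 : c ∈ M1 := by rw [hc]; exact hcomm1 x y
    have hcM2 : c ∈ M2 := by rw [hc]; exact hcomm2 x y
    have hcx : Commute c x := hab M2 hM2 c hcM2 x hxM2
    have hcy : Commute c y := hab M1 hM1 c hcM1 y hyM1
    have hcp : c ^ p = 1 := by
      have h1 := pow_mul_comm_aux x y c hyx hcy p
      have h2 : Commute (y ^ p) x := hab M2 hM2 _ (hpow2 y) x hxM2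
      rw [h2.eq] at h1
      exact (mul_eq_left.mp h1.symm)
    obtain ⟨r, t, hr, ht, hch⟩ : ∃ r t : ℕ, p * r = p ^ t ∧ t ≤ s ∧ p ∣ (p * r).choose 2 := by
      by_cases hp2 : p = 2
      · subst hp2
        have h2' : 2 ≤ s := by
          rcases h2 with h2 | h2
          · exact absurd rfl h2
          · exact h2
        exact ⟨2, 2, by norm_num, h2', by decide⟩
      · exact ⟨1, 1, by simp, hs, by
          rw [mul_one]
          exact hp.dvd_choose_self (by norm_num) (lt_of_le_of_ne hp.two_le (Ne.symm hp2))⟩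
    have hw : (x * y) ^ (p * r) = 1 := by
      rw [mul_pow_aux x y c hyx hcx hcy]
      obtain ⟨q, hq⟩ := hch
      rw [hq, pow_mul c, hcp, one_pow, mul_one, pow_mul x, ← hi, hy, inv_pow, ← pow_mul, ← pow_mul]
      rw [show p * j * r = j * (p * r) by ring]
      exact mul_inv_cancel _
    -- the element `x * y` lies in `M1`
    have hwM1 : x * y ∈ M1 := by
      have ho : orderOf (x * y) ∣ p ^ t := by rw [← hr]; exact orderOf_dvd_of_pow_eq_one hw
      obtain ⟨i', hi', hcard⟩ := (Nat.dvd_prime_pow hp).mp ho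
      have hdvd : p ^ s ∣ Nat.card G := by rw [hG]; exact pow_dvd_pow p (by omega)
      obtain ⟨K, hK, hle⟩ := Sylow.exists_subgroup_card_pow_prime_le p hdvd
        (Subgroup.zpowers (x * y)) (by rw [Nat.card_zpowers, hcard]) (hi'.trans ht)
      obtain ⟨K1, hK1le, hK1⟩ := Sylow.exists_subgroup_le_card_pow_prime_of_le_card hp
        (IsPGroup.of_card hG) (H := M1) (n := s)
        (by rw [hM1]; exact Nat.pow_le_pow_right hp.pos hsm2.le)
      have := huniq K K1 hK hK1
      exact hK1le (this ▸ hle (Subgroup.mem_zpowers _))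
    apply hxM1
    have : x = (x * y) * y⁻¹ := by group
    rw [this]
    exact mul_mem hwM1 (inv_mem hyM1)

/-- Let `p` be a prime and `G` a group of order `p ^ m` which has exactly one subgroup of order `p ^ s`, where `1 ≤ s < m`, and where `s ≥ 2` if `p = 2`. Then `G` is cyclic. (For `p = 2` and `s = 1` the generalized quaternion groups also occur; that case is the classical criterion for a unique involution.) -/
theorem result {G : Type*} [Group G] [Finite G] (p m s : ℕ) (hp : p.Prime) (hG : Nat.card G = p ^ m) (hs : 1 ≤ s) (hsm : s < m) (h2 : p ≠ 2 ∨ 2 ≤ s) (huniq : ∀ H K : Subgroup G, Nat.card H = p ^ s → Nat.card K = p ^ s → H = K) : IsCyclic G := by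
  exact main p hp m G s hG hs hsm h2 huniq

end Cfsg.Agent.S3977
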