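import Cfsg.Statements.S3980
import Cfsg.Agent.Lib.Helper69Tensor
import Cfsg.Agent.S3959

set_option autoImplicit false
universe u v w
open Cfsg

namespace Cfsg.Agent.S3980

open Cfsg.Agent.Lib.Helper69Tensor Cfsg.Agent.Lib.Helper69Schur

theorem MT_subsingleton {H₁ : Type u} {H₂ : Type v} [CommGroup H₁] [CommGroup H₂] [Finite H₁]
    [Finite H₂] (hcop : Nat.Coprime (Nat.card H₁) (Nat.card H₂)) : Subsingleton (MT H₁ H₂) := by
  have key : ∀ x : MT H₁ H₂, x = 1 := by
    intro x
    induction x using MT_induction with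
    | h1 => rfl
    | hpt a b =>
      -- a = a ^ (v * n) where u m + v n = 1
      have h1 : orderOf a ∣ Nat.card H₁ := orderOf_dvd_natCard a
      have hc : Nat.Coprime (Nat.card H₂) (orderOf a) := (Nat.Coprime.coprime_dvd_left h1 hcop).symm
      obtain ⟨m, hm⟩ := exists_pow_eq_self_of_coprime hc
      have hpow : ∀ (a : H₁) (b : H₂) (k : ℕ), pt (a ^ k) b = pt a (b ^ k) := by
        intro a b k
        induction k with
        | zero => simp
        | succ k ih => rw [pow_succ, pow_succ, pt_mul_left, pt_mul_right, ih]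
      rw [← hm, ← pow_mul, mul_comm, pow_mul, hpow, pow_card_eq_one', pt_one_right]
    | hmul x y hx hy => rw [hx, hy, one_mul]
  exact ⟨fun x y => by rw [key x, key y]⟩

/-- Let `Q₁` and `Q₂` be finite groups whose commutator quotients have coprime orders, with Schur multipliers `A` and `B`. Then the Schur multiplier of `Q₁ × Q₂` is isomorphic to `A × B`. -/
theorem result {Q₁ : Type u} {Q₂ : Type v} [Group Q₁] [Group Q₂] [Finite Q₁] [Finite Q₂] {A B : Type w} [CommGroup A] [CommGroup B] (hA : Cfsg.HasSchurMultiplier Q₁ A) (hB : Cfsg.HasSchurMultiplier Q₂ B) (hcop : Nat.Coprime (Nat.card (Abelianization Q₁)) (Nat.card (Abelianization Q₂))) : Cfsg.HasSchurMultiplier (Q₁ × Q₂) (A × B) := by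
  have h := Cfsg.Agent.S3959.result hA hB
  have hs : Subsingleton (MT (Abelianization Q₁) (Abelianization Q₂)) := MT_subsingleton hcop
  let e : A × B × MT (Abelianization Q₁) (Abelianization Q₂) ≃* A × B :=
    { toFun := fun x => (x.1, x.2.1)
      invFun := fun x => (x.1, x.2, 1)
      left_inv := fun x => by
        obtain ⟨a, b, t⟩ := x
        simp [Subsingleton.elim t 1]
      right_inv := fun x => rfl
      map_mul' := fun x y => rfl }
  exact hasSchurMultiplier_congr e h

end Cfsg.Agent.S3980
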