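import Cfsg.Statements.S3992
import Mathlib
import Cfsg.Agent.S1475
import Cfsg.Agent.S0058
import Cfsg.Agent.S0721

set_option autoImplicit false
open Cfsg

namespace Cfsg.Agent.S3992

open Cfsg.Agent.S1475 (EPPO eppo_commute)
open scoped commutatorElement

theorem eppo_sub {G : Type*} [Group G] (h : EPPO G) (H : Subgroup G) : EPPO H := by
  intro g
  rcases h (g : G) with h1 | h1
  · left; rwa [Subgroup.orderOf_coe] at h1
  · right; exact Subtype.ext h1

theorem eppo_quot {G : Type*} [Group G] [Finite G] (h : EPPO G) (N : Subgroup G) [N.Normal] :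
    EPPO (G ⧸ N) := by
  intro g
  obtain ⟨g, rfl⟩ := QuotientGroup.mk_surjective g
  by_cases h1 : (g : G ⧸ N) = 1
  · right; exact h1
  left
  rcases h g with h2 | h2
  · exact h2.dvd (orderOf_map_dvd (QuotientGroup.mk' N) g) (by
      rw [Ne, orderOf_eq_one_iff]; exact h1)
  · subst h2; exact absurd rfl h1

theorem prime_eq {G : Type*} [Group G] [Finite G] (h : EPPO G) (A B : Subgroup G)
    (hc : ∀ a ∈ A, ∀ b ∈ B, Commute a b) {p q : ℕ} (hp : p.Prime) (hq : q.Prime)
    (hpA : p ∣ Nat.card A) (hqB : q ∣ Nat.card B) : p = q := by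
  by_contra hne
  have := Fact.mk hp
  have := Fact.mk hq
  obtain ⟨a, ha⟩ := exists_prime_orderOf_dvd_card' p hpA
  obtain ⟨b, hb⟩ := exists_prime_orderOf_dvd_card' q hqB
  have h1 := eppo_commute h (hc a a.2 b b.2) (by
    rw [Subgroup.orderOf_coe, Subgroup.orderOf_coe, ha, hb]
    exact (Nat.coprime_primes hp hq).mpr hne)
  rcases h1 with h1 | h1
  · rw [← Subgroup.orderOf_coe, h1, orderOf_one] at ha
    exact hp.one_lt.ne ha
  · rw [← Subgroup.orderOf_coe, h1, orderOf_one] at hb
    exact hq.one_lt.ne hb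

theorem isPGroup_of_primes {A : Type*} [Group A] [Finite A] {p : ℕ}
    (h : ∀ q : ℕ, q.Prime → q ∣ Nat.card A → q = p) : IsPGroup p A :=
  IsPGroup.of_card (Nat.eq_prime_pow_of_unique_prime_dvd Nat.card_pos.ne' (fun {d} hd hdv => h d hd hdv))

theorem solvable_of_pgroup {A : Type*} [Group A] [Finite A] {p : ℕ} (hp : p.Prime)
    (h : IsPGroup p A) : Group.IsSolvable A := by
  have := Fact.mk hp
  have := h.isNilpotent
  infer_instance

theorem other_prime {A : Type*} [Group A] [Finite A] (hA : ¬ Group.IsSolvable A) (p : ℕ)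
    (hp : p.Prime) : ∃ q : ℕ, q.Prime ∧ q ∣ Nat.card A ∧ q ≠ p := by
  by_contra hcon
  push Not at hcon
  exact hA (solvable_of_pgroup hp (isPGroup_of_primes hcon))

theorem centralizer_pelem {G : Type*} [Group G] [Finite G] (h : EPPO G) {x : G} (hx : x ≠ 1)
    {q : ℕ} (hq : q.Prime) (hxq : ∃ k, orderOf x = q ^ k) (c : G) (hc : Commute c x) :
    ∃ k : ℕ, c ^ q ^ k = 1 := by
  rcases h c with hpp | rfl
  · rw [isPrimePow_nat_iff] at hpp
    obtain ⟨r, k, hr, hk, hrk⟩ := hpp
    by_cases hrq : r = q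
    · subst hrq
      exact ⟨k, by rw [hrk]; exact pow_orderOf_eq_one c⟩
    · obtain ⟨j, hj⟩ := hxq
      have h1 := eppo_commute h hc (by
        rw [← hrk, hj]
        exact Nat.Coprime.pow _ _ ((Nat.coprime_primes hr hq).mpr hrq))
      rcases h1 with rfl | h1
      · exact ⟨0, by simp⟩
      · exact absurd h1 hx
  · exact ⟨0, by simp⟩

theorem normalizer_solvable {G : Type*} [Group G] [Finite G] (h : EPPO G) (Q : Subgroup G) (q : ℕ)
    (hq : q.Prime) (hQ : IsPGroup q Q) (hne : Q ≠ ⊥) (hcyc : IsCyclic Q) :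
    Group.IsSolvable (Subgroup.normalizer (Q : Set G)) := by
  have h1 : Group.IsSolvable (MulAut Q) :=
    Group.isSolvable_of_isSolvable_injective (f := (IsCyclic.mulAutMulEquiv Q).toMonoidHom)
      (IsCyclic.mulAutMulEquiv Q).injective
  obtain ⟨x, hxQ, hx1⟩ : ∃ x : G, x ∈ Q ∧ x ≠ 1 := by
    obtain ⟨x, hx⟩ := Subgroup.ne_bot_iff_exists_ne_one.mp hne
    exact ⟨(x : G), x.2, fun h => hx (Subtype.ext h)⟩
  have hxq : ∃ k, orderOf x = q ^ k := by
    have := Fact.mk hq
    obtain ⟨k, hk⟩ := (IsPGroup.iff_orderOf.mp hQ) ⟨x, hxQ⟩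
    exact ⟨k, by rw [← hk, ← Subgroup.orderOf_coe]⟩
  have h2 : IsPGroup q Q.normalizerMonoidHom.ker := by
    intro c
    have hc : (c : Subgroup.normalizer (Q : Set G)) ∈
        (Subgroup.centralizer (Q : Set G)).subgroupOf (Subgroup.normalizer (Q : Set G)) :=
      Subgroup.normalizerMonoidHom_ker Q ▸ c.2
    rw [Subgroup.mem_subgroupOf, Subgroup.mem_centralizer_iff] at hc
    obtain ⟨k, hk⟩ := centralizer_pelem h hx1 hq hxq ((c : Subgroup.normalizer (Q : Set G)) : G)
      (hc x hxQ).symm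
    exact ⟨k, Subtype.ext (Subtype.ext (by simpa using hk))⟩
  have h3 := solvable_of_pgroup hq h2
  exact Group.isSolvable_of_ker_le_range Q.normalizerMonoidHom.ker.subtype Q.normalizerMonoidHom
    (by simp)

theorem solvable_of_sup {G : Type*} [Group G] (K N : Subgroup G) [N.Normal]
    (hK : Group.IsSolvable K) (hN : Group.IsSolvable N) (h : K ⊔ N = ⊤) : Group.IsSolvable G := by
  have h1 : Group.IsSolvable (G ⧸ N) := by
    apply Group.isSolvable_of_surjective (f := (QuotientGroup.mk' N).comp K.subtype)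
    intro x
    obtain ⟨x, rfl⟩ := QuotientGroup.mk_surjective x
    have hx : x ∈ K ⊔ N := by rw [h]; trivial
    rw [Subgroup.mem_sup_of_normal_right] at hx
    obtain ⟨k, hk, n, hn, rfl⟩ := hx
    refine ⟨⟨k, hk⟩, ?_⟩
    simp only [MonoidHom.coe_comp, Function.comp_apply, Subgroup.subtype_apply, QuotientGroup.mk'_apply]
    rw [QuotientGroup.eq]
    simpa using hn
  exact (Group.isSolvable_iff_subgroup_quotient N).mpr ⟨hN, h1⟩

theorem commutator_lt {G : Type*} [Group G] {H : Subgroup G} [Group.IsSolvable H] (hH : H ≠ ⊥) :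
    ⁅H, H⁆ < H := by
  rw [← Subgroup.nontrivial_iff_ne_bot] at hH
  rw [← H.range_subtype, MonoidHom.range_eq_map, ← Subgroup.map_commutator,
    Subgroup.map_subtype_lt_map_subtype]
  exact Group.IsSolvable.commutator_lt_top_of_nontrivial H

theorem solv_normal_pgroup {G : Type*} [Group G] [Finite G] (h : EPPO G)
    (hns : ¬ Group.IsSolvable G) :
    ∀ n : ℕ, ∀ N : Subgroup G, N.Normal → Group.IsSolvable N → Nat.card N = n →
      ∃ p : ℕ, p.Prime ∧ IsPGroup p N := by
  intro n
  induction n using Nat.strong_induction_on with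
  | _ n ih =>
  intro N hN hNs hcard
  by_cases hbot : N = ⊥
  · subst hbot
    exact ⟨2, Nat.prime_two, IsPGroup.of_bot⟩
  have hlt : ⁅N, N⁆ < N := commutator_lt hbot
  obtain ⟨D, hD⟩ : ∃ D, D = ⁅N, N⁆ := ⟨_, rfl⟩
  rw [← hD] at hlt
  have hDn : D.Normal := by rw [hD]; infer_instance
  have hDs : Group.IsSolvable D :=
    Group.isSolvable_of_isSolvable_injective (Subgroup.inclusion_injective hlt.le)
  have hDc : Nat.card D < n := by
    rw [← hcard]
    by_contra hcon
    push Not at hcon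
    exact hlt.ne (Subgroup.eq_of_le_of_card_ge hlt.le hcon)
  obtain ⟨p, hp, hDp⟩ := ih _ hDc D hDn hDs rfl
  by_cases hDbot : D = ⊥
  · have hN1 : Nat.card N ≠ 1 := by
      intro h1
      exact hbot ((Subgroup.card_eq_one).mp h1)
    obtain ⟨p', hp', hd⟩ := Nat.exists_prime_and_dvd hN1
    refine ⟨p', hp', isPGroup_of_primes ?_⟩
    intro q hq hqd
    refine prime_eq h N N ?_ hq hp' hqd hd
    intro a ha b hb
    rw [hD, Subgroup.commutator_eq_bot_iff_le_centralizer] at hDbot
    exact ((Subgroup.mem_centralizer_iff.mp (hDbot ha)) b hb).symm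
  refine ⟨p, hp, ?_⟩
  by_contra hNp
  have hex : ∃ q : ℕ, q.Prime ∧ q ∣ Nat.card N ∧ q ≠ p := by
    by_contra hcon
    push Not at hcon
    exact hNp (isPGroup_of_primes hcon)
  obtain ⟨q, hq, hqd, hqp⟩ := hex
  have := Fact.mk hq
  have := Fact.mk hp
  obtain ⟨P⟩ : Nonempty (Sylow q N) := inferInstance
  obtain ⟨Q, hQdef⟩ : ∃ Q : Subgroup G, Q = (P : Subgroup N).map N.subtype := ⟨_, rfl⟩
  have hQq : IsPGroup q Q := by rw [hQdef]; exact P.2.map _
  have hQne : Q ≠ ⊥ := by
    rw [hQdef, Ne, Subgroup.map_eq_bot_iff_of_injective _ N.subtype_injective]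
    exact P.ne_bot_of_dvd_card hqd
  have hQN : Q ≤ N := by rw [hQdef]; exact Subgroup.map_subtype_le _
  have hco : (Nat.card Q).Coprime (Nat.card D) :=
    IsPGroup.coprime_card_of_ne q p hqp Q D hQq hDp
  have hQD : Q ⊓ D = ⊥ := (Subgroup.disjoint_of_coprime_natCard hco).eq_bot
  have hQc : IsMulCommutative Q := by
    refine ⟨⟨?_⟩⟩
    intro x y
    have h1 : ⁅(x : G), (y : G)⁆ ∈ Q ⊓ D := by
      refine ⟨?_, ?_⟩
      · rw [commutatorElement_def]
        exact Q.mul_mem (Q.mul_mem (Q.mul_mem x.2 y.2) (Q.inv_mem x.2)) (Q.inv_mem y.2)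
      · rw [hD]; exact Subgroup.commutator_mem_commutator (hQN x.2) (hQN y.2)
    rw [hQD, Subgroup.mem_bot, commutatorElement_eq_one_iff_mul_comm] at h1
    exact Subtype.ext h1
  have hQcyc : IsCyclic Q := by
    by_contra hnc
    have h1 := Cfsg.Agent.S0058.result Q D hnc (by
      rw [Subgroup.normalizer_eq_top]; exact le_top) hco
    apply hDbot
    rw [← h1, eq_bot_iff]
    refine iSup₂_le ?_
    rintro a ⟨haQ, ha1⟩ d ⟨hdD, hdc⟩
    rw [Subgroup.mem_bot]
    have hc : Commute d a := by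
      have := Subgroup.mem_centralizer_iff.mp hdc a (Set.mem_singleton a)
      exact this.symm
    obtain ⟨k, hk⟩ := (IsPGroup.iff_orderOf.mp hQq) ⟨a, haQ⟩
    obtain ⟨j, hj⟩ := (IsPGroup.iff_orderOf.mp hDp) ⟨d, hdD⟩
    rw [← Subgroup.orderOf_coe] at hk hj
    rcases eppo_commute h hc (by
      rw [hk, hj]
      exact Nat.Coprime.pow _ _ ((Nat.coprime_primes hp hq).mpr (Ne.symm hqp))) with h2 | h2
    · exact h2
    · exact absurd h2 ha1
  have hNQ := normalizer_solvable h Q q hq hQq hQne hQcyc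
  have hfr := Sylow.normalizer_sup_eq_top P
  rw [← hQdef] at hfr
  exact hns (solvable_of_sup _ N hNQ hNs hfr)

theorem socle_simple {X : Type*} [Group X] [Finite X] [Nontrivial X] (h : EPPO X)
    (hrad : ∀ N : Subgroup X, N.Normal → Group.IsSolvable N → N = ⊥) :
    ∃ M : Subgroup X, M.Normal ∧ IsSimpleGroup M ∧ ¬ IsMulCommutative M ∧
      ∀ N : Subgroup X, N.Normal → N ≠ ⊥ → M ≤ N := by
  classical
  obtain ⟨M, ⟨hMn, hMne⟩, hMmin⟩ := Set.exists_min_image {K : Subgroup X | K.Normal ∧ K ≠ ⊥}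
    (fun K => Nat.card K) (Set.toFinite _) ⟨⊤, inferInstance, top_ne_bot⟩
  have hmin : ∀ K : Subgroup X, K.Normal → K ≤ M → K = ⊥ ∨ K = M := by
    intro K hK hle
    by_cases hb : K = ⊥
    · exact Or.inl hb
    · exact Or.inr (Subgroup.eq_of_le_of_card_ge hle (hMmin K ⟨hK, hb⟩))
  have hMns : ¬ Group.IsSolvable M := fun hs => hMne (hrad M hMn hs)
  obtain ⟨p, hp, hpM, -⟩ := other_prime hMns 2 Nat.prime_two
  obtain ⟨q, hq, hqM, hqp⟩ := other_prime hMns p hp
  refine ⟨M, hMn, ?_, ?_, ?_⟩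
  · obtain ⟨T, _, m, hT, hm, ⟨e⟩⟩ := Cfsg.Agent.S0721.result M hMne hmin
    have hfin : Finite (Fin m → T) := Finite.of_equiv _ e.toEquiv
    have hTfin : Finite T :=
      Finite.of_injective (MonoidHom.mulSingle (fun _ : Fin m => T) ⟨0, hm⟩)
        (Pi.mulSingle_injective (M := fun _ : Fin m => T) _)
    by_cases hm1 : m = 1
    · subst hm1
      exact (e.trans (MulEquiv.funUnique (Fin 1) T)).symm.isSimpleGroup_congr.mp hT
    exfalso
    have hcard : Nat.card M = Nat.card T ^ m := by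
      rw [Nat.card_congr e.toEquiv, Nat.card_fun, Nat.card_fin]
    have hpT : p ∣ Nat.card T := hp.dvd_of_dvd_pow (hcard ▸ hpM)
    have hqT : q ∣ Nat.card T := hq.dvd_of_dvd_pow (hcard ▸ hqM)
    have := Fact.mk hp
    have := Fact.mk hq
    obtain ⟨a, ha⟩ := exists_prime_orderOf_dvd_card' p hpT
    obtain ⟨b, hb⟩ := exists_prime_orderOf_dvd_card' q hqT
    have hij : (⟨0, hm⟩ : Fin m) ≠ ⟨1, by omega⟩ := by
      intro h0; simpa using congrArg Fin.val h0
    have hc : Commute (Pi.mulSingle (⟨0, hm⟩ : Fin m) a : Fin m → T)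
        (Pi.mulSingle (⟨1, by omega⟩ : Fin m) b) := Pi.mulSingle_commute (f := fun _ : Fin m => T) hij a b
    have hoa : orderOf (Pi.mulSingle (⟨0, hm⟩ : Fin m) a : Fin m → T) = p := by
      rw [← ha]
      exact orderOf_injective (MonoidHom.mulSingle (fun _ : Fin m => T) ⟨0, hm⟩)
        (Pi.mulSingle_injective (M := fun _ : Fin m => T) _) a
    have hob : orderOf (Pi.mulSingle (⟨1, by omega⟩ : Fin m) b : Fin m → T) = q := by
      rw [← hb]
      exact orderOf_injective (MonoidHom.mulSingle (fun _ : Fin m => T) ⟨1, by omega⟩)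
        (Pi.mulSingle_injective (M := fun _ : Fin m => T) _) b
    have hc' := hc.map e.symm
    have h1 := eppo_commute (eppo_sub h M) hc' (by
      rw [MulEquiv.orderOf_eq, MulEquiv.orderOf_eq, hoa, hob]
      exact (Nat.coprime_primes hp hq).mpr (Ne.symm hqp))
    rcases h1 with h1 | h1
    · have h2 := MulEquiv.orderOf_eq e.symm (Pi.mulSingle (⟨0, hm⟩ : Fin m) a : Fin m → T)
      rw [h1, orderOf_one, hoa] at h2
      exact hp.one_lt.ne h2
    · have h2 := MulEquiv.orderOf_eq e.symm (Pi.mulSingle (⟨1, by omega⟩ : Fin m) b : Fin m → T)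
      rw [h1, orderOf_one, hob] at h2
      exact hq.one_lt.ne h2
  · intro hc
    exact hMns (Group.isSolvable_of_comm (fun a b => hc.is_comm.comm a b))
  · intro N hN hNne
    have hMN : (M ⊓ N).Normal := inferInstance
    rcases hmin (M ⊓ N) hMN inf_le_left with h1 | h1
    · exfalso
      have hNns : ¬ Group.IsSolvable N := fun hs => hNne (hrad N hN hs)
      obtain ⟨r, hr, hrN, hrp⟩ := other_prime hNns p hp
      exact hrp (prime_eq h M N (fun a ha b hb =>
        Subgroup.commute_of_normal_of_disjoint M N hMn hN (disjoint_iff.mpr h1) a b ha hb)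
        hp hr hpM hrN).symm
    · exact inf_eq_left.mp h1

/-- Let G be a finite non-solvable group in which every element has prime-power order, and let R be its largest solvable normal subgroup. Then R is a p-group for some prime p; G/R has a non-abelian simple normal subgroup contained in every nontrivial normal subgroup of G/R (its unique minimal normal subgroup); and the order of every solvable subgroup of G has at most two prime divisors. -/
theorem result {G : Type*} [Group G] [Finite G] (hns : ¬ Group.IsSolvable G) (hpp : ∀ g : G, g ≠ 1 → IsPrimePow (orderOf g))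
    (R : Subgroup G) [R.Normal] (hRs : Group.IsSolvable ↥R) (hRmax : ∀ N : Subgroup G, N.Normal → Group.IsSolvable ↥N → N ≤ R) :
    (∃ p : ℕ, p.Prime ∧ IsPGroup p ↥R) ∧
      (∃ M : Subgroup (G ⧸ R), M.Normal ∧ IsSimpleGroup ↥M ∧ ¬ IsMulCommutative ↥M ∧
        ∀ N : Subgroup (G ⧸ R), N.Normal → N ≠ ⊥ → M ≤ N) ∧
      ∀ H : Subgroup G, Group.IsSolvable ↥H → (Nat.card ↥H).primeFactors.card ≤ 2 := by
  have h : EPPO G := by
    intro g
    by_cases hg : g = 1
    · exact Or.inr hg
    · exact Or.inl (hpp g hg)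
  refine ⟨solv_normal_pgroup h hns _ R inferInstance hRs rfl, ?_, ?_⟩
  · have hnt : Nontrivial (G ⧸ R) := by
      by_contra hcon
      rw [not_nontrivial_iff_subsingleton] at hcon
      exact hns ((Group.isSolvable_iff_subgroup_quotient R).mpr ⟨hRs, inferInstance⟩)
    apply socle_simple (eppo_quot h R)
    intro N hN hNs
    have hle : N.comap (QuotientGroup.mk' R) ≤ R := by
      apply hRmax _ inferInstance
      have hRN : R ≤ N.comap (QuotientGroup.mk' R) := by
        intro x hx
        rw [Subgroup.mem_comap]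
        have : (QuotientGroup.mk' R) x = 1 := by
          rw [QuotientGroup.mk'_apply, QuotientGroup.eq_one_iff]; exact hx
        rw [this]; exact N.one_mem
      refine Group.isSolvable_of_ker_le_range (Subgroup.inclusion hRN)
        (((QuotientGroup.mk' R).comp (N.comap (QuotientGroup.mk' R)).subtype).codRestrict N
          (fun x => x.2)) ?_
      intro x hx
      rw [MonoidHom.mem_ker] at hx
      have hx' : ((x : G) : G ⧸ R) = 1 := congrArg Subtype.val hx
      rw [QuotientGroup.eq_one_iff] at hx'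
      exact ⟨⟨x, hx'⟩, Subtype.ext rfl⟩
    rw [eq_bot_iff]
    intro x hx
    obtain ⟨x, rfl⟩ := QuotientGroup.mk_surjective x
    rw [Subgroup.mem_bot, QuotientGroup.eq_one_iff]
    exact hle hx
  · intro H hH
    exact Cfsg.Agent.S1475.result (eppo_sub h H)

end Cfsg.Agent.S3992
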