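import Cfsg.Statements.S3994
import Cfsg.Agent.Lib.Helper70Frobenius

set_option autoImplicit false
open Cfsg

namespace Cfsg.Agent.S3994

theorem coprime_aux (g n : ℕ) (hg : 0 < g) : Nat.Coprime (g / Nat.gcd g (n ^ g)) n := by
  apply Nat.coprime_of_dvd
  intro q hq hq1 hq2
  have hd0 : 0 < Nat.gcd g (n ^ g) := Nat.gcd_pos_of_pos_left _ hg
  have hcop : Nat.Coprime (g / Nat.gcd g (n ^ g)) (n ^ g / Nat.gcd g (n ^ g)) :=
    Nat.coprime_div_gcd_div_gcd hd0
  have h1 : q ^ g ∣ n ^ g := pow_dvd_pow_of_dvd hq2 g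
  have h2 : n ^ g = Nat.gcd g (n ^ g) * (n ^ g / Nat.gcd g (n ^ g)) :=
    (Nat.mul_div_cancel' (Nat.gcd_dvd_right _ _)).symm
  have h3 : Nat.Coprime q (n ^ g / Nat.gcd g (n ^ g)) :=
    Nat.Coprime.coprime_dvd_left hq1 hcop
  have h4 : q ^ g ∣ Nat.gcd g (n ^ g) := by
    rw [h2] at h1
    exact (Nat.Coprime.pow_left g h3).dvd_of_dvd_mul_right h1
  have h5 : q ^ g ∣ g := h4.trans (Nat.gcd_dvd_left _ _)
  have h6 : q ^ g ≤ g := Nat.le_of_dvd hg h5
  have h7 : g < q ^ g := Nat.lt_pow_self hq.one_lt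
  omega

/-- Let G be a finite group and n a positive integer. The number of elements of G whose order is divisible by n is either 0 or divisible by the largest divisor of the order of G that is coprime to n. -/
theorem result {G : Type*} [Group G] [Finite G] (n : ℕ) (hn : 0 < n) :
    Nat.card {g : G // n ∣ orderOf g} = 0 ∨
      (Nat.card G / Nat.gcd (Nat.card G) (n ^ Nat.card G)) ∣ Nat.card {g : G // n ∣ orderOf g} := by
  right
  set k := Nat.card G / Nat.gcd (Nat.card G) (n ^ Nat.card G) with hk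
  have hcop : Nat.Coprime k n := coprime_aux _ n Nat.card_pos
  have hkdvd : k ∣ Nat.card G := Nat.div_dvd_of_dvd (Nat.gcd_dvd_left _ _)
  have h := Cfsg.Agent.Lib.Helper70Frobenius.frobenius_invariant G k (fun y => n ∣ orderOf y)
    (by
      intro g y hy
      have : orderOf (g * y * g⁻¹) = orderOf y := by
        have := (MulAut.conj g).orderOf_eq y
        simpa [MulAut.conj_apply] using this
      rw [this]; exact hy)
  rw [Nat.gcd_eq_left hkdvd] at h
  have heq : Nat.card {g : G // n ∣ orderOf g} = Nat.card {x : G // n ∣ orderOf (x ^ k)} := by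
    refine Nat.card_congr (Equiv.subtypeEquivRight ?_)
    intro x
    rw [orderOf_pow]
    constructor
    · intro hx
      have h1 : orderOf x = Nat.gcd (orderOf x) k * (orderOf x / Nat.gcd (orderOf x) k) :=
        (Nat.mul_div_cancel' (Nat.gcd_dvd_left _ _)).symm
      rw [h1] at hx
      have h2 : Nat.Coprime n (Nat.gcd (orderOf x) k) :=
        Nat.Coprime.coprime_dvd_right (Nat.gcd_dvd_right _ _) hcop.symm
      exact h2.dvd_of_dvd_mul_left hx
    · intro hx
      exact hx.trans (Nat.div_dvd_of_dvd (Nat.gcd_dvd_left _ _))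
  rw [heq]; exact h

end Cfsg.Agent.S3994
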