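import Cfsg.Statements.S3995
import Mathlib
import Cfsg.Agent.Lib.Helper70Frobenius
import Cfsg.Agent.Lib.Helper70Basic
import Cfsg.Agent.Lib.Helper25Quat

set_option autoImplicit false
open Cfsg

namespace Cfsg.Agent.S3995

open Cfsg.Agent.Lib.Helper70Frobenius Cfsg.Agent.Lib.Helper70Basic

universe u

/-- number of elements of order `m`. -/
noncomputable def cnt (G : Type u) [Group G] (m : ℕ) : ℕ := Nat.card {g : G // orderOf g = m}

section counting
variable {G : Type u} [Group G] [Finite G]

theorem card_pow_eq_sum (m : ℕ) (hm : m ≠ 0) :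
    Nat.card {x : G // x ^ m = 1} = ∑ d ∈ m.divisors, cnt G d := by
  classical
  have := Fintype.ofFinite G
  have h := sum_card_orderOf_eq_card_pow_eq_one (G := G) hm
  simp only [cnt, Nat.card_eq_fintype_card, Fintype.card_subtype]
  convert h.symm

theorem frob (m : ℕ) (hm : m ∣ Nat.card G) : m ∣ ∑ d ∈ m.divisors, cnt G d := by
  have hm0 : m ≠ 0 := by
    rintro rfl
    exact Nat.card_pos.ne' (Nat.eq_zero_of_zero_dvd hm)
  rw [← card_pow_eq_sum m hm0]
  exact frobenius G m hm

theorem divisors_prime_mul (p m : ℕ) (hp : p.Prime) (hm : m ≠ 0) (hpm : ¬ p ∣ m) (f : ℕ → ℕ) :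
    ∑ d ∈ (p * m).divisors, f d = ∑ d ∈ m.divisors, f d + ∑ d ∈ m.divisors, f (p * d) := by
  have h1 : (p * m).divisors = m.divisors ∪ m.divisors.image (p * ·) := by
    ext d
    simp only [Nat.mem_divisors, Finset.mem_union, Finset.mem_image]
    constructor
    · rintro ⟨hd, _⟩
      by_cases hpd : p ∣ d
      · right
        obtain ⟨e, rfl⟩ := hpd
        exact ⟨e, ⟨Nat.dvd_of_mul_dvd_mul_left hp.pos hd, hm⟩, rfl⟩
      · left
        have hc : Nat.Coprime d p := ((Nat.Prime.coprime_iff_not_dvd hp).mpr hpd).symm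
        exact ⟨hc.dvd_of_dvd_mul_left hd, hm⟩
    · rintro (⟨hd, _⟩ | ⟨e, ⟨he, _⟩, rfl⟩)
      · exact ⟨Dvd.dvd.mul_left hd p, mul_ne_zero hp.ne_zero hm⟩
      · exact ⟨Nat.mul_dvd_mul_left p he, mul_ne_zero hp.ne_zero hm⟩
  have h2 : Disjoint m.divisors (m.divisors.image (p * ·)) := by
    rw [Finset.disjoint_left]
    intro d hd hd'
    simp only [Finset.mem_image, Nat.mem_divisors] at hd hd'
    obtain ⟨e, _, rfl⟩ := hd'
    exact hpm ((Dvd.intro _ rfl).trans hd.1)
  rw [h1, Finset.sum_union h2, Finset.sum_image]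
  intro a _ b _ hab
  exact Nat.eq_of_mul_eq_mul_left hp.pos hab

theorem cnt_one : cnt G 1 = 1 := by
  rw [cnt]
  have : Unique {g : G // orderOf g = 1} :=
    { default := ⟨1, orderOf_one⟩
      uniq := fun g => Subtype.ext (orderOf_eq_one_iff.mp g.2) }
  exact Nat.card_unique

theorem cnt_pos_iff (m : ℕ) : cnt G m ≠ 0 ↔ ∃ g : G, orderOf g = m := by
  rw [cnt, Nat.card_ne_zero]
  constructor
  · rintro ⟨⟨g, hg⟩, _⟩; exact ⟨g, hg⟩
  · rintro ⟨g, hg⟩; exact ⟨⟨g, hg⟩, inferInstance⟩

theorem cnt_ne_one (g : G) (hg : 3 ≤ orderOf g) : cnt G (orderOf g) ≠ 1 := by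
  intro h
  rw [cnt, Nat.card_eq_one_iff_unique] at h
  obtain ⟨h1, _⟩ := h
  have h2 : (⟨g, rfl⟩ : {x : G // orderOf x = orderOf g}) = ⟨g⁻¹, orderOf_inv g⟩ :=
    Subsingleton.elim _ _
  have h3 : g = g⁻¹ := congrArg Subtype.val h2
  have h4 : g ^ 2 = 1 := by
    rw [pow_two]; nth_rewrite 1 [h3]; group
  have := orderOf_le_of_pow_eq_one (by norm_num) h4
  omega

theorem num (p n e k : ℕ) (hp : p.Prime) (hp2 : p ≠ 2) (h1 : p ∣ 1 + n)
    (h2 : p ∣ k + (k + 1) * n + e) (he : e = 0 ∨ e = n) : False := by
  rcases he with rfl | rfl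
  · have h3 : p ∣ (k + 1) * (1 + n) := Dvd.dvd.mul_left h1 _
    have h4 : (k + 1) * (1 + n) - (k + (k + 1) * n + 0) = 1 := by
      have : (k + 1) * (1 + n) = (k + (k + 1) * n + 0) + 1 := by ring
      omega
    have h5 := Nat.dvd_sub h3 h2
    rw [h4] at h5
    exact hp.one_lt.ne' (Nat.dvd_one.mp h5)
  · have h3 : p ∣ (k + 2) * (1 + e) := Dvd.dvd.mul_left h1 _
    have h4 : (k + 2) * (1 + e) - (k + (k + 1) * e + e) = 2 := by
      have : (k + 2) * (1 + e) = (k + (k + 1) * e + e) + 2 := by ring
      omega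
    have h5 := Nat.dvd_sub h3 h2
    rw [h4] at h5
    exact hp2 ((Nat.prime_dvd_prime_iff_eq hp Nat.prime_two).mp h5)

theorem exists_order_sq (p k : ℕ) (hp : p.Prime) (g : G) (hg : orderOf g = p ^ k) (j : ℕ)
    (hj : j ≤ k) : ∃ x : G, orderOf x = p ^ j := by
  refine ⟨g ^ (p ^ (k - j)), ?_⟩
  rw [orderOf_pow, hg, Nat.gcd_eq_right (pow_dvd_pow p (Nat.sub_le k j))]
  rw [Nat.pow_div (Nat.sub_le k j) hp.pos]
  congr 1; omega

end counting

theorem exists_small_copy (P : Type u) [Group P] [Finite P] :
    ∃ (P' : Type) (_ : Group P') (_ : Finite P'), Nonempty (P ≃* P') := by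
  let e : {i : ℕ // i < Nat.card P} ≃ P := ((Finite.equivFin P).trans Fin.equivSubtype).symm
  exact ⟨{i : ℕ // i < Nat.card P}, e.group, Finite.of_equiv _ e.symm, ⟨by
    letI := e.group
    exact (e.mulEquiv).symm⟩⟩

theorem quat_or_cyclic {G : Type u} [Group G] [Finite G]
    (hord : ∀ g : G, orderOf g = 1 ∨ orderOf g = 2 ∨ orderOf g = 4)
    (z : G) (huniq : ∀ g : G, orderOf g = 2 → g = z)
    (a : G) (ha : orderOf a = 4) :
    Nonempty (G ≃* QuaternionGroup 2) ∨ (IsCyclic G ∧ Nat.card G = 4) := by
  have sq4 : ∀ x : G, orderOf x = 4 → x * x = z := by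
    intro x hx
    rw [← pow_two]
    apply huniq
    rw [orderOf_pow, hx]; rfl
  by_cases htop : Subgroup.zpowers a = ⊤
  · right
    refine ⟨isCyclic_iff_exists_zpowers_eq_top.mpr ⟨a, htop⟩, ?_⟩
    rw [← Subgroup.card_top, ← htop, Nat.card_zpowers, ha]
  left
  obtain ⟨b, hb⟩ : ∃ b, b ∉ Subgroup.zpowers a := by
    by_contra hcon
    push Not at hcon
    exact htop (eq_top_iff.mpr fun x _ => hcon x)
  have haH : a ∈ Subgroup.zpowers a := Subgroup.mem_zpowers a
  have hzH : z ∈ Subgroup.zpowers a := by rw [← sq4 a ha]; exact mul_mem haH haH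
  have hsmall : ∀ w : G, w * w = 1 → w ∈ Subgroup.zpowers a := by
    intro w hw
    have h1 : orderOf w ∣ 2 := orderOf_dvd_of_pow_eq_one (by rw [pow_two]; exact hw)
    rcases (Nat.dvd_prime Nat.prime_two).mp h1 with h2 | h2
    · rw [orderOf_eq_one_iff.mp h2]; exact one_mem _
    · rw [huniq w h2]; exact hzH
  have h4 : ∀ w : G, w ∉ Subgroup.zpowers a → orderOf w = 4 := by
    intro w hw
    rcases hord w with h1 | h1 | h1
    · exact absurd (by rw [orderOf_eq_one_iff.mp h1]; exact one_mem _) hw
    · exact absurd (by rw [huniq w h1]; exact hzH) hw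
    · exact h1
  have key1 : ∀ w : G, Commute w a → w ∈ Subgroup.zpowers a := by
    intro w hw
    by_contra hwH
    have h1 := sq4 w (h4 w hwH)
    have h2 : (w * a⁻¹) * (w * a⁻¹) = 1 := by
      have hc : Commute w a⁻¹ := hw.inv_right
      calc (w * a⁻¹) * (w * a⁻¹) = w * (a⁻¹ * w) * a⁻¹ := by simp only [mul_assoc]
        _ = w * (w * a⁻¹) * a⁻¹ := by rw [hc.eq]
        _ = (w * w) * (a * a)⁻¹ := by simp only [mul_assoc, mul_inv_rev]
        _ = 1 := by rw [h1, sq4 a ha]; simp
    apply hwH
    have : w = (w * a⁻¹) * a := by group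
    rw [this]; exact mul_mem (hsmall _ h2) haH
  have key2 : ∀ w : G, w ∉ Subgroup.zpowers a → w * a * w⁻¹ = a⁻¹ := by
    intro w hw
    have h1 : w * a ∉ Subgroup.zpowers a := by
      intro hh
      apply hw
      have : w = (w * a) * a⁻¹ := by group
      rw [this]; exact mul_mem hh (inv_mem haH)
    have h2 := sq4 _ (h4 _ h1)
    rw [← sq4 w (h4 w hw)] at h2
    have h3 : a * w * a = w := by
      have : w * (a * w * a) = w * w := by rw [← h2]; simp only [mul_assoc]
      exact mul_left_cancel this
    have h5 : w * a = a⁻¹ * w := by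
      rw [eq_inv_mul_iff_mul_eq, ← mul_assoc]; exact h3
    rw [h5]; group
  have hidx : (Subgroup.zpowers a).index = 2 := by
    rw [Subgroup.index_eq_two_iff]
    refine ⟨b⁻¹, fun c => ?_⟩
    by_cases hc : c ∈ Subgroup.zpowers a
    · right
      refine ⟨hc, fun hh => hb ?_⟩
      have : b = (c * b⁻¹)⁻¹ * c := by group
      rw [this]; exact mul_mem (inv_mem hh) hc
    · left
      refine ⟨key1 _ ?_, hc⟩
      have e1 := key2 b hb
      have e2 := key2 c hc
      have e3 : b⁻¹ * a * b = a⁻¹ := by
        have : b⁻¹ * (b * a * b⁻¹)⁻¹ * b = b⁻¹ * (a⁻¹)⁻¹ * b := by rw [e1]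
        rw [inv_inv] at this
        rw [← this]; group
      have e4 : (c * b⁻¹) * a * (c * b⁻¹)⁻¹ = a := by
        calc (c * b⁻¹) * a * (c * b⁻¹)⁻¹ = c * (b⁻¹ * a * b) * c⁻¹ := by group
          _ = c * a⁻¹ * c⁻¹ := by rw [e3]
          _ = (c * a * c⁻¹)⁻¹ := by group
          _ = a := by rw [e2, inv_inv]
      exact mul_inv_eq_iff_eq_mul.mp e4
  have hcard : Nat.card G = 8 := by
    rw [← (Subgroup.zpowers a).card_mul_index, hidx, Nat.card_zpowers, ha]
  obtain ⟨e⟩ := Cfsg.Agent.Lib.Helper25Quat.nonempty_equiv (n := 2) (A := a) (B := b) (by rw [ha])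
    (by rw [sq4 b (h4 b hb), pow_two, sq4 a ha]) (key2 b hb) hb ⊤
    (by rw [Subgroup.card_top, hcard]) trivial trivial
  exact ⟨Subgroup.topEquiv.symm.trans e⟩

theorem direct_prod {G : Type u} [Group G] [Finite G] (p : ℕ) (hp : p.Prime) (hp2 : p ≠ 2) (z : G)
    (hz : orderOf z = 2) (hzc : ∀ g : G, Commute z g) (P : Subgroup G) (hP : IsPGroup p P)
    (hidx : P.index = 2) (hexp : ∀ x ∈ P, x ≠ 1 → orderOf x = p) (hnt : P ≠ ⊥) :
    ∃ (P' : Type) (_ : Group P') (_ : Finite P'), IsPGroup p P' ∧ Monoid.exponent P' = p ∧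
      Nonempty (G ≃* Multiplicative (ZMod 2) × P') := by
  obtain ⟨P', i1, i2, ⟨e⟩⟩ := exists_small_copy P
  refine ⟨P', i1, i2, hP.of_equiv e, ?_, ?_⟩
  · rw [← Monoid.exponent_eq_of_mulEquiv e]
    have : Nontrivial P := (Subgroup.nontrivial_iff_ne_bot P).mpr hnt
    rw [Monoid.exponent_eq_prime_iff hp]
    intro g hg
    rw [← Subgroup.orderOf_coe]
    exact hexp g.1 g.2 (fun h => hg (Subtype.ext h))
  · let ψ : Subgroup.zpowers z × P →* G :=
      (Subgroup.zpowers z).subtype.noncommCoprod P.subtype (by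
        rintro ⟨u, hu⟩ x
        obtain ⟨k, rfl⟩ := Subgroup.mem_zpowers_iff.mp hu
        exact (hzc x.1).zpow_left k)
    have hinj : Function.Injective ψ := by
      rw [injective_iff_map_eq_one]
      rintro ⟨⟨u, hu⟩, ⟨x, hx⟩⟩ h
      have h1 : u * x = 1 := h
      have hux : u = x⁻¹ := eq_inv_of_mul_eq_one_left h1
      have huP : u ∈ P := by rw [hux]; exact inv_mem hx
      have ho1 : orderOf u ∣ 2 := by rw [← hz]; exact orderOf_dvd_of_mem_zpowers hu
      have hu1 : u = 1 := by
        by_contra hu1
        have := hexp u huP hu1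
        rw [this] at ho1
        exact hp2 ((Nat.prime_dvd_prime_iff_eq hp Nat.prime_two).mp ho1)
      have hx1 : x = 1 := by rw [hu1, one_mul] at h1; exact h1
      subst hu1; subst hx1; rfl
    have hbij : Function.Bijective ψ := by
      rw [Nat.bijective_iff_injective_and_card]
      refine ⟨hinj, ?_⟩
      rw [Nat.card_prod, Nat.card_zpowers, hz, ← P.card_mul_index, hidx, mul_comm]
    have e1 : Subgroup.zpowers z ≃* Multiplicative (ZMod 2) :=
      mulEquivOfPrimeCardEq (p := 2) (by rw [Nat.card_zpowers, hz]) (by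
        rw [Nat.card_eq_fintype_card]; rfl)
    exact ⟨(MulEquiv.ofBijective ψ hbij).symm.trans (MulEquiv.prodCongr e1 e)⟩

/-- Let G be a finite group such that the numbers of elements of each order that occurs in G (the numbers #{g : o(g) = m}, m ranging over the element orders of G) take exactly two values, 1 and some n ≠ 1. Then either G is a p-group of exponent p and order at least 3 for some prime p, or G is the quaternion group of order 8, or G is cyclic of order 4, or G ≅ Z₂ × P for a p-group P of exponent p with p an odd prime. -/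
theorem result {G : Type*} [Group G] [Finite G] (n : ℕ) (hn : n ≠ 1) (h : ((fun m : ℕ => Nat.card {g : G // orderOf g = m}) '' Set.range (orderOf : G → ℕ)) = {1, n}) :
    (∃ p : ℕ, p.Prime ∧ IsPGroup p G ∧ 3 ≤ Nat.card G ∧ Monoid.exponent G = p) ∨
      Nonempty (G ≃* QuaternionGroup 2) ∨ (IsCyclic G ∧ Nat.card G = 4) ∨
      (∃ (p : ℕ) (P : Type) (_ : Group P) (_ : Finite P), p.Prime ∧ p ≠ 2 ∧ IsPGroup p P ∧ Monoid.exponent P = p ∧
        Nonempty (G ≃* Multiplicative (ZMod 2) × P)) := by
  have H1 : ∀ g : G, cnt G (orderOf g) = 1 ∨ cnt G (orderOf g) = n := by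
    intro g
    have : cnt G (orderOf g) ∈ ((fun m : ℕ => Nat.card {g : G // orderOf g = m}) ''
        Set.range (orderOf : G → ℕ)) := ⟨orderOf g, ⟨g, rfl⟩, rfl⟩
    rw [h] at this
    simpa using this
  obtain ⟨g0, hg0⟩ : ∃ g : G, cnt G (orderOf g) = n := by
    have : n ∈ ((fun m : ℕ => Nat.card {g : G // orderOf g = m}) ''
        Set.range (orderOf : G → ℕ)) := by rw [h]; simp
    obtain ⟨_, ⟨g, rfl⟩, hg⟩ := this
    exact ⟨g, hg⟩
  have Hbig : ∀ g : G, 3 ≤ orderOf g → cnt G (orderOf g) = n :=
    fun g hg => (H1 g).resolve_left (cnt_ne_one g hg)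
  have Hbig' : ∀ m, 3 ≤ m → cnt G m = 0 ∨ cnt G m = n := by
    intro m hm
    by_cases h0 : cnt G m = 0
    · left; exact h0
    · obtain ⟨g, rfl⟩ := (cnt_pos_iff m).mp h0
      right; exact Hbig g hm
  have hn0 : n ≠ 0 := by rw [← hg0]; exact (cnt_pos_iff _).mpr ⟨g0, rfl⟩
  have S1 : ∀ p, p.Prime → p ≠ 2 → p ∣ Nat.card G → cnt G p = n ∧ p ∣ 1 + n := by
    intro p hp hp2 hpG
    have := Fact.mk hp
    obtain ⟨x, hx⟩ := exists_prime_orderOf_dvd_card' p hpG
    have h3 : 3 ≤ p := by have := hp.two_le; omega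
    have e1 : cnt G p = n := by rw [← hx]; exact Hbig x (hx ▸ h3)
    have e2 := frob (G := G) p hpG
    rw [hp.divisors, Finset.sum_pair hp.one_lt.ne, cnt_one, e1] at e2
    exact ⟨e1, e2⟩
  have S2 : ∀ p, p.Prime → p ≠ 2 → ∀ x : G, orderOf x ≠ p ^ 2 := by
    intro p hp hp2 x hx
    have hd : p ^ 2 ∣ Nat.card G := hx ▸ orderOf_dvd_natCard x
    have hpG : p ∣ Nat.card G := (dvd_pow_self p two_ne_zero).trans hd
    obtain ⟨e1, e2⟩ := S1 p hp hp2 hpG
    have e3 := frob (G := G) (p ^ 2) hd
    rw [Nat.sum_divisors_prime_pow hp] at e3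
    simp only [Finset.sum_range_succ, Finset.sum_range_zero, pow_zero, pow_one, zero_add] at e3
    have e4 : cnt G (p ^ 2) = n := by
      rw [← hx]; apply Hbig; rw [hx]; nlinarith [hp.two_le]
    rw [cnt_one, e1, e4] at e3
    refine num p n 0 1 hp hp2 e2 ?_ (Or.inl rfl)
    have := (dvd_pow_self p two_ne_zero).trans e3
    have e : 1 + (1 + 1) * n + 0 = 1 + n + n := by ring
    rw [e]; exact this
  have S3 : ∀ p q, p.Prime → p ≠ 2 → q.Prime → q ≠ p → p ∣ Nat.card G → q ∣ Nat.card G →
      cnt G q = n → False := by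
    intro p q hp hp2 hq hqp hpG hqG hqn
    obtain ⟨e1, e2⟩ := S1 p hp hp2 hpG
    have hcop : Nat.Coprime p q := (Nat.coprime_primes hp hq).mpr (Ne.symm hqp)
    have hd : p * q ∣ Nat.card G := hcop.mul_dvd_of_dvd_of_dvd hpG hqG
    have e3 := frob (G := G) (p * q) hd
    rw [divisors_prime_mul p q hp hq.ne_zero
      (fun hh => hqp ((Nat.prime_dvd_prime_iff_eq hp hq).mp hh).symm), hq.divisors,
      Finset.sum_pair hq.one_lt.ne, Finset.sum_pair hq.one_lt.ne, mul_one, cnt_one, e1, hqn] at e3
    have e5 : cnt G (p * q) = 0 ∨ cnt G (p * q) = n :=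
      Hbig' _ (by nlinarith [hp.two_le, hq.two_le])
    refine num p n (cnt G (p * q)) 1 hp hp2 e2 ?_ e5
    have := (Dvd.intro _ rfl : p ∣ p * q).trans e3
    have e : 1 + (1 + 1) * n + cnt G (p * q) = 1 + n + (n + cnt G (p * q)) := by ring
    rw [e]; exact this
  have hg01 : orderOf g0 ≠ 1 := by
    intro hh
    rw [hh, cnt_one] at hg0
    exact hn hg0.symm
  have hnontriv : Nontrivial G := ⟨⟨g0, 1, fun hh => hg01 (by rw [hh, orderOf_one])⟩⟩
  -- exponent lemma
  have hexpo : ∀ p, p.Prime → IsPGroup p G → (∀ x : G, orderOf x ≠ p ^ 2) →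
      ∀ g : G, g ≠ 1 → orderOf g = p := by
    intro p hp hP hno g hg
    have := Fact.mk hp
    obtain ⟨j, hj⟩ := (IsPGroup.iff_orderOf.mp hP) g
    have hj2 : j < 2 := by
      by_contra hj2
      obtain ⟨x, hx⟩ := exists_order_sq p j hp g hj 2 (by omega)
      exact hno x hx
    have hj0 : j ≠ 0 := by
      rintro rfl
      rw [pow_zero, orderOf_eq_one_iff] at hj
      exact hg hj
    have : j = 1 := by omega
    rw [hj, this, pow_one]
  have d4 : Nat.divisors 4 = {1, 2, 4} := by decide
  have d8 : Nat.divisors 8 = {1, 2, 4, 8} := by decide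
  by_cases h2G : 2 ∣ Nat.card G
  · obtain ⟨z, hz⟩ := exists_prime_orderOf_dvd_card' 2 h2G
    rcases (hz ▸ H1 z : cnt G 2 = 1 ∨ cnt G 2 = n) with h21 | h2n
    · have huniq : ∀ g : G, orderOf g = 2 → g = z := by
        intro g hg
        rw [cnt, Nat.card_eq_one_iff_unique] at h21
        have := h21.1
        exact congrArg Subtype.val
          (Subsingleton.elim (⟨g, hg⟩ : {g : G // orderOf g = 2}) ⟨z, hz⟩)
      have hzc : ∀ g : G, Commute z g := by
        intro g
        have h1 : g * z * g⁻¹ = z := by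
          apply huniq
          have := (MulAut.conj g).orderOf_eq z
          rw [MulAut.conj_apply] at this
          rw [this, hz]
        exact (mul_inv_eq_iff_eq_mul.mp h1).symm
      by_cases hodd : ∃ p, p.Prime ∧ p ≠ 2 ∧ p ∣ Nat.card G
      · obtain ⟨p, hp, hp2, hpG⟩ := hodd
        right; right; right
        have := Fact.mk hp
        obtain ⟨e1, e2⟩ := S1 p hp hp2 hpG
        have hprime : ∀ d : ℕ, d.Prime → d ∣ Nat.card G → d = 2 ∨ d = p := by
          intro d hd hdG
          by_contra hcon
          push Not at hcon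
          exact S3 p d hp hp2 hd hcon.2 hpG hdG (S1 d hd hcon.1 hdG).1
        have hno4 : ∀ x : G, orderOf x ≠ 4 := by
          intro x hx
          have hd4 : 4 ∣ Nat.card G := by
            have := orderOf_dvd_natCard x
            rwa [hx] at this
          have hp4 : ¬ p ∣ 4 := by
            intro hh
            have : p ∣ 2 ^ 2 := by norm_num; exact hh
            exact hp2 ((Nat.prime_dvd_prime_iff_eq hp Nat.prime_two).mp (hp.dvd_of_dvd_pow this))
          have hcop : Nat.Coprime p 4 := (Nat.Prime.coprime_iff_not_dvd hp).mpr hp4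
          have hd : p * 4 ∣ Nat.card G := hcop.mul_dvd_of_dvd_of_dvd hpG hd4
          have e3 := frob (G := G) (p * 4) hd
          have e4 : cnt G 4 = n := by
            have := Hbig x (by rw [hx]; norm_num)
            rwa [hx] at this
          obtain ⟨y, hy⟩ := exists_prime_orderOf_dvd_card' p hpG
          have e5 : cnt G (p * 2) = n := by
            have h1 := (hzc y).orderOf_mul_eq_mul_orderOf_of_coprime (by
              rw [hz, hy]; exact (Nat.coprime_primes Nat.prime_two hp).mpr (Ne.symm hp2))
            rw [hz, hy, mul_comm] at h1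
            have := Hbig (z * y) (by rw [h1]; have := hp.two_le; omega)
            rwa [h1] at this
          have e6 : cnt G (p * 4) = 0 ∨ cnt G (p * 4) = n :=
            Hbig' _ (by have := hp.two_le; omega)
          rw [divisors_prime_mul p 4 hp (by norm_num) hp4, d4, Finset.sum_insert (by decide),
            Finset.sum_insert (by decide), Finset.sum_singleton, Finset.sum_insert (by decide),
            Finset.sum_insert (by decide), Finset.sum_singleton, cnt_one, h21, e4, mul_one, e1,
            e5] at e3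
          refine num p n (cnt G (p * 4)) 2 hp hp2 e2 ?_ e6
          have := (Dvd.intro _ rfl : p ∣ p * 4).trans e3
          have e : 2 + (2 + 1) * n + cnt G (p * 4) = 1 + (1 + n) + (n + (n + cnt G (p * 4))) := by
            ring
          rw [e]; exact this
        obtain ⟨P⟩ : Nonempty (Sylow p G) := inferInstance
        have hidx : (P : Subgroup G).index = 2 := by
          have hi := Nat.eq_prime_pow_of_unique_prime_dvd (p := 2)
            (n := (P : Subgroup G).index) Subgroup.index_ne_zero_of_finite (by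
              intro d hd hdd
              rcases hprime d hd (hdd.trans (Subgroup.index_dvd_card _)) with h1 | h1
              · exact h1
              · exact absurd (h1 ▸ hdd) P.not_dvd_index)
          obtain ⟨i, hi'⟩ : ∃ i, (P : Subgroup G).index = 2 ^ i := ⟨_, hi⟩
          have hi0 : i ≠ 0 := by
            rintro rfl
            rw [pow_zero, Subgroup.index_eq_one] at hi'
            obtain ⟨j, hj⟩ := (IsPGroup.iff_orderOf.mp P.2) ⟨z, by rw [hi']; trivial⟩
            rw [Subgroup.orderOf_mk, hz] at hj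
            have hj0 : j ≠ 0 := by rintro rfl; simp at hj
            have : p ∣ 2 := by rw [hj]; exact dvd_pow_self p hj0
            exact hp2 ((Nat.prime_dvd_prime_iff_eq hp Nat.prime_two).mp this)
          have hi2 : i < 2 := by
            by_contra hi2
            have h4 : 2 ^ 2 ∣ Nat.card G :=
              (pow_dvd_pow 2 (by omega : 2 ≤ i)).trans (hi' ▸ Subgroup.index_dvd_card _)
            obtain ⟨A, hA⟩ := Sylow.exists_subgroup_card_pow_prime 2 h4
            have hle : A ≤ Subgroup.zpowers z := by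
              intro x hx
              have h1 : orderOf x ∣ 2 ^ 2 := by
                rw [← hA, ← Subgroup.orderOf_mk x hx]; exact orderOf_dvd_natCard _
              obtain ⟨j, hj, hj'⟩ := (Nat.dvd_prime_pow Nat.prime_two).mp h1
              interval_cases j
              · rw [pow_zero, orderOf_eq_one_iff] at hj'
                rw [hj']; exact one_mem _
              · rw [huniq x (by simpa using hj')]; exact Subgroup.mem_zpowers z
              · exact absurd (by simpa using hj') (hno4 x)
            have := Subgroup.card_le_of_le hle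
            rw [hA, Nat.card_zpowers, hz] at this
            omega
          have : i = 1 := by omega
          rw [hi', this, pow_one]
        have hexpP : ∀ x ∈ (P : Subgroup G), x ≠ 1 → orderOf x = p := by
          intro x hx hx1
          obtain ⟨j, hj⟩ := (IsPGroup.iff_orderOf.mp P.2) ⟨x, hx⟩
          rw [Subgroup.orderOf_mk] at hj
          have hj2 : j < 2 := by
            by_contra hj2
            obtain ⟨w, hw⟩ := exists_order_sq p j hp x hj 2 (by omega)
            exact S2 p hp hp2 w hw
          have hj0 : j ≠ 0 := by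
            rintro rfl
            rw [pow_zero, orderOf_eq_one_iff] at hj
            exact hx1 hj
          have : j = 1 := by omega
          rw [hj, this, pow_one]
        obtain ⟨P', i1, i2, h1, h2, h3⟩ := direct_prod p hp hp2 z hz hzc (P : Subgroup G) P.2 hidx
          hexpP (P.ne_bot_of_dvd_card hpG)
        exact ⟨p, P', i1, i2, hp, hp2, h1, h2, h3⟩
      · right
        push Not at hodd
        have hprime : ∀ {d : ℕ}, d.Prime → d ∣ Nat.card G → d = 2 := by
          intro d hd hdG
          by_contra hd2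
          exact hodd d hd hd2 hdG
        have hcard := Nat.eq_prime_pow_of_unique_prime_dvd Nat.card_pos.ne' hprime
        have hP : IsPGroup 2 G := IsPGroup.of_card hcard
        obtain ⟨j0, hj0⟩ := (IsPGroup.iff_orderOf.mp hP) g0
        have hj02 : 2 ≤ j0 := by
          by_contra hcon
          have : j0 = 0 ∨ j0 = 1 := by omega
          rcases this with rfl | rfl
          · exact hg01 (by simpa using hj0)
          · rw [hj0, pow_one, h21] at hg0
            exact hn hg0.symm
        obtain ⟨a, ha⟩ := exists_order_sq 2 j0 Nat.prime_two g0 hj0 2 hj02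
        have ha4 : orderOf a = 4 := by rw [ha]; norm_num
        have e4 : cnt G 4 = n := by
          have := Hbig a (by rw [ha4]; norm_num)
          rwa [ha4] at this
        have hd4 : 4 ∣ Nat.card G := by
          have := orderOf_dvd_natCard a
          rwa [ha4] at this
        have f4 := frob (G := G) 4 hd4
        rw [d4, Finset.sum_insert (by decide), Finset.sum_insert (by decide),
          Finset.sum_singleton, cnt_one, h21, e4] at f4
        have hno8 : ∀ x : G, orderOf x ≠ 2 ^ 3 := by
          intro x hx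
          have hx8 : orderOf x = 8 := by rw [hx]; norm_num
          have hd8 : 8 ∣ Nat.card G := by
            have := orderOf_dvd_natCard x
            rwa [hx8] at this
          have e8 : cnt G 8 = n := by
            have := Hbig x (by rw [hx8]; norm_num)
            rwa [hx8] at this
          have f8 := frob (G := G) 8 hd8
          rw [d8, Finset.sum_insert (by decide), Finset.sum_insert (by decide),
            Finset.sum_insert (by decide), Finset.sum_singleton, cnt_one, h21, e4, e8] at f8
          omega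
        have hord : ∀ g : G, orderOf g = 1 ∨ orderOf g = 2 ∨ orderOf g = 4 := by
          intro g
          obtain ⟨j, hj⟩ := (IsPGroup.iff_orderOf.mp hP) g
          have hj3 : j < 3 := by
            by_contra hj3
            obtain ⟨w, hw⟩ := exists_order_sq 2 j Nat.prime_two g hj 3 (by omega)
            exact hno8 w hw
          interval_cases j
          · left; simpa using hj
          · right; left; simpa using hj
          · right; right; rw [hj]; norm_num
        rcases quat_or_cyclic hord z huniq a ha4 with hq | hq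
        · exact Or.inl hq
        · exact Or.inr (Or.inl hq)
    · left
      have hprime : ∀ {d : ℕ}, d.Prime → d ∣ Nat.card G → d = 2 := by
        intro d hd hdG
        by_contra hd2
        exact S3 d 2 hd hd2 Nat.prime_two (Ne.symm hd2) hdG h2G h2n
      have hcard := Nat.eq_prime_pow_of_unique_prime_dvd Nat.card_pos.ne' hprime
      have hP : IsPGroup 2 G := IsPGroup.of_card hcard
      have hno4 : ∀ x : G, orderOf x ≠ 2 ^ 2 := by
        intro x hx
        have hd : 4 ∣ Nat.card G := by
          have := orderOf_dvd_natCard x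
          rwa [hx] at this
        have e3 := frob (G := G) 4 hd
        have e4 : cnt G 4 = n := by
          have := Hbig x (by rw [hx]; norm_num)
          rwa [hx] at this
        rw [d4, Finset.sum_insert (by decide), Finset.sum_insert (by decide),
          Finset.sum_singleton, cnt_one, h2n, e4] at e3
        omega
      refine ⟨2, Nat.prime_two, hP, ?_, ?_⟩
      · have e1 := card_pow_eq_sum (G := G) 2 two_ne_zero
        rw [Nat.prime_two.divisors, Finset.sum_pair (by norm_num), cnt_one, h2n] at e1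
        have e2 : Nat.card {x : G // x ^ 2 = 1} ≤ Nat.card G := Finite.card_subtype_le _
        omega
      · rw [Monoid.exponent_eq_prime_iff Nat.prime_two]
        exact hexpo 2 Nat.prime_two hP hno4
  · left
    have hc1 : Nat.card G ≠ 1 := by
      intro hh
      have := (Nat.card_eq_one_iff_unique.mp hh).1
      exact hg01 (by rw [Subsingleton.elim g0 1, orderOf_one])
    have hp := Nat.minFac_prime hc1
    have hpG := Nat.minFac_dvd (Nat.card G)
    have hp2 : (Nat.card G).minFac ≠ 2 := by
      intro hh; rw [hh] at hpG; exact h2G hpG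
    have hprime : ∀ {d : ℕ}, d.Prime → d ∣ Nat.card G → d = (Nat.card G).minFac := by
      intro d hd hdG
      by_contra hdp
      have hd2 : d ≠ 2 := by rintro rfl; exact h2G hdG
      exact S3 _ d hp hp2 hd hdp hpG hdG (S1 d hd hd2 hdG).1
    have hcard := Nat.eq_prime_pow_of_unique_prime_dvd Nat.card_pos.ne' hprime
    have hP : IsPGroup (Nat.card G).minFac G := IsPGroup.of_card hcard
    refine ⟨_, hp, hP, ?_, ?_⟩
    · have h1 := Nat.le_of_dvd Nat.card_pos hpG
      have h2 := hp.two_le
      omega
    · rw [Monoid.exponent_eq_prime_iff hp]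
      exact hexpo _ hp hP (S2 _ hp hp2)

end Cfsg.Agent.S3995
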