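import Cfsg.Statements.S3997
import Cfsg.Agent.Lib.Helper2Frattini
import Mathlib.Data.Set.Card

set_option autoImplicit false
open Cfsg

namespace Cfsg.Agent.S3997

open Subgroup Cfsg.Agent.Lib.Helper2Frattini

theorem mem_sylow_imp {K : Type*} [Group K] {p : ℕ} [Fact p.Prime] (P : Sylow p K) {g : K}
    (hg : g ∈ P) : ∃ k : ℕ, orderOf g = p ^ k := by
  obtain ⟨j, hj⟩ := P.2 ⟨g, hg⟩
  have hj' : g ^ p ^ j = 1 := by
    have := congrArg Subtype.val hj
    simpa using this
  obtain ⟨i, -, hi⟩ := (Nat.dvd_prime_pow Fact.out).1 (orderOf_dvd_of_pow_eq_one hj')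
  exact ⟨i, hi⟩

/-- Let G and H be finite groups with the same order type: for every m they have the same number of elements of order m. If G is nilpotent then so is H. -/
theorem result {G H : Type*} [Group G] [Finite G] [Group H] [Finite H] (hT : (∀ m : ℕ, Nat.card {g : G // orderOf g = m} = Nat.card {h : H // orderOf h = m})) (hG : Group.IsNilpotent G) :
    Group.IsNilpotent H := by
  -- an order-preserving bijection
  have hE : ∀ m : ℕ, Nonempty ({g : G // orderOf g = m} ≃ {h : H // orderOf h = m}) :=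
    fun m => Finite.card_eq.1 (hT m)
  let E := fun m => (hE m).some
  let e : G ≃ H := (Equiv.sigmaFiberEquiv (fun g : G => orderOf g)).symm.trans
    ((Equiv.sigmaCongrRight E).trans (Equiv.sigmaFiberEquiv (fun h : H => orderOf h)))
  have he : ∀ g : G, orderOf (e g) = orderOf g := by
    intro g
    exact (E (orderOf g) ⟨g, rfl⟩).2
  have hcard : Nat.card G = Nat.card H := Nat.card_congr e
  have q := (Group.isNilpotent_of_finite_tfae (G := H)).out 0 3
  rw [q]; clear q
  intro p hp Q
  have P : Sylow p G := default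
  have hP : ∀ g : G, g ∈ P ↔ ∃ k : ℕ, orderOf g = p ^ k := by
    intro g
    refine ⟨mem_sylow_imp P, ?_⟩
    rintro ⟨k, hk⟩
    have hpg : IsPGroup p (zpowers g) := by
      apply IsPGroup.of_card (n := k)
      rw [Nat.card_zpowers, hk]
    obtain ⟨R, hR⟩ := hpg.exists_le_sylow
    rw [sylow_eq_of_nilpotent P R]
    exact hR (mem_zpowers g)
  have hPQ : Nat.card Q = Nat.card P := by
    rw [Sylow.card_eq_multiplicity, Sylow.card_eq_multiplicity, hcard]
  have hS : Nat.card {h : H // ∃ k : ℕ, orderOf h = p ^ k} = Nat.card P := by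
    apply Nat.card_congr
    refine (Equiv.subtypeEquiv e ?_).symm
    intro g
    rw [he]
    exact hP g
  have hQ : ((Q : Subgroup H) : Set H) = {h : H | ∃ k : ℕ, orderOf h = p ^ k} := by
    have h1 : ({h : H | ∃ k : ℕ, orderOf h = p ^ k}).ncard ≤ ((Q : Subgroup H) : Set H).ncard := by
      have e1 : ({h : H | ∃ k : ℕ, orderOf h = p ^ k}).ncard
          = Nat.card {h : H // ∃ k : ℕ, orderOf h = p ^ k} := rfl
      have e2 : ((Q : Subgroup H) : Set H).ncard = Nat.card Q := rfl
      rw [e1, e2]
      exact (hS.trans hPQ.symm).le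
    exact Set.eq_of_subset_of_ncard_le (fun h hh => mem_sylow_imp Q hh) h1 (Set.toFinite _)
  constructor
  intro n hn g
  have h1 : n ∈ ((Q : Subgroup H) : Set H) := hn
  rw [hQ] at h1
  have h2 : g * n * g⁻¹ ∈ ((Q : Subgroup H) : Set H) := by
    rw [hQ]
    obtain ⟨k, hk⟩ := h1
    refine ⟨k, ?_⟩
    have := (MulAut.conj g).orderOf_eq n
    rw [← hk, ← this]; rfl
  exact h2

end Cfsg.Agent.S3997
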