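import Cfsg.Statements.S4002
import Mathlib
import Cfsg.Agent.Lib.Helper70Hall
import Cfsg.Agent.S1475

set_option autoImplicit false
open Cfsg

namespace Cfsg.Agent.S4002

theorem three_primes (n : ℕ) (hn : 7 ≤ n) :
    ∃ p q r : ℕ, p.Prime ∧ q.Prime ∧ r.Prime ∧ p < q ∧ q < r ∧ r ≤ n ∧ n < p * q := by
  by_cases h1 : n ≤ 14
  · exact ⟨3, 5, 7, by norm_num, by norm_num, by norm_num, by norm_num, by norm_num, hn, by omega⟩
  by_cases h2 : n ≤ 34
  · exact ⟨5, 7, 11, by norm_num, by norm_num, by norm_num, by norm_num, by norm_num, by omega,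
      by omega⟩
  obtain ⟨a, ha⟩ : ∃ a, a = n / 8 := ⟨_, rfl⟩
  have ha4 : 4 ≤ a := by omega
  obtain ⟨p, hp, hp1, hp2⟩ := Nat.exists_prime_lt_and_le_two_mul a (by omega)
  obtain ⟨q, hq, hq1, hq2⟩ := Nat.exists_prime_lt_and_le_two_mul (2 * a) (by omega)
  obtain ⟨r, hr, hr1, hr2⟩ := Nat.exists_prime_lt_and_le_two_mul (4 * a) (by omega)
  refine ⟨p, q, r, hp, hq, hr, by omega, by omega, by omega, ?_⟩
  have h3 : (a + 1) * (2 * a + 1) ≤ p * q := Nat.mul_le_mul hp1 hq1
  have h4 : n < 8 * a + 8 := by omega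
  nlinarith

/-- If the set of element orders of a finite group G is {1, 2, …, n} with n ≥ 7, then G is not solvable. -/
theorem result {G : Type*} [Group G] [Finite G] (n : ℕ) (hn : 7 ≤ n) (h : Set.range (orderOf : G → ℕ) = {k : ℕ | 1 ≤ k ∧ k ≤ n}) : ¬ Group.IsSolvable G := by
  intro hsol
  obtain ⟨p, q, r, hp, hq, hr, hpq, hqr, hrn, hn2⟩ := three_primes n hn
  have hle : ∀ g : G, orderOf g ≤ n := by
    intro g
    have : orderOf g ∈ Set.range (orderOf : G → ℕ) := ⟨g, rfl⟩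
    rw [h] at this
    exact this.2
  have hex : ∀ k, 1 ≤ k → k ≤ n → k ∣ Nat.card G := by
    intro k h1 h2
    have : k ∈ Set.range (orderOf : G → ℕ) := by rw [h]; exact ⟨h1, h2⟩
    obtain ⟨g, rfl⟩ := this
    exact orderOf_dvd_natCard g
  obtain ⟨H, hH1, hH2, -⟩ := Cfsg.Agent.Lib.Helper70Hall.exists_hall_set (G := G) ({p, q, r} : Set ℕ)
  have hdv : ∀ x, x.Prime → x ∈ ({p, q, r} : Set ℕ) → x ≤ n → x ∣ Nat.card H := by
    intro x hx hxS hxn
    have h1 := hex x hx.one_lt.le hxn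
    rw [← H.card_mul_index] at h1
    rcases (Nat.Prime.dvd_mul hx).mp h1 with h2 | h2
    · exact h2
    · exact absurd hxS (hH2 x hx h2)
  have hbig : ∀ x y, x ∈ ({p, q, r} : Set ℕ) → y ∈ ({p, q, r} : Set ℕ) → x ≠ y → n < x * y := by
    intro x y hx hy hxy
    simp only [Set.mem_insert_iff, Set.mem_singleton_iff] at hx hy
    have h1 : p * q ≤ p * r := Nat.mul_le_mul_left _ hqr.le
    have h2 : p * q ≤ q * r := Nat.mul_le_mul hpq.le hqr.le
    rcases hx with rfl | rfl | rfl <;> rcases hy with rfl | rfl | rfl <;>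
      first
      | exact absurd rfl hxy
      | nlinarith
  have hE : ∀ g : H, IsPrimePow (orderOf g) ∨ g = 1 := by
    intro g
    by_cases hg : g = 1
    · exact Or.inr hg
    left
    rw [isPrimePow_iff_unique_prime_dvd]
    have hne : orderOf g ≠ 1 := by rwa [Ne, orderOf_eq_one_iff]
    obtain ⟨x, hx, hxd⟩ := Nat.exists_prime_and_dvd hne
    refine ⟨x, ⟨hx, hxd⟩, ?_⟩
    rintro y ⟨hy, hyd⟩
    by_contra hyx
    have hxS := hH1 x hx (hxd.trans (orderOf_dvd_natCard g))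
    have hyS := hH1 y hy (hyd.trans (orderOf_dvd_natCard g))
    have h1 := hbig y x hyS hxS hyx
    have h2 : y * x ∣ orderOf g :=
      Nat.Coprime.mul_dvd_of_dvd_of_dvd ((Nat.coprime_primes hy hx).mpr hyx) hyd hxd
    have h3 := Nat.le_of_dvd (orderOf_pos g) h2
    have h4 := hle (g : G)
    rw [Subgroup.orderOf_coe] at h4
    omega
  have h5 := Cfsg.Agent.S1475.result hE
  have h6 : ({p, q, r} : Finset ℕ) ⊆ (Nat.card H).primeFactors := by
    intro x hx
    rw [Nat.mem_primeFactors]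
    simp only [Finset.mem_insert, Finset.mem_singleton] at hx
    rcases hx with rfl | rfl | rfl
    · exact ⟨hp, hdv _ hp (by simp) (by omega), Nat.card_pos.ne'⟩
    · exact ⟨hq, hdv _ hq (by simp) (by omega), Nat.card_pos.ne'⟩
    · exact ⟨hr, hdv _ hr (by simp) (by omega), Nat.card_pos.ne'⟩
  have h7 := Finset.card_le_card h6
  have h8 : ({p, q, r} : Finset ℕ).card = 3 := by
    rw [Finset.card_eq_three]
    exact ⟨p, q, r, by omega, by omega, by omega, rfl⟩
  omega

end Cfsg.Agent.S4002
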