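import Cfsg.Statements.S4005
import Mathlib
import Cfsg.Agent.Lib.Helper70Basic

set_option autoImplicit false
open Cfsg

namespace Cfsg.Agent.S4005

open Cfsg.Agent.Lib.Helper40Sylow Cfsg.Agent.Lib.Helper70Basic

universe u

/-- Coxeter type relation: the quotient of `S₄` by a `4`-cycle cubed. -/
theorem cox {G : Type u} [Group G] (a b c : G) (ha : a * a = 1) (hb : b * b = 1) (hc : c * c = 1)
    (hab : a * b = b * a) (h1 : (a * c) ^ 3 = 1) (h2 : (b * c) ^ 3 = 1)
    (h3 : (a * b * c) ^ 3 = 1) : c = a * b := by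
  have ia : a⁻¹ = a := inv_eq_of_mul_eq_one_left ha
  have ib : b⁻¹ = b := inv_eq_of_mul_eq_one_left hb
  have ic : c⁻¹ = c := inv_eq_of_mul_eq_one_left hc
  have h1' : a * c * a = c * a * c := by
    have : a * c * a * (c * a * c) = 1 := by
      rw [← h1, pow_succ, pow_two]; simp only [mul_assoc]
    have h := eq_inv_of_mul_eq_one_left this
    rw [h]; simp only [mul_inv_rev, ia, ic, mul_assoc]
  have h2' : b * c * b = c * b * c := by
    have : b * c * b * (c * b * c) = 1 := by
      rw [← h2, pow_succ, pow_two]; simp only [mul_assoc]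
    have h := eq_inv_of_mul_eq_one_left this
    rw [h]; simp only [mul_inv_rev, ib, ic, mul_assoc]
  have hW : c * b * a = 1 := by
    calc c * b * a = c * b * (c * c) * a := by rw [hc, mul_one]
      _ = (c * b * c) * c * a := by simp only [mul_assoc]
      _ = (b * c * b) * c * a := by rw [h2']
      _ = b * c * b * c * a * (c * c) := by rw [hc, mul_one]
      _ = b * c * b * (c * a * c) * c := by simp only [mul_assoc]
      _ = b * c * b * (a * c * a) * c := by rw [h1']
      _ = b * c * (b * a) * c * a * c := by simp only [mul_assoc]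
      _ = b * c * (a * b) * c * a * c := by rw [hab]
      _ = b * c * a * b * c * (a * (b * b)) * c := by rw [hb, mul_one]; simp only [mul_assoc]
      _ = b * c * a * b * c * ((a * b) * b) * c := by simp only [mul_assoc]
      _ = b * c * a * b * c * ((b * a) * b) * c := by rw [hab]
      _ = b * c * a * (b * c * b) * a * b * c := by simp only [mul_assoc]
      _ = b * c * a * (c * b * c) * a * b * c := by rw [h2']
      _ = b * (c * a * c) * b * c * a * b * c := by simp only [mul_assoc]
      _ = b * (a * c * a) * b * c * a * b * c := by rw [h1']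
      _ = (b * a) * c * a * b * c * a * b * c := by simp only [mul_assoc]
      _ = (a * b) * c * a * b * c * a * b * c := by rw [hab]
      _ = (a * b * c) ^ 3 := by rw [pow_succ, pow_two]; simp only [mul_assoc]
      _ = 1 := h3
  have h := eq_inv_of_mul_eq_one_left (show c * (b * a) = 1 by rw [← mul_assoc]; exact hW)
  rw [h, mul_inv_rev, ia, ib]

/-- two commuting fixed point free automorphisms of order three of an elementary abelian 2-group,
whose product is also fixed point free, agree. -/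
theorem key {V : Type u} [Group V] (h2 : ∀ x : V, x * x = 1) (α β : V →* V)
    (hαβ : ∀ v, α (β v) = β (α v)) (hα : ∀ v, v * α v * α (α v) = 1)
    (hβ : ∀ v, v * β v * β (β v) = 1) (hab : ∀ v, v * α (β v) * α (β (α (β v))) = 1) (v : V) :
    α v = β v := by
  have inv_eq : ∀ x : V, x⁻¹ = x := fun x => inv_eq_of_mul_eq_one_left (h2 x)
  have hc : ∀ x y : V, x * y = y * x := by
    intro x y
    have := inv_eq (x * y)
    rw [mul_inv_rev, inv_eq, inv_eq] at this
    exact this.symm
  have hα' : ∀ w, α (α w) = w * α w := by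
    intro w
    rw [← inv_eq (w * α w)]; exact eq_inv_of_mul_eq_one_right (hα w)
  have hβ' : ∀ w, β (β w) = w * β w := by
    intro w
    rw [← inv_eq (w * β w)]; exact eq_inv_of_mul_eq_one_right (hβ w)
  have e : α (β (α (β v))) = v * β v * (α v * α (β v)) := by
    rw [← hαβ (β v), hβ', hα', map_mul]
  have h := hab v
  rw [e] at h
  have h' : β v * α v = 1 := by
    calc β v * α v = (v * v) * (α (β v) * α (β v)) * (β v * α v) := by rw [h2, h2]; simp
      _ = v * α (β v) * (v * β v * (α v * α (β v))) := by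
        have hlc : ∀ x y z : V, x * (y * z) = y * (x * z) := by
          intro x y z; rw [← mul_assoc, hc x y, mul_assoc]
        simp only [mul_assoc, hc, hlc]
      _ = 1 := h
  have := eq_inv_of_mul_eq_one_right h'
  rw [this, inv_eq]

section main

variable {G : Type u} [Group G] [Finite G]

theorem order_cases (h : Set.range (orderOf : G → ℕ) = {k : ℕ | 1 ≤ k ∧ k ≤ 3}) (x : G) :
    orderOf x = 1 ∨ orderOf x = 2 ∨ orderOf x = 3 := by
  have : orderOf x ∈ {k : ℕ | 1 ≤ k ∧ k ≤ 3} := by rw [← h]; exact ⟨x, rfl⟩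
  obtain ⟨h1, h2⟩ := this
  omega

theorem no_six (h : Set.range (orderOf : G → ℕ) = {k : ℕ | 1 ≤ k ∧ k ≤ 3}) (t c : G)
    (ht : orderOf t = 2) (hc : orderOf c = 3) (hcomm : Commute t c) : False := by
  have h1 := hcomm.orderOf_mul_eq_mul_orderOf_of_coprime (by rw [ht, hc]; decide)
  rw [ht, hc] at h1
  rcases order_cases h (t * c) with h2 | h2 | h2 <;> omega

theorem prime_cases (h : Set.range (orderOf : G → ℕ) = {k : ℕ | 1 ≤ k ∧ k ≤ 3}) (r : ℕ)
    (hr : r.Prime) (hd : r ∣ Nat.card G) : r = 2 ∨ r = 3 := by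
  have : Fact r.Prime := ⟨hr⟩
  obtain ⟨x, hx⟩ := exists_prime_orderOf_dvd_card' r hd
  rcases order_cases h x with h2 | h2 | h2
  · rw [hx] at h2; exact absurd h2 hr.ne_one
  · left; omega
  · right; omega

theorem sq_of_mem_sylow (h : Set.range (orderOf : G → ℕ) = {k : ℕ | 1 ≤ k ∧ k ≤ 3})
    (T : Sylow 2 G) (x : G) (hx : x ∈ T) : x * x = 1 := by
  obtain ⟨k, hk⟩ := (IsPGroup.iff_orderOf.mp T.2) ⟨x, hx⟩
  rw [Subgroup.orderOf_mk] at hk
  have h2 : orderOf x ∣ 2 := by
    rcases order_cases h x with h2 | h2 | h2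
    · rw [h2]; exact one_dvd _
    · rw [h2]
    · exfalso
      rw [h2] at hk
      have : 2 ∣ 3 := by
        rw [hk]
        apply dvd_pow_self
        rintro rfl
        simp at hk
      omega
  rw [← pow_two]
  exact orderOf_dvd_iff_pow_eq_one.mp h2

theorem cube_of_mem_sylow (h : Set.range (orderOf : G → ℕ) = {k : ℕ | 1 ≤ k ∧ k ≤ 3})
    (Q : Sylow 3 G) (x : G) (hx : x ∈ Q) : x ^ 3 = 1 := by
  obtain ⟨k, hk⟩ := (IsPGroup.iff_orderOf.mp Q.2) ⟨x, hx⟩
  rw [Subgroup.orderOf_mk] at hk
  have h2 : orderOf x ∣ 3 := by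
    rcases order_cases h x with h2 | h2 | h2
    · rw [h2]; exact one_dvd _
    · exfalso
      rw [h2] at hk
      have : 3 ∣ 2 := by
        rw [hk]
        apply dvd_pow_self
        rintro rfl
        simp at hk
      omega
    · rw [h2]
  exact orderOf_dvd_iff_pow_eq_one.mp h2

theorem comm_of_sq {H : Subgroup G} (hH : ∀ x ∈ H, x * x = 1) (x y : G) (hx : x ∈ H) (hy : y ∈ H) :
    x * y = y * x := by
  have i1 : x⁻¹ = x := inv_eq_of_mul_eq_one_left (hH x hx)
  have i2 : y⁻¹ = y := inv_eq_of_mul_eq_one_left (hH y hy)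
  have i3 : (x * y)⁻¹ = x * y := inv_eq_of_mul_eq_one_left (hH _ (mul_mem hx hy))
  rw [mul_inv_rev, i1, i2] at i3
  exact i3.symm

/-- index of a Sylow `p`-subgroup is a power of the other prime. -/
theorem index_pow (h : Set.range (orderOf : G → ℕ) = {k : ℕ | 1 ≤ k ∧ k ≤ 3}) (p q : ℕ)
    [Fact p.Prime] (hpq : (p = 2 ∧ q = 3) ∨ (p = 3 ∧ q = 2)) (P : Sylow p G) :
    ∃ j, (P : Subgroup G).index = q ^ j := by
  refine ⟨_, Nat.eq_prime_pow_of_unique_prime_dvd Subgroup.index_ne_zero_of_finite ?_⟩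
  intro d hd hdd
  have h1 := prime_cases h d hd (hdd.trans (Subgroup.index_dvd_card _))
  have h2 : d ≠ p := by
    rintro rfl
    exact P.not_dvd_index hdd
  rcases hpq with ⟨rfl, rfl⟩ | ⟨rfl, rfl⟩ <;> omega

/-- the centralizer of an involution of a Sylow 2-subgroup is that subgroup. -/
theorem centralizer_eq (h : Set.range (orderOf : G → ℕ) = {k : ℕ | 1 ≤ k ∧ k ≤ 3})
    (T : Sylow 2 G) (s : G) (hs : s ∈ T) (hs1 : s ≠ 1) :
    Subgroup.centralizer ({s} : Set G) = T := by
  have hss := sq_of_mem_sylow h T s hs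
  have hos : orderOf s = 2 := orderOf_eq_prime (by rw [pow_two]; exact hss) hs1
  apply T.is_maximal'
  · rintro ⟨y, hy⟩
    refine ⟨1, ?_⟩
    apply Subtype.ext
    show y ^ (2 ^ 1) = 1
    rw [Subgroup.mem_centralizer_singleton_iff] at hy
    have h2 : orderOf y ∣ 2 := by
      rcases order_cases h y with h2 | h2 | h2
      · rw [h2]; exact one_dvd _
      · rw [h2]
      · exact (no_six h s y hos h2 hy.symm).elim
    exact orderOf_dvd_iff_pow_eq_one.mp (by simpa using h2)
  · intro x hx
    rw [Subgroup.mem_centralizer_singleton_iff]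
    exact comm_of_sq (sq_of_mem_sylow h T) x s hx hs

/-- Case A: the Sylow 2-subgroup is normal. -/
theorem caseA (h : Set.range (orderOf : G → ℕ) = {k : ℕ | 1 ≤ k ∧ k ≤ 3})
    (T : Sylow 2 G) (hT : (T : Subgroup G).Normal) : (T : Subgroup G).index = 3 := by
  obtain ⟨j, hj⟩ := index_pow h 2 3 (Or.inl ⟨rfl, rfl⟩) T
  obtain ⟨c, hc⟩ : ∃ c : G, orderOf c = 3 := by
    have : (3 : ℕ) ∈ Set.range (orderOf : G → ℕ) := by rw [h]; exact ⟨by norm_num, le_refl _⟩
    exact this
  obtain ⟨t, ht⟩ : ∃ t : G, orderOf t = 2 := by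
    have : (2 : ℕ) ∈ Set.range (orderOf : G → ℕ) := by rw [h]; exact ⟨by norm_num, by norm_num⟩
    exact this
  have hsq := sq_of_mem_sylow h T
  have htT : t ∈ T := by
    have h1 : IsPGroup 2 (Subgroup.zpowers t) := isPGroup_zpowers 2 t 1 (by simpa using ht)
    obtain ⟨T', hT'⟩ := h1.exists_le_sylow
    have : T' = T := by
      have := Sylow.unique_of_normal T hT
      exact Subsingleton.elim _ _
    rw [← this]; exact hT' (Subgroup.mem_zpowers t)
  have ht1 : t ≠ 1 := by rintro rfl; simp at ht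
  have hj0 : j ≠ 0 := by
    rintro rfl
    rw [pow_zero, Subgroup.index_eq_one] at hj
    have h1 : c ∈ (T : Subgroup G) := by rw [hj]; trivial
    have h2 := hsq c h1
    have h3 : orderOf c ∣ 2 := orderOf_dvd_of_pow_eq_one (by rw [pow_two]; exact h2)
    rw [hc] at h3; omega
  have hj2 : j < 2 := by
    by_contra hj2
    have h9 : 3 ^ 2 ∣ Nat.card G :=
      (pow_dvd_pow 3 (by omega : 2 ≤ j)).trans (hj ▸ Subgroup.index_dvd_card _)
    obtain ⟨A, hA⟩ := Sylow.exists_subgroup_card_pow_prime 3 h9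
    have hAc := (IsPGroup.isMulCommutative_of_card_eq_prime_sq hA).is_comm.comm
    have hAcomm : ∀ x ∈ A, ∀ y ∈ A, x * y = y * x := by
      intro x hx y hy
      exact congrArg Subtype.val (hAc ⟨x, hx⟩ ⟨y, hy⟩)
    have hA3 : ∀ x ∈ A, x ≠ 1 → orderOf x = 3 := by
      intro x hx hx1
      have h1 : orderOf x ∣ 3 ^ 2 := by
        rw [← hA, ← Subgroup.orderOf_mk x hx]; exact orderOf_dvd_natCard _
      rcases order_cases h x with h2 | h2 | h2
      · exact absurd (orderOf_eq_one_iff.mp h2) hx1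
      · rw [h2] at h1; omega
      · exact h2
    obtain ⟨a, haA, ha1⟩ : ∃ a ∈ A, a ≠ 1 := by
      by_contra hcon
      push Not at hcon
      have : A = ⊥ := (Subgroup.eq_bot_iff_forall A).mpr hcon
      rw [this, Subgroup.card_bot] at hA; omega
    obtain ⟨b, hbA, hba⟩ : ∃ b ∈ A, b ∉ Subgroup.zpowers a := by
      by_contra hcon
      push Not at hcon
      have h1 : Nat.card A ≤ Nat.card (Subgroup.zpowers a) := Subgroup.card_le_of_le hcon
      rw [hA, Nat.card_zpowers, hA3 a haA ha1] at h1; omega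
    have hb1 : b ≠ 1 := by rintro rfl; exact hba (one_mem _)
    have hab1 : a * b ≠ 1 := by
      intro hh
      apply hba
      rw [← inv_eq_of_mul_eq_one_right hh]; exact inv_mem (Subgroup.mem_zpowers a)
    have hne : a ≠ b := by rintro rfl; exact hba (Subgroup.mem_zpowers _)
    -- relation R(c)
    have hR : ∀ c : G, orderOf c = 3 → ∀ v ∈ T,
        v * (c * v * c⁻¹) * (c * (c * v * c⁻¹) * c⁻¹) = 1 := by
      intro c hc v hv
      have hv1 : c * v * c⁻¹ ∈ T := hT.conj_mem v hv c
      have hv2 : c * (c * v * c⁻¹) * c⁻¹ ∈ T := hT.conj_mem _ hv1 c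
      have hc3 : c ^ 3 = 1 := by rw [← hc]; exact pow_orderOf_eq_one c
      have hv3 : c * (c * (c * v * c⁻¹) * c⁻¹) * c⁻¹ = v := by
        have : c * (c * (c * v * c⁻¹) * c⁻¹) * c⁻¹ = c ^ 3 * v * (c ^ 3)⁻¹ := by
          simp only [pow_succ, pow_zero, one_mul, mul_inv_rev, mul_assoc]
        rw [this, hc3]; simp
      by_contra hw
      have hwT : v * (c * v * c⁻¹) * (c * (c * v * c⁻¹) * c⁻¹) ∈ T := mul_mem (mul_mem hv hv1) hv2
      have how : orderOf (v * (c * v * c⁻¹) * (c * (c * v * c⁻¹) * c⁻¹)) = 2 :=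
        orderOf_eq_prime (by rw [pow_two]; exact hsq _ hwT) hw
      refine no_six h _ c how hc ?_
      have hconj : c * (v * (c * v * c⁻¹) * (c * (c * v * c⁻¹) * c⁻¹)) * c⁻¹ =
          v * (c * v * c⁻¹) * (c * (c * v * c⁻¹) * c⁻¹) := by
        calc c * (v * (c * v * c⁻¹) * (c * (c * v * c⁻¹) * c⁻¹)) * c⁻¹
            = (c * v * c⁻¹) * (c * (c * v * c⁻¹) * c⁻¹) * (c * (c * (c * v * c⁻¹) * c⁻¹) * c⁻¹) := by
              group
          _ = (c * v * c⁻¹) * (c * (c * v * c⁻¹) * c⁻¹) * v := by rw [hv3]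
          _ = v * ((c * v * c⁻¹) * (c * (c * v * c⁻¹) * c⁻¹)) :=
              comm_of_sq hsq _ _ (mul_mem hv1 hv2) hv
          _ = _ := by simp only [mul_assoc]
      have := mul_inv_eq_iff_eq_mul.mp hconj
      exact this.symm
    -- apply `key` on the subtype
    have hkey := key (V := T) (fun x => Subtype.ext (hsq x.1 x.2))
      (MulAut.conjNormal a : MulAut (T : Subgroup G)).toMonoidHom
      (MulAut.conjNormal b : MulAut (T : Subgroup G)).toMonoidHom
      (by
        intro v; apply Subtype.ext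
        simp only [MulEquiv.coe_toMonoidHom, MulAut.conjNormal_apply]
        have e := hAcomm a haA b hbA
        calc a * (b * v.1 * b⁻¹) * a⁻¹ = (a * b) * v.1 * (a * b)⁻¹ := by group
          _ = (b * a) * v.1 * (b * a)⁻¹ := by rw [e]
          _ = b * (a * v.1 * a⁻¹) * b⁻¹ := by group)
      (by
        intro v; apply Subtype.ext
        simpa only [MulEquiv.coe_toMonoidHom, Subgroup.coe_mul, MulAut.conjNormal_apply,
          Subgroup.coe_one] using hR a (hA3 a haA ha1) v.1 v.2)
      (by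
        intro v; apply Subtype.ext
        simpa only [MulEquiv.coe_toMonoidHom, Subgroup.coe_mul, MulAut.conjNormal_apply,
          Subgroup.coe_one] using hR b (hA3 b hbA hb1) v.1 v.2)
      (by
        intro v; apply Subtype.ext
        have := hR (a * b) (hA3 _ (mul_mem haA hbA) hab1) v.1 v.2
        simp only [MulEquiv.coe_toMonoidHom, Subgroup.coe_mul, MulAut.conjNormal_apply,
          Subgroup.coe_one]
        rw [← this]; group)
      ⟨t, htT⟩
    have hk : a * t * a⁻¹ = b * t * b⁻¹ := by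
      have := congrArg Subtype.val hkey
      simpa only [MulEquiv.coe_toMonoidHom, MulAut.conjNormal_apply] using this
    -- `b⁻¹ * a` commutes with `t`
    have hcm : Commute t (b⁻¹ * a) := by
      have : b⁻¹ * (a * t * a⁻¹) * a = b⁻¹ * (b * t * b⁻¹) * a := by rw [hk]
      have h2 : b⁻¹ * a * t = t * (b⁻¹ * a) := by simpa [mul_assoc] using this
      exact h2.symm
    have hne1 : b⁻¹ * a ≠ 1 := by
      intro hh
      apply hne
      have := inv_eq_of_mul_eq_one_left hh
      exact (inv_injective this).symm ▸ rfl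
    exact no_six h t _ ht (hA3 _ (mul_mem (inv_mem hbA) haA) hne1) hcm
  have : j = 1 := by omega
  rw [hj, this, pow_one]

/-- Case B: the Sylow 2-subgroup is not normal; then it has order two. -/
theorem caseB_card (h : Set.range (orderOf : G → ℕ) = {k : ℕ | 1 ≤ k ∧ k ≤ 3})
    (T : Sylow 2 G) (hT : ¬ (T : Subgroup G).Normal) :
    ∃ t0 : G, orderOf t0 = 2 ∧ Nat.card (T : Subgroup G) = 2 := by
  have hsq := sq_of_mem_sylow h T
  obtain ⟨g, hg⟩ : ∃ g : G, cj g (T : Subgroup G) ≠ T := by
    by_contra hcon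
    push Not at hcon
    apply hT
    rw [← Subgroup.normalizer_eq_top_iff, eq_top_iff]
    intro x _
    exact mem_normalizer_iff_cj.mpr (hcon x)
  have hT' : ((g • T : Sylow 2 G) : Subgroup G) = cj g T := sylow_smul_eq_cj g T
  have hdisj : ∀ s, s ∈ T → s ∈ cj g (T : Subgroup G) → s = 1 := by
    intro s hs hs'
    by_contra hs1
    have e1 := centralizer_eq h T s hs hs1
    have e2 := centralizer_eq h (g • T) s (by
      show s ∈ ((g • T : Sylow 2 G) : Subgroup G)
      rw [hT']; exact hs') hs1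
    apply hg
    rw [← hT', ← e2, e1]
  obtain ⟨t0, ht0T, ht01⟩ : ∃ t0 ∈ T, t0 ≠ 1 := by
    by_contra hcon
    push Not at hcon
    have : (T : Subgroup G) = ⊥ := (Subgroup.eq_bot_iff_forall _).mpr hcon
    apply hT; rw [this]; infer_instance
  have hot0 : orderOf t0 = 2 := orderOf_eq_prime (by rw [pow_two]; exact hsq t0 ht0T) ht01
  obtain ⟨t, ht⟩ : ∃ t, t = g * t0 * g⁻¹ := ⟨_, rfl⟩
  have htT' : t ∈ cj g (T : Subgroup G) := by rw [ht]; exact conj_mem_cj ht0T
  have ht1 : t ≠ 1 := by
    intro hh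
    rw [ht] at hh
    apply ht01
    have : g⁻¹ * (g * t0 * g⁻¹) * g = g⁻¹ * 1 * g := by rw [hh]
    simpa [mul_assoc] using this
  have htt : t * t = 1 := by
    rw [ht]
    calc g * t0 * g⁻¹ * (g * t0 * g⁻¹) = g * (t0 * t0) * g⁻¹ := by group
      _ = 1 := by rw [hsq t0 ht0T]; group
  have htT : t ∉ T := fun hh => ht1 (hdisj t hh htT')
  have hord : ∀ u ∈ T, u ≠ 1 → (u * t) ^ 3 = 1 := by
    intro u hu hu1
    have huu := hsq u hu
    rcases order_cases h (u * t) with h2 | h2 | h2
    · exfalso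
      have h3 := orderOf_eq_one_iff.mp h2
      apply htT
      rw [← inv_eq_of_mul_eq_one_right h3]; exact inv_mem hu
    · exfalso
      have h3 : (u * t) * (u * t) = 1 := by rw [← pow_two, ← h2]; exact pow_orderOf_eq_one _
      have h4 : t * u = u * t := by
        have : u * ((u * t) * (u * t)) * t = u * 1 * t := by rw [h3]
        have e : u * ((u * t) * (u * t)) * t = (u * u) * (t * u) * (t * t) := by
          simp only [mul_assoc]
        rw [e, huu, htt] at this
        simpa using this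
      have h5 : t ∈ Subgroup.centralizer ({u} : Set G) :=
        Subgroup.mem_centralizer_singleton_iff.mpr h4
      rw [centralizer_eq h T u hu hu1] at h5
      exact htT h5
    · rw [← h2]; exact pow_orderOf_eq_one _
  have huniq : ∀ s ∈ T, s ≠ 1 → s = t0 := by
    intro s hs hs1
    by_contra hne
    have hss' : s * t0 ≠ 1 := by
      intro hh
      apply hne
      have := inv_eq_of_mul_eq_one_left hh
      rw [inv_eq_of_mul_eq_one_left (hsq t0 ht0T)] at this
      exact this.symm
    have := cox s t0 t (hsq s hs) (hsq t0 ht0T) htt (comm_of_sq hsq s t0 hs ht0T)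
      (hord s hs hs1) (hord t0 ht0T ht01) (hord _ (mul_mem hs ht0T) hss')
    apply htT
    rw [this]; exact mul_mem hs ht0T
  refine ⟨t0, hot0, ?_⟩
  have : (T : Subgroup G) = Subgroup.zpowers t0 := by
    apply le_antisymm
    · intro x hx
      by_cases hx1 : x = 1
      · rw [hx1]; exact one_mem _
      · rw [huniq x hx hx1]; exact Subgroup.mem_zpowers _
    · rw [Subgroup.zpowers_le]; exact ht0T
  rw [this, Nat.card_zpowers, hot0]

theorem caseB (h : Set.range (orderOf : G → ℕ) = {k : ℕ | 1 ≤ k ∧ k ≤ 3})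
    (T : Sylow 2 G) (hT : ¬ (T : Subgroup G).Normal) (Q : Sylow 3 G) :
    (Q : Subgroup G).index = 2 ∧ ∀ x ∈ Q, ∀ y ∈ Q, x * y = y * x := by
  obtain ⟨t, hot, hcard⟩ := caseB_card h T hT
  have hidx : (Q : Subgroup G).index = 2 := by
    obtain ⟨i, hi⟩ := index_pow h 3 2 (Or.inr ⟨rfl, rfl⟩) Q
    have hv : (Nat.card G).factorization 2 = 1 := by
      have := T.card_eq_multiplicity
      rw [hcard] at this
      exact (Nat.pow_right_injective (le_refl 2) (by simpa using this)).symm
    have h1 : i ≤ 1 := by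
      rw [← hv]
      exact (Nat.Prime.pow_dvd_iff_le_factorization Nat.prime_two Nat.card_pos.ne').mp
        (hi ▸ Subgroup.index_dvd_card _)
    have h2 : i ≠ 0 := by
      rintro rfl
      rw [pow_zero, Subgroup.index_eq_one] at hi
      have h3 := cube_of_mem_sylow h Q t (by
        show t ∈ (Q : Subgroup G)
        rw [hi]; trivial)
      have := orderOf_dvd_of_pow_eq_one h3
      rw [hot] at this; omega
    have : i = 1 := by omega
    rw [hi, this, pow_one]
  refine ⟨hidx, ?_⟩
  have htt : t * t = 1 := by rw [← pow_two, ← hot]; exact pow_orderOf_eq_one t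
  have hti : t⁻¹ = t := inv_eq_of_mul_eq_one_left htt
  have htQ : t ∉ Q := by
    intro hh
    have := orderOf_dvd_of_pow_eq_one (cube_of_mem_sylow h Q t hh)
    rw [hot] at this; omega
  have hmem : ∀ y : G, y ^ 3 = 1 → y ∈ Q := by
    intro y hy
    have h1 : y ^ 2 ∈ (Q : Subgroup G) := Subgroup.sq_mem_of_index_two hidx y
    have h2 : y = (y ^ 2)⁻¹ := by
      apply eq_inv_of_mul_eq_one_left
      rw [← pow_succ']; exact hy
    rw [h2]; exact inv_mem h1
  have hinv : ∀ x ∈ Q, t * x * t⁻¹ = x⁻¹ := by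
    intro x hx
    have h1 : t * x ∉ Q := by
      intro hh
      apply htQ
      have : t = (t * x) * x⁻¹ := by group
      rw [this]; exact mul_mem hh (inv_mem hx)
    have h2 : (t * x) * (t * x) = 1 := by
      rcases order_cases h (t * x) with h2 | h2 | h2
      · rw [orderOf_eq_one_iff.mp h2]; simp
      · rw [← pow_two, ← h2]; exact pow_orderOf_eq_one _
      · exact absurd (hmem _ (by rw [← h2]; exact pow_orderOf_eq_one _)) h1
    rw [hti]
    apply eq_inv_of_mul_eq_one_left
    simpa [mul_assoc] using h2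
  intro x hx y hy
  have h1 := hinv (y * x) (mul_mem hy hx)
  have h2 : t * (y * x) * t⁻¹ = (t * y * t⁻¹) * (t * x * t⁻¹) := by group
  rw [h2, hinv x hx, hinv y hy, ← mul_inv_rev] at h1
  exact inv_injective h1

end main

/-- A finite group whose set of element orders is exactly {1, 2, 3} has either a normal elementary abelian 3-subgroup of index 2 or a normal elementary abelian 2-subgroup of index 3. -/
theorem result {G : Type*} [Group G] [Finite G] (h : Set.range (orderOf : G → ℕ) = {k : ℕ | 1 ≤ k ∧ k ≤ 3}) :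
    (∃ N : Subgroup G, N.Normal ∧ Cfsg.IsElementaryAbelian 3 N ∧ N.index = 2) ∨
      (∃ N : Subgroup G, N.Normal ∧ Cfsg.IsElementaryAbelian 2 N ∧ N.index = 3) := by
  obtain ⟨T⟩ : Nonempty (Sylow 2 G) := inferInstance
  obtain ⟨Q⟩ : Nonempty (Sylow 3 G) := inferInstance
  by_cases hT : (T : Subgroup G).Normal
  · right
    refine ⟨T, hT, ⟨⟨⟨fun a b => Subtype.ext ?_⟩⟩, ?_⟩, caseA h T hT⟩
    · exact comm_of_sq (sq_of_mem_sylow h T) a.1 b.1 a.2 b.2
    · intro a ha
      rw [pow_two]; exact sq_of_mem_sylow h T a ha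
  · left
    obtain ⟨hidx, hcomm⟩ := caseB h T hT Q
    refine ⟨Q, Subgroup.normal_of_index_eq_two hidx, ⟨⟨⟨fun a b => Subtype.ext ?_⟩⟩, ?_⟩, hidx⟩
    · exact hcomm a.1 a.2 b.1 b.2
    · intro a ha
      exact cube_of_mem_sylow h Q a ha

end Cfsg.Agent.S4005
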