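import Cfsg.Statements.S4198
-- import your own Cfsg.Agent.* helpers here
import Mathlib

set_option autoImplicit false
open Cfsg

namespace Cfsg.Agent.S4198


open Equiv.Perm

/-- possible cycle types in degree `n`. -/
def CT (n : ℕ) : Type := {m : Multiset ℕ // m.sum ≤ n ∧ ∀ a ∈ m, 2 ≤ a}

theorem CT_small (n : ℕ) (hn : n ≤ 1) (m : CT n) : m.1 = 0 := by
  by_contra h
  obtain ⟨a, ha⟩ := Multiset.exists_mem_of_ne_zero h
  have h1 := m.2.2 a ha
  have h2 : a ≤ m.1.sum := Multiset.single_le_sum (by simp) a ha
  have h3 := m.2.1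
  omega

instance CT_subsingleton0 : Subsingleton (CT 0) :=
  ⟨fun a b => Subtype.ext (by rw [CT_small 0 (by norm_num) a, CT_small 0 (by norm_num) b])⟩

instance CT_subsingleton1 : Subsingleton (CT 1) :=
  ⟨fun a b => Subtype.ext (by rw [CT_small 1 (by norm_num) a, CT_small 1 (by norm_num) b])⟩

open Classical in
/-- the injection giving the Fibonacci recursion. -/
noncomputable def CTstep (n : ℕ) (m : CT (n + 2)) : CT (n + 1) ⊕ CT n :=
  if h : m.1.sum ≤ n + 1 then Sum.inl ⟨m.1, h, m.2.2⟩
  else
    have hne : m.1 ≠ 0 := by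
      intro h0; rw [h0] at h; simp at h
    Sum.inr ⟨m.1.erase (Classical.choose (Multiset.exists_mem_of_ne_zero hne)), by
      have hM := Classical.choose_spec (Multiset.exists_mem_of_ne_zero hne)
      have h1 := Multiset.sum_erase hM
      have h2 := m.2.2 _ hM
      have h3 := m.2.1
      omega, fun a ha => m.2.2 a (Multiset.mem_of_mem_erase ha)⟩

theorem CTstep_injective (n : ℕ) : Function.Injective (CTstep n) := by
  intro m m' hmm
  unfold CTstep at hmm
  split_ifs at hmm with h1 h2 h2
  · have := Sum.inl.inj hmm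
    exact Subtype.ext (congrArg (fun x : CT (n + 1) => x.1) this)
  · have hne : m.1 ≠ 0 := by
      intro h0; rw [h0] at h1; simp at h1
    have hne' : m'.1 ≠ 0 := by
      intro h0; rw [h0] at h2; simp at h2
    have e := congrArg Subtype.val (Sum.inr.inj hmm)
    simp only at e
    have hM := Classical.choose_spec (Multiset.exists_mem_of_ne_zero hne)
    have hM' := Classical.choose_spec (Multiset.exists_mem_of_ne_zero hne')
    set M := Classical.choose (Multiset.exists_mem_of_ne_zero hne)
    set M' := Classical.choose (Multiset.exists_mem_of_ne_zero hne')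
    have s1 := Multiset.sum_erase hM
    have s2 := Multiset.sum_erase hM'
    have b1 := m.2.1
    have b2 := m'.2.1
    rw [e] at s1
    have hMM : M = M' := by omega
    apply Subtype.ext
    rw [← Multiset.cons_erase hM, ← Multiset.cons_erase hM', e, hMM]

theorem CT_finite : ∀ n, Finite (CT n) ∧ Finite (CT (n + 1)) := by
  intro n
  induction n with
  | zero => exact ⟨inferInstance, (inferInstance : Finite (CT 1))⟩
  | succ n ih =>
    obtain ⟨h1, h2⟩ := ih
    exact ⟨h2, Finite.of_injective _ (CTstep_injective n)⟩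

instance (n : ℕ) : Finite (CT n) := (CT_finite n).1

theorem CT_rec (n : ℕ) : Nat.card (CT (n + 2)) ≤ Nat.card (CT (n + 1)) + Nat.card (CT n) := by
  rw [← Nat.card_sum]
  exact Nat.card_le_card_of_injective _ (CTstep_injective n)

theorem CT_bound : ∀ n, Nat.card (CT (n + 5)) ≤ 2 ^ (n + 3) ∧ Nat.card (CT (n + 6)) ≤ 2 ^ (n + 4) := by
  intro n
  induction n with
  | zero =>
    have h0 : Nat.card (CT 0) ≤ 1 := Finite.card_le_one_iff_subsingleton.2 inferInstance
    have h1 : Nat.card (CT 1) ≤ 1 := Finite.card_le_one_iff_subsingleton.2 inferInstance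
    have h2 := CT_rec 0
    have h3 := CT_rec 1
    have h4 := CT_rec 2
    have h5 := CT_rec 3
    have h6 := CT_rec 4
    norm_num at h2 h3 h4 h5 h6 ⊢
    constructor <;> omega
  | succ n ih =>
    obtain ⟨h1, h2⟩ := ih
    refine ⟨h2, ?_⟩
    have h3 := CT_rec (n + 5)
    have e1 : 2 ^ (n + 1 + 4) = 2 * 2 ^ (n + 4) := by ring
    have e2 : 2 ^ (n + 4) = 2 * 2 ^ (n + 3) := by ring
    have e3 : n + 1 + 6 = n + 5 + 2 := by ring
    rw [e3, e1]
    have e4 : n + 5 + 1 = n + 6 := by ring
    rw [e4] at h3
    omega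

section classes
variable {n : ℕ}

/-- a representative of a class. -/
noncomputable def rep (c : ConjClasses (Equiv.Perm (Fin n))) : Equiv.Perm (Fin n) := Quotient.out c

theorem mk_rep (c : ConjClasses (Equiv.Perm (Fin n))) : ConjClasses.mk (rep c) = c :=
  Quotient.out_eq c

/-- cycle type of a class. -/
noncomputable def ct (c : ConjClasses (Equiv.Perm (Fin n))) : Multiset ℕ := (rep c).cycleType

theorem ct_injective : Function.Injective (ct (n := n)) := by
  intro c c' h
  rw [← mk_rep c, ← mk_rep c', ConjClasses.mk_eq_mk_iff_isConj, isConj_iff_cycleType_eq]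
  exact h

theorem ct_mk (g : Equiv.Perm (Fin n)) : ct (ConjClasses.mk g) = g.cycleType := by
  have := mk_rep (ConjClasses.mk g)
  rw [ConjClasses.mk_eq_mk_iff_isConj, isConj_iff_cycleType_eq] at this
  exact this

theorem card_classes_le : Nat.card (ConjClasses (Equiv.Perm (Fin n))) ≤ Nat.card (CT n) := by
  refine Nat.card_le_card_of_injective (fun c => (⟨ct c, ?_, ?_⟩ : CT n)) ?_
  · have := (rep c).sum_cycleType_le
    rw [Fintype.card_fin] at this
    exact this
  · intro a ha
    exact two_le_of_mem_cycleType ha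
  · intro c c' h
    exact ct_injective (congrArg Subtype.val h)

end classes

section index2
variable {X : Type*} [Group X] (Y : Subgroup X)

theorem fiber_mem [Y.Normal] (g : X) (d : ConjClasses Y)
    (hd : ConjClasses.map Y.subtype d = ConjClasses.mk g) : g ∈ Y := by
  obtain ⟨h, rfl⟩ := ConjClasses.mk_surjective d
  have h1 : ConjClasses.mk (h : X) = ConjClasses.mk g := hd
  rw [ConjClasses.mk_eq_mk_iff_isConj, isConj_iff] at h1
  obtain ⟨s, hs⟩ := h1
  rw [← hs]
  exact ‹Y.Normal›.conj_mem _ h.2 s

theorem fiber_two (hY : Y.index = 2) (g : X) (hg : g ∈ Y) (τ : X) (hτ : τ ∉ Y)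
    (hτg : τ * g * τ⁻¹ ∈ Y) (d : ConjClasses Y)
    (hd : ConjClasses.map Y.subtype d = ConjClasses.mk g) :
    d = ConjClasses.mk ⟨g, hg⟩ ∨ d = ConjClasses.mk ⟨τ * g * τ⁻¹, hτg⟩ := by
  obtain ⟨h, rfl⟩ := ConjClasses.mk_surjective d
  have h1 : ConjClasses.mk (h : X) = ConjClasses.mk g := hd
  rw [ConjClasses.mk_eq_mk_iff_isConj, isConj_iff] at h1
  obtain ⟨s, hs⟩ := h1
  by_cases hsY : s ∈ Y
  · left
    rw [ConjClasses.mk_eq_mk_iff_isConj, isConj_iff]
    exact ⟨⟨s, hsY⟩, Subtype.ext hs⟩
  · right
    have h2 : τ * s ∈ Y := (Subgroup.mul_mem_iff_of_index_two hY).2 (iff_of_false hτ hsY)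
    rw [ConjClasses.mk_eq_mk_iff_isConj, isConj_iff]
    refine ⟨⟨τ * s, h2⟩, Subtype.ext ?_⟩
    show τ * s * h * (τ * s)⁻¹ = τ * g * τ⁻¹
    rw [← hs]; group

theorem fiber_one (hY : Y.index = 2) (g : X) (hg : g ∈ Y) (z : X) (hz : z ∉ Y)
    (hzg : z * g * z⁻¹ = g) (d : ConjClasses Y)
    (hd : ConjClasses.map Y.subtype d = ConjClasses.mk g) :
    d = ConjClasses.mk ⟨g, hg⟩ := by
  rcases fiber_two Y hY g hg z hz (by rw [hzg]; exact hg) d hd with h | h
  · exact h
  · rw [h]; congr 1; exact Subtype.ext hzg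

end index2

section partA
variable {n : ℕ}

open Classical in
theorem fiber_card_le (hn : 2 ≤ n) (c : ConjClasses (Equiv.Perm (Fin n))) :
    (Finset.univ.filter (fun d : ConjClasses (alternatingGroup (Fin n)) =>
      ConjClasses.map (alternatingGroup (Fin n)).subtype d = c)).card ≤
    (if rep c ∈ alternatingGroup (Fin n) then 1 else 0) +
    (if rep c ∈ alternatingGroup (Fin n) ∧
      Subgroup.centralizer {rep c} ≤ alternatingGroup (Fin n) then 1 else 0) := by
  have : Nontrivial (Fin n) := Fin.nontrivial_iff_two_le.2 hn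
  have hidx : (alternatingGroup (Fin n)).index = 2 := alternatingGroup.index_eq_two
  by_cases h1 : rep c ∈ alternatingGroup (Fin n)
  · by_cases h2 : Subgroup.centralizer {rep c} ≤ alternatingGroup (Fin n)
    · rw [if_pos h1, if_pos ⟨h1, h2⟩]
      obtain ⟨τ, hτ⟩ : ∃ τ : Equiv.Perm (Fin n), τ ∉ alternatingGroup (Fin n) := by
        by_contra hcon
        push Not at hcon
        have : alternatingGroup (Fin n) = ⊤ := (Subgroup.eq_top_iff' _).2 hcon
        rw [this, Subgroup.index_top] at hidx
        omega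
      have hτg : τ * rep c * τ⁻¹ ∈ alternatingGroup (Fin n) :=
        (inferInstance : (alternatingGroup (Fin n)).Normal).conj_mem _ h1 τ
      refine le_trans (Finset.card_le_card (t := {ConjClasses.mk ⟨rep c, h1⟩,
        ConjClasses.mk ⟨τ * rep c * τ⁻¹, hτg⟩}) ?_) Finset.card_le_two
      intro d hd
      simp only [Finset.mem_filter, Finset.mem_univ, true_and] at hd
      simp only [Finset.mem_insert, Finset.mem_singleton]
      exact fiber_two _ hidx (rep c) h1 τ hτ hτg d (by rw [hd, mk_rep])
    · rw [if_pos h1, if_neg (fun h => h2 h.2)]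
      obtain ⟨z, hz, hzA⟩ := SetLike.not_le_iff_exists.1 h2
      have hzg : z * rep c * z⁻¹ = rep c := by
        rw [Subgroup.mem_centralizer_singleton_iff] at hz
        rw [hz]; group
      refine le_trans (Finset.card_le_card (t := {ConjClasses.mk ⟨rep c, h1⟩}) ?_)
        (by simp)
      intro d hd
      simp only [Finset.mem_filter, Finset.mem_univ, true_and] at hd
      simp only [Finset.mem_singleton]
      exact fiber_one _ hidx (rep c) h1 z hzA hzg d (by rw [hd, mk_rep])
  · rw [if_neg h1, if_neg (fun h => h1 h.1)]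
    simp only [add_zero, Nat.le_zero, Finset.card_eq_zero]
    rw [Finset.eq_empty_iff_forall_notMem]
    intro d hd
    simp only [Finset.mem_filter, Finset.mem_univ, true_and] at hd
    exact h1 (fiber_mem _ (rep c) d (by rw [hd, mk_rep]))

theorem mem_alt_iff (c : ConjClasses (Equiv.Perm (Fin n))) :
    rep c ∈ alternatingGroup (Fin n) ↔ (-1 : ℤˣ) ^ ((ct c).sum + Multiset.card (ct c)) = 1 := by
  rw [Equiv.Perm.mem_alternatingGroup, sign_of_cycleType]; rfl

open Classical in
theorem split_lt_odd (hn : 5 ≤ n) :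
    (Finset.univ.filter (fun c : ConjClasses (Equiv.Perm (Fin n)) =>
      rep c ∈ alternatingGroup (Fin n) ∧
        Subgroup.centralizer {rep c} ≤ alternatingGroup (Fin n))).card <
    (Finset.univ.filter (fun c : ConjClasses (Equiv.Perm (Fin n)) =>
      rep c ∉ alternatingGroup (Fin n))).card := by
  set c₀ : ConjClasses (Equiv.Perm (Fin n)) :=
    ConjClasses.mk (Equiv.swap (⟨0, by omega⟩ : Fin n) ⟨1, by omega⟩) with hc₀def
  have hc₀ : ct c₀ = {2} := by
    rw [hc₀def, ct_mk, ← isSwap_iff_cycleType]
    exact ⟨_, _, by simp [Fin.ext_iff], rfl⟩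
  have hc₀odd : rep c₀ ∉ alternatingGroup (Fin n) := by
    rw [mem_alt_iff, hc₀]
    decide
  have key : (Finset.univ.filter (fun c : ConjClasses (Equiv.Perm (Fin n)) =>
      rep c ∈ alternatingGroup (Fin n) ∧
        Subgroup.centralizer {rep c} ≤ alternatingGroup (Fin n))).card ≤
      ((Finset.univ.filter (fun c : ConjClasses (Equiv.Perm (Fin n)) =>
      rep c ∉ alternatingGroup (Fin n))).erase c₀).card := by
    apply Finset.card_le_card_of_forall_subsingleton
      (fun c c' => ∃ M ∈ ct c, ct c' = (M - 1) ::ₘ (ct c).erase M)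
    · intro c hc
      simp only [Finset.mem_filter, Finset.mem_univ, true_and] at hc
      obtain ⟨hcA, hcs⟩ := hc
      rw [centralizer_le_alternating_iff] at hcs
      obtain ⟨hodd, hsum, -⟩ := hcs
      rw [Fintype.card_fin] at hsum
      have hne : ct c ≠ 0 := by
        intro h0
        have : (rep c).cycleType = 0 := h0
        rw [this] at hsum
        simp at hsum
        omega
      obtain ⟨M, hM⟩ := Multiset.exists_mem_of_ne_zero hne
      have hM2 : 2 ≤ M := two_le_of_mem_cycleType hM
      have hMo : Odd M := hodd M hM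
      have hM3 : 3 ≤ M := by
        rcases hMo with ⟨k, hk⟩; omega
      have hs1 := Multiset.sum_erase hM
      have hle : (ct c).sum ≤ n := by
        have := (rep c).sum_cycleType_le
        rw [Fintype.card_fin] at this
        exact this
      obtain ⟨g', hg'⟩ := (Equiv.Perm.exists_with_cycleType_iff (Fin n)
        (m := (M - 1) ::ₘ (ct c).erase M)).2 ⟨by
          rw [Multiset.sum_cons, Fintype.card_fin]; omega, by
          intro a ha
          rcases Multiset.mem_cons.1 ha with rfl | ha
          · omega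
          · exact two_le_of_mem_cycleType (Multiset.mem_of_mem_erase ha)⟩
      have hct' : ct (ConjClasses.mk g') = (M - 1) ::ₘ (ct c).erase M := by rw [ct_mk, hg']
      refine ⟨ConjClasses.mk g', ?_, M, hM, hct'⟩
      simp only [Finset.mem_erase, Finset.mem_filter, Finset.mem_univ, true_and]
      constructor
      · intro h0
        rw [h0, hc₀] at hct'
        have := congrArg Multiset.sum hct'
        rw [Multiset.sum_cons, Multiset.sum_singleton] at this
        have hsum' : n ≤ (ct c).sum + 1 := hsum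
        omega
      · rw [mem_alt_iff, hct']
        rw [mem_alt_iff, ← Multiset.cons_erase hM] at hcA
        rw [Multiset.sum_cons, Multiset.card_cons] at hcA ⊢
        intro h1
        have e : M + ((ct c).erase M).sum + (Multiset.card ((ct c).erase M) + 1) =
            (M - 1 + ((ct c).erase M).sum + (Multiset.card ((ct c).erase M) + 1)) + 1 := by omega
        rw [e, pow_succ, h1] at hcA
        exact absurd hcA (by decide)
    · intro c' _ c₁ h₁ c₂ h₂
      simp only [Set.mem_ofPred_eq, Finset.mem_filter, Finset.mem_univ, true_and] at h₁ h₂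
      obtain ⟨⟨-, hs₁⟩, M₁, hM₁, e₁⟩ := h₁
      obtain ⟨⟨-, hs₂⟩, M₂, hM₂, e₂⟩ := h₂
      rw [centralizer_le_alternating_iff] at hs₁ hs₂
      have ho₁ : Odd M₁ := hs₁.1 M₁ hM₁
      have ho₂ : Odd M₂ := hs₂.1 M₂ hM₂
      have hMM : M₁ = M₂ := by
        have h3 : M₁ - 1 ∈ (M₂ - 1) ::ₘ (ct c₂).erase M₂ := by
          rw [← e₂, e₁]; exact Multiset.mem_cons_self _ _
        rcases Multiset.mem_cons.1 h3 with h4 | h4
        · rcases ho₁ with ⟨k₁, hk₁⟩
          rcases ho₂ with ⟨k₂, hk₂⟩
          omega
        · exfalso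
          have h5 : Odd (M₁ - 1) := hs₂.1 _ (Multiset.mem_of_mem_erase h4)
          rcases ho₁ with ⟨k₁, hk₁⟩
          rcases h5 with ⟨k₂, hk₂⟩
          omega
      subst hMM
      rw [e₁] at e₂
      have h6 := (Multiset.cons_inj_right _).1 e₂
      apply ct_injective
      rw [← Multiset.cons_erase hM₁, ← Multiset.cons_erase hM₂, h6]
  have hmem : c₀ ∈ Finset.univ.filter (fun c : ConjClasses (Equiv.Perm (Fin n)) =>
      rep c ∉ alternatingGroup (Fin n)) := by
    simp only [Finset.mem_filter, Finset.mem_univ, true_and]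
    exact hc₀odd
  rw [Finset.card_erase_of_mem hmem] at key
  have hpos := Finset.card_pos.2 ⟨c₀, hmem⟩
  omega

open Classical in
theorem partA (hn : 5 ≤ n) : Nat.card (ConjClasses (alternatingGroup (Fin n))) <
    Nat.card (ConjClasses (Equiv.Perm (Fin n))) := by
  rw [Nat.card_eq_fintype_card, Nat.card_eq_fintype_card]
  have h1 : Fintype.card (ConjClasses (alternatingGroup (Fin n))) =
      ∑ c : ConjClasses (Equiv.Perm (Fin n)),
        (Finset.univ.filter (fun d : ConjClasses (alternatingGroup (Fin n)) =>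
          ConjClasses.map (alternatingGroup (Fin n)).subtype d = c)).card := by
    rw [← Finset.card_univ]
    exact Finset.card_eq_sum_card_fiberwise (fun _ _ => Finset.mem_univ _)
  have h2 : Fintype.card (ConjClasses (Equiv.Perm (Fin n))) =
      ∑ c : ConjClasses (Equiv.Perm (Fin n)),
        ((if rep c ∈ alternatingGroup (Fin n) then 1 else 0) +
          (if rep c ∉ alternatingGroup (Fin n) then 1 else 0)) := by
    rw [← Finset.card_univ, Finset.card_eq_sum_ones]
    refine Finset.sum_congr rfl (fun c _ => ?_)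
    by_cases h : rep c ∈ alternatingGroup (Fin n) <;> simp [h]
  rw [h1, h2, Finset.sum_add_distrib]
  refine lt_of_le_of_lt (Finset.sum_le_sum (fun c _ => fiber_card_le (by omega) c)) ?_
  rw [Finset.sum_add_distrib]
  apply Nat.add_lt_add_left
  rw [← Finset.card_filter, ← Finset.card_filter]
  exact split_lt_odd hn

end partA


/-- For n ≥ 5 the alternating group of degree n has strictly fewer conjugacy classes than the symmetric group of degree n, and the symmetric group of degree n (whose classes correspond to the partitions of n) has at most 2^(n−2) conjugacy classes. -/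
theorem result (n : ℕ) (hn : 5 ≤ n) : Nat.card (ConjClasses (alternatingGroup (Fin n))) < Nat.card (ConjClasses (Equiv.Perm (Fin n))) ∧ Nat.card (ConjClasses (Equiv.Perm (Fin n))) ≤ 2 ^ (n - 2) := by
  refine ⟨partA hn, card_classes_le.trans ?_⟩
  obtain ⟨k, rfl⟩ : ∃ k, n = k + 5 := ⟨n - 5, by omega⟩
  exact (CT_bound k).1

end Cfsg.Agent.S4198
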