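import Cfsg.Statements.S4200
-- import your own Cfsg.Agent.* helpers here
import Mathlib

set_option autoImplicit false
open Cfsg

namespace Cfsg.Agent.S4200


open Finset in
open Classical in
theorem fiber_le {X : Type*} [Group X] [Fintype X] (Y : Subgroup X) (x : X) (q : X ⧸ Y) :
    ((univ.filter (fun c : X => x * c = c * x)).filter (fun c : X => (c : X ⧸ Y) = q)).card ≤
      (univ.filter (fun c : Y => x * (c : X) = c * x)).card := by
  rcases Finset.eq_empty_or_nonempty
    ((univ.filter (fun c : X => x * c = c * x)).filter (fun c : X => (c : X ⧸ Y) = q)) with h | ⟨c₀, h₀⟩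
  · rw [h]; simp
  · simp only [mem_filter, mem_univ, true_and] at h₀
    apply Finset.card_le_card_of_surjOn (fun c : Y => c₀ * (c : X))
    intro c hc
    simp only [coe_filter, mem_filter, mem_univ, true_and, Set.mem_ofPred_eq] at hc
    have hm : c₀⁻¹ * c ∈ Y := by
      rw [← QuotientGroup.eq, h₀.2, hc.2]
    refine ⟨⟨c₀⁻¹ * c, hm⟩, ?_, by simp⟩
    simp only [coe_filter, mem_univ, true_and, Set.mem_ofPred_eq]
    have h1 : x * c₀⁻¹ = c₀⁻¹ * x := by
      have := h₀.1
      calc x * c₀⁻¹ = c₀⁻¹ * (c₀ * x) * c₀⁻¹ := by group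
        _ = c₀⁻¹ * (x * c₀) * c₀⁻¹ := by rw [this]
        _ = c₀⁻¹ * x := by group
    calc x * (c₀⁻¹ * c) = (x * c₀⁻¹) * c := by group
      _ = c₀⁻¹ * (x * c) := by rw [h1]; group
      _ = c₀⁻¹ * c * x := by rw [hc.1]; group

open Finset in
open Classical in
theorem key {X : Type*} [Group X] [Fintype X] (Y : Subgroup X) (x : X) :
    (∑ c : X, if x * c = c * x then 1 else 0) ≤
      Y.index * ∑ c : Y, if x * (c : X) = c * x then 1 else 0 := by
  rw [← Finset.card_filter, ← Finset.card_filter]
  rw [Finset.card_eq_sum_card_fiberwise (f := fun c : X => (c : X ⧸ Y)) (t := univ)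
    (fun _ _ => by simp)]
  calc _ ≤ ∑ q : X ⧸ Y, (univ.filter (fun c : Y => x * (c : X) = c * x)).card :=
        Finset.sum_le_sum (fun q _ => fiber_le Y x q)
    _ = _ := by
      rw [Finset.sum_const, smul_eq_mul, Finset.card_univ, Subgroup.index_eq_card,
        Nat.card_eq_fintype_card]

open Finset in
open Classical in
theorem key_lt {X : Type*} [Group X] [Fintype X] (Y : Subgroup X) (x g : X) (hx : x ∈ Y)
    (hg : g⁻¹ * x * g ∉ Y) :
    (∑ c : X, if x * c = c * x then 1 else 0) <
      Y.index * ∑ c : Y, if x * (c : X) = c * x then 1 else 0 := by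
  rw [← Finset.card_filter, ← Finset.card_filter]
  rw [Finset.card_eq_sum_card_fiberwise (f := fun c : X => (c : X ⧸ Y)) (t := univ)
    (fun _ _ => by simp)]
  calc _ < ∑ q : X ⧸ Y, (univ.filter (fun c : Y => x * (c : X) = c * x)).card := by
        apply Finset.sum_lt_sum (fun q _ => fiber_le Y x q)
        refine ⟨(g : X ⧸ Y), mem_univ _, ?_⟩
        have h1 : ((univ.filter (fun c : X => x * c = c * x)).filter
            (fun c : X => (c : X ⧸ Y) = (g : X ⧸ Y))) = ∅ := by
          rw [Finset.eq_empty_iff_forall_notMem]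
          intro c hc
          simp only [mem_filter, mem_univ, true_and] at hc
          have h2 : c⁻¹ * g ∈ Y := QuotientGroup.eq.1 hc.2
          apply hg
          have h3 : g⁻¹ * x * g = (c⁻¹ * g)⁻¹ * x * (c⁻¹ * g) := by
            calc g⁻¹ * x * g = g⁻¹ * (x * c) * c⁻¹ * g := by group
              _ = g⁻¹ * (c * x) * c⁻¹ * g := by rw [hc.1]
              _ = _ := by group
          rw [h3]
          exact Y.mul_mem (Y.mul_mem (Y.inv_mem h2) hx) h2
        rw [h1, Finset.card_empty, Finset.card_pos]
        exact ⟨1, by simp⟩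
    _ = _ := by
      rw [Finset.sum_const, smul_eq_mul, Finset.card_univ, Subgroup.index_eq_card,
        Nat.card_eq_fintype_card]

open Finset in
open Classical in
theorem card_comm_sum (X : Type*) [Group X] [Fintype X] :
    Nat.card (ConjClasses X) * Nat.card X = ∑ x : X, ∑ c : X, if x * c = c * x then 1 else 0 := by
  rw [← card_comm_eq_card_conjClasses_mul_card, Nat.card_eq_fintype_card, Fintype.card_subtype,
    Finset.card_filter, Fintype.sum_prod_type]
  rfl

open Finset in
open Classical in
theorem main {X : Type*} [Group X] [Fintype X] (Y : Subgroup X) :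
    Nat.card (ConjClasses X) ≤ Y.index * Nat.card (ConjClasses Y) ∧
      (¬ Y.Normal → Nat.card (ConjClasses X) < Y.index * Nat.card (ConjClasses Y)) := by
  have hX := card_comm_sum X
  have hY := card_comm_sum Y
  have hY' : Nat.card (ConjClasses Y) * Nat.card Y =
      ∑ x : Y, ∑ c : Y, if (x : X) * (c : X) = c * x then 1 else 0 := by
    rw [hY]
    refine Finset.sum_congr rfl (fun x _ => Finset.sum_congr rfl (fun c _ => ?_))
    simp only [Subtype.ext_iff, Subgroup.coe_mul]
  have h1 : (∑ x : X, ∑ c : X, if x * c = c * x then 1 else 0) ≤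
      Y.index * ∑ c : Y, ∑ x : X, if (c : X) * x = x * c then 1 else 0 := by
    calc _ ≤ ∑ x : X, Y.index * ∑ c : Y, (if x * (c : X) = c * x then 1 else 0) :=
          Finset.sum_le_sum (fun x _ => key Y x)
      _ = Y.index * ∑ x : X, ∑ c : Y, (if x * (c : X) = c * x then 1 else 0) := by
          rw [Finset.mul_sum]
      _ = _ := by
          rw [Finset.sum_comm]
          congr 1
          refine Finset.sum_congr rfl (fun x _ => Finset.sum_congr rfl (fun c _ => ?_))
          simp only [eq_comm]
  have hc : Nat.card Y * Y.index = Nat.card X := Y.card_mul_index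
  have hpos : 0 < Nat.card X := Nat.card_pos
  have hi : 0 < Y.index := Nat.pos_of_ne_zero Subgroup.index_ne_zero_of_finite
  constructor
  · have h2 : (∑ c : Y, ∑ x : X, if (c : X) * x = x * c then 1 else 0) ≤
        Y.index * ∑ x : Y, ∑ c : Y, if (x : X) * (c : X) = c * x then 1 else 0 := by
      rw [Finset.mul_sum]
      exact Finset.sum_le_sum (fun x _ => key Y x)
    rw [← hX] at h1
    rw [← hY'] at h2
    have h3 : Nat.card (ConjClasses X) * Nat.card X ≤
        (Y.index * Nat.card (ConjClasses Y)) * Nat.card X := by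
      calc _ ≤ Y.index * (Y.index * (Nat.card (ConjClasses Y) * Nat.card Y)) :=
            h1.trans (Nat.mul_le_mul_left _ h2)
        _ = _ := by rw [← hc]; ring
    exact Nat.le_of_mul_le_mul_right h3 hpos
  · intro hn
    obtain ⟨y, hy, g, hg⟩ : ∃ y ∈ Y, ∃ g : X, g⁻¹ * y * g ∉ Y := by
      by_contra hcon
      push Not at hcon
      apply hn
      constructor
      intro y hy g
      have := hcon y hy g⁻¹
      rwa [inv_inv] at this
    have h2 : (∑ c : Y, ∑ x : X, if (c : X) * x = x * c then 1 else 0) <
        Y.index * ∑ x : Y, ∑ c : Y, if (x : X) * (c : X) = c * x then 1 else 0 := by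
      rw [Finset.mul_sum]
      exact Finset.sum_lt_sum (fun x _ => key Y x) ⟨⟨y, hy⟩, mem_univ _, key_lt Y y g hy hg⟩
    rw [← hX] at h1
    rw [← hY'] at h2
    have h3 : Nat.card (ConjClasses X) * Nat.card X <
        (Y.index * Nat.card (ConjClasses Y)) * Nat.card X := by
      calc _ ≤ Y.index * _ := h1
        _ < Y.index * (Y.index * (Nat.card (ConjClasses Y) * Nat.card Y)) :=
            Nat.mul_lt_mul_of_pos_left h2 hi
        _ = _ := by rw [← hc]; ring
    exact Nat.lt_of_mul_lt_mul_right h3

theorem first {X : Type*} [Group X] [Finite X] (Y : Subgroup X) :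
    Nat.card (ConjClasses Y) ≤ Y.index * Nat.card (ConjClasses X) := by
  have h1 : Nat.card { p : Y × Y // Commute p.1 p.2 } ≤ Nat.card { p : X × X // Commute p.1 p.2 } := by
    refine Nat.card_le_card_of_injective (fun p ↦ ⟨⟨p.1.1, p.1.2⟩, Subtype.ext_iff.mp p.2⟩) ?_
    exact fun p q h ↦ by simpa only [Subtype.ext_iff, Prod.ext_iff] using h
  rw [card_comm_eq_card_conjClasses_mul_card, card_comm_eq_card_conjClasses_mul_card,
    ← Y.card_mul_index] at h1
  have h2 : Nat.card (ConjClasses Y) * Nat.card Y ≤ (Y.index * Nat.card (ConjClasses X)) * Nat.card Y := by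
    calc _ ≤ _ := h1
      _ = _ := by ring
  exact Nat.le_of_mul_le_mul_right h2 Nat.card_pos


/-- Let Y be a subgroup of the finite group X, of index m. Then the numbers of conjugacy classes satisfy k(Y) ≤ m·k(X) and k(X) ≤ m·k(Y), and the second inequality is strict unless Y is normal in X. -/
theorem result {X : Type*} [Group X] [Finite X] (Y : Subgroup X) : Nat.card (ConjClasses Y) ≤ Y.index * Nat.card (ConjClasses X) ∧ Nat.card (ConjClasses X) ≤ Y.index * Nat.card (ConjClasses Y) ∧ (¬ Y.Normal → Nat.card (ConjClasses X) < Y.index * Nat.card (ConjClasses Y)) := by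
  have := Fintype.ofFinite X
  exact ⟨first Y, (main Y).1, (main Y).2⟩

end Cfsg.Agent.S4200
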