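import Cfsg.Statements.S4201
-- import your own Cfsg.Agent.* helpers here
import Mathlib

set_option autoImplicit false
open Cfsg

namespace Cfsg.Agent.S4201


open Finset in
open Classical in
theorem fiber_le {X : Type*} [Group X] [Fintype X] (Y : Subgroup X) (x : X) (q : X ⧸ Y) :
    ((univ.filter (fun c : X => x * c = c * x)).filter (fun c : X => (c : X ⧸ Y) = q)).card ≤
      (univ.filter (fun c : Y => x * (c : X) = c * x)).card := by
  rcases Finset.eq_empty_or_nonempty
    ((univ.filter (fun c : X => x * c = c * x)).filter (fun c : X => (c : X ⧸ Y) = q)) with h | ⟨c₀, h₀⟩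
  · rw [h]; simp
  · simp only [mem_filter, mem_univ, true_and] at h₀
    apply Finset.card_le_card_of_surjOn (fun c : Y => c₀ * (c : X))
    intro c hc
    simp only [coe_filter, mem_filter, mem_univ, true_and, Set.mem_ofPred_eq] at hc
    have hm : c₀⁻¹ * c ∈ Y := by
      rw [← QuotientGroup.eq, h₀.2, hc.2]
    refine ⟨⟨c₀⁻¹ * c, hm⟩, ?_, by simp⟩
    simp only [coe_filter, mem_univ, true_and, Set.mem_ofPred_eq]
    have h1 : x * c₀⁻¹ = c₀⁻¹ * x := by
      have := h₀.1
      calc x * c₀⁻¹ = c₀⁻¹ * (c₀ * x) * c₀⁻¹ := by group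
        _ = c₀⁻¹ * (x * c₀) * c₀⁻¹ := by rw [this]
        _ = c₀⁻¹ * x := by group
    calc x * (c₀⁻¹ * c) = (x * c₀⁻¹) * c := by group
      _ = c₀⁻¹ * (x * c) := by rw [h1]; group
      _ = c₀⁻¹ * c * x := by rw [hc.1]; group

open Finset in
open Classical in
theorem card_comm_sum (X : Type*) [Group X] [Fintype X] :
    Nat.card (ConjClasses X) * Nat.card X = ∑ x : X, ∑ c : X, if x * c = c * x then 1 else 0 := by
  rw [← card_comm_eq_card_conjClasses_mul_card, Nat.card_eq_fintype_card, Fintype.card_subtype,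
    Finset.card_filter, Fintype.sum_prod_type]
  rfl

open Finset in
open Classical in
theorem step1 {X : Type*} [Group X] [Fintype X] (N : Subgroup X) [N.Normal] (x : X) :
    (∑ c : X, if x * c = c * x then 1 else 0) ≤
      (∑ q : X ⧸ N, if (x : X ⧸ N) * q = q * x then 1 else 0) *
        ∑ c : N, if x * (c : X) = c * x then 1 else 0 := by
  rw [← Finset.card_filter (s := univ) (p := fun c : X => x * c = c * x),
    ← Finset.card_filter (s := univ) (p := fun c : N => x * (c : X) = c * x)]
  rw [Finset.card_eq_sum_card_fiberwise (f := fun c : X => (c : X ⧸ N)) (t := univ)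
    (fun _ _ => by simp)]
  rw [Finset.sum_mul]
  apply Finset.sum_le_sum
  intro q _
  split_ifs with h
  · rw [one_mul]; exact fiber_le N x q
  · rw [zero_mul, Nat.le_zero, Finset.card_eq_zero, Finset.eq_empty_iff_forall_notMem]
    intro c hc
    simp only [mem_filter, mem_univ, true_and] at hc
    apply h
    rw [← hc.2, ← QuotientGroup.mk_mul, hc.1]
    rfl

open Finset in
open Classical in
theorem step3 {X : Type*} [Group X] [Fintype X] (N : Subgroup X) [N.Normal] (q : X ⧸ N) :
    (∑ x ∈ univ.filter (fun x : X => (x : X ⧸ N) = q), ∑ c : N, if x * (c : X) = c * x then 1 else 0) ≤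
      ∑ n : N, ∑ c : N, if (n : X) * (c : X) = c * n then 1 else 0 := by
  rw [Finset.sum_comm]
  apply Finset.sum_le_sum
  intro n _
  rw [← Finset.card_filter, ← Finset.card_filter]
  refine le_trans (le_of_eq ?_) (fiber_le N (n : X) q)
  congr 1
  ext c
  simp only [mem_filter, mem_univ, true_and]
  constructor
  · rintro ⟨h1, h2⟩; exact ⟨h2.symm, h1⟩
  · rintro ⟨h1, h2⟩; exact ⟨h2, h1.symm⟩

open Finset in
open Classical in
theorem main {X : Type*} [Group X] [Fintype X] (N : Subgroup X) [N.Normal] :
    Nat.card (ConjClasses X) ≤ Nat.card (ConjClasses N) * Nat.card (ConjClasses (X ⧸ N)) := by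
  have hX := card_comm_sum X
  have hN := card_comm_sum N
  have hQ : Nat.card (ConjClasses (X ⧸ N)) * Nat.card (X ⧸ N) =
      ∑ q : X ⧸ N, ∑ q' : X ⧸ N, if q * q' = q' * q then 1 else 0 := by
    convert card_comm_sum (X ⧸ N)
  have hN' : Nat.card (ConjClasses N) * Nat.card N =
      ∑ x : N, ∑ c : N, if (x : X) * (c : X) = c * x then 1 else 0 := by
    rw [hN]
    refine Finset.sum_congr rfl (fun x _ => Finset.sum_congr rfl (fun c _ => ?_))
    simp only [Subtype.ext_iff, Subgroup.coe_mul]
  have h1 : (∑ x : X, ∑ c : X, if x * c = c * x then 1 else 0) ≤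
      (∑ q : X ⧸ N, ∑ q' : X ⧸ N, if q * q' = q' * q then 1 else 0) *
        ∑ n : N, ∑ c : N, if (n : X) * (c : X) = c * n then 1 else 0 := by
    calc _ ≤ ∑ x : X, (∑ q : X ⧸ N, if (x : X ⧸ N) * q = q * x then 1 else 0) *
          ∑ c : N, (if x * (c : X) = c * x then 1 else 0) :=
          Finset.sum_le_sum (fun x _ => step1 N x)
      _ = ∑ q : X ⧸ N, ∑ x ∈ univ.filter (fun x : X => (x : X ⧸ N) = q),
          (∑ q : X ⧸ N, if (x : X ⧸ N) * q = q * x then 1 else 0) *
          ∑ c : N, (if x * (c : X) = c * x then 1 else 0) := by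
          rw [Finset.sum_fiberwise]
      _ = ∑ q : X ⧸ N, (∑ q' : X ⧸ N, if q * q' = q' * q then 1 else 0) *
          ∑ x ∈ univ.filter (fun x : X => (x : X ⧸ N) = q),
          ∑ c : N, (if x * (c : X) = c * x then 1 else 0) := by
          refine Finset.sum_congr rfl (fun q _ => ?_)
          rw [Finset.mul_sum]
          refine Finset.sum_congr rfl (fun x hx => ?_)
          simp only [mem_filter, mem_univ, true_and] at hx
          rw [hx]
      _ ≤ ∑ q : X ⧸ N, (∑ q' : X ⧸ N, if q * q' = q' * q then 1 else 0) *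
          ∑ n : N, ∑ c : N, (if (n : X) * (c : X) = c * n then 1 else 0) :=
          Finset.sum_le_sum (fun q _ => Nat.mul_le_mul_left _ (step3 N q))
      _ = _ := by rw [Finset.sum_mul]
  rw [← hX, ← hQ, ← hN'] at h1
  have hc : Nat.card N * Nat.card (X ⧸ N) = Nat.card X := by
    rw [← Subgroup.index_eq_card]; exact N.card_mul_index
  have h3 : Nat.card (ConjClasses X) * Nat.card X ≤
      (Nat.card (ConjClasses N) * Nat.card (ConjClasses (X ⧸ N))) * Nat.card X := by
    calc _ ≤ _ := h1
      _ = _ := by rw [← hc]; ring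
  exact Nat.le_of_mul_le_mul_right h3 Nat.card_pos


/-- If N is a normal subgroup of the finite group X then k(X) ≤ k(N)·k(X ⧸ N), where k denotes the number of conjugacy classes. -/
theorem result {X : Type*} [Group X] [Finite X] (N : Subgroup X) [N.Normal] : Nat.card (ConjClasses X) ≤ Nat.card (ConjClasses N) * Nat.card (ConjClasses (X ⧸ N)) := by
  have := Fintype.ofFinite X
  exact main N

end Cfsg.Agent.S4201
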