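import Cfsg.Statements.S4203
-- import your own Cfsg.Agent.* helpers here
import Cfsg.Agent.S0144

set_option autoImplicit false
open Cfsg

namespace Cfsg.Agent.S4203


universe u

/-- If `M` contains the normalizer of a Sylow `p`-subgroup then `[G:M] ≡ 1 mod p`. -/
theorem index_modEq_one {G : Type u} [Group G] [Finite G] {p : ℕ} [Fact p.Prime]
    (P : Sylow p G) (M : Subgroup G) (hM : Subgroup.normalizer ((P : Subgroup G) : Set G) ≤ M) :
    M.index ≡ 1 [MOD p] := by
  have hPM : (P : Subgroup G) ≤ M := Subgroup.le_normalizer.trans hM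
  have h1 : Nat.card (Sylow p G) = (Subgroup.normalizer ((P : Subgroup G) : Set G)).index :=
    Sylow.card_eq_index_normalizer P
  have h2 : Nat.card (Sylow p M) =
      (Subgroup.normalizer (((P.subtype hPM : Sylow p M) : Subgroup M) : Set M)).index :=
    Sylow.card_eq_index_normalizer (P.subtype hPM)
  rw [Sylow.coe_subtype, ← Subgroup.subgroupOf_normalizer_eq hPM] at h2
  have h3 : (Subgroup.normalizer ((P : Subgroup G) : Set G)).relIndex M * M.index =
      (Subgroup.normalizer ((P : Subgroup G) : Set G)).index :=
    Subgroup.relIndex_mul_index hM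
  have h4 : Nat.card (Sylow p G) ≡ 1 [MOD p] := card_sylow_modEq_one p G
  have h5 : Nat.card (Sylow p M) ≡ 1 [MOD p] := card_sylow_modEq_one p M
  have h6 : Nat.card (Sylow p M) * M.index = Nat.card (Sylow p G) := by
    rw [h1, h2]; exact h3
  have h7 : Nat.card (Sylow p M) * M.index ≡ 1 * M.index [MOD p] := h5.mul_right _
  rw [h6, one_mul] at h7
  exact h7.symm.trans h4

theorem arith {p q : ℕ} (hp : p.Prime) (hq : q.Prime) (hqp : q ≤ p)
    (n : ℕ) (hn : n = q ∨ n = q ^ 2) (h1 : n ≡ 1 [MOD p]) : p = 3 := by
  have hq2 := hq.two_le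
  rcases hn with rfl | rfl
  · exfalso
    have := (Nat.modEq_iff_dvd' (by omega : 1 ≤ n)).1 h1.symm
    have := Nat.le_of_dvd (by omega) this
    omega
  · have h2 : p ∣ q ^ 2 - 1 := (Nat.modEq_iff_dvd' (Nat.one_le_pow _ _ (by omega))).1 h1.symm
    have h3 : q ^ 2 - 1 = (q - 1) * (q + 1) := by
      obtain ⟨k, rfl⟩ : ∃ k, q = k + 1 := ⟨q - 1, by omega⟩
      simp only [Nat.add_sub_cancel]
      have : (k + 1) ^ 2 = k * (k + 1 + 1) + 1 := by ring
      omega
    rw [h3] at h2
    rcases (Nat.Prime.dvd_mul hp).1 h2 with h4 | h4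
    · exfalso
      have := Nat.le_of_dvd (by omega) h4
      omega
    · have h5 := Nat.le_of_dvd (by omega) h4
      rcases Nat.lt_or_ge q p with h6 | h6
      · have h7 : p = q + 1 := by omega
        subst h7
        rcases hq.eq_two_or_odd' with rfl | hodd
        · rfl
        · exfalso
          rcases hp.eq_two_or_odd' with h8 | h8
          · omega
          · rcases hodd with ⟨a, ha⟩
            rcases h8 with ⟨b, hb⟩
            omega
      · exfalso
        have h7 : p = q := by omega
        subst h7
        have : p ∣ 1 := (Nat.dvd_add_right (dvd_refl p)).1 h4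
        have := Nat.le_of_dvd (by omega) this
        omega

theorem card_eq_of_max {n : ℕ} (hn : n ≠ 0) (h : ∀ r ∈ n.primeFactors, r ≤ 3) :
    n = 2 ^ (n.factorization 2) * 3 ^ (n.factorization 3) := by
  have h1 : n.primeFactors ⊆ {2, 3} := by
    intro r hr
    have h2 := h r hr
    have h3 := (Nat.prime_of_mem_primeFactors hr)
    have h4 := h3.two_le
    simp only [Finset.mem_insert, Finset.mem_singleton]
    omega
  have h2 : ∏ r ∈ n.primeFactors, r ^ n.factorization r = ∏ r ∈ ({2, 3} : Finset ℕ), r ^ n.factorization r := by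
    apply Finset.prod_subset h1
    intro r _ hr
    have : n.factorization r = 0 := by
      rw [← Finsupp.notMem_support_iff, Nat.support_factorization]
      exact hr
    rw [this, pow_zero]
  have h3 : ∏ r ∈ n.primeFactors, r ^ n.factorization r = n := by
    have := Nat.prod_factorization_pow_eq_self hn
    rw [Finsupp.prod, Nat.support_factorization] at this
    exact this
  rw [h3] at h2
  rw [Finset.prod_pair (by norm_num)] at h2
  exact h2

theorem aux : ∀ (n : ℕ) (G : Type u) [Group G] [Finite G], Nat.card G = n →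
    (∀ M : Subgroup G, IsCoatom M → ∃ p : ℕ, p.Prime ∧ (M.index = p ∨ M.index = p ^ 2)) →
    Group.IsSolvable G := by
  intro n
  induction n using Nat.strong_induction_on with
  | _ n ih =>
  intro G _ _ hn h
  by_cases h1 : Nat.card G = 1
  · have : Subsingleton G := (Nat.card_eq_one_iff_unique.1 h1).1
    infer_instance
  have hne : (Nat.card G).primeFactors.Nonempty := by
    rw [Nat.nonempty_primeFactors]
    have := Nat.card_pos (α := G)
    omega
  set p := (Nat.card G).primeFactors.max' hne with hp
  have hpm : p ∈ (Nat.card G).primeFactors := Finset.max'_mem _ _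
  have hpp : p.Prime := Nat.prime_of_mem_primeFactors hpm
  have hpd : p ∣ Nat.card G := Nat.dvd_of_mem_primeFactors hpm
  have : Fact p.Prime := ⟨hpp⟩
  obtain ⟨P⟩ : Nonempty (Sylow p G) := inferInstance
  have hPne : (P : Subgroup G) ≠ ⊥ := Sylow.ne_bot_of_dvd_card P hpd
  by_cases hN : (P : Subgroup G).Normal
  · rw [Group.isSolvable_iff_subgroup_quotient (P : Subgroup G)]
    constructor
    · have : Group.IsNilpotent (P : Subgroup G) := P.isPGroup'.isNilpotent
      infer_instance
    · apply ih (Nat.card (G ⧸ (P : Subgroup G))) _ _ rfl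
      · intro M hM
        have h2 := h _ (Subgroup.isCoatom_comap_of_surjective (QuotientGroup.mk'_surjective (P : Subgroup G)) hM)
        rwa [Subgroup.index_comap_of_surjective _ (QuotientGroup.mk'_surjective (P : Subgroup G))] at h2
      · rw [← hn, ← Subgroup.index_eq_card]
        have h3 := Subgroup.card_mul_index (P : Subgroup G)
        have h4 : 1 < Nat.card (P : Subgroup G) := by
          rw [Subgroup.one_lt_card_iff_ne_bot]; exact hPne
        have h5 : 0 < (P : Subgroup G).index := Nat.pos_of_ne_zero Subgroup.index_ne_zero_of_finite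
        nlinarith
  · have hnt : Subgroup.normalizer ((P : Subgroup G) : Set G) ≠ ⊤ := by
      intro h2
      exact hN (Subgroup.normalizer_eq_top_iff.1 h2)
    obtain ⟨M, hM, hNM⟩ := (eq_top_or_exists_le_coatom _).resolve_left hnt
    obtain ⟨q, hq, hqi⟩ := h M hM
    have h2 := index_modEq_one P M hNM
    have hqd : q ∣ Nat.card G := by
      have h3 : M.index ∣ Nat.card G := Subgroup.index_dvd_card M
      rcases hqi with h4 | h4
      · rwa [h4] at h3
      · rw [h4] at h3
        exact (dvd_pow_self q (by norm_num)).trans h3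
    have hqp : q ≤ p := Finset.le_max' _ _ (by
      rw [Nat.mem_primeFactors]
      exact ⟨hq, hqd, Nat.card_pos.ne'⟩)
    have hp3 : p = 3 := arith hpp hq hqp _ hqi h2
    have h3 := card_eq_of_max (n := Nat.card G) Nat.card_pos.ne' (by
      intro r hr
      rw [← hp3]
      exact Finset.le_max' _ _ hr)
    exact Cfsg.Agent.S0144.result 2 3 _ _ Nat.prime_two Nat.prime_three h3


/-- A finite group in which every maximal subgroup has index a prime or the square of a prime is solvable. -/
theorem result {G : Type*} [Group G] [Finite G] (h : ∀ M : Subgroup G, IsCoatom M → ∃ p : ℕ, p.Prime ∧ (M.index = p ∨ M.index = p ^ 2)) : Group.IsSolvable G := by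
  exact aux _ G rfl h

end Cfsg.Agent.S4203
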