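import Cfsg.Statements.S4204
-- import your own Cfsg.Agent.* helpers here

set_option autoImplicit false
open Cfsg

namespace Cfsg.Agent.S4204

/-- Extended lower central series: `⊤, H, [H,H], ...`. -/
def ext {G : Type*} [Group G] (H : Subgroup G) : ℕ → Subgroup G
  | 0 => ⊤
  | (i + 1) => H.lowerCentralSeries i

instance ext_normal {G : Type*} [Group G] (H : Subgroup G) [H.Normal] (i : ℕ) :
    (ext H i).Normal := by
  cases i with
  | zero => exact inferInstanceAs (⊤ : Subgroup G).Normal
  | succ i => exact inferInstanceAs (H.lowerCentralSeries i).Normal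

theorem ext_comm_le {G : Type*} [Group G] (H : Subgroup G) [H.Normal] (i : ℕ) :
    ⁅ext H i, H⁆ ≤ ext H (i + 1) := by
  cases i with
  | zero => exact Subgroup.commutator_le_right _ _
  | succ i => exact le_rfl

theorem ext_eq_bot {G : Type*} [Group G] (H : Subgroup G) (c i : ℕ)
    (hH : H.lowerCentralSeries c = ⊥) (hi : c + 1 ≤ i) : ext H i = ⊥ := by
  obtain ⟨k, rfl⟩ := Nat.exists_eq_add_of_le hi
  have h1 : ext H (c + 1 + k) = H.lowerCentralSeries (c + k) := by
    have : c + 1 + k = (c + k) + 1 := by omega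
    rw [this]; rfl
  rw [h1, eq_bot_iff, ← hH]
  exact H.lowerCentralSeries_antitone (Nat.le_add_right c k)

theorem comm_le_iff {G : Type*} [Group G] (X Y T : Subgroup G) [T.Normal] :
    ⁅X, Y⁆ ≤ T ↔ X ≤ (Subgroup.centralizer
      ((Y.map (QuotientGroup.mk' T) : Subgroup (G ⧸ T)) : Set (G ⧸ T))).comap
        (QuotientGroup.mk' T) := by
  rw [← Subgroup.map_le_iff_le_comap, ← Subgroup.commutator_eq_bot_iff_le_centralizer,
    ← Subgroup.map_commutator, Subgroup.map_eq_bot_iff, QuotientGroup.ker_mk']

theorem comm_sup_le {G : Type*} [Group G] (X₁ X₂ Y T : Subgroup G) [T.Normal]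
    (h1 : ⁅X₁, Y⁆ ≤ T) (h2 : ⁅X₂, Y⁆ ≤ T) : ⁅X₁ ⊔ X₂, Y⁆ ≤ T := by
  rw [comm_le_iff] at *
  exact sup_le h1 h2

/-- The bounding series. -/
def bnd {G : Type*} [Group G] (H K : Subgroup G) (n : ℕ) : Subgroup G :=
  ⨆ (i : ℕ) (j : ℕ) (_ : i + j = n + 1), ext H i ⊓ ext K j

instance bnd_normal {G : Type*} [Group G] (H K : Subgroup G) [H.Normal] [K.Normal] (n : ℕ) :
    (bnd H K n).Normal := by
  unfold bnd
  infer_instance

theorem le_bnd {G : Type*} [Group G] (H K : Subgroup G) (n i j : ℕ) (h : i + j = n + 1) :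
    ext H i ⊓ ext K j ≤ bnd H K n := by
  unfold bnd
  exact le_iSup_of_le i (le_iSup_of_le j (le_iSup_of_le h le_rfl))

theorem bnd_le {G : Type*} [Group G] (H K X : Subgroup G) (n : ℕ)
    (h : ∀ i j : ℕ, i + j = n + 1 → ext H i ⊓ ext K j ≤ X) : bnd H K n ≤ X := by
  unfold bnd
  exact iSup_le fun i => iSup_le fun j => iSup_le fun hij => h i j hij

theorem lcs_le_bnd {G : Type*} [Group G] (H K : Subgroup G) [H.Normal] [K.Normal] (n : ℕ) :
    (H ⊔ K).lowerCentralSeries n ≤ bnd H K n := by
  induction n with
  | zero =>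
    rw [Subgroup.lowerCentralSeries_zero]
    apply sup_le
    · have := le_bnd H K 0 1 0 rfl
      simpa [ext] using this
    · have := le_bnd H K 0 0 1 rfl
      simpa [ext] using this
  | succ n ih =>
    rw [Subgroup.lowerCentralSeries_succ]
    refine (Subgroup.commutator_mono ih le_rfl).trans ?_
    rw [comm_le_iff]
    refine bnd_le H K _ n fun i j h => ?_
    rw [← comm_le_iff, Subgroup.commutator_comm]
    apply comm_sup_le
    · rw [Subgroup.commutator_comm]
      refine le_trans ?_ (le_bnd H K (n + 1) (i + 1) j (by omega))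
      apply le_inf
      · exact (Subgroup.commutator_mono inf_le_left le_rfl).trans (ext_comm_le H i)
      · exact (Subgroup.commutator_mono inf_le_right le_rfl).trans (Subgroup.commutator_le_left _ _)
    · rw [Subgroup.commutator_comm]
      refine le_trans ?_ (le_bnd H K (n + 1) i (j + 1) (by omega))
      apply le_inf
      · exact (Subgroup.commutator_mono inf_le_left le_rfl).trans (Subgroup.commutator_le_left _ _)
      · exact (Subgroup.commutator_mono inf_le_right le_rfl).trans (ext_comm_le K j)


/-- If `H` and `K` are normal subgroups of a finite group with `H` nilpotent of class at most `c` and `K` nilpotent of class at most `d` (the terms with index `c`, respectively `d`, of their lower central series are trivial, indices starting at `0`), then `HK` is nilpotent of class at most `c + d`. -/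
theorem result {G : Type*} [Group G] [Finite G] (H K : Subgroup G) [H.Normal] [K.Normal] (c d : ℕ) (hH : H.lowerCentralSeries c = ⊥) (hK : K.lowerCentralSeries d = ⊥) : (H ⊔ K).lowerCentralSeries (c + d) = ⊥ := by
  rw [eq_bot_iff]
  refine (lcs_le_bnd H K (c + d)).trans ?_
  refine bnd_le H K _ (c + d) fun i j h => ?_
  by_cases hi : c + 1 ≤ i
  · rw [ext_eq_bot H c i hH hi]; exact inf_le_left
  · rw [ext_eq_bot K d j hK (by omega)]; exact inf_le_right

end Cfsg.Agent.S4204
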