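import Cfsg.Statements.S4205
-- import your own Cfsg.Agent.* helpers here

set_option autoImplicit false
open Cfsg

namespace Cfsg.Agent.S4205

/-- In a finite group whose upper central series reaches the whole group at step `c` (nilpotent of class at most `c`), starting from any subgroup and taking normalizers `c` times reaches the whole group. -/
theorem result {G : Type*} [Group G] [Finite G] (c : ℕ) (hG : Subgroup.upperCentralSeries G c = ⊤) (H : Subgroup G) : (fun K : Subgroup G => Subgroup.normalizer (K : Set G))^[c] H = ⊤ := by
  have key : ∀ i : ℕ, Subgroup.upperCentralSeries G i ≤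
      (fun K : Subgroup G => Subgroup.normalizer (K : Set G))^[i] H := by
    intro i
    induction i with
    | zero => simp
    | succ i ih =>
      rw [Function.iterate_succ_apply']
      set K := (fun K : Subgroup G => Subgroup.normalizer (K : Set G))^[i] H with hK
      have aux : ∀ z ∈ Subgroup.upperCentralSeries G (i + 1), ∀ h ∈ K, z * h * z⁻¹ ∈ K := by
        intro z hz h hh
        have h1 : z * h * z⁻¹ * h⁻¹ ∈ K := ih (Subgroup.mem_upperCentralSeries_succ_iff.mp hz h)
        have h2 : z * h * z⁻¹ = (z * h * z⁻¹ * h⁻¹) * h := by
          simp
        rw [h2]
        exact K.mul_mem h1 hh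
      intro z hz
      show z ∈ Subgroup.normalizer (K : Set G)
      rw [Subgroup.mem_normalizer_iff]
      intro h
      constructor
      · exact aux z hz h
      · intro hh
        have := aux z⁻¹ (Subgroup.inv_mem _ hz) _ hh
        simpa [mul_assoc] using this
  exact top_le_iff.mp (hG ▸ key c)

end Cfsg.Agent.S4205
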