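import Cfsg.Statements.S4206
-- import your own Cfsg.Agent.* helpers here
import Cfsg.Agent.Lib.Helper73Comm

set_option autoImplicit false
open Cfsg

namespace Cfsg.Agent.S4206

/-- Let `H 0 ≥ H 1 ≥ H 2 ≥ ⋯` be normal subgroups of a finite group and `L` a subgroup with `⁅H i, L⁆ ≤ H (i+1)` for all `i`. Then `⁅H i, γ⁆ ≤ H (i + j + 1)` where `γ` is the `j`-th term of the lower central series of `L` (indexed from `0`, so the term with index `j` is the `(j+1)`-fold commutator). -/
theorem result {G : Type*} [Group G] [Finite G] (H : ℕ → Subgroup G) (hN : ∀ i, (H i).Normal) (hdesc : ∀ i, H (i + 1) ≤ H i) (L : Subgroup G) (hL : ∀ i, ⁅H i, L⁆ ≤ H (i + 1)) (i j : ℕ) : ⁅H i, L.lowerCentralSeries j⁆ ≤ H (i + j + 1) := by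
  induction j generalizing i with
  | zero => exact hL i
  | succ j ih =>
    haveI := hN (i + (j + 1) + 1)
    rw [Subgroup.lowerCentralSeries_succ, Subgroup.commutator_comm]
    apply Cfsg.Agent.Lib.Helper73Comm.three_subgroups_le
    · have h1 : ⁅L, H i⁆ ≤ H (i + 1) := by
        rw [Subgroup.commutator_comm]; exact hL i
      have h2 := ih (i + 1)
      have h3 : i + 1 + j + 1 = i + (j + 1) + 1 := by omega
      rw [h3] at h2
      exact (Subgroup.commutator_mono h1 le_rfl).trans h2
    · have h1 := ih i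
      exact (Subgroup.commutator_mono h1 le_rfl).trans (hL (i + j + 1))

end Cfsg.Agent.S4206
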