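import Cfsg.Statements.S4211
-- import your own Cfsg.Agent.* helpers here
import Mathlib
import Cfsg.Agent.Lib.Helper3Class2
import Cfsg.Agent.Lib.Helper41Dic

set_option autoImplicit false
open Cfsg

namespace Cfsg.Agent.S4211


open scoped commutatorElement
open Cfsg.Agent.Lib.Helper3Class2 Cfsg.Agent.Lib.Helper41Dic

universe u

/-- all subgroups are normal. -/
def Ded (G : Type u) [Group G] : Prop := ∀ H : Subgroup G, H.Normal

section part1
variable {G : Type u} [Group G]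

theorem comm_mem_left (hn : Ded G) (x y : G) : ⁅y, x⁆ ∈ Subgroup.zpowers x := by
  have h1 : y * x * y⁻¹ ∈ Subgroup.zpowers x := (hn _).conj_mem x (Subgroup.mem_zpowers x) y
  rw [commutatorElement_def]
  exact Subgroup.mul_mem _ h1 (Subgroup.inv_mem _ (Subgroup.mem_zpowers x))

theorem comm_mem_right (hn : Ded G) (x y : G) : ⁅y, x⁆ ∈ Subgroup.zpowers y := by
  have h1 : x * y⁻¹ * x⁻¹ ∈ Subgroup.zpowers y :=
    (hn _).conj_mem _ (Subgroup.inv_mem _ (Subgroup.mem_zpowers y)) x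
  have : ⁅y, x⁆ = y * (x * y⁻¹ * x⁻¹) := by rw [commutatorElement_def]; group
  rw [this]
  exact Subgroup.mul_mem _ (Subgroup.mem_zpowers y) h1

theorem commute_of_mem_zpowers {x c y : G} (h : c ∈ Subgroup.zpowers x) (hxy : Commute x y) :
    Commute c y := by
  obtain ⟨k, rfl⟩ := Subgroup.mem_zpowers_iff.1 h
  exact hxy.zpow_left k

/-- a non-commuting pair with minimal sum of orders. -/
structure MinPair (x y : G) : Prop where
  ne : x * y ≠ y * x
  min : ∀ x' y' : G, x' * y' ≠ y' * x' → orderOf x + orderOf y ≤ orderOf x' + orderOf y'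

theorem MinPair.symm {x y : G} (h : MinPair x y) : MinPair y x :=
  ⟨h.ne.symm, fun x' y' h' => by rw [add_comm]; exact h.min x' y' h'⟩

theorem order_comm [Finite G] (hn : Ded G) {x y : G} (h : MinPair x y) (p : ℕ) (hp : p.Prime)
    (hpx : p ∣ orderOf x) : orderOf ⁅y, x⁆ = p := by
  have hcx : Commute ⁅y, x⁆ x := commute_of_mem_zpowers (comm_mem_left hn x y) (Commute.refl x)
  have h1 : orderOf (x ^ p) < orderOf x := by
    rw [orderOf_pow_of_dvd hp.ne_zero hpx]
    exact Nat.div_lt_self (orderOf_pos x) hp.one_lt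
  have h2 : x ^ p * y = y * x ^ p := by
    by_contra hne
    have := h.min _ _ hne
    omega
  have h3 : ⁅y, x⁆ ^ p = 1 := by
    rw [← commutator_pow_right y x hcx p, commutatorElement_eq_one_iff_mul_comm, h2]
  have : Fact p.Prime := ⟨hp⟩
  exact orderOf_eq_prime h3 (by
    rw [Ne, commutatorElement_eq_one_iff_mul_comm]; exact h.ne.symm)

theorem mem_zpowers_pow {x c : G} {p a : ℕ} (hp : p.Prime) (hx : orderOf x = p ^ (a + 1))
    (hc : c ∈ Subgroup.zpowers x) (hcp : c ^ p = 1) : c ∈ Subgroup.zpowers (x ^ p ^ a) := by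
  obtain ⟨k, rfl⟩ := Subgroup.mem_zpowers_iff.1 hc
  rw [← zpow_natCast, ← zpow_mul, ← orderOf_dvd_iff_zpow_eq_one, hx, pow_succ] at hcp
  push_cast at hcp
  have hp0 : (p : ℤ) ≠ 0 := by exact_mod_cast hp.ne_zero
  obtain ⟨k', rfl⟩ := (mul_dvd_mul_iff_right hp0).1 hcp
  rw [Subgroup.mem_zpowers_iff]
  refine ⟨k', ?_⟩
  rw [← zpow_natCast, ← zpow_mul]
  push_cast
  rfl

theorem zpowers_eq [Finite G] {x c : G} {p a : ℕ} (hp : p.Prime) (hx : orderOf x = p ^ (a + 1))
    (hc : c ∈ Subgroup.zpowers x) (hcp : orderOf c = p) :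
    Subgroup.zpowers c = Subgroup.zpowers (x ^ p ^ a) := by
  have h1 : c ∈ Subgroup.zpowers (x ^ p ^ a) :=
    mem_zpowers_pow hp hx hc (by rw [← hcp]; exact pow_orderOf_eq_one c)
  apply Subgroup.eq_of_le_of_card_ge (Subgroup.zpowers_le.2 h1)
  rw [Nat.card_zpowers, Nat.card_zpowers, hcp,
    orderOf_pow_of_dvd (pow_ne_zero _ hp.ne_zero) (by rw [hx]; exact pow_dvd_pow p (Nat.le_succ a)),
    hx, pow_succ, Nat.mul_div_cancel_left _ (pow_pos hp.pos a)]

theorem eq_of_mem_zpowers_two {u v : G} (hv : v ^ 2 = 1) (hu : u ≠ 1)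
    (h : u ∈ Subgroup.zpowers v) : u = v := by
  obtain ⟨k, rfl⟩ := Subgroup.mem_zpowers_iff.1 h
  have hv' : v ^ (2 : ℤ) = 1 := by exact_mod_cast hv
  rcases Int.even_or_odd' k with ⟨m, rfl | rfl⟩
  · exfalso; apply hu
    rw [zpow_mul, hv', one_zpow]
  · rw [zpow_add, zpow_mul, hv', one_zpow, one_mul, zpow_one]

theorem exists_prime_pow_order [Finite G] {x : G} {p : ℕ} (hx : x ≠ 1)
    (h : ∀ d : ℕ, d.Prime → d ∣ orderOf x → d = p) : ∃ a, orderOf x = p ^ (a + 1) := by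
  have h1 := Nat.eq_prime_pow_of_unique_prime_dvd (orderOf_pos x).ne' (fun {d} hd hdx => h d hd hdx)
  rcases hk : (orderOf x).primeFactorsList.length with _ | k
  · rw [hk, pow_zero, orderOf_eq_one_iff] at h1
    exact absurd h1 hx
  · exact ⟨k, by rw [hk] at h1; exact h1⟩

theorem choose_arith {p b : ℕ} (hp : p.Prime) (hb : 1 ≤ b) (h : ¬ p ∣ (p ^ b).choose 2) :
    p = 2 ∧ b = 1 := by
  have h1 : 2 * (p ^ b).choose 2 = p ^ b * (p ^ b - 1) := by
    rw [Nat.choose_two_right]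
    exact Nat.mul_div_cancel' (Nat.even_mul_pred_self _).two_dvd
  have hp2 : p = 2 := by
    have h2 : p ∣ 2 * (p ^ b).choose 2 := by
      rw [h1]; exact Dvd.dvd.mul_right (dvd_pow_self p (by omega)) _
    rcases (Nat.Prime.dvd_mul hp).1 h2 with h3 | h3
    · exact (Nat.prime_dvd_prime_iff_eq hp Nat.prime_two).1 h3
    · exact absurd h3 h
  refine ⟨hp2, ?_⟩
  subst hp2
  by_contra hb1
  apply h
  obtain ⟨b', rfl⟩ : ∃ b', b = b' + 2 := ⟨b - 2, by omega⟩
  have h2 : 2 * (2 ^ (b' + 2)).choose 2 = 2 * (2 * (2 ^ b' * (2 ^ (b' + 2) - 1))) := by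
    rw [h1, pow_add]; ring
  have h3 := Nat.eq_of_mul_eq_mul_left (by norm_num) h2
  rw [h3]
  exact Dvd.intro _ rfl

theorem q8_of_minPair [Finite G] (hn : Ded G) {x y : G} (h : MinPair x y)
    (hle : orderOf y ≤ orderOf x) :
    orderOf x = 4 ∧ y ^ 2 = x ^ 2 ∧ y * x * y⁻¹ = x⁻¹ ∧ y ∉ Subgroup.zpowers x := by
  set c := ⁅y, x⁆ with hc
  have hcxm : c ∈ Subgroup.zpowers x := comm_mem_left hn x y
  have hcym : c ∈ Subgroup.zpowers y := comm_mem_right hn x y
  have hcx : Commute c x := commute_of_mem_zpowers hcxm (Commute.refl x)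
  have hcy : Commute c y := commute_of_mem_zpowers hcym (Commute.refl y)
  have hx1 : x ≠ 1 := by rintro rfl; exact h.ne (by simp)
  have hy1 : y ≠ 1 := by rintro rfl; exact h.ne (by simp)
  obtain ⟨p, hp, hpx⟩ := Nat.exists_prime_and_dvd (n := orderOf x) (by
    rw [Ne, orderOf_eq_one_iff]; exact hx1)
  have hcp : orderOf c = p := order_comm hn h p hp hpx
  have hc1 : c ≠ 1 := by
    intro h1
    rw [h1, orderOf_one] at hcp
    exact hp.one_lt.ne hcp
  obtain ⟨a, ha⟩ := exists_prime_pow_order (p := p) hx1 (fun d hd hdx => by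
    rw [← hcp]; exact (order_comm hn h d hd hdx).symm)
  obtain ⟨b, hb⟩ := exists_prime_pow_order (p := p) hy1 (fun d hd hdy => by
    have := order_comm hn h.symm d hd hdy
    rw [← commutatorElement_inv, orderOf_inv] at this
    rw [← hcp]; exact this.symm)
  have hba : b ≤ a := by
    rw [ha, hb] at hle
    have := (Nat.pow_le_pow_iff_right hp.one_lt).1 hle
    omega
  have hx₀ := zpowers_eq hp ha hcxm hcp
  have hy₀ := zpowers_eq hp hb hcym hcp
  have hb1 : 1 ≤ b := by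
    by_contra hb0
    have hb0 : b = 0 := by omega
    rw [hb0, pow_zero, pow_one] at hy₀
    have : y ∈ Subgroup.zpowers c := by rw [hy₀]; exact Subgroup.mem_zpowers y
    exact h.ne (commute_of_mem_zpowers this hcx).eq.symm
  have hmem : (y ^ p ^ b)⁻¹ ∈ Subgroup.zpowers (x ^ p ^ a) := by
    rw [← hx₀, hy₀]
    exact Subgroup.inv_mem _ (Subgroup.mem_zpowers _)
  rw [← mem_powers_iff_mem_zpowers, Submonoid.mem_powers_iff] at hmem
  obtain ⟨j, hj⟩ := hmem
  set z := x ^ (j * p ^ (a - b)) with hz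
  have hzn : z ^ p ^ b = (y ^ p ^ b)⁻¹ := by
    rw [← hj, hz, ← pow_mul, ← pow_mul, mul_assoc, ← pow_add, Nat.sub_add_cancel hba, mul_comm]
  have hzx : Commute z x := (Commute.refl x).pow_left _
  have hyz : ⁅y, z⁆ = c ^ (j * p ^ (a - b)) := commutator_pow_right y x hcx _
  have hcz : Commute ⁅y, z⁆ z := by
    rw [hyz]; exact (hcx.pow_right _).pow_left _
  have hcy' : Commute ⁅y, z⁆ y := by
    rw [hyz]; exact hcy.pow_left _
  have hpow := mul_pow_class2 z y hcz hcy' (p ^ b)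
  rw [hzn, inv_mul_cancel, one_mul, hyz, ← pow_mul] at hpow
  have hne₁ : x * (z * y) ≠ (z * y) * x := by
    intro h1
    apply h.ne
    have h2 : z * (x * y) = z * (y * x) := by
      calc z * (x * y) = (z * x) * y := by group
        _ = (x * z) * y := by rw [hzx.eq]
        _ = x * (z * y) := by group
        _ = (z * y) * x := h1
        _ = z * (y * x) := by group
    exact mul_left_cancel h2
  have hmin₁ : orderOf y ≤ orderOf (z * y) := by
    have := h.min _ _ hne₁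
    omega
  have key : ¬ p ∣ j * p ^ (a - b) * (p ^ b).choose 2 := by
    intro hd
    have hd' : c ^ (j * p ^ (a - b) * (p ^ b).choose 2) = 1 := by
      rw [← orderOf_dvd_iff_pow_eq_one, hcp]; exact hd
    rw [hd'] at hpow
    have h1 := orderOf_dvd_of_pow_eq_one hpow
    have h2 := Nat.le_of_dvd (pow_pos hp.pos b) h1
    have h3 : p ^ b < p ^ (b + 1) := Nat.pow_lt_pow_right hp.one_lt (Nat.lt_succ_self b)
    omega
  have hab : a = b := by
    by_contra hne
    apply key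
    apply Dvd.dvd.mul_right
    apply Dvd.dvd.mul_left
    exact dvd_pow_self p (by omega)
  obtain ⟨hp2, hb1'⟩ := choose_arith hp hb1 (fun hd => key (Dvd.dvd.mul_left hd _))
  subst hp2
  subst hb1'
  subst hab
  have hx4 : orderOf x = 4 := by rw [ha]; norm_num
  have hy4 : orderOf y = 4 := by rw [hb]; norm_num
  have hc2 : c ^ 2 = 1 := by rw [← hcp]; exact pow_orderOf_eq_one c
  have hxx : x ^ 2 = c := by
    apply eq_of_mem_zpowers_two hc2
    · intro h1
      have := orderOf_dvd_of_pow_eq_one h1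
      rw [hx4] at this
      omega
    · rw [hx₀]; simp
  have hyy : y ^ 2 = c := by
    apply eq_of_mem_zpowers_two hc2
    · intro h1
      have := orderOf_dvd_of_pow_eq_one h1
      rw [hy4] at this
      omega
    · rw [hy₀]; simp
  refine ⟨hx4, by rw [hxx, hyy], ?_, ?_⟩
  · have h1 : y * x * y⁻¹ = c * x := by rw [hc, commutatorElement_def]; group
    have h4 : x ^ 4 = 1 := by rw [← hx4]; exact pow_orderOf_eq_one x
    rw [h1, ← hxx, eq_inv_iff_mul_eq_one, ← pow_succ, ← pow_succ]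
    exact h4
  · intro hmem
    exact h.ne (commute_of_mem_zpowers hmem (Commute.refl x)).eq.symm

theorem exists_q8 [Finite G] (hn : Ded G) (hna : ∃ x y : G, x * y ≠ y * x) :
    ∃ x y : G, orderOf x = 4 ∧ y ^ 2 = x ^ 2 ∧ y * x * y⁻¹ = x⁻¹ ∧ y ∉ Subgroup.zpowers x := by
  classical
  have hex : ∃ n : ℕ, ∃ x y : G, x * y ≠ y * x ∧ orderOf x + orderOf y = n := by
    obtain ⟨x, y, hxy⟩ := hna
    exact ⟨_, x, y, hxy, rfl⟩
  obtain ⟨x, y, hxy, hsum⟩ := Nat.find_spec hex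
  have hmp : MinPair x y := ⟨hxy, fun x' y' h' => by
    rw [hsum]; exact Nat.find_min' hex ⟨x', y', h', rfl⟩⟩
  rcases le_total (orderOf y) (orderOf x) with h | h
  · exact ⟨x, y, q8_of_minPair hn hmp h⟩
  · exact ⟨y, x, q8_of_minPair hn hmp.symm h⟩

end part1

section part2
variable {G : Type u} [Group G]

theorem Ded.subgroup (hn : Ded G) (C : Subgroup G) : Ded C := by
  intro K
  constructor
  intro k hk g
  have h1 := (hn (K.map C.subtype)).conj_mem k ⟨k, hk, rfl⟩ g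
  obtain ⟨k', hk', e⟩ := h1
  have : k' = g * k * g⁻¹ := Subtype.ext (by simpa using e)
  rwa [← this]

theorem conj_eq_or [Finite G] (hn : Ded G) (u : G) (hu : orderOf u = 4) (g : G) :
    g * u * g⁻¹ = u ∨ g * u * g⁻¹ = u⁻¹ := by
  have h4 : u ^ 4 = 1 := by rw [← hu]; exact pow_orderOf_eq_one u
  have h2 : u ^ 2 ≠ 1 := by
    intro h
    have := orderOf_dvd_of_pow_eq_one h
    rw [hu] at this; omega
  have hw2 : (g * u * g⁻¹) ^ 2 ≠ 1 := by
    rw [conj_pow]
    intro h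
    apply h2
    have : u ^ 2 = g⁻¹ * (g * u ^ 2 * g⁻¹) * g := by group
    rw [this, h]; group
  have hm : g * u * g⁻¹ ∈ Subgroup.zpowers u := (hn _).conj_mem u (Subgroup.mem_zpowers u) g
  rw [← mem_powers_iff_mem_zpowers, Submonoid.mem_powers_iff] at hm
  obtain ⟨n, hn'⟩ := hm
  rw [pow_eq_pow_mod n h4] at hn'
  have hlt : n % 4 < 4 := Nat.mod_lt _ (by norm_num)
  rw [← hn'] at hw2 ⊢
  interval_cases (n % 4)
  · exact absurd (by simp) hw2
  · left; simp
  · exfalso; apply hw2; rw [← pow_mul]; exact h4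
  · right; rw [eq_inv_iff_mul_eq_one, ← pow_succ]; exact h4

/-- the quaternion relations. -/
structure Q8Pair (x y : G) : Prop where
  ord : orderOf x = 4
  sq : y ^ 2 = x ^ 2
  conj : y * x * y⁻¹ = x⁻¹
  nmem : y ∉ Subgroup.zpowers x

namespace Q8Pair
variable {x y : G} (h : Q8Pair x y)
include h

theorem x4 : x ^ 4 = 1 := by rw [← h.ord]; exact pow_orderOf_eq_one x

theorem x2 : x ^ 2 ≠ 1 := by
  intro h'
  have := orderOf_dvd_of_pow_eq_one h'
  rw [h.ord] at this; omega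

theorem y4 : y ^ 4 = 1 := by
  have : y ^ 4 = (y ^ 2) ^ 2 := by rw [← pow_mul]
  rw [this, h.sq, ← pow_mul]; exact h.x4

theorem inv_ne : x⁻¹ ≠ x := by
  intro h'
  apply h.x2
  rw [pow_two]
  nth_rewrite 1 [← h']
  simp

theorem ordy : orderOf y = 4 := by
  have : Fact (Nat.Prime 2) := ⟨Nat.prime_two⟩
  have := orderOf_eq_prime_pow (x := y) (p := 2) (n := 1) (by rw [pow_one, h.sq]; exact h.x2)
    (by norm_num; exact h.y4)
  simpa using this

theorem conj' : x * y * x⁻¹ = y⁻¹ := by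
  have h1 : y * x = x⁻¹ * y := by
    have := h.conj
    calc y * x = (y * x * y⁻¹) * y := by group
      _ = x⁻¹ * y := by rw [this]
  calc x * y * x⁻¹ = x * (y * x) * x⁻¹ * x⁻¹ := by group
    _ = x * (x⁻¹ * y) * x⁻¹ * x⁻¹ := by rw [h1]
    _ = y * (x ^ 2)⁻¹ := by group
    _ = y * (y ^ 2)⁻¹ := by rw [h.sq]
    _ = y⁻¹ := by group

/-- every element is, modulo `⟨x, y⟩`, in the centralizer. -/
theorem exists_mul_mem [Finite G] (hn : Ded G) (Q : Subgroup G) (hx : x ∈ Q) (hy : y ∈ Q) (g : G) :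
    ∃ q ∈ Q, g * q ∈ Subgroup.centralizer ({x, y} : Set G) := by
  -- first fix `x`
  obtain ⟨q₁, hq₁, h1⟩ : ∃ q₁ ∈ Q, (g * q₁) * x * (g * q₁)⁻¹ = x := by
    rcases conj_eq_or hn x h.ord g with h1 | h1
    · exact ⟨1, Q.one_mem, by simpa using h1⟩
    · refine ⟨y, hy, ?_⟩
      calc g * y * x * (g * y)⁻¹ = g * (y * x * y⁻¹) * g⁻¹ := by group
        _ = (g * x * g⁻¹)⁻¹ := by rw [h.conj]; group
        _ = x := by rw [h1, inv_inv]
  obtain ⟨q₂, hq₂, h2, h3⟩ : ∃ q₂ ∈ Q, (g * q₂) * x * (g * q₂)⁻¹ = x ∧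
      (g * q₂) * y * (g * q₂)⁻¹ = y := by
    rcases conj_eq_or hn y h.ordy (g * q₁) with h2 | h2
    · exact ⟨q₁, hq₁, h1, h2⟩
    · refine ⟨q₁ * x, Q.mul_mem hq₁ hx, ?_, ?_⟩
      · calc g * (q₁ * x) * x * (g * (q₁ * x))⁻¹ = (g * q₁) * x * (g * q₁)⁻¹ := by group
          _ = x := h1
      · calc g * (q₁ * x) * y * (g * (q₁ * x))⁻¹ = (g * q₁) * (x * y * x⁻¹) * (g * q₁)⁻¹ := by group
          _ = ((g * q₁) * y * (g * q₁)⁻¹)⁻¹ := by rw [h.conj']; group
          _ = y := by rw [h2, inv_inv]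
  refine ⟨q₂, hq₂, ?_⟩
  rw [Subgroup.mem_centralizer_iff]
  intro w hw
  rcases hw with rfl | rfl
  · nth_rewrite 1 [← h2]; group
  · nth_rewrite 1 [← h3]; group

theorem sq_eq_one_of_mem [Finite G] (hn : Ded G) (g : G)
    (hg : g ∈ Subgroup.centralizer ({x, y} : Set G)) (hg4 : g ^ 4 = 1) : g ^ 2 = 1 := by
  rw [Subgroup.mem_centralizer_iff] at hg
  have hgx : x * g = g * x := hg x (by simp)
  have hgy : y * g = g * y := hg y (by simp)
  have hcomm : Commute g y := hgy.symm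
  set u := g * y with hu
  have hux : u * x * u⁻¹ = x⁻¹ := by
    calc u * x * u⁻¹ = g * (y * x * y⁻¹) * g⁻¹ := by rw [hu]; group
      _ = g * x⁻¹ * g⁻¹ := by rw [h.conj]
      _ = (g * x * g⁻¹)⁻¹ := by group
      _ = (x * g * g⁻¹)⁻¹ := by rw [hgx]
      _ = x⁻¹ := by group
  have hnc : ¬ Commute u x := by
    intro hc
    apply h.inv_ne
    rw [← hux, hc.eq]; group
  have hu2 : u ^ 2 = g ^ 2 * x ^ 2 := by rw [hu, hcomm.mul_pow, h.sq]
  have hu4 : u ^ 4 = 1 := by rw [hu, hcomm.mul_pow, hg4, h.y4, one_mul]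
  have hm : x ^ 2 ∈ Subgroup.zpowers u := by
    have h1 := comm_mem_right hn x u
    have h2 : ⁅u, x⁆ = x ^ 2 := by
      rw [commutatorElement_def, hux]
      have : x⁻¹ * x⁻¹ = x ^ 4 * x⁻¹ * x⁻¹ := by rw [h.x4, one_mul]
      rw [this]; group
    rwa [h2] at h1
  rw [← mem_powers_iff_mem_zpowers, Submonoid.mem_powers_iff] at hm
  obtain ⟨n, hn'⟩ := hm
  rw [pow_eq_pow_mod n hu4] at hn'
  have hlt : n % 4 < 4 := Nat.mod_lt _ (by norm_num)
  interval_cases (n % 4)
  · exact absurd hn'.symm (by simpa using h.x2)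
  · exfalso; apply hnc
    rw [pow_one] at hn'
    rw [hn']; exact (Commute.refl x).pow_left 2
  · rw [hu2] at hn'
    exact mul_eq_right.1 hn'
  · exfalso; apply hnc
    have h9 : u = (u ^ 3) ^ 3 := by
      rw [← pow_mul]
      have : u ^ (3 * 3) = (u ^ 4) ^ 2 * u := by rw [← pow_mul, ← pow_succ]
      rw [this, hu4]; simp
    rw [h9, hn']
    exact ((Commute.refl x).pow_left 2).pow_left 3

theorem centralizer_comm [Finite G] (hn : Ded G) :
    ∀ a ∈ Subgroup.centralizer ({x, y} : Set G), ∀ b ∈ Subgroup.centralizer ({x, y} : Set G),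
      a * b = b * a := by
  by_contra hcon
  push Not at hcon
  obtain ⟨a, ha, b, hb, hab⟩ := hcon
  obtain ⟨x', -, hx', -, -, -⟩ := exists_q8 (hn.subgroup (Subgroup.centralizer ({x, y} : Set G)))
    ⟨⟨a, ha⟩, ⟨b, hb⟩, fun e => hab (congrArg Subtype.val e)⟩
  have h4 : (x' : G) ^ 4 = 1 := by
    have : x' ^ 4 = 1 := by rw [← hx']; exact pow_orderOf_eq_one x'
    exact_mod_cast congrArg Subtype.val this
  have h2 := h.sq_eq_one_of_mem hn x' x'.2 h4
  have h2' : x' ^ 2 = 1 := Subtype.ext (by simpa using h2)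
  have := orderOf_dvd_of_pow_eq_one h2'
  rw [hx'] at this
  omega

theorem two_pow [Finite G] (hn : Ded G) : ∀ (k : ℕ) (g : G),
    g ∈ Subgroup.centralizer ({x, y} : Set G) → g ^ 2 ^ k = 1 → g ^ 2 = 1 := by
  intro k
  induction k using Nat.strong_induction_on with
  | _ k ih =>
  intro g hg hgk
  match k, ih, hgk with
  | 0, _, hgk => rw [pow_zero, pow_one] at hgk; rw [hgk, one_pow]
  | 1, _, hgk => rwa [pow_one] at hgk
  | k + 2, ih, hgk =>
    apply ih (k + 1) (by omega) g hg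
    have h1 : (g ^ 2 ^ k) ^ 4 = 1 := by
      rw [← pow_mul]
      have : 2 ^ k * 4 = 2 ^ (k + 2) := by rw [pow_add]; norm_num
      rw [this]; exact hgk
    have h2 := h.sq_eq_one_of_mem hn _ (Subgroup.pow_mem _ hg _) h1
    rw [← pow_mul, ← pow_succ] at h2
    exact h2

end Q8Pair

/-- `n`-torsion of an abelian subgroup. -/
def tors (C : Subgroup G) (hC : ∀ a ∈ C, ∀ b ∈ C, a * b = b * a) (n : ℕ) : Subgroup G where
  carrier := {g | g ∈ C ∧ g ^ n = 1}
  mul_mem' := by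
    rintro a b ⟨ha, ha'⟩ ⟨hb, hb'⟩
    exact ⟨C.mul_mem ha hb, by
      rw [(show Commute a b from hC a ha b hb).mul_pow, ha', hb', one_mul]⟩
  one_mem' := ⟨C.one_mem, one_pow n⟩
  inv_mem' := by
    rintro a ⟨ha, ha'⟩
    exact ⟨C.inv_mem ha, by rw [inv_pow, ha', inv_one]⟩

theorem mem_tors {C : Subgroup G} {hC : ∀ a ∈ C, ∀ b ∈ C, a * b = b * a} {n : ℕ} {g : G} :
    g ∈ tors C hC n ↔ g ∈ C ∧ g ^ n = 1 := Iff.rfl

theorem eq_one_of_sq_of_odd {g : G} {m : ℕ} (h2 : g ^ 2 = 1) (hm : Odd m) (hgm : g ^ m = 1) :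
    g = 1 := by
  obtain ⟨r, rfl⟩ := hm
  rwa [pow_succ, pow_mul, h2, one_pow, one_mul] at hgm

theorem final [Finite G] (hn : Ded G) {x y : G} (h : Q8Pair x y) :
    ∃ Q E A : Subgroup G, Nonempty (Q ≃* QuaternionGroup 2) ∧ Cfsg.IsElementaryAbelian 2 E ∧
      IsMulCommutative A ∧ Odd (Nat.card A) ∧ E ⊓ A = ⊥ ∧ Q ⊓ (E ⊔ A) = ⊥ ∧ Q ⊔ (E ⊔ A) = ⊤ := by
  set C := Subgroup.centralizer ({x, y} : Set G) with hCdef
  have hC := h.centralizer_comm hn
  obtain ⟨k, m, hm, hcard⟩ := Nat.exists_eq_two_pow_mul_odd (Nat.card_pos (α := G)).ne'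
  set T := tors C hC 2 with hT
  set A := tors C hC m with hA
  have hTC : T ≤ C := fun g hg => hg.1
  have hAC : A ≤ C := fun g hg => hg.1
  have hord : orderOf x = 2 * 2 := h.ord
  have hinj := quatHom_injective 2 x y hord h.sq h.conj h.nmem
  set φ := quatHom 2 x y (hord ▸ pow_orderOf_eq_one x) h.sq h.conj with hφ
  set Q := φ.range with hQ
  have hxQ : x ∈ Q := by
    refine ⟨QuaternionGroup.a ((1 : ℕ) : ZMod (2 * 2)), ?_⟩
    rw [hφ, quatHom_a, pw_natCast, pow_one]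
  have hyQ : y ∈ Q := by
    refine ⟨QuaternionGroup.xa ((0 : ℕ) : ZMod (2 * 2)), ?_⟩
    rw [hφ, quatHom_xa, pw_natCast, pow_zero, mul_one]
  have hQel : ∀ q ∈ Q, (∃ k : ℤ, q = x ^ k) ∨ (∃ k : ℤ, q = y * x ^ k) := by
    rintro _ ⟨(i | i), rfl⟩
    · left
      obtain ⟨k, -, hk⟩ := pw_eq_zpow (2 * 2) x (hord ▸ pow_orderOf_eq_one x) i
      exact ⟨k, by rw [hφ, quatHom_a, hk]⟩
    · right
      obtain ⟨k, -, hk⟩ := pw_eq_zpow (2 * 2) x (hord ▸ pow_orderOf_eq_one x) i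
      exact ⟨k, by rw [hφ, quatHom_xa, hk]⟩
  have hc2 : (x ^ 2) ^ 2 = 1 := by rw [← pow_mul]; exact h.x4
  have hcC : x ^ 2 ∈ C := by
    rw [hCdef, Subgroup.mem_centralizer_iff]
    intro w hw
    rcases hw with rfl | rfl
    · exact ((Commute.refl w).pow_right 2).eq
    · rw [← h.sq]; exact ((Commute.refl w).pow_right 2).eq
  have hcT : x ^ 2 ∈ T := ⟨hcC, hc2⟩
  obtain ⟨E, hE⟩ := Set.Finite.exists_maximal (s := {E : Subgroup G | E ≤ T ∧ x ^ 2 ∉ E})
    (Set.toFinite _) ⟨⊥, bot_le, by rw [Subgroup.mem_bot]; exact h.x2⟩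
  have hET : E ≤ T := hE.1.1
  have hcE : x ^ 2 ∉ E := hE.1.2
  have hTE : T ≤ E ⊔ Subgroup.zpowers (x ^ 2) := by
    intro t ht
    by_cases htE : t ∈ E
    · exact (le_sup_left : E ≤ _) htE
    have h1 : x ^ 2 ∈ E ⊔ Subgroup.zpowers t := by
      by_contra hcon
      have h2 : E ⊔ Subgroup.zpowers t ≤ E :=
        hE.2 ⟨sup_le hET (Subgroup.zpowers_le.2 ht), hcon⟩ le_sup_left
      exact htE (h2 ((le_sup_right : _ ≤ E ⊔ Subgroup.zpowers t) (Subgroup.mem_zpowers t)))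
    have := hn (Subgroup.zpowers t)
    rw [Subgroup.mem_sup_of_normal_right] at h1
    obtain ⟨e, he, z, hz, hez⟩ := h1
    have hz1 : z ≠ 1 := by
      rintro rfl
      rw [mul_one] at hez
      exact hcE (hez ▸ he)
    have hzt : z = t := eq_of_mem_zpowers_two ht.2 hz1 hz
    have : t = e⁻¹ * x ^ 2 := by rw [← hez, hzt]; group
    rw [this]
    exact Subgroup.mul_mem_sup (E.inv_mem he) (Subgroup.mem_zpowers _)
  have hCTA : C ≤ T ⊔ A := by
    intro g hg
    have h1 : (g ^ m) ^ 2 ^ k = 1 := by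
      rw [← pow_mul, mul_comm, ← hcard]; exact pow_card_eq_one'
    have h2 : (g ^ m) ^ 2 = 1 := h.two_pow hn k _ (C.pow_mem hg m) h1
    have h3 : g ^ m ∈ T := ⟨C.pow_mem hg m, h2⟩
    have h4 : g ^ 2 ∈ A := ⟨C.pow_mem hg 2, by rw [← pow_mul, mul_comm, pow_mul]; exact h2⟩
    obtain ⟨r, hr⟩ := hm
    have h5 : g = g ^ m * ((g ^ 2) ^ r)⁻¹ := by
      rw [hr, pow_succ, pow_mul]
      have hc : Commute ((g ^ 2) ^ r) g := ((Commute.refl g).pow_left 2).pow_left r
      rw [hc.eq]; group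
    rw [h5]
    exact Subgroup.mul_mem_sup h3 (A.inv_mem (A.pow_mem h4 r))
  have hEAC : E ⊔ A ≤ C := sup_le (hET.trans hTC) hAC
  refine ⟨Q, E, A, ⟨(MonoidHom.ofInjective hinj).symm⟩, ⟨⟨⟨fun a b => Subtype.ext
    (hC a (hTC (hET a.2)) b (hTC (hET b.2)))⟩⟩, fun a ha => (hET ha).2⟩,
    ⟨⟨fun a b => Subtype.ext (hC a (hAC a.2) b (hAC b.2))⟩⟩, ?_, ?_, ?_, ?_⟩
  · by_contra hodd
    rw [Nat.not_odd_iff_even] at hodd
    have : Fact (Nat.Prime 2) := ⟨Nat.prime_two⟩
    obtain ⟨a, ha⟩ := exists_prime_orderOf_dvd_card' 2 hodd.two_dvd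
    have h1 : a ^ m = 1 := Subtype.ext (by simpa using a.2.2)
    have h2 := orderOf_dvd_of_pow_eq_one h1
    rw [ha] at h2
    exact (Nat.not_even_iff_odd.2 hm) (even_iff_two_dvd.2 h2)
  · rw [eq_bot_iff]
    intro g hg
    obtain ⟨hg1, hg2⟩ := Subgroup.mem_inf.1 hg
    rw [Subgroup.mem_bot]
    exact eq_one_of_sq_of_odd (hET hg1).2 hm hg2.2
  · rw [eq_bot_iff]
    intro g hg
    obtain ⟨hg1, hg2⟩ := Subgroup.mem_inf.1 hg
    rw [Subgroup.mem_bot]
    have hgC := hEAC hg2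
    rw [hCdef, Subgroup.mem_centralizer_iff] at hgC
    have hgx : x * g = g * x := hgC x (by simp)
    have hgy : y * g = g * y := hgC y (by simp)
    by_contra hg1'
    have hgc : g = x ^ 2 := by
      rcases hQel g hg1 with ⟨k, rfl⟩ | ⟨k, rfl⟩
      · have h1 : y * x ^ k * y⁻¹ = (x ^ k)⁻¹ := conj_zpow_of_inv h.conj k
        rw [hgy] at h1
        have h2 : x ^ (k * 2) = 1 := by
          rw [zpow_mul]
          have : (x ^ k) ^ (2 : ℤ) = x ^ k * x ^ k := by
            rw [show (2 : ℤ) = 1 + 1 by norm_num, zpow_add, zpow_one]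
          rw [this]
          have h3 : x ^ k = (x ^ k)⁻¹ := by
            calc x ^ k = x ^ k * y * y⁻¹ := by group
              _ = _ := h1
          nth_rewrite 1 [h3]
          simp
        rw [← orderOf_dvd_iff_zpow_eq_one, h.ord] at h2
        obtain ⟨k', rfl⟩ : (2 : ℤ) ∣ k := by omega
        apply eq_of_mem_zpowers_two hc2 hg1'
        rw [Subgroup.mem_zpowers_iff]
        refine ⟨k', ?_⟩
        rw [zpow_mul]
        norm_cast
      · exfalso
        apply h.inv_ne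
        have h1 : y * x = x * y := by
          have h2 : (y * x) * x ^ k = (x * y) * x ^ k := by
            calc (y * x) * x ^ k = y * (x * x ^ k) := by group
              _ = y * (x ^ k * x) := by rw [((Commute.refl x).zpow_right k).eq]
              _ = (y * x ^ k) * x := by group
              _ = x * (y * x ^ k) := hgx.symm
              _ = _ := by group
          exact mul_right_cancel h2
        rw [← h.conj, h1]; group
    rw [hgc] at hg2
    have := hn A
    rw [Subgroup.mem_sup_of_normal_right] at hg2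
    obtain ⟨e, he, a, ha, hea⟩ := hg2
    have haT : a ∈ T := by
      have : a = e⁻¹ * x ^ 2 := by rw [← hea]; group
      rw [this]
      exact T.mul_mem (T.inv_mem (hET he)) hcT
    have ha1 : a = 1 := eq_one_of_sq_of_odd haT.2 hm ha.2
    rw [ha1, mul_one] at hea
    exact hcE (hea ▸ he)
  · rw [eq_top_iff]
    intro g _
    obtain ⟨q, hq, hgq⟩ := h.exists_mul_mem hn Q hxQ hyQ g
    have h1 : g = (g * q) * q⁻¹ := by group
    rw [h1]
    apply Subgroup.mul_mem
    · have h2 : C ≤ Q ⊔ (E ⊔ A) := by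
        refine hCTA.trans (sup_le (hTE.trans (sup_le ?_ ?_)) ?_)
        · exact le_sup_left.trans le_sup_right
        · exact (Subgroup.zpowers_le.2 (Q.pow_mem hxQ 2)).trans le_sup_left
        · exact le_sup_right.trans le_sup_right
      exact h2 hgq
    · exact (le_sup_left : Q ≤ _) (Q.inv_mem hq)

end part2


/-- A finite non-abelian group in which every subgroup is normal is the internal direct product of a subgroup isomorphic to the quaternion group of order `8`, an elementary abelian `2`-subgroup and an abelian subgroup of odd order. -/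
theorem result {G : Type*} [Group G] [Finite G] (hna : ¬ IsMulCommutative G) (hn : ∀ H : Subgroup G, H.Normal) : ∃ Q E A : Subgroup G, Nonempty (Q ≃* QuaternionGroup 2) ∧ Cfsg.IsElementaryAbelian 2 E ∧ IsMulCommutative A ∧ Odd (Nat.card A) ∧ E ⊓ A = ⊥ ∧ Q ⊓ (E ⊔ A) = ⊥ ∧ Q ⊔ (E ⊔ A) = ⊤ := by
  have hex : ∃ x y : G, x * y ≠ y * x := by
    by_contra hcon
    push Not at hcon
    exact hna ⟨⟨hcon⟩⟩
  obtain ⟨x, y, h1, h2, h3, h4⟩ := exists_q8 (G := G) hn hex
  exact final hn ⟨h1, h2, h3, h4⟩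

end Cfsg.Agent.S4211
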