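import Cfsg.Statements.S4213
-- import your own Cfsg.Agent.* helpers here
import Cfsg.Agent.Lib.Helper12Hall
import Cfsg.Agent.Lib.Helper70Frobenius

set_option autoImplicit false
open Cfsg

namespace Cfsg.Agent.S4213


universe u

open Cfsg.Agent.Lib.Helper12Hall Cfsg.Agent.Lib.Helper70Frobenius

theorem exists_elem (G : Type u) [Group G] [Finite G] [Group.IsSolvable G] [Nontrivial G] :
    ∃ (p : ℕ) (K : Subgroup G), p.Prime ∧ K.Normal ∧ K ≠ ⊥ ∧ ∀ x ∈ K, x ^ p = 1 := by
  obtain ⟨M, hM⟩ := Set.Finite.exists_minimal (s := {M : Subgroup G | M.Normal ∧ M ≠ ⊥})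
    (Set.toFinite _) ⟨⊤, inferInstance, top_ne_bot⟩
  have hMn : M.Normal := hM.1.1
  obtain ⟨-, p, hp, hpow⟩ := Cfsg.Agent.S0043.result M hM.1.2 (by
    intro M' hM'n hle
    by_cases hb : M' = ⊥
    · exact Or.inl hb
    · exact Or.inr (le_antisymm hle (hM.2 ⟨hM'n, hb⟩ hle)))
  exact ⟨p, M, hp, hMn, hM.1.2, hpow⟩

theorem eq_of_card {G : Type u} [Group G] [Finite G] (n : ℕ) (H : Subgroup G)
    (h1 : ∀ x ∈ H, x ^ n = 1) (h2 : Nat.card H = n) (h3 : Nat.card {x : G // x ^ n = 1} = n) :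
    H.Normal ∧ (H : Set G) = {x : G | x ^ n = 1} := by
  have h4 : (H : Set G) = {x : G | x ^ n = 1} := by
    have e1 : ({x : G | x ^ n = 1} : Set G).ncard = n := h3
    have e2 : (H : Set G).ncard = n := h2
    exact Set.eq_of_subset_of_ncard_le (s := (H : Set G)) (t := {x : G | x ^ n = 1})
      (fun x hx => h1 x hx) (by rw [e1, e2]) (Set.toFinite _)
  refine ⟨⟨fun x hx g => ?_⟩, h4⟩
  have hx' : x ∈ (H : Set G) := hx
  rw [h4] at hx'
  have : g * x * g⁻¹ ∈ (H : Set G) := by
    rw [h4]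
    show (g * x * g⁻¹) ^ n = 1
    rw [conj_pow, show x ^ n = 1 from hx']
    simp
  exact this

theorem pow_eq_one_of_mk {G : Type u} [Group G] (K : Subgroup G) [K.Normal] (p : ℕ)
    (hK : ∀ x ∈ K, x ^ p = 1) (x : G) (n' n : ℕ) (h : (x : G ⧸ K) ^ n' = 1) (hd : n' * p ∣ n) :
    x ^ n = 1 := by
  obtain ⟨c, rfl⟩ := hd
  have h1 : x ^ n' ∈ K := by
    rw [← QuotientGroup.eq_one_iff, QuotientGroup.mk_pow]; exact h
  rw [pow_mul, pow_mul, hK _ h1, one_pow]

theorem card_roots_pos (G : Type u) [Group G] [Finite G] (n : ℕ) :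
    0 < Nat.card {x : G // x ^ n = 1} := by
  have : Nonempty {x : G // x ^ n = 1} := ⟨⟨1, one_pow n⟩⟩
  exact Nat.card_pos

theorem aux : ∀ (k : ℕ) (G : Type u) [Group G] [Finite G] [Group.IsSolvable G], Nat.card G = k →
    ∀ n, n ∣ k → Nat.card {x : G // x ^ n = 1} = n →
    ∃ H : Subgroup G, H.Normal ∧ (H : Set G) = {x : G | x ^ n = 1} := by
  intro k
  induction k using Nat.strong_induction_on with
  | _ k ih =>
  intro G _ _ _ hG n hn hcount
  by_cases htriv : Subsingleton G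
  · refine ⟨⊤, inferInstance, ?_⟩
    ext x
    simp only [Subgroup.coe_top, Set.mem_univ, Set.mem_ofPred_eq, true_iff]
    exact Subsingleton.elim _ _
  have : Nontrivial G := not_subsingleton_iff_nontrivial.mp htriv
  obtain ⟨p, K, hp, hKn, hKne, hKp⟩ := exists_elem G
  have : Fact p.Prime := ⟨hp⟩
  have hKpg : IsPGroup p K := by
    intro x
    refine ⟨1, ?_⟩
    rw [pow_one]
    exact Subtype.ext (hKp x x.2)
  obtain ⟨i, hi⟩ := hKpg.exists_card_eq
  have hi0 : i ≠ 0 := by
    rintro rfl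
    rw [pow_zero] at hi
    exact hKne (Subgroup.card_eq_one.mp hi)
  have hcQ : Nat.card K * Nat.card (G ⧸ K) = k := hG ▸ card_quotient K
  have hKgt : 1 < Nat.card K := (Subgroup.one_lt_card_iff_ne_bot K).mpr hKne
  have hQpos : 0 < Nat.card (G ⧸ K) := Nat.card_pos
  have hlt : Nat.card (G ⧸ K) < k := by
    rw [← hcQ]; nlinarith
  have hnpos : 0 < n := by
    rw [← hcount]; exact card_roots_pos G n
  by_cases hpn : p ∣ n
  · -- case B
    set d := Nat.gcd n (p ^ i) with hd
    have hdn : d ∣ n := Nat.gcd_dvd_left _ _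
    have hdp : d ∣ p ^ i := Nat.gcd_dvd_right _ _
    have hdpos : 0 < d := Nat.gcd_pos_of_pos_left _ hnpos
    obtain ⟨n', hn'⟩ := hdn
    obtain ⟨e, he⟩ := hdp
    have hpd : p ∣ d := Nat.dvd_gcd hpn (dvd_pow_self p hi0)
    have hcop : Nat.Coprime n' e := by
      have := Nat.coprime_div_gcd_div_gcd (m := n) (n := p ^ i) hdpos
      rw [← hd] at this
      rwa [hn', he, Nat.mul_div_cancel_left _ hdpos, Nat.mul_div_cancel_left _ hdpos] at this
    have hn'Q : n' ∣ Nat.card (G ⧸ K) := by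
      have h1 : d * n' ∣ d * (e * Nat.card (G ⧸ K)) := by
        rw [← hn', ← mul_assoc, ← he, ← hi, hcQ]; exact hn
      have h2 : n' ∣ e * Nat.card (G ⧸ K) := Nat.dvd_of_mul_dvd_mul_left hdpos h1
      exact hcop.dvd_of_dvd_mul_left h2
    have hn'p : n' * p ∣ n := by
      rw [hn', mul_comm d n']; exact Nat.mul_dvd_mul_left _ hpd
    have hfrob := frobenius (G ⧸ K) n' hn'Q
    have htpos := card_roots_pos (G ⧸ K) n'
    have hle : n' ≤ Nat.card {y : G ⧸ K // y ^ n' = 1} := Nat.le_of_dvd htpos hfrob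
    have hinj : Nat.card ({y : G ⧸ K // y ^ n' = 1} × K) ≤ Nat.card {x : G // x ^ n = 1} := by
      refine Nat.card_le_card_of_injective
        (fun a => ⟨(Quotient.out a.1.1 : G) * (a.2 : G), ?_⟩) ?_
      · apply pow_eq_one_of_mk K p hKp _ n' n _ hn'p
        have : (((Quotient.out a.1.1 : G) * (a.2 : G) : G) : G ⧸ K) = a.1.1 := by
          rw [QuotientGroup.mk_mul, (QuotientGroup.eq_one_iff (a.2 : G)).2 a.2.2, mul_one]
          exact Quotient.out_eq' a.1.1
        rw [this]; exact a.1.2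
      · intro a b hab
        have hab' : (Quotient.out a.1.1 : G) * (a.2 : G) = (Quotient.out b.1.1 : G) * (b.2 : G) :=
          congrArg Subtype.val hab
        have key : ∀ c : {y : G ⧸ K // y ^ n' = 1} × K,
            (((Quotient.out c.1.1 : G) * (c.2 : G) : G) : G ⧸ K) = c.1.1 := by
          intro c
          rw [QuotientGroup.mk_mul, (QuotientGroup.eq_one_iff (c.2 : G)).2 c.2.2, mul_one]
          exact Quotient.out_eq' c.1.1
        have h1 : a.1.1 = b.1.1 := by rw [← key a, ← key b, hab']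
        have h2 : (a.2 : G) = b.2 := by
          rw [h1] at hab'
          exact mul_left_cancel hab'
        exact Prod.ext (Subtype.ext h1) (Subtype.ext h2)
    rw [Nat.card_prod, hcount, hi] at hinj
    have hdle : d ≤ p ^ i := Nat.le_of_dvd (pow_pos hp.pos i) ⟨e, he⟩
    have hn'pos : 0 < n' := by
      rcases Nat.eq_zero_or_pos n' with h | h
      · rw [h, mul_zero] at hn'; omega
      · exact h
    have ht : Nat.card {y : G ⧸ K // y ^ n' = 1} = n' := by
      by_contra hne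
      have hlt' : n' < Nat.card {y : G ⧸ K // y ^ n' = 1} := lt_of_le_of_ne hle (Ne.symm hne)
      have h1 : n' * p ^ i < Nat.card {y : G ⧸ K // y ^ n' = 1} * p ^ i :=
        Nat.mul_lt_mul_of_pos_right hlt' (pow_pos hp.pos i)
      have h2 : d * n' ≤ n' * p ^ i := by
        rw [mul_comm]; exact Nat.mul_le_mul_left _ hdle
      omega
    have hdeq : d = p ^ i := by
      rw [ht, hn', mul_comm d n'] at hinj
      exact le_antisymm hdle (Nat.le_of_mul_le_mul_left hinj hn'pos)
    obtain ⟨Hb, hHbn, hHb⟩ := ih _ hlt (G ⧸ K) rfl n' hn'Q ht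
    have hHbc : Nat.card Hb = n' := by
      have e2 : (Hb : Set (G ⧸ K)).ncard = Nat.card Hb := rfl
      rw [← e2, hHb]; exact ht
    refine ⟨Hb.comap (QuotientGroup.mk' K), eq_of_card n _ ?_ ?_ hcount⟩
    · intro x hx
      apply pow_eq_one_of_mk K p hKp _ n' n _ hn'p
      have : (x : G ⧸ K) ∈ (Hb : Set (G ⧸ K)) := hx
      rw [hHb] at this
      exact this
    · rw [card_comap_mk', hHbc, hi, hn', hdeq]
  · -- case A
    have hcop : Nat.Coprime n (Nat.card K) := by
      rw [hi]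
      exact Nat.Coprime.pow_right _ ((Nat.Prime.coprime_iff_not_dvd hp).2 hpn).symm
    have hnQ : n ∣ Nat.card (G ⧸ K) := by
      rw [← hcQ] at hn
      exact hcop.dvd_of_dvd_mul_left hn
    have hfrob := frobenius (G ⧸ K) n hnQ
    have htpos := card_roots_pos (G ⧸ K) n
    have hle : n ≤ Nat.card {y : G ⧸ K // y ^ n = 1} := Nat.le_of_dvd htpos hfrob
    have hsurj : Nat.card {y : G ⧸ K // y ^ n = 1} ≤ Nat.card {x : G // x ^ n = 1} := by
      refine Nat.card_le_card_of_surjective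
        (fun x => ⟨(x.1 : G ⧸ K), by rw [← QuotientGroup.mk_pow, x.2]; rfl⟩) ?_
      rintro ⟨y, hy⟩
      obtain ⟨x, rfl⟩ := QuotientGroup.mk_surjective y
      have hpn' : Nat.Coprime p n := (Nat.Prime.coprime_iff_not_dvd hp).2 hpn
      obtain ⟨e, he0, he1⟩ := Nat.chineseRemainder hpn' 0 1
      obtain ⟨t, rfl⟩ := (Nat.modEq_zero_iff_dvd).1 he0
      refine ⟨⟨x ^ (p * t), ?_⟩, ?_⟩
      · have h1 : x ^ n ∈ K := by
          rw [← QuotientGroup.eq_one_iff, QuotientGroup.mk_pow]; exact hy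
        have h2 := hKp _ h1
        calc (x ^ (p * t)) ^ n = ((x ^ n) ^ p) ^ t := by
              rw [← pow_mul, ← pow_mul, ← pow_mul]; congr 1; ring
          _ = 1 := by rw [h2, one_pow]
      · apply Subtype.ext
        show ((x ^ (p * t) : G) : G ⧸ K) = (x : G ⧸ K)
        rw [QuotientGroup.mk_pow, pow_eq_pow_mod _ hy, he1, ← pow_eq_pow_mod _ hy, pow_one]
    rw [hcount] at hsurj
    have ht : Nat.card {y : G ⧸ K // y ^ n = 1} = n := le_antisymm hsurj hle
    obtain ⟨Hb, hHbn, hHb⟩ := ih _ hlt (G ⧸ K) rfl n hnQ ht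
    have hHbc : Nat.card Hb = n := by
      have e2 : (Hb : Set (G ⧸ K)).ncard = Nat.card Hb := rfl
      rw [← e2, hHb]; exact ht
    have hKA : K ≤ Hb.comap (QuotientGroup.mk' K) := by
      conv_lhs => rw [← QuotientGroup.ker_mk' K]
      exact Subgroup.ker_le_comap _ _
    obtain ⟨C, -, hC, -⟩ := sz_exists K (Hb.comap (QuotientGroup.mk' K)) hKA n
      (by rw [card_comap_mk', hHbc, mul_comm]) hcop
    refine ⟨C, eq_of_card n C ?_ hC hcount⟩
    intro x hx
    have := pow_card_eq_one' (x := (⟨x, hx⟩ : C))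
    rw [hC] at this
    exact congrArg Subtype.val this


/-- If `G` is a finite solvable group and `n` divides the order of `G` and exactly `n` elements `x` of `G` satisfy `x^n = 1`, then these elements form a normal subgroup. -/
theorem result {G : Type*} [Group G] [Finite G] [Group.IsSolvable G] (n : ℕ) (hn : n ∣ Nat.card G) (hcount : Nat.card {x : G // x ^ n = 1} = n) : ∃ H : Subgroup G, H.Normal ∧ (H : Set G) = {x : G | x ^ n = 1} := by
  exact aux _ G rfl n hn hcount

end Cfsg.Agent.S4213
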