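import Cfsg.Statements.S4214
-- import your own Cfsg.Agent.* helpers here
import Cfsg.Agent.Lib.Helper12Coprime

set_option autoImplicit false
open Cfsg

namespace Cfsg.Agent.S4214


universe u

open Pointwise
open scoped commutatorElement
open Cfsg.Agent.Lib.Helper12Basic Cfsg.Agent.Lib.Helper12Card Cfsg.Agent.Lib.Helper12Hall
  Cfsg.Agent.Lib.Helper12Coprime

/-- `N` is a product of numbers satisfying `P`. -/
def Good (P : ℕ → Prop) (N : ℕ) : Prop := ∃ l : List ℕ, l.prod = N ∧ ∀ x ∈ l, P x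

theorem Good.one (P : ℕ → Prop) : Good P 1 := ⟨[], rfl, by simp⟩

theorem Good.mul {P : ℕ → Prop} {a b : ℕ} (ha : Good P a) (hb : Good P b) : Good P (a * b) := by
  obtain ⟨l, hl, hl'⟩ := ha
  obtain ⟨l2, hl2, hl2'⟩ := hb
  refine ⟨l ++ l2, by rw [List.prod_append, hl, hl2], ?_⟩
  intro x hx
  rcases List.mem_append.1 hx with h | h
  · exact hl' x h
  · exact hl2' x h

theorem Good.single {P : ℕ → Prop} {a : ℕ} (ha : P a) : Good P a :=
  ⟨[a], by simp, by simpa using ha⟩

theorem Good.mono {P Q : ℕ → Prop} {a : ℕ} (ha : Good P a) (h : ∀ x, x ∣ a → P x → Q x) :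
    Good Q a := by
  obtain ⟨l, hl, hl'⟩ := ha
  exact ⟨l, hl, fun x hx => h x (hl ▸ List.dvd_prod hx) (hl' x hx)⟩

/-- a nontrivial finite solvable group has a normal subgroup of prime index. -/
theorem exists_normal_prime_index (H : Type u) [Group H] [Finite H] [Group.IsSolvable H]
    [Nontrivial H] : ∃ (M : Subgroup H) (q : ℕ), M.Normal ∧ q.Prime ∧ M.index = q := by
  have hc := Group.IsSolvable.commutator_lt_top_of_nontrivial H
  obtain ⟨M, hM, hcM⟩ := (eq_top_or_exists_le_coatom (commutator H)).resolve_left hc.ne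
  have hMn : M.Normal := by
    constructor
    intro x hx g
    have h1 : ⁅g, x⁆ ∈ commutator H :=
      Subgroup.commutator_mem_commutator (Subgroup.mem_top g) (Subgroup.mem_top x)
    have h2 : g * x * g⁻¹ = ⁅g, x⁆ * x := by
      rw [commutatorElement_def]; group
    rw [h2]
    exact M.mul_mem (hcM h1) hx
  have hne : Nat.card (H ⧸ M) ≠ 1 := by
    rw [← Subgroup.index_eq_card]
    intro h
    exact hM.1 (Subgroup.index_eq_one.1 h)
  obtain ⟨q, hq, hqd⟩ := Nat.exists_prime_and_dvd hne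
  have : Fact q.Prime := ⟨hq⟩
  obtain ⟨y, hy⟩ := exists_prime_orderOf_dvd_card' q hqd
  have hsurj := QuotientGroup.mk'_surjective M
  have h1 : (⊥ : Subgroup (H ⧸ M)) < Subgroup.zpowers y := by
    rw [bot_lt_iff_ne_bot, Ne, Subgroup.zpowers_eq_bot]
    rintro rfl
    rw [orderOf_one] at hy
    exact hq.one_lt.ne hy
  have h2 := (Subgroup.comap_lt_comap_of_surjective hsurj).2 h1
  rw [MonoidHom.comap_bot, QuotientGroup.ker_mk'] at h2
  have h3 := hM.2 _ h2
  have h4 : Subgroup.zpowers y = ⊤ := by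
    apply Subgroup.comap_injective hsurj
    rw [h3, Subgroup.comap_top]
  refine ⟨M, q, hMn, hq, ?_⟩
  rw [Subgroup.index_eq_card, ← Subgroup.card_top, ← h4, Nat.card_zpowers, hy]

/-- ambient form. -/
theorem exists_normal_prime_relIndex {G : Type u} [Group G] [Finite G] [Group.IsSolvable G]
    (H : Subgroup G) (hne : H ≠ ⊥) : ∃ (H₁ : Subgroup G) (q : ℕ), H₁ ≤ H ∧
      (H₁.subgroupOf H).Normal ∧ q.Prime ∧ H₁.relIndex H = q := by
  have : Nontrivial H := (Subgroup.nontrivial_iff_ne_bot H).mpr hne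
  obtain ⟨M, q, hMn, hq, hMq⟩ := exists_normal_prime_index H
  have hle : M.map H.subtype ≤ H := Subgroup.map_subtype_le M
  have he : (M.map H.subtype).subgroupOf H = M := by
    rw [Subgroup.subgroupOf, Subgroup.comap_map_eq_self_of_injective H.subtype_injective]
  refine ⟨M.map H.subtype, q, hle, by rw [he]; exact hMn, hq, ?_⟩
  rw [Subgroup.relIndex, he, hMq]

theorem step {G : Type u} [Group G] [Finite G] (p q : ℕ) [hp : Fact p.Prime] [hq' : Fact q.Prime]
    (hpq : p ≠ q) (N H₁ H : Subgroup G) (hN : IsPGroup p N)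
    (hHN : H ≤ Subgroup.normalizer (N : Set G)) (hle : H₁ ≤ H)
    (hn : (H₁.subgroupOf H).Normal) (hq : H₁.relIndex H = q) :
    (N ⊓ Subgroup.centralizer (H : Set G)).relIndex (N ⊓ Subgroup.centralizer (H₁ : Set G))
      ≡ 1 [MOD q] := by
  classical
  have hnle : ¬ H ≤ H₁ := by
    intro h
    rw [← Subgroup.relIndex_eq_one, hq] at h
    exact hq'.out.one_lt.ne' h
  obtain ⟨x, hxH, hxH₁⟩ := SetLike.not_le_iff_exists.1 hnle
  set D := N ⊓ Subgroup.centralizer (H₁ : Set G) with hD
  set E := N ⊓ Subgroup.centralizer (H : Set G) with hE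
  have hED : E ≤ D := inf_le_inf_left _ (Subgroup.centralizer_le hle)
  have hconj : ∀ h ∈ H₁, x⁻¹ * h * x ∈ H₁ := by
    intro h hh
    have := hn.conj_mem ⟨h, hle hh⟩ (Subgroup.mem_subgroupOf.2 hh) ⟨x, hxH⟩⁻¹
    rw [Subgroup.mem_subgroupOf] at this
    simpa using this
  have hxD : ∀ d ∈ D, x * d * x⁻¹ ∈ D := by
    intro d hd
    have hd := Subgroup.mem_inf.1 hd
    refine Subgroup.mem_inf.2 ⟨(Subgroup.mem_normalizer_iff.1 (hHN hxH) d).1 hd.1, ?_⟩
    rw [Subgroup.mem_centralizer_iff]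
    intro h hh
    have h1 := (Subgroup.mem_centralizer_iff.1 hd.2) _ (hconj h hh)
    calc h * (x * d * x⁻¹) = x * ((x⁻¹ * h * x) * d) * x⁻¹ := by group
      _ = x * (d * (x⁻¹ * h * x)) * x⁻¹ := by rw [h1]
      _ = x * d * x⁻¹ * h := by group
  let f : Function.End D := fun d => ⟨x * d * x⁻¹, hxD d d.2⟩
  have hfk : ∀ (k : ℕ) (d : D), (((f ^ k) d : D) : G) = x ^ k * d * (x ^ k)⁻¹ := by
    intro k
    induction k with
    | zero =>
      intro d
      rw [pow_zero, pow_zero]
      show (d : G) = 1 * d * 1⁻¹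
      simp
    | succ k ih =>
      intro d
      rw [pow_succ]
      show (((f ^ k) (f d) : D) : G) = _
      rw [ih]
      show x ^ k * (x * d * x⁻¹) * (x ^ k)⁻¹ = _
      rw [pow_succ]; group
  have hxq : x ^ q ∈ H₁ := by
    have := Subgroup.pow_index_mem (H₁.subgroupOf H) ⟨x, hxH⟩
    rw [Subgroup.mem_subgroupOf] at this
    rw [← hq]
    show x ^ (H₁.subgroupOf H).index ∈ H₁
    simpa using this
  have hfq : f ^ q ^ 1 = 1 := by
    rw [pow_one]
    funext d
    apply Subtype.ext
    rw [hfk]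
    have h1 := (Subgroup.mem_centralizer_iff.1 (Subgroup.mem_inf.1 d.2).2) _ hxq
    show x ^ q * d * (x ^ q)⁻¹ = d
    rw [h1]; group
  have := Fintype.ofFinite D
  have hmod := Equiv.Perm.card_fixedPoints_modEq hfq
  have hset : ((E.subgroupOf D : Subgroup D) : Set D) = Function.fixedPoints f := by
    ext d
    simp only [SetLike.mem_coe, Subgroup.mem_subgroupOf]
    constructor
    · intro hd
      apply Subtype.ext
      show x * d * x⁻¹ = d
      have h1 := (Subgroup.mem_centralizer_iff.1 (Subgroup.mem_inf.1 hd).2) x hxH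
      rw [h1]; group
    · intro hd
      have hd' : x * d * x⁻¹ = d := congrArg Subtype.val hd
      refine Subgroup.mem_inf.2 ⟨(Subgroup.mem_inf.1 d.2).1, ?_⟩
      set T := Subgroup.centralizer ({(d : G)} : Set G) ⊓ H with hT
      have hH₁T : H₁ ≤ T := by
        intro h hh
        refine Subgroup.mem_inf.2 ⟨?_, hle hh⟩
        rw [Subgroup.mem_centralizer_singleton_iff]
        exact ((Subgroup.mem_centralizer_iff.1 (Subgroup.mem_inf.1 d.2).2) h hh)
      have hxT : x ∈ T := by
        refine Subgroup.mem_inf.2 ⟨?_, hxH⟩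
        rw [Subgroup.mem_centralizer_singleton_iff]
        calc x * d = (x * d * x⁻¹) * x := by group
          _ = d * x := by rw [hd']
      have hTH : T ≤ H := inf_le_right
      have hmul := Subgroup.relIndex_mul_relIndex H₁ T H hH₁T hTH
      rw [hq] at hmul
      have hHT : H ≤ T := by
        rcases Nat.Prime.eq_one_or_self_of_dvd hq'.out _ (Dvd.intro _ hmul) with h1 | h1
        · exfalso
          exact hxH₁ (Subgroup.relIndex_eq_one.1 h1 hxT)
        · rw [h1] at hmul
          have h2 : T.relIndex H = 1 := by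
            have hqpos := hq'.out.pos
            exact Nat.eq_of_mul_eq_mul_left hqpos (by rw [hmul, mul_one])
          exact Subgroup.relIndex_eq_one.1 h2
      rw [Subgroup.mem_centralizer_iff]
      intro h hh
      have := (Subgroup.mem_inf.1 (hHT hh)).1
      rw [Subgroup.mem_centralizer_singleton_iff] at this
      exact this
  have hcardfix : Fintype.card (Function.fixedPoints f) = Nat.card E := by
    rw [← Nat.card_eq_fintype_card, ← card_subgroupOf hED]
    exact Nat.card_congr (Equiv.setCongr hset.symm)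
  rw [hcardfix, ← Nat.card_eq_fintype_card] at hmod
  have hcard : Nat.card E * E.relIndex D = Nat.card D := by
    have := card_inf_mul_relIndex D E
    rwa [inf_of_le_right hED] at this
  rw [← hcard] at hmod
  obtain ⟨e, he⟩ := (hN.to_le (inf_le_left : E ≤ N)).exists_card_eq
  have hcop : Nat.gcd q (Nat.card E) = 1 := by
    rw [he]
    exact Nat.Coprime.pow_right _ ((Nat.coprime_primes hq'.out hp.out).2 hpq.symm)
  apply Nat.ModEq.cancel_left_of_coprime hcop
  rw [mul_one]
  exact hmod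

theorem lemmaA {G : Type u} [Group G] [Finite G] [Group.IsSolvable G] (p : ℕ) [hp : Fact p.Prime]
    (N : Subgroup G) (hN : IsPGroup p N) : ∀ (k : ℕ) (H : Subgroup G), Nat.card H = k →
    H ≤ Subgroup.normalizer (N : Set G) → ¬ p ∣ Nat.card H →
    Good (fun x => (∃ e, x = p ^ e) ∧ ∃ q, q.Prime ∧ q ∣ Nat.card H ∧ x ≡ 1 [MOD q])
      ((N ⊓ Subgroup.centralizer (H : Set G)).relIndex N) := by
  intro k
  induction k using Nat.strong_induction_on with
  | _ k ih =>
  intro H hk hHN hpH
  by_cases hne : H = ⊥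
  · subst hne
    have : N ⊓ Subgroup.centralizer ((⊥ : Subgroup G) : Set G) = N := by
      apply inf_of_le_left
      intro x _
      rw [Subgroup.mem_centralizer_iff]
      intro h hh
      have : h = 1 := hh
      rw [this]; simp
    rw [this, Subgroup.relIndex_self]; exact Good.one _
  obtain ⟨H₁, q, hle, hn, hq, hrel⟩ := exists_normal_prime_relIndex H hne
  have hcard : Nat.card H₁ * q = Nat.card H := by
    have := card_inf_mul_relIndex H H₁
    rwa [inf_of_le_right hle, hrel] at this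
  have hlt : Nat.card H₁ < k := by
    rw [← hk, ← hcard]
    have h1 : 0 < Nat.card H₁ := Nat.card_pos
    have h2 := hq.one_lt
    nlinarith
  have h1 := ih _ hlt H₁ rfl (hle.trans hHN) (fun h => hpH (h.trans ⟨q, hcard.symm⟩))
  have hqp : p ≠ q := by
    rintro rfl
    exact hpH ⟨_, by rw [← hcard, mul_comm]⟩
  have : Fact q.Prime := ⟨hq⟩
  have h2 := step p q hqp N H₁ H hN hHN hle hn hrel
  have hED : N ⊓ Subgroup.centralizer (H : Set G) ≤ N ⊓ Subgroup.centralizer (H₁ : Set G) :=
    inf_le_inf_left _ (Subgroup.centralizer_le hle)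
  have hmul := Subgroup.relIndex_mul_relIndex _ _ N hED inf_le_left
  rw [← hmul]
  apply Good.mul
  · apply Good.single
    refine ⟨?_, q, hq, ⟨_, by rw [← hcard, mul_comm]⟩, h2⟩
    obtain ⟨e, he⟩ := (hN.to_le (inf_le_left :
      N ⊓ Subgroup.centralizer (H₁ : Set G) ≤ N)).exists_card_eq
    have h3 : (N ⊓ Subgroup.centralizer (H : Set G)).relIndex
        (N ⊓ Subgroup.centralizer (H₁ : Set G)) ∣ p ^ e := by
      rw [← he]; exact Subgroup.relIndex_dvd_card _ _
    obtain ⟨m, -, hm⟩ := (Nat.dvd_prime_pow hp.out).1 h3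
    exact ⟨m, hm⟩
  · apply h1.mono
    rintro x - ⟨hx1, r, hr, hrd, hx2⟩
    exact ⟨hx1, r, hr, hrd.trans ⟨q, hcard.symm⟩, hx2⟩

/-- Frattini argument for Hall subgroups. -/
theorem normalizer_sup {G : Type u} [Group G] [Finite G] [Group.IsSolvable G]
    (H N : Subgroup G) [N.Normal] (hH : (Nat.card H).Coprime H.index) :
    Subgroup.normalizer ((H ⊔ N : Subgroup G) : Set G) = Subgroup.normalizer (H : Set G) ⊔ N := by
  apply le_antisymm
  · intro g hg
    rw [mem_normalizer_iff_smul] at hg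
    have hK : MulAut.conj g • H ≤ H ⊔ N := by
      rw [← hg]
      exact Subgroup.pointwise_smul_le_pointwise_smul_iff.mpr le_sup_left
    obtain ⟨u, hu, hu'⟩ := hall_conj_rel (H ⊔ N) H (MulAut.conj g • H) le_sup_left hK
      (card_conj_smul H g).symm
      (Nat.Coprime.coprime_dvd_right (Subgroup.relIndex_dvd_index_of_le le_sup_left) hH)
    have h1 : u⁻¹ * g ∈ Subgroup.normalizer (H : Set G) := by
      rw [mem_normalizer_iff_smul, ← conj_smul_conj_smul, ← hu', conj_inv_smul_conj_smul]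
    have h2 : g = u * (u⁻¹ * g) := by group
    rw [h2]
    apply Subgroup.mul_mem
    · exact (sup_le (Subgroup.le_normalizer.trans le_sup_left) le_sup_right :
        H ⊔ N ≤ Subgroup.normalizer (H : Set G) ⊔ N) hu
    · exact (le_sup_left : _ ≤ Subgroup.normalizer (H : Set G) ⊔ N) h1
  · apply sup_le
    · intro g hg
      rw [mem_normalizer_iff_smul] at hg ⊢
      rw [Subgroup.smul_sup, hg, Subgroup.Normal.conj_smul_eq_self]
    · exact le_sup_right.trans Subgroup.le_normalizer

theorem index_normalizer_map {G : Type u} [Group G] (H N : Subgroup G) [N.Normal] :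
    (Subgroup.normalizer ((H.map (QuotientGroup.mk' N) : Subgroup (G ⧸ N)) : Set (G ⧸ N))).index =
      (Subgroup.normalizer ((H ⊔ N : Subgroup G) : Set G)).index := by
  rw [← Subgroup.index_comap_of_surjective _ (QuotientGroup.mk'_surjective N),
    Subgroup.comap_normalizer_eq_of_surjective _ (QuotientGroup.mk'_surjective N),
    Subgroup.comap_map_eq, QuotientGroup.ker_mk']

theorem normalizer_inf_eq {G : Type u} [Group G] (H N : Subgroup G) [N.Normal]
    (hcop : (Nat.card H).Coprime (Nat.card N)) :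
    Subgroup.normalizer (H : Set G) ⊓ N = N ⊓ Subgroup.centralizer (H : Set G) := by
  apply le_antisymm
  · intro x hx
    obtain ⟨hx1, hx2⟩ := Subgroup.mem_inf.1 hx
    refine Subgroup.mem_inf.2 ⟨hx2, ?_⟩
    rw [Subgroup.mem_centralizer_iff]
    intro h hh
    have h1 : x * h * x⁻¹ * h⁻¹ ∈ H :=
      H.mul_mem ((Subgroup.mem_normalizer_iff.1 hx1 h).1 hh) (H.inv_mem hh)
    have h2 : x * h * x⁻¹ * h⁻¹ ∈ N := by
      have : x * h * x⁻¹ * h⁻¹ = x * (h * x⁻¹ * h⁻¹) := by group
      rw [this]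
      exact N.mul_mem hx2 (‹N.Normal›.conj_mem _ (N.inv_mem hx2) h)
    have h3 : x * h * x⁻¹ * h⁻¹ ∈ H ⊓ N := Subgroup.mem_inf.2 ⟨h1, h2⟩
    rw [(Subgroup.disjoint_of_coprime_natCard hcop).eq_bot, Subgroup.mem_bot] at h3
    calc h * x = (x * h * x⁻¹ * h⁻¹)⁻¹ * (x * h) := by group
      _ = x * h := by rw [h3]; simp
  · intro x hx
    obtain ⟨hx1, hx2⟩ := Subgroup.mem_inf.1 hx
    exact Subgroup.mem_inf.2 ⟨Subgroup.centralizer_le_normalizer _ hx2, hx1⟩

/-- the property required of each factor. -/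
def Fac (G : Type u) [Group G] (m x : ℕ) : Prop :=
  (∃ q e : ℕ, q.Prime ∧ x = q ^ e) ∧
  (∃ K L : Subgroup G, K.Normal ∧ L.Normal ∧ K < L ∧
    (∀ M : Subgroup G, M.Normal → K ≤ M → M ≤ L → M = K ∨ M = L) ∧ x ∣ K.relIndex L) ∧
  (∃ q : ℕ, q.Prime ∧ q ∣ m ∧ x ≡ 1 [MOD q])

theorem Fac.lift {G : Type u} [Group G] (N : Subgroup G) [N.Normal] {m' m x : ℕ} (hm : m' ∣ m)
    (h : Fac (G ⧸ N) m' x) : Fac G m x := by
  obtain ⟨h1, ⟨K, L, hK, hL, hKL, hmin, hx⟩, ⟨q, hq, hqm, hxq⟩⟩ := h
  have hsurj := QuotientGroup.mk'_surjective N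
  refine ⟨h1, ⟨K.comap (QuotientGroup.mk' N), L.comap (QuotientGroup.mk' N),
    hK.comap _, hL.comap _, (Subgroup.comap_lt_comap_of_surjective hsurj).2 hKL, ?_, ?_⟩,
    ⟨q, hq, hqm.trans hm, hxq⟩⟩
  · intro M hM hKM hML
    have hker : (QuotientGroup.mk' N).ker ≤ M := (Subgroup.ker_le_comap _ K).trans hKM
    have h2 : K ≤ M.map (QuotientGroup.mk' N) := by
      rw [← Subgroup.map_comap_eq_self_of_surjective hsurj K]
      exact Subgroup.map_mono hKM
    have h3 : M.map (QuotientGroup.mk' N) ≤ L := Subgroup.map_le_iff_le_comap.2 hML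
    rcases hmin _ (hM.map _ hsurj) h2 h3 with h4 | h4
    · left; rw [← h4, Subgroup.comap_map_eq_self hker]
    · right; rw [← h4, Subgroup.comap_map_eq_self hker]
  · rw [Subgroup.relIndex_comap, Subgroup.map_comap_eq_self_of_surjective hsurj]
    exact hx

theorem main : ∀ (k : ℕ) (G : Type u) [Group G] [Finite G] [Group.IsSolvable G], Nat.card G = k →
    ∀ H : Subgroup G, (Nat.card H).Coprime H.index →
    Good (Fac G (Nat.card H)) (Subgroup.normalizer (H : Set G)).index := by
  intro k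
  induction k using Nat.strong_induction_on with
  | _ k ih =>
  intro G _ _ _ hG H hH
  by_cases htriv : Subsingleton G
  · have : Subgroup.normalizer (H : Set G) = ⊤ := Subsingleton.elim _ _
    rw [this, Subgroup.index_top]; exact Good.one _
  have : Nontrivial G := not_subsingleton_iff_nontrivial.mp htriv
  obtain ⟨N, hNmin⟩ := Set.Finite.exists_minimal (s := {M : Subgroup G | M.Normal ∧ M ≠ ⊥})
    (Set.toFinite _) ⟨⊤, inferInstance, top_ne_bot⟩
  have hNn : N.Normal := hNmin.1.1
  have hNne : N ≠ ⊥ := hNmin.1.2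
  have hmin : ∀ M : Subgroup G, M.Normal → M ≤ N → M = ⊥ ∨ M = N := by
    intro M' hM'n hle
    by_cases hb : M' = ⊥
    · exact Or.inl hb
    · exact Or.inr (le_antisymm hle (hNmin.2 ⟨hM'n, hb⟩ hle))
  obtain ⟨-, p, hp, hpow⟩ := Cfsg.Agent.S0043.result N hNne hmin
  have : Fact p.Prime := ⟨hp⟩
  have hNp : IsPGroup p N := by
    intro x
    refine ⟨1, ?_⟩
    rw [pow_one]
    exact Subtype.ext (hpow x x.2)
  obtain ⟨i, hi⟩ := hNp.exists_card_eq
  have hcQ : Nat.card N * Nat.card (G ⧸ N) = k := hG ▸ card_quotient N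
  have hNgt : 1 < Nat.card N := (Subgroup.one_lt_card_iff_ne_bot N).mpr hNne
  have hQpos : 0 < Nat.card (G ⧸ N) := Nat.card_pos
  have hlt : Nat.card (G ⧸ N) < k := by
    rw [← hcQ]; nlinarith
  have hsurj := QuotientGroup.mk'_surjective N
  have hd1 : Nat.card (H.map (QuotientGroup.mk' N)) ∣ Nat.card H := Subgroup.card_map_dvd _ _
  have hd2 : (H.map (QuotientGroup.mk' N)).index ∣ H.index := Subgroup.index_map_dvd _ hsurj
  have hIH := ih _ hlt (G ⧸ N) rfl (H.map (QuotientGroup.mk' N))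
    (Nat.Coprime.coprime_dvd_left hd1 (Nat.Coprime.coprime_dvd_right hd2 hH))
  rw [index_normalizer_map] at hIH
  have hIH' : Good (Fac G (Nat.card H)) (Subgroup.normalizer ((H ⊔ N : Subgroup G) : Set G)).index :=
    hIH.mono (fun x _ hx => hx.lift N hd1)
  have hle : Subgroup.normalizer (H : Set G) ≤ Subgroup.normalizer ((H ⊔ N : Subgroup G) : Set G) := by
    rw [normalizer_sup H N hH]; exact le_sup_left
  rw [← Subgroup.relIndex_mul_index hle]
  refine Good.mul ?_ hIH'
  rw [normalizer_sup H N hH, ← relIndex_eq_relIndex_sup]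
  by_cases hpH : p ∣ Nat.card H
  · -- `N ≤ H`
    have h1 : H.relIndex N ∣ H.index := relIndex_dvd_index_of_normal_right H N
    have h2 : H.relIndex N ∣ p ^ i := hi ▸ Subgroup.relIndex_dvd_card _ _
    obtain ⟨j, -, hj⟩ := (Nat.dvd_prime_pow hp).1 h2
    have hj0 : j = 0 := by
      by_contra hj0
      have h3 : p ∣ H.index := (dvd_pow_self p hj0).trans (hj ▸ h1)
      exact hp.one_lt.ne' (Nat.eq_one_of_dvd_coprimes hH hpH h3)
    rw [hj0, pow_zero] at hj
    have hNH : N ≤ H := Subgroup.relIndex_eq_one.1 hj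
    rw [Subgroup.relIndex_eq_one.2 (hNH.trans Subgroup.le_normalizer)]
    exact Good.one _
  · have hcop : (Nat.card H).Coprime (Nat.card N) := by
      rw [hi]
      exact Nat.Coprime.pow_right _ ((Nat.Prime.coprime_iff_not_dvd hp).2 hpH).symm
    rw [← Subgroup.inf_relIndex_right, normalizer_inf_eq H N hcop]
    have hA := lemmaA p N hNp _ H rfl
      (by rw [Subgroup.normalizer_eq_top_iff.2 hNn]; exact le_top) hpH
    apply hA.mono
    rintro x hxd ⟨⟨e, he⟩, q, hq, hqd, hxq⟩
    refine ⟨⟨p, e, hp, he⟩, ⟨⊥, N, inferInstance, hNn, bot_lt_iff_ne_bot.2 hNne, ?_, ?_⟩,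
      ⟨q, hq, hqd, hxq⟩⟩
    · intro M hM _ hMN
      exact hmin M hM hMN
    · rw [Subgroup.relIndex_bot_left]
      exact hxd.trans (Subgroup.relIndex_dvd_card _ _)

theorem card_eq_index_normalizer {G : Type u} [Group G] [Finite G] [Group.IsSolvable G] (m n : ℕ)
    (hG : Nat.card G = m * n) (hmn : Nat.Coprime m n) (H : Subgroup G) (hH : Nat.card H = m) :
    Nat.card {K : Subgroup G // Nat.card K = m} = (Subgroup.normalizer (H : Set G)).index := by
  rw [Subgroup.index_eq_card]
  symm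
  let f : G → {K : Subgroup G // Nat.card K = m} :=
    fun g => ⟨MulAut.conj g • H, by rw [card_conj_smul, hH]⟩
  have hf : ∀ a b : G, f a = f b ↔ a⁻¹ * b ∈ Subgroup.normalizer (H : Set G) := by
    intro a b
    rw [mem_normalizer_iff_smul, ← conj_smul_conj_smul, Subtype.ext_iff]
    show MulAut.conj a • H = MulAut.conj b • H ↔ _
    constructor
    · intro h; rw [← h, conj_inv_smul_conj_smul]
    · intro h
      calc MulAut.conj a • H = MulAut.conj a • (MulAut.conj a⁻¹ • MulAut.conj b • H) := by rw [h]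
        _ = _ := by rw [conj_smul_conj_inv_smul]
  refine Nat.card_congr (Equiv.ofBijective
    (Quotient.lift f (fun a b hab => (hf a b).2 (QuotientGroup.leftRel_apply.1 hab))) ⟨?_, ?_⟩)
  · intro a b
    induction a using Quotient.inductionOn with | _ a => ?_
    induction b using Quotient.inductionOn with | _ b => ?_
    intro hab
    exact Quotient.sound (QuotientGroup.leftRel_apply.2 ((hf a b).1 hab))
  · rintro ⟨K, hK⟩
    obtain ⟨g, hg⟩ := hall_conj m n hG hmn H K hH hK
    exact ⟨Quotient.mk _ g, Subtype.ext hg⟩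


/-- Let `G` be a finite solvable group of order `mn` with `gcd(m, n) = 1`. Then the number of subgroups of order `m` is a product of natural numbers each of which is a power of a prime, divides the order of some chief factor of `G` (a quotient `L/K` of normal subgroups `K < L` of `G` with no normal subgroup of `G` strictly between them), and is congruent to `1` modulo some prime divisor of `m`. -/
theorem result {G : Type*} [Group G] [Finite G] [Group.IsSolvable G] (m n : ℕ) (hG : Nat.card G = m * n) (hmn : Nat.Coprime m n) : ∃ (k : ℕ) (f : Fin k → ℕ), Nat.card {H : Subgroup G // Nat.card H = m} = ∏ i, f i ∧ ∀ i, (∃ q e : ℕ, q.Prime ∧ f i = q ^ e) ∧ (∃ K L : Subgroup G, K.Normal ∧ L.Normal ∧ K < L ∧ (∀ M : Subgroup G, M.Normal → K ≤ M → M ≤ L → M = K ∨ M = L) ∧ f i ∣ K.relIndex L) ∧ (∃ q : ℕ, q.Prime ∧ q ∣ m ∧ f i ≡ 1 [MOD q]) := by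
  obtain ⟨H, hH⟩ := hall_exists m n hG hmn
  have hidx : H.index = n := by
    have h1 := H.card_mul_index
    rw [hH, hG] at h1
    have hm : 0 < m := by
      rcases Nat.eq_zero_or_pos m with h | h
      · rw [h, zero_mul] at hG
        exact absurd hG Nat.card_pos.ne'
      · exact h
    exact Nat.eq_of_mul_eq_mul_left hm h1
  obtain ⟨l, hl, hl'⟩ := main _ G rfl H (by rw [hH, hidx]; exact hmn)
  rw [card_eq_index_normalizer m n hG hmn H hH, ← hl]
  refine ⟨l.length, l.get, ?_, ?_⟩
  · rw [← List.prod_ofFn, List.ofFn_get]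
  · intro i
    have := hl' (l.get i) (List.get_mem l i)
    rw [hH] at this
    exact this

end Cfsg.Agent.S4214
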