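import Cfsg.Statements.S4217
import Cfsg.Agent.Lib.Helper2Gaschutz

set_option autoImplicit false
set_option linter.unusedSectionVars false
set_option linter.style.haveILetI false
open Cfsg

namespace Cfsg.Agent.S4217

open Subgroup
open scoped IsMulCommutative

section Cross

variable {G : Type*} [Group G] (A : Subgroup G) [A.Normal] [IsMulCommutative A]

/-- crossed homomorphisms `G → A` restricting to the `k`-th power map on `A` -/
def IsCross (k : ℤ) (c : G → A) : Prop :=
  (∀ g h, c (g * h) = c g * MulAut.conjNormal g (c h)) ∧ ∀ b : A, c b = b ^ k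

theorem IsCross.add {k l : ℤ} {c d : G → A} (hc : IsCross A k c) (hd : IsCross A l d) :
    IsCross A (k + l) (fun g => c g * d g) := by
  refine ⟨fun g h => ?_, fun b => ?_⟩
  · simp only [hc.1 g h, hd.1 g h, map_mul]
    exact mul_mul_mul_comm _ _ _ _
  · simp only [hc.2 b, hd.2 b, zpow_add]

theorem IsCross.neg {k : ℤ} {c : G → A} (hc : IsCross A k c) :
    IsCross A (-k) (fun g => (c g)⁻¹) := by
  refine ⟨fun g h => ?_, fun b => ?_⟩
  · simp only [hc.1 g h, map_inv, mul_inv]
  · simp only [hc.2 b, zpow_neg]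

theorem IsCross.zero : IsCross A 0 (fun _ => 1) := by
  refine ⟨fun g h => ?_, fun b => ?_⟩
  · simp
  · simp

/-- the set of `k` for which a crossed homomorphism exists -/
def crossIdeal : AddSubgroup ℤ where
  carrier := {k | ∃ c, IsCross A k c}
  add_mem' := by
    rintro k l ⟨c, hc⟩ ⟨d, hd⟩
    exact ⟨_, hc.add A hd⟩
  zero_mem' := ⟨_, IsCross.zero A⟩
  neg_mem' := by
    rintro k ⟨c, hc⟩
    exact ⟨_, hc.neg A⟩

theorem exists_complement_of_cross {c : G → A} (hc : IsCross A 1 c) :
    ∃ K : Subgroup G, K.IsComplement' A := by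
  have h1 : c 1 = 1 := by
    have := hc.2 1
    simpa using this
  let L : Subgroup G :=
    { carrier := {g | c g = 1}
      mul_mem' := by
        intro a b ha hb
        show c (a * b) = 1
        rw [hc.1, show c a = 1 from ha, show c b = 1 from hb]; simp
      one_mem' := h1
      inv_mem' := by
        intro a ha
        show c a⁻¹ = 1
        have h2 := hc.1 a a⁻¹
        rw [mul_inv_cancel, h1, show c a = 1 from ha, one_mul] at h2
        have h3 : MulAut.conjNormal a (c a⁻¹) = MulAut.conjNormal a 1 := by rw [← h2, map_one]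
        exact (MulAut.conjNormal a).injective h3 }
  refine ⟨L, ?_⟩
  apply isComplement'_of_disjoint_and_mul_eq_univ
  · rw [Subgroup.disjoint_def]
    intro x hxL hxA
    have h2 := hc.2 ⟨x, hxA⟩
    rw [zpow_one] at h2
    have h3 : c x = 1 := hxL
    have h4 : (⟨x, hxA⟩ : A) = 1 := by rw [← h2]; exact h3
    exact congrArg Subtype.val h4
  · rw [Set.eq_univ_iff_forall]
    intro g
    -- g⁻¹ = b * l
    have key : ∀ x : G, ((c x : G))⁻¹ * x ∈ L := by
      intro x
      show c (((c x : G))⁻¹ * x) = 1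
      have h5 : c (((c x)⁻¹ : A) : G) = (c x)⁻¹ := by rw [hc.2, zpow_one]
      have h6 : ((c x : G))⁻¹ = (((c x)⁻¹ : A) : G) := rfl
      rw [h6, hc.1, h5]
      have h7 : MulAut.conjNormal (((c x)⁻¹ : A) : G) (c x) = c x := by
        rw [MulAut.conjNormal_val]
        simp
      rw [h7, inv_mul_cancel]
    refine ⟨(((c g⁻¹ : G))⁻¹ * g⁻¹)⁻¹, L.inv_mem (key g⁻¹), ((c g⁻¹ : G))⁻¹,
      A.inv_mem (c g⁻¹).2, by group⟩

theorem index_mem_crossIdeal [Finite G] (K : Subgroup G) (hK : K ⊓ A = ⊥) :
    ((K ⊔ A).index : ℤ) ∈ crossIdeal A := by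
  obtain ⟨π, hπ, -⟩ := Cfsg.Agent.Lib.Helper2Gaschutz.exists_isCrossed_of_complement
    (K := A) K (K ⊔ A) hK (sup_comm _ _)
  refine ⟨Cfsg.Agent.Lib.Helper2Gaschutz.delta (K ⊔ A) π, fun g h => ?_, fun b => ?_⟩
  · exact Cfsg.Agent.Lib.Helper2Gaschutz.delta_mul hπ g h
  · rw [Cfsg.Agent.Lib.Helper2Gaschutz.delta_coe hπ le_sup_right b, zpow_natCast]

end Cross

/-- Let `A` be an abelian normal subgroup of the finite group `G`. Then `A` has a complement in `G` if and only if, for every prime `p` dividing the index of `A`, there are a Sylow `p`-subgroup `S` of `G/A` and a subgroup `K` of `G` with `K ∩ A = 1` and `KA` equal to the preimage of `S` (that is, `A` has a complement in the preimage of a Sylow `p`-subgroup of `G/A`). -/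
theorem result {G : Type*} [Group G] [Finite G] (A : Subgroup G) [A.Normal] (hA : IsMulCommutative A) : (∃ K : Subgroup G, K.IsComplement' A) ↔ ∀ p : ℕ, p.Prime → p ∣ A.index → ∃ (S : Sylow p (G ⧸ A)) (K : Subgroup G), K ⊓ A = ⊥ ∧ K ⊔ A = (S : Subgroup (G ⧸ A)).comap (QuotientGroup.mk' A) := by
  constructor
  · rintro ⟨K, hK⟩ p hp hpA
    haveI : Fact p.Prime := ⟨hp⟩
    obtain ⟨S⟩ : Nonempty (Sylow p (G ⧸ A)) := inferInstance
    refine ⟨S, K ⊓ (S : Subgroup (G ⧸ A)).comap (QuotientGroup.mk' A), ?_, ?_⟩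
    · rw [inf_right_comm, hK.disjoint.eq_bot, bot_inf_eq]
    · have hAC : A ≤ (S : Subgroup (G ⧸ A)).comap (QuotientGroup.mk' A) := by
        intro a ha
        rw [Subgroup.mem_comap]
        have : QuotientGroup.mk' A a = 1 := by
          rw [QuotientGroup.mk'_apply, QuotientGroup.eq_one_iff]; exact ha
        rw [this]; exact one_mem _
      apply le_antisymm
      · exact sup_le inf_le_right hAC
      · intro x hx
        have hx' : x ∈ (K ⊔ A : Subgroup G) := by rw [hK.sup_eq_top]; trivial
        rw [← SetLike.mem_coe, Subgroup.mul_normal] at hx'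
        obtain ⟨k, hk, a, ha, rfl⟩ := hx'
        refine mul_mem (mem_sup_left ⟨hk, ?_⟩) (mem_sup_right ha)
        have := mul_mem hx (inv_mem (hAC ha))
        rwa [mul_inv_cancel_right] at this
  · intro h
    obtain ⟨d, hd⟩ := Int.subgroup_cyclic (crossIdeal A)
    have hmem : ∀ k : ℤ, k ∈ crossIdeal A → d ∣ k := by
      intro k hk
      rw [hd, AddSubgroup.mem_closure_singleton] at hk
      obtain ⟨n, rfl⟩ := hk
      exact ⟨n, by simp [mul_comm]⟩
    have hdmem : d ∈ crossIdeal A := by
      rw [hd]; exact AddSubgroup.mem_closure_singleton_self d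
    have h1 : d ∣ (A.index : ℤ) := by
      have := index_mem_crossIdeal A ⊥ (bot_inf_eq _)
      rw [bot_sup_eq] at this
      exact hmem _ this
    have hunit : d.natAbs = 1 := by
      by_contra hne
      obtain ⟨q, hq, hqd⟩ := Nat.exists_prime_and_dvd hne
      have hqA : q ∣ A.index := by
        have : d.natAbs ∣ A.index := Int.natAbs_dvd_natAbs.2 h1
        exact hqd.trans this
      obtain ⟨S, K, hKA, hKS⟩ := h q hq hqA
      haveI : Fact q.Prime := ⟨hq⟩
      have h2 := hmem _ (index_mem_crossIdeal A K hKA)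
      rw [hKS, Subgroup.index_comap_of_surjective _ (QuotientGroup.mk'_surjective A)] at h2
      have h3 : d.natAbs ∣ (S : Subgroup (G ⧸ A)).index := Int.natAbs_dvd_natAbs.2 h2
      exact S.not_dvd_index (hqd.trans h3)
    have hone : (1 : ℤ) ∈ crossIdeal A := by
      rcases Int.natAbs_eq d with h4 | h4
      · rw [hunit] at h4
        rw [h4] at hdmem; exact hdmem
      · rw [hunit] at h4
        have := (crossIdeal A).neg_mem hdmem
        rw [h4] at this
        simpa using this
    obtain ⟨c, hc⟩ := hone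
    exact exists_complement_of_cross A hc

end Cfsg.Agent.S4217
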