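import Cfsg.Statements.S4223

set_option autoImplicit false
set_option linter.unusedSectionVars false
open Cfsg

namespace Cfsg.Agent.S4223

theorem exists_idem_iter {M : Type*} [Finite M] (F : M → M) :
    ∃ k : ℕ, 0 < k ∧ F^[k + k] = F^[k] := by
  obtain ⟨i, j, hij, h⟩ := Finite.exists_ne_map_eq_of_infinite (fun n : ℕ => F^[n])
  wlog hlt : i < j generalizing i j
  · exact this j i hij.symm h.symm (lt_of_le_of_ne (not_lt.mp hlt) hij.symm)
  obtain ⟨d, rfl⟩ : ∃ d, j = i + d := ⟨j - i, by omega⟩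
  have hd : 0 < d := by omega
  have h' : F^[i + d] = F^[i] := h.symm
  have h1 : ∀ m, i ≤ m → F^[m + d] = F^[m] := by
    intro m hm
    obtain ⟨e, rfl⟩ : ∃ e, m = e + i := ⟨m - i, by omega⟩
    rw [add_assoc, Function.iterate_add, h', ← Function.iterate_add]
  have h2 : ∀ t m, i ≤ m → F^[m + t * d] = F^[m] := by
    intro t
    induction t with
    | zero => intro m _; simp
    | succ t ih =>
      intro m hm
      rw [Nat.succ_mul, ← add_assoc, h1 _ (by omega), ih m hm]
  refine ⟨(i + 1) * d, Nat.mul_pos (Nat.succ_pos i) hd, ?_⟩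
  apply h2
  nlinarith

def Indec (A : Type*) [Group A] : Prop :=
  Nontrivial A ∧ ∀ H K : Subgroup A, H.Normal → K.Normal → H ⊓ K = ⊥ → H ⊔ K = ⊤ → H = ⊥ ∨ K = ⊥

def NormalEnd {A : Type*} [Group A] (f : A →* A) : Prop := ∀ x a, f (x * a * x⁻¹) = x * f a * x⁻¹

theorem NormalEnd.comp {A : Type*} [Group A] {f g : A →* A} (hf : NormalEnd f) (hg : NormalEnd g) :
    NormalEnd (f.comp g) := by
  intro x a
  simp only [MonoidHom.comp_apply]
  rw [hg, hf]

def pw {A : Type*} [Group A] (f : A →* A) : ℕ → (A →* A)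
  | 0 => MonoidHom.id A
  | (k + 1) => (pw f k).comp f

theorem pw_apply {A : Type*} [Group A] (f : A →* A) (k : ℕ) (a : A) : pw f k a = f^[k] a := by
  induction k generalizing a with
  | zero => rfl
  | succ k ih =>
    show pw f k (f a) = _
    rw [ih, Function.iterate_succ_apply]

theorem NormalEnd.pw {A : Type*} [Group A] {f : A →* A} (hf : NormalEnd f) (k : ℕ) :
    NormalEnd (pw f k) := by
  induction k with
  | zero => intro x a; rfl
  | succ k ih => exact NormalEnd.comp ih hf

theorem fitting {A : Type*} [Group A] [Finite A] (hA : Indec A) (f : A →* A) (hf : NormalEnd f) :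
    Function.Injective f ∨ ∃ k : ℕ, ∀ a, f^[k] a = 1 := by
  obtain ⟨k, hk, hidem⟩ := exists_idem_iter (f : A → A)
  set g : A →* A := pw f k with hg
  have hgn : NormalEnd g := hf.pw k
  have hgg : ∀ a, g (g a) = g a := fun a => by
    have := congrFun hidem a
    rw [Function.iterate_add_apply] at this
    rw [hg, pw_apply, pw_apply]; exact this
  have hn1 : (MonoidHom.ker g).Normal := inferInstance
  have hn2 : (MonoidHom.range g).Normal := by
    constructor
    rintro _ ⟨a, rfl⟩ x
    exact ⟨x * a * x⁻¹, hgn x a⟩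
  have hinf : MonoidHom.ker g ⊓ MonoidHom.range g = ⊥ := by
    rw [eq_bot_iff]
    rintro _ ⟨h1, ⟨a, rfl⟩⟩
    have h1' : g a ∈ MonoidHom.ker g := h1
    rw [MonoidHom.mem_ker, hgg] at h1'
    rw [Subgroup.mem_bot]; exact h1'
  have hsup : MonoidHom.ker g ⊔ MonoidHom.range g = ⊤ := by
    rw [eq_top_iff]
    intro a _
    have : a = (a * (g a)⁻¹) * g a := by group
    rw [this]
    apply Subgroup.mul_mem_sup
    · rw [MonoidHom.mem_ker, map_mul, map_inv, hgg, mul_inv_cancel]
    · exact ⟨a, rfl⟩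
  rcases hA.2 _ _ hn1 hn2 hinf hsup with h | h
  · left
    have hginj : Function.Injective g := (MonoidHom.ker_eq_bot_iff g).mp h
    obtain ⟨k', rfl⟩ : ∃ k', k = k' + 1 := ⟨k - 1, by omega⟩
    intro a b hab
    apply hginj
    show pw f k' (f a) = pw f k' (f b)
    rw [hab]
  · right
    refine ⟨k, fun a => ?_⟩
    have : g a ∈ MonoidHom.range g := ⟨a, rfl⟩
    rw [h, Subgroup.mem_bot] at this
    rw [← pw_apply]
    exact this

/-- If `h₁ + h₂ = 1` and `h₁` is nilpotent then `h₂` is injective. -/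
theorem inj_of_nilp {A : Type*} [Group A] (h₁ h₂ : A →* A) (hsum : ∀ a, h₁ a * h₂ a = a)
    (k : ℕ) (hk : ∀ a, h₁^[k] a = 1) : Function.Injective h₂ := by
  rw [injective_iff_map_eq_one]
  intro a ha
  have h1 : h₁ a = a := by
    have := hsum a
    rwa [ha, mul_one] at this
  have h2 : ∀ n, h₁^[n] a = a := by
    intro n
    induction n with
    | zero => rfl
    | succ n ih => rw [Function.iterate_succ_apply, h1, ih]
  rw [← h2 k, hk]

section exchange
variable {A R : Type*} [Group A] [Group R] [Finite A] [Finite R] {κ : Type} [Fintype κ] [DecidableEq κ]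
  {B : κ → Type*} [∀ j, Group (B j)] [∀ j, Finite (B j)]

def res (B : κ → Type*) [∀ j, Group (B j)] (s : Finset κ) : (∀ j, B j) →* (∀ j, B j) where
  toFun g j := if j ∈ s then g j else 1
  map_one' := by funext j; by_cases hj : j ∈ s <;> simp [hj]
  map_mul' g h := by funext j; by_cases hj : j ∈ s <;> simp [hj]

theorem res_apply (s : Finset κ) (g : ∀ j, B j) (j : κ) : res B s g j = if j ∈ s then g j else 1 := rfl

def psi (e : A × R ≃* ∀ j, B j) (s : Finset κ) : A →* A :=
  (MonoidHom.fst A R).comp (e.symm.toMonoidHom.comp ((res B s).comp (e.toMonoidHom.comp (MonoidHom.inl A R))))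

theorem psi_apply (e : A × R ≃* ∀ j, B j) (s : Finset κ) (a : A) :
    psi e s a = (e.symm (res B s (e (a, 1)))).1 := rfl

theorem psi_univ (e : A × R ≃* ∀ j, B j) (a : A) : psi e Finset.univ a = a := by
  rw [psi_apply]
  have : res B Finset.univ (e (a, 1)) = e (a, 1) := by
    funext j; simp [res_apply]
  rw [this]; simp

theorem psi_empty (e : A × R ≃* ∀ j, B j) (a : A) : psi e ∅ a = 1 := by
  rw [psi_apply]
  have : res B ∅ (e (a, 1)) = 1 := by
    funext j; simp [res_apply]
  rw [this]; simp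

theorem psi_insert (e : A × R ≃* ∀ j, B j) {s : Finset κ} {j : κ} (hj : j ∉ s) (a : A) :
    psi e (insert j s) a = psi e {j} a * psi e s a := by
  rw [psi_apply, psi_apply, psi_apply]
  have : res B (insert j s) (e (a, 1)) = res B {j} (e (a, 1)) * res B s (e (a, 1)) := by
    funext i
    rw [Pi.mul_apply, res_apply, res_apply, res_apply]
    by_cases h1 : i = j
    · subst h1; simp [hj]
    · by_cases h2 : i ∈ s <;> simp [h1, h2]
  rw [this, map_mul]; rfl

theorem psi_normal (e : A × R ≃* ∀ j, B j) (s : Finset κ) : NormalEnd (psi e s) := by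
  intro x a
  rw [psi_apply, psi_apply]
  have h1 : ((x * a * x⁻¹, 1) : A × R) = (x, 1) * (a, 1) * (x, 1)⁻¹ := by
    ext <;> simp
  have h2 : res B s (e (x, 1) * e (a, 1) * (e (x, 1))⁻¹) = e (x, 1) * res B s (e (a, 1)) * (e (x, 1))⁻¹ := by
    funext i
    simp only [res_apply, Pi.mul_apply, Pi.inv_apply]
    by_cases h : i ∈ s <;> simp [h]
  have h3 : e ((x, 1) * (a, 1) * (x, 1)⁻¹) = e (x, 1) * e (a, 1) * (e (x, 1))⁻¹ := by
    rw [map_mul, map_mul, map_inv]
  rw [h1, h3, h2, map_mul, map_mul, map_inv]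
  simp

theorem exists_inj (hA : Indec A) (e : A × R ≃* ∀ j, B j) (s : Finset κ) :
    Function.Injective (psi e s) → ∃ j ∈ s, Function.Injective (psi e {j}) := by
  induction s using Finset.induction_on with
  | empty =>
    intro h
    exfalso
    obtain ⟨a, b, hab⟩ := hA.1.exists_pair_ne
    exact hab (h (by rw [psi_empty, psi_empty]))
  | insert j s hj ih =>
    intro h
    have hbij : Function.Bijective (psi e (insert j s)) := Finite.injective_iff_bijective.mp h
    let E : A ≃* A := MulEquiv.ofBijective (psi e (insert j s)) hbij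
    have hE : ∀ a, E a = psi e (insert j s) a := fun a => rfl
    have hEn : NormalEnd E.symm.toMonoidHom := by
      intro x a
      show E.symm (x * a * x⁻¹) = x * E.symm a * x⁻¹
      apply E.injective
      rw [E.apply_symm_apply, hE, psi_normal, ← hE, E.apply_symm_apply]
    let h₁ : A →* A := E.symm.toMonoidHom.comp (psi e {j})
    let h₂ : A →* A := E.symm.toMonoidHom.comp (psi e s)
    have hsum : ∀ a, h₁ a * h₂ a = a := by
      intro a
      show E.symm (psi e {j} a) * E.symm (psi e s a) = a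
      rw [← map_mul, ← psi_insert e hj, ← hE, E.symm_apply_apply]
    rcases fitting hA h₁ (hEn.comp (psi_normal e {j})) with h3 | ⟨k, hk⟩
    · refine ⟨j, Finset.mem_insert_self j s, ?_⟩
      exact Function.Injective.of_comp (f := E.symm) h3
    · have h4 := inj_of_nilp h₁ h₂ hsum k hk
      obtain ⟨i, hi, hi'⟩ := ih (Function.Injective.of_comp (f := E.symm) h4)
      exact ⟨i, Finset.mem_insert_of_mem hi, hi'⟩

theorem exchange (hA : Indec A) (hB : ∀ j, Indec (B j)) (e : A × R ≃* ∀ j, B j) :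
    ∃ j₀ : κ, Nonempty (A ≃* B j₀) ∧ Nonempty (R ≃* ∀ j : {j // j ≠ j₀}, B j) := by
  obtain ⟨j₀, -, hinj⟩ := exists_inj hA e Finset.univ (fun a b h => by rwa [psi_univ, psi_univ] at h)
  have hbij : Function.Bijective (psi e {j₀}) := Finite.injective_iff_bijective.mp hinj
  let α : A →* B j₀ := (Pi.evalMonoidHom B j₀).comp (e.toMonoidHom.comp (MonoidHom.inl A R))
  let β : B j₀ →* A := (MonoidHom.fst A R).comp (e.symm.toMonoidHom.comp (MonoidHom.mulSingle B j₀))
  have hα : ∀ a, α a = e (a, 1) j₀ := fun a => rfl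
  have hβ : ∀ y, β y = (e.symm (Pi.mulSingle j₀ y)).1 := fun y => rfl
  have hαβ : ∀ a, β (α a) = psi e {j₀} a := by
    intro a
    rw [hβ, hα, psi_apply]
    have : res B {j₀} (e (a, 1)) = Pi.mulSingle j₀ (e (a, 1) j₀) := by
      funext i
      rw [res_apply]
      by_cases h : i = j₀
      · subst h; simp
      · simp [h]
    rw [this]
  have hαinj : Function.Injective α := by
    intro a b hab
    apply hinj
    rw [← hαβ, ← hαβ, hab]
  have hβsurj : Function.Surjective β := by
    intro a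
    obtain ⟨a', rfl⟩ := hbij.2 a
    exact ⟨α a', hαβ a'⟩
  have hn1 : (MonoidHom.range α).Normal := by
    constructor
    rintro _ ⟨a, rfl⟩ y
    refine ⟨(e.symm (Pi.mulSingle j₀ y)).1 * a * (e.symm (Pi.mulSingle j₀ y)).1⁻¹, ?_⟩
    rw [hα, hα]
    have h1 : (((e.symm (Pi.mulSingle j₀ y)).1 * a * (e.symm (Pi.mulSingle j₀ y)).1⁻¹, 1) : A × R)
        = e.symm (Pi.mulSingle j₀ y) * (a, 1) * (e.symm (Pi.mulSingle j₀ y))⁻¹ := by
      ext <;> simp
    rw [h1, map_mul, map_mul, map_inv, e.apply_symm_apply]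
    simp
  have hn2 : (MonoidHom.ker β).Normal := inferInstance
  have hinf : MonoidHom.range α ⊓ MonoidHom.ker β = ⊥ := by
    rw [eq_bot_iff]
    rintro _ ⟨⟨a, rfl⟩, h2⟩
    have h2' : α a ∈ MonoidHom.ker β := h2
    rw [MonoidHom.mem_ker, hαβ] at h2'
    have : a = 1 := hinj (by rw [h2', map_one])
    rw [this, map_one]; exact Subgroup.one_mem _
  have hsup : MonoidHom.range α ⊔ MonoidHom.ker β = ⊤ := by
    rw [eq_top_iff]
    intro y _
    obtain ⟨a, ha⟩ := hbij.2 (β y)
    have : y = α a * ((α a)⁻¹ * y) := by group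
    rw [this]
    apply Subgroup.mul_mem_sup (show α a ∈ MonoidHom.range α from ⟨a, rfl⟩)
    rw [MonoidHom.mem_ker, map_mul, map_inv, hαβ, ha, inv_mul_cancel]
  have hβinj : Function.Injective β := by
    rcases (hB j₀).2 _ _ hn1 hn2 hinf hsup with h | h
    · exfalso
      obtain ⟨a, b, hab⟩ := hA.1.exists_pair_ne
      apply hab
      apply hαinj
      have h1 : α a ∈ MonoidHom.range α := ⟨a, rfl⟩
      have h2 : α b ∈ MonoidHom.range α := ⟨b, rfl⟩
      rw [h, Subgroup.mem_bot] at h1 h2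
      rw [h1, h2]
    · exact (MonoidHom.ker_eq_bot_iff β).mp h
  let Eβ : B j₀ ≃* A := MulEquiv.ofBijective β ⟨hβinj, hβsurj⟩
  refine ⟨j₀, ⟨Eβ.symm⟩, ?_⟩
  let θ : R →* ∀ j : {j // j ≠ j₀}, B j :=
    (MonoidHom.pi (fun j : {j // j ≠ j₀} => Pi.evalMonoidHom B j.1)).comp
      (e.toMonoidHom.comp (MonoidHom.inr A R))
  have hθ : ∀ r (j : {j // j ≠ j₀}), θ r j = e (1, r) j.1 := fun r j => rfl
  have hθinj : Function.Injective θ := by
    rw [injective_iff_map_eq_one]
    intro r hr
    have h1 : e (1, r) = Pi.mulSingle j₀ (e (1, r) j₀) := by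
      funext i
      by_cases h : i = j₀
      · subst h; simp
      · have := congrFun hr ⟨i, h⟩
        rw [hθ] at this
        simp only [Pi.one_apply] at this
        rw [this, Pi.mulSingle_eq_of_ne h]
    have h2 : β (e (1, r) j₀) = 1 := by
      rw [hβ, ← h1, e.symm_apply_apply]
    have h3 : e (1, r) j₀ = 1 := hβinj (by rw [h2, map_one])
    rw [h3, Pi.mulSingle_one] at h1
    have h4 : ((1, r) : A × R) = 1 := e.injective (by rw [h1, map_one])
    exact congrArg Prod.snd h4
  have hcard : Nat.card R = Nat.card (∀ j : {j // j ≠ j₀}, B j) := by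
    have c1 : Nat.card (A × R) = Nat.card (∀ j, B j) := Nat.card_congr e.toEquiv
    have c2 : Nat.card (∀ j, B j) = Nat.card (B j₀ × ∀ j : {j // j ≠ j₀}, B j) :=
      Nat.card_congr (Equiv.piSplitAt j₀ B)
    have c3 : Nat.card (B j₀) = Nat.card A := Nat.card_congr Eβ.toEquiv
    rw [Nat.card_prod, c2, Nat.card_prod, c3] at c1
    exact Nat.eq_of_mul_eq_mul_left Nat.card_pos c1
  have hθbij : Function.Bijective θ :=
    (Nat.bijective_iff_injective_and_card θ).mpr ⟨hθinj, hcard⟩
  exact ⟨MulEquiv.ofBijective θ hθbij⟩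

end exchange

theorem main (m : ℕ) : ∀ {A : Fin m → Type*} [∀ i, Group (A i)] [∀ i, Finite (A i)]
    (κ : Type) [Finite κ] {B : κ → Type*} [∀ j, Group (B j)] [∀ j, Finite (B j)]
    (_ : ∀ i, Indec (A i)) (_ : ∀ j, Indec (B j)) (_ : ((i : Fin m) → A i) ≃* ((j : κ) → B j)),
    ∃ σ : Fin m ≃ κ, ∀ i, Nonempty (A i ≃* B (σ i)) := by
  classical
  induction m with
  | zero =>
    intro A _ _ κ _ B _ _ hA hB e
    have hκ : IsEmpty κ := by
      constructor
      intro j
      obtain ⟨a, b, hab⟩ := (hB j).1.exists_pair_ne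
      apply hab
      have : e.symm (Pi.mulSingle j a) = e.symm (Pi.mulSingle j b) := Subsingleton.elim _ _
      have h2 := e.symm.injective this
      have h3 := congrFun h2 j
      simpa using h3
    exact ⟨Equiv.equivOfIsEmpty _ _, fun i => i.elim0⟩
  | succ m ih =>
    intro A _ _ κ _ B _ _ hA hB e
    have := Fintype.ofFinite κ
    let s : (A 0 × ((i : Fin m) → A i.succ)) ≃* ((i : Fin (m + 1)) → A i) :=
      { toFun := fun p => Fin.cons p.1 p.2
        invFun := fun f => (f 0, fun i => f i.succ)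
        left_inv := fun p => by simp
        right_inv := fun f => by
          funext i
          refine Fin.cases ?_ (fun i => ?_) i <;> simp
        map_mul' := fun p q => by
          funext i
          refine Fin.cases ?_ (fun i => ?_) i <;> simp }
    obtain ⟨j₀, ⟨e₀⟩, ⟨e₁⟩⟩ := exchange (hA 0) hB (s.trans e)
    obtain ⟨σ', hσ'⟩ := ih {j // j ≠ j₀} (fun i => hA i.succ) (fun j => hB j.1) e₁
    let σ : Fin (m + 1) ≃ κ :=
      (finSuccEquiv m).trans ((Equiv.optionCongr σ').trans (Equiv.optionSubtypeNe j₀))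
    refine ⟨σ, fun i => ?_⟩
    refine Fin.cases ?_ (fun i => ?_) i
    · have : σ 0 = j₀ := by simp [σ]
      rw [this]; exact ⟨e₀⟩
    · have : σ i.succ = (σ' i).1 := by simp [σ]
      rw [this]; exact hσ' i

theorem result {m n : ℕ} {A : Fin m → Type*} {B : Fin n → Type*} [∀ i, Group (A i)] [∀ j, Group (B j)] [∀ i, Finite (A i)] [∀ j, Finite (B j)] (hA : ∀ i, Nontrivial (A i) ∧ ∀ H K : Subgroup (A i), H.Normal → K.Normal → H ⊓ K = ⊥ → H ⊔ K = ⊤ → H = ⊥ ∨ K = ⊥) (hB : ∀ j, Nontrivial (B j) ∧ ∀ H K : Subgroup (B j), H.Normal → K.Normal → H ⊓ K = ⊥ → H ⊔ K = ⊤ → H = ⊥ ∨ K = ⊥) (e : ((i : Fin m) → A i) ≃* ((j : Fin n) → B j)) : ∃ σ : Fin m ≃ Fin n, ∀ i, Nonempty (A i ≃* B (σ i)) :=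
  main m (Fin n) hA hB e

end Cfsg.Agent.S4223
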