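import Cfsg.Statements.S4226
import Cfsg.Agent.S4215

set_option autoImplicit false
open Cfsg

namespace Cfsg.Agent.S4226

open scoped commutatorElement

/-- Let `P` be a Sylow `p`-subgroup of the finite group `G` with nilpotency class less than `p` (the term of index `p - 1` of the lower central series of `P`, indexed from `0`, is trivial), and let `N` be its normalizer. Then `O^p(N) = O^p(G) ∩ N`, where `O^p` denotes the subgroup generated by the elements of order prime to `p`; so the largest `p`-factor groups of `G` and of `N` are isomorphic. -/
theorem result {G : Type*} [Group G] [Finite G] {p : ℕ} [Fact p.Prime] (P : Sylow p G) (hcl : (P : Subgroup G).lowerCentralSeries (p - 1) = ⊥) : Cfsg.pResidualOf p (Subgroup.normalizer ((P : Subgroup G) : Set G)) = Cfsg.pResidual p G ⊓ Subgroup.normalizer ((P : Subgroup G) : Set G) := by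
  have hW : Cfsg.IsWeaklyClosed (P : Subgroup G) (P : Subgroup G) := by
    refine ⟨le_rfl, fun g hg => ?_⟩
    apply Subgroup.eq_of_le_of_card_ge hg
    rw [Subgroup.card_map_of_injective (MulAut.conj g).injective]
  apply Cfsg.Agent.S4215.result P _ hW
  intro u hu z hz
  have key : ∀ k : ℕ, (fun y : G => y⁻¹ * z⁻¹ * y * z)^[k] u ∈ (P : Subgroup G).lowerCentralSeries k := by
    intro k
    induction k with
    | zero => exact hu
    | succ k ih =>
      rw [Function.iterate_succ_apply', Subgroup.lowerCentralSeries_succ]
      have h1 := Subgroup.commutator_mem_commutator (Subgroup.inv_mem _ ih) (Subgroup.inv_mem _ hz)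
      rw [commutatorElement_def, inv_inv, inv_inv] at h1
      exact h1
  have h2 := key (p - 1)
  rw [hcl] at h2
  exact h2

end Cfsg.Agent.S4226
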