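import Cfsg.Statements.S4227
import Cfsg.Agent.S0144
import Cfsg.Agent.S0635
import Cfsg.Agent.Lib.Helper31PLength
import Cfsg.Agent.Lib.Helper66PLen
import Cfsg.Agent.Lib.Helper55PSolv
import Cfsg.Agent.Lib.Helper14Upper2

set_option autoImplicit false
open Cfsg

namespace Cfsg.Agent.S4227

open scoped commutatorElement

/-- abstract operator computation: `A₄ = ⟨a, x⟩` acting on an abelian group of exponent `3` such that
every element `y` of order `3` satisfies `1 + y + y² = 0`; then `a` acts trivially. -/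
theorem abs_lemma {U H : Type*} [CommGroup U] [Group H] (φ : H →* MulAut U)
    (h3 : ∀ u : U, u * u * u = 1)
    (hN : ∀ y : H, y ^ 3 = 1 → ∀ u : U, u * φ y u * φ y (φ y u) = 1)
    (a x : H) (hx : x ^ 3 = 1) (ha : a * a = 1)
    (hab : a * (x * a * x⁻¹) = (x * a * x⁻¹) * a)
    (habc : a * (x * a * x⁻¹) * (x * (x * a * x⁻¹) * x⁻¹) = 1) (u : U) : φ a u = u := by
  obtain ⟨b, hb⟩ : ∃ b, b = x * a * x⁻¹ := ⟨_, rfl⟩
  obtain ⟨c, hc⟩ : ∃ c, c = x * b * x⁻¹ := ⟨_, rfl⟩
  rw [← hb] at hab habc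
  rw [← hc] at habc
  have hxx : x * x * x = 1 := by rw [← hx]; simp only [pow_succ, pow_zero, one_mul]
  have hbb : b * b = 1 := by
    rw [hb]; calc x * a * x⁻¹ * (x * a * x⁻¹) = x * (a * a) * x⁻¹ := by group
      _ = 1 := by rw [ha]; group
  have hcc : c * c = 1 := by
    rw [hc]; calc x * b * x⁻¹ * (x * b * x⁻¹) = x * (b * b) * x⁻¹ := by group
      _ = 1 := by rw [hbb]; group
  have hc' : c = a * b := by
    calc c = (a * b * c) * c := by rw [habc, one_mul]
      _ = a * b * (c * c) := by group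
      _ = a * b := by rw [hcc, mul_one]
  have hxa : x * a = b * x := by rw [hb]; group
  have hxb : x * b = c * x := by rw [hc]; group
  have hxc : x * c = a * x := by
    have : x * c * x⁻¹ = a := by
      rw [hc, hb]
      calc x * (x * (x * a * x⁻¹) * x⁻¹) * x⁻¹ = (x * x * x) * a * (x * x * x)⁻¹ := by group
        _ = a := by rw [hxx]; group
    calc x * c = (x * c * x⁻¹) * x := by group
      _ = a * x := by rw [this]
  have hac : a * c = b := by rw [hc', ← mul_assoc, ha, one_mul]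
  have hca : c * a = b := by rw [hc', hab, mul_assoc, ha, mul_one]
  have hbc : b * c = a := by rw [hc', hab, ← mul_assoc, hbb, one_mul]
  have hcb : c * b = a := by rw [hc', mul_assoc, hbb, mul_one]
  have hba : b * a = c := by rw [hc', hab]
  -- squares and cubes
  have sq1 : (a * x) * (a * x) = c * (x * x) := by
    calc (a * x) * (a * x) = a * (x * a) * x := by group
      _ = a * (b * x) * x := by rw [hxa]
      _ = (a * b) * (x * x) := by group
      _ = c * (x * x) := by rw [hc']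
  have sq2 : (b * x) * (b * x) = a * (x * x) := by
    calc (b * x) * (b * x) = b * (x * b) * x := by group
      _ = b * (c * x) * x := by rw [hxb]
      _ = (b * c) * (x * x) := by group
      _ = a * (x * x) := by rw [hbc]
  have sq3 : (c * x) * (c * x) = b * (x * x) := by
    calc (c * x) * (c * x) = c * (x * c) * x := by group
      _ = c * (a * x) * x := by rw [hxc]
      _ = (c * a) * (x * x) := by group
      _ = b * (x * x) := by rw [hca]
  have cu1 : (a * x) ^ 3 = 1 := by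
    calc (a * x) ^ 3 = (a * x) * (a * x) * (a * x) := by simp only [pow_succ, pow_zero, one_mul]
      _ = c * (x * x) * (a * x) := by rw [sq1]
      _ = c * x * (x * a) * x := by group
      _ = c * x * (b * x) * x := by rw [hxa]
      _ = c * (x * b) * (x * x) := by group
      _ = c * (c * x) * (x * x) := by rw [hxb]
      _ = (c * c) * (x * x * x) := by group
      _ = 1 := by rw [hcc, hxx, one_mul]
  have cu2 : (b * x) ^ 3 = 1 := by
    calc (b * x) ^ 3 = (b * x) * (b * x) * (b * x) := by simp only [pow_succ, pow_zero, one_mul]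
      _ = a * (x * x) * (b * x) := by rw [sq2]
      _ = a * x * (x * b) * x := by group
      _ = a * x * (c * x) * x := by rw [hxb]
      _ = a * (x * c) * (x * x) := by group
      _ = a * (a * x) * (x * x) := by rw [hxc]
      _ = (a * a) * (x * x * x) := by group
      _ = 1 := by rw [ha, hxx, one_mul]
  have cu3 : (c * x) ^ 3 = 1 := by
    calc (c * x) ^ 3 = (c * x) * (c * x) * (c * x) := by simp only [pow_succ, pow_zero, one_mul]
      _ = b * (x * x) * (c * x) := by rw [sq3]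
      _ = b * x * (x * c) * x := by group
      _ = b * x * (a * x) * x := by rw [hxc]
      _ = b * (x * a) * (x * x) := by group
      _ = b * (b * x) * (x * x) := by rw [hxa]
      _ = (b * b) * (x * x * x) := by group
      _ = 1 := by rw [hbb, hxx, one_mul]
  have key : ∀ v : U, φ a v * φ b v * φ c v = 1 := by
    intro v
    obtain ⟨q, hq⟩ : ∃ q, q = φ x v := ⟨_, rfl⟩
    obtain ⟨p, hp⟩ : ∃ p, p = φ x q := ⟨_, rfl⟩
    have e1 : v * q * p = 1 := by rw [hp, hq]; exact hN x hx v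
    have e2 : v * φ a q * φ c p = 1 := by
      have := hN (a * x) cu1 v
      rw [← MulAut.mul_apply, ← map_mul, sq1] at this
      simpa [map_mul, MulAut.mul_apply, hp, hq] using this
    have e3 : v * φ b q * φ a p = 1 := by
      have := hN (b * x) cu2 v
      rw [← MulAut.mul_apply, ← map_mul, sq2] at this
      simpa [map_mul, MulAut.mul_apply, hp, hq] using this
    have e4 : v * φ c q * φ b p = 1 := by
      have := hN (c * x) cu3 v
      rw [← MulAut.mul_apply, ← map_mul, sq3] at this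
      simpa [map_mul, MulAut.mul_apply, hp, hq] using this
    have f1 : φ a v * φ a q * φ a p = 1 := by rw [← map_mul, ← map_mul, e1, map_one]
    have f2 : φ b v * φ b q * φ b p = 1 := by rw [← map_mul, ← map_mul, e1, map_one]
    have f3 : φ c v * φ c q * φ c p = 1 := by rw [← map_mul, ← map_mul, e1, map_one]
    have g : (φ a v * φ a q * φ a p) * (φ b v * φ b q * φ b p) * (φ c v * φ c q * φ c p) * (v * v * v)
        = (v * φ a q * φ c p) * (v * φ b q * φ a p) * (v * φ c q * φ b p) * (φ a v * φ b v * φ c v) := by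
      ac_rfl
    rw [f1, f2, f3, e2, e3, e4, h3 v] at g
    simpa using g.symm
  have k1 := key u
  have k2 := key (φ a u)
  rw [← MulAut.mul_apply, ← MulAut.mul_apply, ← MulAut.mul_apply, ← map_mul, ← map_mul, ← map_mul,
    ha, hba, hca, map_one, MulAut.one_apply] at k2
  have : φ a u * (φ b u * φ c u) = u * (φ b u * φ c u) := by
    rw [← mul_assoc, k1, mul_comm (φ b u), ← mul_assoc, k2]
  exact mul_right_cancel this

theorem abelian_case {L : Type*} [Group L] (h6 : ∀ g : L, g ^ 6 = 1) (U : Subgroup L) [hUn : U.Normal]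
    (hUc : ∀ u ∈ U, ∀ v ∈ U, u * v = v * u) (hU3 : ∀ u ∈ U, u ^ 3 = 1)
    (a x : L) (hx : x ^ 3 = 1) (ha : a * a = 1)
    (hab : a * (x * a * x⁻¹) = (x * a * x⁻¹) * a)
    (habc : a * (x * a * x⁻¹) * (x * (x * a * x⁻¹) * x⁻¹) = 1) : ∀ u ∈ U, a * u * a⁻¹ = u := by
  intro u hu
  let _ : CommGroup U := { (inferInstance : Group U) with
    mul_comm := fun u v => Subtype.ext (hUc u u.2 v v.2) }
  have h := abs_lemma (U := U) (H := L) (MulAut.conjNormal) ?_ ?_ a x hx ha hab habc ⟨u, hu⟩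
  · have := congrArg Subtype.val h
    simpa [MulAut.conjNormal_apply] using this
  · intro v
    apply Subtype.ext
    have := hU3 v v.2
    simpa [pow_succ] using this
  · intro y hy v
    apply Subtype.ext
    obtain ⟨v, hv⟩ := v
    show v * (y * v * y⁻¹) * (y * (y * v * y⁻¹) * y⁻¹) = 1
    obtain ⟨z, hz⟩ : ∃ z, z = v * (y * v * y⁻¹) * (y * (y * v * y⁻¹) * y⁻¹) := ⟨_, rfl⟩
    rw [← hz]
    have hyyy : y * y * y = 1 := by rw [← hy]; simp only [pow_succ, pow_zero, one_mul]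
    have hzU : z ∈ U := by
      rw [hz]
      have h1 := hUn.conj_mem v hv y
      exact U.mul_mem (U.mul_mem hv h1) (hUn.conj_mem _ h1 y)
    have hz1 : z = (v * y) * (v * y) * (v * y) := by
      calc z = v * (y * v * y⁻¹) * (y * (y * v * y⁻¹) * y⁻¹) * 1 := by rw [hz, mul_one]
        _ = v * (y * v * y⁻¹) * (y * (y * v * y⁻¹) * y⁻¹) * (y * y * y) := by rw [hyyy]
        _ = (v * y) * (v * y) * (v * y) := by group
    have hz2 : z * z = 1 := by
      rw [hz1, ← h6 (v * y)]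
      simp only [pow_succ, pow_zero, one_mul, mul_assoc]
    have hz3 : z * z * z = 1 := by
      rw [← hU3 z hzU]; simp only [pow_succ, pow_zero, one_mul]
    rw [hz2, one_mul] at hz3
    exact hz3

theorem general_case {L : Type*} [Group L] [Finite L] [Group.IsSolvable L] (h6 : ∀ g : L, g ^ 6 = 1)
    (a x : L) (hx : x ^ 3 = 1) (ha : a * a = 1)
    (hab : a * (x * a * x⁻¹) = (x * a * x⁻¹) * a)
    (habc : a * (x * a * x⁻¹) * (x * (x * a * x⁻¹) * x⁻¹) = 1) :
    ∀ n : ℕ, ∀ W : Subgroup L, W.Normal → (∀ w ∈ W, w ^ 3 = 1) → Nat.card W ≤ n →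
      ∀ w ∈ W, a * w * a⁻¹ = w := by
  intro n
  induction n with
  | zero =>
    intro W _ _ hc
    exact absurd hc (by have := Nat.card_pos (α := W); omega)
  | succ n ih =>
    intro W hWn hW3 hc w hw
    by_cases hbot : W = ⊥
    · subst hbot
      rw [Subgroup.mem_bot] at hw
      subst hw; group
    have hlt : ⁅W, W⁆ < W := Group.IsSolvable.commutator_lt_of_ne_bot hbot
    have hWn' : (⁅W, W⁆ : Subgroup L).Normal := inferInstance
    have hc' : Nat.card (⁅W, W⁆ : Subgroup L) ≤ n := by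
      have : Nat.card (⁅W, W⁆ : Subgroup L) < Nat.card W := by
        by_contra hh
        rw [not_lt] at hh
        exact hlt.ne (Subgroup.eq_of_le_of_card_ge hlt.le hh)
      omega
    have ih' := ih ⁅W, W⁆ hWn' (fun v hv => hW3 v (hlt.le hv)) hc'
    have hsurj := QuotientGroup.mk'_surjective (⁅W, W⁆ : Subgroup L)
    have hUn : (W.map (QuotientGroup.mk' (⁅W, W⁆ : Subgroup L))).Normal := hWn.map _ hsurj
    have h6' : ∀ g : L ⧸ (⁅W, W⁆ : Subgroup L), g ^ 6 = 1 := by
      intro g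
      obtain ⟨g, rfl⟩ := hsurj g
      rw [← map_pow, h6, map_one]
    have key := abelian_case h6' (W.map (QuotientGroup.mk' (⁅W, W⁆ : Subgroup L))) ?_ ?_
      (QuotientGroup.mk' _ a) (QuotientGroup.mk' _ x) ?_ ?_ ?_ ?_
      (QuotientGroup.mk' _ w) (Subgroup.mem_map_of_mem _ hw)
    · rw [← map_inv, ← map_mul, ← map_mul] at key
      have hv : w⁻¹ * (a * w * a⁻¹) ∈ (⁅W, W⁆ : Subgroup L) := by
        rw [← QuotientGroup.eq]
        exact key.symm
      obtain ⟨v, hvdef⟩ : ∃ v, v = w⁻¹ * (a * w * a⁻¹) := ⟨_, rfl⟩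
      rw [← hvdef] at hv
      have h1 : a * w * a⁻¹ = w * v := by rw [hvdef]; group
      have h2 : a * v * a⁻¹ = v := ih' v hv
      have hainv : a⁻¹ = a := inv_eq_of_mul_eq_one_left ha
      have h3 : w = w * v * v := by
        calc w = (a * a) * w * (a * a)⁻¹ := by rw [ha]; group
          _ = a * (a * w * a⁻¹) * a⁻¹ := by group
          _ = a * (w * v) * a⁻¹ := by rw [h1]
          _ = (a * w * a⁻¹) * (a * v * a⁻¹) := by group
          _ = w * v * v := by rw [h1, h2]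
      have h4 : v * v = 1 := by
        have : w * 1 = w * (v * v) := by rw [mul_one, ← mul_assoc]; exact h3
        exact (mul_left_cancel this).symm
      have h5 : v * v * v = 1 := by
        rw [← hW3 v (hlt.le hv)]; simp only [pow_succ, pow_zero, one_mul]
      rw [h4, one_mul] at h5
      rw [h1, h5, mul_one]
    · rintro _ ⟨u, hu, rfl⟩ _ ⟨v, hv, rfl⟩
      rw [← map_mul, ← map_mul]
      apply (QuotientGroup.eq).mpr
      have : (u * v)⁻¹ * (v * u) = ⁅v⁻¹, u⁻¹⁆ := by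
        rw [commutatorElement_def]; group
      rw [this]
      exact Subgroup.commutator_mem_commutator (W.inv_mem hv) (W.inv_mem hu)
    · rintro _ ⟨u, hu, rfl⟩
      rw [← map_pow, hW3 u hu, map_one]
    · rw [← map_pow, hx, map_one]
    · rw [← map_mul, ha, map_one]
    · simp only [← map_mul, ← map_inv]
      rw [hab]
    · simp only [← map_mul, ← map_inv]
      rw [habc, map_one]

/-- A finite group in which every element has order dividing `6` has `2`-length at most `1` and `3`-length at most `1`. -/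
theorem result {G : Type*} [Group G] [Finite G] (h : ∀ x : G, x ^ 6 = 1) : Cfsg.PLengthLE 2 1 G ∧ Cfsg.PLengthLE 3 1 G := by
  classical
  have hp2 : Fact (Nat.Prime 2) := ⟨Nat.prime_two⟩
  have hp3 : Fact (Nat.Prime 3) := ⟨Nat.prime_three⟩
  -- the order of `G`
  have hprime : ∀ p : ℕ, p.Prime → p ∣ Nat.card G → p = 2 ∨ p = 3 := by
    intro p hp hdvd
    have := Fact.mk hp
    obtain ⟨x, hx⟩ := exists_prime_orderOf_dvd_card' (G := G) p hdvd
    have h1 : p ∣ 6 := hx ▸ orderOf_dvd_of_pow_eq_one (h x)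
    have h2 : p ∣ 2 * 3 := h1
    rcases (Nat.Prime.dvd_mul hp).mp h2 with h3 | h3
    · exact Or.inl ((Nat.prime_dvd_prime_iff_eq hp Nat.prime_two).mp h3)
    · exact Or.inr ((Nat.prime_dvd_prime_iff_eq hp Nat.prime_three).mp h3)
  have hcard : ∃ a b, Nat.card G = 2 ^ a * 3 ^ b := by
    obtain ⟨a, m, hm, hG⟩ := Nat.exists_eq_pow_mul_and_not_dvd (n := Nat.card G) Nat.card_pos.ne' 2 (by norm_num)
    have hm0 : m ≠ 0 := by rintro rfl; exact hm (dvd_zero 2)
    obtain ⟨b, m', hm', hmm⟩ := Nat.exists_eq_pow_mul_and_not_dvd (n := m) hm0 3 (by norm_num)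
    refine ⟨a, b, ?_⟩
    have hm1 : m' = 1 := by
      by_contra hne
      obtain ⟨p, hp, hpd⟩ := Nat.exists_prime_and_dvd hne
      have hpm : p ∣ m := hmm ▸ Dvd.dvd.mul_left hpd _
      have hpG : p ∣ Nat.card G := hG ▸ Dvd.dvd.mul_left hpm _
      rcases hprime p hp hpG with rfl | rfl
      · exact hm hpm
      · exact hm' hpd
    rw [hG, hmm, hm1, mul_one]
  obtain ⟨ea, eb, hcard⟩ := hcard
  have hsol : Group.IsSolvable G := Cfsg.Agent.S0144.result 2 3 ea eb Nat.prime_two Nat.prime_three hcard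
  -- odd order elements have order dividing 3
  have hodd3 : ∀ {K : Type _} [Group K] (g : K), g ^ 6 = 1 → (orderOf g).Coprime 2 → g ^ 3 = 1 := by
    intro K _ g hg hc
    have h1 : orderOf g ∣ 2 * 3 := orderOf_dvd_of_pow_eq_one hg
    exact orderOf_dvd_iff_pow_eq_one.mp (hc.dvd_of_dvd_mul_left h1)
  -- the Sylow 2-subgroup
  let T : Sylow 2 G := default
  have hT2 : ∀ t ∈ T, t * t = 1 := by
    intro t ht
    obtain ⟨k, hk⟩ := T.isPGroup' ⟨t, ht⟩
    have hk' : t ^ 2 ^ k = 1 := congrArg Subtype.val hk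
    have h1 : orderOf t ∣ 2 ^ k := orderOf_dvd_of_pow_eq_one hk'
    have h2 : orderOf t ∣ 2 * 3 := orderOf_dvd_of_pow_eq_one (h t)
    have h3 : (orderOf t).Coprime 3 :=
      Nat.Coprime.coprime_dvd_left h1 (Nat.Coprime.pow_left k (by norm_num))
    have h4 : orderOf t ∣ 2 := h3.dvd_of_dvd_mul_right h2
    have := orderOf_dvd_iff_pow_eq_one.mp h4
    rwa [pow_two] at this
  have hTinv : ∀ t ∈ T, t⁻¹ = t := fun t ht => inv_eq_of_mul_eq_one_left (hT2 t ht)
  have hTc : ∀ s ∈ T, ∀ t ∈ T, s * t = t * s := by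
    intro s hs t ht
    have h1 := hTinv _ (T.mul_mem hs ht)
    rw [mul_inv_rev, hTinv s hs, hTinv t ht] at h1
    exact h1.symm
  have h2len : Cfsg.PLengthLE 2 1 G := by
    have h1 := Cfsg.Agent.S0635.result (Cfsg.Agent.Lib.Helper55PSolv.isPSolvable_of_isSolvable 2 hsol) T
    have hcomm : IsMulCommutative (↥(T : Subgroup G)) :=
      ⟨⟨fun s t => Subtype.ext (hTc s s.2 t t.2)⟩⟩
    have hnilT : Group.IsNilpotent (↥(T : Subgroup G)) := T.isPGroup'.isNilpotent
    have h2 : Group.nilpotencyClass (↥(T : Subgroup G)) ≤ 1 :=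
      Group.IsNilpotent.nilpotencyClass_le_one_iff.mpr hcomm
    exact Cfsg.Agent.Lib.Helper14Upper2.pLengthLE_mono 2 h2 h1
  refine ⟨h2len, ?_⟩
  -- the structure coming from 2-length one
  obtain ⟨W0, hW0⟩ : ∃ W0, W0 = pPrimeCore 2 G := ⟨_, rfl⟩
  have hW0n : W0.Normal := by rw [hW0]; infer_instance
  have hW0odd : (Nat.card W0).Coprime 2 := by
    rw [hW0]; exact Cfsg.Agent.Lib.Helper1Fitting.card_pPrimeCore_coprime 2
  have hW03 : ∀ w ∈ W0, w ^ 3 = 1 := by
    intro w hw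
    exact hodd3 w (h w) (Nat.Coprime.coprime_dvd_left (Subgroup.orderOf_dvd_natCard W0 hw) hW0odd)
  have hFr : W0 ⊔ Subgroup.normalizer ((T : Subgroup G) : Set G) = ⊤ := by
    rw [hW0]; exact Cfsg.Agent.Lib.Helper31PLength.pPrimeCore_sup_normalizer h2len T
  obtain ⟨M, hM⟩ : ∃ M, M = pPrimePCore 2 G := ⟨_, rfl⟩
  have hMn : M.Normal := by rw [hM]; unfold pPrimePCore; infer_instance
  have hMsup : W0 ⊔ (T : Subgroup G) = M := by
    rw [hW0, hM]; exact Cfsg.Agent.Lib.Helper31PLength.sup_sylow_eq h2len T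
  have hMidx : (M.index).Coprime 2 := by
    rw [hM]; exact (Cfsg.Agent.Lib.Helper31PLength.pLengthLE_one_iff 2 G).mp h2len
  obtain ⟨T0, hT0⟩ : ∃ T0, T0 = (T : Subgroup G) ⊓ Subgroup.centralizer (W0 : Set G) := ⟨_, rfl⟩
  have hmemT0 : ∀ g, g ∈ T0 ↔ g ∈ T ∧ ∀ w ∈ W0, w * g = g * w := by
    intro g
    rw [hT0, Subgroup.mem_inf, Subgroup.mem_centralizer_iff]
    rfl
  have hdecomp : ∀ g : G, ∃ w ∈ W0, ∃ n ∈ Subgroup.normalizer ((T : Subgroup G) : Set G), g = w * n := by
    intro g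
    have hg : g ∈ W0 ⊔ Subgroup.normalizer ((T : Subgroup G) : Set G) := hFr ▸ Subgroup.mem_top g
    obtain ⟨w, hw, n, hn, rfl⟩ := Subgroup.mem_sup_of_normal_left.mp hg
    exact ⟨w, hw, n, hn, rfl⟩
  have hnorm : ∀ n ∈ Subgroup.normalizer ((T : Subgroup G) : Set G), ∀ t ∈ T, n * t * n⁻¹ ∈ T := by
    intro n hn t ht
    exact (Subgroup.mem_normalizer_iff.mp hn t).mp ht
  have hT0n : T0.Normal := by
    refine ⟨fun s hs g => ?_⟩
    obtain ⟨w, hw, n, hn, rfl⟩ := hdecomp g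
    obtain ⟨hsT, hsC⟩ := (hmemT0 s).mp hs
    have h1 : n * s * n⁻¹ ∈ T0 := by
      refine (hmemT0 _).mpr ⟨hnorm n hn s hsT, fun v hv => ?_⟩
      have h2 := hsC (n⁻¹ * v * n) (by simpa using hW0n.conj_mem v hv n⁻¹)
      calc v * (n * s * n⁻¹) = n * ((n⁻¹ * v * n) * s) * n⁻¹ := by group
        _ = n * (s * (n⁻¹ * v * n)) * n⁻¹ := by rw [h2]
        _ = n * s * n⁻¹ * v := by group
    have h3 := ((hmemT0 _).mp h1).2 w hw
    have : w * n * s * (w * n)⁻¹ = n * s * n⁻¹ := by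
      calc w * n * s * (w * n)⁻¹ = (w * (n * s * n⁻¹)) * w⁻¹ := by group
        _ = (n * s * n⁻¹ * w) * w⁻¹ := by rw [h3]
        _ = n * s * n⁻¹ := by group
    rw [this]; exact h1
  -- the crux
  have crux : ∀ n ∈ Subgroup.normalizer ((T : Subgroup G) : Set G), ∀ t ∈ T, n * t * n⁻¹ * t⁻¹ ∈ T0 := by
    intro n hn t ht
    obtain ⟨s, hs⟩ : ∃ s, s = n ^ 3 := ⟨_, rfl⟩
    obtain ⟨x, hx⟩ : ∃ x, x = n ^ 4 := ⟨_, rfl⟩
    have hnx : n = x * s := by
      rw [hx, hs, ← pow_add]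
      calc n = n ^ 6 * n := by rw [h n, one_mul]
        _ = n ^ (4 + 3) := by rw [← pow_succ]
    have hx3 : x ^ 3 = 1 := by
      rw [hx, ← pow_mul, show 4 * 3 = 6 * 2 from rfl, pow_mul, h n, one_pow]
    have hs2 : s ^ 2 = 1 := by
      rw [hs, ← pow_mul]; exact h n
    have hsN : s ∈ Subgroup.normalizer ((T : Subgroup G) : Set G) := hs ▸ Subgroup.pow_mem _ hn 3
    have hxN : x ∈ Subgroup.normalizer ((T : Subgroup G) : Set G) := hx ▸ Subgroup.pow_mem _ hn 4
    have hsT : s ∈ T := by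
      have hP : IsPGroup 2 (Subgroup.zpowers s) := by
        rintro ⟨y, hy⟩
        obtain ⟨k, rfl⟩ := Subgroup.mem_zpowers_iff.mp hy
        refine ⟨1, Subtype.ext ?_⟩
        show (s ^ k) ^ 2 ^ 1 = 1
        rw [pow_one, ← zpow_natCast, ← zpow_mul, mul_comm, zpow_mul, zpow_natCast, hs2, one_zpow]
      have h1 := hP.inf_normalizer_sylow T
      have h2 : s ∈ Subgroup.zpowers s ⊓ (T : Subgroup G) := by
        rw [← h1]; exact ⟨Subgroup.mem_zpowers s, hsN⟩
      exact h2.2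
    obtain ⟨t1, ht1⟩ : ∃ t1, t1 = x * t * x⁻¹ := ⟨_, rfl⟩
    obtain ⟨t2, ht2⟩ : ∃ t2, t2 = x * t1 * x⁻¹ := ⟨_, rfl⟩
    have ht1T : t1 ∈ T := ht1 ▸ hnorm x hxN t ht
    have ht2T : t2 ∈ T := ht2 ▸ hnorm x hxN t1 ht1T
    have hxxx : x * x * x = 1 := by rw [← hx3]; simp only [pow_succ, pow_zero, one_mul]
    have ht3 : x * t2 * x⁻¹ = t := by
      rw [ht2, ht1]
      calc x * (x * (x * t * x⁻¹) * x⁻¹) * x⁻¹ = (x * x * x) * t * (x * x * x)⁻¹ := by group
        _ = t := by rw [hxxx]; group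
    have hnt : n * t * n⁻¹ = t1 := by
      rw [hnx, ht1]
      calc x * s * t * (x * s)⁻¹ = x * ((s * t) * s⁻¹) * x⁻¹ := by group
        _ = x * ((t * s) * s⁻¹) * x⁻¹ := by rw [hTc s hsT t ht]
        _ = x * t * x⁻¹ := by group
    rw [hnt, hTinv t ht]
    have haT : t1 * t ∈ T := T.mul_mem ht1T ht
    have hb : x * (t1 * t) * x⁻¹ = t2 * t1 := by rw [ht2, ht1]; group
    have hc : x * (t2 * t1) * x⁻¹ = t * t2 := by
      calc x * (t2 * t1) * x⁻¹ = (x * t2 * x⁻¹) * (x * t1 * x⁻¹) := by group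
        _ = t * t2 := by rw [ht3, ← ht2]
    refine (hmemT0 _).mpr ⟨haT, fun w hw => ?_⟩
    have := general_case h (t1 * t) x hx3 (hT2 _ haT) ?_ ?_ (Nat.card W0) W0 hW0n hW03 le_rfl w hw
    · calc w * (t1 * t) = (t1 * t * w * (t1 * t)⁻¹) * (t1 * t) := by rw [this]
        _ = t1 * t * w := by group
    · rw [hb]; exact hTc _ haT _ (T.mul_mem ht2T ht1T)
    · rw [hb, hc]
      have h1 : t1 * (t * t2) ∈ T := T.mul_mem ht1T (T.mul_mem ht ht2T)
      calc t1 * t * (t2 * t1) * (t * t2) = (t1 * (t * t2)) * (t1 * (t * t2)) := by group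
        _ = 1 := hT2 _ h1
  obtain ⟨R, hR⟩ : ∃ R, R = W0 ⊔ T0 := ⟨_, rfl⟩
  have hRn : R.Normal := by rw [hR]; infer_instance
  have hW0R : W0 ≤ R := hR ▸ le_sup_left
  have hT0R : T0 ≤ R := hR ▸ le_sup_right
  have hT0T : T0 ≤ (T : Subgroup G) := hT0 ▸ inf_le_left
  have hRM : R ≤ M := by
    rw [hR, ← hMsup]; exact sup_le le_sup_left (hT0T.trans le_sup_right)
  have hZ : ∀ t ∈ T, ∀ g : G, g * t * g⁻¹ * t⁻¹ ∈ R := by
    intro t ht g
    obtain ⟨w, hw, n, hn, rfl⟩ := hdecomp g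
    have h1 := crux n hn t ht
    have h2 : w * ((n * t * n⁻¹) * w⁻¹ * (n * t * n⁻¹)⁻¹) ∈ W0 :=
      W0.mul_mem hw (hW0n.conj_mem _ (W0.inv_mem hw) _)
    have : w * n * t * (w * n)⁻¹ * t⁻¹
        = (w * ((n * t * n⁻¹) * w⁻¹ * (n * t * n⁻¹)⁻¹)) * (n * t * n⁻¹ * t⁻¹) := by group
    rw [this]
    exact R.mul_mem (hW0R h2) (hT0R h1)
  -- nilpotency of `G ⧸ R`
  have hGM : IsPGroup 3 (G ⧸ M) := by
    intro q
    refine ⟨1, ?_⟩
    rw [pow_one]
    obtain ⟨g, rfl⟩ := QuotientGroup.mk'_surjective M q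
    apply hodd3
    · rw [← map_pow, h g, map_one]
    · exact Nat.Coprime.coprime_dvd_left (orderOf_dvd_natCard _) hMidx
  have hGMnil : Group.IsNilpotent (G ⧸ M) := hGM.isNilpotent
  have hnil : Group.IsNilpotent (G ⧸ R) := by
    refine Subgroup.isNilpotent_of_ker_le_center (QuotientGroup.map R M (MonoidHom.id G) hRM) ?_
    intro q hq
    obtain ⟨g, rfl⟩ := QuotientGroup.mk'_surjective R q
    rw [MonoidHom.mem_ker] at hq
    have hgM : g ∈ M := by
      have : (QuotientGroup.mk' M) g = 1 := hq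
      exact (QuotientGroup.eq_one_iff g).mp this
    rw [← hMsup] at hgM
    obtain ⟨w, hw, t, ht, rfl⟩ := Subgroup.mem_sup_of_normal_left.mp hgM
    rw [Subgroup.mem_center_iff]
    intro q'
    obtain ⟨g', rfl⟩ := QuotientGroup.mk'_surjective R q'
    have hw1 : QuotientGroup.mk' R w = 1 := (QuotientGroup.eq_one_iff w).mpr (hW0R hw)
    have h1 : QuotientGroup.mk' R (g' * t * g'⁻¹ * t⁻¹) = 1 := (QuotientGroup.eq_one_iff _).mpr (hZ t ht g')
    rw [map_mul, hw1, one_mul]
    rw [map_mul, map_mul, map_mul, map_inv, map_inv] at h1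
    have h2 := mul_inv_eq_one.mp h1
    exact mul_inv_eq_iff_eq_mul.mp h2
  let P : Sylow 3 (G ⧸ R) := default
  have hPn : (P : Subgroup (G ⧸ R)).Normal := inferInstance
  obtain ⟨D, hD⟩ : ∃ D, D = (P : Subgroup (G ⧸ R)).comap (QuotientGroup.mk' R) := ⟨_, rfl⟩
  have hDn : D.Normal := by rw [hD]; infer_instance
  have hRD : R ≤ D := hD ▸ Cfsg.Agent.Lib.Helper66PLen.le_comap_mk R _
  apply Cfsg.Agent.Lib.Helper66PLen.pLengthLE_of_len
  refine ⟨T0, D, ⟨inferInstance, hT0n, bot_le, ?_⟩, ⟨hT0n, hDn, hT0R.trans hRD, ?_⟩,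
    ⟨hDn, inferInstance, le_top, ?_⟩⟩
  · rw [Subgroup.relIndex_bot_left]
    obtain ⟨k, hk⟩ := (IsPGroup.iff_card).mp (T.isPGroup'.to_le hT0T)
    rw [hk]
    exact Nat.Coprime.pow_left k (by norm_num)
  · have h1 : R.relIndex D = Nat.card P := by
      rw [hD]; exact Cfsg.Agent.Lib.Helper66PLen.relIndex_comap_mk R _
    obtain ⟨k, hk⟩ := (IsPGroup.iff_card).mp P.isPGroup'
    have hW0p : IsPGroup 3 W0 := by
      rintro ⟨w, hw⟩
      exact ⟨1, Subtype.ext (by simpa using hW03 w hw)⟩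
    obtain ⟨j, hj⟩ := (IsPGroup.iff_card).mp hW0p
    have h2 : T0.relIndex R ∣ 3 ^ j := by
      rw [hR, Subgroup.relIndex_sup_right, ← hj]
      exact Subgroup.relIndex_dvd_card _ _
    obtain ⟨i, -, hi⟩ := (Nat.dvd_prime_pow Nat.prime_three).mp h2
    refine ⟨i + k, ?_⟩
    rw [← Subgroup.relIndex_mul_relIndex T0 R D hT0R hRD, hi, h1]
    rw [pow_add]
    congr 1
  · rw [Subgroup.relIndex_top_right, hD,
      Subgroup.index_comap_of_surjective _ (QuotientGroup.mk'_surjective R)]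
    exact ((Nat.Prime.coprime_iff_not_dvd Nat.prime_three).mpr P.not_dvd_index).symm

end Cfsg.Agent.S4227
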