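import Cfsg.Statements.S4275

set_option autoImplicit false
open Cfsg

namespace Cfsg.Agent.S4275

/-- Let G be a transitive group of permutations of a finite set Ω, let o ∈ Ω, and let α be an automorphism of G. Then α is induced by conjugation by a permutation of Ω normalizing G if and only if the image under α of the stabilizer of o fixes some point of Ω. -/
theorem result {Ω : Type*} [Fintype Ω] (G : Subgroup (Equiv.Perm Ω)) (htr : MulAction.IsPretransitive G Ω) (o : Ω) (α : G ≃* G) : (∃ σ : Equiv.Perm Ω, σ ∈ Subgroup.normalizer (G : Set (Equiv.Perm Ω)) ∧ ∀ g : G, ((α g : G) : Equiv.Perm Ω) = σ * (g : Equiv.Perm Ω) * σ⁻¹) ↔ ∃ ω : Ω, ∀ g ∈ (MulAction.stabilizer G o).map α.toMonoidHom, g • ω = ω := by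
  classical
  constructor
  · rintro ⟨σ, -, hσ⟩
    refine ⟨σ o, ?_⟩
    rintro g ⟨h, hh, rfl⟩
    have hh' : (h : Equiv.Perm Ω) o = o := hh
    change ((α h : G) : Equiv.Perm Ω) (σ o) = σ o
    rw [hσ h]
    simp [hh']
  · rintro ⟨ω, hω⟩
    have hc : ∀ x : Ω, ∃ g : G, g • o = x := fun x => htr.exists_smul_eq o x
    choose c hc using hc
    let f : Ω → Ω := fun x => α (c x) • ω
    have hf0 : ∀ g : G, f (g • o) = α g • ω := by
      intro g
      have h1 : (c (g • o))⁻¹ * g ∈ MulAction.stabilizer G o := by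
        rw [MulAction.mem_stabilizer_iff, mul_smul, inv_smul_eq_iff, hc]
      have h2 := hω (α ((c (g • o))⁻¹ * g)) ⟨_, h1, rfl⟩
      rw [map_mul, map_inv, mul_smul, inv_smul_eq_iff] at h2
      exact h2.symm
    have hf : ∀ (g : G) (x : Ω), f (g • x) = α g • f x := by
      intro g x
      conv_lhs => rw [← hc x, ← mul_smul, hf0, map_mul, mul_smul]
    have hsurj : Function.Surjective f := by
      intro y
      obtain ⟨g', hg'⟩ := htr.exists_smul_eq ω y
      obtain ⟨g, rfl⟩ := α.surjective g'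
      exact ⟨g • o, by rw [hf0, hg']⟩
    have hbij : Function.Bijective f := ⟨Finite.injective_iff_surjective.2 hsurj, hsurj⟩
    let σ : Equiv.Perm Ω := Equiv.ofBijective f hbij
    have hσ : ∀ g : G, ((α g : G) : Equiv.Perm Ω) = σ * (g : Equiv.Perm Ω) * σ⁻¹ := by
      intro g
      ext y
      have h1 : σ ((g : Equiv.Perm Ω) (σ⁻¹ y)) = ((α g : G) : Equiv.Perm Ω) (σ (σ⁻¹ y)) := hf g (σ⁻¹ y)
      simp only [Equiv.Perm.coe_mul, Function.comp_apply]
      rw [h1]
      simp
    refine ⟨σ, ?_, hσ⟩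
    rw [Subgroup.mem_normalizer_iff]
    intro h
    constructor
    · intro hh
      have := hσ ⟨h, hh⟩
      rw [← this]
      exact (α ⟨h, hh⟩).2
    · intro hh
      obtain ⟨g, hg⟩ := α.surjective ⟨_, hh⟩
      have h1 := hσ g
      rw [hg] at h1
      have h2 : h = (g : Equiv.Perm Ω) := by
        have h3 : σ * h * σ⁻¹ = σ * (g : Equiv.Perm Ω) * σ⁻¹ := h1
        simpa using h3
      rw [h2]; exact g.2

end Cfsg.Agent.S4275
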