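import Cfsg.Statements.S4276
import Cfsg.Agent.S4275

set_option autoImplicit false
set_option linter.unusedSectionVars false
open Cfsg

namespace Cfsg.Agent.S4276


theorem arith (n k N l a b : ℤ) (m : ℕ) (hm : Odd m) (hn : 2 ≤ n) (hk1 : 1 ≤ k) (hkn : k ≤ n)
    (hcop : IsCoprime k n) (h1 : N + l = k) (h2 : N + l * n = k ^ 2) (hl : 0 ≤ l)
    (h3 : a ^ 2 = N ^ m) (h4 : a + b * n = k ^ m) : k = 1 ∨ k = n - 1 := by
  obtain ⟨t, rfl⟩ := hm
  -- k ≠ n
  have hkn' : k ≠ n := by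
    rintro rfl
    have : IsUnit k := by
      have := hcop
      rwa [isCoprime_self] at this
    rcases Int.isUnit_iff.1 this with h | h <;> omega
  -- N ≥ 0
  have hN0 : 0 ≤ N := by
    by_contra hneg
    push Not at hneg
    have : N ^ (2 * t + 1) < 0 := Odd.pow_neg ⟨t, rfl⟩ hneg
    nlinarith [sq_nonneg a]
  -- N is a square
  obtain ⟨s, hs0, hs⟩ : ∃ s : ℤ, 0 ≤ s ∧ N = s ^ 2 := by
    by_cases hNz : N = 0
    · exact ⟨0, le_refl _, by rw [hNz]; ring⟩
    · have hpow : (N ^ t) ^ 2 ∣ a ^ 2 := by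
        rw [h3]; exact ⟨N, by ring⟩
      have hdvd : N ^ t ∣ a := (Int.pow_dvd_pow_iff (by norm_num)).1 hpow
      obtain ⟨c, rfl⟩ := hdvd
      have hne : (N ^ t) ^ 2 ≠ 0 := pow_ne_zero _ (pow_ne_zero _ hNz)
      have : (N ^ t) ^ 2 * c ^ 2 = (N ^ t) ^ 2 * N := by
        have e : (N ^ t * c) ^ 2 = N ^ (2 * t + 1) := h3
        calc (N ^ t) ^ 2 * c ^ 2 = (N ^ t * c) ^ 2 := by ring
          _ = N ^ (2 * t + 1) := e
          _ = (N ^ t) ^ 2 * N := by ring
      have hc : c ^ 2 = N := mul_left_cancel₀ hne this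
      exact ⟨|c|, abs_nonneg c, by rw [sq_abs, hc]⟩
  subst hs
  have ha : a = s ^ (2 * t + 1) ∨ a = -s ^ (2 * t + 1) := by
    have : a ^ 2 = (s ^ (2 * t + 1)) ^ 2 := by rw [h3]; ring
    exact sq_eq_sq_iff_eq_or_eq_neg.1 this
  -- coprimality of s and n
  have hsn : IsCoprime s n := by
    have h5 : IsCoprime (k ^ 2) n := hcop.pow_left
    rw [← h2] at h5
    have h6 : IsCoprime (s ^ 2) n := by
      exact (IsCoprime.add_mul_right_left_iff (x := s ^ 2) (y := n) (z := l)).1 h5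
    exact (IsCoprime.pow_left_iff (by norm_num)).1 h6
  have hsn' : IsCoprime (s ^ (2 * t)) n := hsn.pow_left
  -- k^(2t+1) ≡ k * s^(2t) mod n
  have hmod : n ∣ k ^ (2 * t + 1) - k * s ^ (2 * t) := by
    have h7 : n ∣ k ^ 2 - s ^ 2 := ⟨l, by linarith⟩
    have h8 : k ^ 2 - s ^ 2 ∣ (k ^ 2) ^ t - (s ^ 2) ^ t := sub_dvd_pow_sub_pow _ _ _
    have h9 : k ^ (2 * t + 1) - k * s ^ (2 * t) = k * ((k ^ 2) ^ t - (s ^ 2) ^ t) := by ring
    rw [h9]
    exact Dvd.dvd.mul_left (h7.trans h8) k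
  have hss : s ≤ s ^ 2 := by nlinarith
  have hsk : s ^ 2 ≤ k := by linarith
  rcases ha with ha | ha
  · -- n ∣ k - s
    have h10 : n ∣ s ^ (2 * t) * (k - s) := by
      have e : s ^ (2 * t) * (k - s) = -(k ^ (2 * t + 1) - k * s ^ (2 * t)) + b * n := by
        rw [← h4, ha]; ring
      rw [e]
      exact dvd_add (hmod.neg_right) (Dvd.intro_left b rfl)
    have h11 : n ∣ k - s := hsn'.symm.dvd_of_dvd_mul_left h10
    obtain ⟨c, hc⟩ := h11
    have hc0 : c = 0 := by
      by_contra hne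
      have hcpos : 0 ≤ k - s := by linarith
      have : 1 ≤ c := by
        by_contra hlt
        push Not at hlt
        have : c ≤ -1 := by omega
        nlinarith
      have h12 : n ≤ k - s := by nlinarith
      have : s = 0 := by linarith
      apply hkn'
      linarith
    rw [hc0, mul_zero] at hc
    have hks : k = s := by linarith
    left
    nlinarith
  · -- n ∣ k + s
    have h10 : n ∣ s ^ (2 * t) * (k + s) := by
      have e : s ^ (2 * t) * (k + s) = -(k ^ (2 * t + 1) - k * s ^ (2 * t)) + b * n := by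
        rw [← h4, ha]; ring
      rw [e]
      exact dvd_add (hmod.neg_right) (Dvd.intro_left b rfl)
    have h11 : n ∣ k + s := hsn'.symm.dvd_of_dvd_mul_left h10
    obtain ⟨c, hc⟩ := h11
    have hc1 : c = 1 := by
      have hpos : 0 < k + s := by linarith
      have hlt : k + s < 2 * n := by
        rcases lt_or_eq_of_le hkn with h | h
        · linarith
        · exact absurd h hkn'
      have hc_pos : 0 < c := by
        by_contra hle
        push Not at hle
        nlinarith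
      have hc_lt : c < 2 := by
        by_contra hge
        push Not at hge
        nlinarith
      omega
    rw [hc1, mul_one] at hc
    -- l * n = (k - s) * n
    have h13 : l * n = (k - s) * n := by
      have : l * n = k ^ 2 - s ^ 2 := by linarith
      rw [this, ← hc]; ring
    have hn0 : n ≠ 0 := by omega
    have h14 : l = k - s := mul_right_cancel₀ hn0 h13
    have h15 : s ^ 2 = s := by linarith
    have h16 : s = 0 ∨ s = 1 := by
      have : s * (s - 1) = 0 := by nlinarith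
      rcases mul_eq_zero.1 this with h | h
      · left; exact h
      · right; linarith
    rcases h16 with h | h
    · exfalso; apply hkn'; rw [h] at hc; linarith
    · right; rw [h] at hc; linarith



open Matrix

section Mat
variable {Ω : Type*} [Fintype Ω] [DecidableEq Ω]

/-- `M` has diagonal entries `d` and off-diagonal entries `e`. -/
def Form (M : Matrix Ω Ω ℤ) (d e : ℤ) : Prop := ∀ x y, M x y = if x = y then d else e

theorem Form.mulVec_eq {M : Matrix Ω Ω ℤ} {d e : ℤ} (h : Form M d e) (v : Ω → ℤ) (hv : ∑ x, v x = 0) :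
    M *ᵥ v = (d - e) • v := by
  ext x
  simp only [Matrix.mulVec, dotProduct, Pi.smul_apply, smul_eq_mul]
  have : ∀ y, M x y * v y = (if x = y then (d - e) * v y else 0) + e * v y := by
    intro y; rw [h x y]; split_ifs <;> ring
  simp_rw [this]
  rw [Finset.sum_add_distrib, ← Finset.mul_sum, hv]
  simp

theorem Form.rowSum {M : Matrix Ω Ω ℤ} {d e : ℤ} (h : Form M d e) (x : Ω) :
    ∑ y, M x y = d + ((Fintype.card Ω : ℤ) - 1) * e := by
  have : ∀ y, M x y = (if x = y then (d - e) else 0) + e := by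
    intro y; rw [h x y]; split_ifs <;> ring
  simp_rw [this]
  rw [Finset.sum_add_distrib]
  simp
  ring

theorem Form.transpose {M : Matrix Ω Ω ℤ} {d e : ℤ} (h : Form M d e) : Form Mᵀ d e := fun x y => by
  rw [Matrix.transpose_apply, h y x]; simp [eq_comm]

theorem pow_mulVec_eq (M : Matrix Ω Ω ℤ) (v : Ω → ℤ) (c : ℤ) (h : M *ᵥ v = c • v) (m : ℕ) :
    (M ^ m) *ᵥ v = (c ^ m) • v := by
  induction m with
  | zero => simp
  | succ i ih =>
    rw [pow_succ, ← Matrix.mulVec_mulVec, h, Matrix.mulVec_smul, ih, smul_smul, pow_succ, mul_comm]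

theorem matrix_key (B : Matrix Ω Ω ℤ) (k : ℤ) (m : ℕ) (x0 y0 : Ω) (hxy : x0 ≠ y0)
    (h01 : ∀ x y, B x y = 0 ∨ B x y = 1)
    (hrow : ∀ x, ∑ y, B x y = k) (hcol : ∀ y, ∑ x, B x y = k)
    {d1 e1 d2 e2 dm em : ℤ} (h1 : Form (B * Bᵀ) d1 e1) (h2 : Form (Bᵀ * B) d2 e2)
    (hm : Form (B ^ m) dm em) :
    d1 = k ∧ d1 + ((Fintype.card Ω : ℤ) - 1) * e1 = k ^ 2 ∧ 0 ≤ e1 ∧
      (dm - em) ^ 2 = (d1 - e1) ^ m ∧ dm + ((Fintype.card Ω : ℤ) - 1) * em = k ^ m := by
  have hsq : ∀ x y, B x y * B x y = B x y := by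
    intro x y; rcases h01 x y with h | h <;> rw [h] <;> norm_num
  have hnn : ∀ x y, 0 ≤ B x y := by
    intro x y; rcases h01 x y with h | h <;> rw [h] <;> norm_num
  have hcard : (2 : ℤ) ≤ Fintype.card Ω := by
    have : 1 < Fintype.card Ω := Fintype.one_lt_card_iff.2 ⟨x0, y0, hxy⟩
    exact_mod_cast this
  have hd1 : d1 = k := by
    have := h1 x0 x0
    rw [if_pos rfl, Matrix.mul_apply] at this
    rw [← this, ← hrow x0]
    exact Finset.sum_congr rfl (fun y _ => by rw [Matrix.transpose_apply, hsq])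
  have hd2 : d2 = k := by
    have := h2 x0 x0
    rw [if_pos rfl, Matrix.mul_apply] at this
    rw [← this, ← hcol x0]
    exact Finset.sum_congr rfl (fun y _ => by rw [Matrix.transpose_apply, hsq])
  have hB1 : B *ᵥ (fun _ => (1 : ℤ)) = k • (fun _ => (1 : ℤ)) := by
    ext x; simp [Matrix.mulVec, dotProduct, hrow]
  have hBt1 : Bᵀ *ᵥ (fun _ => (1 : ℤ)) = k • (fun _ => (1 : ℤ)) := by
    ext x; simp [Matrix.mulVec, dotProduct, hcol]
  have hs1 : d1 + ((Fintype.card Ω : ℤ) - 1) * e1 = k ^ 2 := by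
    rw [← h1.rowSum x0]
    have : ((B * Bᵀ) *ᵥ (fun _ => (1 : ℤ))) x0 = k ^ 2 := by
      rw [← Matrix.mulVec_mulVec, hBt1, Matrix.mulVec_smul, hB1]
      simp [sq]
    rw [← this]
    simp [Matrix.mulVec, dotProduct]
  have hs2 : d2 + ((Fintype.card Ω : ℤ) - 1) * e2 = k ^ 2 := by
    rw [← h2.rowSum x0]
    have : ((Bᵀ * B) *ᵥ (fun _ => (1 : ℤ))) x0 = k ^ 2 := by
      rw [← Matrix.mulVec_mulVec, hB1, Matrix.mulVec_smul, hBt1]
      simp [sq]
    rw [← this]
    simp [Matrix.mulVec, dotProduct]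
  have he : e1 = e2 := by
    have h3 : ((Fintype.card Ω : ℤ) - 1) * e1 = ((Fintype.card Ω : ℤ) - 1) * e2 := by
      rw [hd1] at hs1; rw [hd2] at hs2; linarith
    exact mul_left_cancel₀ (by omega) h3
  have hcomm : B * Bᵀ = Bᵀ * B := by
    ext x y
    rw [h1 x y, h2 x y, hd1, hd2, he]
  have he0 : 0 ≤ e1 := by
    have := h1 x0 y0
    rw [if_neg hxy, Matrix.mul_apply] at this
    rw [← this]
    exact Finset.sum_nonneg (fun z _ => mul_nonneg (hnn _ _) (by rw [Matrix.transpose_apply]; exact hnn _ _))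
  refine ⟨hd1, hs1, he0, ?_, ?_⟩
  · let v : Ω → ℤ := Pi.single x0 1 - Pi.single y0 1
    have hv : ∑ x, v x = 0 := by
      simp [v, Finset.sum_sub_distrib]
    have hvx : v x0 = 1 := by
      simp [v, Pi.single_apply, hxy]
    have e1' : ((B * Bᵀ) ^ m) *ᵥ v = ((d1 - e1) ^ m) • v :=
      pow_mulVec_eq _ _ _ (h1.mulVec_eq v hv) m
    have e2' : (B * Bᵀ) ^ m = B ^ m * (B ^ m)ᵀ := by
      have : Commute B Bᵀ := hcomm
      rw [this.mul_pow, Matrix.transpose_pow]
    rw [e2', ← Matrix.mulVec_mulVec, hm.transpose.mulVec_eq v hv, Matrix.mulVec_smul,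
      hm.mulVec_eq v hv] at e1'
    have := congrFun e1' x0
    simp only [Pi.smul_apply, smul_eq_mul, hvx, mul_one] at this
    rw [← this]; ring
  · rw [← hm.rowSum x0]
    have : ((B ^ m) *ᵥ (fun _ => (1 : ℤ))) x0 = k ^ m := by
      rw [pow_mulVec_eq _ _ _ hB1 m]
      simp
    rw [← this]
    simp [Matrix.mulVec, dotProduct]

end Mat





section Grp
variable {Ω : Type*} [Fintype Ω] [DecidableEq Ω] {G : Subgroup (Equiv.Perm Ω)}

/-- twisted invariance -/
def Tw (β γ : MulAut G) (M : Matrix Ω Ω ℤ) : Prop :=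
  ∀ (g : G) (x y : Ω), M (β g • x) (γ g • y) = M x y

theorem Tw.mul {β γ δ : MulAut G} {M1 M2 : Matrix Ω Ω ℤ} (h1 : Tw β γ M1) (h2 : Tw γ δ M2) :
    Tw β δ (M1 * M2) := by
  intro g x z
  simp only [Matrix.mul_apply]
  rw [← Equiv.sum_comp (MulAction.toPerm (γ g))]
  apply Finset.sum_congr rfl
  intro y _
  simp only [MulAction.toPerm_apply]
  rw [h1, h2]

theorem Tw.transpose {β γ : MulAut G} {M : Matrix Ω Ω ℤ} (h : Tw β γ M) : Tw γ β Mᵀ := by
  intro g x y
  simp only [Matrix.transpose_apply]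
  exact h g y x

theorem Tw.precomp {β γ : MulAut G} {M : Matrix Ω Ω ℤ} (h : Tw β γ M) (θ : MulAut G) :
    Tw (β * θ) (γ * θ) M := by
  intro g x y
  simp only [MulAut.mul_apply]
  exact h (θ g) x y

theorem Tw.pow {α : MulAut G} {B : Matrix Ω Ω ℤ} (h : Tw α 1 B) (i : ℕ) : Tw (α ^ i) 1 (B ^ i) := by
  induction i with
  | zero =>
    intro g x y
    simp only [pow_zero, MulAut.one_apply, Matrix.one_apply]
    simp
  | succ i ih =>
    rw [pow_succ', pow_succ']
    have := h.precomp (α ^ i)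
    rw [one_mul] at this
    exact this.mul ih

theorem Tw.form {M : Matrix Ω Ω ℤ} (h : Tw (G := G) 1 1 M)
    (h2 : ∀ {a b c d : Ω} (_ : a ≠ b) (_ : c ≠ d), ∃ g : G, g • a = c ∧ g • b = d)
    (x0 y0 : Ω) (hxy : x0 ≠ y0) : Form M (M x0 x0) (M x0 y0) := by
  intro x y
  split_ifs with hx
  · subst hx
    by_cases hx0 : x = x0
    · rw [hx0]
    · obtain ⟨g, hg, -⟩ := h2 (Ne.symm hx0) hx0
      have := h g x0 x0
      simp only [MulAut.one_apply, hg] at this
      exact this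
  · obtain ⟨g, hg1, hg2⟩ := h2 hxy hx
    have := h g x0 y0
    simp only [MulAut.one_apply, hg1, hg2] at this
    exact this

end Grp


theorem core {Ω : Type*} [Fintype Ω] [DecidableEq Ω] (G : Subgroup (Equiv.Perm Ω))
    (h2 : ∀ {a b c d : Ω} (_ : a ≠ b) (_ : c ≠ d), ∃ g : G, g • a = c ∧ g • b = d)
    (o : Ω) (α : MulAut G) (hα : Odd (orderOf α)) (Δ : Set Ω)
    (hΔ : ∀ h : G, h • o = o → ∀ x, x ∈ Δ → α h • x ∈ Δ)
    (hne : Δ.Nonempty) (x0 y0 : Ω) (hxy : x0 ≠ y0)
    (hk : (Nat.card Δ).Coprime (Fintype.card Ω)) :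
    Nat.card Δ = 1 ∨ Nat.card Δ = Fintype.card Ω - 1 := by
  classical
  have htr : ∀ x y : Ω, ∃ g : G, g • x = y := by
    intro x y
    by_cases h : x = y
    · exact ⟨1, by rw [one_smul, h]⟩
    · obtain ⟨g, hg, -⟩ := h2 h (Ne.symm h)
      exact ⟨g, hg⟩
  let R : Ω → Ω → Prop := fun x y => ∃ g : G, g • o = y ∧ (α g)⁻¹ • x ∈ Δ
  let B : Matrix Ω Ω ℤ := Matrix.of fun x y => if R x y then 1 else 0
  have hR : ∀ (g : G) (x y : Ω), R x y → R (α g • x) (g • y) := by
    rintro g x y ⟨g0, hg0, hx⟩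
    refine ⟨g * g0, by rw [mul_smul, hg0], ?_⟩
    rw [map_mul, _root_.mul_inv_rev, mul_smul, inv_smul_smul]
    exact hx
  have hR' : ∀ (g : G) (x y : Ω), R (α g • x) (g • y) ↔ R x y := by
    intro g x y
    refine ⟨fun h => ?_, hR g x y⟩
    have := hR g⁻¹ _ _ h
    rwa [map_inv, inv_smul_smul, inv_smul_smul] at this
  have hTw : Tw α 1 B := by
    intro g x y
    simp only [B, Matrix.of_apply, MulAut.one_apply, hR']
  have h01 : ∀ x y, B x y = 0 ∨ B x y = 1 := by
    intro x y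
    simp only [B, Matrix.of_apply]
    split_ifs
    · right; rfl
    · left; rfl
  have hRo : ∀ x, R x o ↔ x ∈ Δ := by
    intro x
    constructor
    · rintro ⟨g, hg, hx⟩
      have := hΔ g hg _ hx
      rwa [smul_inv_smul] at this
    · intro hx
      exact ⟨1, one_smul _ _, by simpa using hx⟩
  have hso : ∑ x, B x o = (Nat.card Δ : ℤ) := by
    simp only [B, Matrix.of_apply, hRo]
    rw [Finset.sum_boole, Nat.card_eq_fintype_card, Fintype.card_subtype]
  have hcol : ∀ y, ∑ x, B x y = (Nat.card Δ : ℤ) := by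
    intro y
    obtain ⟨g, rfl⟩ := htr o y
    rw [← hso, ← Equiv.sum_comp (MulAction.toPerm (α g))]
    apply Finset.sum_congr rfl
    intro x _
    exact hTw g x o
  have hrow0 : ∀ x, ∑ y, B x y = ∑ y, B x0 y := by
    intro x
    obtain ⟨g', rfl⟩ := htr x0 x
    obtain ⟨g, rfl⟩ := α.surjective g'
    rw [← Equiv.sum_comp (MulAction.toPerm g)]
    apply Finset.sum_congr rfl
    intro y _
    exact hTw g x0 y
  have hcardpos : (0 : ℤ) < Fintype.card Ω := by
    have : 0 < Fintype.card Ω := Fintype.card_pos_iff.2 ⟨o⟩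
    exact_mod_cast this
  have hrow : ∀ x, ∑ y, B x y = (Nat.card Δ : ℤ) := by
    intro x
    rw [hrow0]
    have h3 : ∑ x, ∑ y, B x y = ∑ y, ∑ x, B x y := Finset.sum_comm
    simp_rw [hcol] at h3
    rw [Finset.sum_congr rfl (fun x _ => hrow0 x)] at h3
    simp only [Finset.sum_const, Finset.card_univ, nsmul_eq_mul] at h3
    exact mul_left_cancel₀ (ne_of_gt hcardpos) h3
  have hT1 : Tw (G := G) 1 1 (B * Bᵀ) := by
    have := (hTw.mul hTw.transpose).precomp α⁻¹
    rwa [mul_inv_cancel] at this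
  have hT2 : Tw (G := G) 1 1 (Bᵀ * B) := hTw.transpose.mul hTw
  have hTm : Tw (G := G) 1 1 (B ^ orderOf α) := by
    have := hTw.pow (orderOf α)
    rwa [pow_orderOf_eq_one] at this
  obtain ⟨k1, k2, k3, k4, k5⟩ := matrix_key B (Nat.card Δ : ℤ) (orderOf α) x0 y0 hxy h01 hrow hcol
    (hT1.form h2 x0 y0 hxy) (hT2.form h2 x0 y0 hxy) (hTm.form h2 x0 y0 hxy)
  have hcard2 : 2 ≤ Fintype.card Ω := Fintype.one_lt_card_iff.2 ⟨x0, y0, hxy⟩
  have hkpos : 1 ≤ Nat.card Δ := by
    have : Nonempty Δ := hne.to_subtype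
    exact Finite.card_pos
  have hkle : Nat.card Δ ≤ Fintype.card Ω := by
    rw [← Nat.card_eq_fintype_card]
    exact Finite.card_subtype_le _
  have := arith (Fintype.card Ω : ℤ) (Nat.card Δ : ℤ) ((B * Bᵀ) x0 x0 - (B * Bᵀ) x0 y0) ((B * Bᵀ) x0 y0)
    ((B ^ orderOf α) x0 x0 - (B ^ orderOf α) x0 y0) ((B ^ orderOf α) x0 y0) (orderOf α) hα
    (by exact_mod_cast hcard2) (by exact_mod_cast hkpos) (by exact_mod_cast hkle)
    (Nat.isCoprime_iff_coprime.2 hk) (by rw [← k1]; ring) (by rw [← k2]; ring) k3 k4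
    (by rw [← k5]; ring)
  rcases this with h | h
  · left; exact_mod_cast h
  · right; omega

/-- Let G be a doubly transitive group of permutations of a finite set Ω of size n, let o ∈ Ω, and let α be an automorphism of G of odd order. Suppose that the image under α of the stabilizer of o has an orbit on Ω whose length k is coprime to n. Then α is induced by conjugation by a permutation of Ω normalizing G, and k = 1 or k = n − 1. -/
theorem result {Ω : Type*} [Fintype Ω] (G : Subgroup (Equiv.Perm Ω)) (h2 : MulAction.IsMultiplyPretransitive G Ω 2) (o : Ω) (α : MulAut G) (hα : Odd (orderOf α)) (ω : Ω) (hk : (Nat.card (MulAction.orbit ((MulAction.stabilizer G o).map α.toMonoidHom) ω)).Coprime (Fintype.card Ω)) : (∃ σ : Equiv.Perm Ω, σ ∈ Subgroup.normalizer (G : Set (Equiv.Perm Ω)) ∧ ∀ g : G, ((α g : G) : Equiv.Perm Ω) = σ * (g : Equiv.Perm Ω) * σ⁻¹) ∧ (Nat.card (MulAction.orbit ((MulAction.stabilizer G o).map α.toMonoidHom) ω) = 1 ∨ Nat.card (MulAction.orbit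 ((MulAction.stabilizer G o).map α.toMonoidHom) ω) = Fintype.card Ω - 1) := by
  classical
  have htr : MulAction.IsPretransitive G Ω := MulAction.isPretransitive_of_is_two_pretransitive
  set H' := (MulAction.stabilizer G o).map α.toMonoidHom with hH'
  set Δ := MulAction.orbit H' ω with hΔdef
  have hinv : ∀ h ∈ H', ∀ x, x ∈ Δ → h • x ∈ Δ := by
    intro h hh x hx
    have : (⟨h, hh⟩ : H') • x ∈ MulAction.orbit H' ω := MulAction.mem_orbit_of_mem_orbit _ hx
    exact this
  have hωΔ : ω ∈ Δ := MulAction.mem_orbit_self ω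
  have hcases : Nat.card Δ = 1 ∨ Nat.card Δ = Fintype.card Ω - 1 := by
    by_cases hsub : ∃ x0 y0 : Ω, x0 ≠ y0
    · obtain ⟨x0, y0, hxy⟩ := hsub
      exact core G (MulAction.is_two_pretransitive_iff.1 h2) o α hα Δ
        (fun h hh x hx => hinv (α h) ⟨h, hh, rfl⟩ x hx) ⟨ω, hωΔ⟩ x0 y0 hxy hk
    · push Not at hsub
      left
      have : Subsingleton Δ := ⟨fun a b => Subtype.ext (hsub a b)⟩
      have : Nonempty Δ := ⟨⟨ω, hωΔ⟩⟩
      exact Nat.card_eq_one_iff_unique.2 ⟨inferInstance, inferInstance⟩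
  refine ⟨?_, hcases⟩
  rw [Cfsg.Agent.S4275.result G htr o α]
  rcases hcases with h1 | h1
  · refine ⟨ω, fun g hg => ?_⟩
    have hs : Subsingleton Δ := (Nat.card_eq_one_iff_unique.1 h1).1
    have := hs.elim ⟨g • ω, hinv g hg ω hωΔ⟩ ⟨ω, hωΔ⟩
    exact congrArg Subtype.val this
  · have hcompl : (Finset.univ.filter (fun x => x ∉ Δ)).card = 1 := by
      have e1 : (Finset.univ.filter (fun x => x ∈ Δ)).card = Nat.card Δ := by
        rw [Nat.card_eq_fintype_card, Fintype.card_subtype]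
      have e2 := Finset.card_filter_add_card_filter_not (s := (Finset.univ : Finset Ω)) (fun x => x ∈ Δ)
      rw [e1, h1, Finset.card_univ] at e2
      have e3 : 1 ≤ Nat.card Δ := by
        have : Nonempty Δ := ⟨⟨ω, hωΔ⟩⟩
        exact Finite.card_pos
      omega
    obtain ⟨ω', hω'⟩ := Finset.card_eq_one.1 hcompl
    have hmem : ∀ x, x ∉ Δ ↔ x = ω' := by
      intro x
      have : x ∈ Finset.univ.filter (fun x => x ∉ Δ) ↔ x ∈ ({ω'} : Finset Ω) := by rw [hω']
      simpa using this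
    refine ⟨ω', fun g hg => ?_⟩
    rw [← hmem]
    intro hcon
    have := hinv g⁻¹ (H'.inv_mem hg) _ hcon
    rw [inv_smul_smul] at this
    exact (hmem ω').2 rfl this

end Cfsg.Agent.S4276
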