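import Cfsg.Statements.S4277
import Cfsg.Agent.S4276
import Cfsg.Agent.S0675
import Cfsg.Agent.Lib.Helper75PrimeDegC

set_option autoImplicit false
open Cfsg

namespace Cfsg.Agent.S4277

/-- a finite group in which a solvable subgroup contains all the elements of odd order is
solvable -/
theorem solvable_of_odd {Q : Type*} [Group Q] [Finite Q] (S : Subgroup Q) [hS : Group.IsSolvable S]
    (h : ∀ q : Q, Odd (orderOf q) → q ∈ S) : Group.IsSolvable Q := by
  classical
  let Q₀ : Subgroup Q := Subgroup.normalClosure {q | Odd (orderOf q)}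
  have hle : Q₀ ≤ S := by
    refine (Subgroup.closure_le _).2 ?_
    intro x hx
    rw [Group.mem_conjugatesOfSet_iff] at hx
    obtain ⟨a, ha, hax⟩ := hx
    obtain ⟨c, hc⟩ := isConj_iff.1 hax
    apply h
    have h5 : orderOf (c * a * c⁻¹) = orderOf a :=
      orderOf_injective (MulAut.conj c).toMonoidHom (MulAut.conj c).injective a
    rw [← hc, h5]
    exact ha
  have h1 : Group.IsSolvable Q₀ :=
    Group.isSolvable_of_isSolvable_injective (Subgroup.inclusion_injective hle)
  have h2 : IsPGroup 2 (Q ⧸ Q₀) := by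
    intro x
    obtain ⟨q, rfl⟩ := QuotientGroup.mk_surjective x
    obtain ⟨k, m, hm, hkm⟩ := Nat.exists_eq_two_pow_mul_odd (orderOf_pos q).ne'
    refine ⟨k, ?_⟩
    rw [← QuotientGroup.mk_pow, QuotientGroup.eq_one_iff]
    apply Subgroup.subset_normalClosure
    show Odd (orderOf (q ^ 2 ^ k))
    rw [orderOf_pow, hkm, Nat.gcd_eq_right (Dvd.intro _ rfl), Nat.mul_div_cancel_left _ (by positivity)]
    exact hm
  have : Fact (Nat.Prime 2) := ⟨Nat.prime_two⟩
  have h3 : Group.IsNilpotent (Q ⧸ Q₀) := h2.isNilpotent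
  have h4 : Group.IsSolvable (Q ⧸ Q₀) := inferInstance
  exact Group.isSolvable_of_ker_le_range Q₀.subtype (QuotientGroup.mk' Q₀) (by simp)

/-- odd order elements lift to odd order elements -/
theorem lift_odd {A Q : Type*} [Group A] [Finite A] [Group Q] (π : A →* Q)
    (hπ : Function.Surjective π) (q : Q) (hq : Odd (orderOf q)) :
    ∃ a : A, Odd (orderOf a) ∧ π a = q := by
  obtain ⟨a, rfl⟩ := hπ q
  obtain ⟨k, m, hm, hkm⟩ := Nat.exists_eq_two_pow_mul_odd (orderOf_pos a).ne'
  have hcop : (2 ^ k).Coprime (orderOf (π a)) :=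
    Nat.Coprime.pow_left _ (Nat.coprime_two_left.2 hq)
  obtain ⟨s, hs⟩ := exists_pow_eq_self_of_coprime hcop
  refine ⟨(a ^ 2 ^ k) ^ s, ?_, by rw [map_pow, map_pow, hs]⟩
  have h1 : orderOf (a ^ 2 ^ k) = m := by
    rw [orderOf_pow, hkm, Nat.gcd_eq_right (Dvd.intro _ rfl),
      Nat.mul_div_cancel_left _ (by positivity)]
  have h2 : orderOf ((a ^ 2 ^ k) ^ s) ∣ m := by
    rw [← h1]; exact orderOf_pow_dvd s
  exact Odd.of_dvd_nat hm h2

theorem affine_aux {p : ℕ} [Fact p.Prime] (f : ZMod p → ZMod p) (k : ZMod p)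
    (h : ∀ j, f (j + 1) = f j + k) (j : ZMod p) : f j = (f 1 - f 0) * j + f 0 := by
  have hk : f 1 - f 0 = k := by
    have := h 0
    rw [zero_add] at this
    rw [this]; ring
  rw [hk]
  have key : ∀ n : ℕ, f (n : ZMod p) = k * n + f 0 := by
    intro n
    induction n with
    | zero => simp
    | succ n ih => rw [Nat.cast_succ, h, ih]; ring
  have := key j.val
  rwa [ZMod.natCast_zmod_val] at this


open Cfsg.Agent.Lib.Helper75PrimeDeg in
theorem core {G : Type*} [Group G] [Finite G] {Ω : Type*} [Fintype Ω] [DecidableEq Ω] {p : ℕ}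
    [Fact p.Prime] (hΩ : Fintype.card Ω = p) (φ : G →* Equiv.Perm Ω) (hφ : Function.Injective φ)
    [MulAction.IsPretransitive φ.range Ω] (hns : ¬ Group.IsSolvable G) :
    Group.IsSolvable (Cfsg.Out G) := by
  have hp := (Fact.out : p.Prime)
  let e : G ≃* φ.range := MonoidHom.ofInjective hφ
  have he : ∀ g, ((e g : φ.range) : Equiv.Perm Ω) = φ g := fun g => rfl
  have h2 : MulAction.IsMultiplyPretransitive φ.range Ω 2 := by
    rcases Cfsg.Agent.S0675.result (hΩ ▸ hp) φ.range with h | h
    · exact absurd (Group.isSolvable_of_isSolvable_injective e.injective) hns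
    · exact h
  obtain ⟨τ, hτ, e', he'⟩ := exists_coord hΩ φ.range
  obtain ⟨t, rfl⟩ := hτ
  have hpow : ∀ (n : ℕ) (x : Ω), e' ((φ t ^ n) x) = e' x + n := by
    intro n
    induction n with
    | zero => intro x; simp
    | succ n ih =>
      intro x
      rw [pow_succ', Equiv.Perm.mul_apply, he', ih, Nat.cast_succ]; ring
  have hot : orderOf t = p := by
    apply orderOf_eq_prime
    · apply hφ
      rw [map_pow, map_one]
      ext x
      apply e'.injective
      rw [hpow]; simp
    · rintro rfl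
      obtain ⟨o⟩ : Nonempty Ω := Fintype.card_pos_iff.1 (by rw [hΩ]; exact hp.pos)
      have := he' o
      rw [map_one, Equiv.Perm.one_apply] at this
      exact one_ne_zero (left_eq_add.1 this)
  have hpp : ¬ p * p ∣ Nat.card G := by
    intro h
    have h1 : Nat.card G ∣ p.factorial := by
      rw [Nat.card_congr e.toEquiv, ← hΩ, ← Fintype.card_perm, ← Nat.card_eq_fintype_card]
      exact Subgroup.card_subgroup_dvd_card _
    have h3 : p.factorial = p * (p - 1).factorial := (Nat.mul_factorial_pred hp.ne_zero).symm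
    rw [h3] at h1
    have h4 : p ∣ (p - 1).factorial := Nat.dvd_of_mul_dvd_mul_left hp.pos (h.trans h1)
    have h5 := (hp.dvd_factorial).1 h4
    have := hp.pos
    omega
  have claim1 : ∀ α : MulAut G, Odd (orderOf α) → ∃ σ : Equiv.Perm Ω,
      σ ∈ Subgroup.normalizer (φ.range : Set (Equiv.Perm Ω)) ∧
        ∀ g : G, φ (α g) = σ * φ g * σ⁻¹ := by
    intro α hα
    obtain ⟨o⟩ : Nonempty Ω := Fintype.card_pos_iff.1 (by rw [hΩ]; exact hp.pos)
    have hodd : Odd (orderOf (MulAut.congr e α)) := by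
      rw [MulEquiv.orderOf_eq]; exact hα
    have hk : (Nat.card (MulAction.orbit ((MulAction.stabilizer φ.range o).map
        (MulAut.congr e α).toMonoidHom) o)).Coprime (Fintype.card Ω) := by
      rw [hΩ]
      apply Nat.Coprime.symm
      rw [hp.coprime_iff_not_dvd]
      intro hd
      have h3 : Nat.card (MulAction.orbit ((MulAction.stabilizer φ.range o).map
        (MulAut.congr e α).toMonoidHom) o) ∣ Nat.card ((MulAction.stabilizer φ.range o).map
        (MulAut.congr e α).toMonoidHom) := by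
        rw [Nat.card_coe_set_eq, ← MulAction.index_stabilizer]
        exact Subgroup.index_dvd_card _
      rw [Subgroup.card_map_of_injective (MulAut.congr e α).injective] at h3
      have h4 := MulAction.index_stabilizer_of_transitive φ.range o
      rw [Nat.card_eq_fintype_card, hΩ] at h4
      have h5 := Subgroup.card_mul_index (MulAction.stabilizer φ.range o)
      rw [h4, ← Nat.card_congr e.toEquiv] at h5
      apply hpp
      rw [← h5]
      exact Nat.mul_dvd_mul_right (hd.trans h3) p
    obtain ⟨⟨σ, hσ, h⟩, -⟩ := Cfsg.Agent.S4276.result φ.range h2 o (MulAut.congr e α) hodd o hk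
    refine ⟨σ, hσ, fun g => ?_⟩
    have := h (e g)
    rw [he] at this
    rw [← this, ← he]
    simp
  have claim3 : ∀ α : MulAut G, ∃ x : G, x * α t * x⁻¹ ∈ Subgroup.zpowers t := by
    intro α
    have hP : IsPGroup p (Subgroup.zpowers t) := by
      apply IsPGroup.of_card (n := 1)
      rw [Nat.card_zpowers, hot, pow_one]
    have hi : ¬ p ∣ (Subgroup.zpowers t).index := by
      intro hd
      apply hpp
      rw [← Subgroup.card_mul_index (Subgroup.zpowers t), Nat.card_zpowers, hot]
      exact Nat.mul_dvd_mul_left p hd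
    have hi' : ¬ p ∣ ((Subgroup.zpowers t).map α.toMonoidHom).index := by
      rw [Subgroup.index_map_of_bijective α.bijective]; exact hi
    obtain ⟨x, hx⟩ := MulAction.exists_smul_eq G ((hP.map α.toMonoidHom).toSylow hi')
      (hP.toSylow hi)
    refine ⟨x, ?_⟩
    have h3 : α t ∈ ((hP.map α.toMonoidHom).toSylow hi' : Subgroup G) := by
      rw [IsPGroup.toSylow_coe]
      exact ⟨t, Subgroup.mem_zpowers t, rfl⟩
    have h4 := Subgroup.smul_mem_pointwise_smul _ (MulAut.conj x) _ h3
    rw [← Sylow.coe_subgroup_smul, hx, IsPGroup.toSylow_coe] at h4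
    exact h4
  let c : Subgroup.normalizer (φ.range : Set (Equiv.Perm Ω)) →* MulAut G :=
    (MulAut.congr e.symm).toMonoidHom.comp φ.range.normalizerMonoidHom
  have hc : ∀ (σ : Subgroup.normalizer (φ.range : Set (Equiv.Perm Ω))) (g : G),
      φ (c σ g) = σ * φ g * σ⁻¹ := by
    intro σ g
    show ((e (e.symm (φ.range.normalizerMonoidHom σ (e g))) : φ.range) : Equiv.Perm Ω) = _
    rw [e.apply_symm_apply]; rfl
  let ψ : Subgroup.normalizer (φ.range : Set (Equiv.Perm Ω)) →* Cfsg.Out G :=
    (QuotientGroup.mk' (Inn G)).comp c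
  let M : Subgroup (Subgroup.normalizer (φ.range : Set (Equiv.Perm Ω))) :=
    (Subgroup.normalizer (Subgroup.zpowers (φ t) : Set (Equiv.Perm Ω))).subgroupOf _
  have hM : Group.IsSolvable M := by
    let ι : M →* Equiv.Perm (ZMod p) :=
      (Equiv.permCongrHom e').toMonoidHom.comp ((Subgroup.subtype _).comp M.subtype)
    apply isSolvable_of_affine ι
    · intro a b hab
      apply Subtype.ext
      apply Subtype.ext
      exact (Equiv.permCongrHom e').injective hab
    · rintro ⟨⟨σ, hσN⟩, hσ⟩ j
      have hσ' : σ ∈ Subgroup.normalizer (Subgroup.zpowers (φ t) : Set (Equiv.Perm Ω)) := hσ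
      have h3 : σ * φ t * σ⁻¹ ∈ Subgroup.zpowers (φ t) :=
        (Subgroup.mem_normalizer_iff.1 hσ' _).1 (Subgroup.mem_zpowers _)
      rw [← mem_powers_iff_mem_zpowers] at h3
      obtain ⟨n, hn⟩ := h3
      have hn' : (φ t) ^ n = σ * φ t * σ⁻¹ := hn
      apply affine_aux _ (n : ZMod p)
      intro j
      show e' (σ (e'.symm (j + 1))) = e' (σ (e'.symm j)) + n
      have h4 : e'.symm (j + 1) = φ t (e'.symm j) := by
        rw [Equiv.symm_apply_eq, he', Equiv.apply_symm_apply]
      rw [h4, ← hpow, hn']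
      simp
  have hS : Group.IsSolvable (M.map ψ) :=
    Group.isSolvable_of_surjective (ψ.subgroupMap_surjective M)
  apply solvable_of_odd (M.map ψ)
  intro q hq
  obtain ⟨α, hα, rfl⟩ := lift_odd (QuotientGroup.mk' (Inn G)) (QuotientGroup.mk'_surjective _) q hq
  obtain ⟨σ, hσ, hσα⟩ := claim1 α hα
  obtain ⟨x, hx⟩ := claim3 α
  have hσ' : φ x * σ ∈ Subgroup.normalizer (φ.range : Set (Equiv.Perm Ω)) :=
    Subgroup.mul_mem _ (Subgroup.le_normalizer ⟨x, rfl⟩) hσ
  refine ⟨⟨φ x * σ, hσ'⟩, ?_, ?_⟩
  · show φ x * σ ∈ Subgroup.normalizer (Subgroup.zpowers (φ t) : Set (Equiv.Perm Ω))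
    apply Subgroup.mem_normalizer_fintype
    intro n hn
    obtain ⟨k, rfl⟩ := Subgroup.mem_zpowers_iff.1 hn
    rw [← conj_zpow]
    apply Subgroup.zpow_mem
    have h5 : φ x * σ * φ t * (φ x * σ)⁻¹ = φ (x * α t * x⁻¹) := by
      rw [map_mul, map_mul, hσα, map_inv]; group
    rw [h5]
    obtain ⟨k', hk'⟩ := Subgroup.mem_zpowers_iff.1 hx
    rw [← hk', map_zpow]
    exact Subgroup.zpow_mem _ (Subgroup.mem_zpowers _) _
  · show QuotientGroup.mk' _ (c ⟨_, _⟩) = QuotientGroup.mk' _ α
    have h6 : c ⟨φ x * σ, hσ'⟩ = MulAut.conj x * α := by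
      ext g
      apply hφ
      rw [hc, MulAut.mul_apply, MulAut.conj_apply, map_mul, map_mul, hσα, map_inv]
      show φ x * σ * φ g * (φ x * σ)⁻¹ = _
      group
    rw [h6, map_mul]
    have h7 : QuotientGroup.mk' (Inn G) (MulAut.conj x) = 1 :=
      (QuotientGroup.eq_one_iff _).2 ⟨x, rfl⟩
    rw [h7, one_mul]

/-- A case of the Schreier conjecture: if a finite simple group G has a subgroup of prime index, then the outer automorphism group of G is solvable. -/
theorem result {G : Type*} [Group G] [Finite G] [IsSimpleGroup G] (H : Subgroup G) (hH : H.index.Prime) : Group.IsSolvable (Cfsg.Out G) := by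
  classical
  by_cases hs : Group.IsSolvable G
  · have hcomm := IsSimpleGroup.comm_iff_isSolvable.2 hs
    let _ : CommGroup G := { ‹Group G› with mul_comm := hcomm }
    have hcyc : IsCyclic G := IsSimpleGroup.isCyclic
    apply Group.isSolvable_of_comm
    intro a b
    obtain ⟨a, rfl⟩ := QuotientGroup.mk_surjective a
    obtain ⟨b, rfl⟩ := QuotientGroup.mk_surjective b
    rw [← QuotientGroup.mk_mul, ← QuotientGroup.mk_mul]
    congr 1
    apply (IsCyclic.mulAutMulEquiv G).injective
    rw [map_mul, map_mul, mul_comm]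
  · have : Fact H.index.Prime := ⟨hH⟩
    have : H.FiniteIndex := ⟨hH.ne_zero⟩
    let _ : Fintype (G ⧸ H) := Fintype.ofFinite _
    have hcard : Fintype.card (G ⧸ H) = H.index := by
      rw [← Nat.card_eq_fintype_card]; rfl
    have hinj : Function.Injective (MulAction.toPermHom G (G ⧸ H)) := by
      rw [← MonoidHom.ker_eq_bot_iff]
      rcases (MonoidHom.normal_ker (MulAction.toPermHom G (G ⧸ H))).eq_bot_or_eq_top with h | h
      · exact h
      · exfalso
        rw [← Subgroup.normalCore_eq_ker] at h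
        have h1 : H = ⊤ := top_le_iff.1 (h ▸ Subgroup.normalCore_le H)
        rw [h1, Subgroup.index_top] at hH
        exact Nat.not_prime_one hH
    have htr : MulAction.IsPretransitive (MulAction.toPermHom G (G ⧸ H)).range (G ⧸ H) := by
      constructor
      intro a b
      obtain ⟨g, hg⟩ := MulAction.exists_smul_eq G a b
      exact ⟨⟨MulAction.toPermHom G (G ⧸ H) g, ⟨g, rfl⟩⟩, hg⟩
    exact core hcard (MulAction.toPermHom G (G ⧸ H)) hinj hs

end Cfsg.Agent.S4277
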