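import Cfsg.Statements.S4282
import Cfsg.Agent.Lib.Helper92HHDefs
import Cfsg.Agent.Lib.H92HHBurn
import Cfsg.Agent.Lib.H92HHCritOn
import Cfsg.Agent.Lib.Helper75WCrit
import Cfsg.Agent.Lib.H75WIneq
import Cfsg.Agent.Lib.H75WQPow
import Cfsg.Agent.Lib.H75WQa
import Cfsg.Agent.Lib.H75WGrp

set_option autoImplicit false
open Cfsg

namespace Cfsg.Agent.S4282

/-- A critical case behind the Hall–Higman theorem. Let p ≠ q be primes and G a finite group generated by a normal q-subgroup Q and a cyclic p-subgroup generated by x, such that the centralizer of every non-identity element of that cyclic subgroup is its product with the centre of G. Let K be an algebraically closed field of characteristic p and ρ a faithful representation of G on a nonzero finite-dimensional K-space whose restriction to Q is irreducible. If s is the least exponent with (ρ(x) − 1)^s = 0, then |⟨x⟩| − 1 ≤ s ≤ |⟨x⟩|; and if s = |⟨x⟩| − 1 then |⟨x⟩| − 1 is a power of q and Q is non-abelian. -/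
theorem result {G : Type*} [Group G] [Finite G] (p q : ℕ) [Fact p.Prime] [Fact q.Prime] (hpq : p ≠ q) (Q : Subgroup G) [Q.Normal] (hQ : IsPGroup q Q) (x : G) (hx : IsPGroup p (Subgroup.zpowers x)) (hgen : Q ⊔ Subgroup.zpowers x = ⊤) (hC : ∀ y ∈ Subgroup.zpowers x, y ≠ 1 → Subgroup.centralizer ({y} : Set G) = Subgroup.zpowers x ⊔ Subgroup.center G) {K : Type*} [Field K] [IsAlgClosed K] [CharP K p] {V : Type*} [AddCommGroup V] [Module K V] [FiniteDimensional K V] [Nontrivial V] (ρ : Representation K G V) (hfaith : Function.Injective ρ) (hirr : ∀ W : Submodule K V, (∀ g ∈ Q, Submodule.map (ρ g) W ≤ W) → W = ⊥ ∨ W = ⊤) (s : ℕ) (hs : (ρ x - 1) ^ s = 0) (hmin : ∀ k < s, (ρ x - 1) ^ k ≠ 0) : Nat.card (Subgroup.zpowers x) - 1 ≤ s ∧ s ≤ Nat.card (Subgroup.zpowers x) ∧ (s = Nat.card (Subgroup.zpowers x) - 1 → (∃ b : ℕ, Nat.card (Subgroup.zpowers x) - 1 = q ^ b) ∧ ¬ IsMulCommutative Q) := by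
  classical
  have hpP : p.Prime := Fact.out
  have hqP : q.Prime := Fact.out
  haveI : CharP (Module.End K V) p :=
    charP_of_injective_algebraMap (algebraMap K (Module.End K V)).injective p
  obtain ⟨n, hn⟩ := (IsPGroup.iff_card).1 hx
  have hxpow : x ^ p ^ n = 1 := by
    rw [← hn, Nat.card_zpowers]
    exact pow_orderOf_eq_one x
  have hpowN : (ρ x - 1) ^ p ^ n = 0 := by
    rw [sub_pow_char_pow_of_commute _ _ (Commute.one_right _), one_pow, ← map_pow, hxpow, map_one,
      sub_self]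
  rw [hn]
  have hsN : s ≤ p ^ n := by
    by_contra h
    push Not at h
    exact hmin _ h hpowN
  have hs0 : s ≠ 0 := by
    rintro rfl
    rw [pow_zero] at hs
    exact one_ne_zero hs
  by_cases hn0 : n = 0
  · subst hn0
    rw [pow_zero] at hsN ⊢
    exact ⟨by omega, hsN, fun h => by omega⟩
  have hn1 : 1 ≤ n := Nat.one_le_iff_ne_zero.mpr hn0
  have hN2 : 2 ≤ p ^ n := by
    calc 2 ≤ p := hpP.two_le
      _ = p ^ 1 := (pow_one p).symm
      _ ≤ p ^ n := Nat.pow_le_pow_right hpP.pos hn1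
  -- the data
  let R : G →* (Module.End K V)ˣ := MonoidHom.toHomUnits ρ
  have hR : ∀ g : G, ((R g : (Module.End K V)ˣ) : Module.End K V) = ρ g := fun g => rfl
  let ρ₀ : ↥Q →* (Module.End K V)ˣ := R.comp Q.subtype
  have hρ₀ : ∀ u : ↥Q, ((ρ₀ u : (Module.End K V)ˣ) : Module.End K V) = ρ (u : G) := fun u => rfl
  let α : MulAut ↥Q := MulAut.conjNormal x
  let Y : (Module.End K V)ˣ := R x
  have hYv : (Y : Module.End K V) = ρ x := rfl
  have tw : ∀ u, Y * ρ₀ u * Y⁻¹ = ρ₀ (α u) := by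
    intro u
    change R x * R (u : G) * (R x)⁻¹ = R ((MulAut.conjNormal x u : ↥Q) : G)
    rw [MulAut.conjNormal_apply, map_mul, map_mul, map_inv]
  have apow : α ^ p ^ n = 1 := by
    change (MulAut.conjNormal x : MulAut ↥Q) ^ p ^ n = 1
    rw [← map_pow, hxpow, map_one]
  have pow : Y ^ p ^ n = 1 := by
    change (R x) ^ p ^ n = 1
    rw [← map_pow, hxpow, map_one]
  have hqK : (q : K) ≠ 0 := by
    intro h
    have h1 := (CharP.cast_eq_zero_iff K p q).1 h
    exact hpq ((Nat.prime_dvd_prime_iff_eq hpP hqP).1 h1)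
  have hcard : (Nat.card ↥Q : K) ≠ 0 := by
    obtain ⟨m, hm⟩ := (IsPGroup.iff_card).1 hQ
    rw [hm, Nat.cast_pow]
    exact pow_ne_zero _ hqK
  have hirr' : Cfsg.Agent.Lib.Helper92HHDefs.Irr ρ₀ := by
    intro W hW
    apply hirr W
    intro g hg
    rw [Submodule.map_le_iff_le_comap]
    intro w hw
    exact hW ⟨g, hg⟩ w hw
  have hsc : ∀ u : ↥Q, (∀ g : ↥Q, (u : G) * g = g * u) →
      Cfsg.Agent.Lib.Helper92HHDefs.IsSc ((ρ₀ u : (Module.End K V)ˣ) : Module.End K V) := by
    intro u hu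
    obtain ⟨c, hc⟩ := Cfsg.Agent.Lib.H92HHBurn.schur ρ₀ hirr'
      ((ρ₀ u : (Module.End K V)ˣ) : Module.End K V) (by
        intro g v
        rw [hρ₀, hρ₀, ← Module.End.mul_apply, ← Module.End.mul_apply, ← map_mul, ← map_mul, hu g])
    refine ⟨c, ?_⟩
    ext v
    rw [hc v]
    simp
  have free : ∀ u i, 0 < i → i < p ^ n → (α ^ i) u = u →
      Cfsg.Agent.Lib.Helper92HHDefs.IsSc ((ρ₀ u : (Module.End K V)ˣ) : Module.End K V) := by
    intro u i hi0 hiN hfix
    have h1 : ((MulAut.conjNormal (x ^ i) : MulAut ↥Q) u : ↥Q) = u := by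
      rw [map_pow]
      exact hfix
    have h2 : x ^ i * (u : G) * (x ^ i)⁻¹ = u := by
      have h1' := congrArg (fun t : ↥Q => (t : G)) h1
      rw [← MulAut.conjNormal_apply]
      exact h1'
    have h3 : x ^ i * (u : G) = u * x ^ i := by
      calc x ^ i * (u : G) = x ^ i * (u : G) * (x ^ i)⁻¹ * x ^ i := by group
        _ = u * x ^ i := by rw [h2]
    have h4 : x ^ i ≠ 1 := by
      apply pow_ne_one_of_lt_orderOf hi0.ne'
      rw [← Nat.card_zpowers, hn]
      exact hiN
    have h5 := Cfsg.Agent.Lib.H75WGrp.mem_center p q hpq Q hQ x hx hC (x ^ i)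
      (Subgroup.pow_mem _ (Subgroup.mem_zpowers x) i) h4 u u.2 h3
    apply hsc u
    intro g
    exact ((Subgroup.mem_center_iff.1 h5) g).symm
  have hY : ¬ Cfsg.Agent.Lib.Helper92HHDefs.IsSc (Y : Module.End K V) := by
    rintro ⟨c, hc⟩
    have h1 : (Y : Module.End K V) ^ p ^ n = 1 := by
      rw [← Units.val_pow_eq_pow_val, pow, Units.val_one]
    rw [hc, smul_pow, one_pow] at h1
    have h2 : c ^ p ^ n = 1 := by
      obtain ⟨v, hv⟩ := exists_ne (0 : V)
      have h3 := congrArg (fun f : Module.End K V => f v) h1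
      simp only [LinearMap.smul_apply, Module.End.one_apply] at h3
      have h4 : (c ^ p ^ n - 1) • v = 0 := by rw [sub_smul, h3, one_smul, sub_self]
      rcases smul_eq_zero.1 h4 with h5 | h5
      · exact sub_eq_zero.1 h5
      · exact absurd h5 hv
    have h3 : (c - 1) ^ p ^ n = 0 := by
      rw [sub_pow_char_pow, one_pow, h2, sub_self]
    have h4 : c = 1 := sub_eq_zero.1 (pow_eq_zero_iff (pow_pos hpP.pos n).ne' |>.1 h3)
    rw [h4, one_smul, hYv] at hc
    have h5 : x = 1 := hfaith (by rw [hc, map_one])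
    rw [h5] at hn
    have h6 : Nat.card (Subgroup.zpowers (1 : G)) = 1 := by
      rw [Nat.card_zpowers, orderOf_one]
    omega
  have hineq := Cfsg.Agent.Lib.H75WIneq.ineq p n hn1 ρ₀ hirr' hcard α Y tw apow pow free
  have hcrit := Cfsg.Agent.Lib.Helper75WCrit.crit2 Y (p ^ n) hineq hY
  -- the polynomial (X - 1)^s
  have hmon : (Polynomial.X - 1 : Polynomial K).Monic := by
    simpa using Polynomial.monic_X_sub_C (1 : K)
  have hdeg : ((Polynomial.X - 1 : Polynomial K) ^ s).natDegree = s := by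
    rw [hmon.natDegree_pow]
    have : (Polynomial.X - 1 : Polynomial K).natDegree = 1 := by
      simpa using Polynomial.natDegree_X_sub_C (1 : K)
    rw [this, mul_one]
  have hae : Polynomial.aeval (Y : Module.End K V) ((Polynomial.X - 1 : Polynomial K) ^ s) = 0 := by
    rw [hYv]
    simpa using hs
  have hle : ∀ m, Cfsg.Agent.Lib.Helper92HHDefs.minDegOn (Y : Module.End K V) ⊤ m → m ≤ s := by
    intro m hm
    have := hm _ (pow_ne_zero s hmon.ne_zero) (fun u _ => by rw [hae]; rfl)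
    rwa [hdeg] at this
  rcases hcrit with h | ⟨hd, h⟩
  · have := hle _ h
    exact ⟨by omega, hsN, fun h' => by omega⟩
  · have := hle _ h
    refine ⟨this, hsN, fun _ => ⟨?_, ?_⟩⟩
    · obtain ⟨k, hk⟩ := Cfsg.Agent.Lib.H75WQPow.qpow (K := K) (q := q) (Nat.card ↥Q) ↥Q V ρ₀ rfl hQ
        hirr'
      exact ⟨k, by rw [← hd, hk]⟩
    · intro hcomm
      have h1 := Cfsg.Agent.Lib.H75WQa.finrank_eq_one ρ₀ hirr' (fun u => hsc u (fun g => by
        have := hcomm.is_comm.comm u g
        exact congrArg (fun t : ↥Q => (t : G)) this))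
      exact hY (Cfsg.Agent.Lib.H92HHCritOn.isSc_of_finrank_eq_one h1 _)

end Cfsg.Agent.S4282
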