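import Cfsg.Statements.S4283
-- import your own Cfsg.Agent.* helpers here
import Mathlib
import Cfsg.Agent.Lib.Helper1Frob
import Cfsg.Agent.Lib.Helper73Class

set_option autoImplicit false
open Cfsg

namespace Cfsg.Agent.S4283

open Cfsg.Agent.Lib.Helper1Frob Cfsg.Agent.Lib.Helper73Class

theorem mem_cent {G : Type*} [Group G] (x g : G) :
    g ∈ Subgroup.centralizer ({x} : Set G) ↔ x * g = g * x := by
  rw [Subgroup.mem_centralizer_iff]
  constructor
  · intro h; exact h x rfl
  · intro h w hw
    rw [Set.mem_singleton_iff] at hw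
    subst hw
    exact h

theorem index_conj {G : Type*} [Group G] (x t : G) :
    (Subgroup.centralizer ({t⁻¹ * x * t} : Set G)).index = (Subgroup.centralizer ({x} : Set G)).index := by
  rw [index_centralizer_eq_ncard, index_centralizer_eq_ncard]
  congr 1
  ext y
  have h : IsConj x (t⁻¹ * x * t) := isConj_iff.2 ⟨t⁻¹, by simp⟩
  exact ⟨fun h1 => h.trans h1, fun h1 => h.symm.trans h1⟩

theorem exists_ne_one {G : Type*} [Group G] (H : Subgroup G) (h : H ≠ ⊥) :
    ∃ k ∈ H, k ≠ 1 := by
  by_contra hc
  push Not at hc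
  exact h ((Subgroup.eq_bot_iff_forall H).2 hc)


/-- Let G be a finite group with centre Z and let K, H be abelian subgroups of G containing Z such that G/Z is a Frobenius group with complement H/Z and kernel K/Z. Then the conjugacy class sizes of G are exactly 1, [G : K] and [G : H], and these two indices are coprime. (This is the converse half of the characterization of finite groups whose conjugacy class sizes are exactly 1, m and n with m and n coprime.) -/
theorem result {G : Type*} [Group G] [Finite G] (K H : Subgroup G) (hZK : Subgroup.center G ≤ K) (hZH : Subgroup.center G ≤ H) (hK : IsMulCommutative K) (hH : IsMulCommutative H) (hFrob : Cfsg.IsFrobeniusComplement (H.map (QuotientGroup.mk' (Subgroup.center G)))) (hker : Cfsg.frobeniusKernel (H.map (QuotientGroup.mk' (Subgroup.center G))) = (K.map (QuotientGroup.mk' (Subgroup.center G)) : Set (G ⧸ Subgroup.center G))) : Set.range (fun x : G => (Subgroup.centralizer ({x} : Set G)).index) = ({1, K.index, H.index} : Set ℕ) ∧ K.index.Coprime H.index := by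
  set Z := Subgroup.center G with hZ
  set π := QuotientGroup.mk' Z with hπ
  have hπs : Function.Surjective π := QuotientGroup.mk'_surjective Z
  have hkerπ : π.ker = Z := QuotientGroup.ker_mk' Z
  set Hb := H.map π with hHb
  set Kb := K.map π with hKb
  have hπ1 : ∀ x : G, π x = 1 ↔ x ∈ Z := by
    intro x
    rw [← MonoidHom.mem_ker, hkerπ]
  have memH : ∀ x : G, π x ∈ Hb ↔ x ∈ H := by
    intro x
    constructor
    · rintro ⟨h, hh, he⟩
      have h1 : π (h⁻¹ * x) = 1 := by rw [map_mul, map_inv, he, inv_mul_cancel]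
      have h2 := H.mul_mem hh (hZH ((hπ1 _).1 h1))
      simpa using h2
    · intro hx; exact ⟨x, hx, rfl⟩
  have memK : ∀ x : G, π x ∈ Kb ↔ x ∈ K := by
    intro x
    constructor
    · rintro ⟨h, hh, he⟩
      have h1 : π (h⁻¹ * x) = 1 := by rw [map_mul, map_inv, he, inv_mul_cancel]
      have h2 := K.mul_mem hh (hZK ((hπ1 _).1 h1))
      simpa using h2
    · intro hx; exact ⟨x, hx, rfl⟩
  have memker : ∀ x : G, π x ∈ Cfsg.frobeniusKernel Hb ↔ x ∈ K := by
    intro x
    rw [hker]
    exact memK x
  have iH : Hb.index = H.index := Subgroup.index_map_eq _ hπs (by rw [hkerπ]; exact hZH)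
  have iK : Kb.index = K.index := Subgroup.index_map_eq _ hπs (by rw [hkerπ]; exact hZK)
  have cK : Nat.card Kb = Hb.index := by
    rw [← card_kernel hFrob, hker]
    rfl
  have hKH : ∀ a ∈ K, ∀ b ∈ K, a * b = b * a := by
    intro a ha b hb
    have := hK.is_comm.comm ⟨a, ha⟩ ⟨b, hb⟩
    exact congrArg Subtype.val this
  have hHH : ∀ a ∈ H, ∀ b ∈ H, a * b = b * a := by
    intro a ha b hb
    have := hH.is_comm.comm ⟨a, ha⟩ ⟨b, hb⟩
    exact congrArg Subtype.val this
  -- centralizers
  have cent1 : ∀ x ∈ K, x ∉ Z → Subgroup.centralizer ({x} : Set G) = K := by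
    intro x hxK hxZ
    apply le_antisymm
    · intro g hg
      rw [mem_cent] at hg
      by_contra hgK
      have h1 : π g ∉ Cfsg.frobeniusKernel Hb := fun h => hgK ((memker g).1 h)
      rw [not_mem_kernel_iff] at h1
      obtain ⟨hg1, t, ht⟩ := h1
      have h2 : t⁻¹ * π x * t ∈ Hb := by
        apply mem_of_conj_mem hFrob ht
        · intro h
          apply hg1
          have : π g = t * (t⁻¹ * π g * t) * t⁻¹ := by group
          rw [this, h]; group
        · have h3 : π x * π g = π g * π x := by rw [← map_mul, ← map_mul, hg]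
          have : (t⁻¹ * π x * t)⁻¹ * (t⁻¹ * π g * t) * (t⁻¹ * π x * t)
              = t⁻¹ * (π x)⁻¹ * (π g * π x) * t := by group
          rw [this, ← h3]
          have : t⁻¹ * (π x)⁻¹ * (π x * π g) * t = t⁻¹ * π g * t := by group
          rw [this]
          exact ht
      have h4 := (memker x).2 hxK
      rw [mem_kernel_iff] at h4
      rcases h4 with h4 | h4
      · exact hxZ ((hπ1 x).1 h4)
      · exact h4 t h2
    · intro g hg
      rw [mem_cent]
      exact hKH _ hxK _ hg
  have cent2 : ∀ x ∈ H, x ∉ Z → Subgroup.centralizer ({x} : Set G) = H := by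
    intro x hxH hxZ
    apply le_antisymm
    · intro g hg
      rw [mem_cent] at hg
      rw [← memH]
      apply mem_of_conj_mem hFrob ((memH x).2 hxH) (fun h => hxZ ((hπ1 x).1 h))
      have : (π g)⁻¹ * π x * π g = π x := by
        rw [mul_assoc, ← map_mul, hg, map_mul]; group
      rw [this]
      exact (memH x).2 hxH
    · intro g hg
      rw [mem_cent]
      exact hHH _ hxH _ hg
  have cent3 : ∀ x : G, x ∉ K → (Subgroup.centralizer ({x} : Set G)).index = H.index := by
    intro x hxK
    have h1 : π x ∉ Cfsg.frobeniusKernel Hb := fun h => hxK ((memker x).1 h)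
    rw [not_mem_kernel_iff] at h1
    obtain ⟨hx1, t, ht⟩ := h1
    obtain ⟨t, rfl⟩ := hπs t
    rw [← map_inv, ← map_mul, ← map_mul, memH] at ht
    rw [← index_conj x t, cent2 _ ht]
    intro h
    apply hx1
    rw [hπ1]
    have h2 := (inferInstance : Z.Normal).conj_mem _ h t
    have h3 : t * (t⁻¹ * x * t) * t⁻¹ = x := by group
    rwa [h3] at h2
  constructor
  · ext n
    simp only [Set.mem_range, Set.mem_insert_iff, Set.mem_singleton_iff]
    constructor
    · rintro ⟨x, rfl⟩
      by_cases hxK : x ∈ K
      · by_cases hxZ : x ∈ Z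
        · left
          exact (index_centralizer_eq_one_iff x).2 hxZ
        · right; left
          rw [cent1 x hxK hxZ]
      · right; right
        exact cent3 x hxK
    · rintro (rfl | rfl | rfl)
      · exact ⟨1, (index_centralizer_eq_one_iff 1).2 (Subgroup.one_mem _)⟩
      · -- element of K outside Z
        have h1 : Kb ≠ ⊥ := by
          intro h
          rw [h, Subgroup.card_bot] at cK
          exact hFrob.2.1 (Subgroup.index_eq_one.1 cK.symm)
        obtain ⟨k, hk, hk1⟩ := exists_ne_one _ h1
        obtain ⟨x, rfl⟩ := hπs k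
        refine ⟨x, ?_⟩
        rw [cent1 x ((memK x).1 hk) (fun h => hk1 ((hπ1 x).2 h))]
      · have h1 : Hb ≠ ⊥ := hFrob.1
        obtain ⟨k, hk, hk1⟩ := exists_ne_one _ h1
        obtain ⟨x, rfl⟩ := hπs k
        refine ⟨x, ?_⟩
        rw [cent2 x ((memH x).1 hk) (fun h => hk1 ((hπ1 x).2 h))]
  · rw [← iK, ← iH]
    have h1 := card_dvd_index_sub_one hFrob
    have h2 : Kb.index = Nat.card Hb := by
      have h3 := Kb.card_mul_index
      have h4 := Hb.card_mul_index
      rw [cK] at h3
      have hpos : 0 < Hb.index := Nat.pos_of_ne_zero Subgroup.index_ne_zero_of_finite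
      apply Nat.eq_of_mul_eq_mul_left hpos
      rw [h3, ← h4, mul_comm]
    rw [h2]
    have hpos : 0 < Hb.index := Nat.pos_of_ne_zero Subgroup.index_ne_zero_of_finite
    obtain ⟨c, hc⟩ := h1
    have h5 : Hb.index = Nat.card Hb * c + 1 := by
      rw [← hc]; omega
    rw [h5]
    simp

end Cfsg.Agent.S4283
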