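import Cfsg.Statements.S4293
import Cfsg.Agent.Lib.Helper75Frobenius

set_option autoImplicit false
open Cfsg

namespace Cfsg.Agent.S4293

open Cfsg.Agent.Lib.Helper75Frobenius

section
variable {D : Type*} [DivisionRing D] (H : Subgroup Dˣ)

/-- the evaluation map from the integral group ring -/
noncomputable def ev : MonoidAlgebra ℤ H →ₐ[ℤ] D :=
  MonoidAlgebra.lift ℤ D H ((Units.coeHom D).comp H.subtype)

theorem ev_of (h : H) : ev H (MonoidAlgebra.of ℤ H h) = ((h : Dˣ) : D) := by
  simp [ev]

/-- the left ideal of elements whose value is divisible by `r` -/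
def J (r : ℕ) : Submodule (MonoidAlgebra ℤ H) (MonoidAlgebra ℤ H) where
  carrier := {a | ∃ b, ev H a = (r : D) * ev H b}
  add_mem' := by
    rintro a a' ⟨b, hb⟩ ⟨b', hb'⟩
    exact ⟨b + b', by rw [map_add, map_add, hb, hb', mul_add]⟩
  zero_mem' := ⟨0, by simp⟩
  smul_mem' := by
    rintro c a ⟨b, hb⟩
    refine ⟨c * b, ?_⟩
    rw [smul_eq_mul, map_mul, map_mul, hb, ← mul_assoc, ← mul_assoc, (Nat.cast_commute r (ev H c)).eq]

theorem mem_J (r : ℕ) (a : MonoidAlgebra ℤ H) : a ∈ J H r ↔ ∃ b, ev H a = (r : D) * ev H b := Iff.rfl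

theorem nsmul_mem_J (r : ℕ) (a : MonoidAlgebra ℤ H) : r • a ∈ J H r :=
  ⟨a, by rw [map_nsmul, nsmul_eq_mul]⟩

theorem main [Finite H] (hH : H ≠ ⊥) (r : ℕ) (hr : r.Prime) (hnt : (1 : MonoidAlgebra ℤ H) ∉ J H r)
    (hfpf : ∀ h : H, h ≠ 1 → ∀ a, MonoidAlgebra.of ℤ H h * a - a ∈ J H r → a ∈ J H r) :
    ∃ (L : Type) (_ : Group L) (_ : Finite L) (C : Subgroup L),
      Cfsg.IsFrobeniusComplement C ∧ Nonempty (H ≃* C) := by
  let V := MonoidAlgebra ℤ H ⧸ J H r
  let _ : DistribMulAction H V := DistribMulAction.compHom V (MonoidAlgebra.of ℤ H)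
  have hsm : ∀ (h : H) (a : MonoidAlgebra ℤ H),
      h • (Submodule.Quotient.mk a : V) = Submodule.Quotient.mk (MonoidAlgebra.of ℤ H h * a) := by
    intro h a; rfl
  have : Nontrivial H := by
    rw [Subgroup.nontrivial_iff_ne_bot]; exact hH
  have : Nontrivial V := by
    refine ⟨⟨Submodule.Quotient.mk 1, 0, ?_⟩⟩
    rw [Ne, Submodule.Quotient.mk_eq_zero]
    exact hnt
  have hfin : Module.Finite ℤ V := by
    refine Module.Finite.of_surjective ((J H r).mkQ.restrictScalars ℤ) ?_
    intro v
    obtain ⟨a, rfl⟩ := Submodule.Quotient.mk_surjective _ v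
    exact ⟨a, rfl⟩
  have htors : Module.IsTorsion ℤ V := by
    intro v
    refine ⟨⟨(r : ℤ), mem_nonZeroDivisors_of_ne_zero (by exact_mod_cast hr.ne_zero)⟩, ?_⟩
    obtain ⟨a, rfl⟩ := Submodule.Quotient.mk_surjective _ v
    change (r : ℤ) • (Submodule.Quotient.mk a : V) = 0
    rw [natCast_zsmul, ← Submodule.Quotient.mk_smul, Submodule.Quotient.mk_eq_zero]
    exact nsmul_mem_J H r a
  have : Finite V := Module.finite_of_fg_torsion V htors
  obtain ⟨L, i1, i2, C, hC, he, -⟩ := exists_frobenius_of_distribMulAction (H := H) (V := V) (by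
    intro h hh w hw
    obtain ⟨a, rfl⟩ := Submodule.Quotient.mk_surjective _ w
    rw [hsm, ← sub_eq_zero, ← Submodule.Quotient.mk_sub, Submodule.Quotient.mk_eq_zero] at hw
    rw [Submodule.Quotient.mk_eq_zero]
    exact hfpf h hh a hw)
  exact ⟨L, i1, i2, C, hC, he⟩

theorem coe_ne_one (h : H) (hh : h ≠ 1) : ((h : Dˣ) : D) - 1 ≠ 0 := by
  intro h0
  apply hh
  apply Subtype.ext
  apply Units.ext
  rw [sub_eq_zero] at h0
  simpa using h0

end

/-- A nontrivial finite subgroup of the multiplicative group of a division ring occurs as a Frobenius complement of some finite Frobenius group. -/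
theorem result {D : Type*} [DivisionRing D] (H : Subgroup Dˣ) [Finite H] (hH : H ≠ ⊥) :
    ∃ (L : Type) (_ : Group L) (_ : Finite L) (C : Subgroup L), Cfsg.IsFrobeniusComplement C ∧ Nonempty (H ≃* C) := by
  classical
  obtain ⟨p, hp⟩ := CharP.exists D
  rcases CharP.char_is_prime_or_zero D p with hpp | hp0
  · -- positive characteristic
    have hr0 : ((p : ℕ) : D) = 0 := CharP.cast_eq_zero D p
    apply main H hH p hpp
    · rintro ⟨b, hb⟩
      rw [hr0, zero_mul, map_one] at hb
      exact one_ne_zero hb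
    · rintro h hh a ⟨b, hb⟩
      rw [hr0, zero_mul, map_sub, map_mul, ev_of] at hb
      have h1 : (((h : Dˣ) : D) - 1) * ev H a = 0 := by rw [sub_mul, one_mul]; exact hb
      have h2 : ev H a = 0 := (mul_eq_zero.1 h1).resolve_left (coe_ne_one H h hh)
      exact ⟨0, by rw [h2, map_zero, mul_zero]⟩
  · -- characteristic zero
    subst hp0
    have : CharZero D := CharP.charP_to_charZero D
    obtain ⟨r, hrge, hr⟩ := Nat.exists_infinite_primes (Nat.card H + 1)
    apply main H hH r hr
    · rintro ⟨b, hb⟩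
      rw [map_one] at hb
      let N : Submodule ℤ D := LinearMap.range (ev H).toLinearMap
      have hNfg : N.FG := by
        change (LinearMap.range (ev H).toLinearMap).FG
        rw [LinearMap.range_eq_map]
        exact Submodule.FG.map _ (Module.Finite.fg_top)
      have hle : N ≤ Ideal.span {(r : ℤ)} • N := by
        rintro z ⟨c, rfl⟩
        have e : (ev H).toLinearMap c = (r : ℤ) • (ev H).toLinearMap (c * b) := by
          change ev H c = (r : ℤ) • ev H (c * b)
          rw [map_mul, zsmul_eq_mul, Int.cast_natCast, ← mul_assoc, (Nat.cast_commute r (ev H c)).eq,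
            mul_assoc, ← hb, mul_one]
        rw [e]
        exact Submodule.smul_mem_smul (Ideal.mem_span_singleton_self _) ⟨_, rfl⟩
      obtain ⟨c, hc1, hc2⟩ := Submodule.exists_sub_one_mem_and_smul_eq_zero_of_fg_of_le_smul _ N hNfg hle
      have h1 : c • (1 : D) = 0 := hc2 1 ⟨1, by change ev H 1 = 1; exact map_one _⟩
      rw [zsmul_eq_mul, mul_one, Int.cast_eq_zero] at h1
      rw [h1, Ideal.mem_span_singleton] at hc1
      have h2 : (r : ℤ) ∣ 1 := by
        have := (dvd_neg (a := (r : ℤ)) (b := (0 - 1 : ℤ))).2 hc1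
        simpa using this
      have h3 : r ∣ 1 := by exact_mod_cast h2
      exact hr.one_lt.ne' (Nat.dvd_one.1 h3)
    · intro h hh a ha
      -- work in the quotient
      let V := MonoidAlgebra ℤ H ⧸ J H r
      let v : V := Submodule.Quotient.mk a
      have hv : MonoidAlgebra.of ℤ H h • v = v := by
        rw [← sub_eq_zero]
        change (Submodule.Quotient.mk (MonoidAlgebra.of ℤ H h * a) : V) - Submodule.Quotient.mk a = 0
        rw [← Submodule.Quotient.mk_sub, Submodule.Quotient.mk_eq_zero]
        exact ha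
      have hpow : ∀ i : ℕ, (MonoidAlgebra.of ℤ H h) ^ i • v = v := by
        intro i
        induction i with
        | zero => simp
        | succ i ih => rw [pow_succ, mul_smul, hv, ih]
      set m := orderOf h with hm
      have hmpos : 0 < m := orderOf_pos h
      have hsum : (∑ i ∈ Finset.range m, (MonoidAlgebra.of ℤ H h) ^ i) • v = m • v := by
        rw [Finset.sum_smul, Finset.sum_congr rfl (fun i _ => hpow i)]
        simp
      have hev : ev H (∑ i ∈ Finset.range m, (MonoidAlgebra.of ℤ H h) ^ i) = 0 := by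
        rw [map_sum]
        simp_rw [map_pow, ev_of]
        have h1 := geom_sum_mul ((h : Dˣ) : D) m
        have h2 : ((h : Dˣ) : D) ^ m = 1 := by
          have : h ^ m = 1 := pow_orderOf_eq_one h
          have := congrArg (fun z : H => ((z : Dˣ) : D)) this
          simpa using this
        rw [h2, sub_self] at h1
        exact (mul_eq_zero.1 h1).resolve_right (coe_ne_one H h hh)
      have hzero : (∑ i ∈ Finset.range m, (MonoidAlgebra.of ℤ H h) ^ i) • v = 0 := by
        change (Submodule.Quotient.mk ((∑ i ∈ Finset.range m, (MonoidAlgebra.of ℤ H h) ^ i) * a) : V) = 0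
        rw [Submodule.Quotient.mk_eq_zero]
        exact ⟨0, by rw [map_mul, hev, zero_mul, map_zero, mul_zero]⟩
      have hmv : m • v = 0 := by rw [← hsum, hzero]
      have hrv : r • v = 0 := by
        change r • (Submodule.Quotient.mk a : V) = 0
        rw [← Submodule.Quotient.mk_smul, Submodule.Quotient.mk_eq_zero]
        exact nsmul_mem_J H r a
      have hmle : m ≤ Nat.card H := orderOf_le_card
      have hcop : Nat.Coprime m r := by
        rw [Nat.coprime_comm, hr.coprime_iff_not_dvd]
        exact Nat.not_dvd_of_pos_of_lt hmpos (by omega)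
      have h1 : addOrderOf v ∣ Nat.gcd m r :=
        Nat.dvd_gcd (addOrderOf_dvd_of_nsmul_eq_zero hmv) (addOrderOf_dvd_of_nsmul_eq_zero hrv)
      rw [hcop.gcd_eq_one, Nat.dvd_one, AddMonoid.addOrderOf_eq_one_iff] at h1
      exact (Submodule.Quotient.mk_eq_zero _).1 h1

end Cfsg.Agent.S4293
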