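import Cfsg.Statements.S4296
import Cfsg.Agent.S0035
import Cfsg.Agent.S0039
import Cfsg.Agent.S0040
import Cfsg.Agent.S0068
import Cfsg.Agent.Lib.Helper75Quat

set_option autoImplicit false
open Cfsg

namespace Cfsg.Agent.S4296

open Cfsg.Agent.Lib.Helper75Quat

/-- Let H be a Frobenius complement in a finite group, and suppose some Sylow subgroup of H is not cyclic. Then the number of elements of the Frobenius kernel (the identity together with the elements lying in no conjugate of H) is an odd perfect square. -/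
theorem result {L : Type*} [Group L] [Finite L] (H : Subgroup L) (hF : Cfsg.IsFrobeniusComplement H)
    (hZ : ∃ (p : ℕ) (_ : Fact p.Prime) (P : Sylow p H), ¬ IsCyclic P) :
    Odd (Nat.card (Cfsg.frobeniusKernel H)) ∧ IsSquare (Nat.card (Cfsg.frobeniusKernel H)) := by
  obtain ⟨N, hNset, hNn, hc⟩ := Cfsg.Agent.S0035.result H hF
  have hcardN : Nat.card (Cfsg.frobeniusKernel H) = Nat.card N := by rw [← hNset]; rfl
  rw [hcardN]
  have hN : N ≠ ⊥ := by
    rintro rfl
    have h1 := hc.card_mul_card
    rw [Subgroup.card_bot, one_mul] at h1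
    exact hF.2.1 (Subgroup.eq_top_of_card_eq H h1)
  have hfpf := (Cfsg.Agent.S0039.result N H hc hN hF.1).1 hF
  obtain ⟨p, hp, P, hP⟩ := hZ
  rcases Cfsg.Agent.S0040.result N H hc hN hfpf p P with h1 | ⟨n, ⟨e⟩⟩
  · exact absurd h1 hP
  obtain ⟨m, rfl⟩ : ∃ m, n = m + 1 := by
    rcases n with _ | m
    · exfalso
      apply hP
      have := QuaternionGroup.quaternionGroup_one_isCyclic
      exact isCyclic_of_surjective e.symm e.symm.surjective
    · exact ⟨m, rfl⟩
  obtain ⟨α, ξ, z, h1, h2, h3, h4, h5⟩ := quat_elements m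
  -- transfer to L
  let ψ : QuaternionGroup (2 ^ (m + 1)) →* L :=
    (H.subtype.comp (P : Subgroup H).subtype).comp e.symm.toMonoidHom
  have hψinj : Function.Injective ψ := by
    intro x y hxy
    apply e.symm.injective
    exact Subtype.ext (Subtype.ext hxy)
  have hψH : ∀ x, ψ x ∈ H := fun x => ((e.symm x : P) : H).2
  set s : L := ψ z with hs
  have hs1 : s ≠ 1 := by
    intro h
    apply h4
    apply hψinj
    rw [map_one]; exact h
  have hss : s * s = 1 := by rw [hs, ← map_mul, h5, map_one]
  have hso : orderOf s = 2 := orderOf_eq_prime (by rw [pow_two]; exact hss) hs1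
  have heven : 2 ∣ Nat.card H := by
    have : orderOf (⟨s, hψH z⟩ : H) = 2 := by
      rw [← hso]; exact (Subgroup.orderOf_mk s (hψH z))
    rw [← this]; exact orderOf_dvd_natCard _
  obtain ⟨⟨s', hs'H, hs'o, huniq, hinv⟩, hNc⟩ := Cfsg.Agent.S0068.result N H hc hN hfpf heven
  have hss' : s = s' := huniq s (hψH z) hso
  rw [← hss'] at hinv
  have hodd : Odd (Nat.card N) := by
    rw [← Nat.not_even_iff_odd, even_iff_two_dvd]
    intro h2N
    obtain ⟨k, hk⟩ := exists_prime_orderOf_dvd_card' 2 h2N
    have hk1 : (k : L) ≠ 1 := by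
      intro h
      have : k = 1 := Subtype.ext h
      rw [this, orderOf_one] at hk
      omega
    have hkk : (k : L) * (k : L) = 1 := by
      have := pow_orderOf_eq_one k
      rw [hk, pow_two] at this
      exact congrArg Subtype.val this
    have hkinv : (k : L)⁻¹ = k := inv_eq_of_mul_eq_one_left hkk
    have hmem : (k : L) ∈ N ⊓ Subgroup.centralizer {s} := by
      refine Subgroup.mem_inf.2 ⟨k.2, ?_⟩
      rw [Subgroup.mem_centralizer_singleton_iff]
      have := hinv k k.2
      rw [hkinv] at this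
      exact (mul_inv_eq_iff_eq_mul.1 this).symm
    rw [hfpf s (hψH z) hs1, Subgroup.mem_bot] at hmem
    exact hk1 hmem
  refine ⟨hodd, ?_⟩
  apply isSquare_card_of_conj N _ (ψ α) (ψ ξ) s _ _ _ hinv hodd
  · intro x hx y hy
    have := mul_comm' (M := N) ⟨x, hx⟩ ⟨y, hy⟩
    exact congrArg Subtype.val this
  · rw [hs, ← map_mul, h1]
  · rw [hs, ← map_mul, h2]
  · rw [hs, ← map_mul, ← map_mul, ← map_mul, h3]

end Cfsg.Agent.S4296
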