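import Cfsg.Statements.S4295
import Cfsg.Agent.S0034
import Cfsg.Agent.S4296
import Cfsg.Agent.Lib.Helper75QuatLift
import Cfsg.Agent.Lib.Helper75Frobenius

set_option autoImplicit false
open Cfsg

namespace Cfsg.Agent.S4295

open Cfsg.Agent.Lib.Helper75QuatLift QuaternionGroup

theorem not_comm : ¬ ∀ x y : QuaternionGroup 2, x * y = y * x := by decide

/-- For a natural number m the following are equivalent: (a) some finite group has a Frobenius complement isomorphic to the quaternion group of order 8 whose Frobenius kernel (the identity together with the elements lying in no conjugate of the complement) has exactly m elements; (b) m is an odd perfect square greater than 1. -/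
theorem result (m : ℕ) :
    (∃ (L : Type) (_ : Group L) (_ : Finite L) (H : Subgroup L), Cfsg.IsFrobeniusComplement H ∧
        Nonempty (H ≃* QuaternionGroup 2) ∧ Nat.card (Cfsg.frobeniusKernel H) = m) ↔
    (Odd m ∧ IsSquare m ∧ 1 < m) := by
  constructor
  · rintro ⟨L, _, _, H, hF, ⟨e⟩, hm⟩
    have hZ : ∃ (p : ℕ) (_ : Fact p.Prime) (P : Sylow p H), ¬ IsCyclic P := by
      have : Fact (Nat.Prime 2) := ⟨Nat.prime_two⟩
      obtain ⟨P⟩ : Nonempty (Sylow 2 H) := inferInstance
      refine ⟨2, inferInstance, P, ?_⟩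
      intro hcyc
      have hcard : Nat.card H = 2 ^ 3 := by
        rw [Nat.card_congr e.toEquiv, Nat.card_eq_fintype_card, QuaternionGroup.card]; norm_num
      have hp : IsPGroup 2 (⊤ : Subgroup H) := by
        apply IsPGroup.of_card (n := 3)
        rw [Subgroup.card_top, hcard]
      have htop : (⊤ : Subgroup H) = P := P.3 hp le_top
      have hm : IsMulCommutative (P : Subgroup H) := IsCyclic.isMulCommutative
      apply not_comm
      intro x y
      have hx : e.symm x ∈ (P : Subgroup H) := by rw [← htop]; trivial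
      have hy : e.symm y ∈ (P : Subgroup H) := by rw [← htop]; trivial
      have h1 := mul_comm' (M := (P : Subgroup H)) ⟨_, hx⟩ ⟨_, hy⟩
      have h2 : e.symm x * e.symm y = e.symm y * e.symm x := congrArg Subtype.val h1
      rw [← map_mul, ← map_mul] at h2
      exact e.symm.injective h2
    obtain ⟨h1, h2⟩ := Cfsg.Agent.S4296.result H hF hZ
    obtain ⟨h3, -⟩ := Cfsg.Agent.S0034.result H hF
    rw [hm] at h1 h2 h3
    refine ⟨h1, h2, ?_⟩
    have hne1 : H.index ≠ 1 := fun h => hF.2.1 (Subgroup.index_eq_one.1 h)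
    have hne0 : H.index ≠ 0 := Subgroup.index_ne_zero_of_finite
    omega
  · rintro ⟨hodd, ⟨n, rfl⟩, hlt⟩
    have hn0 : n ≠ 0 := by rintro rfl; simp at hlt
    obtain ⟨V, i1, i2, i3, hV, hV'⟩ := hasModule n hn0
    have hcard : Nat.card V = n * n := by rw [hV, pow_two]
    have hnt : Nontrivial V := by
      rw [← Finite.one_lt_card_iff_nontrivial, hcard]; exact hlt
    have hfpf : ∀ h : QuaternionGroup 2, h ≠ 1 → ∀ w : V, h • w = w → w = 0 := by
      intro h hh w hw
      have hz : (a 2 : QuaternionGroup 2) • w = w := by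
        rcases sq_eq_or h hh with rfl | h2
        · exact hw
        · rw [← h2, mul_smul, hw, hw]
      rw [hV'] at hz
      have h2w : 2 • w = 0 := by
        rw [two_nsmul]
        nth_rewrite 1 [← hz]
        exact neg_add_cancel w
      have hd1 : addOrderOf w ∣ 2 := addOrderOf_dvd_of_nsmul_eq_zero h2w
      have hd2 : addOrderOf w ∣ n * n := by rw [← hcard]; exact addOrderOf_dvd_natCard w
      have hcop : Nat.Coprime 2 (n * n) := (Nat.coprime_two_left).2 hodd
      exact AddMonoid.addOrderOf_eq_one_iff.1 (Nat.eq_one_of_dvd_coprimes hcop hd1 hd2)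
    obtain ⟨L, j1, j2, C, hC, ⟨e⟩, hk⟩ :=
      Cfsg.Agent.Lib.Helper75Frobenius.exists_frobenius_of_distribMulAction
        (H := QuaternionGroup 2) (V := V) hfpf
    exact ⟨L, j1, j2, C, hC, ⟨e.symm⟩, by rw [hk, hcard]⟩

end Cfsg.Agent.S4295
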