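import Cfsg.Statements.S4297
import Cfsg.Agent.S4293

set_option autoImplicit false
open Cfsg

namespace Cfsg.Agent.S4297

open Quaternion QuaternionGroup

/-- the quaternion unit `j` -/
noncomputable def qj : ℍ[ℝ] := ⟨0, 0, 1, 0⟩

theorem qj_re : qj.re = 0 := rfl
theorem qj_imI : qj.imI = 0 := rfl
theorem qj_imJ : qj.imJ = 1 := rfl
theorem qj_imK : qj.imK = 0 := rfl

theorem qj_mul_qj : qj * qj = -1 := by
  ext <;> simp [qj_re, qj_imI, qj_imJ, qj_imK]

theorem qj_mul_coe (z : ℂ) : qj * (z : ℍ[ℝ]) = ((starRingEnd ℂ z : ℂ) : ℍ[ℝ]) * qj := by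
  ext <;> simp [qj_re, qj_imI, qj_imJ, qj_imK]

section
variable (n : ℕ) [NeZero n]

/-- the character `i ↦ exp (2 π i / (2n))` with values in the quaternions -/
noncomputable def cc (i : ZMod (2 * n)) : ℍ[ℝ] := ((ZMod.stdAddChar i : ℂ) : ℍ[ℝ])

theorem cc_add (i j : ZMod (2 * n)) : cc n (i + j) = cc n i * cc n j := by
  simp [cc, AddChar.map_add_eq_mul]

theorem cc_zero : cc n 0 = 1 := by
  simp [cc]

theorem qj_mul_cc (i : ZMod (2 * n)) : qj * cc n i = cc n (-i) * qj := by
  rw [cc, qj_mul_coe, cc, AddChar.map_neg_eq_conj]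

theorem cc_n : cc n (n : ZMod (2 * n)) = -1 := by
  have h1 : (ZMod.stdAddChar (n : ZMod (2 * n)) : ℂ) * ZMod.stdAddChar (n : ZMod (2 * n)) = 1 := by
    rw [← AddChar.map_add_eq_mul]
    have : (n : ZMod (2 * n)) + n = 0 := by
      have : ((2 * n : ℕ) : ZMod (2 * n)) = 0 := ZMod.natCast_self _
      rw [← this]; push_cast; ring
    rw [this, AddChar.map_zero_eq_one]
  have h2 : (ZMod.stdAddChar (n : ZMod (2 * n)) : ℂ) ≠ 1 := by
    intro h
    rw [← AddChar.map_zero_eq_one (ZMod.stdAddChar (N := 2 * n))] at h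
    have h3 := ZMod.injective_stdAddChar h
    rw [ZMod.natCast_eq_zero_iff] at h3
    have hn : 0 < n := Nat.pos_of_ne_zero (NeZero.ne n)
    have := Nat.le_of_dvd hn h3
    omega
  have h3 : (ZMod.stdAddChar (n : ZMod (2 * n)) : ℂ) = -1 := by
    have : ((ZMod.stdAddChar (n : ZMod (2 * n)) : ℂ) - 1) * ((ZMod.stdAddChar (n : ZMod (2 * n)) : ℂ) + 1) = 0 := by
      ring_nf; rw [sq, h1]; ring
    rcases mul_eq_zero.1 this with h | h
    · exact absurd (sub_eq_zero.1 h) h2
    · exact eq_neg_of_add_eq_zero_left h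
  rw [cc, h3]
  ext <;> simp

/-- the embedding as a function -/
noncomputable def emb : QuaternionGroup n → ℍ[ℝ]
  | a i => cc n i
  | xa i => cc n (-i) * qj

noncomputable def embHom : QuaternionGroup n →* ℍ[ℝ] where
  toFun := emb n
  map_one' := by
    rw [one_def]; exact cc_zero n
  map_mul' := by
    rintro (i | i) (j | j)
    · simp only [a_mul_a, emb, cc_add]
    · simp only [a_mul_xa, emb]
      rw [← mul_assoc, ← cc_add]
      congr 2; ring
    · simp only [xa_mul_a, emb]
      rw [mul_assoc, qj_mul_cc, ← mul_assoc, ← cc_add]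
      congr 2; ring
    · simp only [xa_mul_xa, emb]
      rw [mul_assoc, ← mul_assoc qj, qj_mul_cc, neg_neg, mul_assoc (cc n j), qj_mul_qj,
        ← mul_assoc, ← cc_add, sub_eq_add_neg, add_assoc, cc_add, cc_n]
      rw [add_comm j (-i)]
      simp

theorem embHom_injective : Function.Injective (embHom n) := by
  rw [injective_iff_map_eq_one]
  rintro (i | i) h
  · change cc n i = 1 at h
    have h1 : (ZMod.stdAddChar i : ℂ) = 1 := by
      have hre := congrArg QuaternionAlgebra.re h
      have him := congrArg QuaternionAlgebra.imI h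
      simp only [cc] at hre him
      apply Complex.ext
      · simpa using hre
      · simpa using him
    rw [← AddChar.map_zero_eq_one (ZMod.stdAddChar (N := 2 * n))] at h1
    rw [ZMod.injective_stdAddChar h1]; rfl
  · exfalso
    change cc n (-i) * qj = 1 at h
    have hre := congrArg QuaternionAlgebra.re h
    simp [cc, qj_re, qj_imI, qj_imJ, qj_imK] at hre

end

/-- For every n ≥ 2 the dicyclic group of order 4n (generated by an element a of order 2n and an element x with x² = aⁿ and x a x⁻¹ = a⁻¹) occurs as a Frobenius complement of some finite Frobenius group. -/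
theorem result (n : ℕ) (hn : 2 ≤ n) :
    ∃ (L : Type) (_ : Group L) (_ : Finite L) (H : Subgroup L), Cfsg.IsFrobeniusComplement H ∧ Nonempty (H ≃* QuaternionGroup n) := by
  classical
  have : NeZero n := ⟨by omega⟩
  let ψ : QuaternionGroup n →* (ℍ[ℝ])ˣ := (embHom n).toHomUnits
  have hinj : Function.Injective ψ := by
    intro x y hxy
    apply embHom_injective n
    have := congrArg Units.val hxy
    simpa [ψ] using this
  let e : QuaternionGroup n ≃* ψ.range := MonoidHom.ofInjective hinj
  have : Finite ψ.range := Finite.of_equiv _ e.toEquiv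
  have hne : ψ.range ≠ ⊥ := by
    rw [← Subgroup.nontrivial_iff_ne_bot]
    exact e.symm.toEquiv.nontrivial
  obtain ⟨L, i1, i2, H, hH, ⟨e2⟩⟩ := Cfsg.Agent.S4293.result ψ.range hne
  exact ⟨L, i1, i2, H, hH, ⟨(e.trans e2).symm⟩⟩

end Cfsg.Agent.S4297
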