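import Cfsg.Statements.S4298
import Cfsg.Agent.Lib.Helper6SL2HomP
import Cfsg.Agent.Lib.Helper75Frobenius

set_option autoImplicit false
open Cfsg

namespace Cfsg.Agent.S4298

instance fact_p : Fact (Nat.Prime 3) := ⟨by norm_num⟩
instance fact_q : Fact (Nat.Prime 5) := ⟨by norm_num⟩

/-- the table of an embedding of `SL(2,3)` into `SL(2,5)` -/
def tbl : List (ZMod 5 × ZMod 5 × ZMod 5 × ZMod 5) :=
  [(1,0,0,1), (1,0,0,1), (1,0,0,1), (1,0,0,1), (1,0,0,1), (1,0,0,1), (1,0,0,1), (1,0,0,1), (1,0,0,1), (1,0,0,1), (1,0,0,1), (1,0,0,1), (1,0,0,1), (1,0,0,1), (1,0,0,1), (3,0,1,2), (2,2,1,4), (0,3,3,4), (1,0,0,1), (1,0,0,1), (1,0,0,1), (2,0,4,3), (0,2,2,1), (3,3,4,1), (1,0,0,1), (1,0,0,1), (1,0,0,1), (1,0,0,1), (1,0,0,1), (1,0,0,1), (1,0,0,1), (2,1,3,2), (1,0,0,1), (1,0,0,1), (2,4,2,2), (1,0,0,1), (1,0,0,1), (0,1,4,4), (1,0,0,1), (1,0,0,1), (1,0,0,1), (4,1,3,1), (1,3,3,0), (1,0,0,1),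 (1,0,0,1), (1,0,0,1), (4,4,1,0), (1,0,0,1), (4,3,4,2), (1,0,0,1), (1,0,0,1), (1,0,0,1), (1,0,0,1), (2,3,0,3), (1,0,0,1), (1,0,0,1), (4,0,0,4), (1,0,0,1), (1,0,0,1), (3,1,3,3), (1,0,0,1), (1,0,0,1), (3,4,2,3), (1,0,0,1), (1,0,0,1), (1,1,4,0), (1,0,0,1), (3,2,0,2), (1,0,0,1), (1,2,1,3), (1,0,0,1), (1,0,0,1), (1,0,0,1), (1,0,0,1), (0,4,1,1), (4,2,2,0), (1,0,0,1), (1,0,0,1), (1,0,0,1), (1,4,2,4), (1,0,0,1)]

def ent (a b c d : ZMod 3) : ZMod 5 × ZMod 5 × ZMod 5 × ZMod 5 :=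
  tbl.getD (27 * a.val + 9 * b.val + 3 * c.val + d.val) (1, 0, 0, 1)

def mk (t : ZMod 5 × ZMod 5 × ZMod 5 × ZMod 5) : Matrix.SpecialLinearGroup (Fin 2) (ZMod 5) :=
  if h : t.1 * t.2.2.2 - t.2.1 * t.2.2.1 = 1 then
    ⟨!![t.1, t.2.1; t.2.2.1, t.2.2.2], by rw [Matrix.det_fin_two_of]; exact h⟩
  else 1

/-- multiplication of quadruples -/
def qmul (s t : ZMod 5 × ZMod 5 × ZMod 5 × ZMod 5) : ZMod 5 × ZMod 5 × ZMod 5 × ZMod 5 :=
  (s.1 * t.1 + s.2.1 * t.2.2.1, s.1 * t.2.1 + s.2.1 * t.2.2.2,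
    s.2.2.1 * t.1 + s.2.2.2 * t.2.2.1, s.2.2.1 * t.2.1 + s.2.2.2 * t.2.2.2)

theorem det_ent : ∀ a b c d : ZMod 3,
    (ent a b c d).1 * (ent a b c d).2.2.2 - (ent a b c d).2.1 * (ent a b c d).2.2.1 = 1 := by
  decide +kernel

theorem mk_val (t : ZMod 5 × ZMod 5 × ZMod 5 × ZMod 5) (h : t.1 * t.2.2.2 - t.2.1 * t.2.2.1 = 1) :
    (mk t).1 = !![t.1, t.2.1; t.2.2.1, t.2.2.2] := by
  have e : mk t = ⟨!![t.1, t.2.1; t.2.2.1, t.2.2.2], by rw [Matrix.det_fin_two_of]; exact h⟩ :=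
    dif_pos h
  rw [e]

theorem det_qmul (s t : ZMod 5 × ZMod 5 × ZMod 5 × ZMod 5)
    (hs : s.1 * s.2.2.2 - s.2.1 * s.2.2.1 = 1) (ht : t.1 * t.2.2.2 - t.2.1 * t.2.2.1 = 1) :
    (qmul s t).1 * (qmul s t).2.2.2 - (qmul s t).2.1 * (qmul s t).2.2.1 = 1 := by
  simp only [qmul]
  have : (s.1 * t.1 + s.2.1 * t.2.2.1) * (s.2.2.1 * t.2.1 + s.2.2.2 * t.2.2.2) -
      (s.1 * t.2.1 + s.2.1 * t.2.2.2) * (s.2.2.1 * t.1 + s.2.2.2 * t.2.2.1) =
      (s.1 * s.2.2.2 - s.2.1 * s.2.2.1) * (t.1 * t.2.2.2 - t.2.1 * t.2.2.1) := by ring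
  rw [this, hs, ht, one_mul]

theorem mk_mul (s t : ZMod 5 × ZMod 5 × ZMod 5 × ZMod 5)
    (hs : s.1 * s.2.2.2 - s.2.1 * s.2.2.1 = 1) (ht : t.1 * t.2.2.2 - t.2.1 * t.2.2.1 = 1) :
    mk s * mk t = mk (qmul s t) := by
  apply Subtype.ext
  rw [Matrix.SpecialLinearGroup.coe_mul, mk_val s hs, mk_val t ht, mk_val _ (det_qmul s t hs ht),
    Matrix.mul_fin_two]
  rfl

theorem hX : ∀ a b c d : ZMod 3, a * d - b * c = 1 →
    ent a (a + b) c (c + d) = qmul (ent a b c d) (ent 1 1 0 1) := by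
  decide +kernel

theorem hY : ∀ a b c d : ZMod 3, a * d - b * c = 1 →
    ent (a + b) b (c + d) d = qmul (ent a b c d) (ent 1 0 1 1) := by
  decide +kernel

theorem hfix : ∀ a b c d : ZMod 3, a * d - b * c = 1 → ¬ (a = 1 ∧ b = 0 ∧ c = 0 ∧ d = 1) →
    ∀ x y : ZMod 5, (ent a b c d).1 * x + (ent a b c d).2.1 * y = x →
      (ent a b c d).2.2.1 * x + (ent a b c d).2.2.2 * y = y → x = 0 ∧ y = 0 := by
  decide +kernel

theorem exists_hom : ∃ φ : Matrix.SpecialLinearGroup (Fin 2) (ZMod 3) →*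
    Matrix.SpecialLinearGroup (Fin 2) (ZMod 5),
    ∀ g, φ g = mk (ent (g 0 0) (g 0 1) (g 1 0) (g 1 1)) := by
  apply Cfsg.Agent.Lib.Helper6SL2HomP.exists_hom_of_entries_zmod 3
    (fun a b c d => mk (ent a b c d))
  · apply Subtype.ext
    rw [mk_val _ (det_ent 1 0 0 1)]
    have : ent 1 0 0 1 = (1, 0, 0, 1) := by decide +kernel
    rw [this]
    ext i j
    fin_cases i <;> fin_cases j <;> rfl
  · intro a b c d h
    rw [mk_mul _ _ (det_ent _ _ _ _) (det_ent _ _ _ _), hX a b c d h]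
  · intro a b c d h
    rw [mk_mul _ _ (det_ent _ _ _ _) (det_ent _ _ _ _), hY a b c d h]

/-- The group SL(2,3) of order 24 (the binary tetrahedral group) occurs as a Frobenius complement of some finite Frobenius group. -/
theorem result :
    ∃ (L : Type) (_ : Group L) (_ : Finite L) (H : Subgroup L), Cfsg.IsFrobeniusComplement H ∧ Nonempty (H ≃* Matrix.SpecialLinearGroup (Fin 2) (ZMod 3)) := by
  obtain ⟨φ, hφ⟩ := exists_hom
  let act : DistribMulAction (Matrix.SpecialLinearGroup (Fin 2) (ZMod 3)) (Fin 2 → ZMod 5) :=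
    { smul := fun g v => (φ g).1.mulVec v
      one_smul := fun v => by
        change (φ 1).1.mulVec v = v
        rw [map_one]; exact Matrix.one_mulVec v
      mul_smul := fun g h v => by
        change (φ (g * h)).1.mulVec v = (φ g).1.mulVec ((φ h).1.mulVec v)
        rw [map_mul, Matrix.mulVec_mulVec]; rfl
      smul_zero := fun g => by
        change (φ g).1.mulVec 0 = 0
        rw [Matrix.mulVec_zero]
      smul_add := fun g v w => by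
        change (φ g).1.mulVec (v + w) = (φ g).1.mulVec v + (φ g).1.mulVec w
        rw [Matrix.mulVec_add] }
  have hfpf : ∀ g : Matrix.SpecialLinearGroup (Fin 2) (ZMod 3), g ≠ 1 →
      ∀ w : Fin 2 → ZMod 5, g • w = w → w = 0 := by
    intro g hg w hw
    have hw' : (φ g).1.mulVec w = w := hw
    rw [hφ, mk_val _ (det_ent _ _ _ _)] at hw'
    have hdet : g 0 0 * g 1 1 - g 0 1 * g 1 0 = 1 := by
      have := g.2
      rwa [Matrix.det_fin_two] at this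
    have hne : ¬ (g 0 0 = 1 ∧ g 0 1 = 0 ∧ g 1 0 = 0 ∧ g 1 1 = 1) := by
      rintro ⟨h1, h2, h3, h4⟩
      apply hg
      ext i j
      fin_cases i <;> fin_cases j <;> simp [h1, h2, h3, h4]
    have e0 := congrFun hw' 0
    have e1 := congrFun hw' 1
    simp only [Matrix.mulVec, dotProduct, Fin.sum_univ_two, Matrix.of_apply, Matrix.cons_val_zero,
      Matrix.cons_val_one, Matrix.cons_val', Matrix.cons_val_fin_one] at e0 e1
    obtain ⟨h0, h1⟩ := hfix _ _ _ _ hdet hne (w 0) (w 1) e0 e1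
    ext i
    fin_cases i
    · exact h0
    · exact h1
  have hnt : Nontrivial (Matrix.SpecialLinearGroup (Fin 2) (ZMod 3)) := by
    refine ⟨⟨⟨!![1, 1; 0, 1], by rw [Matrix.det_fin_two_of]; ring⟩, 1, ?_⟩⟩
    intro h
    have := congrFun (congrFun (congrArg Subtype.val h) 0) 1
    simp at this
  obtain ⟨L, j1, j2, C, hC, ⟨e⟩, -⟩ :=
    Cfsg.Agent.Lib.Helper75Frobenius.exists_frobenius_of_distribMulAction
      (H := Matrix.SpecialLinearGroup (Fin 2) (ZMod 3)) (V := Fin 2 → ZMod 5) hfpf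
  exact ⟨L, j1, j2, C, hC, ⟨e.symm⟩⟩

end Cfsg.Agent.S4298
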