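import Cfsg.Statements.S4300

set_option autoImplicit false
open Cfsg

namespace Cfsg.Agent.S4300

/-- Let G act faithfully and primitively on a set X, and suppose the stabilizer of some point is a simple group. Then either G is simple, or G has a normal subgroup, neither trivial nor the whole group, that acts regularly on X (transitively with trivial point stabilizers). -/
theorem result {G : Type*} [Group G] {X : Type*} [MulAction G X] [FaithfulSMul G X]
    (hprim : MulAction.IsPreprimitive G X) (x : X) (hsimple : IsSimpleGroup (MulAction.stabilizer G x)) :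
    IsSimpleGroup G ∨ ∃ N : Subgroup G, N.Normal ∧ N ≠ ⊥ ∧ N ≠ ⊤ ∧
      MulAction.IsPretransitive N X ∧ ∀ y : X, MulAction.stabilizer N y = ⊥ := by
  classical
  by_cases hs : IsSimpleGroup G
  · exact Or.inl hs
  right
  have hnt : Nontrivial G := by
    obtain ⟨a, b, hab⟩ := hsimple.toNontrivial.exists_pair_ne
    exact ⟨⟨a, b, fun h => hab (Subtype.ext h)⟩⟩
  have hex : ∃ N : Subgroup G, N.Normal ∧ N ≠ ⊥ ∧ N ≠ ⊤ := by
    by_contra hcon
    push Not at hcon
    apply hs
    refine ⟨fun N hN => ?_⟩
    by_cases h : N = ⊥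
    · exact Or.inl h
    · exact Or.inr (hcon N hN h)
  obtain ⟨N, hN, hbot, htop⟩ := hex
  have htr : MulAction.IsPretransitive N X := by
    apply MulAction.IsQuasiPreprimitive.isPretransitive_of_normal (G := G)
    intro hfix
    apply hbot
    rw [eq_bot_iff]
    intro n hn
    rw [Subgroup.mem_bot]
    apply FaithfulSMul.eq_of_smul_eq_smul (α := X)
    intro y
    have : y ∈ MulAction.fixedPoints N X := by rw [hfix]; trivial
    rw [one_smul]
    exact this ⟨n, hn⟩
  refine ⟨N, hN, hbot, htop, htr, ?_⟩
  -- the stabilizer at x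
  have hx : ∀ n ∈ N, n • x = x → n = 1 := by
    have hnorm : (N.subgroupOf (MulAction.stabilizer G x)).Normal := inferInstance
    rcases hsimple.eq_bot_or_eq_top_of_normal _ hnorm with h | h
    · intro n hn hnx
      have : (⟨n, hnx⟩ : MulAction.stabilizer G x) ∈ N.subgroupOf (MulAction.stabilizer G x) := by
        rw [Subgroup.mem_subgroupOf]; exact hn
      rw [h, Subgroup.mem_bot] at this
      exact congrArg Subtype.val this
    · exfalso
      apply htop
      rw [Subgroup.subgroupOf_eq_top] at h
      rw [eq_top_iff]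
      intro g _
      obtain ⟨n, hn⟩ := htr.exists_smul_eq x (g • x)
      have : (n : G)⁻¹ * g ∈ MulAction.stabilizer G x := by
        rw [MulAction.mem_stabilizer_iff, mul_smul, ← hn]
        change (n : G)⁻¹ • ((n : G) • x) = x
        rw [inv_smul_smul]
      have h2 := N.mul_mem n.2 (h this)
      rwa [mul_inv_cancel_left] at h2
  intro y
  rw [eq_bot_iff]
  intro n hn
  rw [Subgroup.mem_bot]
  rw [MulAction.mem_stabilizer_iff] at hn
  obtain ⟨g, hg⟩ := hprim.toIsPretransitive.exists_smul_eq x y
  have h1 : g⁻¹ * (n : G) * g ∈ N := by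
    have := hN.conj_mem n n.2 g⁻¹
    rwa [inv_inv] at this
  have h2 : (g⁻¹ * (n : G) * g) • x = x := by
    rw [mul_smul, mul_smul, hg]
    have : (n : G) • y = y := hn
    rw [this, ← hg, inv_smul_smul]
  have h3 := hx _ h1 h2
  have h4 : (n : G) = 1 := by
    have : (n : G) = g * (g⁻¹ * (n : G) * g) * g⁻¹ := by group
    rw [this, h3]; group
  exact Subtype.ext h4

end Cfsg.Agent.S4300
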