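import Cfsg.Statements.S4301

set_option autoImplicit false
open Cfsg

namespace Cfsg.Agent.S4301

open Equiv

theorem exists_emb {X : Type*} (k : ℕ) (hk : 2 ≤ k) (hkX : Nonempty (Fin k ↪ X)) (x y : X)
    (hxy : x ≠ y) : ∃ a : Fin k ↪ X, a ⟨0, by omega⟩ = x ∧ a ⟨1, by omega⟩ = y := by
  classical
  obtain ⟨e⟩ := hkX
  let e' : Fin k ↪ X := e.trans (swap (e ⟨0, by omega⟩) x).toEmbedding
  have h0 : e' ⟨0, by omega⟩ = x := by simp [e']
  have h1 : e' ⟨1, by omega⟩ ≠ x := by
    rw [← h0]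
    intro h
    have := e'.injective h
    simp [Fin.ext_iff] at this
  refine ⟨e'.trans (swap (e' ⟨1, by omega⟩) y).toEmbedding, ?_, ?_⟩
  · simp only [Function.Embedding.trans_apply, Equiv.coe_toEmbedding]
    rw [h0, swap_apply_of_ne_of_ne h1.symm hxy]
  · simp

theorem exists_tail {X : Type*} (k : ℕ) (w : Fin (k + 1) ↪ Option X) (h0 : w 0 = none) :
    ∃ a : Fin k ↪ X, ∀ i, w i.succ = some (a i) := by
  have h : ∀ i : Fin k, ∃ z, w i.succ = some z := by
    intro i
    apply Option.ne_none_iff_exists'.mp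
    intro h
    rw [← h0] at h
    exact Fin.succ_ne_zero i (w.injective h)
  choose a ha using h
  refine ⟨⟨a, ?_⟩, ha⟩
  intro i j hij
  have : w i.succ = w j.succ := by rw [ha, ha, hij]
  exact Fin.succ_injective _ (w.injective this)

theorem result {X : Type*} (G : Subgroup (Equiv.Perm (Option X))) (hfix : ∀ f ∈ G, f none = none)
    (k : ℕ) (hk : 2 ≤ k) (hkX : Nonempty (Fin k ↪ X))
    (htrans : ∀ a b : Fin k ↪ X, ∃ f ∈ G, ∀ i, f (some (a i)) = some (b i))
    (h g : Equiv.Perm (Option X)) (hg : g ∈ G) (x y : X)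
    (h1 : h none = some x) (h2 : h (some x) = none) (h3 : h (some y) = some y)
    (h4 : g (some x) = some y) (h5 : g (some y) = some x)
    (h6 : (g * h) ^ 3 ∈ G) (h7 : h ^ 2 ∈ G)
    (h8 : ∀ f ∈ G, f (some x) = some x → h * f * h ∈ G ∧ (h * f * h) (some x) = some x) :
    (∀ f ∈ Subgroup.closure ((G : Set (Equiv.Perm (Option X))) ∪ {h}), f none = none ↔ f ∈ G) ∧
      MulAction.IsMultiplyPretransitive (Subgroup.closure ((G : Set (Equiv.Perm (Option X))) ∪ {h})) (Option X) (k + 1) := by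
  have hxy : x ≠ y := by
    rintro rfl
    rw [h2] at h3
    exact absurd h3 (by simp)
  have T2 : ∀ a b a' b' : X, a ≠ b → a' ≠ b' → ∃ f ∈ G, f (some a) = some a' ∧ f (some b) = some b' := by
    intro a b a' b' hab hab'
    obtain ⟨e, he0, he1⟩ := exists_emb k hk hkX a b hab
    obtain ⟨e', he0', he1'⟩ := exists_emb k hk hkX a' b' hab'
    obtain ⟨f, hf, hfe⟩ := htrans e e'
    refine ⟨f, hf, ?_, ?_⟩
    · rw [← he0, hfe, he0']
    · rw [← he1, hfe, he1']
  let P : Equiv.Perm (Option X) → Prop := fun f => f ∈ G ∨ ∃ a ∈ G, ∃ b ∈ G, f = a * h * b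
  have hA : ∀ f ∈ G, P (h * f * h) := by
    intro f hf
    by_cases hfx : f (some x) = some x
    · exact Or.inl (h8 f hf hfx).1
    · obtain ⟨z, hz⟩ : ∃ z, f (some x) = some z := by
        apply Option.ne_none_iff_exists'.mp
        intro hn
        rw [← hfix f hf] at hn
        exact absurd (f.injective hn) (by simp)
      have hzx : x ≠ z := by
        rintro rfl
        exact hfx hz
      obtain ⟨f1, hf1, hf1x, hf1y⟩ := T2 x y x z hxy hzx
      set f2 := g⁻¹ * f1⁻¹ * f with hf2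
      have hf2G : f2 ∈ G := G.mul_mem (G.mul_mem (G.inv_mem hg) (G.inv_mem hf1)) hf
      have hf2x : f2 (some x) = some x := by
        rw [hf2, Perm.mul_apply, Perm.mul_apply, hz, Perm.inv_eq_iff_eq.mpr hf1y.symm,
          Perm.inv_eq_iff_eq.mpr h4.symm]
      right
      refine ⟨(h * f1 * h) * (h ^ 2)⁻¹ * g⁻¹ * (g * h) ^ 3 * (h ^ 2)⁻¹, ?_,
        g⁻¹ * (h ^ 2)⁻¹ * (h * f2 * h), ?_, ?_⟩
      · exact G.mul_mem (G.mul_mem (G.mul_mem (G.mul_mem (h8 f1 hf1 hf1x).1 (G.inv_mem h7))
          (G.inv_mem hg)) h6) (G.inv_mem h7)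
      · exact G.mul_mem (G.mul_mem (G.inv_mem hg) (G.inv_mem h7)) (h8 f2 hf2G hf2x).1
      · have e3 : (g * h) ^ 3 = g * h * (g * h) * (g * h) := by
          simp only [pow_succ, pow_zero, one_mul]
        rw [hf2, e3]; group
  let K : Subgroup (Equiv.Perm (Option X)) :=
    { carrier := {f | P f}
      one_mem' := Or.inl G.one_mem
      mul_mem' := by
        rintro p q (hp | ⟨a, ha, b, hb, rfl⟩) (hq | ⟨a', ha', b', hb', rfl⟩)
        · exact Or.inl (G.mul_mem hp hq)
        · exact Or.inr ⟨p * a', G.mul_mem hp ha', b', hb', by group⟩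
        · exact Or.inr ⟨a, ha, b * q, G.mul_mem hb hq, by group⟩
        · rcases hA (b * a') (G.mul_mem hb ha') with hc | ⟨c, hc, e, he, hce⟩
          · left
            have : a * h * b * (a' * h * b') = a * (h * (b * a') * h) * b' := by group
            change a * h * b * (a' * h * b') ∈ G
            rw [this]
            exact G.mul_mem (G.mul_mem ha hc) hb'
          · right
            refine ⟨a * c, G.mul_mem ha hc, e * b', G.mul_mem he hb', ?_⟩
            have : a * h * b * (a' * h * b') = a * (h * (b * a') * h) * b' := by group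
            rw [this, hce]; group
      inv_mem' := by
        rintro p (hp | ⟨a, ha, b, hb, rfl⟩)
        · exact Or.inl (G.inv_mem hp)
        · exact Or.inr ⟨b⁻¹, G.inv_mem hb, (h ^ 2)⁻¹ * a⁻¹, G.mul_mem (G.inv_mem h7) (G.inv_mem ha),
            by group⟩ }
  have hCK : Subgroup.closure ((G : Set (Equiv.Perm (Option X))) ∪ {h}) ≤ K := by
    rw [Subgroup.closure_le]
    rintro f (hf | rfl)
    · exact Or.inl hf
    · exact Or.inr ⟨1, G.one_mem, 1, G.one_mem, by group⟩
  have hGC : ∀ f ∈ G, f ∈ Subgroup.closure ((G : Set (Equiv.Perm (Option X))) ∪ {h}) :=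
    fun f hf => Subgroup.subset_closure (Or.inl hf)
  have hhC : h ∈ Subgroup.closure ((G : Set (Equiv.Perm (Option X))) ∪ {h}) :=
    Subgroup.subset_closure (Or.inr rfl)
  constructor
  · intro f hf
    refine ⟨?_, hfix f⟩
    intro hfn
    rcases hCK hf with hfG | ⟨a, ha, b, hb, rfl⟩
    · exact hfG
    · exfalso
      rw [Perm.mul_apply, Perm.mul_apply, hfix b hb, h1, ← hfix a ha] at hfn
      exact absurd (a.injective hfn) (by simp)
  · have hnone : ∀ w : Option X, ∃ p ∈ Subgroup.closure ((G : Set (Equiv.Perm (Option X))) ∪ {h}),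
        p w = none := by
      intro w
      cases w with
      | none => exact ⟨1, Subgroup.one_mem _, rfl⟩
      | some z =>
        by_cases hzx : z = x
        · subst hzx; exact ⟨h, hhC, h2⟩
        · obtain ⟨f, hf, hfz, -⟩ := T2 z x x z hzx (Ne.symm hzx)
          exact ⟨h * f, Subgroup.mul_mem _ hhC (hGC f hf), by rw [Perm.mul_apply, hfz, h2]⟩
    refine ⟨fun u v => ?_⟩
    obtain ⟨p, hp, hpu⟩ := hnone (u 0)
    obtain ⟨q, hq, hqv⟩ := hnone (v 0)
    obtain ⟨a, ha⟩ := exists_tail k (u.trans p.toEmbedding) hpu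
    obtain ⟨b, hb⟩ := exists_tail k (v.trans q.toEmbedding) hqv
    obtain ⟨f, hf, hfab⟩ := htrans a b
    refine ⟨⟨q⁻¹ * f * p, Subgroup.mul_mem _ (Subgroup.mul_mem _ (Subgroup.inv_mem _ hq) (hGC f hf)) hp⟩, ?_⟩
    ext j : 1
    change (q⁻¹ * f * p) (u j) = v j
    rw [Perm.mul_apply, Perm.mul_apply, Perm.inv_eq_iff_eq]
    refine Fin.cases ?_ (fun i => ?_) j
    · rw [hpu, hqv, hfix f hf]
    · have h1' : p (u i.succ) = some (a i) := ha i
      have h2' : q (v i.succ) = some (b i) := hb i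
      rw [h1', h2', hfab]

end Cfsg.Agent.S4301
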