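import Cfsg.Statements.S4302
import Cfsg.Agent.Lib.H55GSkl
import Cfsg.Agent.Lib.H55GSstr
import Cfsg.Agent.Lib.H55GSfrat
import Cfsg.Agent.Lib.H55GScore
import Cfsg.Agent.Lib.H55GSvle
import Cfsg.Agent.Lib.H55GSo2v
import Cfsg.Agent.Lib.H55GScv1
import Cfsg.Agent.Lib.H55GSoff
import Cfsg.Agent.Lib.H55GSygen
import Cfsg.Agent.Lib.Helper55Hol2
import Cfsg.Agent.Lib.Helper55PSolv

set_option autoImplicit false
open Cfsg

namespace Cfsg.Agent.S4302

/-- Let `X` be a finite solvable group whose Fitting subgroup is a 2-group (equivalently `F(X) = O₂(X)`), `T` a Sylow 2-subgroup of `X`, `J(T)` the subgroup generated by the abelian subgroups of `T` of largest order, `C` the largest normal subgroup of `X` centralizing the centre `Z(T)`, and `Y` the normal closure of `J(T)` in `X`. Then `X = C · Y · N_X(J(T))`, and either `Y ≤ C`, or `CY/C` is isomorphic to a direct product of at least one copy of the symmetric group of degree 3. -/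
theorem result {X : Type*} [Group X] [Finite X]
    [Group.IsSolvable X] (hF : Cfsg.fittingSubgroup X = Cfsg.pCore 2 X) (T : Sylow 2 X) :
    ((Subgroup.centralizer (((T : Subgroup X) ⊓ Subgroup.centralizer ((T : Subgroup X) : Set X) : Subgroup X) : Set X)).normalCore
        ⊔ Subgroup.normalClosure (Cfsg.thompsonSubgroupAOf (T : Subgroup X) : Set X)
        ⊔ Subgroup.normalizer (Cfsg.thompsonSubgroupAOf (T : Subgroup X) : Set X) = ⊤) ∧
    (Subgroup.normalClosure (Cfsg.thompsonSubgroupAOf (T : Subgroup X) : Set X)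
        ≤ (Subgroup.centralizer (((T : Subgroup X) ⊓ Subgroup.centralizer ((T : Subgroup X) : Set X) : Subgroup X) : Set X)).normalCore
      ∨ ∃ n : ℕ, 1 ≤ n ∧
        Nonempty (↥(Subgroup.normalClosure (Cfsg.thompsonSubgroupAOf (T : Subgroup X) : Set X)) ⧸
            ((Subgroup.centralizer (((T : Subgroup X) ⊓ Subgroup.centralizer ((T : Subgroup X) : Set X) : Subgroup X) : Set X)).normalCore).subgroupOf
              (Subgroup.normalClosure (Cfsg.thompsonSubgroupAOf (T : Subgroup X) : Set X))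
          ≃* (Fin n → Equiv.Perm (Fin 3)))) := by
  classical
  open Subgroup Cfsg.Agent.Lib.H55GS Cfsg.Agent.Lib.Helper55Hol Cfsg.Agent.Lib.Helper55FF in
  set Z : Subgroup X := (T : Subgroup X) ⊓ Subgroup.centralizer ((T : Subgroup X) : Set X) with hZ
  set J : Subgroup X := Cfsg.thompsonSubgroupAOf (T : Subgroup X) with hJ
  set Y : Subgroup X := Subgroup.normalClosure (J : Set X) with hY
  set V : Subgroup X := Subgroup.normalClosure (Z : Set X) with hV
  have hcore : (Subgroup.centralizer (Z : Set X)).normalCore = Subgroup.centralizer (V : Set X) :=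
    normalCore_centralizer Z
  constructor
  · rw [sup_assoc, normalClosure_sup_normalizer T, sup_top_eq]
  have hVle : V ≤ Cfsg.pCore 2 X ⊓ Subgroup.centralizer (Cfsg.pCore 2 X : Set X) :=
    normalClosure_center_le hF T
  have hVn : V.Normal := Subgroup.normalClosure_normal
  have hYn : Y.Normal := Subgroup.normalClosure_normal
  have hVc : IsMulCommutative V := by
    rw [isMulCommutative_iff]
    rintro ⟨x, hx⟩ ⟨y, hy⟩
    apply Subtype.ext
    exact (Subgroup.mem_centralizer_iff.1 (hVle hy).2 x (hVle hx).1)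
  have hVp : IsPGroup 2 V :=
    (Cfsg.Agent.Lib.Helper40Cores.pCore_isPGroup (p := 2) (G := X)).to_le (hVle.trans inf_le_left)
  have hVS : ∀ S : Sylow 2 X, V ≤ (S : Subgroup X) := fun S =>
    (hVle.trans inf_le_left).trans (Cfsg.Agent.Lib.Helper40Cores.pCore_le_sylow S)
  have hgen : V = ⨆ S : Sylow 2 X, V ⊓ Subgroup.centralizer ((S : Subgroup X) : Set X) := by
    apply le_antisymm _ (iSup_le fun S => inf_le_left)
    conv_lhs => rw [hV]
    unfold Subgroup.normalClosure
    rw [Subgroup.closure_le]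
    intro x hx
    obtain ⟨z, hz, hzx⟩ := Group.mem_conjugatesOfSet_iff.1 hx
    obtain ⟨c, rfl⟩ := isConj_iff.1 hzx
    refine (le_iSup (fun S : Sylow 2 X => V ⊓ Subgroup.centralizer ((S : Subgroup X) : Set X))
      (MulAut.conj c • T)) ?_
    refine Subgroup.mem_inf.2 ⟨hVn.conj_mem z (Subgroup.subset_normalClosure hz) c, ?_⟩
    rw [Subgroup.mem_centralizer_iff]
    intro y hy
    obtain ⟨t, ht, rfl⟩ : ∃ t ∈ (T : Subgroup X), (MulAut.conj c) t = y := hy
    have h1 : t * z = z * t := (Subgroup.mem_centralizer_iff.1 hz.2) t ht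
    show c * t * c⁻¹ * (c * z * c⁻¹) = c * z * c⁻¹ * (c * t * c⁻¹)
    calc c * t * c⁻¹ * (c * z * c⁻¹) = c * (t * z) * c⁻¹ := by group
      _ = c * (z * t) * c⁻¹ := by rw [h1]
      _ = c * z * c⁻¹ * (c * t * c⁻¹) := by group
  have hO : Cfsg.pCore 2 (X ⧸ Subgroup.centralizer (V : Set X)) = ⊥ :=
    pCore_quot_centralizer_eq_bot V hgen
  set V₁ : Subgroup X := Cfsg.omegaOne 2 V with hV₁
  obtain ⟨hV₁n, hV₁e, hV₁le, -⟩ := omegaOne_props 2 V hVc
  have hC : Subgroup.centralizer (V₁ : Set X) = Subgroup.centralizer (V : Set X) :=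
    centralizer_omegaOne_eq V hVc hVp hO
  have htrans : ∀ (N M : Subgroup X) [N.Normal] [M.Normal], N = M →
      Cfsg.pCore 2 (X ⧸ N) = ⊥ → Cfsg.pCore 2 (X ⧸ M) = ⊥ := by
    intro N M _ _ h h1
    subst h
    exact h1
  have hO₁ : Cfsg.pCore 2 (X ⧸ Subgroup.centralizer (V₁ : Set X)) = ⊥ := htrans _ _ hC.symm hO
  have hsep : Cfsg.IsPSolvable 2 X := Cfsg.Agent.Lib.Helper55PSolv.isPSolvable_of_isSolvable 2 inferInstance
  have hFFtop : FF 2 (VV V₁) ((⊤ : Subgroup X).map (act V₁)) :=
    FF_map hV₁e ⊤ (Cfsg.Agent.Lib.Helper73PCompl.isPSolvable_subgroup _ hsep)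
      (hOp_of_pCore hO₁ inferInstance)
  have hFFY : FF 2 (VV V₁) (Y.map (act V₁)) :=
    FF_map hV₁e Y (Cfsg.Agent.Lib.Helper73PCompl.isPSolvable_subgroup _ hsep)
      (hOp_of_pCore hO₁ hYn)
  have hbest : ∀ (S : Sylow 2 X) (A : Subgroup X), A ≤ S →
      A.subgroupOf S ∈ Cfsg.maxAbelianSubgroups S →
      Cfsg.IsBestOffenderOn 2 (VV V₁) (A.map (act V₁)) := by
    intro S A hAS hA
    have hAc : ∀ x ∈ A, ∀ y ∈ A, x * y = y * x := by
      intro x hx y hy
      have := (isMulCommutative_iff.1 hA.1) ⟨⟨x, hAS hx⟩, hx⟩ ⟨⟨y, hAS hy⟩, hy⟩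
      exact congrArg (fun z : ↥(A.subgroupOf S) => ((z : ↥(S : Subgroup X)) : X)) this
    apply offender_isBest hFFtop _ (Subgroup.map_mono le_top)
    · rw [isMulCommutative_iff]
      rintro ⟨_, x, hx, rfl⟩ ⟨_, y, hy, rfl⟩
      apply Subtype.ext
      show act V₁ x * act V₁ y = act V₁ y * act V₁ x
      rw [← map_mul, ← map_mul, hAc x hx y hy]
    · exact (S.2.to_le hAS).map _
    · have h1 := offender_card hVn hVc (hVS S) hV₁le hC hAS hA
      have h2 := card_map_act (V := V₁) A
      unfold mm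
      rw [card_VV, card_VV_inf_centralizer]
      rw [← h2] at h1
      have hpos : 0 < Nat.card ↥(A ⊓ Subgroup.centralizer (V₁ : Set X)) := Nat.card_pos
      have h3 : Nat.card ↥(A ⊓ Subgroup.centralizer (V₁ : Set X)) * Nat.card V₁ ≤
          Nat.card ↥(A ⊓ Subgroup.centralizer (V₁ : Set X)) *
            (Nat.card (A.map (act V₁)) * Nat.card ↥(V₁ ⊓ Subgroup.centralizer (A : Set X))) := by
        calc _ = Nat.card V₁ * Nat.card ↥(A ⊓ Subgroup.centralizer (V₁ : Set X)) := by ring
          _ ≤ _ := h1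
          _ = _ := by ring
      exact Nat.le_of_mul_le_mul_left h3 hpos
  have hS3 : Y.map (act V₁) = ⨆ A' : {A' : Subgroup (Hol V₁) // A' ≤ Y.map (act V₁) ∧
      Cfsg.IsBestOffenderOn 2 (VV V₁) A'}, (A' : Subgroup (Hol V₁)) := by
    apply le_antisymm _ (iSup_le fun A' => A'.2.1)
    rw [Subgroup.map_le_iff_le_comap]
    apply (normalClosure_thompsonA T).2
    intro S A hAS hA
    rw [← Subgroup.map_le_iff_le_comap]
    exact le_iSup (fun A' : {A' : Subgroup (Hol V₁) // A' ≤ Y.map (act V₁) ∧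
      Cfsg.IsBestOffenderOn 2 (VV V₁) A'} => (A' : Subgroup (Hol V₁)))
      ⟨A.map (act V₁), Subgroup.map_mono ((normalClosure_thompsonA T).1 S A hAS hA), hbest S A hAS hA⟩
  by_cases hYb : Y.map (act V₁) = ⊥
  · left
    rw [hcore, ← hC, ← ker_act]
    exact (Subgroup.map_eq_bot_iff _).1 hYb
  · right
    obtain ⟨n, hn, ⟨e⟩⟩ := exists_equiv_of_FF hFFY hS3 hYb
    refine ⟨n, hn, ⟨?_⟩⟩
    have hker : ((Subgroup.centralizer (Z : Set X)).normalCore).subgroupOf Y =
        ((act V₁).subgroupMap Y).ker := by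
      ext x
      rw [hcore, ← hC, ← ker_act, Subgroup.mem_subgroupOf, MonoidHom.mem_ker, MonoidHom.mem_ker]
      constructor
      · intro h
        exact Subtype.ext h
      · intro h
        exact congrArg Subtype.val h
    exact ((QuotientGroup.quotientMulEquivOfEq hker).trans
      (QuotientGroup.quotientKerEquivOfSurjective _ ((act V₁).subgroupMap_surjective Y))).trans e

end Cfsg.Agent.S4302
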