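import Cfsg.Statements.S4309

set_option autoImplicit false
open Cfsg

namespace Cfsg.Agent.S4309

theorem relIndex_dvd_index_aux {G : Type*} [Group G] [Finite G] (H A : Subgroup G) [A.Normal] :
    H.relIndex A ∣ H.index := by
  have h1 : (H ⊓ A).relIndex H * H.relIndex (H ⊔ A) = (H ⊓ A).relIndex (H ⊔ A) :=
    Subgroup.relIndex_mul_relIndex _ _ _ inf_le_left le_sup_left
  have h2 : (H ⊓ A).relIndex A * A.relIndex (H ⊔ A) = (H ⊓ A).relIndex (H ⊔ A) :=
    Subgroup.relIndex_mul_relIndex _ _ _ inf_le_right le_sup_right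
  rw [Subgroup.relIndex_sup_right, Subgroup.inf_relIndex_right] at h2
  rw [Subgroup.inf_relIndex_left] at h1
  have h0 : A.relIndex H ≠ 0 := (A.subgroupOf H).index_ne_zero_of_finite
  have h3 : H.relIndex (H ⊔ A) = H.relIndex A := by
    have : A.relIndex H * H.relIndex (H ⊔ A) = A.relIndex H * H.relIndex A := by
      rw [h1, ← h2, mul_comm]
    exact Nat.eq_of_mul_eq_mul_left (Nat.pos_of_ne_zero h0) this
  rw [← h3]
  exact Subgroup.relIndex_dvd_index_of_le le_sup_left

/-- Let `π` be a set of primes, `G` a finite group with a Hall `π`-subgroup `H` (every prime divisor of the order of `H` lies in `π` and no prime of `π` divides its index), and `A` a normal subgroup of `G`. Then `H ∩ A` is a Hall `π`-subgroup of `A` and the image of `H` in `G/A` is a Hall `π`-subgroup of `G/A`. -/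
theorem result {G : Type*} [Group G] [Finite G] (π : Set ℕ)
    (H A : Subgroup G) [A.Normal] (hH : Cfsg.IsPiHall π H) :
    Cfsg.IsPiHall π ((H ⊓ A).subgroupOf A) ∧ Cfsg.IsPiHall π (H.map (QuotientGroup.mk' A)) := by
  obtain ⟨h1, h2⟩ := hH
  refine ⟨⟨fun p hp hdvd => ?_, fun p hp hpi hdvd => ?_⟩, ⟨fun p hp hdvd => ?_, fun p hp hpi hdvd => ?_⟩⟩
  · apply h1 p hp
    have e : Nat.card ((H ⊓ A).subgroupOf A) = Nat.card (H ⊓ A : Subgroup G) :=
      Nat.card_congr (Subgroup.subgroupOfEquivOfLe inf_le_right).toEquiv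
    rw [e] at hdvd
    exact hdvd.trans (Subgroup.card_dvd_of_le inf_le_left)
  · apply h2 p hp hpi
    have e : ((H ⊓ A).subgroupOf A).index = H.relIndex A := by
      change (H ⊓ A).relIndex A = _
      exact Subgroup.inf_relIndex_right _ _
    rw [e] at hdvd
    exact hdvd.trans (relIndex_dvd_index_aux H A)
  · exact h1 p hp (hdvd.trans (Subgroup.card_map_dvd _ _))
  · exact h2 p hp hpi (hdvd.trans (Subgroup.index_map_dvd _ (QuotientGroup.mk'_surjective A)))

end Cfsg.Agent.S4309
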