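import Cfsg.Statements.S4314

set_option autoImplicit false
open Cfsg

namespace Cfsg.Agent.S4314

open Subgroup MulAction

section
variable {G : Type*} [Group G] (C : Subgroup G)

/-- the base point of the coset space -/
def x0 : G ⧸ C := ((1 : G) : G ⧸ C)

/-- the cyclic group generated by `c` is transitive on the cosets of `C` -/
def T (c : G) : Prop := ∀ z : G ⧸ C, ∃ u ∈ zpowers c, u • x0 C = z

theorem mem_core_iff (g : G) : g ∈ C.normalCore ↔ ∀ z : G ⧸ C, g • z = z := by
  rw [normalCore_eq_ker, MonoidHom.mem_ker]
  constructor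
  · intro h z
    have := congrArg (fun σ : Equiv.Perm (G ⧸ C) => σ z) h
    exact this
  · intro h
    ext z
    exact h z

theorem mem_iff_fix (g : G) : g ∈ C ↔ g • x0 C = x0 C := by
  have := stabilizer_quotient C
  rw [← mem_stabilizer_iff]
  unfold x0
  rw [this]

variable {C}

theorem fix_all {c g : G} (hT : T C c) (hg : g * c = c * g) (h0 : g • x0 C = x0 C) :
    g ∈ C.normalCore := by
  rw [mem_core_iff]
  intro z
  obtain ⟨u, hu, rfl⟩ := hT z
  obtain ⟨i, rfl⟩ := mem_zpowers_iff.1 hu
  have hc : g * c ^ i = c ^ i * g := ((show Commute g c from hg).zpow_right i).eq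
  rw [← mul_smul, hc, mul_smul, h0]

theorem mem_sup_of_comm {c g : G} (hT : T C c) (hg : g * c = c * g) :
    g ∈ zpowers c ⊔ C.normalCore := by
  obtain ⟨u, hu, hu0⟩ := hT (g • x0 C)
  obtain ⟨i, rfl⟩ := mem_zpowers_iff.1 hu
  have hc : g * c ^ i = c ^ i * g := ((show Commute g c from hg).zpow_right i).eq
  have h1 : ((c ^ i)⁻¹ * g) ∈ C.normalCore := by
    apply fix_all hT
    · have e1 : (c ^ i)⁻¹ * c = c * (c ^ i)⁻¹ :=
        (((Commute.refl c).zpow_left i).inv_left).eq
      rw [mul_assoc, hg, ← mul_assoc, e1, mul_assoc]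
    · rw [mul_smul, ← hu0, inv_smul_smul]
  have : g = c ^ i * ((c ^ i)⁻¹ * g) := by group
  rw [this]
  exact mul_mem_sup hu h1

theorem mem_core_of_mem_sup {c y : G} (hT : T C c) (hy : y ∈ zpowers c ⊔ C.normalCore)
    (hyC : y ∈ C) : y ∈ C.normalCore := by
  obtain ⟨u, hu, k, hk, rfl⟩ := mem_sup_of_normal_right.1 hy
  have hu0 : u • x0 C = x0 C := by
    have h1 := (mem_iff_fix C _).1 hyC
    rw [mul_smul, (mem_core_iff C k).1 hk] at h1
    exact h1
  obtain ⟨i, rfl⟩ := mem_zpowers_iff.1 hu
  have : c ^ i ∈ C.normalCore := fix_all hT ((Commute.refl c).zpow_left i).eq hu0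
  exact mul_mem this hk

theorem T_mul {c y : G} (hT : T C c) (hy : y ∈ C.normalCore) : T C (c * y) := by
  intro z
  obtain ⟨u, hu, rfl⟩ := hT z
  obtain ⟨i, rfl⟩ := mem_zpowers_iff.1 hu
  refine ⟨(c * y) ^ i, zpow_mem (mem_zpowers _) i, ?_⟩
  have h1 : toPermHom G (G ⧸ C) (c * y) = toPermHom G (G ⧸ C) c := by
    rw [map_mul]
    have : toPermHom G (G ⧸ C) y = 1 := by
      rw [normalCore_eq_ker] at hy; exact hy
    rw [this, mul_one]
  have h2 : toPermHom G (G ⧸ C) ((c * y) ^ i) = toPermHom G (G ⧸ C) (c ^ i) := by
    rw [map_zpow, map_zpow, h1]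
  exact congrArg (fun σ : Equiv.Perm (G ⧸ C) => σ (x0 C)) h2

theorem not_comm_quot {Z : Subgroup G} [Z.Normal] (hZ : Z ≤ C) (hx : ¬ C.Normal) :
    ¬ IsMulCommutative (G ⧸ Z) := by
  intro hcomm
  apply hx
  refine ⟨fun y hy g => ?_⟩
  have h1 : g * y * g⁻¹ * y⁻¹ ∈ Z := by
    rw [← QuotientGroup.eq_one_iff]
    have e := mul_comm' (M := G ⧸ Z) (g : G ⧸ Z) y
    rw [QuotientGroup.mk_mul, QuotientGroup.mk_mul, QuotientGroup.mk_mul, QuotientGroup.mk_inv,
      QuotientGroup.mk_inv, e]
    group
  have : g * y * g⁻¹ = (g * y * g⁻¹ * y⁻¹) * y := by group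
  rw [this]
  exact mul_mem (hZ h1) hy

end

theorem exists_T {G : Type*} [Group G] [Finite G] (C : Subgroup G) (p : ℕ) [Fact p.Prime]
    (hp : C.index = p) : ∃ c : G, T C c := by
  obtain ⟨P⟩ : Nonempty (Sylow p G) := inferInstance
  obtain ⟨c, hcP, hcK⟩ : ∃ c ∈ P, c ∉ C.normalCore := by
    by_contra hcon
    push Not at hcon
    have hle : (P : Subgroup G) ≤ C := fun c hc => C.normalCore_le (hcon c hc)
    have := index_dvd_of_le hle
    rw [hp] at this
    exact P.not_dvd_index this
  refine ⟨c, ?_⟩
  rw [mem_core_iff] at hcK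
  push Not at hcK
  obtain ⟨z, hz⟩ := hcK
  have hK : IsPGroup p (zpowers c) := P.2.to_le (by rw [zpowers_le]; exact hcP)
  obtain ⟨n, hn⟩ := hK.card_orbit z
  have hX : Nat.card (G ⧸ C) = p := hp
  have hp1 : 1 < p := (Fact.out : p.Prime).one_lt
  have hle : Nat.card (orbit (zpowers c) z) ≤ p := by
    rw [← hX]
    exact Finite.card_subtype_le _
  have hn0 : n ≠ 0 := by
    rintro rfl
    rw [pow_zero] at hn
    have hs : Subsingleton (orbit (zpowers c) z) := (Nat.card_eq_one_iff_unique.1 hn).1
    have := hs.elim ⟨(⟨c, mem_zpowers c⟩ : zpowers c) • z, mem_orbit z _⟩ ⟨z, mem_orbit_self z⟩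
    exact hz (congrArg Subtype.val this)
  have hcard : Nat.card (orbit (zpowers c) z) = p := by
    apply le_antisymm hle
    rw [hn]
    exact Nat.le_self_pow hn0 p
  have huniv : orbit (zpowers c) z = Set.univ := by
    rw [Set.eq_univ_iff_ncard, ← Nat.card_coe_set_eq, hcard, hX]
  have h0 : x0 C ∈ orbit (zpowers c) z := by rw [huniv]; trivial
  intro w
  have hw : w ∈ orbit (zpowers c) (x0 C) := by
    rw [orbit_eq_iff.2 h0, huniv]; trivial
  obtain ⟨u, hu⟩ := hw
  exact ⟨u, u.2, hu⟩

/-- Let `G` be a finite group every conjugacy class of which has size 1 or a prime. Then either `G` is nilpotent of class at most 2, or `G/Z(G)` is a non-abelian group of order `pq` for distinct primes `p, q` (a Frobenius group of order `pq`). -/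
theorem result {G : Type*} [Group G] [Finite G]
    (h : ∀ x : G, (Subgroup.centralizer ({x} : Set G)).index = 1 ∨ ((Subgroup.centralizer ({x} : Set G)).index).Prime) :
    Subgroup.upperCentralSeries G 2 = ⊤ ∨
      ∃ p q : ℕ, p.Prime ∧ q.Prime ∧ p ≠ q ∧ Nat.card (G ⧸ Subgroup.center G) = p * q ∧ ¬ IsMulCommutative (G ⧸ Subgroup.center G) := by
  by_cases hall : ∀ x : G, (centralizer ({x} : Set G)).Normal
  · left
    rw [eq_top_iff]
    intro a _
    rw [Subgroup.mem_upperCentralSeries_succ_iff]
    intro b
    rw [Subgroup.upperCentralSeries_one, mem_center_iff, commutatorElement_def]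
    intro x
    have hN := hall x
    have hcomm : IsMulCommutative (G ⧸ centralizer ({x} : Set G)) := by
      rcases h x with h1 | h1
      · have : Subsingleton (G ⧸ centralizer ({x} : Set G)) := by
          have : Nat.card (G ⧸ centralizer ({x} : Set G)) = 1 := h1
          exact (Nat.card_eq_one_iff_unique.1 this).1
        exact ⟨⟨fun a b => Subsingleton.elim _ _⟩⟩
      · have : Fact (Nat.card (G ⧸ centralizer ({x} : Set G))).Prime := ⟨h1⟩
        have hc : IsCyclic (G ⧸ centralizer ({x} : Set G)) := isCyclic_of_prime_card rfl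
        exact IsCyclic.isMulCommutative
    have hmem : a * b * a⁻¹ * b⁻¹ ∈ centralizer ({x} : Set G) := by
      rw [← QuotientGroup.eq_one_iff]
      have e := mul_comm' (M := G ⧸ centralizer ({x} : Set G)) (a : G ⧸ centralizer ({x} : Set G)) b
      rw [QuotientGroup.mk_mul, QuotientGroup.mk_mul, QuotientGroup.mk_mul, QuotientGroup.mk_inv,
        QuotientGroup.mk_inv, e]
      group
    exact ((mem_centralizer_singleton_iff).1 hmem).symm
  · right
    push Not at hall
    obtain ⟨x, hx⟩ := hall
    set C := centralizer ({x} : Set G) with hC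
    have hCtop : C.index ≠ 1 := by
      intro h1
      rw [index_eq_one] at h1
      apply hx
      rw [h1]; infer_instance
    have hp : C.index.Prime := (h x).resolve_left hCtop
    set p := C.index with hpdef
    have : Fact p.Prime := ⟨hp⟩
    set K := C.normalCore with hK
    obtain ⟨c, hT⟩ := exists_T C p rfl
    -- general fact about transitive elements
    have key : ∀ c : G, T C c → (zpowers c ⊔ K).index.Prime ∧
        centralizer ({c} : Set G) = zpowers c ⊔ K := by
      intro c hT
      have hle : centralizer ({c} : Set G) ≤ zpowers c ⊔ K := by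
        intro g hg
        exact mem_sup_of_comm hT (mem_centralizer_singleton_iff.1 hg)
      have hD : (zpowers c ⊔ K).index ≠ 1 := by
        intro h1
        rw [index_eq_one] at h1
        apply hx
        have : C = K := by
          apply le_antisymm _ C.normalCore_le
          intro y hy
          exact mem_core_of_mem_sup hT (by rw [h1]; trivial) hy
        rw [this]; infer_instance
      have hmul := relIndex_mul_index hle
      have hne1 : (centralizer ({c} : Set G)).index ≠ 1 := by
        intro h1
        rw [h1] at hmul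
        exact hD (Nat.eq_one_of_mul_eq_one_left hmul)
      have hq := (h c).resolve_left hne1
      rw [← hmul] at hq
      rcases (Nat.prime_mul_iff.1 hq) with ⟨h1, h2⟩ | ⟨h1, h2⟩
      · exact absurd h2 hD
      · exact ⟨h1, le_antisymm hle (relIndex_eq_one.1 h2)⟩
    obtain ⟨hq, hcen⟩ := key c hT
    set D := zpowers c ⊔ K with hDdef
    have hKD : K ≤ D := le_sup_right
    -- c centralizes K
    have hcK : ∀ c : G, T C c → ∀ k ∈ K, k * c = c * k := by
      intro c hT k hk
      have : k ∈ centralizer ({c} : Set G) := by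
        rw [(key c hT).2]; exact (le_sup_right : K ≤ zpowers c ⊔ K) hk
      exact mem_centralizer_singleton_iff.1 this
    have hKab : ∀ y ∈ K, ∀ k ∈ K, k * y = y * k := by
      intro y hy k hk
      have h1 := hcK c hT k hk
      have h2 := hcK (c * y) (T_mul hT hy) k hk
      have h3 : c * (k * y) = c * (y * k) := by
        calc c * (k * y) = (c * k) * y := by rw [mul_assoc]
          _ = (k * c) * y := by rw [h1]
          _ = k * (c * y) := by rw [mul_assoc]
          _ = (c * y) * k := h2
          _ = c * (y * k) := by rw [mul_assoc]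
      exact mul_left_cancel h3
    have hxD : x ∉ D := by
      intro hxD
      rw [← hcen, mem_centralizer_singleton_iff] at hxD
      have hcC : c ∈ C := by
        rw [hC, mem_centralizer_singleton_iff]; exact hxD.symm
      have hc0 := (mem_iff_fix C c).1 hcC
      have hsub : ∀ z : G ⧸ C, z = x0 C := by
        intro z
        obtain ⟨u, hu, rfl⟩ := hT z
        have : zpowers c ≤ stabilizer G (x0 C) := by rw [zpowers_le]; exact hc0
        exact this hu
      have : Nat.card (G ⧸ C) = 1 := by
        rw [Nat.card_eq_one_iff_unique]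
        exact ⟨⟨fun a b => by rw [hsub a, hsub b]⟩, ⟨x0 C⟩⟩
      exact hCtop this
    -- the centralizer of K is everything
    set E := centralizer (K : Set G) with hE
    have hDE : D ≤ E := by
      rw [hDdef, sup_le_iff]
      constructor
      · rw [zpowers_le, hE, mem_centralizer_iff]
        intro k hk
        exact hcK c hT k hk
      · intro y hy
        rw [hE, mem_centralizer_iff]
        intro k hk
        exact hKab y hy k hk
    have hxE : x ∈ E := by
      rw [hE, mem_centralizer_iff]
      intro k hk
      have : k ∈ C := C.normalCore_le hk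
      rw [hC, mem_centralizer_singleton_iff] at this
      exact this
    have hEtop : E = ⊤ := by
      have hmul := relIndex_mul_index hDE
      rw [← hmul] at hq
      rcases (Nat.prime_mul_iff.1 hq) with ⟨h1, h2⟩ | ⟨h1, h2⟩
      · exact index_eq_one.1 h2
      · exact absurd (relIndex_eq_one.1 h2 hxE) hxD
    have hKZ : K = center G := by
      apply le_antisymm
      · intro k hk
        rw [mem_center_iff]
        intro g
        have : g ∈ E := by rw [hEtop]; trivial
        rw [hE, mem_centralizer_iff] at this
        exact (this k hk).symm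
      · rw [hK, normal_le_normalCore]
        intro z hz
        rw [hC, mem_centralizer_singleton_iff]
        exact (mem_center_iff.1 hz x).symm
    -- index computations
    have hrel : K.relIndex D = p := by
      have htr : IsPretransitive D (G ⧸ C) := by
        refine ⟨fun a b => ?_⟩
        obtain ⟨u, hu, rfl⟩ := hT a
        obtain ⟨v, hv, rfl⟩ := hT b
        refine ⟨⟨v * u⁻¹, mul_mem ((le_sup_left : zpowers c ≤ D) hv)
          (inv_mem ((le_sup_left : zpowers c ≤ D) hu))⟩, ?_⟩
        change (v * u⁻¹) • u • x0 C = v • x0 C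
        rw [mul_smul, inv_smul_smul]
      have h1 := index_stabilizer_of_transitive D (x0 C)
      have h2 : stabilizer D (x0 C) = K.subgroupOf D := by
        ext y
        rw [mem_stabilizer_iff, mem_subgroupOf]
        constructor
        · intro hy
          exact mem_core_of_mem_sup hT y.2 ((mem_iff_fix C _).2 hy)
        · intro hy
          change (y : G) • x0 C = x0 C
          exact (mem_core_iff C _).1 hy _
      rw [h2] at h1
      exact h1
    have hidx : K.index = p * D.index := by
      rw [← relIndex_mul_index hKD, hrel]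
    have hZC : center G ≤ C := by rw [← hKZ]; exact C.normalCore_le
    have hncomm : ¬ IsMulCommutative (G ⧸ center G) := not_comm_quot hZC hx
    have hidx' : Nat.card (G ⧸ center G) = p * D.index := by
      change (center G).index = p * D.index
      rw [← hKZ]; exact hidx
    refine ⟨p, D.index, hp, hq, ?_, hidx', hncomm⟩
    intro hpq
    apply hncomm
    apply IsPGroup.isMulCommutative_of_card_eq_prime_sq (p := p)
    rw [hidx', ← hpq, pow_two]

end Cfsg.Agent.S4314
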