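import Cfsg.Statements.S4320
import Cfsg.Agent.Lib.Helper4PIT

set_option autoImplicit false
open Cfsg

namespace Cfsg.Agent.S4320

open Subgroup Cfsg.Agent.Lib.Helper4PIT

/-- The Principal Ideal Theorem of class field theory in its group-theoretic form: for every finite group `G`, the transfer homomorphism from `G` into the abelianization `G'/G''` of its derived subgroup `G'` is the trivial homomorphism. -/
theorem result {G : Type*} [Group G] [Finite G] :
    MonoidHom.transfer (Abelianization.of : ↥(commutator G) →* Abelianization ↥(commutator G)) =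
      (1 : G →* Abelianization ↥(commutator G)) := by
  classical
  ext g
  let T : (commutator G).LeftTransversal := default
  rw [MonoidHom.transfer_def _ T, MonoidHom.one_apply]
  let _ : Fintype (Abelianization G) := (commutator G).fintypeQuotientOfFiniteIndex
  let t : Abelianization G → G := fun q => (T.2.leftQuotientEquiv q : G)
  have ht : ∀ q, Abelianization.of (t q) = q := fun q =>
    IsComplement.quotientGroupMk_leftQuotientEquiv T.2 q
  let φ' : G → Abelianization ↥(commutator G) :=
    fun u => if h : u ∈ commutator G then Abelianization.of ⟨u, h⟩ else 1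
  have hφ' : ∀ u v, u ∈ commutator G → v ∈ commutator G → φ' (u * v) = φ' u * φ' v := by
    intro u v hu hv
    simp only [φ', dif_pos hu, dif_pos hv, dif_pos (mul_mem hu hv)]
    rw [← map_mul]
    rfl
  have hmem : ∀ (g : G) (q : Abelianization G),
      (t q)⁻¹ * g * t ((Abelianization.of g)⁻¹ * q) ∈ commutator G := by
    intro g q
    rw [← QuotientGroup.eq_one_iff]
    change Abelianization.of ((t q)⁻¹ * g * t ((Abelianization.of g)⁻¹ * q)) = 1
    rw [map_mul, map_mul, map_inv, ht, ht]
    group
  have hkey := key (B := Additive (Abelianization ↥(commutator G)))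
    (fun g q => Additive.ofMul (φ' ((t q)⁻¹ * g * t ((Abelianization.of g)⁻¹ * q)))) (by
      intro g h q
      rw [← ofMul_mul, ← hφ' _ _ (hmem g q) (hmem h _)]
      congr 2
      have : (Abelianization.of (g * h))⁻¹ * q =
          (Abelianization.of h)⁻¹ * ((Abelianization.of g)⁻¹ * q) := by
        rw [map_mul, mul_inv_rev, mul_assoc]
      rw [this]
      group) g
  have h2 : ∏ q : Abelianization G, φ' ((t q)⁻¹ * g * t ((Abelianization.of g)⁻¹ * q)) = 1 := by
    have := congrArg Additive.toMul hkey
    rw [toMul_sum] at this
    exact this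
  have h3 : ∀ q : G ⧸ commutator G,
      ((T.2.leftQuotientEquiv q : G))⁻¹ * ((g • T).2.leftQuotientEquiv q : G) =
      ((T.2.leftQuotientEquiv q : G))⁻¹ * g * (T.2.leftQuotientEquiv (g⁻¹ • q) : G) := by
    intro q
    rw [smul_apply_eq_smul_apply_inv_smul, smul_eq_mul, mul_assoc]
  have h4 : ∀ q : G ⧸ commutator G, g⁻¹ • q = (Abelianization.of g)⁻¹ * (show Abelianization G from q) := by
    intro q
    induction q using QuotientGroup.induction_on with
    | H a => rfl
  have h5 : ∀ q : G ⧸ commutator G,
      ((T.2.leftQuotientEquiv q : G))⁻¹ * ((g • T).2.leftQuotientEquiv q : G) =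
      (t q)⁻¹ * g * t ((Abelianization.of g)⁻¹ * (show Abelianization G from q)) := by
    intro q
    rw [h3 q, h4 q]
  rw [← h2]
  unfold leftTransversals.diff
  refine Finset.prod_congr rfl fun q _ => ?_
  have h6 := hmem g q
  simp only [φ', dif_pos h6]
  congr 1
  exact Subtype.ext (h5 q)

end Cfsg.Agent.S4320
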