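import Cfsg.Statements.S4421
-- import your own Cfsg.Agent.* helpers here

set_option autoImplicit false
open Cfsg

namespace Cfsg.Agent.S4421

/-- A factorization of a normalizer from two-step control of fusion. Let `G` be a finite group and `A ≤ S ≤ H` subgroups of `G` such that: (i) `S` controls the `G`-fusion of `A` in the sense that every `G`-conjugate of `A` lying in `S` is an `S`-conjugate of `A`; (ii) `H` controls the `G`-fusion of `S` in the same sense; (iii) every conjugate of `S` by an element of the normalizer of `A` lies in `H`. Then `N_G(A) = N_H(A) · (N_G(S) ∩ N_G(A))`: every element of the normalizer of `A` is a product of an element of `H` normalizing `A` and an element normalizing both `S` and `A`. -/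
theorem result {G : Type*} [Group G] [Finite G] (A S H : Subgroup G)
    (hAS : A ≤ S) (hSH : S ≤ H)
    (h1 : ∀ g : G, A.map (MulAut.conj g).toMonoidHom ≤ S → ∃ s ∈ S, A.map (MulAut.conj g).toMonoidHom = A.map (MulAut.conj s).toMonoidHom)
    (h2 : ∀ g : G, S.map (MulAut.conj g).toMonoidHom ≤ H → ∃ y ∈ H, S.map (MulAut.conj g).toMonoidHom = S.map (MulAut.conj y).toMonoidHom)
    (h3 : ∀ x ∈ Subgroup.normalizer (A : Set G), S.map (MulAut.conj x).toMonoidHom ≤ H) :
    ∀ x ∈ Subgroup.normalizer (A : Set G), ∃ y ∈ H ⊓ Subgroup.normalizer (A : Set G),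
      ∃ z ∈ Subgroup.normalizer (S : Set G) ⊓ Subgroup.normalizer (A : Set G), x = y * z := by
  intro x hx
  have hconj : ∀ (K : Subgroup G) (a b : G), (K.map (MulAut.conj a).toMonoidHom).map (MulAut.conj b).toMonoidHom
      = K.map (MulAut.conj (b * a)).toMonoidHom := by
    intro K a b
    rw [Subgroup.map_map]
    congr 1
    ext g
    simp [mul_assoc]
  have hone : ∀ (K : Subgroup G), K.map (MulAut.conj (1 : G)).toMonoidHom = K := by
    intro K
    ext g
    simp
  obtain ⟨y, hyH, hy⟩ := h2 x (h3 x hx)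
  have hxA : A.map (MulAut.conj x).toMonoidHom = A := Subgroup.mem_normalizer_iff_map_conj_eq.mp hx
  have hAy : A.map (MulAut.conj y⁻¹).toMonoidHom ≤ S := by
    have h : A ≤ S.map (MulAut.conj y).toMonoidHom := by
      rw [← hy]
      conv_lhs => rw [← hxA]
      exact Subgroup.map_mono hAS
    have h' := Subgroup.map_mono (f := (MulAut.conj y⁻¹).toMonoidHom) h
    rw [hconj, inv_mul_cancel, hone] at h'
    exact h'
  obtain ⟨s, hsS, hs⟩ := h1 y⁻¹ hAy
  have hysA : y * s ∈ Subgroup.normalizer (A : Set G) := by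
    rw [Subgroup.mem_normalizer_iff_map_conj_eq]
    show A.map (MulAut.conj (y * s)).toMonoidHom = A
    rw [← hconj, ← hs, hconj, mul_inv_cancel, hone]
  have hyxS : y⁻¹ * x ∈ Subgroup.normalizer (S : Set G) := by
    rw [Subgroup.mem_normalizer_iff_map_conj_eq]
    show S.map (MulAut.conj (y⁻¹ * x)).toMonoidHom = S
    rw [← hconj, hy, hconj, inv_mul_cancel, hone]
  refine ⟨y * s, ⟨H.mul_mem hyH (hSH hsS), hysA⟩, (y * s)⁻¹ * x, ⟨?_, ?_⟩, by group⟩
  · have : (y * s)⁻¹ * x = s⁻¹ * (y⁻¹ * x) := by group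
    rw [this]
    exact Subgroup.mul_mem _ (Subgroup.inv_mem _ (Subgroup.le_normalizer hsS)) hyxS
  · exact Subgroup.mul_mem _ (Subgroup.inv_mem _ hysA) hx

end Cfsg.Agent.S4421
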