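import Cfsg.Statements.S4423
import Cfsg.Agent.Lib.Helper77Cyclo

set_option autoImplicit false
open Cfsg

namespace Cfsg.Agent.S4423

open Cfsg.Agent.Lib.Helper77Cyclo

def cs (q e : ℕ) : List ℕ := (List.range (e - 1)).map (fun i => q ^ (i + 1) - 1)

def strip (N : ℕ) (l : List ℕ) : ℕ := l.foldl (fun n c => n / Nat.gcd n c) N

theorem dvd_strip (m : ℕ) : ∀ (l : List ℕ) (N : ℕ), m ∣ N → (∀ c ∈ l, Nat.Coprime m c) → m ∣ strip N l := by
  intro l
  induction l with
  | nil => intro N h _; exact h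
  | cons c l ih =>
    intro N h hc
    have hstep : m ∣ N / Nat.gcd N c := by
      have h1 : Nat.Coprime m (Nat.gcd N c) :=
        Nat.Coprime.coprime_dvd_right (Nat.gcd_dvd_right N c) (hc c (by simp))
      have h2 : m ∣ (N / Nat.gcd N c) * Nat.gcd N c := by
        rw [Nat.div_mul_cancel (Nat.gcd_dvd_left N c)]; exact h
      exact h1.dvd_of_dvd_mul_right h2
    exact ih _ hstep (fun c' hc' => hc c' (by simp [hc']))

theorem check5 : ∀ p ∈ exc, 0 < strip (p.1 ^ p.2 - 1) (cs p.1 p.2 ++ cs p.1 p.2) ∧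
    strip (p.1 ^ p.2 - 1) (cs p.1 p.2 ++ cs p.1 p.2) ≤ 2 * p.2 + 1 := by
  decide +kernel


/-- Size of the primitive part of `q^e - 1`. For a prime power `q` and `e ≥ 3`, call a divisor of `q^e - 1` primitive when it is coprime to `q^i - 1` for every `1 ≤ i < e`; the primitive part is the largest primitive divisor. Apart from thirteen exceptional pairs, the primitive part is at least `3e + 1`: there is a primitive divisor `m ≥ 3e + 1` unless `(q, e)` is `(2, 6)` (where every primitive divisor is 1), one of `(2,4), (2,10), (2,12), (2,18), (3,4), (3,6), (5,6)` (where the primitive part is exactly `e + 1`), or one of `(2,3), (2,8), (2,20), (4,3), (4,6)` (where it is exactly `2e + 1`). The statement asserts the existence of a primitive divisor `m ≥ 3e + 1` outside the thirteen pairs, and that every primitive divisor is at most `2e + 1` for the thirteen pairs. -/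
theorem result (q e : ℕ) (hq : IsPrimePow q) (he : 3 ≤ e) :
    ((q, e) ∉ [(2, 6), (2, 4), (2, 10), (2, 12), (2, 18), (3, 4), (3, 6), (5, 6), (2, 3), (2, 8), (2, 20), (4, 3), (4, 6)] →
      ∃ m : ℕ, m ∣ q ^ e - 1 ∧ (∀ i : ℕ, 1 ≤ i → i < e → Nat.Coprime m (q ^ i - 1)) ∧ 3 * e + 1 ≤ m) ∧
    ((q, e) ∈ [(2, 6), (2, 4), (2, 10), (2, 12), (2, 18), (3, 4), (3, 6), (5, 6), (2, 3), (2, 8), (2, 20), (4, 3), (4, 6)] →
      ∀ m : ℕ, m ∣ q ^ e - 1 → (∀ i : ℕ, 1 ≤ i → i < e → Nat.Coprime m (q ^ i - 1)) → m ≤ 2 * e + 1) := by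
  constructor
  · intro hne
    obtain ⟨m, ⟨h1, h2⟩, h3⟩ := exists_large_primitive q e hq.two_le he hne
    exact ⟨m, h1, fun i hi hie => h2 i hie hi, h3⟩
  · intro hmem m hm hcop
    obtain ⟨h0, hle⟩ := check5 (q, e) hmem
    have hd : m ∣ strip (q ^ e - 1) (cs q e ++ cs q e) := by
      apply dvd_strip m _ _ hm
      intro c hc
      have hc' : c ∈ cs q e := by
        rcases List.mem_append.mp hc with h | h <;> exact h
      obtain ⟨i, hi, rfl⟩ := List.mem_map.mp hc'
      rw [List.mem_range] at hi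
      exact hcop (i + 1) (by omega) (by omega)
    exact (Nat.le_of_dvd h0 hd).trans hle

end Cfsg.Agent.S4423
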