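import Cfsg.Statements.S4425
import Cfsg.Agent.Lib.Helper84Contrib

set_option autoImplicit false
open Cfsg

namespace Cfsg.Agent.S4425

open Cfsg.Agent.Lib.Helper84Contrib Cfsg.Agent.Lib.Helper81Defect Cfsg.Agent.Lib.Helper32Virt

/-- Let χ be an irreducible character of the finite group G, p a prime, p^a the p-part of the order of G and p^b the p-part of the degree χ(1). Let χ̃ be the class function equal to p^a · χ on p-regular elements and zero on p-singular elements. Then p^(−b) · χ̃ is a generalized character of G, while p^(−(b+1)) · χ̃ is not. -/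
theorem result {G : Type*} [Group G] [Finite G] (p : ℕ) [Fact p.Prime] (χ : Cfsg.IrrCharacter G) : Cfsg.IsGeneralizedCharacter G (fun x : G => if p ∣ orderOf x then (0 : ℂ) else ((p ^ ((Nat.card G).factorization p - (Cfsg.charDegree (χ : G → ℂ)).factorization p) : ℕ) : ℂ) * (χ : G → ℂ) x) ∧ ¬ Cfsg.IsGeneralizedCharacter G (fun x : G => if p ∣ orderOf x then (0 : ℂ) else ((p ^ (Nat.card G).factorization p : ℕ) : ℂ) / ((p ^ ((Cfsg.charDegree (χ : G → ℂ)).factorization p + 1) : ℕ) : ℂ) * (χ : G → ℂ) x) := by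
  classical
  have := Fintype.ofFinite G
  have hp : p.Prime := Fact.out
  have hp0 : (p : ℂ) ≠ 0 := by exact_mod_cast hp.ne_zero
  have hba := factorization_deg_le (p := p) χ
  set a := (Nat.card G).factorization p with ha
  set b := (Cfsg.charDegree (χ : G → ℂ)).factorization p with hb
  constructor
  · choose k hk using fun ψ : IrrCharacter G => pow_dvd_N (p := p) χ ψ
    have h1 : (fun x : G => if p ∣ orderOf x then (0 : ℂ)
        else ((p ^ (a - b) : ℕ) : ℂ) * (χ : G → ℂ) x)
        = ∑ ψ : IrrCharacter G, (k ψ : ℂ) • (ψ : G → ℂ) := by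
      have h2 := tld_eq_sum p χ
      funext x
      have h3 := congrFun h2 x
      rw [tld_def] at h3
      simp only [Finset.sum_apply, Pi.smul_apply, smul_eq_mul] at h3 ⊢
      have h4 : (p : ℂ) ^ b * (if p ∣ orderOf x then (0 : ℂ)
          else ((p ^ (a - b) : ℕ) : ℂ) * (χ : G → ℂ) x)
          = (p : ℂ) ^ b * ∑ ψ : IrrCharacter G, (k ψ : ℂ) * (ψ : G → ℂ) x := by
        rw [Finset.mul_sum]
        have h5 : ∀ ψ : IrrCharacter G, (p : ℂ) ^ b * ((k ψ : ℂ) * (ψ : G → ℂ) x)
            = (N p χ ψ : ℂ) * (ψ : G → ℂ) x := by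
          intro ψ
          rw [hk ψ]
          push_cast
          ring
        rw [Finset.sum_congr rfl fun ψ _ => h5 ψ, ← h3]
        split_ifs
        · simp
        · rw [← ha]
          have : a = b + (a - b) := by omega
          conv_rhs => rw [this]
          push_cast
          ring
      exact mul_left_cancel₀ (pow_ne_zero _ hp0) h4
    rw [h1]
    exact gen_sum _ fun ψ _ => gen_intCast_smul _ (gen_of_irr ψ.2)
  · intro hgen
    obtain ⟨m, hm, _⟩ := gen_coord hgen
    obtain ⟨P⟩ : Nonempty (Sylow p G) := inferInstance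
    have : Fintype (P : Subgroup G) := Fintype.ofFinite _
    choose kk hkk using fun τ : IrrCharacter G =>
      Cfsg.Agent.Lib.Helper81Orth2.sum_subgroup τ (P : Subgroup G)
    have hcard : (Nat.card (P : Subgroup G) : ℂ) = (p : ℂ) ^ a := by
      rw [Sylow.card_eq_multiplicity]
      push_cast
      rfl
    have hL : ∑ u : (P : Subgroup G), (fun x : G => if p ∣ orderOf x then (0 : ℂ)
        else ((p ^ a : ℕ) : ℂ) / ((p ^ (b + 1) : ℕ) : ℂ) * (χ : G → ℂ) x) (u : G)
        = ((p ^ a : ℕ) : ℂ) / ((p ^ (b + 1) : ℕ) : ℂ) * (χ : G → ℂ) 1 := by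
      rw [Finset.sum_eq_single (1 : (P : Subgroup G))]
      · have h1 : ¬ p ∣ orderOf (1 : G) := by
          rw [orderOf_one]; exact hp.one_lt.ne' ∘ Nat.dvd_one.mp
        simp only [Subgroup.coe_one, h1, if_false]
      · intro u _ hu
        have hdvd : p ∣ orderOf (u : G) := by
          obtain ⟨j, hj⟩ := (IsPGroup.iff_orderOf.mp P.2) u
          rw [Subgroup.orderOf_coe, hj]
          rcases Nat.eq_zero_or_pos j with rfl | hj0
          · rw [pow_zero, orderOf_eq_one_iff] at hj
            exact absurd hj hu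
          · exact dvd_pow_self p hj0.ne'
        simp only [hdvd, if_true]
      · intro h; exact absurd (Finset.mem_univ _) h
    rw [hm] at hL
    simp only [Finset.sum_apply, Pi.smul_apply, smul_eq_mul] at hL
    rw [Finset.sum_comm] at hL
    simp only [← Finset.mul_sum, hkk, hcard] at hL
    have h6 : (χ : G → ℂ) 1 = (p : ℂ) ^ (b + 1) * ∑ τ : IrrCharacter G, (m τ : ℂ) * (kk τ : ℂ) := by
      have hpa : (p : ℂ) ^ a ≠ 0 := pow_ne_zero _ hp0
      have hpb : (p : ℂ) ^ (b + 1) ≠ 0 := pow_ne_zero _ hp0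
      have h7 : ∑ τ : IrrCharacter G, (m τ : ℂ) * ((p : ℂ) ^ a * (kk τ : ℂ))
          = (p : ℂ) ^ a * ∑ τ : IrrCharacter G, (m τ : ℂ) * (kk τ : ℂ) := by
        rw [Finset.mul_sum]
        apply Finset.sum_congr rfl
        intro τ _
        ring
      rw [h7] at hL
      push_cast at hL
      field_simp at hL
      rw [← hL]
      ring
    rw [← Cfsg.Agent.Lib.Helper81Base.charDegree_eq] at h6
    have h8 : ((Cfsg.charDegree (χ : G → ℂ) : ℕ) : ℤ)
        = (p : ℤ) ^ (b + 1) * ∑ τ : IrrCharacter G, m τ * (kk τ : ℤ) := by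
      exact_mod_cast h6
    have h9 : ((p ^ (b + 1) : ℕ) : ℤ) ∣ ((Cfsg.charDegree (χ : G → ℂ) : ℕ) : ℤ) :=
      ⟨∑ τ : IrrCharacter G, m τ * (kk τ : ℤ), by rw [h8]; push_cast; ring⟩
    exact Nat.pow_succ_factorization_not_dvd
      (Cfsg.Agent.Lib.Helper81Base.charDegree_pos χ).ne' hp (Int.natCast_dvd_natCast.1 h9)

end Cfsg.Agent.S4425
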