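import Cfsg.Statements.S4426
import Cfsg.Agent.Lib.Helper84Contrib

set_option autoImplicit false
open Cfsg

namespace Cfsg.Agent.S4426

open Cfsg.Agent.Lib.Helper84Contrib Cfsg.Agent.Lib.Helper81Defect

theorem val_pow_mul (p : ℕ) [Fact p.Prime] (b : ℕ) {k : ℤ} (hk : ¬ (p : ℤ) ∣ k) :
    (p : ℤ) ^ b * k ≠ 0 ∧ padicValInt p ((p : ℤ) ^ b * k) = b := by
  have hp : p.Prime := Fact.out
  have hp0 : (p : ℤ) ≠ 0 := by exact_mod_cast hp.ne_zero
  have hk0 : k ≠ 0 := by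
    rintro rfl
    exact hk (dvd_zero _)
  have hne : (p : ℤ) ^ b * k ≠ 0 := mul_ne_zero (pow_ne_zero _ hp0) hk0
  refine ⟨hne, le_antisymm ?_ ?_⟩
  · by_contra hlt
    push Not at hlt
    have h1 : (p : ℤ) ^ (b + 1) ∣ (p : ℤ) ^ b * k :=
      (padicValInt_dvd_iff (b + 1) _).2 (Or.inr hlt)
    rw [pow_succ] at h1
    exact hk ((mul_dvd_mul_iff_left (pow_ne_zero _ hp0)).1 h1)
  · exact ((padicValInt_dvd_iff b _).1 (dvd_mul_right _ _)).resolve_left hne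

theorem a_to_c {G : Type*} [Group G] [Fintype G] (p : ℕ) [Fact p.Prime] (M : Ideal Cfsg.AlgInt)
    (hM : Cfsg.IsPModular p M) (B : Set (Cfsg.IrrCharacter G)) (hB : Cfsg.IsPBlock M B)
    (χ : Cfsg.IrrCharacter G) (hχ : χ ∈ B) (h0 : Cfsg.blockHeight p B (χ : G → ℂ) = 0) :
    ∀ ξ ∈ B, ∃ n : ℤ, Cfsg.classInner (fun x : G => if p ∣ orderOf x then (0 : ℂ)
      else ((p ^ (Nat.card G).factorization p : ℕ) : ℂ) * (χ : G → ℂ) x) (ξ : G → ℂ) = (n : ℂ) ∧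
      n ≠ 0 ∧ padicValInt p n = (Cfsg.charDegree (ξ : G → ℂ)).factorization p := by
  intro ξ hξ
  refine ⟨N p χ ξ, N_spec p χ ξ, ?_⟩
  obtain ⟨k, hk, hpk⟩ := N_height_zero hM hB hχ h0 hξ
  rw [N_symm, hk]
  exact val_pow_mul p _ hpk

theorem b_to_a {G : Type*} [Group G] [Fintype G] (p : ℕ) [Fact p.Prime] (M : Ideal Cfsg.AlgInt)
    (hM : Cfsg.IsPModular p M) (B : Set (Cfsg.IrrCharacter G)) (hB : Cfsg.IsPBlock M B)
    (χ : Cfsg.IrrCharacter G) (hχ : χ ∈ B)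
    (h : ∃ ξ ∈ B, ∃ n : ℤ, Cfsg.classInner (fun x : G => if p ∣ orderOf x then (0 : ℂ)
      else ((p ^ (Nat.card G).factorization p : ℕ) : ℂ) * (χ : G → ℂ) x) (ξ : G → ℂ) = (n : ℂ) ∧
      n ≠ 0 ∧ padicValInt p n = (Cfsg.charDegree (ξ : G → ℂ)).factorization p) :
    Cfsg.blockHeight p B (χ : G → ℂ) = 0 := by
  have hMp := hM.2.1.isPrime
  have hp : p.Prime := Fact.out
  have hp0 : (p : ℤ) ≠ 0 := by exact_mod_cast hp.ne_zero
  obtain ⟨ξ, hξ, n, hn, hn0, hv⟩ := h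
  have hnN : n = N p χ ξ := by
    have := (N_spec p χ ξ).symm.trans hn
    exact_mod_cast this.symm
  subst hnN
  obtain ⟨k, hk, hkk⟩ := N_factor hM ξ χ
  rw [N_symm] at hv hn0
  have hpk : ¬ (p : ℤ) ∣ k := by
    rintro ⟨k', rfl⟩
    have h1 : (p : ℤ) ^ ((charDegree (ξ : G → ℂ)).factorization p + 1) ∣ N p ξ χ :=
      ⟨k', by rw [hk]; ring⟩
    have h2 := ((padicValInt_dvd_iff _ _).1 h1).resolve_left hn0
    omega
  obtain ⟨φ, hφ, hφ0⟩ := exists_height_zero (p := p) ⟨χ, hχ⟩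
  obtain ⟨k2, hk2, hkk2⟩ := N_factor hM φ χ
  have hpk2 : ¬ (p : ℤ) ∣ k2 := by
    rw [hkk2, creg_unit_iff hM hB hφ hξ χ, ← hkk]
    exact hpk
  have h3 := pow_dvd_N' (p := p) φ χ
  obtain ⟨hne, hval⟩ := val_pow_mul p ((charDegree (φ : G → ℂ)).factorization p) hpk2
  rw [← hk2] at hne hval
  have h4 := ((padicValInt_dvd_iff _ _).1 h3).resolve_left hne
  rw [hval] at h4
  rw [blockHeight_def] at hφ0 ⊢
  have h5 := minVal_le (p := p) hφ
  omega


/-- Let χ be an irreducible character in the p-block B of the finite group G (relative to a maximal ideal M of the algebraic integers containing p), let p^a be the p-part of the order of G, and let χ̃ be the class function equal to p^a · χ on p-regular elements and zero elsewhere. For ξ ∈ B the inner product [χ̃, ξ] is an integer. The following are equivalent: (a) χ has height zero in B; (b) for some ξ ∈ B the integer [χ̃, ξ] is nonzero and the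 exact power of p dividing it equals the exact power of p dividing ξ(1); (c) the same holds for every ξ ∈ B. -/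
theorem result {G : Type*} [Group G] [Fintype G] (p : ℕ) [Fact p.Prime] (M : Ideal Cfsg.AlgInt) (hM : Cfsg.IsPModular p M) (B : Set (Cfsg.IrrCharacter G)) (hB : Cfsg.IsPBlock M B) (χ : Cfsg.IrrCharacter G) (hχ : χ ∈ B) : (Cfsg.blockHeight p B (χ : G → ℂ) = 0 ↔ ∃ ξ ∈ B, ∃ n : ℤ, Cfsg.classInner (fun x : G => if p ∣ orderOf x then (0 : ℂ) else ((p ^ (Nat.card G).factorization p : ℕ) : ℂ) * (χ : G → ℂ) x) (ξ : G → ℂ) = (n : ℂ) ∧ n ≠ 0 ∧ padicValInt p n = (Cfsg.charDegree (ξ : G → ℂ)).factorization p) ∧ (Cfsg.blockHeight p B (χ : G → ℂ) = 0 ↔ ∀ ξ ∈ B, ∃ n : ℤ, Cfsg.classInner (fun x : G => if p ∣ orderOf x then (0 : ℂ) else ((p ^ (Nat.card G).factorization p : ℕ) : ℂ) * (χ : G → ℂ) x) (ξ : G → ℂ) = (n : ℂ) ∧ n ≠ 0 ∧ padicValInt p n = (Cfsg.charDegree (ξ : G → ℂ)).factorization p) := by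
  have hMp := hM.2.1.isPrime
  have hA := a_to_c p M hM B hB χ hχ
  have hC := b_to_a p M hM B hB χ hχ
  refine ⟨⟨fun h => ⟨χ, hχ, hA h χ hχ⟩, hC⟩, ⟨hA, fun h => hC ⟨χ, hχ, h χ hχ⟩⟩⟩

end Cfsg.Agent.S4426
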