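import Cfsg.Statements.S4427
import Cfsg.Agent.Lib.Helper77PIM
import Cfsg.Agent.Lib.Helper84Contrib
import Cfsg.Agent.Lib.Helper4Eigen
import Cfsg.Agent.Lib.Helper82Linear

set_option autoImplicit false
open Cfsg

namespace Cfsg.Agent.S4427

open Cfsg.Agent.Lib.Helper77PIM Cfsg.Agent.Lib.Helper84Contrib Cfsg.Agent.Lib.Helper4Char
  Cfsg.Agent.Lib.Helper4Char2 Cfsg.Agent.Lib.Helper4Char4 MonoidAlgebra Module
open scoped ComplexConjugate

theorem core {G : Type*} [Group G] [Fintype G] (p a n : ℕ) [Fact p.Prime]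
    (hG : Nat.card G = p ^ a * n) (hpn : ¬ p ∣ n)
    (hS : Nat.card {g : G // ¬ p ∣ orderOf g} = n) (Q R : Subgroup G)
    (hQR : Nat.card Q * Nat.card R = n)
    (hconj : ∀ x ∈ Q, ∀ y ∈ R, IsConj x y → x = 1) :
    Cfsg.IsCharacter G (fun x : G => if p ∣ orderOf x then (0 : ℂ) else ((p ^ a : ℕ) : ℂ)) := by
  classical
  have hp : p.Prime := Fact.out
  have hn0 : n ≠ 0 := fun h => hpn (h ▸ dvd_zero p)
  have hfac : (Nat.card G).factorization p = a := by
    rw [hG, Nat.factorization_mul (pow_pos hp.pos a).ne' hn0]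
    simp [hp.factorization_pow, Nat.factorization_eq_zero_of_not_dvd hpn]
  let χ1 : Cfsg.IrrCharacter G := ⟨fun _ => 1, Cfsg.Agent.Lib.Helper82Linear.isIrrCharacter_one⟩
  let θ : G → ℂ := fun x : G => if p ∣ orderOf x then (0 : ℂ) else ((p ^ a : ℕ) : ℂ)
  have hθ : tld p (χ1 : G → ℂ) = θ := by
    funext x
    simp only [tld, θ, hfac, χ1, mul_one]
  let A : Cfsg.IrrCharacter G → ℤ := N p χ1
  have hA : ∀ ψ : Cfsg.IrrCharacter G, Cfsg.classInner θ ψ = A ψ := fun ψ => hθ ▸ N_spec p χ1 ψ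
  have hsum : θ = ∑ ψ : Cfsg.IrrCharacter G, (A ψ : ℂ) • (ψ : G → ℂ) := hθ ▸ tld_eq_sum p χ1
  have hcardS : ((Finset.univ.filter (fun g : G => ¬ p ∣ orderOf g)).card) = n := by
    rw [← hS, Nat.card_eq_fintype_card, Fintype.card_subtype]
  have hGc : (Nat.card G : ℂ) = (p : ℂ) ^ a * n := by rw [hG]; push_cast; ring
  have hpc : (p : ℂ) ≠ 0 := by exact_mod_cast hp.ne_zero
  have hnc : (n : ℂ) ≠ 0 := by exact_mod_cast hn0
  have hA1 : A χ1 = 1 := by
    have h1 := hA χ1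
    have h2 : Cfsg.classInner θ (χ1 : G → ℂ) = 1 := by
      unfold Cfsg.classInner
      have : ∑ g : G, θ g * conj ((χ1 : G → ℂ) g) = (n : ℂ) * (p : ℂ) ^ a := by
        simp only [θ, χ1, map_one, mul_one]
        rw [← Finset.sum_filter_add_sum_filter_not Finset.univ (fun g : G => ¬ p ∣ orderOf g)]
        rw [Finset.sum_congr rfl (g := fun _ => ((p ^ a : ℕ) : ℂ))
          (fun g hg => by simp [(Finset.mem_filter.mp hg).2])]
        rw [Finset.sum_congr rfl (s₁ := Finset.univ.filter (fun g : G => ¬ ¬ p ∣ orderOf g))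
          (g := fun _ => (0 : ℂ)) (fun g hg => by
            have := (Finset.mem_filter.mp hg).2
            rw [not_not] at this
            simp [this])]
        simp [hcardS]
      rw [this, hGc]
      field_simp
    rw [h2] at h1
    exact_mod_cast h1.symm
  have hAsq : ∑ ψ : Cfsg.IrrCharacter G, A ψ * A ψ = (p : ℤ) ^ a := by
    have := sum_N_sq (p := p) χ1
    rw [hfac] at this
    change ∑ ψ : Cfsg.IrrCharacter G, A ψ * A ψ = (p : ℤ) ^ a * A χ1 at this
    rw [this, hA1, mul_one]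
  obtain ⟨M, hM⟩ := Cfsg.Agent.Lib.Helper81ClassMul.exists_modular hp
  let _ : Fintype Q := Fintype.ofFinite Q
  let _ : Fintype R := Fintype.ofFinite R
  let w : MonoidAlgebra ℤ G := hat Q * hat R
  have _ : NeZero (p ^ (a + 1)) := ⟨(pow_pos hp.pos _).ne'⟩
  obtain ⟨e, he, ⟨e0, he0⟩, hce⟩ := exists_idem_pow w (p ^ (a + 1)) (p ^ a) (pow_pos hp.pos a)
  obtain ⟨Φ, hΦ1, hΦ2⟩ := exists_phi hM w (a + 1) e he hce
  let τ : G → ℤ := fun g => if p ∣ orderOf g then 0 else 1
  let σ : ℤ := ∑ g, (w ^ e).coeff g * τ g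
  have hθτ : ∀ g, θ g = (p : ℂ) ^ a * (τ g : ℂ) := by
    intro g
    simp only [θ, τ]
    split_ifs <;> simp
  have hD : ∑ χ ∈ (Finset.univ : Finset (Cfsg.IrrCharacter G)), (A χ : ℂ) * ev χ (w ^ e)
      = (((p : ℤ) ^ a * σ : ℤ) : ℂ) := by
    simp only [ev_eq_sum, Finset.mul_sum]
    rw [Finset.sum_comm]
    simp only [σ]
    push_cast
    rw [Finset.mul_sum]
    apply Finset.sum_congr rfl
    intro g _
    have h1 := congrFun hsum g
    rw [Finset.sum_apply] at h1
    simp only [Pi.smul_apply, smul_eq_mul] at h1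
    have h2 : ∑ χ : Cfsg.IrrCharacter G, (A χ : ℂ) * (((w ^ e).coeff g : ℂ) * (χ : G → ℂ) g)
        = ((w ^ e).coeff g : ℂ) * θ g := by
      rw [h1, Finset.mul_sum]
      apply Finset.sum_congr rfl
      intro χ _
      ring
    rw [h2, hθτ]
    ring
  have hτc : ∀ g h : G, τ (h * g * h⁻¹) = τ g := by
    intro g h
    have ho : orderOf (h * g * h⁻¹) = orderOf g := (MulAut.conj h).orderOf_eq g
    simp only [τ, ho]
  have hτp : ∀ g : G, τ (g ^ (p ^ a)) = 1 := by
    intro g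
    have h1 : orderOf (g ^ (p ^ a)) ∣ n := by
      apply orderOf_dvd_of_pow_eq_one
      rw [← pow_mul, ← hG]
      exact pow_card_eq_one'
    have h2 : ¬ p ∣ orderOf (g ^ (p ^ a)) := fun h => hpn (h.trans h1)
    simp only [τ, h2, if_false]
  have hσ : ¬ (p : ℤ) ∣ σ := by
    intro hdiv
    have h1 := ev_pow_prime_pow p a τ hτc (w ^ e0)
    rw [← pow_mul, mul_comm e0, ← he0] at h1
    simp only [hτp, mul_one] at h1
    rw [← aug_eq_sum, map_pow] at h1
    have h2 : aug w = (n : ℤ) := by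
      simp only [w]
      rw [map_mul, aug_hat, aug_hat, ← hQR, Nat.card_eq_fintype_card, Nat.card_eq_fintype_card]
      push_cast
      rfl
    rw [h2] at h1
    have h3 : (p : ℤ) ∣ (n : ℤ) ^ e0 := by
      have := dvd_sub hdiv h1
      simpa [σ] using this
    have h4 := (Nat.prime_iff_prime_int.mp hp).dvd_of_dvd_pow h3
    exact hpn (by exact_mod_cast h4)
  let T : ℤ := ∑ χ : Cfsg.IrrCharacter G, A χ * Φ χ
  have hT : (p : ℤ) ^ (a + 1) ∣ T - (p : ℤ) ^ a * σ := hΦ2 Finset.univ A _ hD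
  have hT1 : (p : ℤ) ^ a ∣ T := by
    have h1 : (p : ℤ) ^ a ∣ T - (p : ℤ) ^ a * σ := (pow_dvd_pow _ (Nat.le_succ a)).trans hT
    have := dvd_add h1 (Dvd.intro σ rfl : (p : ℤ) ^ a ∣ (p : ℤ) ^ a * σ)
    simpa using this
  have hpz : (p : ℤ) ^ a ≠ 0 := pow_ne_zero _ (by exact_mod_cast hp.ne_zero)
  have hT0 : T ≠ 0 := by
    intro h0
    rw [h0, zero_sub, dvd_neg, pow_succ] at hT
    exact hσ ((mul_dvd_mul_iff_left hpz).mp hT)
  have hTabs : (p : ℤ) ^ a ≤ |T| := Int.le_of_dvd (abs_pos.mpr hT0) ((dvd_abs _ _).mpr hT1)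
  have hx : ∀ χ : Cfsg.IrrCharacter G, ∃ x y : ℕ, Φ χ ≤ x ∧ Φ χ ≤ y ∧
      (x : ℂ) = (Fintype.card Q : ℂ)⁻¹ * ∑ g : Q, (χ : G → ℂ) g ∧
      (y : ℂ) = (Fintype.card R : ℂ)⁻¹ * ∑ g : R, (χ : G → ℂ) g := by
    intro χ
    obtain ⟨d, ρ, hρ, hle⟩ := hΦ1 χ
    have h1 := finrank_range_mul_le ρ (hat Q) (hat R)
    refine ⟨_, _, hle.trans h1.1, hle.trans h1.2, ?_, ?_⟩
    · rw [finrank_range_hat, hρ]
    · rw [finrank_range_hat, hρ]
  choose x y hx1 hx2 hx3 hx4 using hx
  have hcent : Nat.card (Subgroup.centralizer ({(1 : G)} : Set G)) = Nat.card G := by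
    have : Subgroup.centralizer ({(1 : G)} : Set G) = ⊤ := by
      ext g; simp [Subgroup.mem_centralizer_iff]
    rw [this, Subgroup.card_top]
  have hxy : ∑ χ : Cfsg.IrrCharacter G, x χ * y χ = p ^ a := by
    have h1 : ∑ χ : Cfsg.IrrCharacter G, (x χ : ℂ) * (y χ : ℂ)
        = (Fintype.card Q : ℂ)⁻¹ * (Fintype.card R : ℂ)⁻¹ * (Nat.card G : ℂ) := by
      have h2 : ∀ χ : Cfsg.IrrCharacter G, (x χ : ℂ) * (y χ : ℂ)
          = (Fintype.card Q : ℂ)⁻¹ * (Fintype.card R : ℂ)⁻¹ *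
            ∑ g : Q, ∑ h : R, (χ : G → ℂ) g * conj ((χ : G → ℂ) h) := by
        intro χ
        have h3 : (y χ : ℂ) = conj (y χ : ℂ) := (Complex.conj_natCast _).symm
        rw [h3, hx3, hx4, map_mul, map_inv₀, Complex.conj_natCast, map_sum, ← Finset.sum_mul_sum]
        ring
      simp only [h2]
      rw [← Finset.mul_sum]
      congr 1
      rw [Finset.sum_comm]
      simp only [Finset.sum_comm (s := (Finset.univ : Finset (Cfsg.IrrCharacter G)))]
      simp only [col_orth]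
      rw [Finset.sum_eq_single (1 : Q), Finset.sum_eq_single (1 : R)]
      · simp only [OneMemClass.coe_one]
        rw [if_pos (IsConj.refl _), hcent]
      · intro h _ hh
        rw [if_neg]
        intro hc
        apply hh
        have : (h : G) = 1 := by
          rw [OneMemClass.coe_one] at hc
          exact isConj_one_right.mp hc
        exact Subtype.ext this
      · intro h; exact absurd (Finset.mem_univ _) h
      · intro g _ hg
        apply Finset.sum_eq_zero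
        intro h _
        rw [if_neg]
        intro hc
        exact hg (Subtype.ext (hconj g g.2 h h.2 hc))
      · intro h; exact absurd (Finset.mem_univ _) h
    have h4 : (Fintype.card Q : ℂ) * (Fintype.card R : ℂ) = n := by
      rw [← hQR, Nat.card_eq_fintype_card, Nat.card_eq_fintype_card]
      push_cast
      rfl
    have h5 : (Fintype.card Q : ℂ)⁻¹ * (Fintype.card R : ℂ)⁻¹ * (Nat.card G : ℂ) = (p : ℂ) ^ a := by
      rw [← mul_inv, h4, hGc]
      field_simp
    rw [h5] at h1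
    exact_mod_cast h1
  have hΦsq : ∑ χ : Cfsg.IrrCharacter G, (Φ χ : ℤ) * (Φ χ : ℤ) ≤ (p : ℤ) ^ a := by
    have h1 : ∑ χ : Cfsg.IrrCharacter G, Φ χ * Φ χ ≤ ∑ χ : Cfsg.IrrCharacter G, x χ * y χ :=
      Finset.sum_le_sum (fun χ _ => Nat.mul_le_mul (hx1 χ) (hx2 χ))
    rw [hxy] at h1
    exact_mod_cast h1
  have hcl : Cfsg.IsClassFunction G θ := by
    intro g h
    have ho : orderOf (h * g * h⁻¹) = orderOf g := (MulAut.conj h).orderOf_eq g
    simp only [θ, ho]
  rcases lt_or_gt_of_ne hT0 with hneg | hpos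
  · exfalso
    rw [abs_of_neg hneg] at hTabs
    have h1 : ∑ χ : Cfsg.IrrCharacter G, (A χ + Φ χ) * (A χ + Φ χ) ≤ 0 := by
      have : ∑ χ : Cfsg.IrrCharacter G, (A χ + Φ χ) * (A χ + Φ χ)
          = ∑ χ : Cfsg.IrrCharacter G, A χ * A χ + 2 * T
            + ∑ χ : Cfsg.IrrCharacter G, (Φ χ : ℤ) * (Φ χ : ℤ) := by
        simp only [T]
        rw [Finset.mul_sum, ← Finset.sum_add_distrib, ← Finset.sum_add_distrib]
        apply Finset.sum_congr rfl
        intro χ _
        ring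
      rw [this, hAsq]
      linarith
    have h2 : (A χ1 + Φ χ1) * (A χ1 + Φ χ1) ≤ 0 :=
      le_trans (Finset.single_le_sum (f := fun χ : Cfsg.IrrCharacter G => (A χ + Φ χ) * (A χ + Φ χ))
        (fun χ _ => mul_self_nonneg _) (Finset.mem_univ χ1)) h1
    rw [hA1] at h2
    have h3 : (0 : ℤ) ≤ Φ χ1 := Int.natCast_nonneg _
    nlinarith
  · rw [abs_of_pos hpos] at hTabs
    have h1 : ∑ χ : Cfsg.IrrCharacter G, (A χ - Φ χ) * (A χ - Φ χ) ≤ 0 := by
      have : ∑ χ : Cfsg.IrrCharacter G, (A χ - Φ χ) * (A χ - Φ χ)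
          = ∑ χ : Cfsg.IrrCharacter G, A χ * A χ - 2 * T
            + ∑ χ : Cfsg.IrrCharacter G, (Φ χ : ℤ) * (Φ χ : ℤ) := by
        simp only [T]
        rw [Finset.mul_sum, ← Finset.sum_sub_distrib, ← Finset.sum_add_distrib]
        apply Finset.sum_congr rfl
        intro χ _
        ring
      rw [this, hAsq]
      linarith
    apply isCharacter_of_classInner_nat hcl
    intro χ
    refine ⟨Φ χ, ?_⟩
    have h2 : (A χ - Φ χ) * (A χ - Φ χ) ≤ 0 :=
      le_trans (Finset.single_le_sum (f := fun χ : Cfsg.IrrCharacter G => (A χ - Φ χ) * (A χ - Φ χ))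
        (fun χ _ => mul_self_nonneg _) (Finset.mem_univ χ)) h1
    have h3 : A χ - Φ χ = 0 := by
      have := le_antisymm h2 (mul_self_nonneg _)
      exact mul_self_eq_zero.mp this
    have h4 : A χ = Φ χ := by linarith
    rw [hA χ, h4]
    simp


/-- Let G be a finite group of order p^a · q^b · r^c with p, q, r distinct primes, and suppose that G has exactly q^b · r^c elements of order not divisible by p. Then G has a normal p-complement: a normal subgroup of order q^b · r^c. -/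
theorem result {G : Type*} [Group G] [Finite G] (p q r a b c : ℕ) (hp : p.Prime) (hq : q.Prime) (hr : r.Prime) (hpq : p ≠ q) (hpr : p ≠ r) (hqr : q ≠ r) (hG : Nat.card G = p ^ a * q ^ b * r ^ c) (hcount : Nat.card {g : G // ¬ p ∣ orderOf g} = q ^ b * r ^ c) : ∃ N : Subgroup G, N.Normal ∧ Nat.card N = q ^ b * r ^ c := by
  classical
  let _ : Fintype G := Fintype.ofFinite G
  have _ : Fact p.Prime := ⟨hp⟩
  have hpn : ¬ p ∣ q ^ b * r ^ c := by
    intro h
    rcases (Nat.Prime.dvd_mul hp).mp h with h | h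
    · exact hpq ((Nat.prime_dvd_prime_iff_eq hp hq).mp (hp.dvd_of_dvd_pow h))
    · exact hpr ((Nat.prime_dvd_prime_iff_eq hp hr).mp (hp.dvd_of_dvd_pow h))
  have hG' : Nat.card G = p ^ a * (q ^ b * r ^ c) := by rw [hG, mul_assoc]
  have _ : Fact q.Prime := ⟨hq⟩
  have _ : Fact r.Prime := ⟨hr⟩
  obtain ⟨Q, hQ⟩ := Sylow.exists_subgroup_card_pow_prime (G := G) q (n := b)
    (by rw [hG']; exact (Dvd.intro (r ^ c) rfl : q ^ b ∣ q ^ b * r ^ c).trans (Dvd.intro_left (p ^ a) rfl))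
  obtain ⟨R, hR⟩ := Sylow.exists_subgroup_card_pow_prime (G := G) r (n := c)
    (by rw [hG']; exact (Dvd.intro_left (q ^ b) rfl : r ^ c ∣ q ^ b * r ^ c).trans (Dvd.intro_left (p ^ a) rfl))
  have hconj : ∀ x ∈ Q, ∀ y ∈ R, IsConj x y → x = 1 := by
    intro x hx y hy hxy
    have h1 : orderOf x ∣ q ^ b := by
      have := orderOf_dvd_natCard (⟨x, hx⟩ : Q)
      rwa [hQ, Subgroup.orderOf_mk] at this
    have h2 : orderOf y ∣ r ^ c := by
      have := orderOf_dvd_natCard (⟨y, hy⟩ : R)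
      rwa [hR, Subgroup.orderOf_mk] at this
    have h3 : orderOf x = orderOf y := by
      obtain ⟨g, hg⟩ := isConj_iff.mp hxy
      rw [← hg]
      exact ((MulAut.conj g).orderOf_eq x).symm
    rw [← h3] at h2
    have hcop : Nat.Coprime (q ^ b) (r ^ c) :=
      Nat.Coprime.pow _ _ ((Nat.coprime_primes hq hr).mpr hqr)
    have h4 : orderOf x = 1 := Nat.eq_one_of_dvd_coprimes hcop h1 h2
    exact orderOf_eq_one_iff.mp h4
  obtain ⟨d, ρ, hρ⟩ := core p a (q ^ b * r ^ c) hG' hpn hcount Q R (by rw [hQ, hR]) hconj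
  have hd : ((Module.finrank ℂ (Fin d → ℂ) : ℕ) : ℂ) = ((p ^ a : ℕ) : ℂ) := by
    have h1 := congrFun hρ 1
    rw [Representation.char_one] at h1
    rw [h1]
    simp [hp.one_lt.ne']
  have hker : ∀ g : G, g ∈ MonoidHom.ker ρ ↔ ¬ p ∣ orderOf g := by
    intro g
    rw [MonoidHom.mem_ker]
    have h1 := Cfsg.Agent.Lib.Helper4Eigen.char_eq_finrank_iff ρ g
    have h2 : ρ g = 1 ↔ ρ g = LinearMap.id := Iff.rfl
    rw [h2, ← h1, hd, hρ]
    by_cases h : p ∣ orderOf g
    · simp only [h, if_true, not_true, iff_false]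
      intro h0
      have : (p ^ a : ℕ) = 0 := by exact_mod_cast h0.symm
      exact (pow_pos hp.pos a).ne' this
    · simp [h]
  refine ⟨MonoidHom.ker ρ, inferInstance, ?_⟩
  rw [← hcount]
  apply Nat.card_congr
  exact Equiv.subtypeEquivRight hker

end Cfsg.Agent.S4427
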