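import Cfsg.Statements.S4428
import Cfsg.Agent.Lib.Helper81Reg3

set_option autoImplicit false
open Cfsg

namespace Cfsg.Agent.S4428

open Cfsg.Agent.Lib.Helper81Local Cfsg.Agent.Lib.Helper81Base Cfsg.Agent.Lib.Helper81Block
  Cfsg.Agent.Lib.Helper81Defect Cfsg.Agent.Lib.Helper81Reg Cfsg.Agent.Lib.Helper81Reg2
  Cfsg.Agent.Lib.Helper81Reg3
/-- Let χ be an irreducible character of height zero in the p-block B of the finite group G (relative to a maximal ideal M of the algebraic integers containing p). Let x be a p-element of G with centralizer C, and let b be a block of C that induces B. Form the class function ϑ(c) = χ(x c) on C and its b-part (the sum over ψ ∈ b of the inner product of ϑ with ψ, times ψ). Then the b-part of ϑ does not vanish identically on the p-regular elements of C. (Compare the second main Theorem, which gives vanishing when b does not induce B.) -/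
theorem result {G : Type*} [Group G] [Finite G] (p : ℕ) [Fact p.Prime] (M : Ideal Cfsg.AlgInt) (hM : Cfsg.IsPModular p M) (B : Set (Cfsg.IrrCharacter G)) (hB : Cfsg.IsPBlock M B) (χ : Cfsg.IrrCharacter G) (hχ : χ ∈ B) (h0 : Cfsg.blockHeight p B (χ : G → ℂ) = 0) (x : G) (hx : ∃ k : ℕ, orderOf x = p ^ k) (b : Set (Cfsg.IrrCharacter (Subgroup.centralizer ({x} : Set G)))) (hb : Cfsg.IsInducedBlock M (Subgroup.centralizer ({x} : Set G)) b B) : ∃ y : Subgroup.centralizer ({x} : Set G), ¬ p ∣ orderOf y ∧ Cfsg.blockPart b (fun c : Subgroup.centralizer ({x} : Set G) => (χ : G → ℂ) (x * (c : G))) y ≠ 0 := by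
  classical
  have hMp := hM.2.1.isPrime
  let _ : Fintype G := Fintype.ofFinite G
  let _ : Fintype (Subgroup.centralizer ({x} : Set G)) := Fintype.ofFinite _
  obtain ⟨ξ₀, hξ₀, hh0⟩ := exists_height_zero (p := p) (isPBlock_nonempty hb.1)
  have uG := creg_self_unit hM hB hχ h0
  have h1 := creg_induced (p := p) (Subgroup.centralizer ({x} : Set G)) hb hξ₀ hχ χ
  have hθ : IsClassFunction (Subgroup.centralizer ({x} : Set G))
      (fun c : Subgroup.centralizer ({x} : Set G) => (χ : G → ℂ) (x * (c : G))) := by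
    intro g h
    have hh := h.2
    rw [Subgroup.mem_centralizer_singleton_iff] at hh
    show (χ : G → ℂ) (x * ((h : G) * (g : G) * (h : G)⁻¹)) = (χ : G → ℂ) (x * (g : G))
    have : x * ((h : G) * (g : G) * (h : G)⁻¹) = (h : G) * (x * g) * (h : G)⁻¹ := by
      rw [← mul_assoc, ← mul_assoc, ← hh]
      group
    rw [this, irr_conj]
  by_contra hcon
  push Not at hcon
  have hS := sum_reg_blockPart hM hb.1 hξ₀ hθ
  have hS0 : ∑ y : Subgroup.centralizer ({x} : Set G), (if ¬ p ∣ orderOf y then
      blockPart b (fun c : Subgroup.centralizer ({x} : Set G) => (χ : G → ℂ) (x * (c : G))) y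
        * (starRingEnd ℂ) ((ξ₀ : Subgroup.centralizer ({x} : Set G) → ℂ) y) else 0) = 0 := by
    apply Finset.sum_eq_zero
    intro y _
    split_ifs with hy
    · rfl
    · rw [hcon y hy, zero_mul]
  rw [hS0] at hS
  set a₂ : Subgroup.centralizer ({x} : Set G) → ℂ :=
    fun y => if ¬ p ∣ orderOf y then (χ : G → ℂ) (x * (y : G)⁻¹) else 0 with ha₂
  have hT : ∑ y : Subgroup.centralizer ({x} : Set G), (if ¬ p ∣ orderOf y then
      (χ : G → ℂ) (x * (y : G)) * (starRingEnd ℂ) ((ξ₀ : Subgroup.centralizer ({x} : Set G) → ℂ) y)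
        else 0) = ∑ y, a₂ y * (ξ₀ : Subgroup.centralizer ({x} : Set G) → ℂ) y := by
    apply Fintype.sum_equiv (Equiv.inv _)
    intro y
    simp only [Equiv.inv_apply, ha₂, orderOf_inv, Subgroup.coe_inv, inv_inv]
    split_ifs
    · simp
    · rw [irr_inv]
  rw [hT] at hS
  obtain ⟨k, hk⟩ := hx
  have hxk : x ^ (p ^ k) = 1 := by rw [← hk]; exact pow_orderOf_eq_one x
  have hdiff : ∀ y, MemLocalIdeal M ((a₂ - areg p
      (fun h : Subgroup.centralizer ({x} : Set G) => (χ : G → ℂ) h)) y) := by
    intro y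
    simp only [Pi.sub_apply, ha₂, areg]
    split_ifs
    · simpa using memLocalIdeal_zero (M := M)
    · rw [← irr_inv]
      have hy := y.2
      rw [Subgroup.mem_centralizer_singleton_iff] at hy
      have hc : Commute x (y : G)⁻¹ := (show Commute (y : G) x from hy).symm.inv_right
      exact Cfsg.Agent.Lib.Helper20Avg.char_mul_sub_mem hM
        (Cfsg.Agent.Lib.Helper4Char.IsIrrCharacter.isCharacter χ.2) hc hxk
  have hcl2 : IsClassFunction (Subgroup.centralizer ({x} : Set G)) a₂ := by
    intro g h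
    have ho : orderOf (h * g * h⁻¹) = orderOf g := (MulAut.conj h).orderOf_eq g
    simp only [ha₂, ho]
    have := hθ g⁻¹ h
    have e : (h * g⁻¹ * h⁻¹ : Subgroup.centralizer ({x} : Set G)) = (h * g * h⁻¹)⁻¹ := by group
    rw [e] at this
    simp only [Subgroup.coe_inv] at this
    rw [this]
  have hcl3 : IsClassFunction (Subgroup.centralizer ({x} : Set G)) (areg p
      (fun h : Subgroup.centralizer ({x} : Set G) => (χ : G → ℂ) h)) := by
    intro g h
    have ho : orderOf (h * g * h⁻¹) = orderOf g := (MulAut.conj h).orderOf_eq g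
    simp only [areg, ho]
    have : (χ : G → ℂ) ((h * g * h⁻¹ : Subgroup.centralizer ({x} : Set G)) : G)
        = (χ : G → ℂ) (g : G) := irr_conj χ (g : G) (h : G)
    rw [this]
  have h2 := Cfsg.Agent.Lib.Helper20Block.om_mem_ideal hMp ξ₀.2
    (Cfsg.Agent.Lib.Helper4Char.IsClassFunction.sub hcl2 hcl3) hdiff
  rw [Cfsg.Agent.Lib.Helper20Center.om_sub] at h2
  have h3 : Cfsg.Agent.Lib.Helper20Center.om (ξ₀ : Subgroup.centralizer ({x} : Set G) → ℂ) a₂ = 0 := by
    unfold Cfsg.Agent.Lib.Helper20Center.om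
    rw [← hS, zero_div]
  rw [h3, zero_sub] at h2
  apply uG
  have h4 : MemLocalIdeal M (creg p (ξ₀ : Subgroup.centralizer ({x} : Set G) → ℂ)
      (fun h : Subgroup.centralizer ({x} : Set G) => (χ : G → ℂ) h)) := by
    have h5 := memLocalIdeal_neg h2
    rw [neg_neg] at h5
    exact h5
  have := memLocalIdeal_sub h4 h1
  simpa using this

end Cfsg.Agent.S4428
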