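import Cfsg.Statements.S4430
import Cfsg.Agent.Lib.Helper20IndBlock
import Cfsg.Agent.Lib.Helper20Height
import Cfsg.Agent.Lib.Helper81Part
import Cfsg.Agent.S0148

set_option autoImplicit false
open Cfsg

namespace Cfsg.Agent.S4430

open Cfsg.Agent.Lib.Helper4Char Cfsg.Agent.Lib.Helper4Char2 Cfsg.Agent.Lib.Helper20Local
open Cfsg.Agent.Lib.Helper20Center Cfsg.Agent.Lib.Helper20Block
open Cfsg.Agent.Lib.Helper20Induced Cfsg.Agent.Lib.Helper20IndBlock Cfsg.Agent.Lib.Helper20Height
open Cfsg.Agent.Lib.Helper19Ind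

theorem key {G : Type*} [Group G] [Fintype G] {p : ℕ} [Fact p.Prime] {M : Ideal Cfsg.AlgInt}
    (hM : Cfsg.IsPModular p M) (H : Subgroup G) [Fintype H] (ξ : Cfsg.IrrCharacter H)
    (B : Set (Cfsg.IrrCharacter G)) :
    ∃ n d : ℕ, d ≠ 0 ∧ Cfsg.charDegree (Cfsg.indFun H (ξ : H → ℂ)) = d ∧
      Cfsg.blockPart B (Cfsg.indFun H (ξ : H → ℂ)) 1 = (n : ℂ) ∧
      (n : ℂ) = (d : ℂ) * om (ξ : H → ℂ) (res H (Cfsg.blockCoeff B)) := by
  classical
  have hchar := Cfsg.Agent.S0148.result H (ξ : H → ℂ) (IsIrrCharacter.isCharacter ξ.2)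
  obtain ⟨m, -, hm⟩ := Cfsg.Agent.Lib.Helper4Char4.IsCharacter.eq_sum_nat hchar
  have h1 : Cfsg.indFun H (ξ : H → ℂ) 1
      = ((H.index * Cfsg.charDegree (ξ : H → ℂ) : ℕ) : ℂ) := by
    rw [indFun_one, card_div_card_eq_index]
    push_cast
    rw [Cfsg.Agent.Lib.Helper81Base.charDegree_eq]
  have hd : Cfsg.charDegree (Cfsg.indFun H (ξ : H → ℂ)) = H.index * Cfsg.charDegree (ξ : H → ℂ) := by
    generalize H.index * Cfsg.charDegree (ξ : H → ℂ) = k at h1 ⊢
    unfold Cfsg.charDegree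
    rw [h1]
    simp
  refine ⟨∑ χ : Cfsg.IrrCharacter G, (if χ ∈ B then m χ * Cfsg.charDegree (χ : G → ℂ) else 0),
    H.index * Cfsg.charDegree (ξ : H → ℂ), ?_, hd, ?_, ?_⟩
  · exact Nat.mul_ne_zero Subgroup.index_ne_zero_of_finite
      (Cfsg.Agent.Lib.Helper81Base.charDegree_pos ξ).ne'
  · rw [Cfsg.Agent.Lib.Helper81Part.blockPart_def]
    push_cast
    apply Finset.sum_congr rfl
    intro χ _
    split_ifs
    · have := hm χ
      unfold Cfsg.classInner at this
      rw [this, Cfsg.Agent.Lib.Helper81Base.charDegree_eq]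
    · rfl
  · have h2 : (∑ χ : Cfsg.IrrCharacter G, (if χ ∈ B then m χ * Cfsg.charDegree (χ : G → ℂ) else 0) : ℕ)
        = Cfsg.blockPart B (Cfsg.indFun H (ξ : H → ℂ)) 1 := by
      rw [Cfsg.Agent.Lib.Helper81Part.blockPart_def]
      push_cast
      apply Finset.sum_congr rfl
      intro χ _
      split_ifs
      · have := hm χ
        unfold Cfsg.classInner at this
        rw [this, Cfsg.Agent.Lib.Helper81Base.charDegree_eq]
      · rfl
    rw [h2, Cfsg.Agent.Lib.Helper81Part.blockPart_eq_sum B (indFun_isClassFunction H _),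
      ← om_indFun H (blockCoeff_isClassFunction B), ← h1]
    have h0 : Cfsg.indFun H (ξ : H → ℂ) 1 ≠ 0 := by
      rw [h1]
      exact_mod_cast Nat.mul_ne_zero Subgroup.index_ne_zero_of_finite
        (Cfsg.Agent.Lib.Helper81Base.charDegree_pos ξ).ne'
    unfold om
    simp only [mul_one]
    field_simp


/-- Let H be a subgroup of the finite group G, b a block of H whose induced block B₀ in G is defined (relative to a maximal ideal M of the algebraic integers containing p), and ξ ∈ b. For a block B of G let n_B be the value at 1 of the B-part of the induced character ξ^G (a natural number: the sum over χ ∈ B of the multiplicity of χ in ξ^G times χ(1)). Then for B = B₀ the exact power of p dividing n_B equals the exact power of p dividing ξ^G(1), while for every other block B either n_B = 0 or n_B is divisible by a strictly higher power of p than ξ^G(1). -/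
theorem result {G : Type*} [Group G] [Fintype G] (p : ℕ) [Fact p.Prime] (M : Ideal Cfsg.AlgInt) (hM : Cfsg.IsPModular p M) (H : Subgroup G) [Fintype H] (b : Set (Cfsg.IrrCharacter H)) (B₀ : Set (Cfsg.IrrCharacter G)) (hind : Cfsg.IsInducedBlock M H b B₀) (ξ : Cfsg.IrrCharacter H) (hξ : ξ ∈ b) : (∃ n : ℕ, Cfsg.blockPart B₀ (Cfsg.indFun H (ξ : H → ℂ)) 1 = (n : ℂ) ∧ n ≠ 0 ∧ n.factorization p = (Cfsg.charDegree (Cfsg.indFun H (ξ : H → ℂ))).factorization p) ∧ ∀ B : Set (Cfsg.IrrCharacter G), Cfsg.IsPBlock M B → B ≠ B₀ → ∃ n : ℕ, Cfsg.blockPart B (Cfsg.indFun H (ξ : H → ℂ)) 1 = (n : ℂ) ∧ (n = 0 ∨ (Cfsg.charDegree (Cfsg.indFun H (ξ : H → ℂ))).factorization p < n.factorization p) := by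
  classical
  have hPr := IsPModular.isPrime hM
  obtain ⟨χ0, hχ0⟩ := IsPBlock.nonempty hPr hind.2.1
  constructor
  · obtain ⟨n, d, hd0, hd, hn, hnd⟩ := key hM H ξ B₀
    have h1 := isInducedBlock_om H hPr hind hξ hχ0 (isSC_blockCoeff hPr hind.2.1)
    rw [om_blockCoeff, if_pos hχ0] at h1
    have huR : Cfsg.MemLocalRing M (om (ξ : H → ℂ) (res H (Cfsg.blockCoeff B₀))) :=
      om_mem hPr ξ.2 (res_isSC H (isSC_blockCoeff hPr hind.2.1))
    have hu : ¬ Cfsg.MemLocalIdeal M (om (ξ : H → ℂ) (res H (Cfsg.blockCoeff B₀))) := by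
      intro hcon
      have := liSub hPr hcon h1
      rw [sub_sub_cancel] at this
      exact not_memLocalIdeal_one hPr this
    have hu0 : om (ξ : H → ℂ) (res H (Cfsg.blockCoeff B₀)) ≠ 0 := by
      intro h0; apply hu; rw [h0]; exact memLocalIdeal_zero hPr
    have hn0 : n ≠ 0 := by
      rintro rfl
      have hd0' : (d : ℂ) ≠ 0 := by exact_mod_cast hd0
      simp only [Nat.cast_zero] at hnd
      exact (mul_ne_zero hd0' hu0) hnd.symm
    refine ⟨n, hn, hn0, ?_⟩
    rw [hd]
    apply le_antisymm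
    · apply Cfsg.Agent.Lib.Helper81Local.factorization_le_of_eq_mul hM hd0 (lrInv huR hu)
      rw [hnd]; field_simp
    · exact Cfsg.Agent.Lib.Helper81Local.factorization_le_of_eq_mul hM hn0 huR hnd
  · intro B hB hne
    obtain ⟨n, d, hd0, hd, hn, hnd⟩ := key hM H ξ B
    have h1 := isInducedBlock_om H hPr hind hξ hχ0 (isSC_blockCoeff hPr hB)
    have hχB : χ0 ∉ B := fun h => hne (IsPBlock.eq_of_mem hPr hB hind.2.1 h hχ0)
    rw [om_blockCoeff, if_neg hχB, sub_zero] at h1
    refine ⟨n, hn, ?_⟩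
    by_cases hn0 : n = 0
    · left; exact hn0
    · right
      rw [hd]
      by_contra hcon
      push Not at hcon
      have h2 := natCast_div_memRing hM hd0 hn0 hcon
      have h3 := liMulLeft hPr h2 h1
      apply not_memLocalIdeal_one hPr
      convert h3 using 1
      have hn0' : (n : ℂ) ≠ 0 := by exact_mod_cast hn0
      rw [div_mul_eq_mul_div, ← hnd, div_self hn0']

end Cfsg.Agent.S4430
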