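import Cfsg.Statements.S4431
import Cfsg.Agent.Lib.Helper81Reg
import Cfsg.Agent.Lib.Helper84Contrib

set_option autoImplicit false
open Cfsg

namespace Cfsg.Agent.S4431

open Cfsg.Agent.Lib.Helper20Center (om)
open Cfsg.Agent.Lib.Helper81Local Cfsg.Agent.Lib.Helper81Base Cfsg.Agent.Lib.Helper81BB
  Cfsg.Agent.Lib.Helper81Block Cfsg.Agent.Lib.Helper81Defect Cfsg.Agent.Lib.Helper81Reg
open scoped ComplexConjugate
/-- Let H be a subgroup of the finite group G and b a block of H whose induced block B₀ in G is defined (relative to a maximal ideal M of the algebraic integers containing p). Let χ be an irreducible character of G, ψ ∈ b, and let η be the class function on H equal to p^a · χ on the p-regular elements of H and zero elsewhere, p^a being the p-part of the order of H. Then (a) if χ ∉ B₀, the number [η, ψ]/ψ(1) lies in the local ideal at M; (b) if χ ∈ B₀ has height zero, it does not. -/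
theorem result {G : Type*} [Group G] [Fintype G] (p : ℕ) [Fact p.Prime] (M : Ideal Cfsg.AlgInt) (hM : Cfsg.IsPModular p M) (H : Subgroup G) [Fintype H] (b : Set (Cfsg.IrrCharacter H)) (B₀ : Set (Cfsg.IrrCharacter G)) (hind : Cfsg.IsInducedBlock M H b B₀) (χ : Cfsg.IrrCharacter G) (ψ : Cfsg.IrrCharacter H) (hψ : ψ ∈ b) : (χ ∉ B₀ → Cfsg.MemLocalIdeal M (Cfsg.classInner (fun h : H => if p ∣ orderOf h then (0 : ℂ) else ((p ^ (Nat.card H).factorization p : ℕ) : ℂ) * (χ : G → ℂ) h) (ψ : H → ℂ) / (ψ : H → ℂ) 1)) ∧ (χ ∈ B₀ → Cfsg.blockHeight p B₀ (χ : G → ℂ) = 0 → ¬ Cfsg.MemLocalIdeal M (Cfsg.classInner (fun h : H => if p ∣ orderOf h then (0 : ℂ) else ((p ^ (Nat.card H).factorization p : ℕ) : ℂ) * (χ : G → ℂ) h) (ψ : H → ℂ) / (ψ : H → ℂ) 1)) := by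
  classical
  have hMp := hM.2.1.isPrime
  obtain ⟨τ₀, hτ₀⟩ := isPBlock_nonempty hind.2.1
  set a := (Nat.card H).factorization p with ha
  set v := Cfsg.classInner (fun h : H => if p ∣ orderOf h then (0 : ℂ) else ((p ^ a : ℕ) : ℂ) * (χ : G → ℂ) h) (ψ : H → ℂ) / (ψ : H → ℂ) 1 with hv
  -- the value is `creg / u`
  have hu : ¬ p ∣ Nat.card H / p ^ a := Nat.not_dvd_ordCompl hM.1 Nat.card_pos.ne'
  have hmul : p ^ a * (Nat.card H / p ^ a) = Nat.card H := Nat.ordProj_mul_ordCompl_eq_self _ _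
  have hH0 : (Nat.card H : ℂ) ≠ 0 := by exact_mod_cast Nat.card_pos.ne'
  have hu0 : ((Nat.card H / p ^ a : ℕ) : ℂ) ≠ 0 := by
    intro h
    apply hH0
    rw [← hmul]; push_cast; push_cast at h; rw [h, mul_zero]
  have hkey : ((Nat.card H / p ^ a : ℕ) : ℂ) * v = creg p (ψ : H → ℂ) (fun h : H => (χ : G → ℂ) h) := by
    have h1 : (∑ h : H, (if p ∣ orderOf h then (0 : ℂ) else ((p ^ a : ℕ) : ℂ) * (χ : G → ℂ) h) * conj ((ψ : H → ℂ) h))
        = ((p ^ a : ℕ) : ℂ) * ∑ h : H, areg p (fun h : H => (χ : G → ℂ) h) h * (ψ : H → ℂ) h := by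
      rw [Finset.mul_sum]
      apply Fintype.sum_equiv (Equiv.inv H)
      intro x
      simp only [Equiv.inv_apply, areg, orderOf_inv]
      split_ifs
      · ring
      · rw [irr_inv ψ, Subgroup.coe_inv, irr_inv χ, Complex.conj_conj]; ring
    rw [hv]
    unfold Cfsg.classInner creg Cfsg.Agent.Lib.Helper20Center.om
    rw [h1]
    have h2 : (Nat.card H : ℂ) = ((p ^ a : ℕ) : ℂ) * ((Nat.card H / p ^ a : ℕ) : ℂ) := by
      rw [← Nat.cast_mul, hmul]
    have hp0 : ((p ^ a : ℕ) : ℂ) ≠ 0 := by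
      intro h; apply hH0; rw [h2, h, zero_mul]
    rw [h2]
    have := irr_one_ne_zero ψ
    field_simp
  have hiff : MemLocalIdeal M v ↔ MemLocalIdeal M (creg p (ψ : H → ℂ) (fun h : H => (χ : G → ℂ) h)) := by
    rw [← hkey]
    constructor
    · intro h; exact memLocalIdeal_mul (memLocalRing_natCast _) h
    · intro h
      have h3 : v = (((1 : ℕ) : ℂ) / ((Nat.card H / p ^ a : ℕ) : ℂ)) * (((Nat.card H / p ^ a : ℕ) : ℂ) * v) := by
        field_simp
        simp
      rw [h3]
      apply memLocalIdeal_mul _ h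
      apply memLocalRing_natDiv hM
      · intro h0; rw [h0] at hu; exact hu (dvd_zero _)
      · rw [Nat.factorization_eq_zero_of_not_dvd hu]; exact Nat.zero_le _
  have hiff2 : ∀ τ ∈ B₀, (MemLocalIdeal M v ↔ MemLocalIdeal M (creg p (τ : G → ℂ) (χ : G → ℂ))) := by
    intro τ hτ
    rw [hiff]
    have h1 := creg_induced (p := p) H hind hψ hτ χ
    constructor
    · intro h
      have := memLocalIdeal_sub h h1
      simpa using this
    · intro h
      have := memLocalIdeal_add h1 h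
      simpa using this
  constructor
  · intro hχ
    rw [hiff2 τ₀ hτ₀, creg_eq_zero hM]
    · exact memLocalIdeal_zero
    · intro hs
      exact hχ (isPBlock_mem_of_sameBlock hind.2.1 hτ₀ hs)
  · intro hχ h0
    rw [hiff2 χ hχ]
    exact creg_self_unit hM hind.2.1 hχ h0

end Cfsg.Agent.S4431
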