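import Cfsg.Statements.S4436
import Cfsg.Agent.Lib.Helper21FR2

set_option autoImplicit false
open Cfsg

namespace Cfsg.Agent.S4436

/-- Let N be a normal subgroup of the finite group G, b a block of N (relative to a maximal ideal M of the algebraic integers containing p), T the stabilizer of b in G, N ≤ T, and B′ a block of T covering b (some member of B′ has a constituent in b on restriction to N) that induces the block B of G. Then every defect group of B′ is a defect group of B, and for every ψ ∈ B′ the induced character ψ^G is an irreducible character of G lying in B with the same height as ψ. -/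
theorem result {G : Type*} [Group G] [Fintype G] (p : ℕ) [Fact p.Prime] (M : Ideal Cfsg.AlgInt) (hM : Cfsg.IsPModular p M) (N : Subgroup G) [hN : N.Normal] [Fintype N] (b : Set (Cfsg.IrrCharacter N)) (hb : Cfsg.IsPBlock M b) (T : Subgroup G) [Fintype T] (hT : ∀ g : G, g ∈ T ↔ ∀ θ ∈ b, ∀ θ' : Cfsg.IrrCharacter N, (∀ n : N, (θ' : N → ℂ) n = (θ : N → ℂ) ⟨g * n * g⁻¹, hN.conj_mem n n.2 g⟩) → θ' ∈ b) (hNT : N ≤ T) (B' : Set (Cfsg.IrrCharacter T)) (hB' : Cfsg.IsPBlock M B') (hcov : (∃ ψ ∈ B', ∃ θ ∈ b, Cfsg.classInner (fun n : N => (ψ : T → ℂ) ⟨(n : G), hNT n.2⟩) (θ : N → ℂ) ≠ 0)) (B : Set (Cfsg.IrrCharacter G)) (hind : Cfsg.IsInducedBlock M T B' B) : (∀ D : Subgroup T, Cfsg.IsDefectGroup p M B' D → Cfsg.IsDefectGroup p M B (D.map T.subtype)) ∧ ∀ ψ ∈ B', ∃ χ ∈ B, (χ : G → ℂ) = Cfsg.indFun T (ψ : T → ℂ) ∧ Cfsg.blockHeight p B (χ : G → ℂ) = Cfsg.blockHeight p B' (ψ : T → ℂ) := by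
  have hpr := Lib.Helper81Local.IsPModular.isPrime hM
  have hS := Lib.Helper21FR.isStab_of (hN := hN) hT
  obtain ⟨B₁, hi, _, _, hiff⟩ := Lib.Helper21FR.fr_induce hNT hS hb hB' hcov
  have hBB : B₁ = B := Lib.Helper21FR2.isInducedBlock_unique hind hi
  subst hBB
  have hne := Lib.Helper81Block.isPBlock_nonempty hB'
  have h1 : ∀ χ ∈ B₁, ∃ ψ ∈ B', (χ : G → ℂ) = Cfsg.indFun T (ψ : T → ℂ) := fun χ hχ => (hiff χ).1 hχ
  have hall := Lib.Helper21FR.all_over hNT hS hb hB' hcov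
  have h2 : ∀ ψ ∈ B', ∃ χ ∈ B₁, (χ : G → ℂ) = Cfsg.indFun T (ψ : T → ℂ) := by
    intro ψ hψ
    obtain ⟨θ, hθ, h⟩ := hall ψ hψ
    exact ⟨Lib.Helper21FR.indI hNT hS hb hθ h, (hiff _).2 ⟨ψ, hψ, rfl⟩, rfl⟩
  refine ⟨fun D hD => ?_, fun ψ hψ => ?_⟩
  · exact Lib.Helper21FR2.isDefectGroup_map_of_defect_eq hM hind
      (Lib.Helper21FR2.blockDefect_ind hne h1 h2) hD
  · obtain ⟨χ, hχ, e⟩ := h2 ψ hψ
    exact ⟨χ, hχ, e, Lib.Helper21FR2.blockHeight_ind hne h1 h2 e⟩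

end Cfsg.Agent.S4436
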