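import Cfsg.Statements.S4437
import Cfsg.Agent.Lib.Helper20ExtFirst

set_option autoImplicit false
open Cfsg

namespace Cfsg.Agent.S4437

open Cfsg.Agent.Lib.Helper20Local Cfsg.Agent.Lib.Helper20Center Cfsg.Agent.Lib.Helper20Block
open Cfsg.Agent.Lib.Helper20Ideal Cfsg.Agent.Lib.Helper20Defect
open Cfsg.Agent.Lib.Helper20First Cfsg.Agent.Lib.Helper20Induced
open Cfsg.Agent.Lib.Helper20DefCard Cfsg.Agent.Lib.Helper20ExtFirst Cfsg.Agent.Lib.Helper20Brauer


/-- Let P be a p-subgroup of the finite group G, H = P·C_G(P), and b a block of H (relative to a maximal ideal M of the algebraic integers containing p) having P as a defect group; let B be the block of G induced by b. Let T be the stabilizer of b in N_G(P): the elements g of N_G(P) such that the g-conjugate of every member of b is again a member of b. Then B has defect group P if and only if p does not divide the index of H in T. -/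
theorem result {G : Type*} [Group G] [Fintype G] (p : ℕ) [Fact p.Prime] (M : Ideal Cfsg.AlgInt) (hM : Cfsg.IsPModular p M) (P : Subgroup G) (hP : IsPGroup p P) (H : Subgroup G) [Fintype H] (hH : H = P ⊔ Subgroup.centralizer (P : Set G)) (b : Set (Cfsg.IrrCharacter H)) (hb : Cfsg.IsPBlock M b) (hbP : Cfsg.IsDefectGroup p M b (P.subgroupOf H)) (B : Set (Cfsg.IrrCharacter G)) (hind : Cfsg.IsInducedBlock M H b B) (T : Subgroup G) (hT : ∀ g : G, g ∈ T ↔ (g ∈ Subgroup.normalizer (P : Set G) ∧ ∀ θ ∈ b, ∀ θ' : Cfsg.IrrCharacter H, (∀ h h' : H, (h' : G) = g * h * g⁻¹ → (θ' : H → ℂ) h' = (θ : H → ℂ) h) → θ' ∈ b)) : Cfsg.IsDefectGroup p M B P ↔ ¬ p ∣ H.relIndex T := by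
  classical
  subst hH
  have hp : p.Prime := Fact.out
  have hPr := IsPModular.isPrime hM
  obtain ⟨β, hβ, hd⟩ := defect_induced hM hP hind hT
  have hcb := card_defectGroup hM hb hbP
  have hPH : P ≤ P ⊔ Subgroup.centralizer (P : Set G) := le_sup_left
  have hcP : Nat.card (P.subgroupOf (P ⊔ Subgroup.centralizer (P : Set G))) = Nat.card P :=
    Nat.card_congr (Subgroup.subgroupOfEquivOfLe hPH).toEquiv
  rw [hcP] at hcb
  have hcP' : Nat.card (P.subgroupOf (Subgroup.normalizer (P : Set G))) = Nat.card P :=
    Nat.card_congr (Subgroup.subgroupOfEquivOfLe Subgroup.le_normalizer).toEquiv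
  have hrel : (P ⊔ Subgroup.centralizer (P : Set G)).relIndex T ≠ 0 := by
    have : ((P ⊔ Subgroup.centralizer (P : Set G)).subgroupOf T).FiniteIndex := inferInstance
    exact this.index_ne_zero
  have hkey : ¬ p ∣ (P ⊔ Subgroup.centralizer (P : Set G)).relIndex T ↔
      ((P ⊔ Subgroup.centralizer (P : Set G)).relIndex T).factorization p = 0 := by
    rw [Nat.factorization_eq_zero_iff]
    constructor
    · intro h; exact Or.inr (Or.inl h)
    · rintro (h | h | h)
      · exact absurd hp h
      · exact h
      · exact absurd h hrel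
  rw [hkey]
  constructor
  · intro hBP
    have h1 := defectGroup_of_induced hM hP hβ hBP
    have h2 := card_defectGroup hM hβ.1 h1
    rw [hcP', hcb] at h2
    have h3 := Nat.pow_right_injective hp.two_le h2
    omega
  · intro h0
    apply induced_defectGroup hM hP _ hβ
    obtain ⟨Q, hQ⟩ := exists_defectGroup hM hβ.1
    have hP₁n : (P.subgroupOf (Subgroup.normalizer (P : Set G))).Normal :=
      Subgroup.normal_in_normalizer
    have hP₁ : IsPGroup p (P.subgroupOf (Subgroup.normalizer (P : Set G))) :=
      hP.of_equiv (Subgroup.subgroupOfEquivOfLe Subgroup.le_normalizer).symm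
    have hle := le_defectGroup_of_normal hM _ hP₁ hβ.1 hQ
    have hcQ := card_defectGroup hM hβ.1 hQ
    rw [hd, h0, add_zero, ← hcb, ← hcP'] at hcQ
    have : P.subgroupOf (Subgroup.normalizer (P : Set G)) = Q :=
      Subgroup.eq_of_le_of_card_ge hle hcQ.le
    rw [this]; exact hQ

end Cfsg.Agent.S4437
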