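import Cfsg.Statements.S4442
import Cfsg.Agent.Lib.Helper4DefOneK
import Cfsg.Agent.Lib.Helper95DefOneDeg

set_option autoImplicit false
open Cfsg

namespace Cfsg.Agent.S4442

open Subgroup Cfsg.Agent.Lib.Helper59BLGram Cfsg.Agent.Lib.Helper59BLTw
  Cfsg.Agent.Lib.Helper4DefOneDefs Cfsg.Agent.Lib.Helper59BLDual Cfsg.Agent.Lib.Helper81Base
open Cfsg.Agent.Lib.Helper1DefOneTw (exists_tw)
open Cfsg.Agent.Lib.Helper83DefOneGram (gram_tw sum_mH_regular)
open Cfsg.Agent.Lib.Helper12DefOneKap (relT_equiv relT_one_iff kapT_of_ne_one kapT_one card_orbitT)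
open Cfsg.Agent.Lib.Helper80DefOneFin (mH_const_of_not_mem exists_mH_ne_of_mem value_formula)
open Cfsg.Agent.Lib.Helper4DefOneK (main_K)
open scoped ComplexConjugate

theorem degree_congr {G : Type*} [Group G] [Fintype G] {p : ℕ} [Fact p.Prime] {M : Ideal AlgInt}
    {P : Sylow p G} {H : Subgroup G} [Fintype H]
    [Fintype (normalizer ((P : Subgroup G) : Set G))]
    {B : Set (IrrCharacter G)} {b : Set (IrrCharacter H)} {θ : IrrCharacter H}
    {tw : (↥(P : Subgroup G) →* ℂˣ) → IrrCharacter H}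
    (h : Data p M P H B b θ tw) [Fintype (↥(P : Subgroup G) →* ℂˣ)]
    (T : Subgroup G) (hT : ∀ g, g ∈ T ↔ Stab P (θ : H → ℂ) g) (e f : ℕ) (he : H.relIndex T = e)
    (hf : H.relIndex (normalizer ((P : Subgroup G) : Set G)) = f)
    (χ : IrrCharacter G) (hχ : χ ∈ B) (D : (↥(P : Subgroup G) →* ℂˣ) → ℤ)
    (hD : ∀ l, (D l : ℂ) = mH χ (tw l) - mH χ (tw 1)) :
    (charDegree (χ : G → ℂ) : ℤ) ≡ ((f / e * charDegree (θ : H → ℂ) : ℕ) : ℤ) * ∑ l, D l [ZMOD p] :=
  Cfsg.Agent.Lib.Helper95DefOneDeg.degree_congr_of_value h T hT e f he hf χ D hD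
    (fun x hx => value_formula h T hT χ hχ x hx 1
      (by simp [orderOf_one, (Fact.out : p.Prime).one_lt.ne']))

/-- Blocks of defect one. Let p be an odd prime and G a finite group whose Sylow p-subgroup P has order p; let C = C_G(P) and N = N_G(P), and fix a maximal ideal M of the algebraic integers containing p. Let B be a block of G with defect group P, b a block of C inducing B, and θ the member of b having P in its kernel (there is exactly one). Let T be the stabilizer of θ in N (the elements g ∈ N with θ(g c g⁻¹) = θ(c) for all c ∈ C) and e the index of C in T. Then e divides p − 1 and B contains exactly e + (p − 1)/e irreducible characters. Moreover B is the disjoint union of a set X of e characters and a set Y of (p − 1)/e characters such that, with f the index of C in N: every χ ∈ X has χ(1) ≡ ±(f/e)·θ(1) (mod p), there is one sign ε with ψ(1) ≡ ε f θ(1) (mod p) for all ψ ∈ Y, and all members of Y agree on the p-regular elements of G. -/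
theorem result {G : Type*} [Group G] [Finite G] (p : ℕ) [Fact p.Prime] (M : Ideal Cfsg.AlgInt) (hM : Cfsg.IsPModular p M) (hodd : p ≠ 2) (P : Sylow p G) (hP : Nat.card P = p) (B : Set (Cfsg.IrrCharacter G)) (hB : Cfsg.IsPBlock M B) (hBP : Cfsg.IsDefectGroup p M B P) (b : Set (Cfsg.IrrCharacter (Subgroup.centralizer ((P : Subgroup G) : Set G)))) (hind : Cfsg.IsInducedBlock M (Subgroup.centralizer ((P : Subgroup G) : Set G)) b B) (θ : Cfsg.IrrCharacter (Subgroup.centralizer ((P : Subgroup G) : Set G))) (hθ : θ ∈ b) (hθP : ∀ x : Subgroup.centralizer ((P : Subgroup G) : Set G), (x : G) ∈ (P : Subgroup G) → (θ : Subgroup.centralizer ((P : Subgroup G) : Set G) → ℂ) x = (θ : Subgroup.centralizer ((P : Subgroup G) : Set G) → ℂ) 1) (T : Subgroup G) (hT : ∀ g : G, g ∈ T ↔ (g ∈ Subgroup.normalizer ((P : Subgroup G) : Set G) ∧ ∀ c c' : Subgroup.centralizer ((P : Subgroup G) : Set G), (c' : G) = g * c * g⁻¹ → (θ : Subgroup.centralizer ((P : Subgroup G) : Set G) → ℂ) c' = (θ :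 Subgroup.centralizer ((P : Subgroup G) : Set G) → ℂ) c)) (e f : ℕ) (he : (Subgroup.centralizer ((P : Subgroup G) : Set G)).relIndex T = e) (hf : (Subgroup.centralizer ((P : Subgroup G) : Set G)).relIndex (Subgroup.normalizer ((P : Subgroup G) : Set G)) = f) : e ∣ p - 1 ∧ Nat.card B = e + (p - 1) / e ∧ ∃ X Y : Set (Cfsg.IrrCharacter G), B = X ∪ Y ∧ Disjoint X Y ∧ Nat.card X = e ∧ Nat.card Y = (p - 1) / e ∧ (∀ χ ∈ X, (Cfsg.charDegree (χ : G → ℂ) : ℤ) ≡ ((f / e * Cfsg.charDegree (θ : Subgroup.centralizer ((P : Subgroup G) : Set G) → ℂ) : ℕ) : ℤ) [ZMOD p] ∨ (Cfsg.charDegree (χ : G → ℂ) : ℤ) ≡ -((f / e * Cfsg.charDegree (θ : Subgroup.centralizer ((P : Subgroup G) : Set G) → ℂ) : ℕ) : ℤ) [ZMOD p]) ∧ (∃ ε : ℤ, (ε = 1 ∨ ε = -1) ∧ ∀ ψ ∈ Y, (Cfsg.charDegree (ψ : G → ℂ) : ℤ) ≡ ε * ((f * Cfsg.charDegree (θ : Subgroup.centralizer ((P : Subgroup G) : Set G) → ℂ) : ℕ) : ℤ) [ZMOD p]) ∧ ∀ ψ ∈ Y, ∀ ψ' ∈ Y, ∀ g : G, ¬ p ∣ orderOf g → (ψ : G → ℂ) g = (ψ' : G → ℂ) g := by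
  classical
  let _ : Fintype G := Fintype.ofFinite G
  have hp : p.Prime := Fact.out
  obtain ⟨tw, htw, htwb⟩ := exists_tw (P := P) hM hP rfl hind.1 hθ hθP
  have h : Data p M P (Subgroup.centralizer ((P : Subgroup G) : Set G)) B b θ tw :=
    ⟨hM, hP, rfl, hBP, hind, hθ, hθP, htw, htwb⟩
  have hT' : ∀ g, g ∈ T ↔ Stab P (θ : Subgroup.centralizer ((P : Subgroup G) : Set G) → ℂ) g := hT
  have hcyc : IsCyclic ↥(P : Subgroup G) := isCyclic_of_prime_card hP
  have hab : IsMulCommutative ↥(P : Subgroup G) :=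
    (MonoidHom.id ↥(P : Subgroup G)).isMulCommutative_of_isCyclic_of_ker_le_center (by simp)
  have : Finite (↥(P : Subgroup G) →* ℂˣ) := finite_hom _ hab
  let _ : Fintype (↥(P : Subgroup G) →* ℂˣ) := Fintype.ofFinite _
  have hcardhom : Fintype.card (↥(P : Subgroup G) →* ℂˣ) = p := by
    rw [← Nat.card_eq_fintype_card, card_hom _ hab]; exact hP
  obtain ⟨hdvd, hcB, ε, a, Λ, hε, hΛB, hΛ, ha, hcX, hcY, hX, hY⟩ := main_K h T hT' e he
  have hE := relT_equiv (P := P) rfl (θ : Subgroup.centralizer ((P : Subgroup G) : Set G) → ℂ)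
  -- e divides f
  have hHT : Subgroup.centralizer ((P : Subgroup G) : Set G) ≤ T := by
    intro g hg
    rw [hT]
    refine ⟨Subgroup.centralizer_le_normalizer _ hg, ?_⟩
    intro c c' hc
    have : c' = ⟨g, hg⟩ * c * ⟨g, hg⟩⁻¹ := Subtype.ext hc
    rw [this]
    exact irr_conj θ c ⟨g, hg⟩
  have hTN : T ≤ Subgroup.normalizer ((P : Subgroup G) : Set G) := fun g hg => ((hT g).mp hg).1
  have hef : e ∣ f := by
    rw [← he, ← hf, ← Subgroup.relIndex_mul_relIndex _ _ _ hHT hTN]
    exact dvd_mul_right _ _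
  refine ⟨hdvd, hcB, {χ | χ ∈ B ∧ ∀ l, l ≠ 1 → χ ≠ Λ l}, {χ | ∃ l, l ≠ 1 ∧ χ = Λ l}, ?_, ?_, hcX, hcY,
    ?_, ⟨ε, hε, ?_⟩, ?_⟩
  · ext χ
    simp only [Set.mem_union, Set.mem_setOf_eq]
    constructor
    · intro hχ
      by_cases hc : ∃ l, l ≠ 1 ∧ χ = Λ l
      · exact Or.inr hc
      · push Not at hc
        exact Or.inl ⟨hχ, hc⟩
    · rintro (h' | ⟨l, hl, rfl⟩)
      · exact h'.1
      · exact hΛB l hl
  · rw [Set.disjoint_left]
    rintro χ ⟨_, h1⟩ ⟨l, hl, h2⟩
    exact h1 l hl h2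
  · -- degrees of the non-exceptional characters
    rintro χ ⟨hχB, hχ⟩
    have hd := degree_congr h T hT' e f he hf χ hχB (fun l => if l = 1 then 0 else a χ) (by
      intro l
      by_cases hl : l = 1
      · subst hl; simp
      · rw [if_neg hl, hX χ hχB hχ l hl])
    have hs : ∑ l : ↥(P : Subgroup G) →* ℂˣ, (if l = 1 then 0 else a χ) = ((p : ℤ) - 1) * a χ := by
      have e1 : ∀ l : ↥(P : Subgroup G) →* ℂˣ, (if l = 1 then 0 else a χ)
          = a χ - (if l = 1 then a χ else 0) := by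
        intro l; split_ifs <;> ring
      simp only [e1, Finset.sum_sub_distrib, Finset.sum_const, Finset.card_univ, hcardhom,
        Finset.sum_ite_eq', Finset.mem_univ, if_true, nsmul_eq_mul]
      ring
    rw [hs] at hd
    rcases ha χ hχB hχ with h1 | h1
    · right
      refine hd.trans ?_
      rw [h1]
      apply Int.modEq_iff_dvd.mpr
      exact ⟨-((f / e * charDegree (θ : Subgroup.centralizer ((P : Subgroup G) : Set G) → ℂ) : ℕ) : ℤ),
        by ring⟩
    · left
      refine hd.trans ?_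
      rw [h1]
      apply Int.modEq_iff_dvd.mpr
      exact ⟨((f / e * charDegree (θ : Subgroup.centralizer ((P : Subgroup G) : Set G) → ℂ) : ℕ) : ℤ),
        by ring⟩
  · -- degrees of the exceptional characters
    rintro ψ ⟨l₀, hl₀, rfl⟩
    have hd := degree_congr h T hT' e f he hf (Λ l₀) (hΛB l₀ hl₀)
      (fun l => if RelT P (θ : Subgroup.centralizer ((P : Subgroup G) : Set G) → ℂ) l₀ l then ε else 0)
      (by
        intro l
        by_cases hl : l = 1
        · subst hl
          rw [if_neg (fun h' => hl₀ ((relT_one_iff P _ _).mp h'))]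
          simp
        · rw [hY l₀ l hl₀ hl, ind_eq_ite]
          split_ifs <;> simp)
    have hs : ∑ l : ↥(P : Subgroup G) →* ℂˣ,
        (if RelT P (θ : Subgroup.centralizer ((P : Subgroup G) : Set G) → ℂ) l₀ l then ε else 0)
        = (e : ℤ) * ε := by
      rw [← Finset.sum_filter, Finset.sum_const, ← card_orbitT h T hT' e he l₀ hl₀,
        Nat.card_eq_fintype_card, Fintype.card_subtype, nsmul_eq_mul]
    rw [hs] at hd
    refine hd.trans ?_
    obtain ⟨c, hc⟩ := hef
    have he0 : 0 < e := by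
      rcases Nat.eq_zero_or_pos e with h0 | h0
      · exfalso
        rw [h0] at hdvd
        have := Nat.eq_zero_of_zero_dvd hdvd
        have := hp.two_le
        omega
      · exact h0
    have : f / e = c := by rw [hc, Nat.mul_div_cancel_left _ he0]
    rw [this, hc]
    push_cast
    have e2 : (c : ℤ) * (charDegree (θ : Subgroup.centralizer ((P : Subgroup G) : Set G) → ℂ) : ℤ)
        * ((e : ℤ) * ε) = ε * ((e : ℤ) * c *
          (charDegree (θ : Subgroup.centralizer ((P : Subgroup G) : Set G) → ℂ) : ℤ)) := by ring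
    rw [e2]
  · -- equality on p-regular elements
    rintro ψ ⟨l, hl, rfl⟩ ψ' ⟨l', hl', rfl⟩ g hg
    by_cases hne : Λ l = Λ l'
    · rw [hne]
    have hnr : ¬ RelT P (θ : Subgroup.centralizer ((P : Subgroup G) : Set G) → ℂ) l l' :=
      fun h' => hne ((hΛ l l' hl hl').mpr h')
    have hs := sum_mH_regular h l l' g hg
    rw [Finset.sum_eq_add (Λ l) (Λ l') hne] at hs
    · have e1 : mH (Λ l) (tw l) - mH (Λ l) (tw l') = ε := by
        have a1 := hY l l hl hl
        have a2 := hY l l' hl hl'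
        rw [ind_pos (hE.refl l)] at a1
        rw [ind_neg hnr] at a2
        linear_combination a1 - a2
      have e2 : mH (Λ l') (tw l) - mH (Λ l') (tw l') = -ε := by
        have a1 := hY l' l hl' hl
        have a2 := hY l' l' hl' hl'
        rw [ind_neg (fun h' => hnr (hE.symm h'))] at a1
        rw [ind_pos (hE.refl l')] at a2
        linear_combination a1 - a2
      rw [e1, e2] at hs
      have hε0 : (ε : ℂ) ≠ 0 := by
        rcases hε with h' | h' <;> rw [h'] <;> norm_num
      have : (ε : ℂ) * ((Λ l : G → ℂ) g - (Λ l' : G → ℂ) g) = 0 := by linear_combination hs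
      rcases mul_eq_zero.mp this with h' | h'
      · exact absurd h' hε0
      · exact sub_eq_zero.mp h'
    · intro χ _ hχ
      have : mH χ (tw l) - mH χ (tw l') = 0 := by
        by_cases hχB : χ ∈ B
        · by_cases hc : ∃ l₁, l₁ ≠ 1 ∧ χ = Λ l₁
          · obtain ⟨l₁, hl₁, rfl⟩ := hc
            have a1 := hY l₁ l hl₁ hl
            have a2 := hY l₁ l' hl₁ hl'
            rw [ind_neg (fun h' => hχ.1 ((hΛ l₁ l hl₁ hl).mpr h'))] at a1
            rw [ind_neg (fun h' => hχ.2 ((hΛ l₁ l' hl₁ hl').mpr h'))] at a2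
            linear_combination a1 - a2
          · push Not at hc
            have a1 := hX χ hχB hc l hl
            have a2 := hX χ hχB hc l' hl'
            linear_combination a1 - a2
        · rw [mH_const_of_not_mem h χ hχB l, mH_const_of_not_mem h χ hχB l', sub_self]
      rw [this, zero_mul]
    · intro h'; exact absurd (Finset.mem_univ _) h'
    · intro h'; exact absurd (Finset.mem_univ _) h'

end Cfsg.Agent.S4442
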