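import Cfsg.Statements.S4444
import Cfsg.Agent.Lib.Helper77Glaub

set_option autoImplicit false
open Cfsg

namespace Cfsg.Agent.S4444

/-- The Glauberman correspondence for a p-group of operators. Inside a finite group Γ let S normalise G with the orders of G and S coprime, S a p-group, and let C = G ⊓ C(S) be the fixed points. Call an irreducible character χ of G S-invariant when χ(s g s⁻¹) = χ(g) for s ∈ S, g ∈ G. Then: (i) for every S-invariant χ there is exactly one irreducible character β of C whose multiplicity [χ_C, β] in the restriction of χ is not divisible by p; (ii) that multiplicity is ≡ 1 or ≡ −1 (mod p); (iii) distinct S-invariant χ give distinct β; (iv) every irreducible character of C arises in this way. So χ ↦ β is a bijection from the S-invariant irreducible characters of G onto the irreducible characters of C. -/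
theorem result {Γ : Type*} [Group Γ] [Fintype Γ] (G S : Subgroup Γ) [Fintype G] (hnorm : ∀ s ∈ S, ∀ g ∈ G, s * g * s⁻¹ ∈ G) (hcop : (Nat.card G).Coprime (Nat.card S)) (p : ℕ) (hp : p.Prime) (hS : IsPGroup p S) (C : Subgroup Γ) [Fintype C] (hC : C = G ⊓ Subgroup.centralizer (S : Set Γ)) (hCG : C ≤ G) : (∀ χ : Cfsg.IrrCharacter G, (∀ s ∈ S, ∀ g g' : G, (g' : Γ) = s * g * s⁻¹ → (χ : G → ℂ) g' = (χ : G → ℂ) g) → ∃! β : Cfsg.IrrCharacter C, ∃ m : ℕ, Cfsg.classInner (fun c : C => (χ : G → ℂ) ⟨c, hCG c.2⟩) (β : C → ℂ) = (m : ℂ) ∧ ¬ p ∣ m) ∧ (∀ χ : Cfsg.IrrCharacter G, (∀ s ∈ S, ∀ g g' : G, (g' : Γ) = s * g * s⁻¹ → (χ : G → ℂ) g' = (χ : G → ℂ) g) → ∀ β : Cfsg.IrrCharacter C, ∀ m : ℕ, Cfsg.classInner (fun c : C => (χ : G → ℂ) ⟨c, hCG c.2⟩) (β : C → ℂ) = (m : ℂ) → ¬ p ∣ m → ((m : ℤ) ≡ 1 [ZMOD p] ∨ (m : ℤ) ≡ -1 [ZMOD p])) ∧ (∀ χ χ' : Cfsg.IrrCharacter G, (∀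 s ∈ S, ∀ g g' : G, (g' : Γ) = s * g * s⁻¹ → (χ : G → ℂ) g' = (χ : G → ℂ) g) → (∀ s ∈ S, ∀ g g' : G, (g' : Γ) = s * g * s⁻¹ → (χ' : G → ℂ) g' = (χ' : G → ℂ) g) → ∀ β : Cfsg.IrrCharacter C, ∀ m m' : ℕ, Cfsg.classInner (fun c : C => (χ : G → ℂ) ⟨c, hCG c.2⟩) (β : C → ℂ) = (m : ℂ) → ¬ p ∣ m → Cfsg.classInner (fun c : C => (χ' : G → ℂ) ⟨c, hCG c.2⟩) (β : C → ℂ) = (m' : ℂ) → ¬ p ∣ m' → χ = χ') ∧ (∀ β : Cfsg.IrrCharacter C, ∃ χ : Cfsg.IrrCharacter G, (∀ s ∈ S, ∀ g g' : G, (g' : Γ) = s * g * s⁻¹ → (χ : G → ℂ) g' = (χ : G → ℂ) g) ∧ ∃ m : ℕ, Cfsg.classInner (fun c : C => (χ : G → ℂ) ⟨c, hCG c.2⟩) (β : C → ℂ) = (m : ℂ) ∧ ¬ p ∣ m) := by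
  have : Fact p.Prime := ⟨hp⟩
  have hfix := Cfsg.Agent.Lib.Helper77Glaub.isFix_conjAct G S hnorm C hC hCG
  obtain ⟨h1, h2, h3, h4, h5⟩ := Cfsg.Agent.Lib.Helper77Glaub.glauberman p hS hfix hcop
  have hI := Cfsg.Agent.Lib.Helper77Glaub.inv_conjAct_iff G S hnorm
  have hspec : ∀ (χ : Cfsg.IrrCharacter G) (β : Cfsg.IrrCharacter C),
      Cfsg.classInner (fun c : C => (χ : G → ℂ) ⟨c, hCG c.2⟩) (β : C → ℂ)
        = (Cfsg.Agent.Lib.Helper77Glaub.mlt (Subgroup.inclusion hCG) χ β : ℂ) := fun χ β =>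
    Cfsg.Agent.Lib.Helper77Glaub.mlt_spec (Subgroup.inclusion hCG)
      (Cfsg.Agent.Lib.Helper4Char.IsIrrCharacter.isCharacter χ.2)
      (Cfsg.Agent.Lib.Helper4Char.IsIrrCharacter.isCharacter β.2)
  have heq : ∀ (χ : Cfsg.IrrCharacter G) (β : Cfsg.IrrCharacter C) (m : ℕ),
      Cfsg.classInner (fun c : C => (χ : G → ℂ) ⟨c, hCG c.2⟩) (β : C → ℂ) = (m : ℂ) →
        Cfsg.Agent.Lib.Helper77Glaub.mlt (Subgroup.inclusion hCG) χ β = m := fun χ β m hm =>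
    Cfsg.Agent.Lib.Helper77Glaub.mlt_eq (Subgroup.inclusion hCG) hm
  refine ⟨fun χ hi => ?_, fun χ hi β m hm hd => ?_, fun χ χ' hi hi' β m m' hm hd hm' hd' => ?_,
    fun β => ?_⟩
  · obtain ⟨β, hβ⟩ := h1 χ ((hI χ).mpr hi)
    refine ⟨β, ⟨_, hspec χ β, hβ⟩, ?_⟩
    rintro β' ⟨m, hm, hd⟩
    rw [← heq χ β' m hm] at hd
    exact h2 χ ((hI χ).mpr hi) β' β hd hβ
  · rw [← heq χ β m hm] at hd ⊢
    exact h3 χ ((hI χ).mpr hi) β hd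
  · rw [← heq χ β m hm] at hd
    rw [← heq χ' β m' hm'] at hd'
    exact h4 χ χ' ((hI χ).mpr hi) ((hI χ').mpr hi') β hd hd'
  · obtain ⟨χ, hi, hd⟩ := h5 β
    exact ⟨χ, (hI χ).mp hi, _, hspec χ β, hd⟩

end Cfsg.Agent.S4444
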