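import Cfsg.Statements.S4446
import Mathlib
import Cfsg.Agent.Lib.Helper5GlaubCyc
import Cfsg.Agent.S0867

set_option autoImplicit false
open Cfsg

namespace Cfsg.Agent.S4446

open Lib.Helper4Char Lib.Helper4Char2 Lib.Helper4Char4 Lib.Helper77Glaub Lib.Helper77Glaub2
  Lib.Helper77Glaub4 Lib.Helper5GlaubCyc Lib.Helper32Virt Lib.Helper19Lin Lib.Helper19Det
open scoped ComplexConjugate

theorem normal_of {Γ : Type*} [Group Γ] (G S : Subgroup Γ)
    (hnorm : ∀ s ∈ S, ∀ g ∈ G, s * g * s⁻¹ ∈ G) (htop : G ⊔ S = ⊤) : G.Normal := by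
  rw [← Subgroup.normalizer_eq_top_iff, eq_top_iff, ← htop]
  apply sup_le Subgroup.le_normalizer
  intro s hs
  rw [Subgroup.mem_normalizer_iff]
  intro h
  constructor
  · exact hnorm s hs h
  · intro hh
    have := hnorm s⁻¹ (S.inv_mem hs) _ hh
    have e : s⁻¹ * (s * h * s⁻¹) * s⁻¹⁻¹ = h := by group
    rwa [e] at this

theorem setup {Γ : Type*} [Group Γ] [Fintype Γ] (G S : Subgroup Γ)
    (hcop : (Nat.card G).Coprime (Nat.card S)) (htop : G ⊔ S = ⊤) (C : Subgroup Γ)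
    (hC : C = G ⊓ Subgroup.centralizer (S : Set Γ)) (hCG : C ≤ G) (s : Γ)
    (hs : Subgroup.zpowers s = S) :
    (G.subtype.range ⊔ Subgroup.zpowers s = ⊤) ∧ (Nat.card G).Coprime (orderOf s) ∧
    (∀ g : G, g ∈ (Subgroup.inclusion hCG).range ↔ s * G.subtype g = G.subtype g * s) := by
  refine ⟨by rw [Subgroup.range_subtype, hs, htop], by rw [← Nat.card_zpowers, hs]; exact hcop, ?_⟩
  intro g
  constructor
  · rintro ⟨c, rfl⟩
    have hc : (c : Γ) ∈ G ⊓ Subgroup.centralizer (S : Set Γ) := hC ▸ c.2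
    have h2 := (Subgroup.mem_inf.mp hc).2
    rw [Subgroup.mem_centralizer_iff] at h2
    exact h2 s (hs ▸ Subgroup.mem_zpowers s)
  · intro h
    refine ⟨⟨g, ?_⟩, rfl⟩
    rw [hC]
    refine Subgroup.mem_inf.mpr ⟨g.2, ?_⟩
    rw [Subgroup.mem_centralizer_iff]
    intro y hy
    rw [SetLike.mem_coe, ← hs] at hy
    obtain ⟨i, rfl⟩ := Subgroup.mem_zpowers_iff.mp hy
    have hc : Commute s (g : Γ) := h
    exact (hc.zpow_left i).eq

theorem det_eq_one {Γ : Type*} [Group Γ] [Finite Γ] (S : Subgroup Γ) {χh : Γ → ℂ}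
    (hχh : Cfsg.IsCharacter Γ χh) (hdet : (Cfsg.detOrder χh).Coprime (Nat.card S)) (s : Γ)
    (hs : s ∈ S) : Cfsg.detChar χh s = 1 := by
  obtain ⟨f, hf⟩ := exists_detHom hχh
  have h1 : (Cfsg.detChar χh) ^ (Cfsg.detOrder χh) = 1 := pow_orderOf_eq_one _
  have h2 : (f s) ^ (Cfsg.detOrder χh) = 1 := by
    apply Units.ext
    have := congrFun h1 s
    rw [hf] at this
    simpa [homFun_apply] using this
  have h3 : (f s) ^ (Nat.card S) = 1 := by
    rw [← map_pow]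
    have : s ^ Nat.card S = 1 := by
      have := pow_card_eq_one' (G := S) (x := ⟨s, hs⟩)
      exact congrArg Subtype.val this
    rw [this, map_one]
  have h4 : f s = 1 := root_unique (f s) _ _ h2 h3 hdet
  rw [hf, homFun_apply, h4, Units.val_one]

theorem sign_unique {C : Type*} [Group C] {β β' : C → ℂ} (hβ : Cfsg.IsIrrCharacter C β)
    (hβ' : Cfsg.IsIrrCharacter C β') (ε ε' : ℤ) (hε : ε = 1 ∨ ε = -1) (hε' : ε' = 1 ∨ ε' = -1)
    (h : ∀ c, (ε : ℂ) * β c = (ε' : ℂ) * β' c) : β = β' ∧ ε = ε' := by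
  obtain ⟨d, hd0, hd⟩ := IsIrrCharacter.exists_degree hβ
  obtain ⟨d', hd0', hd'⟩ := IsIrrCharacter.exists_degree hβ'
  have h1 := h 1
  rw [hd, hd'] at h1
  rcases hε with rfl | rfl <;> rcases hε' with rfl | rfl
  · exact ⟨funext fun c => by simpa using h c, rfl⟩
  · exfalso
    have : ((d + d' : ℕ) : ℂ) = 0 := by push_cast at h1 ⊢; linear_combination h1
    have := Nat.cast_eq_zero.mp this
    omega
  · exfalso
    have : ((d + d' : ℕ) : ℂ) = 0 := by push_cast at h1 ⊢; linear_combination -h1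
    have := Nat.cast_eq_zero.mp this
    omega
  · exact ⟨funext fun c => by simpa using h c, rfl⟩

section Key

variable {Γ : Type*} [Group Γ] [Fintype Γ] (G S : Subgroup Γ) [Fintype G]
  (hnorm : ∀ s ∈ S, ∀ g ∈ G, s * g * s⁻¹ ∈ G) (hcop : (Nat.card G).Coprime (Nat.card S))
  (htop : G ⊔ S = ⊤) (C : Subgroup Γ) [Fintype C]
  (hC : C = G ⊓ Subgroup.centralizer (S : Set Γ)) (hCG : C ≤ G)

include hnorm hcop htop hC hCG in
theorem key {χh : Γ → ℂ} (hχh : Cfsg.IsIrrCharacter Γ χh)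
    (hres : Cfsg.IsIrrCharacter G (fun g : G => χh g))
    (hdet : (Cfsg.detOrder χh).Coprime (Nat.card S)) (s₀ : Γ) (hs₀ : Subgroup.zpowers s₀ = S) :
    SIrr C (fun c : C => χh ((c : Γ) * s₀)) ∧
      ∀ (c : C) (s : Γ), Subgroup.zpowers s = S → χh ((c : Γ) * s) = χh ((c : Γ) * s₀) := by
  have hGn : G.Normal := normal_of G S hnorm htop
  obtain ⟨h1, h2, h3⟩ := setup G S hcop htop C hC hCG s₀ hs₀
  have hcj : ∀ (x : Γ) (g : G), G.subtype (MulAut.conjNormal x g) = x * G.subtype g * x⁻¹ :=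
    fun x g => MulAut.conjNormal_apply x g
  have hd1 : Cfsg.detChar χh s₀ = 1 :=
    det_eq_one S (IsIrrCharacter.isCharacter hχh) hdet s₀ (hs₀ ▸ Subgroup.mem_zpowers s₀)
  constructor
  · exact canon_sirr G.subtype G.subtype_injective MulAut.conjNormal hcj s₀ h1 h2
      (Subgroup.inclusion hCG) (Subgroup.inclusion_injective hCG) h3 hχh hres hd1
  · intro c s hs
    obtain ⟨k, hk, rfl⟩ := exists_pow_of_zpowers_eq s₀ s (hs.trans hs₀.symm)
    exact canon_gen G.subtype G.subtype_injective MulAut.conjNormal hcj s₀ h1 h2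
      (Subgroup.inclusion hCG) h3 hχh hres hd1 c k hk

include hnorm hcop htop hC hCG in
theorem exists_corr (hcyc : IsCyclic S) {χh : Γ → ℂ} (hχh : Cfsg.IsIrrCharacter Γ χh)
    (hres : Cfsg.IsIrrCharacter G (fun g : G => χh g))
    (hdet : (Cfsg.detOrder χh).Coprime (Nat.card S)) :
    ∃ (β : Cfsg.IrrCharacter C) (ε : ℤ), (ε = 1 ∨ ε = -1) ∧ ∀ c : C, ∀ s : Γ,
      Subgroup.zpowers s = S → χh ((c : Γ) * s) = (ε : ℂ) * (β : C → ℂ) c := by
  obtain ⟨g, hg⟩ := hcyc.exists_generator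
  have hs₀ : Subgroup.zpowers (g : Γ) = S := by
    have h1 : Subgroup.zpowers g = ⊤ := (Subgroup.eq_top_iff' _).mpr hg
    have := congrArg (Subgroup.map S.subtype) h1
    rw [MonoidHom.map_zpowers, ← MonoidHom.range_eq_map, Subgroup.range_subtype] at this
    exact this
  obtain ⟨h1, h2⟩ := key G S hnorm hcop htop C hC hCG hχh hres hdet g hs₀
  rcases h1 with h | h
  · refine ⟨⟨_, h⟩, 1, Or.inl rfl, fun c s hs => ?_⟩
    rw [h2 c s hs]; simp
  · refine ⟨⟨_, h⟩, -1, Or.inr rfl, fun c s hs => ?_⟩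
    rw [h2 c s hs]; simp

include hnorm hcop htop hC hCG in
theorem corr_inj {χh χh' : Γ → ℂ} (hχh : Cfsg.IsIrrCharacter Γ χh)
    (hχh' : Cfsg.IsIrrCharacter Γ χh')
    (hres : Cfsg.IsIrrCharacter G (fun g : G => χh g))
    (hres' : Cfsg.IsIrrCharacter G (fun g : G => χh' g))
    (s₀ : Γ) (hs₀ : Subgroup.zpowers s₀ = S) (β : Cfsg.IrrCharacter C) (ε ε' : ℤ)
    (hε : ε = 1 ∨ ε = -1) (hε' : ε' = 1 ∨ ε' = -1)
    (h : ∀ c : C, χh ((c : Γ) * s₀) = (ε : ℂ) * (β : C → ℂ) c)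
    (h' : ∀ c : C, χh' ((c : Γ) * s₀) = (ε' : ℂ) * (β : C → ℂ) c) :
    (fun g : G => χh g) = (fun g : G => χh' g) := by
  by_contra hne
  have hGn : G.Normal := normal_of G S hnorm htop
  obtain ⟨h1, h2, h3⟩ := setup G S hcop htop C hC hCG s₀ hs₀
  have hcj : ∀ (x : Γ) (g : G), G.subtype (MulAut.conjNormal x g) = x * G.subtype g * x⁻¹ :=
    fun x g => MulAut.conjNormal_apply x g
  have hrn : G.subtype.range.Normal := by rw [Subgroup.range_subtype]; exact hGn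
  have hc := IsIrrCharacter.isCharacter hχh
  have hc' := IsIrrCharacter.isCharacter hχh'
  have e1 := coset_orth_ne G.subtype G.subtype_injective hc hc' hres hres' hne s₀
  have e2 := sum_coset_eq G.subtype G.subtype_injective MulAut.conjNormal hcj s₀ h1 h2
    (Subgroup.inclusion hCG) (Subgroup.inclusion_injective hCG) h3
    (fun x => χh x * conj (χh' x))
    (IsClassFunction.mul (IsCharacter.isClassFunction hc)
      (IsClassFunction.conj (IsCharacter.isClassFunction hc')))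
  rw [e1, mul_zero] at e2
  have e3 : ∑ c : C, χh (G.subtype (Subgroup.inclusion hCG c) * s₀) *
      conj (χh' (G.subtype (Subgroup.inclusion hCG c) * s₀)) =
      (ε : ℂ) * (ε' : ℂ) * (Nat.card C : ℂ) := by
    have e4 := classInner_irr_self β.2
    unfold Cfsg.classInner at e4
    have e5 : ∑ c : C, (β : C → ℂ) c * conj ((β : C → ℂ) c) = (Nat.card C : ℂ) := by
      have hCne : (Nat.card C : ℂ) ≠ 0 := card_ne_zero
      field_simp at e4
      exact e4
    rw [← e5, Finset.mul_sum]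
    apply Finset.sum_congr rfl
    intro c _
    change χh ((c : Γ) * s₀) * conj (χh' ((c : Γ) * s₀)) = _
    rw [h, h', map_mul, map_intCast]
    ring
  rw [e3] at e2
  have hG : (Nat.card G : ℂ) ≠ 0 := card_ne_zero
  have hCne : (Nat.card C : ℂ) ≠ 0 := card_ne_zero
  have hε0 : (ε : ℂ) ≠ 0 := by rcases hε with rfl | rfl <;> simp
  have hε0' : (ε' : ℂ) ≠ 0 := by rcases hε' with rfl | rfl <;> simp
  exact (mul_ne_zero hG (mul_ne_zero (mul_ne_zero hε0 hε0') hCne)) e2.symm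

omit [Fintype G] in
include hC in
theorem constituent {χh : Γ → ℂ} (hχh : Cfsg.IsCharacter Γ χh)
    (s₀ : Γ) (hs₀ : Subgroup.zpowers s₀ = S) (β : Cfsg.IrrCharacter C) (ε : ℤ)
    (hε : ε = 1 ∨ ε = -1)
    (h : ∀ c : C, χh ((c : Γ) * s₀) = (ε : ℂ) * (β : C → ℂ) c) :
    Cfsg.classInner (fun c : C => χh c) (β : C → ℂ) ≠ 0 := by
  intro h0
  have comm : ∀ (c : C) (a : Subgroup.zpowers s₀),
      Commute (C.subtype c) ((Subgroup.zpowers s₀).subtype a) := by
    intro c a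
    have hc : (c : Γ) ∈ G ⊓ Subgroup.centralizer (S : Set Γ) := hC ▸ c.2
    have h2 := (Subgroup.mem_inf.mp hc).2
    rw [Subgroup.mem_centralizer_iff] at h2
    exact (h2 a (hs₀ ▸ a.2)).symm
  have hψ := partial_inner_isCharacter C.subtype (Subgroup.zpowers s₀).subtype comm hχh
    (IsIrrCharacter.isCharacter β.2)
  have h1 := eq_zero_of_degree_zero hψ (by
    simp only [map_one, mul_one]
    exact h0)
  have h2 := congrFun h1 ⟨s₀, Subgroup.mem_zpowers s₀⟩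
  have h3 : (fun c : C => χh (C.subtype c * (Subgroup.zpowers s₀).subtype
      ⟨s₀, Subgroup.mem_zpowers s₀⟩)) = (ε : ℂ) • (β : C → ℂ) := by
    funext c
    exact h c
  simp only [h3, Pi.zero_apply] at h2
  rw [classInner_smul_left, classInner_irr_self β.2, mul_one] at h2
  rcases hε with rfl | rfl <;> simp at h2

end Key

/-- Let the finite group Γ be generated by a normal subgroup G and a cyclic subgroup S of coprime orders, C = G ⊓ C(S), and let χ be an S-invariant irreducible character of G with canonical extension χ̂ to Γ (the extension whose determinantal order is coprime to the order of S). Then there are exactly one irreducible character β of C and one sign ε such that χ̂(c s) = ε β(c) for every c ∈ C and every generator s of S; this β is a constituent of the restriction of χ to C; distinct S-invariant χ give distinct β; and every irreducible character of C arises in this way. -/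
theorem result {Γ : Type*} [Group Γ] [Fintype Γ] (G S : Subgroup Γ) [Fintype G] (hnorm : ∀ s ∈ S, ∀ g ∈ G, s * g * s⁻¹ ∈ G) (hcop : (Nat.card G).Coprime (Nat.card S)) (htop : G ⊔ S = ⊤) (hcyc : IsCyclic S) (C : Subgroup Γ) [Fintype C] (hC : C = G ⊓ Subgroup.centralizer (S : Set Γ)) (hCG : C ≤ G) : (∀ (χ : Cfsg.IrrCharacter G) (χh : Cfsg.IrrCharacter Γ), (∀ s ∈ S, ∀ g g' : G, (g' : Γ) = s * g * s⁻¹ → (χ : G → ℂ) g' = (χ : G → ℂ) g) → (∀ g : G, (χh : Γ → ℂ) g = (χ : G → ℂ) g) → (Cfsg.detOrder (χh : Γ → ℂ)).Coprime (Nat.card S) → (∃! βε : Cfsg.IrrCharacter C × ℤ, (βε.2 = 1 ∨ βε.2 = -1) ∧ ∀ c : C, ∀ s : Γ, Subgroup.zpowers s = S → (χh : Γ → ℂ) ((c : Γ) * s) = (βε.2 : ℂ) * (βε.1 : C → ℂ) c) ∧ ∀ β : Cfsg.IrrCharacter C, ∀ ε : ℤ, (ε = 1 ∨ ε = -1) → (∀ c : C, ∀ s : Γ, Subgroup.zpowers s = S → (χh : Γ → ℂ) ((c : Γ) * s) = (ε : ℂ) * (β : C → ℂ) c) → Cfsg.classInner (fun c : C => (χ : G → ℂ) ⟨c, hCG c.2⟩) (β : C → ℂ) ≠ 0)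 ∧ (∀ (χ χ' : Cfsg.IrrCharacter G) (χh χh' : Cfsg.IrrCharacter Γ), (∀ s ∈ S, ∀ g g' : G, (g' : Γ) = s * g * s⁻¹ → (χ : G → ℂ) g' = (χ : G → ℂ) g) → (∀ s ∈ S, ∀ g g' : G, (g' : Γ) = s * g * s⁻¹ → (χ' : G → ℂ) g' = (χ' : G → ℂ) g) → (∀ g : G, (χh : Γ → ℂ) g = (χ : G → ℂ) g) → (∀ g : G, (χh' : Γ → ℂ) g = (χ' : G → ℂ) g) → (Cfsg.detOrder (χh : Γ → ℂ)).Coprime (Nat.card S) → (Cfsg.detOrder (χh' : Γ → ℂ)).Coprime (Nat.card S) → ∀ β : Cfsg.IrrCharacter C, ∀ ε ε' : ℤ, (ε = 1 ∨ ε = -1) → (ε' = 1 ∨ ε' = -1) → (∀ c : C, ∀ s : Γ, Subgroup.zpowers s = S → (χh : Γ → ℂ) ((c : Γ) * s) = (ε : ℂ) * (β : C → ℂ) c) → (∀ c : C, ∀ s : Γ, Subgroup.zpowers s = S → (χh' : Γ → ℂ) ((c : Γ) * s) = (ε' : ℂ) * (β : C → ℂ) c) → χ = χ') ∧ (∀ β : Cfsg.IrrCharacter C, ∃ (χ : Cfsg.IrrCharacter G) (χh : Cfsg.IrrCharacter Γ) (ε : ℤ), (∀ s ∈ S, ∀ g g' : G, (g' : Γ) = s * g * s⁻¹ → (χ : G → ℂ) g' = (χ : G → ℂ) g) ∧ (∀ g : G, (χh : Γ → ℂ) g = (χ : G →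 ℂ) g) ∧ (Cfsg.detOrder (χh : Γ → ℂ)).Coprime (Nat.card S) ∧ (ε = 1 ∨ ε = -1) ∧ ∀ c : C, ∀ s : Γ, Subgroup.zpowers s = S → (χh : Γ → ℂ) ((c : Γ) * s) = (ε : ℂ) * (β : C → ℂ) c) := by
  classical
  have hGn : G.Normal := normal_of G S hnorm htop
  obtain ⟨g₀, hg₀⟩ := hcyc.exists_generator
  have hs₀ : Subgroup.zpowers (g₀ : Γ) = S := by
    have h1 : Subgroup.zpowers g₀ = ⊤ := (Subgroup.eq_top_iff' _).mpr hg₀
    have := congrArg (Subgroup.map S.subtype) h1
    rw [MonoidHom.map_zpowers, ← MonoidHom.range_eq_map, Subgroup.range_subtype] at this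
    exact this
  have hresOf : ∀ (χ : Cfsg.IrrCharacter G) (χh : Cfsg.IrrCharacter Γ),
      (∀ g : G, (χh : Γ → ℂ) g = (χ : G → ℂ) g) →
      Cfsg.IsIrrCharacter G (fun g : G => (χh : Γ → ℂ) g) := by
    intro χ χh h
    have : (fun g : G => (χh : Γ → ℂ) g) = χ := funext h
    rw [this]; exact χ.2
  have hinj : ∀ (χ χ' : Cfsg.IrrCharacter G) (χh χh' : Cfsg.IrrCharacter Γ),
      (∀ g : G, (χh : Γ → ℂ) g = (χ : G → ℂ) g) → (∀ g : G, (χh' : Γ → ℂ) g = (χ' : G → ℂ) g) →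
      ∀ β : Cfsg.IrrCharacter C, ∀ ε ε' : ℤ, (ε = 1 ∨ ε = -1) → (ε' = 1 ∨ ε' = -1) →
      (∀ c : C, ∀ s : Γ, Subgroup.zpowers s = S →
        (χh : Γ → ℂ) ((c : Γ) * s) = (ε : ℂ) * (β : C → ℂ) c) →
      (∀ c : C, ∀ s : Γ, Subgroup.zpowers s = S →
        (χh' : Γ → ℂ) ((c : Γ) * s) = (ε' : ℂ) * (β : C → ℂ) c) → χ = χ' := by
    intro χ χ' χh χh' hext hext' β ε ε' hε hε' h h'
    have := corr_inj G S hnorm hcop htop C hC hCG χh.2 χh'.2 (hresOf χ χh hext)
      (hresOf χ' χh' hext') g₀ hs₀ β ε ε' hε hε' (fun c => h c g₀ hs₀) (fun c => h' c g₀ hs₀)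
    apply Subtype.ext
    funext g
    rw [← hext, ← hext']
    exact congrFun this g
  refine ⟨?_, ?_, ?_⟩
  · intro χ χh hinv hext hdet
    have hres := hresOf χ χh hext
    constructor
    · obtain ⟨β, ε, hε, h⟩ := exists_corr G S hnorm hcop htop C hC hCG hcyc χh.2 hres hdet
      refine ⟨(β, ε), ⟨hε, h⟩, ?_⟩
      rintro ⟨β', ε'⟩ ⟨hε', h'⟩
      have := sign_unique β'.2 β.2 ε' ε hε' hε (fun c => by
        rw [← h' c g₀ hs₀, ← h c g₀ hs₀])
      exact Prod.ext (Subtype.ext this.1) this.2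
    · intro β ε hε h
      have h1 := constituent G S C hC (IsIrrCharacter.isCharacter χh.2) g₀ hs₀ β ε hε
        (fun c => h c g₀ hs₀)
      have h2 : (fun c : C => (χh : Γ → ℂ) c) = fun c : C => (χ : G → ℂ) ⟨c, hCG c.2⟩ := by
        funext c
        exact hext ⟨c, hCG c.2⟩
      rwa [h2] at h1
  · intro χ χ' χh χh' _ _ hext hext' _ _ β ε ε' hε hε' h h'
    exact hinj χ χ' χh χh' hext hext' β ε ε' hε hε' h h'
  · -- existence of canonical extensions
    obtain ⟨h1, h2, h3⟩ := setup G S hcop htop C hC hCG g₀ hs₀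
    have hcj : ∀ (x : Γ) (g : G), G.subtype (MulAut.conjNormal x g) = x * G.subtype g * x⁻¹ :=
      fun x g => MulAut.conjNormal_apply x g
    have hidx : G.index = Nat.card S := by
      have := index_range G.subtype G.subtype_injective MulAut.conjNormal hcj g₀ h1 h2
      rw [Subgroup.range_subtype, ← Nat.card_zpowers, hs₀] at this
      exact this
    have hcanon : ∀ χ : Cfsg.IrrCharacter G,
        (∀ s ∈ S, ∀ g g' : G, (g' : Γ) = s * g * s⁻¹ → (χ : G → ℂ) g' = (χ : G → ℂ) g) →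
        ∃ χh : Cfsg.IrrCharacter Γ, (∀ g : G, (χh : Γ → ℂ) g = (χ : G → ℂ) g) ∧
          (Cfsg.detOrder (χh : Γ → ℂ)).Coprime (Nat.card S) := by
      intro χ hinv
      have hcl := IsIrrCharacter.isClassFunction χ.2
      obtain ⟨d, -, hd⟩ := IsIrrCharacter.exists_degree χ.2
      have hdG : d ∣ Nat.card G := Cfsg.Agent.S1491.degree_dvd_card χ.2 d hd
      have hoG : Cfsg.detOrder (χ : G → ℂ) ∣ Nat.card G :=
        Cfsg.Agent.S1491.detOrder_dvd_card (IsIrrCharacter.isCharacter χ.2)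
      obtain ⟨χ', ⟨hχ', hext, hdo⟩, -⟩ := Cfsg.Agent.S0867.result G (χ : G → ℂ) χ.2 (by
        intro x n
        obtain ⟨k, hk, h, hh, rfl⟩ := exists_mul_of_sup_eq_top G S htop x
        have e1 := hinv h hh n ⟨h * n * h⁻¹, hnorm h hh n n.2⟩ rfl
        have e2 := hcl ⟨h * n * h⁻¹, hnorm h hh n n.2⟩ ⟨k, hk⟩
        rw [← e1, ← e2]
        apply congrArg
        apply Subtype.ext
        simp only [Subgroup.coe_mul, Subgroup.coe_inv]
        group) d hd (by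
        rw [hidx]
        exact Nat.Coprime.mul_right (Nat.Coprime.coprime_dvd_left hoG hcop).symm
          (Nat.Coprime.coprime_dvd_left hdG hcop).symm)
      refine ⟨⟨χ', hχ'⟩, hext, ?_⟩
      change (Cfsg.detOrder χ').Coprime _
      rw [hdo]
      exact Nat.Coprime.coprime_dvd_left hoG hcop
    have hall : ∀ x : {χ : Cfsg.IrrCharacter G // Inv (conjAct G S hnorm) χ.1},
        ∃ (β : Cfsg.IrrCharacter C) (χh : Cfsg.IrrCharacter Γ) (ε : ℤ),
          (∀ g : G, (χh : Γ → ℂ) g = (x.1 : G → ℂ) g) ∧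
          (Cfsg.detOrder (χh : Γ → ℂ)).Coprime (Nat.card S) ∧ (ε = 1 ∨ ε = -1) ∧
          ∀ c : C, ∀ s : Γ, Subgroup.zpowers s = S →
            (χh : Γ → ℂ) ((c : Γ) * s) = (ε : ℂ) * (β : C → ℂ) c := by
      intro x
      obtain ⟨χh, hext, hdet⟩ := hcanon x.1 ((inv_conjAct_iff G S hnorm _).mp x.2)
      obtain ⟨β, ε, hε, h⟩ := exists_corr G S hnorm hcop htop C hC hCG hcyc χh.2
        (hresOf x.1 χh hext) hdet
      exact ⟨β, χh, ε, hext, hdet, hε, h⟩
    choose F Xh E hF1 hF2 hF3 hF4 using hall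
    have hFinj : Function.Injective F := by
      intro x y hxy
      apply Subtype.ext
      refine hinj x.1 y.1 (Xh x) (Xh y) (hF1 x) (hF1 y) (F x) (E x) (E y) (hF3 x) (hF3 y)
        (hF4 x) ?_
      rw [hxy]
      exact hF4 y
    have : Group.IsSolvable S :=
      Group.isSolvable_of_comm (fun a b => hcyc.commGroup.mul_comm a b)
    have hcard := card_inv_irr_eq_card_irr_fix (conjAct G S hnorm) hcop
    have hfix := isFix_conjAct G S hnorm C hC hCG
    have hmem : ∀ g : G, g ∈ fixSub (conjAct G S hnorm) ↔ (g : Γ) ∈ C := by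
      intro g
      rw [mem_fixSub, hfix.fix g]
      constructor
      · rintro ⟨c, rfl⟩
        exact c.2
      · intro h
        exact ⟨⟨g, h⟩, rfl⟩
    have e : fixSub (conjAct G S hnorm) ≃* C :=
      { toFun := fun x => ⟨x.1.1, (hmem x.1).mp x.2⟩
        invFun := fun y => ⟨⟨y.1, hCG y.2⟩, (hmem _).mpr y.2⟩
        left_inv := fun x => rfl
        right_inv := fun y => rfl
        map_mul' := fun x y => rfl }
    rw [card_irr_congr e] at hcard
    have hFbij : Function.Bijective F := by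
      rw [Nat.bijective_iff_injective_and_card]
      exact ⟨hFinj, hcard⟩
    intro β
    obtain ⟨x, rfl⟩ := hFbij.2 β
    exact ⟨x.1, Xh x, E x, (inv_conjAct_iff G S hnorm _).mp x.2, hF1 x, hF2 x, hF3 x, hF4 x⟩

end Cfsg.Agent.S4446
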