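import Cfsg.Statements.S4449
import Cfsg.Agent.Lib.Helper77Glaub3

set_option autoImplicit false
open Cfsg

namespace Cfsg.Agent.S4449

/-- Inside a finite group Γ let the solvable subgroup S normalise G with the orders of G and S coprime, and let N be a normal subgroup of G normalised by S. Then for every S-invariant irreducible character ϑ of N, the induced character ϑ^G has an S-invariant irreducible constituent. -/
theorem result {Γ : Type*} [Group Γ] [Fintype Γ] (G S N : Subgroup Γ) [Fintype G] [Fintype N] (hnorm : ∀ s ∈ S, ∀ g ∈ G, s * g * s⁻¹ ∈ G) (hNG : N ≤ G) (hNnormal : ∀ g ∈ G, ∀ n ∈ N, g * n * g⁻¹ ∈ N) (hNS : ∀ s ∈ S, ∀ n ∈ N, s * n * s⁻¹ ∈ N) (hcop : (Nat.card G).Coprime (Nat.card S)) (hsolv : Group.IsSolvable S) (θ : Cfsg.IrrCharacter N) (hinv : (∀ s ∈ S, ∀ g g' : N, (g' : Γ) = s * g * s⁻¹ → (θ : N → ℂ) g' = (θ : N → ℂ) g)) : ∃ χ : Cfsg.IrrCharacter G,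 Cfsg.classInner (fun n : N => (χ : G → ℂ) ⟨n, hNG n.2⟩) (θ : N → ℂ) ≠ 0 ∧ (∀ s ∈ S, ∀ g g' : G, (g' : Γ) = s * g * s⁻¹ → (χ : G → ℂ) g' = (χ : G → ℂ) g) := by
  classical
  set φ := Cfsg.Agent.Lib.Helper77Glaub.conjAct G S hnorm with hφ
  set N' : Subgroup G := N.subgroupOf G with hN'
  have hN'n : N'.Normal := ⟨fun n hn g =>
    Subgroup.mem_subgroupOf.mpr (hNnormal g g.2 n (Subgroup.mem_subgroupOf.mp hn))⟩
  have hNS' : ∀ s, ∀ x ∈ N', φ s x ∈ N' := fun s x hx =>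
    Subgroup.mem_subgroupOf.mpr (hNS s s.2 x (Subgroup.mem_subgroupOf.mp hx))
  let e : N' ≃* N := Subgroup.subgroupOfEquivOfLe hNG
  have : Fintype N' := Fintype.ofFinite _
  let θ' : Cfsg.IrrCharacter N' := ⟨θ.1 ∘ e, Cfsg.Agent.Lib.Helper83Char.irr_comp_mulEquiv e θ.2⟩
  have hθ' : Cfsg.Agent.Lib.Helper77Glaub.Inv
      (Cfsg.Agent.Lib.Helper77Glaub.resAct φ N' hNS') θ'.1 := fun s x =>
    hinv s s.2 (e x) (e (Cfsg.Agent.Lib.Helper77Glaub.resAct φ N' hNS' s x)) rfl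
  obtain ⟨χ, hχi, hχ⟩ := Cfsg.Agent.Lib.Helper77Glaub3.exists_inv_over φ N' hN'n hNS' θ' hcop hθ'
  refine ⟨χ, ?_, (Cfsg.Agent.Lib.Helper77Glaub.inv_conjAct_iff G S hnorm χ.1).mp hχi⟩
  have h1 : Cfsg.classInner (fun n : N => (χ : G → ℂ) ⟨n, hNG n.2⟩) (θ : N → ℂ)
      = Cfsg.classInner (fun n' : N' => (χ : G → ℂ) (N'.subtype n')) θ'.1 :=
    (Cfsg.Agent.Lib.Helper77Glaub3.classInner_comp_equiv e
      (fun n : N => (χ : G → ℂ) ⟨n, hNG n.2⟩) (θ : N → ℂ)).symm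
  rw [h1, Cfsg.Agent.Lib.Helper77Glaub.mlt_spec N'.subtype
    (Cfsg.Agent.Lib.Helper4Char.IsIrrCharacter.isCharacter χ.2)
    (Cfsg.Agent.Lib.Helper4Char.IsIrrCharacter.isCharacter θ'.2)]
  exact_mod_cast hχ

end Cfsg.Agent.S4449
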