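import Cfsg.Statements.S4451
import Cfsg.Agent.Lib.Helper77Cyc3
import Cfsg.Agent.Lib.Helper82Irr

set_option autoImplicit false
open Cfsg

namespace Cfsg.Agent.S4451

open Cfsg.Agent.Lib.Helper4Char Cfsg.Agent.Lib.Helper4Char2 Cfsg.Agent.Lib.Helper4Char4
  Cfsg.Agent.Lib.Helper77Cyc2 Cfsg.Agent.Lib.Helper77Cyc3


/-- Let the finite group Γ be generated by a normal subgroup G and a cyclic subgroup S of coprime orders such that every non-identity element of S has the same centraliser C = G ⊓ C(S) in G. Let χ be an S-invariant irreducible character of G, χ̂ its canonical extension to Γ (determinantal order coprime to the order of S), and β the irreducible character of C with χ̂(c s) = ε₀ β(c) for c ∈ C and generators s of S (ε₀ = ±1). Then there are a sign ε = ±1, which may differ from ε₀, and a linear character μ of S with μ² = 1, such that: (a) χ̂(c x) = ε β(c) μ(x) for all c ∈ C and all x ∈ S other than 1; (b) the restriction of χ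 to C equals |S|·ϑ + ε β for some character ϑ of C or ϑ = 0; (c) |S| divides χ(1) − ε β(1). -/
theorem result {Γ : Type*} [Group Γ] [Fintype Γ] (G S : Subgroup Γ) [Fintype G] (hnorm : ∀ s ∈ S, ∀ g ∈ G, s * g * s⁻¹ ∈ G) (hcop : (Nat.card G).Coprime (Nat.card S)) (htop : G ⊔ S = ⊤) (hcyc : IsCyclic S) (C : Subgroup Γ) [Fintype C] (hC : C = G ⊓ Subgroup.centralizer (S : Set Γ)) (hCG : C ≤ G) (hfpf : ∀ x ∈ S, x ≠ 1 → G ⊓ Subgroup.centralizer ({x} : Set Γ) = C) (χ : Cfsg.IrrCharacter G) (hinv : (∀ s ∈ S, ∀ g g' : G, (g' : Γ) = s * g * s⁻¹ → (χ : G → ℂ) g' = (χ : G → ℂ) g)) (χh : Cfsg.IrrCharacter Γ) (hext : (∀ g : G, (χh : Γ → ℂ) g = (χ : G → ℂ) g)) (hdet : (Cfsg.detOrder (χh : Γ → ℂ)).Coprime (Nat.card S)) (β : Cfsg.IrrCharacter C) (ε₀ : ℤ) (hε₀ : ε₀ = 1 ∨ ε₀ = -1) (hβ : ∀ c : C, ∀ s : Γ, Subgroup.zpowers s = S → (χh : Γ → ℂ) ((c : Γ) * s) = (ε₀ : ℂ) * (β : C → ℂ) c) : ∃ ε : ℤ, (ε = 1 ∨ ε = -1) ∧ (∃ μ : S → ℂ, Cfsg.IsCharacter S μ ∧ μ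 1 = 1 ∧ (∀ x : S, μ x * μ x = 1) ∧ ∀ c : C, ∀ x : S, x ≠ 1 → (χh : Γ → ℂ) ((c : Γ) * x) = (ε : ℂ) * (β : C → ℂ) c * μ x) ∧ (∃ ϑ : C → ℂ, Cfsg.IsCharacter C ϑ ∧ (fun c : C => (χ : G → ℂ) ⟨c, hCG c.2⟩) = fun c => (Nat.card S : ℂ) * ϑ c + (ε : ℂ) * (β : C → ℂ) c) ∧ (Nat.card S : ℤ) ∣ (Cfsg.charDegree (χ : G → ℂ) : ℤ) - ε * (Cfsg.charDegree (β : C → ℂ) : ℤ) := by
  classical
  -- set-up
  have hG : G.Normal := by
    have h1 : G ⊔ S ≤ Subgroup.normalizer (G : Set Γ) :=
      sup_le Subgroup.le_normalizer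
        (Cfsg.Agent.Lib.Helper1Basic.le_normalizer_of_forall_conj_mem hnorm)
    rw [htop, top_le_iff] at h1
    exact Subgroup.normalizer_eq_top_iff.mp h1
  have hidx : G.index = Nat.card S :=
    (Cfsg.Agent.Lib.Helper1Basic.isComplement'_of_sup_eq_top_of_coprime htop hcop).symm.index_eq_card
  have hcop' : (Nat.card G).Coprime G.index := hidx ▸ hcop
  have hdet' : (Cfsg.detOrder χh.1).Coprime G.index := hidx ▸ hdet
  have hCS : ∀ c ∈ C, ∀ t ∈ S, c * t = t * c := by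
    intro c hc t ht
    rw [hC] at hc
    exact (Subgroup.mem_centralizer_iff.mp hc.2 t ht).symm
  obtain ⟨s, hs⟩ := hcyc.exists_generator
  have hSab : ∀ a ∈ S, ∀ b ∈ S, a * b = b * a := by
    intro a ha b hb
    obtain ⟨i, hi⟩ := Subgroup.mem_zpowers_iff.mp (hs ⟨a, ha⟩)
    obtain ⟨j, hj⟩ := Subgroup.mem_zpowers_iff.mp (hs ⟨b, hb⟩)
    have h1 : (⟨a, ha⟩ : S) * ⟨b, hb⟩ = ⟨b, hb⟩ * ⟨a, ha⟩ := by
      rw [← hi, ← hj]
      exact (Commute.refl s).zpow_zpow i j
    exact congrArg Subtype.val h1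
  have : IsMulCommutative S := ⟨⟨fun a b => Subtype.ext (hSab a a.2 b b.2)⟩⟩
  have : Fintype S := Fintype.ofFinite _
  have hzp : Subgroup.zpowers (s : Γ) = S := by
    ext x
    constructor
    · rintro ⟨i, rfl⟩
      exact S.zpow_mem s.2 i
    · intro hx
      obtain ⟨i, hi⟩ := Subgroup.mem_zpowers_iff.mp (hs ⟨x, hx⟩)
      exact ⟨i, congrArg Subtype.val hi⟩
  have hres : Cfsg.IsIrrCharacter G (fun g : G => χh.1 g) := by
    have : (fun g : G => χh.1 g) = χ.1 := funext hext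
    rw [this]; exact χ.2
  have hχhc := IsIrrCharacter.isCharacter χh.2
  -- the multiplicity characters
  have hνchar : ∀ φ : Cfsg.IrrCharacter C, Cfsg.IsCharacter S (Acoef C S χh.1 φ.1) := fun φ =>
    isCharacter_Acoef C S hCS hSab hχhc (IsIrrCharacter.isCharacter φ.2)
  have hsign : ∀ x : S, x ≠ 1 → ∃ (βx : Cfsg.IrrCharacter C) (εx : ℤ), (εx = 1 ∨ εx = -1) ∧
      ∀ φ : Cfsg.IrrCharacter C, Acoef C S χh.1 φ.1 x = if φ = βx then (εx : ℂ) else 0 := by
    intro x hx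
    have hx' : (x : Γ) ≠ 1 := fun h => hx (Subtype.ext h)
    have hCx : ∀ y, y ∈ C ↔ y ∈ G ∧ y * x = x * y := by
      intro y
      rw [← hfpf x x.2 hx', Subgroup.mem_inf, Subgroup.mem_centralizer_singleton_iff]
    obtain ⟨βx, εx, h1, -, h3⟩ := exists_sign_irr G C S hcop' hidx.symm hCS hSab x x.2 hCx χh.2
      hres hdet'
    exact ⟨βx, εx, h1, h3⟩
  -- expansion on `C x`
  have hexp : ∀ (x : S) (c : C), χh.1 (c * x)
      = ∑ φ : Cfsg.IrrCharacter C, Acoef C S χh.1 φ.1 x * φ.1 c := by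
    intro x c
    have hf : Cfsg.IsClassFunction C (fun c : C => χh.1 (c * x)) := by
      intro g h
      change χh.1 (((h : Γ) * g * (h : Γ)⁻¹) * x) = χh.1 (g * x)
      have e : ((h : Γ) * g * (h : Γ)⁻¹) * x = (h : Γ) * (g * x) * (h : Γ)⁻¹ := by
        have := hCS h h.2 x x.2
        calc ((h : Γ) * g * (h : Γ)⁻¹) * x
            = (h : Γ) * g * (h : Γ)⁻¹ * (x * h) * (h : Γ)⁻¹ := by group
          _ = (h : Γ) * g * (h : Γ)⁻¹ * (h * x) * (h : Γ)⁻¹ := by rw [this]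
          _ = (h : Γ) * (g * x) * (h : Γ)⁻¹ := by group
      rw [e, IsIrrCharacter.isClassFunction χh.2]
    have h1 := congrFun (classFunction_eq_sum _ hf) c
    rw [Finset.sum_apply] at h1
    exact h1
  have hνs : ∀ φ : Cfsg.IrrCharacter C, Acoef C S χh.1 φ.1 s = if φ = β then (ε₀ : ℂ) else 0 := by
    intro φ
    unfold Acoef
    have h1 : (fun c : C => χh.1 (c * s)) = (ε₀ : ℂ) • β.1 := by
      funext c
      exact hβ c s hzp
    rw [h1, classInner_smul_left, classInner_irr β.2 φ.2]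
    by_cases h : φ = β
    · rw [if_pos h, if_pos (by rw [h]), mul_one]
    · rw [if_neg h, if_neg (fun h' => h (Subtype.ext h').symm), mul_zero]
  have hε₀ne : (ε₀ : ℂ) ≠ 0 := by
    rcases hε₀ with h | h <;> rw [h] <;> norm_num
  have hβdeg := Cfsg.Agent.Lib.Helper82Irr.irr_charDegree_cast β
  have hχdeg := Cfsg.Agent.Lib.Helper82Irr.irr_charDegree_cast χ
  by_cases hs1 : s = 1
  · -- trivial `S`
    have hall : ∀ x : S, x = 1 := by
      intro x
      obtain ⟨i, hi⟩ := Subgroup.mem_zpowers_iff.mp (hs x)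
      rw [← hi, hs1, one_zpow]
    have hcard : Nat.card S = 1 := by
      have : Subsingleton S := ⟨fun a b => by rw [hall a, hall b]⟩
      exact Nat.card_unique
    have hval : ∀ c : C, χ.1 ⟨c, hCG c.2⟩ = (ε₀ : ℂ) * β.1 c := by
      intro c
      have := hβ c s hzp
      rw [hs1] at this
      rw [← hext]
      simpa using this
    have hε1 : ε₀ = 1 := by
      rcases hε₀ with h | h
      · exact h
      · exfalso
        have h1 := hval 1
        have e : (⟨((1 : C) : Γ), hCG (1 : C).2⟩ : G) = 1 := rfl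
        rw [e, ← hχdeg, ← hβdeg, h] at h1
        have h2 : ((Cfsg.charDegree χ.1 : ℤ)) = -1 * (Cfsg.charDegree β.1 : ℤ) := by
          exact_mod_cast h1
        have h3 := Cfsg.Agent.Lib.Helper82Irr.irr_charDegree_pos χ
        omega
    refine ⟨1, Or.inl rfl, ⟨fun _ => 1, IsCharacter.one, rfl, fun _ => by norm_num,
      fun c x hx => absurd (hall x) hx⟩, ⟨0, IsCharacter.zero, ?_⟩, ?_⟩
    · funext c
      rw [hval c, hε1]
      simp
    · rw [hcard]; simp
  · -- the main case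
    have hvex : ∀ (φ : Cfsg.IrrCharacter C) (x : S), ∃ z : ℤ, x ≠ 1 →
        (Acoef C S χh.1 φ.1 x = z ∧ (z = 0 ∨ z = 1 ∨ z = -1)) := by
      intro φ x
      by_cases hx : x = 1
      · exact ⟨0, fun h => absurd hx h⟩
      · obtain ⟨βx, εx, h1, h2⟩ := hsign x hx
        by_cases h : φ = βx
        · refine ⟨εx, fun _ => ⟨by rw [h2 φ, if_pos h], Or.inr h1⟩⟩
        · refine ⟨0, fun _ => ⟨by rw [h2 φ, if_neg h]; simp, Or.inl rfl⟩⟩
    choose v hv using hvex
    have hstr := fun φ : Cfsg.IrrCharacter C => char_pm_structure (hνchar φ) (v φ)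
      (fun x hx => (hv φ x hx).1) (fun x hx => (hv φ x hx).2)
    -- characters different from `β`
    have hother : ∀ φ : Cfsg.IrrCharacter C, φ ≠ β → ∃ k : ℕ, ∀ x,
        Acoef C S χh.1 φ.1 x = k * (if x = 1 then (Nat.card S : ℂ) else 0) := by
      intro φ hφ
      rcases hstr φ with ⟨k, hk⟩ | ⟨k, ε, μ, hε, h⟩
      · exact ⟨k, fun x => by convert hk x⟩
      · exfalso
        have h1 := h s
        rw [hνs φ, if_neg hφ, if_neg hs1, mul_zero, zero_add] at h1
        have hεne : (ε : ℂ) ≠ 0 := by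
          rcases hε with h | h <;> rw [h] <;> norm_num
        have h2 : μ.1 s = 0 := by
          rcases mul_eq_zero.mp h1.symm with h | h
          · exact absurd h hεne
          · exact h
        obtain ⟨f, hf⟩ := Cfsg.Agent.Lib.Helper19Lin.exists_hom_of_linear
          (IsIrrCharacter.isCharacter μ.2) (Cfsg.Agent.Lib.Helper83Char.irr_one_of_comm μ.2)
        rw [← hf, Cfsg.Agent.Lib.Helper19Lin.homFun_apply] at h2
        exact (f s).ne_zero h2
    obtain ⟨k, ε, μ, hε, hμ⟩ : ∃ (k : ℕ) (ε : ℤ) (μ : Cfsg.IrrCharacter S), (ε = 1 ∨ ε = -1) ∧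
        ∀ x, Acoef C S χh.1 β.1 x = k * (if x = 1 then (Nat.card S : ℂ) else 0) + ε * μ.1 x := by
      rcases hstr β with ⟨k, h⟩ | h
      · exfalso
        have h1 := h s
        rw [hνs β, if_pos rfl, if_neg hs1, mul_zero] at h1
        exact hε₀ne h1
      · obtain ⟨k, ε, μ, hε, hk⟩ := h
        exact ⟨k, ε, μ, hε, fun x => by convert hk x⟩
    choose! K hK using hother
    have hμ1 : μ.1 1 = 1 := Cfsg.Agent.Lib.Helper83Char.irr_one_of_comm μ.2
    have hεsq : (ε : ℂ) * ε = 1 := by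
      rcases hε with h | h <;> rw [h] <;> norm_num
    have hA : ∀ (c : C) (x : S), x ≠ 1 → χh.1 (c * x) = (ε : ℂ) * β.1 c * μ.1 x := by
      intro c x hx
      rw [hexp x c, Finset.sum_eq_single β (fun φ _ hφ => by
        rw [hK φ hφ x, if_neg hx]; simp) (fun h => absurd (Finset.mem_univ β) h), hμ x, if_neg hx]
      ring
    refine ⟨ε, hε, ⟨μ.1, IsIrrCharacter.isCharacter μ.2, hμ1, ?_, hA⟩, ?_⟩
    · intro x
      by_cases hx : x = 1
      · rw [hx, hμ1, mul_one]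
      · obtain ⟨βx, εx, h1, h2⟩ := hsign x hx
        have h3 : βx = β := by
          by_contra hne
          have h4 := h2 βx
          rw [if_pos rfl, hK βx hne x, if_neg hx, mul_zero] at h4
          rcases h1 with h | h <;> rw [h] at h4 <;> norm_num at h4
        have h5 := h2 β
        rw [if_pos h3.symm, hμ x, if_neg hx, mul_zero, zero_add] at h5
        have h6 : (εx : ℂ) * εx = 1 := by
          rcases h1 with h | h <;> rw [h] <;> norm_num
        calc μ.1 x * μ.1 x = ((ε : ℂ) * ε) * (μ.1 x * μ.1 x) := by rw [hεsq, one_mul]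
          _ = ((ε : ℂ) * μ.1 x) * ((ε : ℂ) * μ.1 x) := by ring
          _ = 1 := by rw [h5, h6]
    · set KK : Cfsg.IrrCharacter C → ℕ := fun φ => if φ = β then k else K φ with hKK
      set ϑ : C → ℂ := ∑ φ : Cfsg.IrrCharacter C, (KK φ : ℂ) • φ.1 with hϑ
      have hϑc : Cfsg.IsCharacter C ϑ :=
        IsCharacter.sum _ (fun φ _ => IsCharacter.natCast_smul _ (IsIrrCharacter.isCharacter φ.2))
      have hB : ∀ c : C, χ.1 ⟨c, hCG c.2⟩ = (Nat.card S : ℂ) * ϑ c + (ε : ℂ) * β.1 c := by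
        intro c
        have h1 := hexp 1 c
        have e : ((c : Γ) * ((1 : S) : Γ)) = ((⟨c, hCG c.2⟩ : G) : Γ) := by simp
        rw [e, hext] at h1
        rw [h1, hϑ, Finset.sum_apply, Finset.mul_sum,
          ← Finset.add_sum_erase _ _ (Finset.mem_univ β),
          ← Finset.add_sum_erase _ (fun φ : Cfsg.IrrCharacter C =>
            (Nat.card S : ℂ) * ((KK φ : ℂ) • φ.1) c) (Finset.mem_univ β), hμ 1, if_pos rfl, hμ1]
        have h2 : ∑ φ ∈ Finset.univ.erase β, Acoef C S χh.1 φ.1 1 * φ.1 c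
            = ∑ φ ∈ Finset.univ.erase β, (Nat.card S : ℂ) * ((KK φ : ℂ) • φ.1) c := by
          refine Finset.sum_congr rfl (fun φ hφ => ?_)
          have hne := Finset.ne_of_mem_erase hφ
          rw [hK φ hne 1, if_pos rfl, Pi.smul_apply, smul_eq_mul]
          simp only [hKK, if_neg hne]
          ring
        rw [h2, Pi.smul_apply, smul_eq_mul]
        simp only [hKK, if_pos]
        ring
      refine ⟨⟨ϑ, hϑc, funext hB⟩, ?_⟩
      obtain ⟨d, hd⟩ := IsCharacter.exists_degree hϑc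
      refine ⟨d, ?_⟩
      have h1 := hB 1
      have e : (⟨((1 : C) : Γ), hCG (1 : C).2⟩ : G) = 1 := rfl
      rw [e, ← hχdeg, ← hβdeg, hd] at h1
      have h2 : (Cfsg.charDegree χ.1 : ℤ) = (Nat.card S : ℤ) * d + ε * (Cfsg.charDegree β.1 : ℤ) := by
        exact_mod_cast h1
      rw [h2]; ring

end Cfsg.Agent.S4451
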