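import Cfsg.Statements.S4455
import Mathlib
import Cfsg.Agent.Lib.Helper77Glaub4
import Cfsg.Agent.Lib.Helper2Residual
import Cfsg.Agent.Lib.Helper5Clifford
import Cfsg.Agent.Lib.Helper82Irr

set_option autoImplicit false
open Cfsg

namespace Cfsg.Agent.S4455

open Lib.Helper4Char Lib.Helper4Char2 Lib.Helper4Char4 Lib.Helper5Clifford

open scoped Classical in
/-- weighted fixed point congruence for the action of a `p`-group -/
theorem sum_modEq_fixed {P X : Type*} [Group P] [MulAction P X] [Fintype X] (p : ℕ)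
    [Fact p.Prime] (hP : IsPGroup p P) (f : X → ℕ) (hf : ∀ (g : P) (x : X), f (g • x) = f x) :
    ∑ x, f x ≡ ∑ x ∈ Finset.univ.filter (fun x => x ∈ MulAction.fixedPoints P X), f x [MOD p] := by
  have h1 : ∀ s : Finset X, ∑ x ∈ s, f x =
      ∑ v ∈ Finset.univ.image f, (s.filter (fun x => f x = v)).card * v := by
    intro s
    rw [← Finset.sum_fiberwise_of_maps_to (s := s) (t := Finset.univ.image f) (g := f)
      (fun x _ => Finset.mem_image_of_mem _ (Finset.mem_univ x))]
    apply Finset.sum_congr rfl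
    intro v _
    rw [Finset.sum_congr rfl (g := fun _ => v) (fun x hx => (Finset.mem_filter.mp hx).2),
      Finset.sum_const, smul_eq_mul]
  rw [h1, h1, ← ZMod.natCast_eq_natCast_iff]
  push_cast
  apply Finset.sum_congr rfl
  intro v _
  congr 1
  rw [ZMod.natCast_eq_natCast_iff]
  letI : MulAction P {x : X // f x = v} :=
    { smul := fun g x => ⟨g • x.1, (hf g x.1).trans x.2⟩
      one_smul := fun x => Subtype.ext (one_smul P x.1)
      mul_smul := fun g h x => Subtype.ext (mul_smul g h x.1) }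
  have h2 := hP.card_modEq_card_fixedPoints {x : X // f x = v}
  have h3 : Nat.card {x : X // f x = v} = (Finset.univ.filter (fun x => f x = v)).card := by
    rw [Nat.card_eq_fintype_card, Fintype.card_subtype]
  have h4 : Nat.card (MulAction.fixedPoints P {x : X // f x = v}) =
      ((Finset.univ.filter (fun x => x ∈ MulAction.fixedPoints P X)).filter
        (fun x => f x = v)).card := by
    rw [Finset.filter_filter, ← Fintype.card_subtype, ← Nat.card_eq_fintype_card]
    apply Nat.card_congr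
    exact
      { toFun := fun y => ⟨y.1.1, ⟨fun g => congrArg Subtype.val (y.2 g), y.1.2⟩⟩
        invFun := fun z => ⟨⟨z.1, z.2.2⟩, fun g => Subtype.ext (z.2.1 g)⟩
        left_inv := fun y => rfl
        right_inv := fun z => rfl }
  rw [h3, h4] at h2
  exact h2

theorem not_dvd_orderOf_hom {G : Type*} [Group G] [Finite G] (p : ℕ) (hp : p.Prime)
    (f : Cfsg.pResidual p G →* ℂˣ) : ¬ p ∣ orderOf f := by
  rintro ⟨m, hm⟩
  have hpos := Lib.Helper19Lin.orderOf_hom_pos f
  have hm0 : 0 < m := by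
    rcases Nat.eq_zero_or_pos m with h | h
    · rw [h, mul_zero] at hm; omega
    · exact h
  have hfx : ∀ x, f x ^ orderOf f = 1 := by
    intro x
    have := DFunLike.congr_fun (pow_orderOf_eq_one f) x
    rw [MonoidHom.pow_apply] at this
    exact this
  have hle : Cfsg.pResidual p G ≤
      (((powMonoidHom m : ℂˣ →* ℂˣ).comp f).ker).map (Cfsg.pResidual p G).subtype := by
    conv_lhs => unfold Cfsg.pResidual
    rw [Subgroup.closure_le]
    intro x hx
    have hxN : x ∈ Cfsg.pResidual p G := Subgroup.subset_closure hx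
    refine ⟨⟨x, hxN⟩, ?_, rfl⟩
    show f ⟨x, hxN⟩ ^ m = 1
    have h1 : (f ⟨x, hxN⟩ ^ m) ^ p = 1 := by
      rw [← pow_mul, mul_comm, ← hm, hfx]
    have h2 : (f ⟨x, hxN⟩ ^ m) ^ orderOf x = 1 := by
      rw [← pow_mul, mul_comm, pow_mul, ← map_pow]
      have : (⟨x, hxN⟩ : Cfsg.pResidual p G) ^ orderOf x = 1 := by
        apply Subtype.ext
        simp [pow_orderOf_eq_one]
      rw [this, map_one, one_pow]
    have h3 := orderOf_dvd_of_pow_eq_one h1
    have h4 := orderOf_dvd_of_pow_eq_one h2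
    have h5 : orderOf (f ⟨x, hxN⟩ ^ m) = 1 := Nat.eq_one_of_dvd_coprimes hx h4 h3
    exact orderOf_eq_one_iff.mp h5
  have h6 : orderOf f ∣ m := by
    apply orderOf_dvd_of_pow_eq_one
    ext n
    obtain ⟨y, hy, hyn⟩ := hle n.2
    have : y = n := Subtype.ext hyn
    rw [← this]
    have hy' : f y ^ m = 1 := hy
    simp [hy']
  rw [hm] at h6
  have h7 := Nat.le_of_dvd hm0 h6
  have h8 : 2 * m ≤ p * m := Nat.mul_le_mul_right m hp.two_le
  omega

theorem not_dvd_detOrder {G : Type*} [Group G] [Finite G] (p : ℕ) (hp : p.Prime)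
    {θ : Cfsg.pResidual p G → ℂ} (hθ : Cfsg.IsCharacter (Cfsg.pResidual p G) θ) :
    ¬ p ∣ Cfsg.detOrder θ := by
  obtain ⟨f, hf⟩ := Lib.Helper19Det.exists_detHom hθ
  unfold Cfsg.detOrder
  rw [hf, Lib.Helper19Lin.orderOf_homFun]
  exact not_dvd_orderOf_hom p hp f

/-- the conjugation action of `G` on the irreducible characters of a normal subgroup -/
@[reducible] noncomputable def actIrr {G : Type*} [Group G] {N : Subgroup G} (hN : N.Normal) :
    MulAction G (Cfsg.IrrCharacter N) where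
  smul g φ := ⟨cj hN φ.1 g⁻¹, cj_isIrr hN φ.2 g⁻¹⟩
  one_smul φ := by
    apply Subtype.ext
    show cj hN φ.1 1⁻¹ = φ.1
    rw [inv_one, cj_one]
  mul_smul g h φ := by
    apply Subtype.ext
    show cj hN φ.1 (g * h)⁻¹ = cj hN (cj hN φ.1 h⁻¹) g⁻¹
    rw [cj_cj, mul_inv_rev]

theorem charDegree_cj {G : Type*} [Group G] {N : Subgroup G} (hN : N.Normal) (φ : N → ℂ) (g : G) :
    Cfsg.charDegree (cj hN φ g) = Cfsg.charDegree φ := by
  unfold Cfsg.charDegree
  rw [cj_apply]
  congr 3
  apply Subtype.ext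
  simp

/-- Fix a prime p and a finite group G. Let s be the sum of χ(1)² over the irreducible characters χ of G whose degree is not divisible by p and whose determinantal order o(χ) is not divisible by p. Then the order of O^p(G), the subgroup generated by the elements of order prime to p, is congruent to s modulo p. -/
theorem result {G : Type*} [Group G] [Finite G] (p : ℕ) (hp : p.Prime) : (Nat.card (Cfsg.pResidual p G) : ℤ) ≡ (∑ᶠ χ ∈ {χ : Cfsg.IrrCharacter G | ¬ p ∣ Cfsg.charDegree (χ : G → ℂ) ∧ ¬ p ∣ Cfsg.detOrder (χ : G → ℂ)}, (Cfsg.charDegree (χ : G → ℂ) : ℤ) ^ 2) [ZMOD p] := by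
  classical
  haveI : Fact p.Prime := ⟨hp⟩
  haveI : Fintype G := Fintype.ofFinite G
  have hN : (Cfsg.pResidual p G).Normal := Lib.Helper2Residual.pResidual_normal p
  haveI := hN
  letI := actIrr hN
  obtain ⟨k, hk⟩ := Lib.Helper2Residual.index_pResidual (G := G) hp
  obtain ⟨P⟩ : Nonempty (Sylow p G) := inferInstance
  have hPN : (P : Subgroup G) ⊔ Cfsg.pResidual p G = ⊤ :=
    Lib.Helper2Residual.sylow_sup_pResidual_eq_top P
  have hsum : ∑ θ : Cfsg.IrrCharacter (Cfsg.pResidual p G), Cfsg.charDegree θ.1 ^ 2 =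
      Nat.card (Cfsg.pResidual p G) := by
    have := sum_degree_sq (G := Cfsg.pResidual p G)
    simp only [← Lib.Helper82Irr.irr_charDegree_cast] at this
    exact_mod_cast this
  have h1 := sum_modEq_fixed (P := (P : Subgroup G))
    (X := Cfsg.IrrCharacter (Cfsg.pResidual p G)) p P.isPGroup'
    (fun θ => Cfsg.charDegree θ.1 ^ 2) (by
      intro g θ
      show Cfsg.charDegree (cj hN θ.1 _) ^ 2 = _
      rw [charDegree_cj])
  rw [hsum] at h1
  have hinv : ∀ θ : Cfsg.IrrCharacter (Cfsg.pResidual p G),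
      θ ∈ MulAction.fixedPoints (P : Subgroup G) (Cfsg.IrrCharacter (Cfsg.pResidual p G)) →
      ∀ (g : G) (n : Cfsg.pResidual p G), θ.1 ⟨g * n * g⁻¹, hN.conj_mem n n.2 g⟩ = θ.1 n := by
    intro θ hθ g n
    have hle : (P : Subgroup G) ⊔ Cfsg.pResidual p G ≤ MulAction.stabilizer G θ := by
      refine sup_le (fun x hx => hθ ⟨x, hx⟩) (fun x hx => ?_)
      rw [MulAction.mem_stabilizer_iff]
      apply Subtype.ext
      show cj hN θ.1 x⁻¹ = θ.1
      funext m
      rw [cj_apply]
      have := IsIrrCharacter.isClassFunction θ.2 m (⟨x, hx⟩ : Cfsg.pResidual p G)⁻¹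
      rw [← this]
      congr 1
    rw [hPN] at hle
    have h2 : g⁻¹ • θ = θ := hle (Subgroup.mem_top g⁻¹)
    have h3 : cj hN θ.1 g⁻¹⁻¹ = θ.1 := congrArg Subtype.val h2
    rw [inv_inv] at h3
    exact congrFun h3 n
  have hcopidx : ∀ a : ℕ, ¬ p ∣ a → Nat.Coprime (Cfsg.pResidual p G).index a := by
    intro a ha
    rw [hk]
    exact Nat.Coprime.pow_left k ((Nat.Prime.coprime_iff_not_dvd hp).mpr ha)
  have h2 : ∑ θ ∈ Finset.univ.filter (fun θ : Cfsg.IrrCharacter (Cfsg.pResidual p G) =>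
        θ ∈ MulAction.fixedPoints (P : Subgroup G) (Cfsg.IrrCharacter (Cfsg.pResidual p G))),
        Cfsg.charDegree θ.1 ^ 2 ≡
      ∑ θ ∈ (Finset.univ.filter (fun θ : Cfsg.IrrCharacter (Cfsg.pResidual p G) =>
        θ ∈ MulAction.fixedPoints (P : Subgroup G)
          (Cfsg.IrrCharacter (Cfsg.pResidual p G)))).filter
          (fun θ => ¬ p ∣ Cfsg.charDegree θ.1), Cfsg.charDegree θ.1 ^ 2 [MOD p] := by
    rw [Finset.sum_filter (p := fun θ : Cfsg.IrrCharacter (Cfsg.pResidual p G) =>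
      ¬ p ∣ Cfsg.charDegree θ.1), ← ZMod.natCast_eq_natCast_iff]
    push_cast
    apply Finset.sum_congr rfl
    intro θ _
    split_ifs with h
    · rw [(ZMod.natCast_eq_zero_iff _ _).mpr h]
      simp
    · rfl
  have hresirr : ∀ χ : Cfsg.IrrCharacter G, ¬ p ∣ Cfsg.charDegree χ.1 →
      Cfsg.IsIrrCharacter (Cfsg.pResidual p G) (fun n : Cfsg.pResidual p G => χ.1 n) := by
    intro χ hχ
    exact Lib.Helper77Glaub4.res_irr_of_coprime_degree (Cfsg.pResidual p G) χ.2
      (Cfsg.charDegree χ.1) (Lib.Helper82Irr.irr_charDegree_cast χ).symm (hcopidx _ hχ).symm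
  have h3 : ∑ χ ∈ Finset.univ.filter (fun χ : Cfsg.IrrCharacter G =>
        ¬ p ∣ Cfsg.charDegree χ.1 ∧ ¬ p ∣ Cfsg.detOrder χ.1), Cfsg.charDegree χ.1 ^ 2 =
      ∑ θ ∈ (Finset.univ.filter (fun θ : Cfsg.IrrCharacter (Cfsg.pResidual p G) =>
        θ ∈ MulAction.fixedPoints (P : Subgroup G)
          (Cfsg.IrrCharacter (Cfsg.pResidual p G)))).filter
          (fun θ => ¬ p ∣ Cfsg.charDegree θ.1), Cfsg.charDegree θ.1 ^ 2 := by
    refine Finset.sum_bij (fun χ hχ => ⟨fun n : Cfsg.pResidual p G => χ.1 n,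
      hresirr χ (Finset.mem_filter.mp hχ).2.1⟩) ?_ ?_ ?_ ?_
    · intro χ hχ
      simp only [Finset.mem_filter, Finset.mem_univ, true_and] at hχ ⊢
      refine ⟨?_, hχ.1⟩
      intro g
      apply Subtype.ext
      exact cj_res hN (IsIrrCharacter.isClassFunction χ.2) _
    · intro χ hχ χ' hχ' heq
      simp only [Finset.mem_filter, Finset.mem_univ, true_and] at hχ hχ'
      have heq' : ∀ n : Cfsg.pResidual p G, χ'.1 n = χ.1 n := fun n =>
        (congrFun (congrArg Subtype.val heq) n).symm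
      obtain ⟨χ₀, -, huniq⟩ := S0867.result (Cfsg.pResidual p G) _ (hresirr χ hχ.1)
        (fun g n => IsIrrCharacter.isClassFunction χ.2 n g) (Cfsg.charDegree χ.1)
        (Lib.Helper82Irr.irr_charDegree_cast χ).symm
        (hcopidx _ (fun h => (hp.dvd_mul.mp h).elim
          (not_dvd_detOrder p hp (IsIrrCharacter.isCharacter (hresirr χ hχ.1))) hχ.1))
      apply Subtype.ext
      rw [huniq χ.1 χ.2 (fun n => rfl) (hcopidx _ hχ.2),
        huniq χ'.1 χ'.2 heq' (hcopidx _ hχ'.2)]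
    · intro θ hθ
      simp only [Finset.mem_filter, Finset.mem_univ, true_and] at hθ
      obtain ⟨χ₀, ⟨hχ₀, hext, hdet⟩, -⟩ := S0867.result (Cfsg.pResidual p G) θ.1 θ.2
        (hinv θ hθ.1) (Cfsg.charDegree θ.1)
        (Lib.Helper82Irr.irr_charDegree_cast θ).symm
        (hcopidx _ (fun h => (hp.dvd_mul.mp h).elim
          (not_dvd_detOrder p hp (IsIrrCharacter.isCharacter θ.2)) hθ.2))
      have hdeg : Cfsg.charDegree χ₀ = Cfsg.charDegree θ.1 := by
        unfold Cfsg.charDegree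
        rw [← hext 1]
        rfl
      refine ⟨⟨χ₀, hχ₀⟩, ?_, ?_⟩
      · simp only [Finset.mem_filter, Finset.mem_univ, true_and]
        refine ⟨by rw [hdeg]; exact hθ.2, ?_⟩
        rw [hdet]
        exact not_dvd_detOrder p hp (IsIrrCharacter.isCharacter θ.2)
      · apply Subtype.ext
        funext n
        exact hext n
    · intro χ hχ
      rfl
  have hset : {χ : Cfsg.IrrCharacter G | ¬ p ∣ Cfsg.charDegree (χ : G → ℂ) ∧
      ¬ p ∣ Cfsg.detOrder (χ : G → ℂ)} = ↑(Finset.univ.filter (fun χ : Cfsg.IrrCharacter G =>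
        ¬ p ∣ Cfsg.charDegree χ.1 ∧ ¬ p ∣ Cfsg.detOrder χ.1)) := by
    ext χ; simp
  rw [hset, finsum_mem_coe_finset]
  have h4 := (h1.trans h2)
  rw [← h3] at h4
  have h5 := (Int.natCast_modEq_iff).mpr h4
  push_cast at h5
  exact h5

end Cfsg.Agent.S4455
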