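import Cfsg.Statements.S4462
import Cfsg.Agent.S4461

set_option autoImplicit false
open Cfsg

namespace Cfsg.Agent.S4462

open Cfsg.Agent.Lib.Helper4Char Cfsg.Agent.Lib.Helper4Char2 Cfsg.Agent.Lib.Helper4Char3
  Cfsg.Agent.Lib.Helper4Char4 Cfsg.Agent.Lib.Helper82Quot
  Cfsg.Agent.Lib.Helper82Linear Cfsg.Agent.Lib.Helper1Fitting
open scoped commutatorElement

universe u

/-- `B / A` is nilpotent. -/
def NilQ {G : Type*} [Group G] (A B : Subgroup G) : Prop :=
  ∀ _ : (A.subgroupOf B).Normal, Group.IsNilpotent (B ⧸ A.subgroupOf B)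

theorem nilpotent_of_injective {X Y : Type*} [Group X] [Group Y] [Group.IsNilpotent Y] (f : X →* Y)
    (hf : Function.Injective f) : Group.IsNilpotent X :=
  Group.nilpotent_of_mulEquiv (MonoidHom.ofInjective hf).symm

theorem nilQ_comap {G Q : Type*} [Group G] [Group Q] (π : G →* Q) (A B : Subgroup Q) [A.Normal]
    (h : NilQ A B) : NilQ (A.comap π) (B.comap π) := by
  intro hn
  haveI := h inferInstance
  have hle : (A.comap π).subgroupOf (B.comap π) ≤ (A.subgroupOf B).comap (π.subgroupComap B) := by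
    intro x hx
    exact hx
  refine nilpotent_of_injective (QuotientGroup.map _ (A.subgroupOf B) (π.subgroupComap B) hle) ?_
  rw [injective_iff_map_eq_one]
  intro x
  induction x using QuotientGroup.induction_on with
  | H x =>
    intro hx
    rw [QuotientGroup.map_mk, QuotientGroup.eq_one_iff] at hx
    rw [QuotientGroup.eq_one_iff]
    exact hx

theorem fitting_ne_bot {G : Type*} [Group G] [Finite G] [Nontrivial G] (hsolv : Group.IsSolvable G) :
    fittingSubgroup G ≠ ⊥ := by
  obtain ⟨M, hM, -, hab, hMinv, -⟩ :=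
    Cfsg.Agent.Lib.Helper19Rel2.exists_chief_above (⊥ : Subgroup G) inferInstance ⊤ ⊤ bot_lt_top
      (fun _ _ _ _ => trivial)
  have hMn : M.Normal := ⟨fun m hm g => hMinv g trivial m hm⟩
  have hnil : Group.IsNilpotent M := by
    letI : CommGroup M :=
      { (inferInstance : Group M) with
        mul_comm := by
          intro a b
          have h1 : ⁅(a : G), (b : G)⁆ ∈ ⁅M, M⁆ := Subgroup.commutator_mem_commutator a.2 b.2
          have h2 := hab h1
          rw [Subgroup.mem_bot, commutatorElement_eq_one_iff_mul_comm] at h2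
          exact Subtype.ext h2 }
    exact CommGroup.isNilpotent
  intro h0
  have := le_fitting hMn hnil
  rw [h0] at this
  exact absurd hM (not_lt_of_ge this)


theorem card_cd_lt {G : Type u} [Group G] [Finite G] (hsolv : Group.IsSolvable G)
    [(fittingSubgroup G).Normal] (hF : fittingSubgroup G ≠ ⊤) :
    Nat.card {d : ℕ // ∃ χ : IrrCharacter (G ⧸ fittingSubgroup G),
        charDegree (χ : G ⧸ fittingSubgroup G → ℂ) = d}
      < Nat.card {d : ℕ // ∃ χ : IrrCharacter G, charDegree (χ : G → ℂ) = d} := by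
  classical
  set F := fittingSubgroup G with hFdef
  have e1 : Nat.card {d : ℕ // ∃ χ : IrrCharacter (G ⧸ F), charDegree (χ : G ⧸ F → ℂ) = d}
      = (Set.range fun χ : IrrCharacter (G ⧸ F) => charDegree (χ : G ⧸ F → ℂ)).ncard :=
    Nat.card_coe_set_eq _
  have e2 : Nat.card {d : ℕ // ∃ χ : IrrCharacter G, charDegree (χ : G → ℂ) = d}
      = (Set.range fun χ : IrrCharacter G => charDegree (χ : G → ℂ)).ncard :=
    Nat.card_coe_set_eq _
  rw [e1, e2]
  apply Set.ncard_lt_ncard _ (Set.finite_range _)
  have hinf : ∀ χ : IrrCharacter (G ⧸ F), ∃ χ' : IrrCharacter G,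
      (χ' : G → ℂ) = (χ : G ⧸ F → ℂ) ∘ (QuotientGroup.mk' F) ∧
      charDegree (χ' : G → ℂ) = charDegree (χ : G ⧸ F → ℂ) := by
    intro χ
    refine ⟨⟨_, isIrrCharacter_comp χ.2 (QuotientGroup.mk' F) (QuotientGroup.mk'_surjective F)⟩,
      rfl, ?_⟩
    simp [charDegree]
  haveI : Nonempty (IrrCharacter (G ⧸ F)) := ⟨irrOne _⟩
  obtain ⟨χ0, hχ0⟩ := Finite.exists_max (fun χ : IrrCharacter (G ⧸ F) => charDegree (χ : G ⧸ F → ℂ))
  obtain ⟨χ, hχ, hχd⟩ := hinf χ0
  have hKF : F ≤ charKer (IsIrrCharacter.isCharacter χ.2) := by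
    intro x hx
    rw [mem_charKer, hχ]
    simp only [Function.comp_apply, map_one]
    have hx1 : (QuotientGroup.mk' F) x = 1 := (QuotientGroup.eq_one_iff x).mpr hx
    rw [hx1]
  obtain ⟨ψ, hψ, -⟩ := Cfsg.Agent.S4461.result χ (charKer (IsIrrCharacter.isCharacter χ.2))
    (fun g => mem_charKer _ g) (by
      by_cases hle : charKer (IsIrrCharacter.isCharacter χ.2) ≤ fittingSubgroup G
      · right
        have heq : charKer (IsIrrCharacter.isCharacter χ.2) = fittingSubgroup G :=
          le_antisymm hle hKF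
        exact ⟨heq, inferInstance, heq ▸ hF⟩
      · exact Or.inl hle)
  refine ⟨?_, ?_⟩
  · rintro d ⟨ξ, rfl⟩
    obtain ⟨ξ', -, h2⟩ := hinf ξ
    exact ⟨ξ', h2⟩
  · intro hsub
    obtain ⟨ξ, hξ⟩ := hsub ⟨ψ, rfl⟩
    have := hχ0 ξ
    simp only at hξ
    omega

theorem chain (k : ℕ) : ∀ (G : Type u) [Group G] [Finite G], Group.IsSolvable G → Nat.card G = k →
    ∀ n : ℕ, (Nontrivial G →
      Nat.card {d : ℕ // ∃ χ : IrrCharacter G, charDegree (χ : G → ℂ) = d} ≤ n) →
    ∃ N : ℕ → Subgroup G, N 0 = ⊥ ∧ (∀ j, n ≤ j → N j = ⊤) ∧ Monotone N ∧ (∀ i, (N i).Normal) ∧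
      ∀ i, NilQ (N i) (N (i + 1)) := by
  induction k using Nat.strong_induction_on with
  | _ k ih =>
    intro G _ _ hsolv hk n hn
    rcases subsingleton_or_nontrivial G with hsub | hnt
    · refine ⟨fun _ => ⊥, rfl, fun _ _ => Subsingleton.elim _ _, monotone_const,
        fun _ => inferInstance, fun _ h => ?_⟩
      haveI := h
      infer_instance
    · haveI hFn : (fittingSubgroup G).Normal := fitting_normal
      have hFne := fitting_ne_bot hsolv
      have hcard : Nat.card (G ⧸ fittingSubgroup G) < k := by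
        rw [← hk, Subgroup.card_eq_card_quotient_mul_card_subgroup (fittingSubgroup G)]
        have h1 : 1 < Nat.card (fittingSubgroup G) := (Subgroup.one_lt_card_iff_ne_bot _).mpr hFne
        have h2 : 0 < Nat.card (G ⧸ fittingSubgroup G) := Nat.card_pos
        nlinarith
      have hn1 : 1 ≤ n := by
        refine le_trans ?_ (hn hnt)
        haveI : Finite {d : ℕ // ∃ χ : IrrCharacter G, charDegree (χ : G → ℂ) = d} :=
          (Set.finite_range fun χ : IrrCharacter G => charDegree (χ : G → ℂ)).to_subtype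
        haveI : Nonempty {d : ℕ // ∃ χ : IrrCharacter G, charDegree (χ : G → ℂ) = d} :=
          ⟨⟨_, irrOne G, rfl⟩⟩
        exact Nat.card_pos
      obtain ⟨m, rfl⟩ : ∃ m, n = m + 1 := ⟨n - 1, by omega⟩
      obtain ⟨N, hN0, hNtop, hNmono, hNn, hNq⟩ := ih _ hcard (G ⧸ fittingSubgroup G) inferInstance
        rfl m (by
          intro hnt'
          have hF : fittingSubgroup G ≠ ⊤ := by
            intro h0
            have : Subsingleton (G ⧸ fittingSubgroup G) := by
              rw [h0]; exact QuotientGroup.subsingleton_quotient_top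
            exact not_subsingleton _ this
          have := card_cd_lt hsolv hF
          have := hn hnt
          omega)
      refine ⟨fun j => Nat.casesOn j ⊥ (fun j => (N j).comap (QuotientGroup.mk' (fittingSubgroup G))),
        rfl, ?_, ?_, ?_, ?_⟩
      · intro j hj
        obtain ⟨j', rfl⟩ : ∃ j', j = j' + 1 := ⟨j - 1, by omega⟩
        show (N j').comap _ = ⊤
        rw [hNtop j' (by omega), Subgroup.comap_top]
      · apply monotone_nat_of_le_succ
        intro j
        cases j with
        | zero => exact bot_le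
        | succ j => exact Subgroup.comap_mono (hNmono (Nat.le_succ j))
      · intro j
        cases j with
        | zero => exact (inferInstance : (⊥ : Subgroup G).Normal)
        | succ j => exact (hNn j).comap _
      · intro j
        cases j with
        | zero =>
          show NilQ ⊥ ((N 0).comap (QuotientGroup.mk' (fittingSubgroup G)))
          rw [hN0, MonoidHom.comap_bot, QuotientGroup.ker_mk']
          intro h
          haveI := h
          haveI : Group.IsNilpotent (fittingSubgroup G) := fitting_isNilpotent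
          infer_instance
        | succ j =>
          haveI := hNn j
          exact nilQ_comap _ _ _ (hNq j)

/-- Let G be a finite solvable group with exactly n distinct irreducible character degrees. Then G has normal subgroups 1 = N₀ ≤ N₁ ≤ ⋯ ≤ Nₙ = G with every quotient N_{i+1}/N_i nilpotent (the nilpotent length of G is at most n). -/
theorem result {G : Type*} [Group G] [Finite G] (hsolv : Group.IsSolvable G) (n : ℕ) (hcd : Nat.card {d : ℕ // ∃ χ : Cfsg.IrrCharacter G, Cfsg.charDegree (χ : G → ℂ) = d} = n) : ∃ N : Fin (n + 1) → Subgroup G, N 0 = ⊥ ∧ N (Fin.last n) = ⊤ ∧ Monotone N ∧ (∀ i, (N i).Normal) ∧ ∀ i : Fin n, ∀ h : (N i.castSucc).subgroupOf (N i.succ) |>.Normal, Group.IsNilpotent (↥(N i.succ) ⧸ (N i.castSucc).subgroupOf (N i.succ)) := by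
  obtain ⟨N, hN0, hNtop, hNmono, hNn, hNq⟩ := chain _ G hsolv rfl n (fun _ => hcd.le)
  refine ⟨fun i => N i.val, hN0, hNtop n le_rfl, fun a b hab => hNmono hab, fun i => hNn _, ?_⟩
  intro i h
  exact hNq i.val h

end Cfsg.Agent.S4462
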