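import Cfsg.Statements.S4464
import Cfsg.Agent.S4456
import Cfsg.Agent.S0187
import Cfsg.Agent.Lib.Helper82TIChar
import Cfsg.Agent.Lib.Helper82Cod
import Cfsg.Agent.Lib.Helper77Glaub3

set_option autoImplicit false
open Cfsg

namespace Cfsg.Agent.S4464

open Cfsg.Agent.Lib.Helper82Irr Cfsg.Agent.Lib.Helper82Cod Cfsg.Agent.Lib.Helper4Char
  Cfsg.Agent.Lib.Helper82Mult Cfsg.Agent.Lib.Helper82Quot Cfsg.Agent.Lib.Helper82Linear
open scoped Pointwise

/-- every irreducible character of a subgroup has degree at most that of some irreducible character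
of the group. -/
theorem exists_degree_le {G : Type*} [Group G] [Finite G] (H : Subgroup G)
    (ψ : Cfsg.IrrCharacter H) :
    ∃ χ : Cfsg.IrrCharacter G, Cfsg.charDegree (ψ : H → ℂ) ≤ Cfsg.charDegree (χ : G → ℂ) := by
  classical
  have := Fintype.ofFinite G
  have := Fintype.ofFinite H
  obtain ⟨χ, hχ⟩ := Cfsg.Agent.Lib.Helper77Glaub3.exists_over (G := G) H.subtype
    H.subtype_injective ψ.2
  refine ⟨χ, ?_⟩
  have hres := isCharacter_restrict (irr_isCharacter χ) H
  obtain ⟨m, hm, hsum⟩ := exists_mult hres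
  have hd := degree_eq_sum_mult hres m hsum
  have hmψ : m ψ ≠ 0 := by
    have h1 := Cfsg.Agent.Lib.Helper77Glaub.mlt_spec H.subtype (irr_isCharacter χ)
      (irr_isCharacter ψ)
    change Cfsg.classInner (fun n : H => (χ : G → ℂ) n) (ψ : H → ℂ) = _ at h1
    rw [hm ψ] at h1
    have : m ψ = Cfsg.Agent.Lib.Helper77Glaub.mlt H.subtype (χ : G → ℂ) (ψ : H → ℂ) := by
      exact_mod_cast h1
    rw [this]; exact hχ
  have hdeg : Cfsg.charDegree (fun h : H => (χ : G → ℂ) h) = Cfsg.charDegree (χ : G → ℂ) := rfl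
  rw [← hdeg, hd]
  calc Cfsg.charDegree (ψ : H → ℂ) ≤ m ψ * Cfsg.charDegree (ψ : H → ℂ) :=
        Nat.le_mul_of_pos_left _ (Nat.pos_of_ne_zero hmψ)
    _ ≤ _ := Finset.single_le_sum (f := fun ψ' : Cfsg.IrrCharacter H =>
        m ψ' * Cfsg.charDegree (ψ' : H → ℂ)) (fun _ _ => Nat.zero_le _) (Finset.mem_univ ψ)

theorem sylow_abelian {G : Type*} [Group G] [Finite G] (p : ℕ) [hp : Fact p.Prime]
    (hb : ∀ χ : Cfsg.IrrCharacter G, Cfsg.charDegree (χ : G → ℂ) < p) (P : Sylow p G) :
    ∀ a b : (P : Subgroup G), a * b = b * a := by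
  rw [Cfsg.Agent.S0187.result]
  intro ψ
  obtain ⟨χ, hχ⟩ := exists_degree_le (P : Subgroup G) ψ
  have h1 : Cfsg.charDegree (ψ : ↥(P : Subgroup G) → ℂ) < p := hχ.trans_lt (hb χ)
  have h2 : Cfsg.charDegree (ψ : ↥(P : Subgroup G) → ℂ) ∣ Nat.card (P : Subgroup G) :=
    irr_degree_dvd_card ψ
  obtain ⟨k, hk⟩ := IsPGroup.iff_card.mp P.2
  rw [hk] at h2
  obtain ⟨j, -, hj⟩ := (Nat.dvd_prime_pow hp.out).mp h2
  have hj0 : j = 0 := by
    by_contra hne
    have : p ≤ p ^ j := Nat.le_self_pow hne p
    omega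
  rw [← irr_charDegree_cast, hj, hj0]; simp

theorem sylow_normal (p : ℕ) [hp : Fact p.Prime] : ∀ (n : ℕ) (G : Type*) [Group G] [Finite G],
    Nat.card G = n → (∀ χ : Cfsg.IrrCharacter G, Cfsg.charDegree (χ : G → ℂ) < p) →
    ∀ P : Sylow p G, (P : Subgroup G).Normal := by
  intro n
  induction n using Nat.strong_induction_on with
  | _ n ih =>
  intro G _ _ hn hb P
  classical
  by_contra hnot
  have hab := sylow_abelian p hb P
  have habG : ∀ a ∈ (P : Subgroup G), ∀ b ∈ (P : Subgroup G), a * b = b * a := fun a ha b hb' =>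
    congrArg Subtype.val (hab ⟨a, ha⟩ ⟨b, hb'⟩)
  have hTI : ∀ g : G, g ∉ Subgroup.normalizer ((P : Subgroup G) : Set G) →
      (P : Subgroup G) ⊓ (MulAut.conj g • (P : Subgroup G)) = ⊥ := by
    intro g hg
    by_contra hD
    set D : Subgroup G := (P : Subgroup G) ⊓ (MulAut.conj g • (P : Subgroup G)) with hDdef
    have hPC : (P : Subgroup G) ≤ Subgroup.centralizer (D : Set G) := by
      intro x hx
      rw [Subgroup.mem_centralizer_iff]
      intro d hd
      exact habG d (Subgroup.mem_inf.mp hd).1 x hx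
    have hgPC : ((g • P : Sylow p G) : Subgroup G) ≤ Subgroup.centralizer (D : Set G) := by
      intro x hx
      rw [Subgroup.mem_centralizer_iff]
      intro d hd
      have hd2 : d ∈ MulAut.conj g • (P : Subgroup G) := (Subgroup.mem_inf.mp hd).2
      have hx2 : x ∈ MulAut.conj g • (P : Subgroup G) := hx
      rw [Subgroup.mem_pointwise_smul_iff_inv_smul_mem] at hd2 hx2
      have := habG _ hd2 _ hx2
      simp only [MulAut.smul_def, MulAut.conj_inv_apply] at this
      have h3 : g⁻¹ * (d * x) * g = g⁻¹ * (x * d) * g := by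
        calc g⁻¹ * (d * x) * g = (g⁻¹ * d * g) * (g⁻¹ * x * g) := by group
          _ = (g⁻¹ * x * g) * (g⁻¹ * d * g) := this
          _ = _ := by group
      exact mul_left_cancel (mul_right_cancel h3)
    by_cases hC : Subgroup.centralizer (D : Set G) = ⊤
    · -- `D` is central
      have hDn : D.Normal := by
        constructor
        intro d hd x
        have hx : x ∈ Subgroup.centralizer (D : Set G) := by rw [hC]; trivial
        have := (Subgroup.mem_centralizer_iff.mp hx) d hd
        rw [← this, mul_inv_cancel_right]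
        exact hd
      have hcard : Nat.card (G ⧸ D) < n := by
        rw [← hn, ← Subgroup.index_eq_card, ← D.card_mul_index]
        have h1 : 1 < Nat.card D := by
          rw [Finite.one_lt_card_iff_nontrivial]
          exact (Subgroup.nontrivial_iff_ne_bot D).mpr hD
        have h2 : 0 < D.index := Nat.pos_of_ne_zero Subgroup.index_ne_zero_of_finite
        nlinarith
      have hq := ih _ hcard (G ⧸ D) rfl (fun ψ => by
        have := hb (inflate D ψ)
        exact this) (P.mapSurjective (QuotientGroup.mk'_surjective D))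
      rw [Sylow.coe_mapSurjective] at hq
      have h3 := hq.comap (QuotientGroup.mk' D)
      rw [Subgroup.comap_map_eq_self (by rw [QuotientGroup.ker_mk']; exact inf_le_left)] at h3
      exact hnot h3
    · have hcard : Nat.card (Subgroup.centralizer (D : Set G)) < n := by
        rw [← hn]
        rcases lt_or_eq_of_le (Subgroup.card_le_card_group (Subgroup.centralizer (D : Set G)))
          with h | h
        · exact h
        · exact absurd ((Subgroup.card_eq_iff_eq_top _).mp h) hC
      have hq := ih _ hcard (Subgroup.centralizer (D : Set G)) rfl (fun ψ => by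
        obtain ⟨χ, hχ⟩ := exists_degree_le _ ψ
        exact hχ.trans_lt (hb χ)) (P.subtype hPC)
      have huniq := Sylow.unique_of_normal _ hq
      have heq : P.subtype hPC = (g • P).subtype hgPC := Subsingleton.elim _ _
      have h4 : P = g • P := Sylow.subtype_injective heq
      exact hg (Sylow.smul_eq_iff_mem_normalizer.mp h4.symm)
  have := Fintype.ofFinite G
  set N := Subgroup.normalizer ((P : Subgroup G) : Set G) with hN
  have hfree := Cfsg.Agent.Lib.Helper82TI.free_of_TI p P hTI N le_rfl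
  have hPcard : p ≤ Nat.card (P : Subgroup G) := by
    obtain ⟨k, hk⟩ := IsPGroup.iff_card.mp P.2
    rw [hk]
    apply Nat.le_self_pow
    rintro rfl
    rw [pow_zero, Subgroup.card_eq_one] at hk
    apply hnot
    rw [hk]
    infer_instance
  have hzero : ∀ θ : Cfsg.IrrCharacter G, θ ≠ irrOne G →
      Cfsg.classInner (fun h : N => (θ : G → ℂ) h) (fun _ => 1) = 0 := by
    intro θ hθ
    by_contra hne
    have := Cfsg.Agent.Lib.Helper82TIChar.degree_ge p (P : Subgroup G) N P.2
      Subgroup.le_normalizer hfree θ (fun h => hθ (Subtype.ext h)) hne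
    have h2 := hb θ
    omega
  have hidx := Cfsg.Agent.S4456.sum_degree_mul_inner N (1 : N →* ℂˣ)
  rw [Finset.sum_eq_single (irrOne G)] at hidx
  · have h1 : Cfsg.classInner (fun x : N => (irrOne G : G → ℂ) x)
        (fun x : N => (((1 : N →* ℂˣ) x : ℂˣ) : ℂ)) = 1 :=
      classInner_irr_self (isIrrCharacter_one (G := N))
    rw [h1] at hidx
    have h2 : N.index = 1 := by
      have : ((1 : ℕ) : ℂ) = (N.index : ℂ) := by
        rw [← hidx]; simp [irrOne]
      exact_mod_cast this.symm
    apply hnot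
    rw [← Subgroup.normalizer_eq_top_iff]
    exact Subgroup.index_eq_one.mp h2
  · intro θ _ hθ
    have := hzero θ hθ
    have h3 : (fun x : N => (((1 : N →* ℂˣ) x : ℂˣ) : ℂ)) = fun _ => 1 := by
      funext x; simp
    rw [h3, this, mul_zero]
  · intro h; exact absurd (Finset.mem_univ _) h

/-- Let p be a prime and G a finite group all of whose irreducible character degrees are less than p. Then G has a normal abelian Sylow p-subgroup. -/
theorem result {G : Type*} [Group G] [Finite G] (p : ℕ) (hp : p.Prime) (hb : ∀ χ : Cfsg.IrrCharacter G, Cfsg.charDegree (χ : G → ℂ) < p) : ∃ P : Subgroup G, P.Normal ∧ (∀ x ∈ P, ∀ y ∈ P, x * y = y * x) ∧ IsPGroup p P ∧ ¬ p ∣ P.index := by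
  have : Fact p.Prime := ⟨hp⟩
  let P : Sylow p G := default
  refine ⟨P, sylow_normal p _ G rfl hb P, ?_, P.2, P.not_dvd_index⟩
  intro x hx y hy
  exact congrArg Subtype.val (sylow_abelian p hb P ⟨x, hx⟩ ⟨y, hy⟩)

end Cfsg.Agent.S4464
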