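import Cfsg.Statements.S4468
import Cfsg.Agent.Lib.Helper19ItoA
import Cfsg.Agent.Lib.Helper19ItoG
import Cfsg.Agent.Lib.Helper19Util

set_option autoImplicit false
open Cfsg

namespace Cfsg.Agent.S4468

open Cfsg.Agent.Lib Cfsg.Agent.Lib.Helper4Char Cfsg.Agent.Lib.Helper4Char2
  Cfsg.Agent.Lib.Helper4Char4

/-- Let the finite p-solvable group G have a faithful character χ of degree n ≤ p − 1 and suppose that a Sylow p-subgroup of G is not normal. Then n = p − 1, n is a power of 2, and χ is irreducible. -/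
theorem result {G : Type*} [Group G] [Finite G] (χ : G → ℂ) (hχ : Cfsg.IsCharacter G χ) (hfaith : ∀ g : G, χ g = χ 1 → g = 1) (n : ℕ) (hn : Cfsg.charDegree χ = n) (p : ℕ) (hp : p.Prime) (hsolv : Cfsg.IsPSolvable p G) (hnp : n + 1 ≤ p) (P : Sylow p G) (hP : ¬ (P : Subgroup G).Normal) : n + 1 = p ∧ (∃ k : ℕ, n = 2 ^ k) ∧ Cfsg.IsIrrCharacter G χ := by
  classical
  have : Fact p.Prime := ⟨hp⟩
  have := Fintype.ofFinite G
  obtain ⟨q, Q, y, hq, hqp, hQ, hy, hyc, u, hu, hnc⟩ := Helper19ItoG.exists_cfg p hsolv P hP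
  have : Fact q.Prime := ⟨hq⟩
  have hc1 : y * u * y⁻¹ * u⁻¹ ≠ 1 := by
    intro h
    apply hnc
    have : y * u = u * y := by
      calc y * u = (y * u * y⁻¹ * u⁻¹) * (u * y) := by group
        _ = u * y := by rw [h, one_mul]
    exact this
  have hχc : χ (y * u * y⁻¹ * u⁻¹) ≠ χ 1 := fun h => hc1 (hfaith _ h)
  obtain ⟨ψ, hin, hψc⟩ : ∃ ψ : IrrCharacter G, classInner χ (ψ : G → ℂ) ≠ 0 ∧
      (ψ : G → ℂ) (y * u * y⁻¹ * u⁻¹) ≠ (ψ : G → ℂ) 1 := by
    by_contra hcon
    push Not at hcon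
    obtain ⟨m, hm, hm'⟩ := IsCharacter.eq_sum_nat hχ
    apply hχc
    rw [hm]
    simp only [Finset.sum_apply, Pi.smul_apply, smul_eq_mul]
    apply Finset.sum_congr rfl
    intro ξ _
    by_cases h0 : m ξ = 0
    · rw [h0]; simp
    · rw [hcon ξ (by rw [hm']; exact_mod_cast h0)]
  obtain ⟨d, ρ, hρ, hρψ⟩ := ψ.2
  have hψ1 : (ψ : G → ℂ) 1 = d := by rw [← hρψ]; simp
  have hχ1 : χ 1 = n := by rw [← hn]; exact (Helper82Irr.charDegree_cast hχ).symm
  have hdeg := Helper19Util.degree_le_of_constituent hχ ψ.2 hin n d hχ1 hψ1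
  -- the operator group
  let r : G →* (Module.End ℂ (Fin d → ℂ))ˣ := MonoidHom.toHomUnits ρ
  have hr : ∀ g, ((r g : (Module.End ℂ (Fin d → ℂ))ˣ) : Module.End ℂ (Fin d → ℂ)) = ρ g :=
    fun g => rfl
  have hfin : Finite ↥(Q.map r) := by
    have hs : (r '' (Q : Set G)).Finite := (Set.toFinite _).image r
    exact hs.to_subtype
  have hA := Helper19ItoA.lemA1 p q hqp.symm (Q.map r) (hQ.map r) (r y)
    (by
      rintro _ ⟨a, ha, rfl⟩
      exact ⟨y * a * y⁻¹, hy a ha, by simp⟩)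
    (orderOf y) (orderOf_pos y) (by rw [← map_pow, pow_orderOf_eq_one, map_one])
    (by
      rintro _ ⟨a, ha, rfl⟩
      rw [← map_pow]
      exact (hyc a ha).map r)
    ⟨r u, ⟨u, hu, rfl⟩, fun hcom => hψc (by
      have h1 : r (y * u * y⁻¹ * u⁻¹) = 1 := by
        rw [map_mul, map_mul, map_mul, map_inv, map_inv, hcom.eq]
        group
      have h2 : ρ (y * u * y⁻¹ * u⁻¹) = ρ 1 := by
        rw [← hr, h1, map_one]
        rfl
      rw [← hρψ]
      unfold Representation.character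
      rw [h2])⟩
  rw [Module.finrank_fin_fun] at hA
  have hp2 := hp.two_le
  have hdn : d = n := by omega
  obtain ⟨m, hm1, hm⟩ := hA.2 (by omega)
  refine ⟨by omega, ?_, ?_⟩
  · refine ⟨m, ?_⟩
    have hq2 : q = 2 := by
      rcases hp.eq_two_or_odd' with h2 | hodd
      · exfalso
        subst h2
        have : 2 ≤ q ^ m := le_trans hq.two_le (Nat.le_self_pow (by omega) q)
        omega
      · have heven : Even (q ^ m) := by
          rw [← hm]
          obtain ⟨t, ht⟩ := hodd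
          exact ⟨t, by omega⟩
        have := (Nat.even_pow.1 heven).1
        exact (hq.even_iff.1 this)
    rw [← hq2, ← hm]
    omega
  · rw [hdeg.2 (by omega)]
    exact ψ.2

end Cfsg.Agent.S4468
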