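import Cfsg.Statements.S4470
import Cfsg.Agent.Lib.Helper78Jordan

set_option autoImplicit false
open Cfsg

namespace Cfsg.Agent.S4470

/-- Let the finite group G have a faithful character of degree n. Then G has an abelian normal subgroup A such that every abelian subgroup H of G satisfies [H : H ⊓ A] ≤ 12^n. -/
theorem result {G : Type*} [Group G] [Finite G] (χ : G → ℂ) (hχ : Cfsg.IsCharacter G χ) (hfaith : ∀ g : G, χ g = χ 1 → g = 1) (n : ℕ) (hn : Cfsg.charDegree χ = n) : ∃ A : Subgroup G, A.Normal ∧ (∀ x ∈ A, ∀ y ∈ A, x * y = y * x) ∧ ∀ H : Subgroup G, (∀ x ∈ H, ∀ y ∈ H, x * y = y * x) → (A.subgroupOf H).index ≤ 12 ^ n := by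
  open Cfsg.Agent.Lib.Helper78Jordan in
  open scoped Matrix.Norms.L2Operator in
  obtain ⟨m, ρ, rfl⟩ := hχ
  have h1 : ρ.character 1 = (m : ℂ) := by
    rw [Representation.char_one, Module.finrank_fin_fun]
  have hmn : m = n := by
    rw [← hn, Cfsg.charDegree, h1]
    simp
  subst hmn
  obtain ⟨U, hU⟩ := exists_unitary_hom ρ
  rcases Nat.eq_zero_or_pos m with hm | hm
  · subst hm
    have hsub : ∀ g : G, g = 1 := by
      intro g
      apply hfaith
      rw [← hU, ← hU]
      simp [Matrix.trace]
    refine ⟨⊤, inferInstance, fun x _ y _ => by rw [hsub x, hsub y], fun H _ => ?_⟩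
    simp
  · have : NeZero m := ⟨hm.ne'⟩
    have hinj : Function.Injective U := by
      rw [injective_iff_map_eq_one]
      intro g hg
      apply hfaith
      rw [← hU, ← hU, hg, map_one]
    exact ⟨AA U, AA_normal U, AA_comm U hinj, fun H hH => index_le U H hH⟩

end Cfsg.Agent.S4470
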