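import Cfsg.Statements.S4469
import Cfsg.Agent.S4470
import Cfsg.Agent.Lib.Helper4Blich2
import Cfsg.Agent.Lib.Helper4Mono

set_option autoImplicit false
open Cfsg

namespace Cfsg.Agent.S4469


theorem index_eq_relIndex_mul {G : Type*} [Group G] (A H : Subgroup G) [A.Normal] :
    A.index = A.relIndex H * (A ⊔ H).index := by
  rw [← Subgroup.relIndex_sup_left H A, Subgroup.relIndex_mul_index le_sup_left]

theorem pow_dvd_relIndex {G : Type*} [Group G] (A H : Subgroup G) [A.Normal] (p k : ℕ)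
    (hp : p.Prime) (hH : ¬ p ∣ H.index) (hk : p ^ k ∣ A.index) : p ^ k ∣ A.relIndex H := by
  rw [index_eq_relIndex_mul A H] at hk
  have h1 : ¬ p ∣ (A ⊔ H).index := fun h => hH (h.trans (Subgroup.index_dvd_of_le le_sup_right))
  exact Nat.Coprime.dvd_of_dvd_mul_right
    (Nat.Coprime.pow_left _ ((Nat.Prime.coprime_iff_not_dvd hp).mpr h1)) hk

theorem local_bound {G : Type*} [Group G] [Finite G] (χ : G → ℂ) (hχ : Cfsg.IsCharacter G χ)
    (hfaith : ∀ g : G, χ g = χ 1 → g = 1) (n : ℕ) (hn : χ 1 = n) (A : Subgroup G) [A.Normal]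
    (hA : ∀ H : Subgroup G, (∀ x ∈ H, ∀ y ∈ H, x * y = y * x) → (A.subgroupOf H).index ≤ 12 ^ n)
    (p : ℕ) : ∃ a b : ℕ, p.Prime → ((∀ k, p ^ k ∣ A.index → p ^ k ∣ a * b) ∧ a ∣ n.factorial ∧
      (∃ j, a = p ^ j) ∧ b ≤ 12 ^ n ∧ 0 < b) := by
  classical
  by_cases hp : p.Prime
  swap
  · exact ⟨0, 0, fun h => absurd h hp⟩
  have := Fact.mk hp
  cases nonempty_fintype G
  obtain ⟨P⟩ : Nonempty (Sylow p G) := inferInstance
  have hnil : Group.IsNilpotent (P : Subgroup G) := P.2.isNilpotent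
  obtain ⟨H, hH1, hH2⟩ := Cfsg.Agent.Lib.Helper4Mono.exists_abelian_index_dvd_factorial
    (G := (P : Subgroup G)) (Cfsg.Agent.Lib.Helper4Char4.IsCharacter.restrict (P : Subgroup G) hχ)
    (fun g hg => Subtype.ext (hfaith g hg)) n hn
  set H' : Subgroup G := H.map (P : Subgroup G).subtype with hH'
  have hH'P : H' ≤ P := Subgroup.map_subtype_le H
  have hH'ab : ∀ x ∈ H', ∀ y ∈ H', x * y = y * x := by
    rintro _ ⟨x, hx, rfl⟩ _ ⟨y, hy, rfl⟩
    exact congrArg Subtype.val (hH1 x hx y hy)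
  have hrel : H'.relIndex P = H.index := by
    rw [Subgroup.relIndex, hH', Subgroup.subgroupOf,
      Subgroup.comap_map_eq_self_of_injective (Subgroup.subtype_injective _)]
  refine ⟨H.index, A.relIndex H', fun _ => ⟨?_, hH2, ?_, hA H' hH'ab, ?_⟩⟩
  · intro k hk
    have h1 := pow_dvd_relIndex A P p k hp P.not_dvd_index hk
    refine h1.trans ?_
    have h2 := Subgroup.relIndex_mul_relIndex (A ⊓ H') H' P inf_le_right hH'P
    have h3 := Subgroup.relIndex_mul_relIndex (A ⊓ H') (A ⊓ P) P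
      (inf_le_inf_left A hH'P) inf_le_right
    rw [Subgroup.inf_relIndex_right] at h2 h3
    rw [hrel] at h2
    rw [mul_comm, h2, ← h3]
    exact Dvd.intro_left _ rfl
  · obtain ⟨k, hk⟩ := IsPGroup.iff_card.mp P.2
    have h1 : H.index ∣ p ^ k := hk ▸ Subgroup.index_dvd_card H
    obtain ⟨j, -, hj⟩ := (Nat.dvd_prime_pow hp).mp h1
    exact ⟨j, hj⟩
  · exact Nat.pos_of_ne_zero (Subgroup.index_ne_zero_of_finite)


/-- The classical bound for finite linear groups, in explicit form. Let the finite group G have a faithful character of degree n. Then G has an abelian normal subgroup whose index is at most n! · 12^(n·(π(n+1)+1)), π(k) denoting the number of primes not exceeding k. -/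
theorem result {G : Type*} [Group G] [Finite G] (χ : G → ℂ) (hχ : Cfsg.IsCharacter G χ) (hfaith : ∀ g : G, χ g = χ 1 → g = 1) (n : ℕ) (hn : Cfsg.charDegree χ = n) : ∃ A : Subgroup G, A.Normal ∧ (∀ x ∈ A, ∀ y ∈ A, x * y = y * x) ∧ A.index ≤ Nat.factorial n * 12 ^ (n * (Nat.primeCounting (n + 1) + 1)) := by
  classical
  obtain ⟨d, hd⟩ := Cfsg.Agent.Lib.Helper4Char2.IsCharacter.exists_degree hχ
  have hdn : d = n := by
    rw [← hn, Cfsg.charDegree, hd]
    simp
  subst hdn
  obtain ⟨A, hAn, hAab, hA⟩ := Cfsg.Agent.S4470.result χ hχ hfaith d hn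
  obtain ⟨H, hH1, hH2, hH3⟩ := Cfsg.Agent.Lib.Helper4Blich2.blichfeldt χ hχ hfaith d d hd le_rfl
  refine ⟨A, hAn, hAab, ?_⟩
  choose a b hab using local_bound χ hχ hfaith d hd A hA
  set T := (Finset.range (d + 2)).filter Nat.Prime with hT
  have hTcard : T.card = Nat.primeCounting (d + 1) := by
    rw [Nat.primeCounting, Nat.primeCounting', Nat.count_eq_card_filter_range]
  have hTp : ∀ p ∈ T, p.Prime := fun p hp => (Finset.mem_filter.mp hp).2
  have hdvd : A.index ∣ A.relIndex H * ∏ p ∈ T, a p * b p := by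
    rw [Nat.dvd_iff_prime_pow_dvd_dvd]
    intro p k hp hk
    by_cases hpT : p ∈ T
    · exact (((hab p hp).1 k hk).trans (Finset.dvd_prod_of_mem (fun p => a p * b p) hpT)).trans
        (Dvd.intro_left _ rfl)
    · have hbig : d + 1 < p := by
        by_contra h
        apply hpT
        rw [hT, Finset.mem_filter, Finset.mem_range]
        exact ⟨by omega, hp⟩
      have h1 : ¬ p ∣ H.index := fun h => by
        have := hH3 p hp h
        omega
      exact (pow_dvd_relIndex A H p k hp h1 hk).trans (Dvd.intro _ rfl)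
  have ha : ∏ p ∈ T, a p ∣ d.factorial := by
    apply Finset.prod_dvd_of_isRelPrime
    · intro p hp q hq hpq
      obtain ⟨j, hj⟩ := (hab p (hTp p hp)).2.2.1
      obtain ⟨j', hj'⟩ := (hab q (hTp q hq)).2.2.1
      simp only [Function.onFun]
      rw [hj, hj', ← Nat.coprime_iff_isRelPrime]
      exact Nat.Coprime.pow _ _ ((Nat.coprime_primes (hTp p hp) (hTp q hq)).mpr hpq)
    · intro p hp
      exact (hab p (hTp p hp)).2.1
  have ha' : ∏ p ∈ T, a p ≤ d.factorial := Nat.le_of_dvd (Nat.factorial_pos d) ha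
  have hb : ∏ p ∈ T, b p ≤ (12 ^ d) ^ T.card := by
    apply Finset.prod_le_pow_card
    intro p hp
    exact (hab p (hTp p hp)).2.2.2.1
  have hapos : 0 < ∏ p ∈ T, a p := by
    apply Finset.prod_pos
    intro p hp
    obtain ⟨j, hj⟩ := (hab p (hTp p hp)).2.2.1
    rw [hj]
    exact pow_pos (hTp p hp).pos _
  have hbpos : 0 < ∏ p ∈ T, b p := Finset.prod_pos fun p hp => (hab p (hTp p hp)).2.2.2.2
  have hJ : A.relIndex H ≤ 12 ^ d := hA H hH1
  have hJpos : 0 < A.relIndex H := Nat.pos_of_ne_zero (Subgroup.index_ne_zero_of_finite)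
  rw [Finset.prod_mul_distrib] at hdvd
  have hle := Nat.le_of_dvd (by positivity) hdvd
  calc A.index ≤ A.relIndex H * ((∏ p ∈ T, a p) * ∏ p ∈ T, b p) := hle
    _ ≤ 12 ^ d * (d.factorial * (12 ^ d) ^ T.card) :=
        Nat.mul_le_mul hJ (Nat.mul_le_mul ha' hb)
    _ = d.factorial * 12 ^ (d * (Nat.primeCounting (d + 1) + 1)) := by
        rw [hTcard, ← pow_mul, mul_add, mul_one, pow_add]
        ring

end Cfsg.Agent.S4469
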