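import Cfsg.Statements.S4475
import Cfsg.Agent.Lib.Helper4Char

set_option autoImplicit false
open Cfsg

namespace Cfsg.Agent.S4475


open Cfsg.Agent.Lib Matrix
open scoped ComplexConjugate

section aux

variable {G : Type*} [Group G] [Fintype G] {n : ℕ} (ρ : Representation ℂ G (Fin n → ℂ))

/-- the matrix of `ρ g` -/
noncomputable def X (g : G) : Matrix (Fin n) (Fin n) ℂ := LinearMap.toMatrix' (ρ g)

theorem X_mul (g h : G) : X ρ (g * h) = X ρ g * X ρ h := by
  unfold X; rw [map_mul]; exact LinearMap.toMatrix'_mul _ _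

theorem X_one : X ρ 1 = 1 := by
  unfold X; rw [map_one]; exact LinearMap.toMatrix'_one

theorem trace_X (g : G) : (X ρ g).trace = ρ.character g := by
  unfold X Representation.character
  rw [LinearMap.trace_eq_matrix_trace ℂ (Pi.basisFun ℂ (Fin n))]
  rfl

theorem mul_single_mul_apply (P Q : Matrix (Fin n) (Fin n) ℂ) (a b i j : Fin n) :
    (P * Matrix.single a b (1 : ℂ) * Q) i j = P i a * Q b j := by
  simp [Matrix.mul_apply, Matrix.single_apply, Finset.sum_ite_eq, Finset.sum_mul, ite_and]

theorem schur_matrix [ρ.IsIrreducible] (C : Matrix (Fin n) (Fin n) ℂ)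
    (hC : ∀ h, C * X ρ h = X ρ h * C) : C = (C.trace / (n : ℂ)) • (1 : Matrix (Fin n) (Fin n) ℂ) := by
  have h := Helper4Char.schur_scalar_trace ρ (Matrix.toLin' C) (by
    intro g
    have := congrArg Matrix.toLin' (hC g)
    rw [Matrix.toLin'_mul, Matrix.toLin'_mul] at this
    unfold X at this
    rw [Matrix.toLin'_toMatrix'] at this
    exact this)
  have h2 := congrArg LinearMap.toMatrix' h
  rw [LinearMap.toMatrix'_toLin', map_smul, LinearMap.toMatrix'_id, Matrix.trace_toLin'_eq,
    Module.finrank_fin_fun] at h2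
  exact h2

theorem n_ne_zero [ρ.IsIrreducible] : (n : ℂ) ≠ 0 := by
  have := Helper4Char.finrank_pos_of_irreducible ρ
  rw [Module.finrank_fin_fun] at this
  exact_mod_cast this.ne'

theorem S1 [ρ.IsIrreducible] (A : Matrix (Fin n) (Fin n) ℂ) :
    ∑ g : G, X ρ g * A * X ρ g⁻¹ = ((Fintype.card G : ℂ) * A.trace / n) • (1 : Matrix (Fin n) (Fin n) ℂ) := by
  have h := schur_matrix ρ (∑ g : G, X ρ g * A * X ρ g⁻¹) (by
    intro h
    rw [Finset.sum_mul, Finset.mul_sum, ← Equiv.sum_comp (Equiv.mulLeft h)]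
    refine Finset.sum_congr rfl fun g _ => ?_
    simp only [Equiv.coe_mulLeft, _root_.mul_inv_rev, X_mul, Matrix.mul_assoc]
    rw [← X_mul ρ h⁻¹ h, inv_mul_cancel, X_one, Matrix.mul_one])
  rw [h]
  congr 2
  rw [Matrix.trace_sum]
  have : ∀ g : G, (X ρ g * A * X ρ g⁻¹).trace = A.trace := by
    intro g
    rw [Matrix.trace_mul_comm, ← Matrix.mul_assoc, ← X_mul, inv_mul_cancel, X_one, Matrix.one_mul]
  simp [this]

theorem S2 [ρ.IsIrreducible] :
    ∑ g : G, X ρ (g * g) = ((∑ g : G, ρ.character (g * g)) / n) • (1 : Matrix (Fin n) (Fin n) ℂ) := by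
  have h := schur_matrix ρ (∑ g : G, X ρ (g * g)) (by
    intro h
    rw [Finset.sum_mul, Finset.mul_sum, ← Equiv.sum_comp (MulAut.conj h).toEquiv]
    refine Finset.sum_congr rfl fun g _ => ?_
    simp only [MulEquiv.toEquiv_eq_coe, MulEquiv.coe_toEquiv, MulAut.conj_apply, ← X_mul]
    congr 1
    group)
  rw [h]
  congr 2
  rw [Matrix.trace_sum]
  exact Finset.sum_congr rfl fun g _ => trace_X ρ _

theorem sum_sq [ρ.IsIrreducible] (hreal : ∀ g : G, (ρ.character g).im = 0) :
    ∑ g : G, ρ.character g * ρ.character g = (Fintype.card G : ℂ) := by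
  have hne : (Nat.card G : ℂ) ≠ 0 := by exact_mod_cast Nat.card_pos.ne'
  let _ : Invertible (Nat.card G : ℂ) := invertibleOfNonzero hne
  have h := Representation.char_orthonormal ρ ρ
  rw [if_pos ⟨Representation.Equiv.refl ρ⟩, inv_mul_eq_iff_eq_mul₀ hne] at h
  have h2 : ∀ g : G, ρ.character g⁻¹ = ρ.character g := by
    intro g
    rw [Helper4Eigen.char_inv]
    exact Complex.conj_eq_iff_im.2 (hreal g)
  simp only [h2] at h
  rw [h, Nat.card_eq_fintype_card]; simp

theorem transpose_eq [ρ.IsIrreducible] (M : Matrix (Fin n) (Fin n) ℂ)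
    (hM : ∀ g : G, (X ρ g).transpose * M * X ρ g = M) :
    M.transpose = ((Nat.card G : ℂ)⁻¹ * ∑ s : G, ρ.character (s * s)) • M := by
  have hcard : (Fintype.card G : ℂ) ≠ 0 := by exact_mod_cast Fintype.card_ne_zero
  have hn := n_ne_zero ρ
  have hM' : ∀ g : G, M * X ρ g⁻¹ = (X ρ g).transpose * M := by
    intro g
    conv_lhs => rw [← hM g]
    rw [Matrix.mul_assoc, ← X_mul, mul_inv_cancel, X_one, Matrix.mul_one]
  ext d b
  -- compute ((∑ X(g g))ᵀ M) d b in two ways
  have key : ((∑ g : G, X ρ (g * g)).transpose * M) d b = (Fintype.card G : ℂ) / n * M b d := by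
    have e1 : ((∑ g : G, X ρ (g * g)).transpose * M) d b
        = ∑ i : Fin n, (∑ g : G, X ρ g * (Matrix.single d i (1 : ℂ) * M) * X ρ g⁻¹) i b := by
      have : ∀ i : Fin n, (∑ g : G, X ρ g * (Matrix.single d i (1 : ℂ) * M) * X ρ g⁻¹) i b
          = ∑ g : G, X ρ g i d * ((X ρ g).transpose * M) i b := by
        intro i
        rw [Matrix.sum_apply]
        refine Finset.sum_congr rfl fun g _ => ?_
        rw [Matrix.mul_assoc, Matrix.mul_assoc, hM' g, ← Matrix.mul_assoc, mul_single_mul_apply]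
      simp only [this]
      rw [Finset.sum_comm, Matrix.transpose_sum, Finset.sum_mul, Matrix.sum_apply]
      refine Finset.sum_congr rfl fun g _ => ?_
      rw [X_mul, Matrix.transpose_mul, Matrix.mul_assoc, Matrix.mul_apply]
      rfl
    rw [e1]
    simp only [S1, Matrix.smul_apply, Matrix.one_apply, smul_eq_mul, mul_ite, mul_one, mul_zero,
      Finset.sum_ite_eq', Finset.mem_univ, if_true]
    have : (Matrix.single d b (1 : ℂ) * M).trace = M b d := by
      simp [Matrix.trace, Matrix.mul_apply, Matrix.single_apply, Finset.sum_ite_eq, ite_and]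
    rw [this]; ring
  rw [S2, Matrix.transpose_smul, Matrix.transpose_one, Matrix.smul_mul, Matrix.one_mul,
    Matrix.smul_apply, smul_eq_mul] at key
  rw [Matrix.transpose_apply, Matrix.smul_apply, smul_eq_mul, Nat.card_eq_fintype_card]
  field_simp at key ⊢
  linear_combination (-1 : ℂ) * key


theorem average_invariant (A : Matrix (Fin n) (Fin n) ℂ) (h : G) :
    (X ρ h).transpose * (∑ g : G, (X ρ g).transpose * A * X ρ g) * X ρ h
      = ∑ g : G, (X ρ g).transpose * A * X ρ g := by
  rw [Finset.mul_sum, Finset.sum_mul]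
  conv_rhs => rw [← Equiv.sum_comp (Equiv.mulRight h)]
  refine Finset.sum_congr rfl fun g _ => ?_
  simp only [Equiv.coe_mulRight, X_mul, Matrix.transpose_mul, Matrix.mul_assoc]

/-- if the indicator is nonzero there is a nonzero invariant form -/
theorem exists_invariant_of_ne_zero (hν : ∑ s : G, ρ.character (s * s) ≠ 0) :
    ∃ M : Matrix (Fin n) (Fin n) ℂ, M ≠ 0 ∧ ∀ g : G, (X ρ g).transpose * M * X ρ g = M := by
  by_contra hcon
  have hz : ∀ A : Matrix (Fin n) (Fin n) ℂ, ∑ g : G, (X ρ g).transpose * A * X ρ g = 0 := by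
    intro A
    by_contra hA
    exact hcon ⟨_, hA, average_invariant ρ A⟩
  apply hν
  have : ∀ g : G, ρ.character (g * g)
      = ∑ k : Fin n, ∑ l : Fin n, ((X ρ g).transpose * Matrix.single k l (1 : ℂ) * X ρ g) l k := by
    intro g
    simp only [mul_single_mul_apply, Matrix.transpose_apply]
    rw [← trace_X, X_mul, Matrix.trace]
    simp only [Matrix.diag_apply, Matrix.mul_apply]
  simp only [this]
  rw [Finset.sum_comm]
  refine Finset.sum_eq_zero fun k _ => ?_
  rw [Finset.sum_comm]
  refine Finset.sum_eq_zero fun l _ => ?_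
  have := congrFun (congrFun (hz (Matrix.single k l (1 : ℂ))) l) k
  rw [Matrix.sum_apply] at this
  exact this

end aux

/-- Let ρ be an irreducible representation of the finite group G on the coordinate space Fin n → ℂ whose character χ is real-valued, and let ν be the Frobenius–Schur indicator of χ (the average of χ(s²)). Writing X(g) for the matrix of ρ(g), there is a nonzero matrix M with X(g)ᵀ M X(g) = M for all g ∈ G; and every such M (zero or not) satisfies Mᵀ = ν·M. -/
theorem result {G : Type*} [Group G] [Fintype G] (n : ℕ) (ρ : Representation ℂ G (Fin n → ℂ)) (hirr : ρ.IsIrreducible) (hreal : ∀ g : G, (ρ.character g).im = 0) : (∃ M : Matrix (Fin n) (Fin n) ℂ, M ≠ 0 ∧ ∀ g : G, (LinearMap.toMatrix' (ρ g)).transpose * M * LinearMap.toMatrix' (ρ g) = M) ∧ ∀ M : Matrix (Fin n) (Fin n) ℂ, (∀ g : G, (LinearMap.toMatrix' (ρ g)).transpose * M * LinearMap.toMatrix' (ρ g) = M) → M.transpose = ((Nat.card G : ℂ)⁻¹ * ∑ s : G, ρ.character (s * s)) • M := by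
  have : ρ.IsIrreducible := hirr
  have hcard : (Fintype.card G : ℂ) ≠ 0 := by exact_mod_cast Fintype.card_ne_zero
  have hn := n_ne_zero ρ
  change (∃ M : Matrix (Fin n) (Fin n) ℂ, M ≠ 0 ∧ ∀ g : G, (X ρ g).transpose * M * X ρ g = M) ∧
    ∀ M : Matrix (Fin n) (Fin n) ℂ, (∀ g : G, (X ρ g).transpose * M * X ρ g = M) →
      M.transpose = ((Nat.card G : ℂ)⁻¹ * ∑ s : G, ρ.character (s * s)) • M
  constructor
  · by_contra hcon
    have hinv : ∀ A : Matrix (Fin n) (Fin n) ℂ, ∀ h : G,
        (X ρ h).transpose * (∑ g : G, (X ρ g).transpose * A * X ρ g) * X ρ h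
          = ∑ g : G, (X ρ g).transpose * A * X ρ g := by
      intro A h
      rw [Finset.mul_sum, Finset.sum_mul]
      conv_rhs => rw [← Equiv.sum_comp (Equiv.mulRight h)]
      refine Finset.sum_congr rfl fun g _ => ?_
      simp only [Equiv.coe_mulRight, X_mul, Matrix.transpose_mul, Matrix.mul_assoc]
    have hz : ∀ A : Matrix (Fin n) (Fin n) ℂ, ∑ g : G, (X ρ g).transpose * A * X ρ g = 0 := by
      intro A
      by_contra hA
      exact hcon ⟨_, hA, hinv A⟩
    have h1 : ∑ g : G, ρ.character g * ρ.character g = 0 := by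
      have : ∀ g : G, ρ.character g * ρ.character g
          = ∑ k : Fin n, ∑ l : Fin n, ((X ρ g).transpose * Matrix.single k l (1 : ℂ) * X ρ g) k l := by
        intro g
        simp only [mul_single_mul_apply, Matrix.transpose_apply]
        rw [← trace_X, Matrix.trace, Finset.sum_mul_sum]
        rfl
      simp only [this]
      rw [Finset.sum_comm]
      refine Finset.sum_eq_zero fun k _ => ?_
      rw [Finset.sum_comm]
      refine Finset.sum_eq_zero fun l _ => ?_
      have := congrFun (congrFun (hz (Matrix.single k l (1 : ℂ))) k) l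
      rw [Matrix.sum_apply] at this
      exact this
    rw [sum_sq ρ hreal] at h1
    exact hcard h1
  · intro M hM
    exact transpose_eq ρ M hM

end Cfsg.Agent.S4475
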