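import Cfsg.Statements.S4474
import Cfsg.Agent.S4475
import Cfsg.Agent.Lib.Helper83Char

set_option autoImplicit false
open Cfsg

namespace Cfsg.Agent.S4474


open Cfsg.Agent.Lib Matrix Cfsg.Agent.S4475
open scoped ComplexConjugate ComplexOrder

section aux

variable {n : ℕ}

/-- entrywise complex conjugate -/
noncomputable def cj (A : Matrix (Fin n) (Fin n) ℂ) : Matrix (Fin n) (Fin n) ℂ :=
  A.map (starRingEnd ℂ)

theorem cj_mul (A B : Matrix (Fin n) (Fin n) ℂ) : cj (A * B) = cj A * cj B := by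
  unfold cj; exact Matrix.map_mul

theorem cj_add (A B : Matrix (Fin n) (Fin n) ℂ) : cj (A + B) = cj A + cj B := by
  unfold cj; exact Matrix.map_add _ (fun _ _ => map_add _ _ _) _ _

theorem cj_sub (A B : Matrix (Fin n) (Fin n) ℂ) : cj (A - B) = cj A - cj B := by
  unfold cj; exact Matrix.map_sub _ (fun _ _ => map_sub _ _ _) _ _

theorem cj_one : cj (1 : Matrix (Fin n) (Fin n) ℂ) = 1 := by
  unfold cj; exact Matrix.map_one _ (map_zero _) (map_one _)

theorem cj_smul (c : ℂ) (A : Matrix (Fin n) (Fin n) ℂ) : cj (c • A) = conj c • cj A := by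
  ext i j; simp [cj]

theorem cj_cj (A : Matrix (Fin n) (Fin n) ℂ) : cj (cj A) = A := by
  ext i j; simp [cj]

theorem cj_transpose (A : Matrix (Fin n) (Fin n) ℂ) : cj A.transpose = A.conjTranspose := by
  ext i j; simp [cj, Matrix.conjTranspose_apply]

theorem cj_eq_transpose_of_isHermitian {A : Matrix (Fin n) (Fin n) ℂ} (h : A.IsHermitian) :
    cj A = A.transpose := by
  ext i j
  have := h.apply j i
  simp only [cj, Matrix.map_apply, Matrix.transpose_apply]
  exact this

theorem exists_real_det_ne_zero (A B : Matrix (Fin n) (Fin n) ℂ) (z : ℂ)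
    (hz : (A + z • B).det ≠ 0) : ∃ s : ℝ, (A + (s : ℂ) • B).det ≠ 0 := by
  let p : Polynomial ℂ := (A.map Polynomial.C + (Polynomial.X : Polynomial ℂ) • B.map Polynomial.C).det
  have hp : ∀ w : ℂ, p.eval w = (A + w • B).det := by
    intro w
    have h := RingHom.map_det (Polynomial.evalRingHom w)
      (A.map Polynomial.C + (Polynomial.X : Polynomial ℂ) • B.map Polynomial.C)
    have h2 : (Polynomial.evalRingHom w).mapMatrix
        (A.map Polynomial.C + (Polynomial.X : Polynomial ℂ) • B.map Polynomial.C) = A + w • B := by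
      ext i j
      simp
      exact mul_comm _ _
    rw [h2] at h
    exact h
  by_contra hcon
  push Not at hcon
  have h0 : p = 0 := Polynomial.eq_zero_of_infinite_isRoot p
    (Set.Infinite.mono (s := Set.range ((↑) : ℝ → ℂ))
      (by rintro _ ⟨s, rfl⟩; show p.eval _ = 0; rw [hp]; exact hcon s)
      (Set.infinite_range_of_injective Complex.ofReal_injective))
  apply hz
  rw [← hp, h0]
  simp

theorem exists_real_form {G : Type*} [Group G] [Fintype G]
    (ρ : Representation ℂ G (Fin n → ℂ)) [ρ.IsIrreducible]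
    (hν : (Nat.card G : ℂ)⁻¹ * ∑ s : G, ρ.character (s * s) = 1) :
    ∃ T : Matrix (Fin n) (Fin n) ℂ, IsUnit T.det ∧
      ∀ g, cj (T⁻¹ * X ρ g * T) = T⁻¹ * X ρ g * T := by
  have hsum_ne : ∑ s : G, ρ.character (s * s) ≠ 0 := by
    intro h; rw [h, mul_zero] at hν; exact zero_ne_one hν
  obtain ⟨M, hM0, hM⟩ := exists_invariant_of_ne_zero ρ hsum_ne
  have hMt : M.transpose = M := by rw [transpose_eq ρ M hM, hν, one_smul]
  obtain ⟨H, hH, hHinv'⟩ := Helper83Char.exists_posDef_invariant ρ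
  have hHinv : ∀ g : G, (X ρ g).conjTranspose * H * X ρ g = H := hHinv'
  have hXX : ∀ g, X ρ g * X ρ g⁻¹ = 1 := fun g => by rw [← X_mul, mul_inv_cancel, X_one]
  have h1 : ∀ g, M * X ρ g = (X ρ g⁻¹).transpose * M := by
    intro g
    calc M * X ρ g = ((X ρ g⁻¹).transpose * (X ρ g).transpose) * M * X ρ g := by
          rw [← Matrix.transpose_mul, hXX, Matrix.transpose_one, Matrix.one_mul]
      _ = (X ρ g⁻¹).transpose * ((X ρ g).transpose * M * X ρ g) := by
          simp only [Matrix.mul_assoc]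
      _ = _ := by rw [hM]
  have h2 : ∀ g, H * X ρ g = (X ρ g⁻¹).conjTranspose * H := by
    intro g
    calc H * X ρ g = ((X ρ g⁻¹).conjTranspose * (X ρ g).conjTranspose) * H * X ρ g := by
          rw [← Matrix.conjTranspose_mul, hXX, Matrix.conjTranspose_one, Matrix.one_mul]
      _ = (X ρ g⁻¹).conjTranspose * ((X ρ g).conjTranspose * H * X ρ g) := by
          simp only [Matrix.mul_assoc]
      _ = _ := by rw [hHinv]
  have hdet : IsUnit H.det := (Matrix.isUnit_iff_isUnit_det H).1 hH.isUnit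
  have h3 : ∀ g, X ρ g * H⁻¹ = H⁻¹ * (X ρ g⁻¹).conjTranspose := by
    intro g
    calc X ρ g * H⁻¹ = H⁻¹ * (H * X ρ g) * H⁻¹ := by
          rw [← Matrix.mul_assoc, Matrix.nonsing_inv_mul _ hdet, Matrix.one_mul]
      _ = H⁻¹ * (X ρ g⁻¹).conjTranspose * (H * H⁻¹) := by
          rw [h2]; simp only [Matrix.mul_assoc]
      _ = _ := by rw [Matrix.mul_nonsing_inv _ hdet, Matrix.mul_one]
  have h4 : ∀ g, cj M * cj (X ρ g) = (X ρ g⁻¹).conjTranspose * cj M := by
    intro g; rw [← cj_mul, h1, cj_mul, cj_transpose]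
  obtain ⟨S, hSdef⟩ : ∃ S, S = H⁻¹ * cj M := ⟨_, rfl⟩
  have hS : ∀ g, X ρ g * S = S * cj (X ρ g) := by
    intro g
    rw [hSdef, ← Matrix.mul_assoc, h3, Matrix.mul_assoc, ← h4, Matrix.mul_assoc]
  have hC : ∀ g, (S * cj S) * X ρ g = X ρ g * (S * cj S) := by
    intro g
    calc (S * cj S) * X ρ g = S * cj (S * cj (X ρ g)) := by
          rw [cj_mul, cj_cj, Matrix.mul_assoc]
      _ = S * cj (X ρ g * S) := by rw [hS]
      _ = (S * cj (X ρ g)) * cj S := by rw [cj_mul, Matrix.mul_assoc]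
      _ = _ := by rw [← hS, Matrix.mul_assoc]
  have hCs := schur_matrix ρ (S * cj S) hC
  obtain ⟨c, hc⟩ : ∃ c, c = (S * cj S).trace / (n : ℂ) := ⟨_, rfl⟩
  rw [← hc] at hCs
  have hcjM : cj M = M.conjTranspose := by
    have := cj_transpose M; rwa [hMt] at this
  have hK : c • H = M.conjTranspose * (H⁻¹).transpose * M := by
    have e1 : H * (S * cj S) = c • H := by rw [hCs, Matrix.mul_smul, Matrix.mul_one]
    rw [← e1, hSdef, cj_mul, cj_cj, cj_eq_transpose_of_isHermitian hH.inv.isHermitian, hcjM]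
    simp only [← Matrix.mul_assoc]
    rw [Matrix.mul_nonsing_inv _ hdet, Matrix.one_mul]
  obtain ⟨v, hv⟩ : ∃ v : Fin n → ℂ, M *ᵥ v ≠ 0 := by
    by_contra hcon
    push Not at hcon
    apply hM0
    ext i j
    have := congrFun (hcon (Pi.single j 1)) i
    simpa using this
  have hv0 : v ≠ 0 := by
    rintro rfl; simp at hv
  have ha := hH.dotProduct_mulVec_pos hv0
  have hb := hH.inv.transpose.dotProduct_mulVec_pos hv
  have hcab : c * (star v ⬝ᵥ (H *ᵥ v)) = star (M *ᵥ v) ⬝ᵥ ((H⁻¹).transpose *ᵥ (M *ᵥ v)) := by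
    have e2 : star v ⬝ᵥ ((c • H) *ᵥ v) = c * (star v ⬝ᵥ (H *ᵥ v)) := by
      rw [Matrix.smul_mulVec, dotProduct_smul, smul_eq_mul]
    rw [← e2, hK, Matrix.star_mulVec, ← Matrix.mulVec_mulVec, ← Matrix.mulVec_mulVec,
      Matrix.dotProduct_mulVec]
  have hcpos : 0 < c := by
    have : c = (star (M *ᵥ v) ⬝ᵥ ((H⁻¹).transpose *ᵥ (M *ᵥ v))) / (star v ⬝ᵥ (H *ᵥ v)) := by
      rw [← hcab, mul_div_assoc, div_self ha.ne', mul_one]
    rw [this]
    exact div_pos hb ha
  have hcre : (0 : ℝ) < c.re := (Complex.pos_iff.1 hcpos).1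
  have hcim : c = (c.re : ℂ) := by
    apply Complex.ext
    · simp
    · simp [(Complex.pos_iff.1 hcpos).2.symm]
  obtain ⟨r, hr0, hr⟩ : ∃ r : ℝ, 0 < r ∧ r * r = c.re :=
    ⟨Real.sqrt c.re, Real.sqrt_pos.2 hcre, Real.mul_self_sqrt hcre.le⟩
  have hrc : ((r : ℂ))⁻¹ * ((r : ℂ))⁻¹ * c = 1 := by
    have hr0' : (r : ℂ) ≠ 0 := by exact_mod_cast hr0.ne'
    rw [hcim, ← hr]
    push_cast
    field_simp
  obtain ⟨S', hS'def⟩ : ∃ S', S' = ((r : ℂ))⁻¹ • S := ⟨_, rfl⟩
  have hS'1 : S' * cj S' = 1 := by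
    rw [hS'def, cj_smul, Matrix.smul_mul, Matrix.mul_smul, smul_smul, hCs, smul_smul, map_inv₀,
      Complex.conj_ofReal, hrc, one_smul]
  have hS'X : ∀ g, X ρ g * S' = S' * cj (X ρ g) := by
    intro g
    rw [hS'def, Matrix.mul_smul, hS, Matrix.smul_mul]
  obtain ⟨s, hs⟩ := exists_real_det_ne_zero (1 + S') (Complex.I • (1 - S')) (-Complex.I) (by
    have : (1 + S') + (-Complex.I) • (Complex.I • (1 - S')) = (2 : ℂ) • (1 : Matrix (Fin n) (Fin n) ℂ) := by
      rw [smul_smul]
      have : -Complex.I * Complex.I = 1 := by rw [neg_mul, Complex.I_mul_I, neg_neg]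
      rw [this, one_smul, two_smul]
      abel
    rw [this, Matrix.det_smul, Matrix.det_one, mul_one]
    exact pow_ne_zero _ two_ne_zero)
  obtain ⟨T, hT⟩ : ∃ T, T = (1 + S') + (s : ℂ) • (Complex.I • (1 - S')) := ⟨_, rfl⟩
  rw [← hT] at hs
  have hTu : IsUnit T.det := isUnit_iff_ne_zero.2 hs
  have hST : S' * cj T = T := by
    rw [hT, cj_add, cj_add, cj_smul, cj_smul, cj_sub, cj_one, Complex.conj_ofReal, Complex.conj_I,
      Matrix.mul_add, Matrix.mul_add, Matrix.mul_smul, Matrix.mul_smul, Matrix.mul_sub, hS'1,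
      Matrix.mul_one]
    rw [neg_smul, ← smul_neg, neg_sub, add_comm S' 1]
  refine ⟨T, hTu, fun g => ?_⟩
  have e1 : T * (T⁻¹ * X ρ g * T) = X ρ g * T := by
    rw [← Matrix.mul_assoc, ← Matrix.mul_assoc, Matrix.mul_nonsing_inv _ hTu, Matrix.one_mul]
  have e2 : T * cj (T⁻¹ * X ρ g * T) = X ρ g * T := by
    calc T * cj (T⁻¹ * X ρ g * T) = S' * cj (T * (T⁻¹ * X ρ g * T)) := by
          rw [cj_mul T, ← Matrix.mul_assoc, hST]
      _ = S' * cj (X ρ g) * cj T := by rw [e1, cj_mul, Matrix.mul_assoc]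
      _ = X ρ g * (S' * cj T) := by rw [← hS'X, Matrix.mul_assoc]
      _ = _ := by rw [hST]
  calc cj (T⁻¹ * X ρ g * T) = T⁻¹ * (T * cj (T⁻¹ * X ρ g * T)) := by
        rw [← Matrix.mul_assoc, Matrix.nonsing_inv_mul _ hTu, Matrix.one_mul]
    _ = T⁻¹ * (T * (T⁻¹ * X ρ g * T)) := by rw [e2, e1]
    _ = _ := by rw [← Matrix.mul_assoc T⁻¹ T, Matrix.nonsing_inv_mul _ hTu, Matrix.one_mul]

/-- a multiplicative family of complex matrices with real entries gives a real representation -/
theorem exists_real_rep {G : Type*} [Group G] (Y : G → Matrix (Fin n) (Fin n) ℂ)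
    (hmul : ∀ g h, Y (g * h) = Y g * Y h) (hone : Y 1 = 1) (hreal : ∀ g, cj (Y g) = Y g) :
    ∃ σ : Representation ℝ G (Fin n → ℝ),
      ∀ g, ((LinearMap.trace ℝ (Fin n → ℝ) (σ g) : ℝ) : ℂ) = (Y g).trace := by
  let Yr : G → Matrix (Fin n) (Fin n) ℝ := fun g => (Y g).map Complex.re
  have hY : ∀ g, (Yr g).map Complex.ofRealHom = Y g := by
    intro g
    ext i j
    have := congrFun (congrFun (hreal g) i) j
    simp only [cj, Matrix.map_apply] at this
    simp only [Yr, Matrix.map_apply, Complex.ofRealHom_eq_coe]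
    exact Complex.conj_eq_iff_re.1 this
  have hinj : Function.Injective
      (fun A : Matrix (Fin n) (Fin n) ℝ => A.map Complex.ofRealHom) :=
    Matrix.map_injective Complex.ofRealHom.injective
  have hrmul : ∀ g h, Yr (g * h) = Yr g * Yr h := by
    intro g h
    apply hinj
    show (Yr (g * h)).map Complex.ofRealHom = (Yr g * Yr h).map Complex.ofRealHom
    rw [Matrix.map_mul, hY, hY, hY, hmul]
  have hrone : Yr 1 = 1 := by
    apply hinj
    show (Yr 1).map Complex.ofRealHom = (1 : Matrix (Fin n) (Fin n) ℝ).map Complex.ofRealHom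
    rw [hY, hone, Matrix.map_one _ (map_zero _) (map_one _)]
  refine ⟨{ toFun := fun g => Matrix.toLin' (Yr g)
            map_one' := by rw [hrone, Matrix.toLin'_one]; rfl
            map_mul' := fun g h => by rw [hrmul, Matrix.toLin'_mul]; rfl }, fun g => ?_⟩
  show ((LinearMap.trace ℝ (Fin n → ℝ) (Matrix.toLin' (Yr g)) : ℝ) : ℂ) = _
  rw [Matrix.trace_toLin'_eq, ← hY g]
  simp [Matrix.trace]

theorem irreducible_of_char_eq {G : Type*} [Group G] [Fintype G] {V W : Type*}
    [AddCommGroup V] [Module ℂ V] [FiniteDimensional ℂ V]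
    [AddCommGroup W] [Module ℂ W] [FiniteDimensional ℂ W]
    (ρ : Representation ℂ G V) (σ : Representation ℂ G W) [hρ : ρ.IsIrreducible]
    (h : σ.character = ρ.character) : σ.IsIrreducible := by
  have h1 := Helper4Char.classInner_char σ ρ
  rw [h, Helper4Char.classInner_irr_self (Helper4Char.isIrrCharacter_of_rep ρ)] at h1
  have h2 : Module.finrank ℂ (Representation.IntertwiningMap ρ σ) = 1 := by exact_mod_cast h1.symm
  have h3 : 0 < Module.finrank ℂ (Representation.IntertwiningMap ρ σ) := by omega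
  obtain ⟨f, hf⟩ := (Module.finrank_pos_iff_exists_ne_zero (R := ℂ)).1 h3
  have hinj : Function.Injective f :=
    (Representation.IsIrreducible.injective_or_eq_zero f).resolve_right hf
  have hdim : Module.finrank ℂ V = Module.finrank ℂ W := by
    have := congrFun h 1
    rw [Representation.char_one, Representation.char_one] at this
    exact_mod_cast this.symm
  have hsurj : Function.Surjective f.toLinearMap :=
    (LinearMap.injective_iff_surjective_of_finrank_eq_finrank hdim).1 hinj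
  exact Helper4Char.isIrreducible_of_equiv (f.ofBijective ⟨hinj, hsurj⟩) hρ

end aux

/-- Let χ be an irreducible character of the finite group G. Then the Frobenius–Schur indicator of χ (the average over s ∈ G of χ(s²)) equals 1 if and only if χ is afforded by a real representation: there is a representation of G on a real coordinate space whose trace function, viewed in ℂ, is χ. -/
theorem result {G : Type*} [Group G] [Fintype G] (χ : Cfsg.IrrCharacter G) : ((Nat.card G : ℂ)⁻¹ * ∑ s : G, (χ : G → ℂ) (s * s)) = 1 ↔ ∃ (n : ℕ) (ρ : Representation ℝ G (Fin n → ℝ)), ∀ g : G, ((LinearMap.trace ℝ (Fin n → ℝ) (ρ g) : ℝ) : ℂ) = (χ : G → ℂ) g := by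
  obtain ⟨χ, m, ρ, hirr, rfl⟩ := χ
  have : ρ.IsIrreducible := hirr
  show ((Nat.card G : ℂ)⁻¹ * ∑ s : G, ρ.character (s * s)) = 1 ↔
    ∃ (n : ℕ) (σ : Representation ℝ G (Fin n → ℝ)),
      ∀ g : G, ((LinearMap.trace ℝ (Fin n → ℝ) (σ g) : ℝ) : ℂ) = ρ.character g
  constructor
  · intro hν
    obtain ⟨T, hTu, hT⟩ := exists_real_form ρ hν
    obtain ⟨σ, hσ⟩ := exists_real_rep (fun g => T⁻¹ * X ρ g * T)
      (by
        intro g h
        show T⁻¹ * X ρ (g * h) * T = (T⁻¹ * X ρ g * T) * (T⁻¹ * X ρ h * T)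
        rw [X_mul]
        calc T⁻¹ * (X ρ g * X ρ h) * T = T⁻¹ * X ρ g * 1 * X ρ h * T := by
              simp only [Matrix.mul_assoc, Matrix.one_mul]
          _ = _ := by
              rw [← Matrix.mul_nonsing_inv _ hTu]; simp only [Matrix.mul_assoc])
      (by
        show T⁻¹ * X ρ 1 * T = 1
        rw [X_one, Matrix.mul_one, Matrix.nonsing_inv_mul _ hTu])
      hT
    refine ⟨m, σ, fun g => ?_⟩
    rw [hσ g, Matrix.trace_mul_comm, ← Matrix.mul_assoc, Matrix.mul_nonsing_inv _ hTu,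
      Matrix.one_mul, trace_X]
  · rintro ⟨n, σ, hσ⟩
    let Yr : G → Matrix (Fin n) (Fin n) ℝ := fun g => LinearMap.toMatrix' (σ g)
    have hrmul : ∀ g h, Yr (g * h) = Yr g * Yr h := by
      intro g h
      show LinearMap.toMatrix' (σ (g * h)) = _
      rw [map_mul]; exact LinearMap.toMatrix'_mul _ _
    have hrone : Yr 1 = 1 := by
      show LinearMap.toMatrix' (σ 1) = _
      rw [map_one]; exact LinearMap.toMatrix'_one
    let σc : Representation ℂ G (Fin n → ℂ) :=
      { toFun := fun g => Matrix.toLin' ((Yr g).map Complex.ofRealHom)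
        map_one' := by
          rw [hrone, Matrix.map_one _ (map_zero _) (map_one _), Matrix.toLin'_one]; rfl
        map_mul' := fun g h => by rw [hrmul, Matrix.map_mul, Matrix.toLin'_mul]; rfl }
    have hX : ∀ g, X σc g = (Yr g).map Complex.ofRealHom := by
      intro g
      show LinearMap.toMatrix' (Matrix.toLin' ((Yr g).map Complex.ofRealHom)) = _
      rw [LinearMap.toMatrix'_toLin']
    have hchar : σc.character = ρ.character := by
      funext g
      rw [← trace_X, hX, ← hσ g, LinearMap.trace_eq_matrix_trace ℝ (Pi.basisFun ℝ (Fin n))]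
      simp [Matrix.trace, Yr, LinearMap.toMatrix_eq_toMatrix']
    have hirrc : σc.IsIrreducible := irreducible_of_char_eq ρ σc hchar
    have hinv := average_invariant σc 1
    have ht := transpose_eq σc _ hinv
    rw [hchar] at ht
    have hsymm : (∑ g : G, (X σc g).transpose * 1 * X σc g).transpose
        = ∑ g : G, (X σc g).transpose * 1 * X σc g := by
      rw [Matrix.transpose_sum]
      refine Finset.sum_congr rfl fun g _ => ?_
      rw [Matrix.mul_one, Matrix.transpose_mul, Matrix.transpose_transpose]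
    rw [hsymm] at ht
    have hn : 0 < n := by
      have := Helper4Char.finrank_pos_of_irreducible σc
      rwa [Module.finrank_fin_fun] at this
    have hentry : (∑ g : G, (X σc g).transpose * 1 * X σc g : Matrix (Fin n) (Fin n) ℂ) ⟨0, hn⟩ ⟨0, hn⟩ ≠ 0 := by
      have e : (∑ g : G, (X σc g).transpose * 1 * X σc g : Matrix (Fin n) (Fin n) ℂ) ⟨0, hn⟩ ⟨0, hn⟩
          = ((∑ g : G, ∑ k : Fin n, Yr g k ⟨0, hn⟩ * Yr g k ⟨0, hn⟩ : ℝ) : ℂ) := by
        rw [Matrix.sum_apply]
        push_cast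
        refine Finset.sum_congr rfl fun g _ => ?_
        rw [Matrix.mul_one, Matrix.mul_apply, hX]
        simp
      rw [e]
      have hpos : (0 : ℝ) < ∑ g : G, ∑ k : Fin n, Yr g k ⟨0, hn⟩ * Yr g k ⟨0, hn⟩ := by
        refine Finset.sum_pos' (fun g _ => Finset.sum_nonneg fun k _ => mul_self_nonneg _)
          ⟨1, Finset.mem_univ _, ?_⟩
        refine Finset.sum_pos' (fun k _ => mul_self_nonneg _) ⟨⟨0, hn⟩, Finset.mem_univ _, ?_⟩
        rw [hrone]; simp
      exact_mod_cast hpos.ne'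
    have h5 := congrFun (congrFun ht ⟨0, hn⟩) ⟨0, hn⟩
    rw [Matrix.smul_apply, smul_eq_mul] at h5
    have h6 := mul_right_cancel₀ hentry ((one_mul _).trans h5)
    exact h6.symm

end Cfsg.Agent.S4474
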