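import Cfsg.Statements.S4478
import Cfsg.Agent.S0165
import Cfsg.Agent.Lib.Helper83FS
import Cfsg.Agent.Lib.Helper82Irr
import Cfsg.Agent.Lib.Helper82Linear
import Cfsg.Agent.Lib.Helper4Char2

set_option autoImplicit false
open Cfsg

namespace Cfsg.Agent.S4478

open Cfsg.Agent.Lib

section aux

variable {G : Type*} [Group G] [Fintype G]

/-- vanishing on `p`-singular elements of characters of `p`-defect zero -/
theorem vanish (χ : Cfsg.IrrCharacter G) (p : ℕ) (hp : p.Prime)
    (h : p ^ (Nat.card G).factorization p ∣ Cfsg.charDegree (χ : G → ℂ)) (y : G)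
    (hy : p ∣ orderOf y) : (χ : G → ℂ) y = 0 := by
  obtain ⟨χ, n, ρ, hρ, rfl⟩ := χ
  have := hρ
  have hdeg : Cfsg.charDegree ρ.character = n := by
    rw [Cfsg.charDegree, Representation.char_one, Module.finrank_fin_fun]; simp
  simp only at h ⊢
  rw [hdeg] at h
  exact Cfsg.Agent.S0165.result ρ p _ hp (Nat.ordProj_dvd _ _)
    (Nat.pow_succ_factorization_not_dvd Nat.card_pos.ne' hp)
    (by rw [Module.finrank_fin_fun]; exact h) y hy

/-- an involution commuting with an element of odd order `> 1` gives an element of order `2 p` -/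
theorem exists_order_two_mul {s h : G} (hs : orderOf s = 2) (hc : Commute s h)
    {p : ℕ} (_hp : p.Prime) (_hp2 : p ≠ 2) (hodd : Odd (orderOf h)) (hph : p ∣ orderOf h) :
    ∃ g : G, orderOf g = 2 * p := by
  have hcop : (orderOf s).Coprime (orderOf h) := by
    rw [hs]; exact (Nat.coprime_two_left).2 hodd
  have h1 : orderOf (s * h) = 2 * orderOf h := by
    rw [hc.orderOf_mul_eq_mul_orderOf_of_coprime hcop, hs]
  obtain ⟨k, hk⟩ := hph
  have hk0 : k ≠ 0 := by
    rintro rfl
    rw [mul_zero] at hk
    exact (orderOf_pos h).ne' hk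
  refine ⟨(s * h) ^ k, ?_⟩
  rw [orderOf_pow_of_dvd hk0 (by rw [h1, hk]; exact ⟨2 * p, by ring⟩), h1, hk]
  rw [show 2 * (p * k) = 2 * p * k by ring, Nat.mul_div_cancel _ (Nat.pos_of_ne_zero hk0)]

end aux

/-- Let G be a finite group of even order and χ an irreducible character of G whose degree x is divisible by the full power of 2 dividing the order of G and, for every odd prime p such that G has an element of order 2p, by the full power of p dividing the order of G. Then all involutions of G are conjugate, the centralizer of every involution has order exactly x with x coprime to its index, and the Frobenius–Schur indicator of χ equals 1. -/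
theorem result {G : Type*} [Group G] [Fintype G] (heven : Even (Nat.card G)) (χ : Cfsg.IrrCharacter G) (h2 : 2 ^ (Nat.card G).factorization 2 ∣ Cfsg.charDegree (χ : G → ℂ)) (hp : ∀ p : ℕ, p.Prime → p ≠ 2 → (∃ g : G, orderOf g = 2 * p) → p ^ (Nat.card G).factorization p ∣ Cfsg.charDegree (χ : G → ℂ)) : (∀ s t : G, orderOf s = 2 → orderOf t = 2 → IsConj s t) ∧ (∀ s : G, orderOf s = 2 → Nat.card (Subgroup.centralizer ({s} : Set G)) = Cfsg.charDegree (χ : G → ℂ) ∧ (Nat.card (Subgroup.centralizer ({s} : Set G))).Coprime (Subgroup.centralizer ({s} : Set G)).index) ∧ (Nat.card G : ℂ)⁻¹ * ∑ g : G, (χ : G → ℂ) (g * g) = 1 := by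
  classical
  obtain ⟨x, hx⟩ : ∃ x, x = Cfsg.charDegree (χ : G → ℂ) := ⟨_, rfl⟩
  rw [← hx] at h2 hp ⊢
  have hx1 : (x : ℂ) = (χ : G → ℂ) 1 := by rw [hx]; exact Helper82Irr.irr_charDegree_cast χ
  have hxpos : 0 < x := by rw [hx]; exact Helper82Irr.irr_charDegree_pos χ
  have hg0 : Nat.card G ≠ 0 := Nat.card_pos.ne'
  have hgC : (Nat.card G : ℂ) ≠ 0 := by exact_mod_cast hg0
  have h2g : 2 ∣ Nat.card G := even_iff_two_dvd.1 heven
  have hv2 : ∀ y : G, 2 ∣ orderOf y → (χ : G → ℂ) y = 0 :=
    fun y hy => vanish χ 2 Nat.prime_two (hx ▸ h2) y hy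
  have hvp : ∀ p : ℕ, p.Prime → p ≠ 2 → (∃ g : G, orderOf g = 2 * p) →
      ∀ y : G, p ∣ orderOf y → (χ : G → ℂ) y = 0 :=
    fun p hpp hp2 hex y hy => vanish χ p hpp (hx ▸ hp p hpp hp2 hex) y hy
  -- x is even
  have hxeven : 2 ∣ x := by
    refine dvd_trans ?_ h2
    apply dvd_pow_self
    have := (Nat.prime_two.dvd_iff_one_le_factorization hg0).1 h2g
    omega
  -- sum of χ vanishes
  have hsum0 : ∑ g : G, (χ : G → ℂ) g = 0 := by
    have hne : (χ : G → ℂ) ≠ fun _ => 1 := by
      intro h
      have : (x : ℂ) = 1 := by rw [hx1, h]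
      have : x = 1 := by exact_mod_cast this
      omega
    have := Helper83Char.irr_sum_mul_inv_ne χ.2 Helper82Linear.isIrrCharacter_one hne
    simpa using this
  -- uniqueness of square roots
  have huniq : ∀ a h : G, a * a = h → h ≠ 1 → (χ : G → ℂ) h ≠ 0 →
      a = h ^ ((orderOf h + 1) / 2) := by
    intro a h hah h1 hχh
    have hodd : Odd (orderOf h) := by
      rw [← Nat.not_even_iff_odd, even_iff_two_dvd]
      exact fun h2 => hχh (hv2 h h2)
    obtain ⟨m, hm⟩ := hodd
    have hk : (orderOf h + 1) / 2 = m + 1 := by omega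
    rw [hk]
    obtain ⟨k, hkdef⟩ : ∃ k, k = h ^ (m + 1) := ⟨_, rfl⟩
    have hkk : k * k = h := by
      rw [hkdef, ← pow_add, show m + 1 + (m + 1) = orderOf h + 1 by omega, pow_succ,
        pow_orderOf_eq_one, one_mul]
    have hcah : Commute a h := by rw [← hah]; exact (Commute.refl a).mul_right (Commute.refl a)
    have hcak : Commute a k := by rw [hkdef]; exact hcah.pow_right _
    by_contra hne
    rw [← hkdef] at hne
    obtain ⟨s, hsdef⟩ : ∃ s, s = a * k⁻¹ := ⟨_, rfl⟩
    have hs1 : s ≠ 1 := by
      intro h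
      rw [hsdef, mul_inv_eq_one] at h
      exact hne h
    have hss : s ^ 2 = 1 := by
      rw [hsdef, (hcak.inv_right).mul_pow, pow_two, pow_two, hah, ← mul_inv_rev, hkk, mul_inv_cancel]
    have hs2 : orderOf s = 2 := orderOf_eq_prime hss hs1
    have hcsh : Commute s h := by
      rw [hsdef]
      apply Commute.mul_left hcah
      apply Commute.inv_left
      rw [hkdef]
      exact (Commute.refl h).pow_left _
    have hne1 : orderOf h ≠ 1 := by rw [Ne, orderOf_eq_one_iff]; exact h1
    obtain ⟨p, hpp, hph⟩ := Nat.exists_prime_and_dvd hne1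
    have hp2 : p ≠ 2 := by
      rintro rfl
      exact hχh (hv2 h hph)
    exact hχh (hvp p hpp hp2 (exists_order_two_mul hs2 hcsh hpp hp2 ⟨m, hm⟩ hph) h hph)
  -- the sum of χ (g * g)
  have hsplit : ∑ g : G, (χ : G → ℂ) (g * g)
      = ∑ g ∈ Finset.univ.filter (fun g : G => g * g = 1), (χ : G → ℂ) (g * g)
        + ∑ g ∈ Finset.univ.filter (fun g : G => ¬ g * g = 1), (χ : G → ℂ) (g * g) :=
    (Finset.sum_filter_add_sum_filter_not _ _ _).symm
  have hsplit0 : ∑ g : G, (χ : G → ℂ) g
      = ∑ g ∈ Finset.univ.filter (fun g : G => g = 1), (χ : G → ℂ) g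
        + ∑ g ∈ Finset.univ.filter (fun g : G => ¬ g = 1), (χ : G → ℂ) g :=
    (Finset.sum_filter_add_sum_filter_not _ _ _).symm
  have hbij : ∑ g ∈ Finset.univ.filter (fun g : G => ¬ g * g = 1), (χ : G → ℂ) (g * g)
      = ∑ g ∈ Finset.univ.filter (fun g : G => ¬ g = 1), (χ : G → ℂ) g := by
    apply Finset.sum_bij_ne_zero (fun a _ _ => a * a)
    · intro a ha _
      simpa using ha
    · intro a ha hane b hb hbne hab
      simp only [Finset.mem_filter, Finset.mem_univ, true_and] at ha hb
      rw [huniq a (a * a) rfl ha hane, huniq b (a * a) hab.symm ha hane]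
    · intro h hh hne
      simp only [Finset.mem_filter, Finset.mem_univ, true_and] at hh
      have hodd : Odd (orderOf h) := by
        rw [← Nat.not_even_iff_odd, even_iff_two_dvd]
        exact fun h2 => hne (hv2 h h2)
      obtain ⟨m, hm⟩ := hodd
      have hkk : h ^ (m + 1) * h ^ (m + 1) = h := by
        rw [← pow_add, show m + 1 + (m + 1) = orderOf h + 1 by omega, pow_succ,
          pow_orderOf_eq_one, one_mul]
      refine ⟨h ^ (m + 1), ?_, ?_, hkk⟩
      · simp only [Finset.mem_filter, Finset.mem_univ, true_and]; rw [hkk]; exact hh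
      · rw [hkk]; exact hne
    · intro a _ _; rfl
  obtain ⟨t, ht⟩ : ∃ t, t = Nat.card {y : G // orderOf y = 2} := ⟨_, rfl⟩
  have hcard1 : (Finset.univ.filter (fun g : G => g * g = 1)).card = t + 1 := by
    have e : Finset.univ.filter (fun g : G => g * g = 1)
        = insert 1 (Finset.univ.filter (fun g : G => orderOf g = 2)) := by
      ext g
      simp only [Finset.mem_filter, Finset.mem_univ, true_and, Finset.mem_insert]
      constructor
      · intro h
        by_cases h1 : g = 1
        · exact Or.inl h1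
        · exact Or.inr (orderOf_eq_prime (by rw [pow_two]; exact h) h1)
      · rintro (rfl | h)
        · simp
        · rw [← pow_two, ← h, pow_orderOf_eq_one]
    rw [e, Finset.card_insert_of_notMem (by simp), ht, Nat.card_eq_fintype_card,
      Fintype.card_subtype]
  have hS : ∑ g : G, (χ : G → ℂ) (g * g) = (t : ℂ) * x := by
    have e1 : ∑ g ∈ Finset.univ.filter (fun g : G => g * g = 1), (χ : G → ℂ) (g * g)
        = ((t : ℂ) + 1) * x := by
      rw [Finset.sum_congr rfl (g := fun _ => (x : ℂ))]
      · rw [Finset.sum_const, hcard1, nsmul_eq_mul]; push_cast; ring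
      · intro g hg
        simp only [Finset.mem_filter, Finset.mem_univ, true_and] at hg
        rw [hg, hx1]
    have e2 : ∑ g ∈ Finset.univ.filter (fun g : G => g = 1), (χ : G → ℂ) g = x := by
      rw [Finset.filter_eq' Finset.univ (1 : G), if_pos (Finset.mem_univ _), Finset.sum_singleton, hx1]
    rw [hsplit, e1, hbij]
    rw [hsum0, e2] at hsplit0
    linear_combination -hsplit0
  -- an involution exists
  have : Fact (Nat.Prime 2) := ⟨Nat.prime_two⟩
  obtain ⟨s0, hs0⟩ := exists_prime_orderOf_dvd_card' (G := G) 2 h2g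
  have htpos : 0 < t := by
    rw [ht]
    have : Nonempty {y : G // orderOf y = 2} := ⟨⟨s0, hs0⟩⟩
    exact Nat.card_pos
  -- indicator equals 1
  have hfs := (Helper83FS.irr_fs χ.2).1
  rw [hS] at hfs
  have hpos : (0 : ℝ) < (Nat.card G : ℝ)⁻¹ * ((t : ℝ) * x) := by positivity
  have hcast : ((Nat.card G : ℂ)⁻¹ * ((t : ℂ) * x)) = (((Nat.card G : ℝ)⁻¹ * ((t : ℝ) * x) : ℝ) : ℂ) := by
    push_cast; ring
  have hnu : (Nat.card G : ℂ)⁻¹ * ((t : ℂ) * x) = 1 := by
    rcases hfs with h | h | h
    · rw [hcast] at h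
      have : (Nat.card G : ℝ)⁻¹ * ((t : ℝ) * x) = 0 := by exact_mod_cast h
      linarith
    · exact h
    · rw [hcast] at h
      have : (Nat.card G : ℝ)⁻¹ * ((t : ℝ) * x) = -1 := by exact_mod_cast h
      linarith
  have htx : t * x = Nat.card G := by
    have : (t : ℂ) * x = Nat.card G := by
      field_simp at hnu
      exact hnu
    exact_mod_cast this
  -- centralizers of involutions
  have hfull : ∀ s : G, orderOf s = 2 → ∀ p : ℕ, p.Prime →
      p ∣ Nat.card (Subgroup.centralizer ({s} : Set G)) → p ^ (Nat.card G).factorization p ∣ x := by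
    intro s hs p hpp hpC
    by_cases hp2 : p = 2
    · subst hp2; exact h2
    · have : Fact p.Prime := ⟨hpp⟩
      obtain ⟨⟨h, hh⟩, hho⟩ := exists_prime_orderOf_dvd_card' (G := Subgroup.centralizer ({s} : Set G)) p hpC
      have hho' : orderOf h = p := by rw [← hho]; exact (Subgroup.orderOf_mk h hh).symm
      have hcomm : Commute s h := by
        rw [Subgroup.mem_centralizer_singleton_iff] at hh
        exact hh.symm
      apply hp p hpp hp2
      apply exists_order_two_mul hs hcomm hpp hp2 _ (by rw [hho'])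
      rw [hho']
      exact hpp.odd_of_ne_two hp2
  have hCdvd : ∀ s : G, orderOf s = 2 → Nat.card (Subgroup.centralizer ({s} : Set G)) ∣ x := by
    intro s hs
    rw [← Nat.factorization_prime_le_iff_dvd Nat.card_pos.ne' hxpos.ne']
    intro p hpp
    by_cases hpC : p ∣ Nat.card (Subgroup.centralizer ({s} : Set G))
    · have h1 := hfull s hs p hpp hpC
      have h2 : (Nat.card (Subgroup.centralizer ({s} : Set G))).factorization p
          ≤ (Nat.card G).factorization p :=
        (Nat.factorization_le_iff_dvd Nat.card_pos.ne' hg0).2 (Subgroup.card_subgroup_dvd_card _) p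
      exact h2.trans ((hpp.pow_dvd_iff_le_factorization hxpos.ne').1 h1)
    · rw [Nat.factorization_eq_zero_of_not_dvd hpC]; exact Nat.zero_le _
  have hsub : ∀ s : G, orderOf s = 2 → ∀ y : G, IsConj s y → orderOf y = 2 := by
    intro s hs y hy
    obtain ⟨c, hc⟩ := isConj_iff.1 hy
    rw [← hc]
    have := orderOf_injective (MulAut.conj c).toMonoidHom (MulAut.conj c).injective s
    simpa [hs] using this
  have hle : ∀ s : G, orderOf s = 2 → (Subgroup.centralizer ({s} : Set G)).index ≤ t := by
    intro s hs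
    rw [← Helper4Char2.card_isConj_eq_index, ht]
    exact Nat.card_le_card_of_injective
      (fun y : {y // IsConj s y} => (⟨y.1, hsub s hs y.1 y.2⟩ : {y : G // orderOf y = 2}))
      (fun a b h => Subtype.ext (congrArg (fun z : {y : G // orderOf y = 2} => z.1) h))
  have hCeq : ∀ s : G, orderOf s = 2 → Nat.card (Subgroup.centralizer ({s} : Set G)) = x := by
    intro s hs
    apply le_antisymm (Nat.le_of_dvd hxpos (hCdvd s hs))
    have h1 := Subgroup.card_mul_index (Subgroup.centralizer ({s} : Set G))
    have h2 := hle s hs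
    by_contra hlt
    push Not at hlt
    have : Nat.card (Subgroup.centralizer ({s} : Set G)) * (Subgroup.centralizer ({s} : Set G)).index
        < x * t := by
      calc _ ≤ Nat.card (Subgroup.centralizer ({s} : Set G)) * t := Nat.mul_le_mul_left _ h2
        _ < x * t := Nat.mul_lt_mul_of_pos_right hlt htpos
    rw [h1, mul_comm x t, htx] at this
    exact lt_irrefl _ this
  have hidx : ∀ s : G, orderOf s = 2 → (Subgroup.centralizer ({s} : Set G)).index = t := by
    intro s hs
    have h1 := Subgroup.card_mul_index (Subgroup.centralizer ({s} : Set G))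
    rw [hCeq s hs, ← htx, mul_comm t x] at h1
    exact Nat.eq_of_mul_eq_mul_left hxpos h1
  refine ⟨?_, ?_, ?_⟩
  · intro s u hs hu
    have hinj : Function.Injective
        (fun y : {y // IsConj s y} => (⟨y.1, hsub s hs y.1 y.2⟩ : {y : G // orderOf y = 2})) :=
      fun a b h => Subtype.ext (congrArg (fun z : {y : G // orderOf y = 2} => z.1) h)
    have hcard : Nat.card {y // IsConj s y} = Nat.card {y : G // orderOf y = 2} := by
      rw [Helper4Char2.card_isConj_eq_index, hidx s hs, ht]
    have hbij := hinj.bijective_of_nat_card_le hcard.ge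
    obtain ⟨⟨y, hy⟩, hyu⟩ := hbij.2 ⟨u, hu⟩
    have : y = u := congrArg (fun z : {y : G // orderOf y = 2} => z.1) hyu
    rw [← this]; exact hy
  · intro s hs
    refine ⟨hCeq s hs, ?_⟩
    apply Nat.coprime_of_dvd
    intro p hpp hpC hpI
    have h1 := hfull s hs p hpp hpC
    rw [← hCeq s hs] at h1
    have h3 : p ^ ((Nat.card G).factorization p + 1) ∣ Nat.card G := by
      have h4 := Nat.mul_dvd_mul h1 hpI
      rw [Subgroup.card_mul_index (Subgroup.centralizer ({s} : Set G))] at h4
      rw [pow_succ]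
      exact h4
    exact Nat.pow_succ_factorization_not_dvd hg0 hpp h3
  · rw [hS]; exact hnu

end Cfsg.Agent.S4478
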