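import Cfsg.Statements.S4479
import Cfsg.Agent.Lib.Helper78Klein4

set_option autoImplicit false
open Cfsg

namespace Cfsg.Agent.S4479

/-- An order formula from the principal 2-block. Let G be a finite group of order 4·g₀ with g₀ odd having no normal 2-complement (no normal subgroup of order g₀); let P be a Sylow 2-subgroup, J an involution of P, and fix a maximal ideal M of the algebraic integers containing 2. Suppose the principal 2-block consists of the principal character and three further distinct characters χ₁, χ₂, χ₃ of degrees x₁, x₂, x₃, with χ_i(J) = ε_i = ±1. Then, writing c(J) and c(P) for the orders of the centralizers of J and of P, the order of G equals 8·α·c(J)³/c(P)² with α = x₁x₂x₃ / ((x₁ + ε₁)(x₂ + ε₂)(x₃ + ε₃)). -/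
theorem result {G : Type*} [Group G] [Finite G] (M : Ideal Cfsg.AlgInt) (hM : Cfsg.IsPModular 2 M) (g₀ : ℕ) (hg₀ : Odd g₀) (hG : Nat.card G = 4 * g₀) (hnc : ¬ ∃ N : Subgroup G, N.Normal ∧ Nat.card N = g₀) (P : Sylow 2 G) (J : G) (hJ : J ∈ (P : Subgroup G)) (hJ2 : orderOf J = 2) (χ₁ χ₂ χ₃ : Cfsg.IrrCharacter G) (ε₁ ε₂ ε₃ : ℤ) (hB : Cfsg.principalBlock M G = {χ : Cfsg.IrrCharacter G | (χ : G → ℂ) = (fun _ => 1) ∨ χ = χ₁ ∨ χ = χ₂ ∨ χ = χ₃}) (hdist : (χ₁ : G → ℂ) ≠ (fun _ => 1) ∧ (χ₂ : G → ℂ) ≠ (fun _ => 1) ∧ (χ₃ : G → ℂ) ≠ (fun _ => 1) ∧ χ₁ ≠ χ₂ ∧ χ₁ ≠ χ₃ ∧ χ₂ ≠ χ₃) (hε : (ε₁ = 1 ∨ ε₁ = -1) ∧ (ε₂ = 1 ∨ ε₂ = -1) ∧ (ε₃ = 1 ∨ ε₃ = -1)) (hval : (χ₁ : G → ℂ) J = ε₁ ∧ (χ₂ : G → ℂ) J = ε₂ ∧ (χ₃ : G → ℂ) J = ε₃) : (Nat.card G : ℚ) = 8 * (((Cfsg.charDegree (χ₁ : G → ℂ) : ℚ) * Cfsg.charDegree (χ₂ : G → ℂ) * Cfsg.charDegree (χ₃ : G → ℂ)) / ((Cfsg.charDegree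 (χ₁ : G → ℂ) + ε₁) * (Cfsg.charDegree (χ₂ : G → ℂ) + ε₂) * (Cfsg.charDegree (χ₃ : G → ℂ) + ε₃))) * (Nat.card (Subgroup.centralizer ({J} : Set G)) : ℚ) ^ 3 / (Nat.card (Subgroup.centralizer ((P : Subgroup G) : Set G)) : ℚ) ^ 2 := by
  obtain ⟨hP, hone⟩ := Cfsg.Agent.Lib.Helper78Klein4.klein_of_no_compl g₀ hg₀ hG hnc P
  obtain ⟨r1, r2⟩ := Cfsg.Agent.Lib.Helper78Klein4.klein_relations hM P hP hone hJ hJ2 χ₁ χ₂ χ₃
    ε₁ ε₂ ε₃ hB hdist hε hval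
  have p1 := Cfsg.Agent.Lib.Helper81Base.charDegree_pos χ₁
  have p2 := Cfsg.Agent.Lib.Helper81Base.charDegree_pos χ₂
  have p3 := Cfsg.Agent.Lib.Helper81Base.charDegree_pos χ₃
  have pc : 0 < Nat.card (Subgroup.centralizer ({J} : Set G)) := Nat.card_pos
  have pd : 0 < Nat.card (Subgroup.centralizer ((P : Subgroup G) : Set G)) := Nat.card_pos
  generalize Cfsg.charDegree (χ₁ : G → ℂ) = x₁ at *
  generalize Cfsg.charDegree (χ₂ : G → ℂ) = x₂ at *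
  generalize Cfsg.charDegree (χ₃ : G → ℂ) = x₃ at *
  generalize Nat.card (Subgroup.centralizer ({J} : Set G)) = c at *
  generalize Nat.card (Subgroup.centralizer ((P : Subgroup G) : Set G)) = d at *
  generalize Nat.card G = a at *
  have s1 : ε₁ * ε₁ = 1 := by rcases hε.1 with h | h <;> rw [h] <;> norm_num
  have s2 : ε₂ * ε₂ = 1 := by rcases hε.2.1 with h | h <;> rw [h] <;> norm_num
  have s3 : ε₃ * ε₃ = 1 := by rcases hε.2.2 with h | h <;> rw [h] <;> norm_num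
  have hprod : ((x₁ : ℤ) + ε₁) * (x₂ + ε₂) * (x₃ + ε₃)
      = (x₁ : ℤ) * x₂ * x₃ + ε₁ * x₂ * x₃ + ε₂ * x₁ * x₃ + ε₃ * x₁ * x₂ := by
    linear_combination (ε₁ * ε₂ * ε₃) * r1 - (ε₂ * ε₃ * x₁) * s1 - (ε₁ * ε₃ * x₂) * s2
      - (ε₁ * ε₂ * x₃) * s3
  rw [← hprod] at r2
  have hne : ((x₁ : ℤ) + ε₁) * (x₂ + ε₂) * (x₃ + ε₃) ≠ 0 := by
    intro h
    rw [h, mul_zero] at r2
    have : (0 : ℤ) < 8 * (c : ℤ) ^ 3 * ((x₁ : ℤ) * x₂ * x₃) := by positivity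
    omega
  have r2q : (a : ℚ) * (d : ℚ) ^ 2 * (((x₁ : ℚ) + ε₁) * (x₂ + ε₂) * (x₃ + ε₃))
      = 8 * (c : ℚ) ^ 3 * ((x₁ : ℚ) * x₂ * x₃) := by exact_mod_cast r2
  have hneq : ((x₁ : ℚ) + ε₁) * (x₂ + ε₂) * (x₃ + ε₃) ≠ 0 := by exact_mod_cast hne
  have hd : (d : ℚ) ≠ 0 := by positivity
  have n3 := (mul_ne_zero_iff.1 hneq).2
  have n1 := (mul_ne_zero_iff.1 (mul_ne_zero_iff.1 hneq).1).1
  have n2 := (mul_ne_zero_iff.1 (mul_ne_zero_iff.1 hneq).1).2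
  field_simp
  linear_combination r2q

end Cfsg.Agent.S4479
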