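import Cfsg.Statements.S4480
import Cfsg.Agent.Lib.Helper78Klein5

set_option autoImplicit false
open Cfsg

namespace Cfsg.Agent.S4480

/-- Same setting as the Klein-four order formula: G of order 4·g₀ (g₀ odd) with no normal 2-complement, P a Sylow 2-subgroup, J an involution of P, M over 2, principal 2-block {1, χ₁, χ₂, χ₃} with χ_i(J) = ε_i = ±1. Suppose ε₁ε₂ε₃ = −1 and ε₃ = −1, and put q = x₃ = χ₃(1). Then there is a natural number m with 4·c(J) = m·c(P)·(q + 1), and the order of G equals (m³·c(P)/4)·(q³ − q)/2, that is 8·#G = m³·c(P)·(q³ − q). -/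
theorem result {G : Type*} [Group G] [Finite G] (M : Ideal Cfsg.AlgInt) (hM : Cfsg.IsPModular 2 M) (g₀ : ℕ) (hg₀ : Odd g₀) (hG : Nat.card G = 4 * g₀) (hnc : ¬ ∃ N : Subgroup G, N.Normal ∧ Nat.card N = g₀) (P : Sylow 2 G) (J : G) (hJ : J ∈ (P : Subgroup G)) (hJ2 : orderOf J = 2) (χ₁ χ₂ χ₃ : Cfsg.IrrCharacter G) (ε₁ ε₂ ε₃ : ℤ) (hB : Cfsg.principalBlock M G = {χ : Cfsg.IrrCharacter G | (χ : G → ℂ) = (fun _ => 1) ∨ χ = χ₁ ∨ χ = χ₂ ∨ χ = χ₃}) (hdist : (χ₁ : G → ℂ) ≠ (fun _ => 1) ∧ (χ₂ : G → ℂ) ≠ (fun _ => 1) ∧ (χ₃ : G → ℂ) ≠ (fun _ => 1) ∧ χ₁ ≠ χ₂ ∧ χ₁ ≠ χ₃ ∧ χ₂ ≠ χ₃) (hε : (ε₁ = 1 ∨ ε₁ = -1) ∧ (ε₂ = 1 ∨ ε₂ = -1) ∧ (ε₃ = 1 ∨ ε₃ = -1)) (hval : (χ₁ : G → ℂ) J = ε₁ ∧ (χ₂ : G → ℂ) J = ε₂ ∧ (χ₃ : G → ℂ) J = ε₃) (hprod : ε₁ * ε₂ * ε₃ = -1) (hε₃ : ε₃ = -1) : ∃ m : ℕ, 4 * Nat.card (Subgroup.centralizer ({J} : Set G)) = m * Nat.card (Subgroup.centralizer ((P :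 Subgroup G) : Set G)) * (Cfsg.charDegree (χ₃ : G → ℂ) + 1) ∧ 8 * Nat.card G = m ^ 3 * Nat.card (Subgroup.centralizer ((P : Subgroup G) : Set G)) * (Cfsg.charDegree (χ₃ : G → ℂ) ^ 3 - Cfsg.charDegree (χ₃ : G → ℂ)) := by
  classical
  have := Fintype.ofFinite G
  obtain ⟨hP, hone⟩ := Cfsg.Agent.Lib.Helper78Klein4.klein_of_no_compl g₀ hg₀ hG hnc P
  obtain ⟨r1, r2⟩ := Cfsg.Agent.Lib.Helper78Klein4.klein_relations hM P hP hone hJ hJ2 χ₁ χ₂ χ₃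
    ε₁ ε₂ ε₃ hB hdist hε hval
  have p1 := Cfsg.Agent.Lib.Helper81Base.charDegree_pos χ₁
  have p2 := Cfsg.Agent.Lib.Helper81Base.charDegree_pos χ₂
  have p3 := Cfsg.Agent.Lib.Helper81Base.charDegree_pos χ₃
  -- the signs
  have hsign : ε₁ = 1 ∧ ε₂ = 1 := by
    rcases hε.1 with h1 | h1 <;> rcases hε.2.1 with h2 | h2
    · exact ⟨h1, h2⟩
    · rw [h1, h2, hε₃] at hprod; norm_num at hprod
    · rw [h1, h2, hε₃] at hprod; norm_num at hprod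
    · rw [h1, h2, hε₃] at r1
      omega
  obtain ⟨s1, s2⟩ := hsign
  subst s1 s2 hε₃
  have v1 : (χ₁ : G → ℂ) J = 1 := by rw [hval.1]; norm_num
  have v2 : (χ₂ : G → ℂ) J = 1 := by rw [hval.2.1]; norm_num
  have v3 : (χ₃ : G → ℂ) J = -1 := by rw [hval.2.2]; norm_num
  have hdeg := Cfsg.Agent.Lib.Helper78Klein5.deg_eq hM P hP hJ hJ2 χ₁ χ₂ χ₃ hB hdist v1 v2 v3
  have hd1 := Cfsg.Agent.Lib.Helper78Klein5.deg_dvd_index χ₁ (Or.inl v1)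
  have hd3 := Cfsg.Agent.Lib.Helper78Klein5.deg_dvd_index χ₃ (Or.inr v3)
  have hidx := Subgroup.index_mul_card (Subgroup.centralizer ({J} : Set G))
  have pc : 0 < Nat.card (Subgroup.centralizer ({J} : Set G)) := Nat.card_pos
  have pd : 0 < Nat.card (Subgroup.centralizer ((P : Subgroup G) : Set G)) := Nat.card_pos
  rw [← hdeg] at r1 r2
  generalize Cfsg.charDegree (χ₁ : G → ℂ) = x at *
  generalize Cfsg.charDegree (χ₃ : G → ℂ) = q at *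
  generalize Nat.card (Subgroup.centralizer ({J} : Set G)) = c at *
  generalize Nat.card (Subgroup.centralizer ((P : Subgroup G) : Set G)) = d at *
  generalize (Subgroup.centralizer ({J} : Set G)).index = n at *
  generalize Nat.card G = a at *
  have hq : q = 2 * x + 1 := by omega
  apply Cfsg.Agent.Lib.Helper78Klein5.arith a c d n x q pc pd p1 hq hidx hd1 hd3
  have hxz : (x : ℤ) ≠ 0 := by exact_mod_cast p1.ne'
  have : (x : ℤ) * ((a : ℤ) * d ^ 2 * (x + 1) ^ 2 * 2) = x * (4 * c ^ 3 * x * q * 2) := by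
    rw [hq] at r2 ⊢
    push_cast at r2 ⊢
    linear_combination r2
  have h2 := mul_left_cancel₀ hxz this
  have h3 : (a : ℤ) * d ^ 2 * (x + 1) ^ 2 = 4 * c ^ 3 * x * q := by linarith
  exact_mod_cast h3

end Cfsg.Agent.S4480
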