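import Cfsg.Statements.S4483
import Cfsg.Agent.Lib.Helper78Real2
import Cfsg.Agent.Lib.Helper78Solomon

set_option autoImplicit false
open Cfsg

namespace Cfsg.Agent.S4483

open Cfsg.Agent.Lib Cfsg.Agent.Lib.Helper81Local Cfsg.Agent.Lib.Helper81Base
  Cfsg.Agent.Lib.Helper81BB Cfsg.Agent.Lib.Helper81Block Cfsg.Agent.Lib.Helper81Orth
  Cfsg.Agent.Lib.Helper78Real2
open scoped ComplexConjugate

section aux

variable {G : Type*} [Group G] [Fintype G] {M : Ideal Cfsg.AlgInt}

theorem cj_eq_self {χ : Cfsg.IrrCharacter G} (hr : ∀ g : G, ((χ : G → ℂ) g).im = 0) : cj χ = χ := by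
  apply Subtype.ext
  funext g
  rw [cj_apply]
  exact Complex.conj_eq_iff_im.2 (hr g)

theorem mem_principal (hM : Cfsg.IsPModular 2 M) (χ : Cfsg.IrrCharacter G)
    (hr : ∀ g : G, ((χ : G → ℂ) g).im = 0) (hodd : Odd (Cfsg.charDegree (χ : G → ℂ))) :
    χ ∈ Cfsg.principalBlock M G := by
  have := hM.2.1.isPrime
  have hB : Cfsg.IsPBlock M (Cfsg.blockOf M (χ : G → ℂ)) := isPBlock_blockOf χ
  have hχ : χ ∈ Cfsg.blockOf M (χ : G → ℂ) := self_mem_blockOf χ
  have hcj : ∀ ψ ∈ Cfsg.blockOf M (χ : G → ℂ), cj ψ ∈ Cfsg.blockOf M (χ : G → ℂ) := by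
    intro ψ hψ
    rw [mem_blockOf] at hψ ⊢
    have := sameBlock_cj hψ
    rwa [cj_eq_self hr] at this
  have h1 := irrOne_mem_of_stable hM hB (blockCoeff_inv hcj) hχ hodd (by
    intro g _
    rw [← centralChar_cj, cj_eq_self hr, sub_self]
    exact memLocalIdeal_zero)
  rw [← eq_principalBlock_of_irrOne_mem hB h1]
  exact hχ

/-- the sum of a real character of odd degree over the elements of odd order does not vanish -/
theorem sum_odd_ne_zero (hM : Cfsg.IsPModular 2 M) (χ : Cfsg.IrrCharacter G)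
    (hr : ∀ g : G, ((χ : G → ℂ) g).im = 0) (hodd : Odd (Cfsg.charDegree (χ : G → ℂ))) :
    ∑ g : G, (if 2 ∣ orderOf g then (0 : ℂ) else (χ : G → ℂ) g) ≠ 0 := by
  have := hM.2.1.isPrime
  have h := sum_pairing hM (fun g : G => if 2 ∣ orderOf g then (0 : ℂ) else (χ : G → ℂ) g)
    (by
      intro g
      split_ifs
      · exact MemLocalIdeal.memLocalRing memLocalIdeal_zero
      · exact memLocalRing_of_isIntegral (irr_integral χ g))
    (by
      intro g
      simp only [orderOf_inv]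
      have : (χ : G → ℂ) g⁻¹ = (χ : G → ℂ) g := by
        rw [irr_inv]; exact Complex.conj_eq_iff_im.2 (hr g)
      rw [this, sub_self]
      exact memLocalIdeal_zero)
    (by
      intro g hg
      simp only [hg, dvd_refl, if_true]
      exact memLocalIdeal_zero)
  intro h0
  rw [h0] at h
  simp only [orderOf_one, Nat.dvd_one, OfNat.ofNat_ne_one, if_false, zero_sub] at h
  have h2 := memLocalIdeal_neg h
  rw [neg_neg, ← charDegree_eq, memLocalIdeal_natCast_iff hM] at h2
  exact (Nat.not_even_iff_odd.2 hodd) (even_iff_two_dvd.2 h2)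

end aux

/-- Let G be a finite group of order 2^n·g₀ with g₀ odd, and M a maximal ideal of the algebraic integers containing 2. Every real-valued irreducible character of G of odd degree lies in the principal 2-block; consequently G has at most 2^(2n) real-valued irreducible characters of odd degree. -/
theorem result {G : Type*} [Group G] [Finite G] (M : Ideal Cfsg.AlgInt) (hM : Cfsg.IsPModular 2 M) : (∀ χ : Cfsg.IrrCharacter G, (∀ g : G, ((χ : G → ℂ) g).im = 0) → Odd (Cfsg.charDegree (χ : G → ℂ)) → χ ∈ Cfsg.principalBlock M G) ∧ Nat.card {χ : Cfsg.IrrCharacter G // (∀ g : G, ((χ : G → ℂ) g).im = 0) ∧ Odd (Cfsg.charDegree (χ : G → ℂ))} ≤ 2 ^ (2 * (Nat.card G).factorization 2) := by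
  classical
  have := Fintype.ofFinite G
  refine ⟨fun χ hr hodd => mem_principal hM χ hr hodd, ?_⟩
  obtain ⟨n, hn⟩ : ∃ n, n = (Nat.card G).factorization 2 := ⟨_, rfl⟩
  rw [← hn]
  obtain ⟨f, hf⟩ : ∃ f : G → ℂ, f = fun g : G => if 2 ∣ orderOf g then (0 : ℂ)
      else ((2 ^ (Nat.card G).factorization 2 : ℕ) : ℂ) := ⟨_, rfl⟩
  have hz : ∀ χ : Cfsg.IrrCharacter G, ∃ z : ℤ, Cfsg.classInner f (χ : G → ℂ) = z := by
    intro χ
    rw [hf]
    exact Helper78Solomon.regular_inner_int Nat.prime_two (Helper4Char.IsIrrCharacter.isCharacter χ.2)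
  choose z hz using hz
  have hgC : (Nat.card G : ℂ) ≠ 0 := by exact_mod_cast Nat.card_pos.ne'
  have hfcl : Cfsg.IsClassFunction G f := by
    have := Helper78Solomon.isClassFunction_regular (G := G) (p := 2) (χ := fun _ => 1)
      (fun _ _ => rfl) ((2 ^ (Nat.card G).factorization 2 : ℕ) : ℂ)
    simp only [mul_one] at this
    rw [hf]; exact this
  -- Parseval
  have hpars : Cfsg.classInner f f = ((∑ χ : Cfsg.IrrCharacter G, z χ ^ 2 : ℤ) : ℂ) := by
    rw [Helper4Char4.classInner_eq_sum f f hfcl]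
    push_cast
    apply Finset.sum_congr rfl
    intro χ _
    rw [← Helper4Char.classInner_conj_symm f (χ : G → ℂ), hz]
    simp [pow_two]
  -- direct evaluation
  obtain ⟨k, hk⟩ : ∃ k, k = (Finset.univ.filter (fun g : G => ¬ 2 ∣ orderOf g)).card := ⟨_, rfl⟩
  have hkle : k ≤ Nat.card G := by
    rw [hk, Nat.card_eq_fintype_card]; exact Finset.card_le_univ _
  have hdirect : Cfsg.classInner f f = (Nat.card G : ℂ)⁻¹ * ((k : ℂ) * (4 : ℂ) ^ n) := by
    unfold Cfsg.classInner
    congr 1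
    have : ∀ g : G, f g * conj (f g) = if ¬ 2 ∣ orderOf g then (4 : ℂ) ^ n else 0 := by
      intro g
      rw [hf]
      simp only []
      split_ifs with h
      · simp
      · rw [← hn]
        simp only [Nat.cast_pow, Nat.cast_ofNat, map_pow, Complex.conj_ofNat]
        rw [← mul_pow]; norm_num
    simp_rw [this]
    rw [← Finset.sum_filter, Finset.sum_const, ← hk, nsmul_eq_mul]
  have hmain : (∑ χ : Cfsg.IrrCharacter G, z χ ^ 2) * (Nat.card G : ℤ) = (k : ℤ) * 4 ^ n := by
    have h1 : ((∑ χ : Cfsg.IrrCharacter G, z χ ^ 2 : ℤ) : ℂ) * (Nat.card G : ℂ) = (k : ℂ) * 4 ^ n := by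
      rw [← hpars, hdirect]
      field_simp
    exact_mod_cast h1
  have hsumle : ∑ χ : Cfsg.IrrCharacter G, z χ ^ 2 ≤ 4 ^ n := by
    have hgpos : (0 : ℤ) < Nat.card G := by exact_mod_cast Nat.card_pos
    have hk' : (k : ℤ) ≤ Nat.card G := by exact_mod_cast hkle
    by_contra hcon
    push Not at hcon
    have h4 : (0 : ℤ) < 4 ^ n := by positivity
    nlinarith
  have hzne : ∀ χ : Cfsg.IrrCharacter G, (∀ g : G, ((χ : G → ℂ) g).im = 0) →
      Odd (Cfsg.charDegree (χ : G → ℂ)) → z χ ≠ 0 := by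
    intro χ hr hodd h0
    have h1 := hz χ
    rw [h0, hf] at h1
    unfold Cfsg.classInner at h1
    have h2 : ∑ g : G, (if 2 ∣ orderOf g then (0 : ℂ)
        else ((2 ^ (Nat.card G).factorization 2 : ℕ) : ℂ)) * conj ((χ : G → ℂ) g)
        = ((2 ^ (Nat.card G).factorization 2 : ℕ) : ℂ) *
          ∑ g : G, (if 2 ∣ orderOf g then (0 : ℂ) else (χ : G → ℂ) g) := by
      rw [Finset.mul_sum]
      apply Finset.sum_congr rfl
      intro g _
      split_ifs
      · simp
      · rw [Complex.conj_eq_iff_im.2 (hr g)]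
    rw [h2] at h1
    simp only [Int.cast_zero, mul_eq_zero, inv_eq_zero] at h1
    rcases h1 with h1 | h1 | h1
    · exact hgC h1
    · have : ((2 ^ (Nat.card G).factorization 2 : ℕ) : ℂ) ≠ 0 := by
        exact_mod_cast (pow_pos (by norm_num : 0 < 2) _).ne'
      exact this h1
    · exact sum_odd_ne_zero hM χ hr hodd h1
  rw [Nat.card_eq_fintype_card, Fintype.card_subtype]
  have hcount : ((Finset.univ.filter (fun χ : Cfsg.IrrCharacter G =>
      (∀ g : G, ((χ : G → ℂ) g).im = 0) ∧ Odd (Cfsg.charDegree (χ : G → ℂ)))).card : ℤ)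
      ≤ ∑ χ : Cfsg.IrrCharacter G, z χ ^ 2 := by
    rw [Finset.card_eq_sum_ones]
    push_cast
    calc ∑ χ ∈ Finset.univ.filter (fun χ : Cfsg.IrrCharacter G =>
          (∀ g : G, ((χ : G → ℂ) g).im = 0) ∧ Odd (Cfsg.charDegree (χ : G → ℂ))), (1 : ℤ)
        ≤ ∑ χ ∈ Finset.univ.filter (fun χ : Cfsg.IrrCharacter G =>
          (∀ g : G, ((χ : G → ℂ) g).im = 0) ∧ Odd (Cfsg.charDegree (χ : G → ℂ))), z χ ^ 2 := by
          apply Finset.sum_le_sum
          intro χ hχ
          simp only [Finset.mem_filter, Finset.mem_univ, true_and] at hχ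
          have := hzne χ hχ.1 hχ.2
          have h3 : 0 < z χ ^ 2 := by positivity
          omega
      _ ≤ ∑ χ : Cfsg.IrrCharacter G, z χ ^ 2 :=
          Finset.sum_le_sum_of_subset_of_nonneg (Finset.filter_subset _ _)
            (fun χ _ _ => by positivity)
  have hfin := hcount.trans hsumle
  have h4 : (4 : ℤ) ^ n = ((2 ^ (2 * n) : ℕ) : ℤ) := by
    push_cast; rw [pow_mul]; norm_num
  rw [h4] at hfin
  exact_mod_cast hfin

end Cfsg.Agent.S4483
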