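import Cfsg.Statements.S4485
import Cfsg.Agent.Lib.Helper4TI7


set_option autoImplicit false
open Cfsg

namespace Cfsg.Agent.S4485

/-- Let G be a finite group and p a prime dividing its order such that every non-identity element of a Sylow p-subgroup P has the same centralizer as P itself (so P is abelian); let p^n be the order of P. If G has a faithful character of degree x with x² < p^n − 1, then P is normal in G. -/
theorem result {G : Type*} [Group G] [Finite G] (p : ℕ) (hp : p.Prime) (hpG : p ∣ Nat.card G) (P : Sylow p G) (hstar : ∀ x ∈ (P : Subgroup G), x ≠ 1 → Subgroup.centralizer ({x} : Set G) = Subgroup.centralizer ((P : Subgroup G) : Set G)) (n : ℕ) (hn : Nat.card P = p ^ n) (χ : G → ℂ) (hχ : Cfsg.IsCharacter G χ) (hfaith : ∀ g : G, χ g = χ 1 → g = 1) (hdeg : Cfsg.charDegree χ ^ 2 + 1 < p ^ n) : (P : Subgroup G).Normal := by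
  classical
  have := Fintype.ofFinite G
  have : Fact p.Prime := ⟨hp⟩
  have hne : (P : Subgroup G) ≠ ⊥ := Sylow.ne_bot_of_dvd_card P hpG
  have D := Cfsg.Agent.Lib.Helper4TI1.tiData P hne hstar
  have hle := Cfsg.Agent.Lib.Helper4TI1.le_centralizer_of_star P hne hstar
  obtain ⟨x, hx⟩ := Cfsg.Agent.Lib.Helper4Char2.IsCharacter.exists_degree hχ
  have hdx : Cfsg.charDegree χ = x := by
    unfold Cfsg.charDegree
    rw [hx]; simp
  rw [hdx, ← hn] at hdeg
  have hcomm : ∀ a ∈ Subgroup.normalClosure ((P : Subgroup G) : Set G),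
      ∀ b ∈ Subgroup.normalClosure ((P : Subgroup G) : Set G), a * b = b * a := by
    intro a ha b hb
    have h1 := hfaith _ (Cfsg.Agent.Lib.Helper4TI7.core D hχ x hx hdeg a b ha hb)
    have h2 : a * b = (a * b * a⁻¹ * b⁻¹) * (b * a) := by group
    rw [h2, h1, one_mul]
  constructor
  intro u hu g
  obtain ⟨k, hk⟩ := (IsPGroup.iff_orderOf.mp P.2) ⟨u, hu⟩
  rw [Subgroup.orderOf_mk] at hk
  have huL : g * u * g⁻¹ ∈ Subgroup.normalClosure ((P : Subgroup G) : Set G) :=
    Subgroup.normalClosure_normal.conj_mem u (Subgroup.subset_normalClosure hu) g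
  refine Cfsg.Agent.Lib.Helper4TI1.mem_of_mem_centralizer P hle ?_ (k := k)
    (by rw [Cfsg.Agent.Lib.Helper4TI1.orderOf_conj', hk])
  rw [Subgroup.mem_centralizer_iff]
  intro h hh
  exact hcomm h (Subgroup.subset_normalClosure hh) _ huL

end Cfsg.Agent.S4485
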