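import Cfsg.Statements.S4486
import Cfsg.Agent.Lib.Helper4TI7


set_option autoImplicit false
open Cfsg

namespace Cfsg.Agent.S4486


open Cfsg.Agent.Lib.Helper4Char Cfsg.Agent.Lib.Helper4Char2 Cfsg.Agent.Lib.Helper4Eigen in
/-- an irreducible character all of whose commutators lie in the kernel is linear. -/
theorem linear_of_comm {G : Type*} [Group G] [Fintype G] (χ : Cfsg.IrrCharacter G)
    (h : ∀ a b : G, (χ : G → ℂ) (a * b * a⁻¹ * b⁻¹) = (χ : G → ℂ) 1) : (χ : G → ℂ) 1 = 1 := by
  obtain ⟨n, ρ, hirr, hρ⟩ := χ.2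
  have hcomm : ∀ a b : G, ρ a * ρ b = ρ b * ρ a := by
    intro a b
    have h1 := h a b
    rw [← hρ, Representation.char_one, char_eq_finrank_iff] at h1
    have h2 : a * b = (a * b * a⁻¹ * b⁻¹) * (b * a) := by group
    rw [← map_mul, h2, map_mul, h1, map_mul]
    rfl
  have hnorm : ∀ g : G, ‖(χ : G → ℂ) g‖ = (n : ℝ) := by
    intro g
    obtain ⟨c, hc⟩ := schur_scalar ρ (ρ g) (fun b => hcomm g b)
    have := (norm_char_eq_finrank_iff ρ g).mpr ⟨c, hc⟩
    rw [hρ] at this
    simpa using this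
  have h1 := classInner_irr_self χ.2
  rw [Cfsg.Agent.Lib.Helper32Virt.inner_self_eq] at h1
  simp only [hnorm, Finset.sum_const, Finset.card_univ, nsmul_eq_mul] at h1
  have h2 : ((Nat.card G : ℝ)⁻¹ * ((Fintype.card G : ℝ) * (n : ℝ) ^ 2)) = (n : ℝ) ^ 2 := by
    rw [← Nat.card_eq_fintype_card, ← mul_assoc, inv_mul_cancel₀, one_mul]
    exact_mod_cast Nat.card_pos.ne'
  rw [h2] at h1
  have h3 : (n : ℝ) ^ 2 = 1 := by exact_mod_cast h1
  have h4 : n ^ 2 = 1 := by exact_mod_cast h3
  have h5 : n = 1 := by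
    rcases Nat.eq_zero_or_pos n with h0 | h0
    · rw [h0] at h4; norm_num at h4
    · nlinarith
  rw [← hρ, Representation.char_one]
  simp [h5]

/-- an element normalizing the group `P` without fixed points: every element of `P` is
a commutator. -/
theorem exists_commutator {G : Type*} [Group G] (P : Subgroup G) [Finite P]
    (g : G) (hg : ∀ u ∈ P, g * u * g⁻¹ ∈ P)
    (hfree : ∀ u ∈ P, u ≠ 1 → g * u * g⁻¹ ≠ u) (v : G) (hv : v ∈ P) :
    ∃ u ∈ P, v = u⁻¹ * g * u * g⁻¹ := by
  let f : P → P := fun u => ⟨(u : G)⁻¹ * (g * u * g⁻¹), P.mul_mem (P.inv_mem u.2) (hg u u.2)⟩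
  have hinj : Function.Injective f := by
    intro u u' huu
    have h1 : (u : G)⁻¹ * (g * u * g⁻¹) = (u' : G)⁻¹ * (g * u' * g⁻¹) := congrArg Subtype.val huu
    by_contra hne
    have h2 : (u : G) * (u' : G)⁻¹ ≠ 1 := by
      intro h
      apply hne
      exact Subtype.ext (mul_inv_eq_one.mp h)
    apply hfree _ (P.mul_mem u.2 (P.inv_mem u'.2)) h2
    have h3 : g * u * g⁻¹ = u * ((u' : G)⁻¹ * (g * u' * g⁻¹)) := by
      rw [← h1, mul_inv_cancel_left]
    have h4 : g * ((u : G) * (u' : G)⁻¹) * g⁻¹ = (g * u * g⁻¹) * (g * u' * g⁻¹)⁻¹ := by group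
    rw [h4, h3, mul_assoc, mul_assoc, mul_inv_cancel, mul_one]
  obtain ⟨u, hu⟩ := Finite.surjective_of_injective hinj ⟨v, hv⟩
  refine ⟨u, u.2, ?_⟩
  have := congrArg Subtype.val hu
  simp only [f] at this
  rw [← this]; group


/-- Let G be a finite group and p a prime dividing its order such that every non-identity element of a Sylow p-subgroup P has the same centralizer as P; let p^n be the order of P. If G has a non-principal irreducible character χ of degree x with x² < p^n − 1, then either G has a proper normal subgroup containing P, or G has a normal subgroup of index p^n and x = 1. -/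
theorem result {G : Type*} [Group G] [Finite G] (p : ℕ) (hp : p.Prime) (hpG : p ∣ Nat.card G) (P : Sylow p G) (hstar : ∀ x ∈ (P : Subgroup G), x ≠ 1 → Subgroup.centralizer ({x} : Set G) = Subgroup.centralizer ((P : Subgroup G) : Set G)) (n : ℕ) (hn : Nat.card P = p ^ n) (χ : Cfsg.IrrCharacter G) (h1 : (χ : G → ℂ) ≠ fun _ => 1) (hdeg : Cfsg.charDegree (χ : G → ℂ) ^ 2 + 1 < p ^ n) : (∃ K : Subgroup G, K.Normal ∧ K ≠ ⊤ ∧ (P : Subgroup G) ≤ K) ∨ ((∃ N : Subgroup G, N.Normal ∧ N.index = p ^ n) ∧ Cfsg.charDegree (χ : G → ℂ) = 1) := by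
  classical
  have := Fintype.ofFinite G
  have : Fact p.Prime := ⟨hp⟩
  have hne : (P : Subgroup G) ≠ ⊥ := Sylow.ne_bot_of_dvd_card P hpG
  have D := Cfsg.Agent.Lib.Helper4TI1.tiData P hne hstar
  have hle := Cfsg.Agent.Lib.Helper4TI1.le_centralizer_of_star P hne hstar
  have hχ := Cfsg.Agent.Lib.Helper4Char.IsIrrCharacter.isCharacter χ.2
  obtain ⟨x, hx⟩ := Cfsg.Agent.Lib.Helper4Char2.IsCharacter.exists_degree hχ
  have hdx : Cfsg.charDegree (χ : G → ℂ) = x := by
    unfold Cfsg.charDegree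
    rw [hx]; simp
  rw [hdx, ← hn] at hdeg
  by_cases hL : Subgroup.normalClosure ((P : Subgroup G) : Set G) = ⊤
  · right
    have hcore : ∀ a b : G, (χ : G → ℂ) (a * b * a⁻¹ * b⁻¹) = (χ : G → ℂ) 1 := fun a b =>
      Cfsg.Agent.Lib.Helper4TI7.core D hχ x hx hdeg a b (by rw [hL]; trivial) (by rw [hL]; trivial)
    have hlin := linear_of_comm χ hcore
    have hx1 : x = 1 := by
      rw [hx] at hlin
      exact_mod_cast hlin
    refine ⟨?_, by rw [hdx, hx1]⟩
    have hNC : Subgroup.normalizer ((P : Subgroup G) : Set G) ≤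
        Subgroup.centralizer ((P : Subgroup G) : Set G) := by
      intro g hg
      by_contra hgC
      apply h1
      obtain ⟨k, ρ, hirr, hρ⟩ := χ.2
      have hPker : ((P : Subgroup G) : Set G) ⊆ (ρ.ker : Subgroup G) := by
        intro v hv
        obtain ⟨u, hu, rfl⟩ := exists_commutator (P : Subgroup G) g
          (fun u hu => (Subgroup.mem_normalizer_iff.mp hg u).mp hu)
          (fun u hu hu1 h => hgC (by
            rw [← hstar u hu hu1, Subgroup.mem_centralizer_singleton_iff]
            rw [mul_inv_eq_iff_eq_mul] at h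
            exact h)) v hv
        have h2 := hcore u⁻¹ g
        rw [inv_inv, ← hρ, Representation.char_one,
          Cfsg.Agent.Lib.Helper4Eigen.char_eq_finrank_iff] at h2
        exact h2
      have hker : (⊤ : Subgroup G) ≤ ρ.ker := by
        rw [← hL]
        exact Subgroup.normalClosure_le_normal hPker
      funext y
      have h3 : ρ y = 1 := hker (Subgroup.mem_top y)
      have h4 : (χ : G → ℂ) y = (χ : G → ℂ) 1 := by
        rw [← hρ]
        unfold Representation.character
        rw [h3, (map_one ρ : ρ 1 = 1)]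
      rw [h4, hlin]
    refine ⟨(MonoidHom.transferSylow P hNC).ker, inferInstance, ?_⟩
    rw [(MonoidHom.ker_transferSylow_isComplement' P hNC).symm.index_eq_card, ← hn]
  · left
    exact ⟨_, Subgroup.normalClosure_normal, hL, Subgroup.le_normalClosure⟩

end Cfsg.Agent.S4486
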