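import Cfsg.Statements.S4488
import Cfsg.Agent.Lib.Helper32Virt
import Cfsg.Agent.Lib.Helper5Galois
import Cfsg.Agent.Lib.Helper4Char3
import Cfsg.Agent.S0861
import Cfsg.Agent.Lib.Helper82Irr
import Cfsg.Agent.Lib.Helper82Linear

set_option autoImplicit false
open Cfsg

namespace Cfsg.Agent.S4488

open Cfsg.Agent.Lib.Helper4Char Cfsg.Agent.Lib.Helper4Char2 Cfsg.Agent.Lib.Helper4Char3
  Cfsg.Agent.Lib.Helper4Char4 Cfsg.Agent.Lib.Helper32Virt
open scoped ComplexConjugate
open Module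

theorem geom_re (μ : ℂ) (q : ℕ) (h : μ ^ q = 1) : 0 ≤ (∑ i ∈ Finset.range q, μ ^ i).re := by
  by_cases h1 : μ = 1
  · subst h1
    simp
  · have := geom_sum_eq h1 q
    rw [this, h, sub_self, zero_div]
    simp

theorem lower_bound {G : Type*} [Group G] [Finite G] {V : Type*} [AddCommGroup V]
    [Module ℂ V] [FiniteDimensional ℂ V] (ρ : Representation ℂ G V) (x : G) (p k : ℕ)
    (hp : p.Prime) (hx : x ^ (p ^ (k + 1)) = 1) (c : ℤ)
    (hgal : ∀ j : ℕ, Nat.Coprime j p → ρ.character (x ^ j) = c) :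
    0 ≤ ((p : ℤ) - 1) * c + (finrank ℂ V : ℤ) := by
  obtain ⟨μ, h1, -, h3, -, -⟩ := Lib.Helper4Eigen.exists_eigenvalues ρ x
  have hμ : ∀ i, μ i ^ (p ^ (k + 1)) = 1 := by
    intro i
    obtain ⟨s, hs⟩ := orderOf_dvd_of_pow_eq_one hx
    rw [hs, pow_mul, h1, one_pow]
  have hS : 0 ≤ (∑ i ∈ Finset.range (p ^ (k + 1)), ρ.character (x ^ i)).re := by
    simp only [h3]
    rw [Finset.sum_comm, Complex.re_sum]
    exact Finset.sum_nonneg (fun i _ => geom_re _ _ (hμ i))
  have hsplit : ∑ i ∈ Finset.range (p ^ (k + 1)), ρ.character (x ^ i)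
      = ∑ a ∈ Finset.range (p ^ k), (ρ.character (x ^ (p * a)) + ((p : ℂ) - 1) * c) := by
    rw [pow_succ, Finset.sum_range, ← Equiv.sum_comp finProdFinEquiv, Fintype.sum_prod_type,
      Finset.sum_range]
    apply Finset.sum_congr rfl
    intro a _
    have hpos : 0 < p := hp.pos
    obtain ⟨p', rfl⟩ : ∃ p', p = p' + 1 := ⟨p - 1, by omega⟩
    rw [Fin.sum_univ_succ]
    congr 1
    · simp [finProdFinEquiv]
    · rw [Finset.sum_congr rfl (fun b _ => hgal _ _)]
      · simp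
      · simp only [finProdFinEquiv, Equiv.coe_fn_mk, Fin.val_succ]
        intro b _
        rw [Nat.coprime_add_mul_left_left]
        apply Nat.Coprime.symm
        rw [Nat.Prime.coprime_iff_not_dvd hp]
        intro hd
        have := Nat.le_of_dvd (by omega) hd
        have := b.2
        omega
  rw [hsplit, Complex.re_sum] at hS
  have hle : ∀ a ∈ Finset.range (p ^ k), (ρ.character (x ^ (p * a)) + ((p : ℂ) - 1) * c).re
      ≤ (finrank ℂ V : ℝ) + ((p : ℝ) - 1) * c := by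
    intro a _
    rw [Complex.add_re]
    have h5 : (((p : ℂ) - 1) * c).re = ((p : ℝ) - 1) * c := by
      have : ((p : ℂ) - 1) * c = (((p : ℝ) - 1) * c : ℝ) := by push_cast; ring
      rw [this, Complex.ofReal_re]
    rw [h5]
    have h6 := (Complex.re_le_norm _).trans (Lib.Helper4Eigen.norm_char_le ρ (x ^ (p * a)))
    linarith
  have h7 := hS.trans (Finset.sum_le_sum hle)
  rw [Finset.sum_const, Finset.card_range, nsmul_eq_mul] at h7
  have h8 : (0 : ℝ) < ((p ^ k : ℕ) : ℝ) := by exact_mod_cast pow_pos hp.pos k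
  have h9 : (0 : ℝ) ≤ (finrank ℂ V : ℝ) + ((p : ℝ) - 1) * c := by
    by_contra hneg
    push Not at hneg
    have := mul_neg_of_pos_of_neg h8 hneg
    linarith
  have h10 : (0 : ℝ) ≤ ((((p : ℤ) - 1) * c + (finrank ℂ V : ℤ) : ℤ) : ℝ) := by
    push_cast
    linarith
  exact_mod_cast h10

theorem congr_mod {G : Type*} [Group G] [Finite G] {V : Type*} [AddCommGroup V]
    [Module ℂ V] [FiniteDimensional ℂ V] (ρ : Representation ℂ G V) (x : G) (p a : ℕ)
    (hp : p.Prime) (hx : x ^ (p ^ a) = 1) (c : ℤ) (hc : ρ.character x = c) :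
    c ≡ (finrank ℂ V : ℤ) [ZMOD p] := by
  haveI : Fact p.Prime := ⟨hp⟩
  obtain ⟨μ, h1, -, h3, h4, -⟩ := Lib.Helper4Eigen.exists_eigenvalues ρ x
  have hint : ∀ i, IsIntegral ℤ (μ i) := by
    intro i
    have hpos : 0 < orderOf x := orderOf_pos x
    exact IsIntegral.of_pow hpos (by rw [h1]; exact isIntegral_one)
  obtain ⟨r, hr⟩ := Cfsg.Agent.S0861.sum_pow_prime_pow (R := integralClosure ℤ ℂ) p hp a Finset.univ
    (fun i => ⟨μ i, hint i⟩)
  have hr' := congrArg (fun z : integralClosure ℤ ℂ => (z : ℂ)) hr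
  push_cast at hr'
  rw [← h4, hc, ← h3, hx, Representation.char_one] at hr'
  have hp0 : (p : ℂ) ≠ 0 := by exact_mod_cast hp.pos.ne'
  have h5 : (((c ^ (p ^ a) - (finrank ℂ V : ℤ) : ℤ) : ℚ) / (p : ℚ) : ℚ) = (r : ℂ) := by
    push_cast
    field_simp
    linear_combination hr'
  obtain ⟨y, hy⟩ := exists_int_of_isIntegral_rat _ (by rw [h5]; exact r.2)
  have hp0' : (p : ℚ) ≠ 0 := by exact_mod_cast hp.pos.ne'
  have h6 : ((c ^ (p ^ a) - (finrank ℂ V : ℤ) : ℤ) : ℚ) = ((y * p : ℤ) : ℚ) := by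
    rw [Int.cast_mul, hy, Int.cast_natCast]
    field_simp
  have h7 : c ^ (p ^ a) - (finrank ℂ V : ℤ) = y * p := by exact_mod_cast h6
  have h8 : c ^ (p ^ a) ≡ c [ZMOD p] := by
    rw [← ZMod.intCast_eq_intCast_iff]
    push_cast
    exact ZMod.pow_card_pow _
  have h9 : c ^ (p ^ a) ≡ (finrank ℂ V : ℤ) [ZMOD p] := by
    rw [Int.modEq_iff_dvd]
    exact ⟨-y, by linarith⟩
  exact h8.symm.trans h9

open Cfsg.Agent.Lib.Helper5Galois in
theorem fix_of_mem (ψ : K →+* ℂ) (z : K) (hz : ψ z = z) (y : K)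
    (hy : (y : ℂ) ∈ IntermediateField.adjoin ℚ ({(z : ℂ)} : Set ℂ)) : ψ y = y := by
  have hE : IntermediateField.adjoin ℚ ({(z : ℂ)} : Set ℂ) ≤ K := by
    rw [IntermediateField.adjoin_le_iff]
    rintro _ rfl
    exact z.2
  have h := IntermediateField.adjoin_algHom_ext ℚ (s := ({(z : ℂ)} : Set ℂ))
    (φ₁ := (IntermediateField.adjoin ℚ ({(z : ℂ)} : Set ℂ)).val)
    (φ₂ := (ψ.toRatAlgHom).comp (IntermediateField.inclusion hE)) (by
      rintro _ rfl
      exact hz.symm)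
  have h2 := DFunLike.congr_fun h ⟨(y : ℂ), hy⟩
  exact h2.symm

open Cfsg.Agent.Lib.Helper5Galois in
theorem gal_fixed {G : Type*} [Group G] [Finite G] {V : Type*} [AddCommGroup V]
    [Module ℂ V] [FiniteDimensional ℂ V] (ρ : Representation ℂ G V) (p : ℕ) (hp : p.Prime)
    (r : ℕ) (hr0 : 0 < r) (hpr : ¬ p ∣ r)
    (hrat : ∀ g : G, ρ.character g ∈ IntermediateField.adjoin ℚ
      ({Complex.exp (2 * Real.pi * Complex.I / r)} : Set ℂ))
    (x : G) (a : ℕ) (hx : x ^ (p ^ a) = 1) (j : ℕ) (hj : Nat.Coprime j p) :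
    ρ.character (x ^ j) = ρ.character x := by
  obtain ⟨s, w, hw, hcard⟩ := Nat.exists_eq_pow_mul_and_not_dvd (Nat.card_pos (α := G)).ne' p
    hp.ne_one
  have hcop : Nat.Coprime (p ^ s) (r * w) := by
    apply Nat.Coprime.pow_left
    rw [Nat.Prime.coprime_iff_not_dvd hp, Nat.Prime.dvd_mul hp]
    push Not
    exact ⟨hpr, hw⟩
  obtain ⟨m, hm1, hm2⟩ := Nat.chineseRemainder hcop j 1
  have hN : 0 < r * Nat.card G := Nat.mul_pos hr0 Nat.card_pos
  have hmcop : Nat.Coprime m (r * Nat.card G) := by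
    have h1 : Nat.Coprime m (p ^ s) :=
      (Nat.ModEq.gcd_eq hm1).trans (Nat.Coprime.pow_right s hj)
    have h2 : Nat.Coprime m (r * w) := (Nat.ModEq.gcd_eq hm2).trans (Nat.gcd_one_left _)
    have h3 : r * Nat.card G = p ^ s * (r * w) := by rw [hcard]; ring
    rw [h3]
    exact Nat.Coprime.mul_right h1 h2
  obtain ⟨ψ, hψ⟩ := exists_ringHom_of_coprime (r * Nat.card G) hN m hmcop
  have hG : ∀ g : G, g ^ (r * Nat.card G) = 1 := by
    intro g
    rw [mul_comm, pow_mul, pow_card_eq_one', one_pow]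
  have h1 := apply_charK ρ (r * Nat.card G) hN hG ψ m hψ x
  have hzr : ((zetaK r hr0 : K) : ℂ) ^ r = 1 := (zetaK_coe r hr0).pow_eq_one
  have hz : ψ (zetaK r hr0) = (zetaK r hr0 : K) := by
    rw [hψ _ (by rw [pow_mul, hzr, one_pow])]
    have h2 : m ≡ 1 [MOD r] := hm2.of_mul_right w
    have h3 : ∀ t : ℕ, ((zetaK r hr0 : K) : ℂ) ^ t = ((zetaK r hr0 : K) : ℂ) ^ (t % r) := by
      intro t
      conv_lhs => rw [← Nat.div_add_mod t r, pow_add, pow_mul, hzr, one_pow, one_mul]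
    conv_rhs => rw [← pow_one ((zetaK r hr0 : K) : ℂ)]
    rw [h3 m, h3 1, h2]
  have h2 := fix_of_mem ψ (zetaK r hr0) hz (charK ρ x) (hrat x)
  rw [h1, charK_coe] at h2
  rw [← h2]
  congr 1
  rw [pow_eq_pow_iff_modEq]
  apply Nat.ModEq.symm
  apply hm1.of_dvd
  have h3 : orderOf x ∣ p ^ a := orderOf_dvd_of_pow_eq_one hx
  obtain ⟨t, -, ht⟩ := (Nat.dvd_prime_pow hp).1 h3
  have h4 : orderOf x ∣ p ^ s * w := hcard ▸ orderOf_dvd_natCard x
  rw [ht] at h4 ⊢
  exact Nat.Coprime.dvd_of_dvd_mul_right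
    (Nat.Coprime.pow_left t ((Nat.Prime.coprime_iff_not_dvd hp).2 hw)) h4

open Cfsg.Agent.Lib.Helper5Galois in
theorem exists_int {G : Type*} [Group G] [Finite G] {V : Type*} [AddCommGroup V]
    [Module ℂ V] [FiniteDimensional ℂ V] (ρ : Representation ℂ G V) (p : ℕ) (hp : p.Prime)
    (r : ℕ) (hr0 : 0 < r) (hpr : ¬ p ∣ r)
    (hrat : ∀ g : G, ρ.character g ∈ IntermediateField.adjoin ℚ
      ({Complex.exp (2 * Real.pi * Complex.I / r)} : Set ℂ))
    (x : G) (a : ℕ) (hx : x ^ (p ^ a) = 1) : ∃ c : ℤ, ρ.character x = c := by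
  have hG : ∀ g : G, g ^ Nat.card G = 1 := fun g => pow_card_eq_one'
  have hfix : ∀ ψ : K →+* ℂ, ψ (charK ρ x) = (charK ρ x : K) := by
    intro ψ
    obtain ⟨m, hm, hψ⟩ := exists_pow_of_ringHom (Nat.card G) Nat.card_pos ψ
    rw [apply_charK ρ (Nat.card G) Nat.card_pos hG ψ m hψ, charK_coe]
    by_cases hpG : p ∣ Nat.card G
    · exact gal_fixed ρ p hp r hr0 hpr hrat x a hx m (Nat.Coprime.coprime_dvd_right hpG hm)
    · have h1 : orderOf x = 1 := by
        apply Nat.eq_one_of_dvd_coprimes _ (orderOf_dvd_of_pow_eq_one hx) (orderOf_dvd_natCard x)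
        exact Nat.Coprime.pow_left a ((Nat.Prime.coprime_iff_not_dvd hp).2 hpG)
      rw [orderOf_eq_one_iff] at h1
      rw [h1, one_pow]
  obtain ⟨q, hq⟩ := exists_rat_of_fixed _ hfix
  rw [charK_coe] at hq
  obtain ⟨y, hy⟩ := exists_int_of_isIntegral_rat q (by
    rw [← hq]; exact Lib.Helper4Eigen.char_isIntegral ρ x)
  exact ⟨y, by rw [hq, ← hy]; simp⟩

theorem gen_mul {G : Type*} [Group G] {θ ψ : G → ℂ} (h1 : IsGeneralizedCharacter G θ)
    (h2 : IsGeneralizedCharacter G ψ) : IsGeneralizedCharacter G (θ * ψ) := by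
  obtain ⟨a, b, ha, hb, rfl⟩ := h1
  obtain ⟨c, d, hc, hd, rfl⟩ := h2
  exact ⟨a * c + b * d, a * d + b * c, IsCharacter.add (IsCharacter.mul ha hc) (IsCharacter.mul hb hd),
    IsCharacter.add (IsCharacter.mul ha hd) (IsCharacter.mul hb hc), by ring⟩

theorem gen_const {G : Type*} [Group G] (z : ℤ) : IsGeneralizedCharacter G (fun _ => (z : ℂ)) := by
  have := gen_intCast_smul z (gen_of_irr (Lib.Helper82Linear.isIrrCharacter_one (G := G)))
  convert this using 1
  funext g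
  simp

theorem arith (p n a : ℕ) (hp : p.Prime) (h : p ^ a ∣ p ^ (n / (p - 1)) * (n / (p - 1)).factorial) :
    a ≤ ∑ i ∈ Finset.range (n + 1), n / ((p - 1) * p ^ i) := by
  haveI : Fact p.Prime := ⟨hp⟩
  have hne : p ^ (n / (p - 1)) * (n / (p - 1)).factorial ≠ 0 :=
    Nat.mul_ne_zero (pow_pos hp.pos _).ne' (Nat.factorial_ne_zero _)
  have h1 := (Nat.Prime.pow_dvd_iff_le_factorization hp hne).1 h
  rw [Nat.factorization_mul (pow_pos hp.pos _).ne' (Nat.factorial_ne_zero _), Finsupp.add_apply,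
    Nat.Prime.factorization_pow hp, Finsupp.single_eq_same, Nat.factorization_def _ hp,
    padicValNat_factorial (b := n + 1) (by
      have h2 : Nat.log p (n / (p - 1)) ≤ n / (p - 1) := Nat.log_le_self _ _
      have h3 : n / (p - 1) ≤ n := Nat.div_le_self _ _
      omega)] at h1
  rw [Finset.range_eq_Ico, Finset.sum_eq_sum_Ico_succ_bot (Nat.succ_pos n)]
  simp only [← Nat.div_div_eq_div_mul, pow_zero, Nat.div_one]
  exact h1

/-- Let the finite group G have a faithful p-rational character χ of degree n (all values of χ lie in the field generated over ℚ by a root of unity of order prime to p), and let p^a be the order of a Sylow p-subgroup of G. Then a ≤ Σ_{i ≥ 0} ⌊n / ((p − 1)·p^i)⌋ (a finite sum; the terms vanish once (p − 1)p^i > n). -/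
theorem result {G : Type*} [Group G] [Finite G] (p : ℕ) (hp : p.Prime) (χ : G → ℂ) (hχ : Cfsg.IsCharacter G χ) (hfaith : ∀ g : G, χ g = χ 1 → g = 1) (hrat : (∃ r : ℕ, 0 < r ∧ ¬ p ∣ r ∧ ∀ g : G, χ g ∈ IntermediateField.adjoin ℚ ({Complex.exp (2 * Real.pi * Complex.I / r)} : Set ℂ))) (n : ℕ) (hn : Cfsg.charDegree χ = n) : (Nat.card G).factorization p ≤ ∑ i ∈ Finset.range (n + 1), n / ((p - 1) * p ^ i) := by
  classical
  haveI : Fact p.Prime := ⟨hp⟩
  have hdeg : χ 1 = n := by rw [← hn]; exact (Lib.Helper82Irr.charDegree_cast hχ).symm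
  have hχ' := hχ
  obtain ⟨n', ρ, rfl⟩ := hχ
  obtain ⟨r, hr0, hpr, hrat⟩ := hrat
  have hnn : finrank ℂ (Fin n' → ℂ) = n := by
    rw [Representation.char_one] at hdeg
    exact_mod_cast hdeg
  obtain ⟨P⟩ : Nonempty (Sylow p G) := inferInstance
  letI : Fintype P := Fintype.ofFinite _
  apply arith p n _ hp
  have hPcard : Nat.card P = p ^ (Nat.card G).factorization p := Sylow.card_eq_multiplicity P
  obtain ⟨a, ha⟩ : ∃ a, a = (Nat.card G).factorization p := ⟨_, rfl⟩
  rw [← ha] at hPcard ⊢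
  obtain ⟨T, hT⟩ : ∃ T, T = n / (p - 1) := ⟨_, rfl⟩
  rw [← hT]
  have hp1 : 0 < p - 1 := by have := hp.two_le; omega
  have hval : ∀ x : P, x ≠ 1 → ∃ t ∈ Finset.Icc 1 T, ρ.character (x : G) = (n : ℂ) - (p : ℂ) * (t : ℂ) := by
    intro x hx1
    have hxa : (x : G) ^ (p ^ a) = 1 := by
      have : x ^ (p ^ a) = 1 := by rw [← hPcard]; exact pow_card_eq_one'
      exact_mod_cast congrArg Subtype.val this
    obtain ⟨c, hc⟩ := exists_int ρ p hp r hr0 hpr hrat x a hxa
    have h1 := congr_mod ρ x p a hp hxa c hc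
    have h2 := lower_bound ρ x p a hp (by rw [pow_succ, pow_mul, hxa, one_pow]) c (by
      intro j hj
      rw [gal_fixed ρ p hp r hr0 hpr hrat x a hxa j hj, hc])
    rw [hnn] at h1 h2
    have h3 : c ≤ n := by
      have h4 := Lib.Helper4Eigen.norm_char_le ρ (x : G)
      rw [hc, hnn] at h4
      have h5 : (c : ℝ) ≤ n := by
        have : ‖(c : ℂ)‖ = |(c : ℝ)| := by
          rw [← Complex.ofReal_intCast, Complex.norm_real, Real.norm_eq_abs]
        rw [this] at h4
        exact (le_abs_self _).trans h4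
      exact_mod_cast h5
    have h4 : c ≠ n := by
      intro h
      apply hx1
      apply Subtype.ext
      apply hfaith
      rw [hc, hdeg, h]
      simp
    obtain ⟨t', ht'⟩ := (Int.modEq_iff_dvd.1 h1)
    have ht'pos : 0 < t' := by
      have hpz : (0 : ℤ) < p := by exact_mod_cast hp.pos
      have : 0 < (p : ℤ) * t' := by rw [← ht']; omega
      exact (mul_pos_iff_of_pos_left hpz).1 this
    obtain ⟨t, rfl⟩ : ∃ t : ℕ, t' = t := ⟨t'.toNat, by omega⟩
    refine ⟨t, ?_, ?_⟩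
    · rw [Finset.mem_Icc]
      refine ⟨by exact_mod_cast ht'pos, ?_⟩
      rw [hT, Nat.le_div_iff_mul_le hp1]
      have hc' : c = n - p * t := by linarith
      rw [hc'] at h2
      have hpz : (0 : ℤ) < p := by exact_mod_cast hp.pos
      have h5 : (0 : ℤ) ≤ (p : ℤ) * ((n : ℤ) - ((p : ℤ) - 1) * t) := by nlinarith
      have h6 : (0 : ℤ) ≤ (n : ℤ) - ((p : ℤ) - 1) * t := by
        by_contra hneg
        push Not at hneg
        have := mul_neg_of_pos_of_neg hpz hneg
        omega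
      have h7 : ((t * (p - 1) : ℕ) : ℤ) ≤ n := by
        rw [Nat.cast_mul, Nat.cast_sub hp.one_le]
        push_cast
        linarith
      exact_mod_cast h7
    · rw [hc]
      have hc' : c = n - p * t := by linarith
      rw [hc']
      push_cast
      ring
  -- the generalized character
  set F : P → ℂ := ∏ t ∈ Finset.Icc 1 T,
    ((fun x : P => ρ.character (x : G)) - fun _ => (((n : ℤ) - (p : ℤ) * (t : ℤ) : ℤ) : ℂ)) with hF
  have hFgen : IsGeneralizedCharacter P F := by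
    apply Finset.prod_induction _ (fun f => IsGeneralizedCharacter P f)
    · intro f g hf hg
      exact gen_mul hf hg
    · exact gen_of_irr (Lib.Helper82Linear.isIrrCharacter_one (G := P))
    · intro t _
      exact gen_sub (gen_of_char (IsCharacter.restrict _ hχ')) (gen_const _)
  have hF0 : ∀ x : P, x ≠ 1 → F x = 0 := by
    intro x hx
    obtain ⟨t, ht, hxt⟩ := hval x hx
    rw [hF, Finset.prod_apply]
    apply Finset.prod_eq_zero ht
    rw [Pi.sub_apply, hxt]
    push_cast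
    ring
  have hF1 : F 1 = ((p ^ T * T.factorial : ℕ) : ℂ) := by
    rw [hF, Finset.prod_apply]
    have : ∀ t ∈ Finset.Icc 1 T, (((fun x : P => ρ.character (x : G)) -
        fun _ => (((n : ℤ) - (p : ℤ) * (t : ℤ) : ℤ) : ℂ)) : P → ℂ) 1 = (p : ℂ) * (t : ℂ) := by
      intro t _
      rw [Pi.sub_apply]
      show ρ.character ((1 : P) : G) - _ = _
      rw [Subgroup.coe_one, hdeg]
      push_cast
      ring
    rw [Finset.prod_congr rfl this, Finset.prod_mul_distrib, Finset.prod_const, Nat.card_Icc,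
      Nat.add_sub_cancel]
    push_cast
    congr 1
    have hfac : ∀ T : ℕ, ∏ t ∈ Finset.Icc 1 T, (t : ℂ) = (T.factorial : ℂ) := by
      intro T
      induction T with
      | zero => simp
      | succ k ih =>
        rw [Finset.prod_Icc_succ_top (by omega), ih, Nat.factorial_succ]
        push_cast
        ring
    exact hfac T
  obtain ⟨z, hz⟩ := gen_inner_int hFgen (gen_of_irr (Lib.Helper82Linear.isIrrCharacter_one (G := P)))
  unfold classInner at hz
  rw [Finset.sum_eq_single 1 (fun b _ hb => by rw [hF0 b hb, zero_mul])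
    (fun h => absurd (Finset.mem_univ _) h), hF1, hPcard] at hz
  have hpa : ((p ^ a : ℕ) : ℂ) ≠ 0 := Nat.cast_ne_zero.2 (pow_pos hp.pos a).ne'
  simp only [map_one, mul_one] at hz
  rw [inv_mul_eq_iff_eq_mul₀ hpa] at hz
  have hz' : ((p ^ T * T.factorial : ℕ) : ℤ) = ((p ^ a : ℕ) : ℤ) * z := by exact_mod_cast hz
  have : ((p ^ a : ℕ) : ℤ) ∣ ((p ^ T * T.factorial : ℕ) : ℤ) := ⟨z, hz'⟩
  exact_mod_cast this

end Cfsg.Agent.S4488
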