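import Cfsg.Statements.S4489
import Cfsg.Agent.S0176
import Cfsg.Agent.Lib.H4PgAbs
import Cfsg.Agent.Lib.H4PgCore
import Cfsg.Agent.Lib.H4PgRestrict
import Cfsg.Agent.Lib.Helper44St
import Cfsg.Agent.Lib.Helper81Base

set_option autoImplicit false
open Cfsg

namespace Cfsg.Agent.S4489

open Cfsg.Agent.Lib

/-- Let P be a finite p-group of order p^a with a > 0, and χ a faithful irreducible character of P of degree f whose field of values ℚ(χ) has degree (p − 1)·p^t over ℚ. Then a ≤ (f − 1)/(p − 1) + (t + 1)·f; in integer form, (p − 1)·a ≤ (f − 1) + (p − 1)(t + 1)·f. -/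
theorem result {P : Type*} [Group P] [Finite P] (p a : ℕ) (hp : p.Prime) (ha : 0 < a) (hP : Nat.card P = p ^ a) (χ : Cfsg.IrrCharacter P) (hfaith : ∀ g : P, (χ : P → ℂ) g = (χ : P → ℂ) 1 → g = 1) (f t : ℕ) (hf : Cfsg.charDegree (χ : P → ℂ) = f) (hfield : Module.finrank ℚ (IntermediateField.adjoin ℚ (Set.range (χ : P → ℂ))) = (p - 1) * p ^ t) : (p - 1) * a ≤ (f - 1) + (p - 1) * (t + 1) * f := by
  classical
  have := Fintype.ofFinite P
  have : Fact p.Prime := ⟨hp⟩
  have hnil : Group.IsNilpotent P := (IsPGroup.of_card hP).isNilpotent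
  obtain ⟨U, lam, hχ⟩ := Cfsg.Agent.S0176.result (χ : P → ℂ) χ.2
  have hdeg : (χ : P → ℂ) 1 = (f : ℂ) := by rw [← hf, Helper81Base.charDegree_eq]
  have hidx : U.index = f := by
    have h1 := Helper44St.indFun_degree U (fun h => ((lam h : ℂˣ) : ℂ))
    rw [← hχ, hdeg, map_one, Units.val_one, mul_one] at h1
    exact_mod_cast h1.symm
  obtain ⟨b, c, hc, hab, hb⟩ := H4PgCore.core_index p a hp hP U f hidx
  obtain ⟨μ, hμ, hr⟩ := H4PgRestrict.restrict U lam f hidx
  have hf0 : 0 < f := by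
    rw [← hidx]
    exact Nat.pos_of_ne_zero U.index_ne_zero_of_finite
  obtain ⟨s, -, hs⟩ : ∃ s, s ≤ c ∧ Nat.card (μ ⟨0, hf0⟩).range = p ^ s := by
    apply (Nat.dvd_prime_pow hp).1
    rw [← hc]
    exact Subgroup.card_range_dvd _
  have hinj : ∀ x : U.normalCore, (∀ i, μ i x = 1) → x = 1 := by
    intro x hx
    have h1 : (χ : P → ℂ) (x : P) = (χ : P → ℂ) 1 := by
      rw [hdeg]
      conv_lhs => rw [hχ]
      rw [hμ x]
      simp [hx]
    exact Subtype.ext (hfaith _ h1)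
  have hA := H4PgAbs.abs p hp f s t μ (fun i => (hr i _).trans hs) hinj _ hfield (by
    intro x
    rw [← hμ x, ← hχ]
    exact IntermediateField.subset_adjoin _ _ ⟨_, rfl⟩)
  rw [hc] at hA
  have hc' : c ≤ (t + 1) * f := (Nat.pow_le_pow_iff_right hp.one_lt).1 hA
  rw [hab, mul_add]
  have : (p - 1) * c ≤ (p - 1) * ((t + 1) * f) := Nat.mul_le_mul_left _ hc'
  rw [← mul_assoc] at this
  omega

end Cfsg.Agent.S4489
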