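import Cfsg.Statements.S4490
import Cfsg.Agent.Lib.Helper78Real2
import Cfsg.Agent.S0911

set_option autoImplicit false
open Cfsg

namespace Cfsg.Agent.S4490

open Cfsg.Agent.Lib Cfsg.Agent.Lib.Helper81Local Cfsg.Agent.Lib.Helper81Base
  Cfsg.Agent.Lib.Helper81BB Cfsg.Agent.Lib.Helper81Block Cfsg.Agent.Lib.Helper81Orth
  Cfsg.Agent.Lib.Helper78Real2
open scoped ComplexConjugate

theorem centralChar_classfn {G : Type*} [Group G] [Fintype G] (χ : Cfsg.IrrCharacter G) :
    Cfsg.IsClassFunction G (Cfsg.centralChar (χ : G → ℂ)) := by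
  intro g h
  unfold Cfsg.centralChar
  rw [irr_conj]
  congr 2
  have e : Subgroup.centralizer ({h * g * h⁻¹} : Set G)
      = (Subgroup.centralizer ({g} : Set G)).map (MulAut.conj h).toMonoidHom := by
    ext x
    simp only [Subgroup.mem_centralizer_singleton_iff, Subgroup.mem_map, MulEquiv.coe_toMonoidHom,
      MulAut.conj_apply]
    constructor
    · intro hx
      refine ⟨h⁻¹ * x * h, ?_, by group⟩
      calc h⁻¹ * x * h * g = h⁻¹ * (x * (h * g * h⁻¹)) * h := by group
        _ = h⁻¹ * (h * g * h⁻¹ * x) * h := by rw [hx]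
        _ = g * (h⁻¹ * x * h) := by group
    · rintro ⟨y, hy, rfl⟩
      calc h * y * h⁻¹ * (h * g * h⁻¹) = h * (y * g) * h⁻¹ := by group
        _ = h * (g * y) * h⁻¹ := by rw [hy]
        _ = h * g * h⁻¹ * (h * y * h⁻¹) := by group
  rw [e]
  congr 1
  exact Subgroup.index_map_of_bijective (MulAut.conj h).bijective _

/-- Let G be a finite group and M a maximal ideal of the algebraic integers containing 2. Every 2-block B of G whose defect groups are the Sylow 2-subgroups of G (a block of full defect) and which is not the principal block is different from its complex-conjugate block, the block formed by the complex conjugates of the members of B. -/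
theorem result {G : Type*} [Group G] [Finite G] (M : Ideal Cfsg.AlgInt) (hM : Cfsg.IsPModular 2 M) (B : Set (Cfsg.IrrCharacter G)) (hB : Cfsg.IsPBlock M B) (P : Sylow 2 G) (hfull : Cfsg.IsDefectGroup 2 M B (P : Subgroup G)) (hnp : B ≠ Cfsg.principalBlock M G) : {ψ : Cfsg.IrrCharacter G | ∃ χ ∈ B, (ψ : G → ℂ) = fun g => (starRingEnd ℂ) ((χ : G → ℂ) g)} ≠ B := by
  classical
  have := Fintype.ofFinite G
  have := hM.2.1.isPrime
  have : Fact (Nat.Prime 2) := ⟨Nat.prime_two⟩
  intro heq
  have hcj : ∀ χ ∈ B, cj χ ∈ B := by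
    intro χ hχ
    rw [← heq]
    exact ⟨χ, hχ, rfl⟩
  obtain ⟨χ, hχ⟩ := isPBlock_nonempty hB
  obtain ⟨g0, hg0, P0, hP0⟩ := hfull
  obtain ⟨F, hFdef⟩ : ∃ F : G → ℂ, F = fun g => Cfsg.blockCoeff B g * Cfsg.centralChar (χ : G → ℂ) g :=
    ⟨_, rfl⟩
  have hFa : ∀ g, F g = Cfsg.blockCoeff B g * Cfsg.centralChar (χ : G → ℂ) g := by
    intro g; rw [hFdef]
  have hcl : Cfsg.IsClassFunction G F := by
    intro g h
    rw [hFa, hFa, blockCoeff_classfn B g h, centralChar_classfn χ g h]
  have hR : ∀ g, Cfsg.MemLocalRing M (F g) := by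
    intro g
    rw [hFa]
    exact memLocalRing_mul (osima hB g) (memLocalRing_of_isIntegral (irr_omega_integral χ g))
  have hinv : ∀ g, Cfsg.MemLocalIdeal M (F g⁻¹ - F g) := by
    intro g
    rw [hFa, hFa, blockCoeff_inv hcj, ← mul_sub, ← centralChar_cj]
    exact memLocalIdeal_mul (osima hB g) (isPBlock_sameBlock hB (hcj χ hχ) hχ g)
  have hreal : ∀ g, g ≠ 1 → IsConj g g⁻¹ → Cfsg.MemLocalIdeal M (F g) := by
    intro g hg1 hreal
    rw [hFa]
    by_cases h2 : 2 ∣ orderOf g
    · rw [blockCoeff_eq_zero_of_singular hM hB h2, zero_mul]; exact memLocalIdeal_zero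
    · have hodd : Odd (orderOf g) := by
        rw [← Nat.not_even_iff_odd, even_iff_two_dvd]; exact h2
      have heven := even_index_of_real hg1 hodd hreal
      by_contra hcon
      have hω : ¬ Cfsg.MemLocalIdeal M (Cfsg.centralChar (χ : G → ℂ) g) :=
        fun h => hcon (memLocalIdeal_mul (osima hB g) h)
      obtain ⟨x, Q, hQ⟩ := (Cfsg.Agent.S0911.result 2 M hM B hB g0 hg0 P0 g).2 ⟨χ, hχ, hω⟩
      rw [← hP0] at hQ
      have hc1 : Nat.card (P : Subgroup G)
          ≤ Nat.card (Q : Subgroup (Subgroup.centralizer ({g} : Set G))) := by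
        have h1 := Subgroup.card_le_of_le hQ
        rw [Subgroup.card_map_of_injective (MulAut.conj x).injective,
          Subgroup.card_map_of_injective (Subgroup.subtype_injective _)] at h1
        exact h1
      rw [Sylow.card_eq_multiplicity, Sylow.card_eq_multiplicity] at hc1
      have hc2 := (Nat.pow_le_pow_iff_right (by norm_num : 1 < 2)).1 hc1
      have hmul := Subgroup.card_mul_index (Subgroup.centralizer ({g} : Set G))
      have hi0 : (Subgroup.centralizer ({g} : Set G)).index ≠ 0 := Subgroup.index_ne_zero_of_finite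
      have hfac := Nat.factorization_mul
        (Nat.card_pos (α := Subgroup.centralizer ({g} : Set G))).ne' hi0
      rw [hmul] at hfac
      have hfac2 := congrArg (fun f => f 2) hfac
      simp only [Finsupp.coe_add, Pi.add_apply] at hfac2
      have hi1 := (Nat.prime_two.dvd_iff_one_le_factorization hi0).1 heven
      omega
  have hF := class_pairing hM F hcl hR hinv hreal
  simp only [hFa] at hF
  have hom : ∑ x : ConjClasses G, Cfsg.blockCoeff B (Quotient.out x)
      * Cfsg.centralChar (χ : G → ℂ) (Quotient.out x) = 1 := by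
    rw [← om_eq_sum_classes (blockCoeff_classfn B) χ, om_blockCoeff, if_pos hχ]
  rw [hom] at hF
  have hω1 : Cfsg.centralChar (χ : G → ℂ) 1 = 1 := by
    unfold Cfsg.centralChar
    have : Subgroup.centralizer ({1} : Set G) = ⊤ := by
      ext x; simp [Subgroup.mem_centralizer_singleton_iff]
    rw [this, Subgroup.index_top, Nat.cast_one, one_mul, div_self (irr_one_ne_zero χ)]
  simp only [hω1, mul_one] at hF
  have h1 : ¬ Cfsg.MemLocalIdeal M (Cfsg.blockCoeff B 1) := by
    intro h
    have := memLocalIdeal_add hF h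
    rw [sub_add_cancel] at this
    exact not_memLocalIdeal_one this
  have hone := irrOne_mem_of_blockCoeff_one hM hB hcj h1
  have hfin := isPBlock_eq_blockOf hB hone
  apply hnp
  rw [hfin]
  rfl

end Cfsg.Agent.S4490
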