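import Cfsg.Statements.S4493
import Cfsg.Agent.Lib.Helper83Ito

set_option autoImplicit false
open Cfsg

namespace Cfsg.Agent.S4493


/-- Let G be a finite solvable group and p a prime. Then G has a normal abelian Sylow p-subgroup if and only if no irreducible character degree of G is divisible by p. -/
theorem result {G : Type*} [Group G] [Finite G] (hsolv : Group.IsSolvable G) (p : ℕ) (hp : p.Prime) : (∃ P : Subgroup G, P.Normal ∧ (∀ x ∈ P, ∀ y ∈ P, x * y = y * x) ∧ IsPGroup p P ∧ ¬ p ∣ P.index) ↔ ∀ χ : Cfsg.IrrCharacter G, ¬ p ∣ Cfsg.charDegree (χ : G → ℂ) := by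
  have : Fact p.Prime := ⟨hp⟩
  constructor
  · rintro ⟨P, hn, hc, -, hidx⟩ χ hd
    have := hn
    have h1 := Cfsg.Agent.Lib.Helper83Ito.ito P
      (fun a b => Subtype.ext (hc a a.2 b b.2)) χ
    exact hidx (hd.trans h1)
  · intro hdeg
    obtain ⟨P⟩ : Nonempty (Sylow p G) := inferInstance
    have hn := Cfsg.Agent.Lib.Helper83Ito.normal_sylow_aux p (fun G _ => Group.IsSolvable G)
      (fun G _ _ N _ h => by
        have := h
        infer_instance)
      (fun G _ _ _ h => Cfsg.Agent.Lib.Helper83Ito.exists_normal_of_solvable p G h)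
      _ G rfl hsolv hdeg P
    refine ⟨P, hn, ?_, P.2, P.not_dvd_index⟩
    intro x hx y hy
    exact congrArg Subtype.val
      (Cfsg.Agent.Lib.Helper83Ito.comm_of_normal p hdeg (P : Subgroup G) P.2 hn ⟨x, hx⟩ ⟨y, hy⟩)

end Cfsg.Agent.S4493
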