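import Cfsg.Statements.S4495
import Cfsg.Agent.Lib.Helper78SelfCentB

set_option autoImplicit false
open Cfsg

namespace Cfsg.Agent.S4495

/-- Let the finite group G contain an element x of prime order p with C_G(x) = ⟨x⟩, and let t be the number of conjugacy classes of elements of order p. If t ≠ p − 1 then the commutator subgroup has index at most (p − 1)/t; if t = p − 1 it has index exactly p. -/
theorem result {G : Type*} [Group G] [Finite G] (p : ℕ) (hp : p.Prime) (x : G) (hx : orderOf x = p) (hC : Subgroup.centralizer ({x} : Set G) = Subgroup.zpowers x) (t : ℕ) (ht : Nat.card {C : ConjClasses G // ∃ g ∈ C.carrier, orderOf g = p} = t) : (t ≠ p - 1 → (commutator G).index * t ≤ p - 1) ∧ (t = p - 1 → (commutator G).index = p) := by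
  have hmul := Lib.Helper78SelfCentB.card_E_mul_card_classes p hp x hx hC
  have hiff := Lib.Helper78SelfCentB.E_eq_bot_iff p hp x hx hC
  rw [ht] at hmul hiff
  refine ⟨fun h => ?_, fun h => ?_⟩
  · have hE : Lib.Helper78SelfCentB.E p hp x hx ≠ ⊥ := fun h' => h (hiff.1 h')
    have hle := Lib.Helper78SelfCentB.index_commutator_le p hp x hx hC hE
    calc (commutator G).index * t ≤ Nat.card (Lib.Helper78SelfCentB.E p hp x hx) * t :=
          Nat.mul_le_mul_right t hle
      _ = p - 1 := hmul
  · exact (Lib.Helper78SelfCentB.commutator_of_E_eq_bot p hp x hx hC (hiff.2 h)).1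

end Cfsg.Agent.S4495
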