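import Cfsg.Statements.S4498
import Cfsg.Agent.Lib.Helper81Orth
import Cfsg.Agent.Lib.Helper82Linear

set_option autoImplicit false
open Cfsg

namespace Cfsg.Agent.S4498

open Cfsg.Agent.Lib Cfsg.Agent.Lib.Helper81Local Cfsg.Agent.Lib.Helper81Base
  Cfsg.Agent.Lib.Helper81Block Cfsg.Agent.Lib.Helper81Orth
open scoped ComplexConjugate

/-- the order of the `p`-part divides the order of the element -/
theorem orderOf_ppart_dvd {G : Type*} [Group G] {p : ℕ} (hp : p.Prime) {g z : G}
    (h : Cfsg.IsPPart p g z) : orderOf z ∣ orderOf g := by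
  obtain ⟨w, hzw, hc, ⟨k, hk⟩, hw⟩ := h
  have hcop : (orderOf z).Coprime (orderOf w) := by
    rw [hk]
    exact Nat.Coprime.pow_left _ ((Nat.Prime.coprime_iff_not_dvd hp).2 hw)
  rw [← hzw, hc.orderOf_mul_eq_mul_orderOf_of_coprime hcop]
  exact dvd_mul_right _ _

theorem isPPart_self {G : Type*} [Group G] {p : ℕ} (hp : p.Prime) {x : G} (hx : orderOf x = p) :
    Cfsg.IsPPart p x x :=
  ⟨1, mul_one x, Commute.one_right x, ⟨1, by rw [hx, pow_one]⟩, by
    rw [orderOf_one]; exact fun h => hp.one_lt.ne' (Nat.dvd_one.1 h)⟩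

/-- Let p and q be distinct primes dividing the order of the finite group G, and suppose G has no element of order p·q. Fix maximal ideals M_p over p and M_q over q of the algebraic integers. Then the principal p-block and the principal q-block of G have a non-principal irreducible character in common. -/
theorem result {G : Type*} [Group G] [Finite G] (p q : ℕ) [Fact p.Prime] [Fact q.Prime] (hpq : p ≠ q) (hp : p ∣ Nat.card G) (hq : q ∣ Nat.card G) (hno : ∀ g : G, orderOf g ≠ p * q) (Mp Mq : Ideal Cfsg.AlgInt) (hMp : Cfsg.IsPModular p Mp) (hMq : Cfsg.IsPModular q Mq) : ∃ χ : Cfsg.IrrCharacter G, (χ : G → ℂ) ≠ (fun _ => 1) ∧ χ ∈ Cfsg.principalBlock Mp G ∧ χ ∈ Cfsg.principalBlock Mq G := by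
  classical
  have := Fintype.ofFinite G
  have hpp : p.Prime := Fact.out
  have hqq : q.Prime := Fact.out
  have := hMp.2.1.isPrime
  have := hMq.2.1.isPrime
  obtain ⟨x, hx⟩ := exists_prime_orderOf_dvd_card' (G := G) p hp
  obtain ⟨y, hy⟩ := exists_prime_orderOf_dvd_card' (G := G) q hq
  obtain ⟨Bp, hBp⟩ : ∃ B, B = Cfsg.principalBlock Mp G := ⟨_, rfl⟩
  obtain ⟨Bq, hBq⟩ : ∃ B, B = Cfsg.principalBlock Mq G := ⟨_, rfl⟩
  rw [← hBp, ← hBq]
  have hBp' : Cfsg.IsPBlock Mp Bp := ⟨Helper82Linear.irrOne G, hBp⟩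
  have hBq' : Cfsg.IsPBlock Mq Bq := ⟨Helper82Linear.irrOne G, hBq⟩
  have h1p : Helper82Linear.irrOne G ∈ Bp := by
    rw [hBp]; exact self_mem_blockOf (Helper82Linear.irrOne G)
  have h1q : Helper82Linear.irrOne G ∈ Bq := by
    rw [hBq]; exact self_mem_blockOf (Helper82Linear.irrOne G)
  by_contra hcon
  push Not at hcon
  have honly : ∀ χ : Cfsg.IrrCharacter G, χ ∈ Bp → χ ∈ Bq → χ = Helper82Linear.irrOne G := by
    intro χ h1 h2
    by_contra hne
    exact hcon χ (fun h => hne (Subtype.ext h)) h1 h2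
  have key : ∀ g : G,
      (∑ χ : Cfsg.IrrCharacter G, (if χ ∈ Bp then (χ : G → ℂ) x * conj ((χ : G → ℂ) g) else 0))
      * (∑ ψ : Cfsg.IrrCharacter G, (if ψ ∈ Bq then (ψ : G → ℂ) g * conj ((ψ : G → ℂ) y) else 0))
      = 0 := by
    intro g
    obtain ⟨z, hz⟩ := exists_ppart (p := p) hpp g
    obtain ⟨w, hw⟩ := exists_ppart (p := q) hqq g
    by_cases h1 : IsConj x z
    · by_cases h2 : IsConj w y
      · exfalso
        have hoz : orderOf z = p := by
          obtain ⟨c, hc⟩ := isConj_iff.1 h1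
          rw [← hc, ← hx]
          exact orderOf_injective (MulAut.conj c).toMonoidHom (MulAut.conj c).injective x
        have how : orderOf w = q := by
          obtain ⟨c, hc⟩ := isConj_iff.1 h2
          rw [← hy, ← hc]
          exact (orderOf_injective (MulAut.conj c).toMonoidHom (MulAut.conj c).injective w).symm
        have d1 : p ∣ orderOf g := hoz ▸ orderOf_ppart_dvd hpp hz
        have d2 : q ∣ orderOf g := how ▸ orderOf_ppart_dvd hqq hw
        have d3 : p * q ∣ orderOf g :=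
          Nat.Coprime.mul_dvd_of_dvd_of_dvd ((Nat.coprime_primes hpp hqq).2 hpq) d1 d2
        obtain ⟨k, hk⟩ := d3
        have hk0 : k ≠ 0 := by
          rintro rfl
          rw [mul_zero] at hk
          exact (orderOf_pos g).ne' hk
        apply hno (g ^ k)
        rw [orderOf_pow_of_dvd hk0 (by rw [hk]; exact dvd_mul_left _ _), hk,
          Nat.mul_div_cancel _ (Nat.pos_of_ne_zero hk0)]
      · rw [block_orth hMq hBq' hw (isPPart_self hqq hy) h2, mul_zero]
    · rw [block_orth hMp hBp' (isPPart_self hpp hx) hz h1, zero_mul]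
  have hsum : ∑ g : G,
      (∑ χ : Cfsg.IrrCharacter G, (if χ ∈ Bp then (χ : G → ℂ) x * conj ((χ : G → ℂ) g) else 0))
      * (∑ ψ : Cfsg.IrrCharacter G, (if ψ ∈ Bq then (ψ : G → ℂ) g * conj ((ψ : G → ℂ) y) else 0))
      = 0 := Finset.sum_eq_zero (fun g _ => key g)
  have hexp : ∑ g : G,
      (∑ χ : Cfsg.IrrCharacter G, (if χ ∈ Bp then (χ : G → ℂ) x * conj ((χ : G → ℂ) g) else 0))
      * (∑ ψ : Cfsg.IrrCharacter G, (if ψ ∈ Bq then (ψ : G → ℂ) g * conj ((ψ : G → ℂ) y) else 0))
      = ∑ χ : Cfsg.IrrCharacter G, ∑ ψ : Cfsg.IrrCharacter G,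
          (if χ ∈ Bp then (if ψ ∈ Bq then (χ : G → ℂ) x * conj ((ψ : G → ℂ) y) *
            ∑ g : G, (ψ : G → ℂ) g * conj ((χ : G → ℂ) g) else 0) else 0) := by
    simp_rw [Finset.sum_mul_sum]
    rw [Finset.sum_comm]
    apply Finset.sum_congr rfl
    intro χ _
    rw [Finset.sum_comm]
    apply Finset.sum_congr rfl
    intro ψ _
    split_ifs
    · rw [Finset.mul_sum]
      apply Finset.sum_congr rfl
      intro g _
      ring
    · simp
    · simp
    · simp
  rw [hexp] at hsum
  simp_rw [irr_orth] at hsum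
  rw [Finset.sum_eq_single (Helper82Linear.irrOne G),
    Finset.sum_eq_single (Helper82Linear.irrOne G)] at hsum
  · rw [if_pos h1p, if_pos h1q, if_pos rfl] at hsum
    simp [Helper82Linear.irrOne] at hsum
  · intro ψ _ hψ
    rw [if_pos h1p]
    split_ifs <;> simp_all
  · intro h; exact absurd (Finset.mem_univ _) h
  · intro χ _ hχ
    apply Finset.sum_eq_zero
    intro ψ _
    split_ifs with a b c
    · exfalso; subst c; exact hχ (honly _ a b)
    · simp
    · rfl
    · rfl
  · intro h; exact absurd (Finset.mem_univ _) h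

end Cfsg.Agent.S4498
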