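import Cfsg.Statements.S4500
import Cfsg.Agent.Lib.Helper81Height
import Cfsg.Agent.Lib.Helper81Orth
import Cfsg.Agent.Lib.Helper81ClassMul
import Cfsg.Agent.Lib.Helper81Subsec2
import Cfsg.Agent.Lib.Helper82Linear

set_option autoImplicit false
set_option linter.unusedSectionVars false
set_option linter.unusedVariables false
open Cfsg

namespace Cfsg.Agent.S4500

open Cfsg.Agent.Lib.Helper81Local Cfsg.Agent.Lib.Helper81Base Cfsg.Agent.Lib.Helper81BB
  Cfsg.Agent.Lib.Helper81Block Cfsg.Agent.Lib.Helper81Orth Cfsg.Agent.Lib.Helper81Defect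
  Cfsg.Agent.Lib.Helper81Height Cfsg.Agent.Lib.Helper81Subsec2
open Cfsg.Agent.Lib.Helper82Linear
open scoped ComplexConjugate

variable {G : Type*} [Group G] [Finite G]

/-- a vanishing degree-weighted sum containing the principal character has another member of
degree prime to `r`. -/
theorem exists_not_dvd (S : Finset (IrrCharacter G)) (h1 : irrOne G ∈ S) (x : G)
    (hsum : ∑ χ ∈ S, (χ : G → ℂ) 1 * conj ((χ : G → ℂ) x) = 0) (r : ℕ) (hr : r.Prime) :
    ∃ χ ∈ S, χ ≠ irrOne G ∧ ¬ r ∣ charDegree (χ : G → ℂ) := by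
  classical
  by_contra hcon
  push Not at hcon
  rw [← Finset.add_sum_erase S _ h1] at hsum
  have e1 : ((irrOne G : IrrCharacter G) : G → ℂ) 1 * conj (((irrOne G : IrrCharacter G) : G → ℂ) x)
      = 1 := by
    show (1 : ℂ) * conj (1 : ℂ) = 1
    simp
  rw [e1] at hsum
  set y : ℂ := ∑ χ ∈ S.erase (irrOne G),
    ((charDegree (χ : G → ℂ) / r : ℕ) : ℂ) * conj ((χ : G → ℂ) x) with hy
  have hyint : IsIntegral ℤ y := by
    apply IsIntegral.sum
    intro χ _
    apply IsIntegral.mul (isIntegral_natCast _)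
    have h2 : IsIntegral ℤ ((χ : G → ℂ) x) :=
      Cfsg.Agent.Lib.Helper4Char2.IsCharacter.isIntegral
        (Cfsg.Agent.Lib.Helper4Char.IsIrrCharacter.isCharacter χ.2) x
    exact h2.map (starRingEnd ℂ).toIntAlgHom
  have hry : (r : ℂ) * y = -1 := by
    have : (r : ℂ) * y = ∑ χ ∈ S.erase (irrOne G), (χ : G → ℂ) 1 * conj ((χ : G → ℂ) x) := by
      rw [hy, Finset.mul_sum]
      apply Finset.sum_congr rfl
      intro χ hχ
      have hd := hcon χ (Finset.mem_of_mem_erase hχ) (Finset.ne_of_mem_erase hχ)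
      rw [← charDegree_eq χ, ← mul_assoc]
      congr 1
      rw [← Nat.cast_mul, Nat.mul_div_cancel' hd]
    rw [this]
    linear_combination hsum
  have hr0 : (r : ℂ) ≠ 0 := by exact_mod_cast hr.ne_zero
  have hyq : y = ((-1 / r : ℚ) : ℂ) := by
    push_cast
    field_simp
    linear_combination hry
  rw [hyq] at hyint
  obtain ⟨n, hn⟩ := Cfsg.Agent.Lib.Helper4Char3.exists_int_of_isIntegral_rat _ hyint
  have hr0' : (r : ℚ) ≠ 0 := by exact_mod_cast hr.ne_zero
  have h3 : (n : ℚ) * r = -1 := by rw [hn]; field_simp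
  have h4 : n * (r : ℤ) = -1 := by exact_mod_cast h3
  have h5 : (r : ℤ) ∣ 1 := ⟨-n, by linear_combination h4⟩
  have h6 : r ∣ 1 := by exact_mod_cast h5
  exact hr.one_lt.ne' (Nat.dvd_one.1 h6)

theorem key [Nontrivial G] (p q r a b c : ℕ) (hp : p.Prime) (hq : q.Prime) (hr : r.Prime)
    (hpq : p ≠ q) (hpr : p ≠ r) (hqr : q ≠ r) (ha : a ≤ 2)
    (hG : Nat.card G = p ^ a * q ^ b * r ^ c) :
    ∃ χ : IrrCharacter G, (χ : G → ℂ) ≠ (fun _ => 1) ∧ ∃ k : ℕ, charDegree (χ : G → ℂ) = q ^ k := by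
  classical
  let _ : Fintype G := Fintype.ofFinite _
  have : Fact p.Prime := ⟨hp⟩
  -- it suffices to find a nonprincipal character of degree prime to `p` and `r`
  suffices h : ∃ χ : IrrCharacter G, χ ≠ irrOne G ∧ ¬ p ∣ charDegree (χ : G → ℂ) ∧
      ¬ r ∣ charDegree (χ : G → ℂ) by
    obtain ⟨χ, h1, h2, h3⟩ := h
    refine ⟨χ, fun hh => h1 (Subtype.ext hh), ?_⟩
    have hd := irr_deg_dvd χ
    rw [hG] at hd
    have c1 : (charDegree (χ : G → ℂ)).Coprime (r ^ c) :=
      Nat.Coprime.pow_right c ((Nat.coprime_comm.1 ((hr.coprime_iff_not_dvd).2 h3)))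
    have c2 : (charDegree (χ : G → ℂ)).Coprime (p ^ a) :=
      Nat.Coprime.pow_right a ((Nat.coprime_comm.1 ((hp.coprime_iff_not_dvd).2 h2)))
    have d1 := c1.dvd_of_dvd_mul_right hd
    have d2 := c2.dvd_of_dvd_mul_left d1
    obtain ⟨k, _, hk⟩ := (Nat.dvd_prime_pow hq).1 d2
    exact ⟨k, hk⟩
  by_cases hpG : p ∣ Nat.card G
  · obtain ⟨M, hM⟩ := Cfsg.Agent.Lib.Helper81ClassMul.exists_modular hp
    have hMp := hM.2.1.isPrime
    obtain ⟨x, hx⟩ := exists_prime_orderOf_dvd_card' p hpG
    have hB : IsPBlock M (principalBlock M G) := isPBlock_principalBlock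
    have h1 : ¬ p ∣ orderOf (1 : G) := by
      rw [orderOf_one]; exact hp.one_lt.ne' ∘ Nat.dvd_one.mp
    have hs := weak_block_orth hM hB h1 (y := x) (by rw [hx])
    rw [← Finset.sum_filter] at hs
    have hone : irrOne G ∈ principalBlock M G := sameBlock_refl _
    obtain ⟨χ, hχ, hne, hnr⟩ := exists_not_dvd _
      (Finset.mem_filter.2 ⟨Finset.mem_univ _, hone⟩) x hs r hr
    refine ⟨χ, hne, ?_, hnr⟩
    have hχB : χ ∈ principalBlock M G := (Finset.mem_filter.1 hχ).2
    have hmin : minVal p (principalBlock M G) = 0 := by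
      have := minVal_le (p := p) hone
      have h0 : charDegree ((irrOne G : IrrCharacter G) : G → ℂ) = 1 := by
        have := charDegree_eq (irrOne G)
        have h2 : ((irrOne G : IrrCharacter G) : G → ℂ) 1 = 1 := rfl
        rw [h2] at this
        exact_mod_cast this
      rw [h0] at this
      simpa using this
    have hfac : (Nat.card G).factorization p = a := by
      rw [hG, Nat.factorization_mul (mul_ne_zero (pow_ne_zero _ hp.ne_zero)
        (pow_ne_zero _ hq.ne_zero)) (pow_ne_zero _ hr.ne_zero),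
        Nat.factorization_mul (pow_ne_zero _ hp.ne_zero) (pow_ne_zero _ hq.ne_zero),
        hp.factorization_pow, hq.factorization_pow, hr.factorization_pow]
      simp [hpq.symm, hpr.symm, hpq, hpr]
    have hdef : blockDefect p (principalBlock M G) = a := by
      rw [blockDefect_def, hmin, hfac]; rfl
    have hht : blockHeight p (principalBlock M G) (χ : G → ℂ) = 0 := by
      by_contra hne0
      have := height_add_two_le hM hB hχB (Nat.pos_of_ne_zero hne0)
      rw [hdef] at this
      omega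
    rw [blockHeight_def, hmin, Nat.sub_zero] at hht
    intro hd
    have := (hp.dvd_iff_one_le_factorization (charDegree_pos χ).ne').1 hd
    omega
  · obtain ⟨x, hx⟩ := exists_ne (1 : G)
    have hs := Cfsg.Agent.Lib.Helper4Char2.col_orth (1 : G) x
    rw [if_neg (by
      intro hc
      exact hx (isConj_one_right.1 hc))] at hs
    obtain ⟨χ, _, hne, hnr⟩ := exists_not_dvd _ (Finset.mem_univ _) x hs r hr
    exact ⟨χ, hne, fun hd => hpG (dvd_trans hd (irr_deg_dvd χ)), hnr⟩

/-- Let G be a non-trivial finite group of order p^a · q^b · r^c with p, q, r distinct primes and a ≤ 2. Then G has a non-principal irreducible character whose degree is a power of q, and a non-principal irreducible character whose degree is a power of r; the power may be the zeroth, so a non-principal linear character serves for both. -/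
theorem result {G : Type*} [Group G] [Finite G] [Nontrivial G] (p q r a b c : ℕ) (hp : p.Prime) (hq : q.Prime) (hr : r.Prime) (hpq : p ≠ q) (hpr : p ≠ r) (hqr : q ≠ r) (ha : a ≤ 2) (hG : Nat.card G = p ^ a * q ^ b * r ^ c) : (∃ χ : Cfsg.IrrCharacter G, (χ : G → ℂ) ≠ (fun _ => 1) ∧ ∃ k : ℕ, Cfsg.charDegree (χ : G → ℂ) = q ^ k) ∧ ∃ χ : Cfsg.IrrCharacter G, (χ : G → ℂ) ≠ (fun _ => 1) ∧ ∃ k : ℕ, Cfsg.charDegree (χ : G → ℂ) = r ^ k := by
  refine ⟨key p q r a b c hp hq hr hpq hpr hqr ha hG, ?_⟩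
  exact key p r q a c b hp hr hq hpr hpq hqr.symm ha (by rw [hG]; ring)

end Cfsg.Agent.S4500
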