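import Cfsg.Statements.S4502
import Cfsg.Agent.Lib.H4McDefs
import Cfsg.Agent.Lib.H4McMain
import Cfsg.Agent.Lib.H4McTrIso
import Cfsg.Agent.Lib.H4McTrSum
import Cfsg.Agent.Lib.H4McIto
import Cfsg.Agent.Lib.Helper81ClassMul

set_option autoImplicit false
open Cfsg

namespace Cfsg.Agent.S4502

open Cfsg.Agent.Lib.H4McDefs

/-- Let G be a finite group whose order is divisible by the prime p exactly once, and let P be a Sylow p-subgroup. Then the number of irreducible characters of G of degree not divisible by p equals the number of conjugacy classes of the normalizer of P. -/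
theorem result {G : Type*} [Group G] [Finite G] (p : ℕ) [Fact p.Prime] (hdiv : p ∣ Nat.card G) (hsq : ¬ p ^ 2 ∣ Nat.card G) (P : Sylow p G) : Nat.card {χ : Cfsg.IrrCharacter G // ¬ p ∣ Cfsg.charDegree (χ : G → ℂ)} = Nat.card (ConjClasses (Subgroup.normalizer ((P : Subgroup G) : Set G))) := by
  classical
  have : Fintype G := Fintype.ofFinite G
  have hp : p.Prime := Fact.out
  obtain ⟨M, hM⟩ := Cfsg.Agent.Lib.Helper81ClassMul.exists_modular hp
  have hfac : (Nat.card G).factorization p = 1 := by
    have h1 : 1 ≤ (Nat.card G).factorization p :=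
      (hp.dvd_iff_one_le_factorization Nat.card_pos.ne').1 hdiv
    have h2 : ¬ 2 ≤ (Nat.card G).factorization p := by
      intro h
      exact hsq ((hp.pow_dvd_iff_le_factorization Nat.card_pos.ne').2 h)
    omega
  have hP : Nat.card P = p := by
    rw [P.card_eq_multiplicity, hfac, pow_one]
  have hPN : Nat.card (PN P) = p := by
    rw [Cfsg.Agent.Lib.H4McTrIso.card_PN, hP]
  have h1 := Cfsg.Agent.Lib.H4McMain.main (P := P) hM hP
  have h2 := Cfsg.Agent.Lib.H4McMain.main (P := PN P) hM hPN
  rw [Cfsg.Agent.Lib.H4McTrSum.rhs_eq, Cfsg.Agent.Lib.H4McTrIso.card_NP,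
    Cfsg.Agent.Lib.H4McTrSum.card_CP, ← h1] at h2
  have hpos : 0 < Nat.card (NP P) * Nat.card (CP P) := Nat.mul_pos Nat.card_pos Nat.card_pos
  have h3 := Nat.eq_of_mul_eq_mul_right hpos h2
  rw [← h3]
  exact Cfsg.Agent.Lib.H4McIto.card_irr_normalizer hP

end Cfsg.Agent.S4502
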