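import Cfsg.Statements.S4506
import Cfsg.Agent.Lib.Helper81Height
import Cfsg.Agent.Lib.Helper81Orth2
import Cfsg.Agent.Lib.Helper84Contrib
import Cfsg.Agent.Lib.Helper4Eigen

set_option autoImplicit false
set_option linter.unusedSectionVars false
set_option linter.unusedVariables false
open Cfsg

namespace Cfsg.Agent.S4506

open Cfsg.Agent.Lib.Helper81Local Cfsg.Agent.Lib.Helper81Base Cfsg.Agent.Lib.Helper81BB
  Cfsg.Agent.Lib.Helper81Height Cfsg.Agent.Lib.Helper84Contrib
open scoped ComplexConjugate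

variable {G : Type*} [Group G] [Finite G]

/-- a field automorphism fixing a primitive `m`-th root of unity fixes the character values at
elements of order dividing `m`. -/
theorem fixes_value (χ : IrrCharacter G) (m : ℕ) (hm : m ≠ 0) (σ : ℂ ≃+* ℂ)
    (hσ : σ (Complex.exp (2 * Real.pi * Complex.I / m)) = Complex.exp (2 * Real.pi * Complex.I / m))
    (y : G) (hy : orderOf y ∣ m) : σ ((χ : G → ℂ) y) = (χ : G → ℂ) y := by
  obtain ⟨n, ρ, _, hρ⟩ := χ.2
  obtain ⟨μ, h1, -, -, h4, -⟩ := Cfsg.Agent.Lib.Helper4Eigen.exists_eigenvalues ρ y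
  rw [← hρ, h4, map_sum]
  apply Finset.sum_congr rfl
  intro i _
  have hprim := Complex.isPrimitiveRoot_exp m hm
  have hpow : μ i ^ m = 1 := by
    obtain ⟨c, hc⟩ := hy
    rw [hc, pow_mul, h1 i, one_pow]
  have : NeZero m := ⟨hm⟩
  obtain ⟨j, _, hj⟩ := hprim.eq_pow_of_pow_eq_one hpow
  rw [← hj, map_pow, hσ]

/-- Let G be a finite group, p a prime, p^a the p-part of the order of G and g′ its p′-part. Call two irreducible characters p-conjugate when one is obtained from the other by applying a field automorphism of ℂ that fixes the g′-th roots of unity, and let r be the number of characters p-conjugate to the irreducible character χ (χ included). Then the exponent of p in r·χ(1) is at most a; and if p^a divides r·χ(1) then p^a already divides χ(1). -/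
theorem result {G : Type*} [Group G] [Finite G] (p : ℕ) (hp : p.Prime) (χ : Cfsg.IrrCharacter G) (r : ℕ) (hr : Nat.card {ψ : Cfsg.IrrCharacter G // ∃ σ : ℂ ≃+* ℂ, σ (Complex.exp (2 * Real.pi * Complex.I / ((Nat.card G / p ^ (Nat.card G).factorization p) : ℕ))) = Complex.exp (2 * Real.pi * Complex.I / ((Nat.card G / p ^ (Nat.card G).factorization p) : ℕ)) ∧ (ψ : G → ℂ) = fun g => σ ((χ : G → ℂ) g)} = r) : (r * Cfsg.charDegree (χ : G → ℂ)).factorization p ≤ (Nat.card G).factorization p ∧ (p ^ (Nat.card G).factorization p ∣ r * Cfsg.charDegree (χ : G → ℂ) → p ^ (Nat.card G).factorization p ∣ Cfsg.charDegree (χ : G → ℂ)) := by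
  classical
  let _ : Fintype G := Fintype.ofFinite _
  have : Fact p.Prime := ⟨hp⟩
  set a := (Nat.card G).factorization p with ha
  set m := Nat.card G / p ^ a with hm
  have hm0 : m ≠ 0 := by
    intro h0
    have := Nat.not_dvd_ordCompl hp (Nat.card_pos (α := G)).ne'
    rw [← ha, ← hm, h0] at this
    exact this (dvd_zero p)
  set T : IrrCharacter G → Prop := fun ψ => ∃ σ : ℂ ≃+* ℂ,
    σ (Complex.exp (2 * Real.pi * Complex.I / (m : ℕ))) = Complex.exp (2 * Real.pi * Complex.I / (m : ℕ))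
      ∧ (ψ : G → ℂ) = fun g => σ ((χ : G → ℂ) g) with hT
  have hrT : (Finset.univ.filter T).card = r := by
    rw [← hr, Nat.card_eq_fintype_card, Fintype.card_subtype]
  have hχT : T χ := ⟨RingEquiv.refl ℂ, rfl, rfl⟩
  have hr0 : r ≠ 0 := by
    rw [← hrT]
    exact Finset.card_ne_zero_of_mem (Finset.mem_filter.2 ⟨Finset.mem_univ χ, hχT⟩)
  -- p-conjugates agree on p-regular elements
  have hA : ∀ ψ : IrrCharacter G, T ψ → ∀ y : G, ¬ p ∣ orderOf y →
      (ψ : G → ℂ) y = (χ : G → ℂ) y := by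
    rintro ψ ⟨σ, hσ, hψ⟩ y hy
    rw [hψ]
    apply fixes_value χ m hm0 σ hσ y
    have h1 : orderOf y ∣ p ^ a * m := by
      rw [hm, ha, Nat.ordProj_mul_ordCompl_eq_self]
      exact orderOf_dvd_natCard y
    exact (Nat.Coprime.pow_right a
      (Nat.coprime_comm.1 ((hp.coprime_iff_not_dvd).2 hy))).dvd_of_dvd_mul_left h1
  have hB : ∀ ψ : IrrCharacter G, T ψ → N p χ ψ = N p χ χ := by
    intro ψ hψ
    have h1 : (N p χ ψ : ℂ) = (N p χ χ : ℂ) := by
      rw [← N_spec, ← N_spec]
      unfold classInner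
      congr 1
      apply Finset.sum_congr rfl
      intro x _
      unfold tld
      split_ifs with hx
      · simp
      · rw [hA ψ hψ x hx]
    exact_mod_cast h1
  set Nn := N p χ χ with hNn
  have hNpos : 0 < Nn := N_self_pos χ
  have hsq := sum_N_sq (p := p) χ
  have hsplit : ∑ ψ : IrrCharacter G, N p χ ψ * N p χ ψ
      = (r : ℤ) * (Nn * Nn) + ∑ ψ ∈ Finset.univ.filter (fun ψ => ¬ T ψ), N p χ ψ * N p χ ψ := by
    rw [← Finset.sum_filter_add_sum_filter_not Finset.univ T]
    congr 1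
    rw [Finset.sum_congr rfl (fun ψ hψ => by rw [hB ψ (Finset.mem_filter.1 hψ).2]),
      Finset.sum_const, hrT, nsmul_eq_mul]
  have hrest : 0 ≤ ∑ ψ ∈ Finset.univ.filter (fun ψ => ¬ T ψ), N p χ ψ * N p χ ψ :=
    Finset.sum_nonneg (fun ψ _ => mul_self_nonneg _)
  have hle : (r : ℤ) * Nn ≤ (p : ℤ) ^ a := by
    have h1 : (r : ℤ) * (Nn * Nn) ≤ (p : ℤ) ^ a * Nn := by
      rw [← hsq, hsplit]; linarith
    have h2 : ((r : ℤ) * Nn) * Nn ≤ (p : ℤ) ^ a * Nn := by linarith [h1, mul_assoc (r : ℤ) Nn Nn]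
    exact le_of_mul_le_mul_right h2 hNpos
  set ν := (charDegree (χ : G → ℂ)).factorization p with hν
  have hdvd : (p : ℤ) ^ ν ∣ Nn := pow_dvd_N χ χ
  have hpν : (p : ℤ) ^ ν ≤ Nn := Int.le_of_dvd hNpos hdvd
  have hd0 : charDegree (χ : G → ℂ) ≠ 0 := (charDegree_pos χ).ne'
  have hfac : (r * charDegree (χ : G → ℂ)).factorization p = r.factorization p + ν := by
    rw [Nat.factorization_mul hr0 hd0]; rfl
  have hfr : (p : ℤ) ^ r.factorization p ≤ r := by
    exact_mod_cast Nat.ordProj_le p hr0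
  have hp0 : (0 : ℤ) < p := by exact_mod_cast hp.pos
  have hchain : (p : ℤ) ^ (r.factorization p + ν) ≤ (r : ℤ) * Nn := by
    rw [pow_add]
    exact mul_le_mul hfr hpν (pow_pos hp0 _).le (by positivity)
  constructor
  · rw [hfac]
    have h1 : (p : ℤ) ^ (r.factorization p + ν) ≤ (p : ℤ) ^ a := le_trans hchain hle
    have h2 : p ^ (r.factorization p + ν) ≤ p ^ a := by exact_mod_cast h1
    exact (Nat.pow_le_pow_iff_right hp.one_lt).1 h2
  · intro hdiv
    have hge : a ≤ r.factorization p + ν := by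
      rw [← hfac]
      exact (hp.pow_dvd_iff_le_factorization (mul_ne_zero hr0 hd0)).1 hdiv
    have h1 : (p : ℤ) ^ a ≤ (p : ℤ) ^ (r.factorization p + ν) :=
      pow_le_pow_right₀ (by exact_mod_cast hp.one_le) hge
    have heq : (r : ℤ) * Nn = (p : ℤ) ^ a := le_antisymm hle (le_trans h1 hchain)
    have hzero : ∑ ψ ∈ Finset.univ.filter (fun ψ => ¬ T ψ), N p χ ψ * N p χ ψ = 0 := by
      have h2 : (r : ℤ) * (Nn * Nn) = (p : ℤ) ^ a * Nn := by rw [← heq]; ring
      have h3 := hsq
      rw [hsplit, h2] at h3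
      linarith
    have hN0 : ∀ ψ : IrrCharacter G, ¬ T ψ → N p χ ψ = 0 := by
      intro ψ hψ
      have := (Finset.sum_eq_zero_iff_of_nonneg (fun ψ _ => mul_self_nonneg (N p χ ψ))).1 hzero ψ
        (Finset.mem_filter.2 ⟨Finset.mem_univ ψ, hψ⟩)
      exact mul_self_eq_zero.1 this
    obtain ⟨P⟩ : Nonempty (Sylow p G) := inferInstance
    let _ : Fintype (P : Subgroup G) := Fintype.ofFinite _
    obtain ⟨n, hn⟩ := Cfsg.Agent.Lib.Helper81Orth2.sum_subgroup χ (P : Subgroup G)
    have hPcard : Nat.card (P : Subgroup G) = p ^ a := P.card_eq_multiplicity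
    have hC : ∀ ψ : IrrCharacter G, T ψ →
        ∑ u : (P : Subgroup G), (ψ : G → ℂ) u = (Nat.card (P : Subgroup G) : ℂ) * n := by
      rintro ψ ⟨σ, hσ, hψ⟩
      rw [hψ]
      simp only
      rw [← map_sum, hn]
      simp
    -- evaluate on P
    have hL : ∑ u : (P : Subgroup G), tld p (χ : G → ℂ) u
        = ((p ^ a : ℕ) : ℂ) * (χ : G → ℂ) 1 := by
      rw [Finset.sum_eq_single (1 : (P : Subgroup G))]
      · unfold tld
        rw [if_neg]
        · rfl
        · simp only [Subgroup.coe_one, orderOf_one]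
          exact hp.one_lt.ne' ∘ Nat.dvd_one.mp
      · intro u _ hu
        unfold tld
        rw [if_pos]
        obtain ⟨s, hs⟩ := (IsPGroup.iff_orderOf.1 P.2) u
        rw [Subgroup.orderOf_coe, hs]
        apply dvd_pow_self
        rintro rfl
        rw [pow_zero, orderOf_eq_one_iff] at hs
        exact hu hs
      · intro h; exact absurd (Finset.mem_univ _) h
    have hR : ∑ u : (P : Subgroup G), tld p (χ : G → ℂ) u
        = ((r : ℤ) * Nn : ℤ) * ((Nat.card (P : Subgroup G) : ℂ) * n) := by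
      rw [tld_eq_sum]
      simp only [Finset.sum_apply, Pi.smul_apply, smul_eq_mul]
      rw [Finset.sum_comm]
      simp only [← Finset.mul_sum]
      rw [← Finset.sum_filter_add_sum_filter_not Finset.univ T]
      have z1 : ∑ ψ ∈ Finset.univ.filter (fun ψ => ¬ T ψ),
          (N p χ ψ : ℂ) * ∑ u : (P : Subgroup G), (ψ : G → ℂ) u = 0 := by
        apply Finset.sum_eq_zero
        intro ψ hψ
        rw [hN0 ψ (Finset.mem_filter.1 hψ).2]
        simp
      rw [z1, add_zero,
        Finset.sum_congr rfl (fun ψ hψ => by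
          rw [hB ψ (Finset.mem_filter.1 hψ).2, hC ψ (Finset.mem_filter.1 hψ).2]),
        Finset.sum_const, hrT, nsmul_eq_mul]
      push_cast
      ring
    rw [hL, heq, hPcard] at hR
    have hpa : ((p ^ a : ℕ) : ℂ) ≠ 0 := by exact_mod_cast (pow_pos hp.pos a).ne'
    have h5 : (χ : G → ℂ) 1 = ((p ^ a * n : ℕ) : ℂ) := by
      apply mul_left_cancel₀ hpa
      rw [hR]
      push_cast
      ring
    rw [← charDegree_eq χ] at h5
    have h6 : charDegree (χ : G → ℂ) = p ^ a * n := by exact_mod_cast h5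
    exact ⟨n, h6⟩

end Cfsg.Agent.S4506
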