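import Cfsg.Statements.S4507
import Cfsg.Agent.Lib.Helper4DefOneK
import Cfsg.Agent.Lib.Helper79GalConj
import Cfsg.Agent.Lib.Helper40DefOneRoot
import Cfsg.Agent.Lib.Helper76DefOneGal1
import Cfsg.Agent.Lib.Helper76DefOneGal2
import Cfsg.Agent.Lib.Helper1DefOneGal3
import Cfsg.Agent.Lib.Helper83DefOneGram
import Cfsg.Agent.Lib.Helper80DefOneFin

set_option autoImplicit false
open Cfsg

namespace Cfsg.Agent.S4507

open Subgroup Cfsg.Agent.Lib.Helper59BLGram Cfsg.Agent.Lib.Helper59BLTw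
  Cfsg.Agent.Lib.Helper4DefOneDefs Cfsg.Agent.Lib.Helper4DefOneK
  Cfsg.Agent.Lib.Helper40DefOneRoot Cfsg.Agent.Lib.Helper76DefOneGal1 Cfsg.Agent.Lib.Helper76DefOneGal2
  Cfsg.Agent.Lib.Helper1DefOneGal3 Cfsg.Agent.Lib.Helper83DefOneGram Cfsg.Agent.Lib.Helper80DefOneFin
open scoped ComplexConjugate

/-- Galois conjugates of irreducible characters are irreducible characters. -/
theorem exists_conj {G : Type*} [Group G] [Finite G] (σ : ℂ ≃+* ℂ) (χ : IrrCharacter G) :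
    ∃ χ' : IrrCharacter G, (χ' : G → ℂ) = fun g => σ ((χ : G → ℂ) g) := by
  classical
  have : Fintype G := Fintype.ofFinite G
  have hn : 0 < Nat.card G := Nat.card_pos
  let ψ : Cfsg.Agent.Lib.Helper5Galois.K →+* ℂ :=
    (σ : ℂ →+* ℂ).comp (algebraMap Cfsg.Agent.Lib.Helper5Galois.K ℂ)
  obtain ⟨m, hm, hψ⟩ := Cfsg.Agent.Lib.Helper5Galois.exists_pow_of_ringHom (Nat.card G) hn ψ
  refine ⟨⟨fun g => (χ : G → ℂ) (g ^ m), Cfsg.Agent.Lib.Helper79GalConj.isIrrCharacter_pow χ.2 m hm⟩, ?_⟩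
  obtain ⟨k, ρ, hirr, hρ⟩ := χ.2
  funext g
  have hG : ∀ g : G, g ^ Nat.card G = 1 := fun g => pow_card_eq_one'
  have := Cfsg.Agent.Lib.Helper5Galois.apply_charK ρ (Nat.card G) hn hG ψ m hψ g
  show (χ : G → ℂ) (g ^ m) = σ ((χ : G → ℂ) g)
  rw [← hρ, ← this]
  rfl

/-- Let G be a finite group whose order g is divisible by the prime p exactly once, g′ = g/p, and fix a maximal ideal M of the algebraic integers containing p. Call two irreducible characters p-conjugate when a field automorphism of ℂ fixing the g′-th roots of unity carries one to the other. Let B be a p-block of positive defect (its defect group is a Sylow p-subgroup). Then B contains a subset Y (the exceptional family) such that: Y is a full p-conjugacy class (its members are pairwise p-conjugate and every p-conjugate of a member of Y lies in Y); every member of B outside Y is p-conjugate only to itself; the size t of Y divides p − 1 and B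 has exactly t + (p − 1)/t members; and there are signs δ_χ = ±1 (χ ∈ B) such that for every p-regular element x and every θ ∈ Y, Σ_{χ ∈ B ∖ Y} δ_χ χ(x) + δ_θ θ(x) = 0. -/
theorem result {G : Type*} [Group G] [Finite G] (p : ℕ) [Fact p.Prime] (M : Ideal Cfsg.AlgInt) (hM : Cfsg.IsPModular p M) (hdiv : p ∣ Nat.card G) (hsq : ¬ p ^ 2 ∣ Nat.card G) (B : Set (Cfsg.IrrCharacter G)) (hB : Cfsg.IsPBlock M B) (hd : 0 < Cfsg.blockDefect p B) : ∃ Y : Set (Cfsg.IrrCharacter G), Y ⊆ B ∧ Y.Nonempty ∧ (∀ θ ∈ Y, ∀ ψ : Cfsg.IrrCharacter G, (∃ σ : ℂ ≃+* ℂ, σ (Complex.exp (2 * Real.pi * Complex.I / ((Nat.card G / p ^ (Nat.card G).factorization p) : ℕ))) = Complex.exp (2 * Real.pi * Complex.I / ((Nat.card G / p ^ (Nat.card G).factorization p) : ℕ)) ∧ (ψ : G → ℂ) = fun g => σ ((θ : G → ℂ) g)) ↔ ψ ∈ Y) ∧ (∀ χ ∈ B, χ ∉ Y → ∀ ψ : Cfsg.IrrCharacter G, (∃ σ : ℂ ≃+* ℂ, σ (Complex.exp (2 * Real.pi * Complex.I / ((Nat.card G / p ^ (Nat.card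 G).factorization p) : ℕ))) = Complex.exp (2 * Real.pi * Complex.I / ((Nat.card G / p ^ (Nat.card G).factorization p) : ℕ)) ∧ (ψ : G → ℂ) = fun g => σ ((χ : G → ℂ) g)) → ψ = χ) ∧ Nat.card Y ∣ p - 1 ∧ Nat.card B = Nat.card Y + (p - 1) / Nat.card Y ∧ ∃ δ : Cfsg.IrrCharacter G → ℤ, (∀ χ ∈ B, δ χ = 1 ∨ δ χ = -1) ∧ ∀ x : G, ¬ p ∣ orderOf x → ∀ θ ∈ Y, (∑ᶠ χ ∈ B \ Y, (δ χ : ℂ) * (χ : G → ℂ) x) + (δ θ : ℂ) * (θ : G → ℂ) x = 0 := by
  classical
  have : Fintype G := Fintype.ofFinite G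
  obtain ⟨P, b, θ, tw, h⟩ := exists_data hM hdiv hsq hB hd
  obtain ⟨T, hT⟩ := exists_T h.hH (θ : centralizer ((P : Subgroup G) : Set G) → ℂ)
  have hcyc : IsCyclic ↥(P : Subgroup G) := isCyclic_of_prime_card h.hP
  have hfin : Finite (↥(P : Subgroup G) →* ℂˣ) :=
    Cfsg.Agent.Lib.Helper59BLDual.finite_hom _ hcyc.isMulCommutative
  let _ : Fintype (↥(P : Subgroup G) →* ℂˣ) := Fintype.ofFinite _
  have gal_fixed : ∀ (σ : ℂ ≃+* ℂ), σ (zetaReg G p) = zetaReg G p → ∀ χ : IrrCharacter G, χ ∈ B →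
      ∀ a : ℂ, (∀ l, l ≠ 1 → mH χ (tw l) - mH χ (tw 1) = a) → ∀ g : G,
      σ ((χ : G → ℂ) g) = (χ : G → ℂ) g := fun σ hσ χ hχ a ha g =>
    gal_fixed_of_value h σ hσ χ a ha T (fun x hx y hy => value_formula h T hT χ hχ x hx y hy) g
  obtain ⟨hediv, hcardB, ε, a, Λ, hε, hΛB, hΛeq, ha, hcardE, hcardY, hDa, hDΛ⟩ :=
    main_K h T hT _ rfl
  set e := (centralizer ((P : Subgroup G) : Set G)).relIndex T with he
  have hp1 : 0 < p - 1 := by
    have := (Fact.out : p.Prime).two_le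
    omega
  have he0 : 0 < e := Nat.pos_of_dvd_of_pos hediv hp1
  have hte : (p - 1) / e * e = p - 1 := Nat.div_mul_cancel hediv
  have ht0 : 0 < (p - 1) / e := Nat.div_pos (Nat.le_of_dvd hp1 hediv) he0
  have hε0 : (ε : ℂ) ≠ 0 := by
    rcases hε with h | h <;> simp [h]
  have hrefl : ∀ l : ↥(P : Subgroup G) →* ℂˣ, l ≠ 1 →
      RelT P (θ : centralizer ((P : Subgroup G) : Set G) → ℂ) l l :=
    fun l hl => (hΛeq l l hl hl).1 rfl
  have hgal1 : ∀ σ : ℂ ≃+* ℂ, galHom σ (1 : ↥(P : Subgroup G) →* ℂˣ) = 1 := by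
    intro σ
    ext x
    simp [galHom]
  set Y : Set (IrrCharacter G) := {χ | ∃ l, l ≠ 1 ∧ χ = Λ l} with hY
  have hcY : Nat.card Y = (p - 1) / e := hcardY
  have hYB : Y ⊆ B := by
    rintro χ ⟨l, hl, rfl⟩
    exact hΛB l hl
  have hnotY : ∀ χ, χ ∉ Y → ∀ l, l ≠ 1 → χ ≠ Λ l := fun χ hχ l hl hh => hχ ⟨l, hl, hh⟩
  -- the forward direction
  have hfw : ∀ θ' ∈ Y, ∀ (ψ : IrrCharacter G) (σ : ℂ ≃+* ℂ), σ (zetaReg G p) = zetaReg G p →
      (ψ : G → ℂ) = (fun g => σ ((θ' : G → ℂ) g)) → ψ ∈ Y := by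
    intro θ' hθ' ψ σ hσ hψ
    have hψB : ψ ∈ B := (gal_mH h σ hσ θ' ψ hψ).1 (hYB hθ')
    by_contra hψY
    have hσ' : σ.symm (zetaReg G p) = zetaReg G p := by
      rw [RingEquiv.symm_apply_eq, hσ]
    have hfix := gal_fixed σ.symm hσ' ψ hψB (a ψ) (hDa ψ hψB (hnotY ψ hψY))
    have : ψ = θ' := by
      apply Subtype.ext
      funext g
      rw [← hfix g, hψ]
      simp
    exact hψY (this ▸ hθ')
  refine ⟨Y, hYB, ?_, ?_, ?_, ?_, ?_, ?_⟩
  · have : 0 < Nat.card Y := by rw [hcY]; exact ht0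
    obtain ⟨⟨y, hy⟩⟩ := (Nat.card_pos_iff.1 this).1
    exact ⟨y, hy⟩
  · intro θ' hθ' ψ
    constructor
    · rintro ⟨σ, hσ, hψ⟩
      exact hfw θ' hθ' ψ σ hσ hψ
    · rintro ⟨l', hl', rfl⟩
      obtain ⟨l, hl, rfl⟩ := hθ'
      obtain ⟨σ, hσ, hσl⟩ := exists_gal h.hP l l' hl hl'
      refine ⟨σ, hσ, ?_⟩
      obtain ⟨χ', hχ'⟩ := exists_conj σ (Λ l)
      obtain ⟨l₂, hl₂, rfl⟩ := hfw (Λ l) ⟨l, hl, rfl⟩ χ' σ hσ hχ'
      have h1 := (gal_mH h σ hσ (Λ l) (Λ l₂) hχ').2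
      have h2 := hDΛ l₂ l' hl₂ hl'
      have h3 := hDΛ l l hl hl
      rw [← hσl, h1 l, ← hgal1 σ, h1 1, h3, ind_pos (hrefl l hl), hσl] at h2
      have h4 : RelT P (θ : centralizer ((P : Subgroup G) : Set G) → ℂ) l₂ l' := by
        by_contra hcon
        rw [ind_neg hcon] at h2
        rw [mul_one, mul_zero] at h2
        exact hε0 h2
      rw [← (hΛeq l₂ l' hl₂ hl').2 h4]
      exact hχ'
  · rintro χ hχB hχY ψ ⟨σ, hσ, hψ⟩
    apply Subtype.ext
    rw [hψ]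
    funext g
    exact gal_fixed σ hσ χ hχB (a χ) (hDa χ hχB (hnotY χ hχY)) g
  · rw [hcY]
    exact ⟨e, hte.symm⟩
  · rw [hcY, hcardB, add_comm]
    congr 1
    exact (Nat.div_eq_of_eq_mul_right ht0 hte.symm).symm
  · refine ⟨fun χ => if χ ∈ Y then ε else a χ, ?_, ?_⟩
    · intro χ hχ
      by_cases hχY : χ ∈ Y
      · simp only [if_pos hχY]
        exact hε
      · simp only [if_neg hχY]
        exact ha χ hχ (hnotY χ hχY)
    · rintro x hx θ' ⟨l, hl, rfl⟩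
      have hs := sum_mH_regular h l 1 x hx
      have hΛY : Λ l ∈ Y := ⟨l, hl, rfl⟩
      have hterm : ∀ χ : IrrCharacter G, (mH χ (tw l) - mH χ (tw 1)) * (χ : G → ℂ) x =
          (if χ ∈ B \ Y then (((if χ ∈ Y then ε else a χ : ℤ) : ℂ)) * (χ : G → ℂ) x else 0) +
          (if χ = Λ l then (ε : ℂ) * (Λ l : G → ℂ) x else 0) := by
        intro χ
        by_cases hχB : χ ∈ B
        · by_cases hχY : χ ∈ Y
          · rw [if_neg (fun hh : χ ∈ B \ Y => hh.2 hχY), zero_add]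
            obtain ⟨l'', hl'', rfl⟩ := hχY
            rw [hDΛ l'' l hl'' hl]
            by_cases hrel : RelT P (θ : centralizer ((P : Subgroup G) : Set G) → ℂ) l'' l
            · rw [ind_pos hrel, if_pos ((hΛeq l'' l hl'' hl).2 hrel), (hΛeq l'' l hl'' hl).2 hrel,
                mul_one]
            · rw [ind_neg hrel, if_neg (fun hh => hrel ((hΛeq l'' l hl'' hl).1 hh))]
              simp
          · have hBY : χ ∈ B \ Y := ⟨hχB, hχY⟩
            rw [if_pos hBY, if_neg hχY,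
              if_neg (fun hh : χ = Λ l => hχY (hh ▸ hΛY)), add_zero,
              hDa χ hχB (hnotY χ hχY) l hl]
        · rw [if_neg (fun hh : χ ∈ B \ Y => hχB hh.1),
            if_neg (fun hh : χ = Λ l => hχB (hh ▸ hΛB l hl)), mH_const_of_not_mem h χ hχB l]
          simp
      rw [Finset.sum_congr rfl (fun χ _ => hterm χ), Finset.sum_add_distrib,
        Finset.sum_ite_eq' Finset.univ (Λ l), if_pos (Finset.mem_univ _)] at hs
      simp only []
      rw [if_pos hΛY, finsum_mem_eq_finite_toFinset_sum _ (Set.toFinite (B \ Y))]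
      rw [← hs]
      congr 1
      rw [← Finset.sum_filter]
      apply Finset.sum_congr
      · ext χ
        simp
      · intro χ _
        rfl

end Cfsg.Agent.S4507
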