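import Cfsg.Statements.S4508
import Cfsg.Agent.Lib.Helper4SelfC

set_option autoImplicit false
open Cfsg

namespace Cfsg.Agent.S4508

open Subgroup Cfsg.Agent.Lib.Helper4SelfC Cfsg.Agent.Lib.Helper4TI1 Cfsg.Agent.Lib.Helper4TI2

theorem even_index_of_hom {G A : Type*} [Group G] [Finite G] [Group A]
    (hA : ∀ a b : A, a * b = b * a) (f : G →* A) (g : G) (h : Even (orderOf (f g))) :
    Even (commutator G).index := by
  let _ : CommGroup A := { (inferInstance : Group A) with mul_comm := hA }
  have h1 : f g = Abelianization.lift f (Abelianization.of g) := by simp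
  have h2 : orderOf (f g) ∣ orderOf (Abelianization.of g) := by
    rw [h1]; exact orderOf_map_dvd _ _
  have h3 : orderOf (Abelianization.of g) ∣ Nat.card (Abelianization G) := orderOf_dvd_natCard _
  have h4 : 2 ∣ (commutator G).index := (even_iff_two_dvd.mp h).trans (h2.trans h3)
  exact even_iff_two_dvd.mpr h4

/-- Let the finite group G contain an element x of prime order p with C_G(x) = ⟨x⟩, and let t be the number of conjugacy classes of elements of order p. If G has an irreducible character of degree p − 1, then t is even or the commutator subgroup has even index. -/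
theorem result {G : Type*} [Group G] [Finite G] (p : ℕ) (hp : p.Prime) (x : G) (hx : orderOf x = p) (hC : Subgroup.centralizer ({x} : Set G) = Subgroup.zpowers x) (t : ℕ) (ht : Nat.card {C : ConjClasses G // ∃ g ∈ C.carrier, orderOf g = p} = t) (χ : Cfsg.IrrCharacter G) (hχ : Cfsg.charDegree (χ : G → ℂ) + 1 = p) : Even t ∨ Even (commutator G).index := by
  classical
  have := Fintype.ofFinite G
  have : Fact p.Prime := ⟨hp⟩
  let _ := Fintype.ofFinite (zpowers x →* ℂˣ)
  have D := tiData' hx hC
  have hcard : Nat.card (zpowers x) = p := by rw [Nat.card_zpowers, hx]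
  have hSyl := exists_sylow hx hC
  have hcl := card_classes D hcard hSyl
  rw [ht] at hcl
  have hχc := Cfsg.Agent.Lib.Helper4Char.IsIrrCharacter.isCharacter χ.2
  obtain ⟨d, hd⟩ := Cfsg.Agent.Lib.Helper4Char2.IsCharacter.exists_degree hχc
  have hdx : Cfsg.charDegree (χ : G → ℂ) = d := by
    unfold Cfsg.charDegree
    rw [hd]; simp
  rw [hdx] at hχ
  rcases (Nat.Prime.two_le hp).lt_or_eq with hp2 | hp2
  · by_cases hte : Even t
    · exact Or.inl hte
    right
    have hto : Odd t := Nat.not_even_iff_odd.mp hte
    have hdeg : (χ : G → ℂ) 1 + 1 = (p : ℂ) := by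
      rw [hd, ← hχ]; push_cast; rfl
    have hpodd : Odd p := hp.odd_of_ne_two (by omega)
    have hpe : Even (p - 1) := by
      obtain ⟨k, hk⟩ := hpodd
      exact ⟨k, by omega⟩
    rcases res_one_eq_zero_or D hp hcard χ hdeg hp2 with h0 | he
    · obtain ⟨y, hyN, hyo⟩ := exists_two_elt D hp hcard hp2
      set e := eIdx (zpowers x) with he
      have he0 : e ≠ 0 := Subgroup.index_ne_zero_of_finite
      set N := 2 ^ e.factorization 2 with hN
      have heN : N * (e / N) = e := Nat.ordProj_mul_ordCompl_eq_self e 2
      have hodd' : ¬ 2 ∣ e / N := Nat.not_dvd_ordCompl Nat.prime_two he0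
      have hoddq : Odd (e / N) := by
        rw [← Nat.not_even_iff_odd, even_iff_two_dvd]; exact hodd'
      have heven : Even e := by
        rcases Nat.even_or_odd e with h | h
        · exact h
        · exfalso
          have := h.mul hto
          rw [hcl] at this
          exact (Nat.not_even_iff_odd.mpr this) hpe
      have hNeven : Even N := by
        rcases Nat.even_or_odd N with h | h
        · exact h
        · exfalso
          have := h.mul hoddq
          rw [heN] at this
          exact (Nat.not_even_iff_odd.mpr this) heven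
      have hNpos : 0 < N := by positivity
      obtain ⟨n, ρ, hirr, hρ⟩ := χ.2
      have hdim : Module.finrank ℂ (Fin n → ℂ) = N * (e / N * t) := by
        rw [← mul_assoc, heN, hcl]
        have h1 : ((Module.finrank ℂ (Fin n → ℂ) : ℕ) : ℂ) = (d : ℂ) := by
          rw [← hd, ← hρ]
          simp [Representation.character]
        have h2 : Module.finrank ℂ (Fin n → ℂ) = d := by exact_mod_cast h1
        omega
      have hvan : ∀ k, 0 < k → k < N → ρ.character (y ^ k) = 0 := by
        intro k hk0 hkN
        rw [hρ]
        apply vanish D hχc h0 _ (pow_mem hyN k)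
        intro hmem
        have h1 : orderOf (y ^ k) ∣ p := by
          have e1 : orderOf (y ^ k) = orderOf (⟨_, hmem⟩ : zpowers x) := by
            rw [← Subgroup.orderOf_coe (⟨_, hmem⟩ : zpowers x)]
          rw [e1, ← hcard]
          exact orderOf_dvd_natCard _
        have h2 : orderOf (y ^ k) ∣ N := by
          rw [← hyo]; exact orderOf_pow_dvd k
        have h3 : Nat.Coprime p N := by
          rw [hN]
          apply Nat.Coprime.pow_right
          exact (Nat.coprime_primes hp Nat.prime_two).mpr (by omega)
        have h4 : orderOf (y ^ k) = 1 := Nat.eq_one_of_dvd_coprimes h3 h1 h2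
        rw [orderOf_eq_one_iff] at h4
        have h5 := orderOf_dvd_of_pow_eq_one h4
        rw [hyo] at h5
        exact absurd (Nat.le_of_dvd hk0 h5) (by omega)
      have hdet := det_eq_neg_one ρ y N (e / N * t) hNpos hNeven hyo hdim (hoddq.mul hto) hvan
      apply even_index_of_hom (A := ℂˣ) mul_comm (Cfsg.Agent.Lib.Helper19Det.detHom ρ) y
      have h1 : Cfsg.Agent.Lib.Helper19Det.detHom ρ y = -1 := by
        apply Units.ext
        rw [Cfsg.Agent.Lib.Helper19Det.detHom_apply, hdet]; simp
      rw [h1]
      have : orderOf (-1 : ℂˣ) = 2 := by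
        rw [orderOf_eq_prime (p := 2)]
        · simp
        · intro h
          have := congrArg Units.val h
          norm_num at this
      rw [this]; exact even_two
    · exfalso
      rw [he, one_mul] at hcl
      rw [hcl] at hte
      exact hte hpe
  · right
    subst hp2
    obtain ⟨S, hS⟩ := hSyl
    have hx1 : x ≠ 1 := by
      intro h; rw [h, orderOf_one] at hx; omega
    have hP : normalizer (S : Set G) ≤ centralizer (S : Set G) := by
      intro n hn
      have hn' : n ∈ normalizer ((zpowers x : Subgroup G) : Set G) := by rw [← hS]; exact hn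
      have h1 : n * x * n⁻¹ ∈ zpowers x := D.normP n hn' x (mem_zpowers x)
      have h2 : n * x * n⁻¹ ≠ 1 := by
        intro h
        apply hx1
        have : x = n⁻¹ * (n * x * n⁻¹) * n := by group
        rw [this, h]; group
      have h3 : n * x * n⁻¹ = x := by
        obtain ⟨k, hk⟩ := (mem_zpowers_iff.mp h1)
        rcases Int.even_or_odd k with ⟨j, hj⟩ | ⟨j, hj⟩
        · exfalso
          apply h2
          rw [← hk, hj, ← two_mul, zpow_mul, zpow_ofNat, ← hx, pow_orderOf_eq_one, one_zpow]
        · rw [← hk, hj, zpow_add, zpow_mul, zpow_ofNat, ← hx, pow_orderOf_eq_one, one_zpow,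
            one_mul, zpow_one]
      have h4 : n ∈ centralizer ({x} : Set G) := by
        rw [mem_centralizer_singleton_iff]
        rw [mul_inv_eq_iff_eq_mul] at h3
        exact h3
      have h5 : centralizer ((S : Subgroup G) : Set G) = centralizer ({x} : Set G) := by
        rw [hS, zpowers_eq_closure, centralizer_closure]
      rw [← h5] at h4
      exact h4
    have hxS : x ∈ (S : Subgroup G) := by rw [hS]; exact mem_zpowers x
    apply even_index_of_hom (A := S)
      (fun a b => Subtype.ext (hP (le_normalizer b.2) a a.2)) (MonoidHom.transferSylow S hP) x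
    have h1 := MonoidHom.transferSylow_eq_pow S hP x hxS
    have h2 : Odd (S : Subgroup G).index := by
      rw [← Nat.not_even_iff_odd, even_iff_two_dvd]; exact S.not_dvd_index
    have h3 : x ^ (S : Subgroup G).index = x := by
      obtain ⟨j, hj⟩ := h2
      rw [hj, pow_add, pow_mul, ← hx, pow_orderOf_eq_one, one_pow, one_mul, pow_one]
    have h4 : MonoidHom.transferSylow S hP x = ⟨x, hxS⟩ := by
      rw [h1]; exact Subtype.ext h3
    rw [h4, Subgroup.orderOf_mk, hx]
    exact even_two

end Cfsg.Agent.S4508
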