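import Cfsg.Statements.S4509
import Cfsg.Agent.Lib.Helper78SelfCentC

set_option autoImplicit false
open Cfsg

namespace Cfsg.Agent.S4509


open Subgroup Cfsg.Agent.Lib.Helper78SelfCent Cfsg.Agent.Lib.Helper78SelfCentB Cfsg.Agent.Lib.Helper78SelfCentC
open scoped commutatorElement

variable {G : Type*} [Group G] [Finite G]

theorem ds2 : derivedSeries G 2 = ⁅commutator G, commutator G⁆ := by
  rw [derivedSeries_succ, derivedSeries_one]

theorem card_eq_of_sup_eq_top (p : ℕ) (hp : p.Prime) (x : G) (hx : orderOf x = p)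
    (hC : centralizer ({x} : Set G) = zpowers x) (S : Subgroup G) [S.Normal]
    (hS : ¬ p ∣ Nat.card S) (htop : normalizer (zpowers x : Set G) ⊔ S = ⊤) :
    Nat.card S = (normalizer (zpowers x : Set G)).index := by
  have h1 := card_sup_normalizer p hp x hx hC S hS
  rw [htop, card_top, ← card_mul_index (normalizer (zpowers x : Set G)), mul_comm] at h1
  exact (Nat.eq_of_mul_eq_mul_right Nat.card_pos h1).symm

theorem sup_eq_top_of_card_eq (p : ℕ) (hp : p.Prime) (x : G) (hx : orderOf x = p)
    (hC : centralizer ({x} : Set G) = zpowers x) (S : Subgroup G) [S.Normal]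
    (hS : ¬ p ∣ Nat.card S) (hcard : Nat.card S = (normalizer (zpowers x : Set G)).index) :
    normalizer (zpowers x : Set G) ⊔ S = ⊤ := by
  have h1 := card_sup_normalizer p hp x hx hC S hS
  rw [hcard, mul_comm, card_mul_index] at h1
  exact (card_eq_iff_eq_top _).1 h1

/-- case `E = ⊥` -/
theorem caseA (p : ℕ) (hp : p.Prime) (x : G) (hx : orderOf x = p)
    (hC : centralizer ({x} : Set G) = zpowers x) (hE : E p hp x hx = ⊥) :
    Nat.card (commutator G) = (normalizer (zpowers x : Set G)).index := by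
  obtain ⟨hidx, hnd⟩ := commutator_of_E_eq_bot p hp x hx hC hE
  have hN : normalizer (zpowers x : Set G) = zpowers x := by
    apply le_antisymm
    · intro n hn
      obtain ⟨u, hu, hnu⟩ := exists_mem_E_of_mem_normalizer p hp x hx hn
      rw [hE, mem_bot] at hu
      rw [hu, Units.val_one, pow_val_one hp] at hnu
      rw [← hC, mem_centralizer_singleton]
      have := congrArg (fun w => w * n) hnu
      simp only [inv_mul_cancel_right] at this
      exact this.symm
    · exact le_normalizer
  have h1 := card_mul_index (commutator G)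
  have h2 := card_mul_index (normalizer (zpowers x : Set G))
  rw [hidx] at h1
  rw [hN, Nat.card_zpowers, hx, ← h1, mul_comm] at h2
  rw [hN]
  exact (Nat.eq_of_mul_eq_mul_right hp.pos h2).symm

/-- case `E ≠ ⊥`, `G'' ≠ G'` -/
theorem caseB (p : ℕ) (hp : p.Prime) (x : G) (hx : orderOf x = p)
    (hC : centralizer ({x} : Set G) = zpowers x) (hE : E p hp x hx ≠ ⊥)
    (hne : derivedSeries G 2 ≠ derivedSeries G 1) :
    Nat.card (derivedSeries G 2) = (normalizer (zpowers x : Set G)).index ∧
      Nat.card (commutator G) = p * (normalizer (zpowers x : Set G)).index := by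
  have hxD := mem_commutator_of_E_ne_bot p hp x hx hE
  have hle : derivedSeries G 2 ≤ commutator G := by
    rw [← derivedSeries_one]; exact derivedSeries_antitone G (by norm_num)
  have hx2 : x ∉ derivedSeries G 2 := by
    intro h
    apply hne
    rw [derivedSeries_one]
    exact le_antisymm hle (commutator_le_of_mem p hp x hx hC _ h)
  have hnd : ¬ p ∣ Nat.card (derivedSeries G 2) := fun h => hx2 (mem_of_dvd_card p hp x hx hC _ h)
  -- R = D2 ⊔ P
  let R : Subgroup G := derivedSeries G 2 ⊔ zpowers x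
  have hRn : (R.subgroupOf (commutator G)).Normal := by
    refine ⟨fun r hr d => ?_⟩
    rw [mem_subgroupOf] at hr ⊢
    have e : ((d * r * d⁻¹ : commutator G) : G) = ⁅(d : G), (r : G)⁆ * r := by
      simp [commutatorElement_def]
    rw [e]
    refine mul_mem ((le_sup_left : derivedSeries G 2 ≤ R) ?_) hr
    rw [ds2]
    exact commutator_mem_commutator d.2 r.2
  have hxR : (⟨x, hxD⟩ : commutator G) ∈ R.subgroupOf (commutator G) := by
    rw [mem_subgroupOf]; exact (le_sup_right : zpowers x ≤ R) (mem_zpowers x)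
  have hT := eq_top_of_mem p hp x hx hC hxD (R.subgroupOf (commutator G)) hxR
  have hDR : commutator G ≤ R := subgroupOf_eq_top.1 hT
  have hRD : R = commutator G :=
    le_antisymm (sup_le hle (zpowers_le.2 hxD)) hDR
  have hcardR : Nat.card R = Nat.card (derivedSeries G 2) * p := by
    rw [← card_mul_relIndex' (le_sup_left : derivedSeries G 2 ≤ R), relIndex_sup_left,
      ← inf_relIndex_right]
    have : derivedSeries G 2 ⊓ zpowers x = ⊥ := by
      rw [eq_bot_iff]
      rintro z ⟨hz1, hz2⟩
      exact mem_bot.2 (eq_one_of_mem_of_mem_zpowers hp hx _ hnd hz1 hz2)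
    rw [this, relIndex_bot_left, Nat.card_zpowers, hx]
  have htop : normalizer (zpowers x : Set G) ⊔ derivedSeries G 2 = ⊤ := by
    rw [eq_top_iff]
    intro g _
    obtain ⟨d, hd, n, hn, rfl⟩ := frattini p hp x hx hC (commutator G) hxD g
    have hd' : d ∈ normalizer (zpowers x : Set G) ⊔ derivedSeries G 2 := by
      have : R ≤ normalizer (zpowers x : Set G) ⊔ derivedSeries G 2 :=
        sup_le le_sup_right (le_trans le_normalizer le_sup_left)
      exact this (hDR hd)
    exact mul_mem hd' ((le_sup_left : _ ≤ normalizer (zpowers x : Set G) ⊔ derivedSeries G 2) hn)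
  have hc := card_eq_of_sup_eq_top p hp x hx hC (derivedSeries G 2) hnd htop
  refine ⟨hc, ?_⟩
  rw [← hRD, hcardR, hc, mul_comm]

/-- a normal subgroup of order `[G : N]` forces `G'' ≠ G'` when `E ≠ ⊥`. -/
theorem caseC (p : ℕ) (hp : p.Prime) (x : G) (hx : orderOf x = p)
    (hC : centralizer ({x} : Set G) = zpowers x) (hE : E p hp x hx ≠ ⊥)
    (S : Subgroup G) [S.Normal] (hS : ¬ p ∣ Nat.card S)
    (hcard : Nat.card S = (normalizer (zpowers x : Set G)).index) :
    derivedSeries G 2 ≠ derivedSeries G 1 := by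
  have hxD := mem_commutator_of_E_ne_bot p hp x hx hE
  have htop := sup_eq_top_of_card_eq p hp x hx hC S hS hcard
  have hZn : (zpowers (QuotientGroup.mk x : G ⧸ S)).Normal := by
    refine ⟨fun z hz y => ?_⟩
    obtain ⟨g, rfl⟩ := QuotientGroup.mk_surjective y
    have hg : g ∈ normalizer (zpowers x : Set G) ⊔ S := htop ▸ mem_top g
    rw [mem_sup_of_normal_right] at hg
    obtain ⟨n, hn, s, hs, rfl⟩ := hg
    have e1 : ((n * s : G) : G ⧸ S) = (n : G ⧸ S) := by
      rw [QuotientGroup.mk_mul, (QuotientGroup.eq_one_iff s).2 hs, mul_one]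
    rw [e1]
    obtain ⟨i, rfl⟩ := hz
    have h1 : n * x * n⁻¹ ∈ zpowers x := (mem_normalizer_iff.1 hn x).1 (mem_zpowers x)
    obtain ⟨k, hk⟩ := h1
    have hk' : x ^ k = n * x * n⁻¹ := hk
    refine ⟨k * i, ?_⟩
    show (QuotientGroup.mk x : G ⧸ S) ^ (k * i) = (n : G ⧸ S) * (QuotientGroup.mk x : G ⧸ S) ^ i * (n : G ⧸ S)⁻¹
    rw [zpow_mul, ← conj_zpow]
    congr 1
    have := congrArg (fun w => (QuotientGroup.mk w : G ⧸ S)) hk'
    simpa using this
  let R : Subgroup G := (zpowers (QuotientGroup.mk x : G ⧸ S)).comap (QuotientGroup.mk' S)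
  have hRn : R.Normal := hZn.comap _
  have hxR : x ∈ R := by
    show (QuotientGroup.mk' S x) ∈ zpowers (QuotientGroup.mk x : G ⧸ S)
    exact mem_zpowers _
  have hDR : commutator G ≤ R := commutator_le_of_mem p hp x hx hC R hxR
  have hD2 : derivedSeries G 2 ≤ S := by
    rw [ds2, commutator_le]
    intro g₁ hg₁ g₂ hg₂
    obtain ⟨i, hi⟩ := hDR hg₁
    obtain ⟨j, hj⟩ := hDR hg₂
    rw [← QuotientGroup.eq_one_iff]
    have m : ((⁅g₁, g₂⁆ : G) : G ⧸ S) = ⁅(g₁ : G ⧸ S), (g₂ : G ⧸ S)⁆ := rfl
    have hi' : (g₁ : G ⧸ S) = (QuotientGroup.mk x : G ⧸ S) ^ i := hi.symm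
    have hj' : (g₂ : G ⧸ S) = (QuotientGroup.mk x : G ⧸ S) ^ j := hj.symm
    rw [m, hi', hj', commutatorElement_eq_one_iff_commute]
    exact (Commute.refl _).zpow_zpow i j
  intro heq
  rw [derivedSeries_one] at heq
  have hxS : x ∈ S := hD2 (heq ▸ hxD)
  exact ne_one_of_orderOf hp hx (eq_one_of_mem_of_mem_zpowers hp hx S hS hxS (mem_zpowers x))

/-- Let the finite group G contain an element x of prime order p with C_G(x) = ⟨x⟩; let t be the number of conjugacy classes of elements of order p and 1 + n·p the number of subgroups of order p. Then G has a normal subgroup of order 1 + n·p if and only if either t = p − 1, or t < p − 1 and G″ ≠ G′. Moreover, if t = p − 1 then G′ has order 1 + n·p and G/G′ is cyclic of order p; and if t < p − 1 and G″ ≠ G′ then G″ has order 1 + n·p and G′ has order p·(1 + n·p). -/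
theorem result {G : Type*} [Group G] [Finite G] (p : ℕ) (hp : p.Prime) (x : G) (hx : orderOf x = p) (hC : Subgroup.centralizer ({x} : Set G) = Subgroup.zpowers x) (t : ℕ) (ht : Nat.card {C : ConjClasses G // ∃ g ∈ C.carrier, orderOf g = p} = t) (n : ℕ) (hn : Nat.card {H : Subgroup G // Nat.card H = p} = 1 + n * p) : ((∃ S : Subgroup G, S.Normal ∧ Nat.card S = 1 + n * p) ↔ (t = p - 1 ∨ (t < p - 1 ∧ derivedSeries G 2 ≠ derivedSeries G 1))) ∧ (t = p - 1 → Nat.card (commutator G) = 1 + n * p ∧ IsCyclic (G ⧸ commutator G) ∧ (commutator G).index = p) ∧ (t < p - 1 → derivedSeries G 2 ≠ derivedSeries G 1 → Nat.card (derivedSeries G 2) = 1 + n * p ∧ Nat.card (commutator G) = p * (1 + n * p)) := by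
  have hmul := card_E_mul_card_classes p hp x hx hC
  have hiff := E_eq_bot_iff p hp x hx hC
  have hidx := card_subgroups_eq p hp x hx hC
  rw [ht] at hmul hiff
  rw [hn] at hidx
  have hp1 : 0 < p - 1 := Nat.sub_pos_of_lt hp.one_lt
  have htle : t ≤ p - 1 := Nat.le_of_dvd hp1 ⟨_, by rw [mul_comm]; exact hmul.symm⟩
  have hnd : ¬ p ∣ 1 + n * p := by
    intro h
    have : p ∣ 1 := (Nat.dvd_add_left (Dvd.intro_left n rfl)).1 h
    exact hp.one_lt.ne' (Nat.dvd_one.1 this)
  have hA : t = p - 1 → Nat.card (commutator G) = 1 + n * p ∧ IsCyclic (G ⧸ commutator G) ∧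
      (commutator G).index = p := by
    intro h
    have hE := hiff.2 h
    have h1 := (commutator_of_E_eq_bot p hp x hx hC hE).1
    refine ⟨by rw [caseA p hp x hx hC hE, hidx], ?_, h1⟩
    have : Fact p.Prime := ⟨hp⟩
    exact isCyclic_of_prime_card (p := p) h1
  have hB : t < p - 1 → derivedSeries G 2 ≠ derivedSeries G 1 →
      Nat.card (derivedSeries G 2) = 1 + n * p ∧ Nat.card (commutator G) = p * (1 + n * p) := by
    intro h hne
    have hE : E p hp x hx ≠ ⊥ := fun h' => h.ne (hiff.1 h')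
    have := caseB p hp x hx hC hE hne
    rw [← hidx] at this
    exact this
  refine ⟨⟨?_, ?_⟩, hA, hB⟩
  · rintro ⟨S, hSn, hS⟩
    by_cases h : t = p - 1
    · exact Or.inl h
    · right
      have hE : E p hp x hx ≠ ⊥ := fun h' => h (hiff.1 h')
      refine ⟨lt_of_le_of_ne htle h, ?_⟩
      exact caseC p hp x hx hC hE S (by rw [hS]; exact hnd) (by rw [hS, hidx])
  · rintro (h | ⟨h, hne⟩)
    · exact ⟨commutator G, inferInstance, (hA h).1⟩
    · exact ⟨derivedSeries G 2, inferInstance, (hB h hne).1⟩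

end Cfsg.Agent.S4509
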