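import Cfsg.Statements.S4510
import Cfsg.Agent.Lib.Helper78BlockCount

set_option autoImplicit false
open Cfsg

namespace Cfsg.Agent.S4510

open Cfsg.Agent.Lib Cfsg.Agent.Lib.Helper81Local Cfsg.Agent.Lib.Helper81Base
  Cfsg.Agent.Lib.Helper81BB Cfsg.Agent.Lib.Helper81Block Cfsg.Agent.Lib.Helper81Orth
  Cfsg.Agent.Lib.Helper78BlockCount

/-- Let G be a finite group, p a prime, M a maximal ideal of the algebraic integers containing p, and call the defect of a conjugacy class the exponent of p in the order of the centralizer of its elements. Two irreducible characters lying in p-blocks of defect exactly d lie in the same block if and only if their central characters (class size times χ(x)/χ(1)) agree modulo the local ideal at M at every p-regular element x whose class has defect exactly d. -/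
theorem result {G : Type*} [Group G] [Finite G] (p : ℕ) [Fact p.Prime] (M : Ideal Cfsg.AlgInt) (hM : Cfsg.IsPModular p M) (d : ℕ) (χ ψ : Cfsg.IrrCharacter G) (hχ : Cfsg.blockDefect p (Cfsg.blockOf M (χ : G → ℂ)) = d) (hψ : Cfsg.blockDefect p (Cfsg.blockOf M (ψ : G → ℂ)) = d) : Cfsg.SameBlock M (χ : G → ℂ) (ψ : G → ℂ) ↔ ∀ x : G, ¬ p ∣ orderOf x → (Nat.card (Subgroup.centralizer ({x} : Set G))).factorization p = d → Cfsg.MemLocalIdeal M (Cfsg.centralChar (χ : G → ℂ) x - Cfsg.centralChar (ψ : G → ℂ) x) := by
  classical
  have := Fintype.ofFinite G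
  have := hM.2.1.isPrime
  constructor
  · intro h x _ _
    exact h x
  · intro hyp
    by_contra hcon
    have hB : Cfsg.IsPBlock M (Cfsg.blockOf M (χ : G → ℂ)) := isPBlock_blockOf χ
    have hB' : Cfsg.IsPBlock M (Cfsg.blockOf M (ψ : G → ℂ)) := isPBlock_blockOf ψ
    have hχB : χ ∈ Cfsg.blockOf M (χ : G → ℂ) := self_mem_blockOf χ
    have hψB' : ψ ∈ Cfsg.blockOf M (ψ : G → ℂ) := self_mem_blockOf ψ
    have hψB : ψ ∉ Cfsg.blockOf M (χ : G → ℂ) := fun h => hcon (mem_blockOf.1 h)
    have h1 := om_blockCoeff (Cfsg.blockOf M (χ : G → ℂ)) χ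
    have h2 := om_blockCoeff (Cfsg.blockOf M (χ : G → ℂ)) ψ
    rw [if_pos hχB, om_eq_sum_classes (blockCoeff_classfn _)] at h1
    rw [if_neg hψB, om_eq_sum_classes (blockCoeff_classfn _)] at h2
    have h3 : (1 : ℂ) = ∑ C : ConjClasses G, Cfsg.blockCoeff (Cfsg.blockOf M (χ : G → ℂ)) (Quotient.out C)
        * (Cfsg.centralChar (χ : G → ℂ) (Quotient.out C)
          - Cfsg.centralChar (ψ : G → ℂ) (Quotient.out C)) := by
      simp_rw [mul_sub]
      rw [Finset.sum_sub_distrib, h1, h2, sub_zero]
    apply not_memLocalIdeal_one (M := M)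
    rw [h3]
    apply memLocalIdeal_sum
    intro C _
    by_cases hsing : p ∣ orderOf (Quotient.out C)
    · rw [blockCoeff_eq_zero_of_singular hM hB hsing, zero_mul]; exact memLocalIdeal_zero
    · by_cases hv : (Nat.card (Subgroup.centralizer ({Quotient.out C} : Set G))).factorization p = d
      · exact memLocalIdeal_mul (osima hB _) (hyp _ hsing hv)
      · by_cases ha : Cfsg.MemLocalIdeal M
            (Cfsg.blockCoeff (Cfsg.blockOf M (χ : G → ℂ)) (Quotient.out C))
        · exact memLocalIdeal_mul_right ha (memLocalRing_sub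
            (memLocalRing_of_isIntegral (irr_omega_integral _ _))
            (memLocalRing_of_isIntegral (irr_omega_integral _ _)))
        · have h4 := defect_le_of_blockCoeff hM hB ha
          apply memLocalIdeal_mul (osima hB _)
          apply memLocalIdeal_sub
          · by_contra h5
            have := defect_le_of_centralChar hM hB hχB h5
            omega
          · by_contra h5
            have := defect_le_of_centralChar hM hB' hψB' h5
            omega

end Cfsg.Agent.S4510
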