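import Cfsg.Statements.S4512
import Cfsg.Agent.Lib.Helper78Klein2

set_option autoImplicit false
open Cfsg

namespace Cfsg.Agent.S4512

/-- If G is a finite group with a Sylow 2-subgroup that is a Klein four-group and a single conjugacy class of involutions, then its principal 2-block (relative to a maximal ideal M of the algebraic integers containing 2) has 2-regular rank 3: the restrictions of its irreducible characters to the elements of odd order span a space of dimension 3 (it has three irreducible Brauer characters). -/
theorem result {G : Type*} [Group G] [Finite G] (M : Ideal Cfsg.AlgInt) (hM : Cfsg.IsPModular 2 M) (P : Sylow 2 G)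
    (hP : Nat.card P = 4) (hexp : ∀ x : P, x * x = 1)
    (hone : ∀ s t : G, orderOf s = 2 → orderOf t = 2 → IsConj s t) :
    Cfsg.blockRank 2 (Cfsg.principalBlock M G) = 3 := by
  classical
  have := Fintype.ofFinite G
  have hK : IsKleinFour (P : Subgroup G) :=
    { card_four := hP
      exponent_two := by
        have h1 : Monoid.exponent (P : Subgroup G) ∣ 2 := by
          apply Monoid.exponent_dvd_of_forall_pow_eq_one
          intro x
          rw [pow_two]; exact hexp x
        rcases (Nat.dvd_prime Nat.prime_two).1 h1 with h | h
        · exfalso
          have hs : Subsingleton (P : Subgroup G) := Monoid.exp_eq_one_iff.1 h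
          have : Nat.card (P : Subgroup G) = 1 := Nat.card_eq_one_iff_unique.2 ⟨hs, ⟨1⟩⟩
          have h4 : Nat.card (P : Subgroup G) = 4 := hP
          omega
        · exact h }
  exact Cfsg.Agent.Lib.Helper78Klein2.klein_rank hM P hK hone

end Cfsg.Agent.S4512
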