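import Cfsg.Statements.S4633
import Cfsg.Agent.Lib.Helper21Cyc
import Cfsg.Agent.Lib.Helper80IQ
import Cfsg.Agent.Lib.Helper21ND

set_option autoImplicit false
open Cfsg

namespace Cfsg.Agent.S4633

/-- Let B be a block of the finite group G relative to a maximal ideal M of the algebraic integers containing the prime p, with a nontrivial cyclic defect group P. Let c be a block of C_G(P) inducing B and T the stabilizer of c in N_G(P) (the elements of N_G(P) conjugating c to itself); T contains C_G(P). Then T/C_G(P) is cyclic of order dividing p − 1, and it acts freely on the non-identity elements of P: an element of T fixing some non-identity element of P under conjugation lies in C_G(P). -/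
theorem result {G : Type*} [Group G] [Finite G] (p : ℕ) [Fact p.Prime] (M : Ideal Cfsg.AlgInt) (hM : Cfsg.IsPModular p M) (B : Set (Cfsg.IrrCharacter G)) (hB : Cfsg.IsPBlock M B) (P : Subgroup G) (hPD : Cfsg.IsDefectGroup p M B P) (hP1 : P ≠ ⊥) (hcyc : IsCyclic P) (c : Set (Cfsg.IrrCharacter (Subgroup.centralizer (P : Set G)))) (hc : Cfsg.IsInducedBlock M (Subgroup.centralizer (P : Set G)) c B) (T : Subgroup G) (hT : ∀ g : G, g ∈ T ↔ (g ∈ Subgroup.normalizer (P : Set G) ∧ Cfsg.StabilizesBlock (Subgroup.centralizer (P : Set G)) c g)) [hn : ((Subgroup.centralizer (P : Set G)).subgroupOf T).Normal] : IsCyclic (T ⧸ (Subgroup.centralizer (P : Set G)).subgroupOf T) ∧ (Subgroup.centralizer (P : Set G)).relIndex T ∣ p - 1 ∧ ∀ g ∈ T, ∀ x ∈ P, x ≠ 1 → g * x * g⁻¹ = x → g ∈ Subgroup.centralizer (P : Set G) := by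
  classical
  let _ := Fintype.ofFinite G
  have hPr : M.IsPrime := hM.2.1.isPrime
  have hPp : IsPGroup p P := Cfsg.Agent.Lib.Helper21ND.isPGroup_of_defect hM hB hPD
  have hPC : P ≤ Subgroup.centralizer (P : Set G) := by
    intro x hx
    rw [Subgroup.mem_centralizer_iff]
    intro y hy
    have := hcyc.isMulCommutative.is_comm.comm (⟨y, hy⟩ : P) ⟨x, hx⟩
    exact congrArg Subtype.val this
  have hpair : IsBrauerPairOf p M B P c := by
    refine Cfsg.Agent.Lib.Helper80Pairs.isBrauerPairOf_iff.mpr ⟨⟨hPp, hc.1⟩, hB, fun ξ hξ => ?_⟩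
    obtain ⟨ψ, hψ⟩ := Cfsg.Agent.Lib.Helper20Block.IsPBlock.nonempty hPr hB
    have h2 := Cfsg.Agent.Lib.Helper20Induced.isInducedBlock_om _ hPr hc hξ hψ
      (Cfsg.Agent.Lib.Helper20Block.isSC_blockCoeff hPr hB)
    rw [Cfsg.Agent.Lib.Helper20Block.om_blockCoeff, if_pos hψ] at h2
    exact h2
  have hmax := Cfsg.Agent.Lib.Helper80Up.isMaximal_of_defectGroup hM hpair hPD
  have hnd := Cfsg.Agent.Lib.Helper80IQ.not_dvd_index_of_maximal hM hmax
  have hTeq : T = Cfsg.Agent.Lib.Helper80Trace.pstab P c := by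
    ext g
    rw [hT, Cfsg.Agent.Lib.Helper80Transport.stabilizesBlock_iff hPr hc.1,
      Cfsg.Agent.Lib.Helper80Stab.mem_stabFun]
    constructor
    · rintro ⟨h1, _, h3⟩
      exact ⟨h1, h3⟩
    · rintro ⟨h1, h3⟩
      exact ⟨h1, Cfsg.Agent.Lib.Helper80Pairs.normalizer_le_normalizer_centralizer _ h1, h3⟩
  rw [sup_eq_right.2 hPC, ← hTeq] at hnd
  have hTN : T ≤ Subgroup.normalizer (P : Set G) := fun g hg => ((hT g).1 hg).1
  obtain ⟨h1, h2⟩ := Cfsg.Agent.Lib.Helper21Cyc.cyclic_quot hPp hP1 hcyc hTN hnd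
  exact ⟨h1, h2, fun g hg x hx hx1 hgx =>
    Cfsg.Agent.Lib.Helper21Cyc.free_of_cyclic hPp hcyc hTN hnd hg hx hx1 hgx⟩

end Cfsg.Agent.S4633
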