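import Cfsg.Statements.S4634
import Cfsg.Agent.Lib.H25PICtx
import Cfsg.Agent.Lib.H25PIIMap
import Cfsg.Agent.Lib.H25PIFin
-- import your own Cfsg.Agent.* helpers here

set_option autoImplicit false
open Cfsg

namespace Cfsg.Agent.S4634

/-- Let B be a block of the finite group G relative to a maximal ideal M of the algebraic integers containing the prime p, with a nontrivial cyclic defect group P, let c be a block of C_G(P) inducing B, T the stabilizer of c in N_G(P) and e the index of C_G(P) in T. Let F be any finite group of order #P · e having a cyclic subgroup Q of order #P that is its own centralizer (F is then the semidirect product of Q by a cyclic group of order e acting faithfully). Then there is a perfect isometry from the set of all irreducible characters of F onto B whose signs agree on all the characters of F that do not contain Q in their kernel. -/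
theorem result {G : Type*} [Group G] [Finite G] (p : ℕ) [Fact p.Prime] (M : Ideal Cfsg.AlgInt) (hM : Cfsg.IsPModular p M) (B : Set (Cfsg.IrrCharacter G)) (hB : Cfsg.IsPBlock M B) (P : Subgroup G) (hPD : Cfsg.IsDefectGroup p M B P) (hP1 : P ≠ ⊥) (hcyc : IsCyclic P) (c : Set (Cfsg.IrrCharacter (Subgroup.centralizer (P : Set G)))) (hc : Cfsg.IsInducedBlock M (Subgroup.centralizer (P : Set G)) c B) (T : Subgroup G) (hT : ∀ g : G, g ∈ T ↔ (g ∈ Subgroup.normalizer (P : Set G) ∧ Cfsg.StabilizesBlock (Subgroup.centralizer (P : Set G)) c g)) (e : ℕ) (he : (Subgroup.centralizer (P : Set G)).relIndex T = e) (F : Type*) [Group F] [Finite F] (hF : Nat.card F = Nat.card P * e) (Q : Subgroup F) (hQ : IsCyclic Q) (hQcard : Nat.card Q = Nat.card P) (hQC : Subgroup.centralizer (Q : Set F) = Q) : ∃ (I : Cfsg.IrrCharacter F → Cfsg.IrrCharacter G) (ε : Cfsg.IrrCharacter F → ℤ), Cfsg.IsPerfectIsometry p M (Set.univ : Set (Cfsg.IrrCharacter F)) B I ε ∧ ∀ η η' : Cfsg.IrrCharacter F, (∃ x ∈ Q, (η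 : F → ℂ) x ≠ (η : F → ℂ) 1) → (∃ x ∈ Q, (η' : F → ℂ) x ≠ (η' : F → ℂ) 1) → ε η = ε η' := by
  classical
  have : Fintype G := Fintype.ofFinite G
  have : Fintype F := Fintype.ofFinite F
  have hPr : M.IsPrime := hM.2.1.isPrime
  have hTe : T = Cfsg.Agent.Lib.Helper80Trace.pstab P c :=
    Cfsg.Agent.Lib.Helper80Full2.eq_pstab hPr hc.1 hT
  rw [hTe] at he
  obtain ⟨X, Y, δ, δ₀, σ, χ₁, hctx⟩ :=
    Cfsg.Agent.Lib.H25PICtx.exists_ctx hM hPD hP1 hcyc hc he hF hQ hQcard hQC
  obtain ⟨I, ε, hI⟩ := Cfsg.Agent.Lib.H25PIIMap.exists_I hctx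
  refine ⟨I, ε, ⟨hI.bij, ?_, Cfsg.Agent.Lib.H25PIFin.perfect hctx hI⟩, ?_⟩
  · intro η _
    by_cases hη : Cfsg.Agent.Lib.Helper25PIDefs.InK Q η
    · rw [hI.eK η hη]
      exact hctx.xy.sX _ (hI.bK.mapsTo hη)
    · rw [hI.eL η hη]
      rcases hctx.xy.s0 with h0 | h0
      · right; rw [h0]
      · left; rw [h0]; norm_num
  · rintro η η' ⟨x, hx, hne⟩ ⟨x', hx', hne'⟩
    have h1 : ¬ Cfsg.Agent.Lib.Helper25PIDefs.InK Q η := fun h => hne (h x hx)
    have h2 : ¬ Cfsg.Agent.Lib.Helper25PIDefs.InK Q η' := fun h => hne' (h x' hx')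
    rw [hI.eL η h1, hI.eL η' h2]

end Cfsg.Agent.S4634
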