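import Cfsg.Statements.S4636
-- import your own Cfsg.Agent.* helpers here

set_option autoImplicit false
open scoped Pointwise
open Cfsg

namespace Cfsg.Agent.S4636

theorem mem_of_pow_eq_one {G : Type*} [Group G] [Finite G] (p : ℕ) [Fact p.Prime] (P : Subgroup G)
    (hcyc : IsCyclic P) (Z : Subgroup G) (hZ : Z ≤ P) (hZcard : Nat.card Z = p)
    (y : G) (hy : y ∈ P) (hyp : y ^ p = 1) : y ∈ Z := by
  classical
  have : Fintype P := Fintype.ofFinite P
  have hp : 0 < p := (Fact.out : p.Prime).pos
  have h1 := IsCyclic.card_pow_eq_one_le (α := P) hp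
  set S : Finset P := Finset.univ.filter (fun a : P => a ^ p = 1) with hS
  set T : Finset P := Finset.univ.filter (fun a : P => (a : G) ∈ Z) with hT
  have hTS : T ⊆ S := by
    intro a ha
    simp only [hT, hS, Finset.mem_filter, Finset.mem_univ, true_and] at ha ⊢
    have : (⟨(a : G), ha⟩ : Z) ^ Nat.card Z = 1 := pow_card_eq_one'
    rw [hZcard] at this
    have h2 := congrArg (Subtype.val) this
    ext
    simpa using h2
  have hTcard : T.card = p := by
    rw [← hZcard]
    have : Nat.card Z = Nat.card (Z.subgroupOf P) :=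
      Nat.card_congr (Subgroup.subgroupOfEquivOfLe hZ).symm.toEquiv
    rw [this, Nat.card_eq_fintype_card, Fintype.card_subtype]
    congr 1
  have hST : T = S := Finset.eq_of_subset_of_card_le hTS (by rw [hTcard]; exact h1)
  have : (⟨y, hy⟩ : P) ∈ S := by
    simp only [hS, Finset.mem_filter, Finset.mem_univ, true_and]
    ext
    simpa using hyp
  rw [← hST] at this
  simpa [hT] using this

theorem exists_gen {G : Type*} [Group G] [Finite G] (p : ℕ) [Fact p.Prime] (P : Subgroup G) (hP : IsPGroup p P)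
    (hcyc : IsCyclic P) (Z : Subgroup G) (hZ : Z ≤ P) (hZcard : Nat.card Z = p)
    (R : Subgroup G) (hR : R ≤ P) (hR1 : R ≠ ⊥) : ∃ y ∈ R, Z = Subgroup.zpowers y := by
  have hRp : IsPGroup p R := hP.to_le hR
  have : Nontrivial R := (Subgroup.nontrivial_iff_ne_bot R).mpr hR1
  obtain ⟨n, hn⟩ := IsPGroup.iff_card.mp hRp
  have hdvd : p ∣ Nat.card R := by
    rw [hn]
    have : n ≠ 0 := by
      rintro rfl
      have h1 : 1 < Nat.card R := Finite.one_lt_card
      rw [pow_zero] at hn
      omega
    exact dvd_pow_self p this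
  obtain ⟨y, hy⟩ := exists_prime_orderOf_dvd_card' p hdvd
  refine ⟨(y : G), y.2, ?_⟩
  have hyo : orderOf (y : G) = p := by rw [Subgroup.orderOf_coe]; exact hy
  have hle : Subgroup.zpowers (y : G) ≤ Z := by
    rw [Subgroup.zpowers_le]
    apply mem_of_pow_eq_one p P hcyc Z hZ hZcard _ (hR y.2)
    rw [← hyo]; exact pow_orderOf_eq_one _
  symm
  apply Subgroup.eq_of_le_of_card_ge hle
  rw [hZcard, Nat.card_zpowers, hyo]


/-- Let P be a nontrivial cyclic p-subgroup of the finite group G and Z its subgroup of order p. For every x outside N_G(Z), P meets its conjugate xPx⁻¹ trivially; consequently N_G(Q) ≤ N_G(Z) for every nontrivial subgroup Q of P. -/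
theorem result {G : Type*} [Group G] [Finite G] (p : ℕ) [Fact p.Prime] (P : Subgroup G) (hP : IsPGroup p P) (hP1 : P ≠ ⊥) (hcyc : IsCyclic P) (Z : Subgroup G) (hZ : Z ≤ P) (hZcard : Nat.card Z = p) : (∀ x : G, x ∉ Subgroup.normalizer (Z : Set G) → P ⊓ MulAut.conj x • P = ⊥) ∧ ∀ Q : Subgroup G, Q ≤ P → Q ≠ ⊥ → Subgroup.normalizer (Q : Set G) ≤ Subgroup.normalizer (Z : Set G) := by
  have key : ∀ (x y : G), y ∈ P → x⁻¹ * y * x ∈ P → Z = Subgroup.zpowers y → x ∈ Subgroup.normalizer (Z : Set G) := by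
    intro x y hy hxy hZy
    have hyZ : y ∈ Z := by rw [hZy]; exact Subgroup.mem_zpowers y
    have hyp : y ^ p = 1 := by
      have : (⟨y, hyZ⟩ : Z) ^ Nat.card Z = 1 := pow_card_eq_one'
      rw [hZcard] at this
      simpa using congrArg Subtype.val this
    have h1 : x⁻¹ * y * x ∈ Z := by
      apply mem_of_pow_eq_one p P hcyc Z hZ hZcard _ hxy
      have : (x⁻¹ * y * x) ^ p = x⁻¹ * y ^ p * x := by
        have := conj_pow (a := x⁻¹) (b := y) (i := p)
        simpa using this
      rw [this, hyp]; simp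
    have h2 : x⁻¹ ∈ Subgroup.normalizer (Z : Set G) := by
      apply Subgroup.mem_normalizer_fintype
      intro n hn
      have hn' : n ∈ Subgroup.zpowers y := by rw [← hZy]; exact hn
      obtain ⟨k, rfl⟩ := Subgroup.mem_zpowers_iff.mp hn'
      have : x⁻¹ * y ^ k * x⁻¹⁻¹ = (x⁻¹ * y * x) ^ k := by
        have := conj_zpow (a := x⁻¹) (b := y) (i := k)
        simpa using this.symm
      rw [this]
      exact Z.zpow_mem h1 k
    simpa using Subgroup.inv_mem _ h2
  constructor
  · intro x hx
    by_contra hne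
    obtain ⟨y, hyR, hZy⟩ := exists_gen p P hP hcyc Z hZ hZcard _ inf_le_left hne
    apply hx
    apply key x y hyR.1 _ hZy
    have : y ∈ MulAut.conj x • P := hyR.2
    rw [Subgroup.mem_pointwise_smul_iff_inv_smul_mem] at this
    simpa [MulAut.smul_def] using this
  · intro Q hQ hQ1 x hx
    obtain ⟨y, hyR, hZy⟩ := exists_gen p P hP hcyc Z hZ hZcard Q hQ hQ1
    apply key x y (hQ hyR) _ hZy
    apply hQ
    exact (Subgroup.mem_normalizer_iff''.mp hx y).mp hyR

end Cfsg.Agent.S4636
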