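import Cfsg.Statements.S4637
import Cfsg.Agent.Lib.Helper83Klein5
import Cfsg.Agent.Lib.Helper83Klein6
import Cfsg.Agent.Lib.Helper83Klein7
import Cfsg.Agent.Lib.Helper80IQ

set_option autoImplicit false
open Cfsg

namespace Cfsg.Agent.S4637

/-- Let B be a block of the finite group G relative to a maximal ideal M of the algebraic integers containing 2, with a Klein four defect group P. Let c be a block of C_G(P) inducing B, T the stabilizer of c in N_G(P) and e the index of C_G(P) in T (the inertial index). Then e is 1 or 3, B contains exactly four irreducible characters, and the 2-regular rank of B (its number of irreducible Brauer characters) equals e. -/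
theorem result {G : Type*} [Group G] [Finite G] (M : Ideal Cfsg.AlgInt) (hM : Cfsg.IsPModular 2 M) (B : Set (Cfsg.IrrCharacter G)) (hB : Cfsg.IsPBlock M B) (P : Subgroup G) (hPD : Cfsg.IsDefectGroup 2 M B P) (hV : IsKleinFour P) (c : Set (Cfsg.IrrCharacter (Subgroup.centralizer (P : Set G)))) (hc : Cfsg.IsInducedBlock M (Subgroup.centralizer (P : Set G)) c B) (T : Subgroup G) (hT : ∀ g : G, g ∈ T ↔ (g ∈ Subgroup.normalizer (P : Set G) ∧ Cfsg.StabilizesBlock (Subgroup.centralizer (P : Set G)) c g)) (e : ℕ) (he : (Subgroup.centralizer (P : Set G)).relIndex T = e) : (e = 1 ∨ e = 3) ∧ Nat.card B = 4 ∧ Cfsg.blockRank 2 B = e := by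
  classical
  have := Fintype.ofFinite G
  have : Fact (Nat.Prime 2) := ⟨Nat.prime_two⟩
  have hPr : M.IsPrime := hM.2.1.isPrime
  have hcard : Nat.card P = 4 := hV.card_four
  have hexp : ∀ d ∈ P, d * d = 1 := by
    intro d hd
    have h1 := IsKleinFour.mul_self (⟨d, hd⟩ : P)
    exact congrArg Subtype.val h1
  have hPgrp : IsPGroup 2 P := IsPGroup.of_card (n := 2) (by rw [hcard]; norm_num)
  have hpair := Cfsg.Agent.Lib.Helper83Klein3.pair_of_induced hM hPgrp hc
  have hmax := Cfsg.Agent.Lib.Helper80Up.isMaximal_of_defectGroup hM hpair hPD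
  have hTe := Cfsg.Agent.Lib.Helper80Full2.eq_pstab hPr hc.1 hT
  have hab := Cfsg.Agent.Lib.Helper83Klein2.comm_of_exp hexp
  have hPC : P ≤ Subgroup.centralizer (P : Set G) := by
    intro x hx
    rw [Subgroup.mem_centralizer_iff]
    intro y hy
    exact hab y hy x hx
  have hodd := Cfsg.Agent.Lib.Helper80IQ.not_dvd_index_of_maximal hM hmax
  rw [sup_eq_right.2 hPC] at hodd
  have hk4 := Cfsg.Agent.Lib.Helper83Klein2.card_eq_four_of_klein hM hB hPD hcard hexp
  subst hTe
  have hdich := Cfsg.Agent.Lib.Helper83Klein7.inertial_dichotomy hcard hexp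
    (Cfsg.Agent.Lib.Helper80Trace.centralizer_le_pstab P c)
    (Cfsg.Agent.Lib.Helper80Trace.pstab_le P c) hodd
  rw [he] at hdich
  rcases hdich with ⟨h1, h2⟩ | ⟨h1, h2⟩
  · refine ⟨Or.inl h1, hk4, ?_⟩
    rw [h1]
    exact Cfsg.Agent.Lib.Helper83Klein6.rank_one_of_trivial hM hB hPD hcard hexp hmax h2
  · refine ⟨Or.inr h1, hk4, ?_⟩
    rw [h1]
    exact Cfsg.Agent.Lib.Helper83Klein5.rank_three_of_trans hM hB hPD hcard hexp hmax h2

end Cfsg.Agent.S4637
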