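import Cfsg.Statements.S4638
import Cfsg.Agent.Lib.Helper84KleinE
import Cfsg.Agent.Lib.Helper84KleinF

set_option autoImplicit false
open Cfsg

namespace Cfsg.Agent.S4638

/-- Let B be a block of the finite group G relative to a maximal ideal M of the algebraic integers containing 2, with a Klein four defect group P, and let c be its Brauer correspondent: the block of N_G(P) with defect group P that induces B. Then there is a perfect isometry from c onto B. -/
theorem result {G : Type*} [Group G] [Finite G] (M : Ideal Cfsg.AlgInt) (hM : Cfsg.IsPModular 2 M) (B : Set (Cfsg.IrrCharacter G)) (hB : Cfsg.IsPBlock M B) (P : Subgroup G) (hPD : Cfsg.IsDefectGroup 2 M B P) (hV : IsKleinFour P) (c : Set (Cfsg.IrrCharacter (Subgroup.normalizer (P : Set G)))) (hcD : Cfsg.IsDefectGroup 2 M c (P.subgroupOf (Subgroup.normalizer (P : Set G)))) (hc : Cfsg.IsInducedBlock M (Subgroup.normalizer (P : Set G)) c B) : ∃ (I : Cfsg.IrrCharacter (Subgroup.normalizer (P : Set G)) → Cfsg.IrrCharacter G) (ε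 : Cfsg.IrrCharacter (Subgroup.normalizer (P : Set G)) → ℤ), Cfsg.IsPerfectIsometry 2 M c B I ε := by
  classical
  have := Fintype.ofFinite G
  let _ : Fintype (Subgroup.normalizer (P : Set G)) := Fintype.ofFinite _
  have hcard : Nat.card P = 4 := hV.card_four
  have hexp : ∀ d ∈ P, d * d = 1 := by
    intro d hd
    have h1 := IsKleinFour.mul_self (⟨d, hd⟩ : P)
    exact congrArg Subtype.val h1
  have hup : Cfsg.Agent.Lib.Helper80Up.upS (P.subgroupOf (Subgroup.normalizer (P : Set G))) = P :=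
    Cfsg.Agent.Lib.Helper80Up.upS_subgroupOf Subgroup.le_normalizer
  have hcardZ : Nat.card (P.subgroupOf (Subgroup.normalizer (P : Set G))) = 4 := by
    rw [← hcard]
    exact Nat.card_congr (Subgroup.subgroupOfEquivOfLe Subgroup.le_normalizer).toEquiv
  have hexpZ : ∀ d ∈ P.subgroupOf (Subgroup.normalizer (P : Set G)), d * d = 1 := by
    intro d hd
    apply Subtype.ext
    exact hexp d (Subgroup.mem_subgroupOf.1 hd)
  have hcases := Cfsg.Agent.Lib.Helper84KleinF.rank_cases hM
    (Z := P.subgroupOf (Subgroup.normalizer (P : Set G))) (by rw [hup]) hc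
    (by rw [hup]; exact hPD) hcD hcardZ hexpZ
  have hFB : Cfsg.Agent.Lib.Helper84KleinC.Four M B :=
    ⟨hM, hB, Cfsg.Agent.Lib.Helper83Klein2.defect_two_of_card hM hB hPD hcard,
      Cfsg.Agent.Lib.Helper83Klein2.card_eq_four_of_klein hM hB hPD hcard hexp⟩
  have hFc : Cfsg.Agent.Lib.Helper84KleinC.Four M c :=
    ⟨hM, hc.1, Cfsg.Agent.Lib.Helper83Klein2.defect_two_of_card hM hc.1 hcD hcardZ,
      Cfsg.Agent.Lib.Helper83Klein2.card_eq_four_of_klein hM hc.1 hcD hcardZ hexpZ⟩
  rcases hcases with ⟨h1, h2⟩ | ⟨h1, h2⟩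
  · exact Cfsg.Agent.Lib.Helper84KleinE.perfect_one hFB hFc h1 h2
      (fun χ hχ x hx => Cfsg.Agent.Lib.Helper84KleinD.vanish_four hM hB hPD hexp hχ hx)
      (fun χ hχ x hx => Cfsg.Agent.Lib.Helper84KleinD.vanish_four hM hc.1 hcD hexpZ hχ hx)
  · exact Cfsg.Agent.Lib.Helper84KleinE.perfect_three hFB hFc h1 h2

end Cfsg.Agent.S4638
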