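import Cfsg.Statements.S4640
import Cfsg.Agent.Lib.Helper79PExt
-- import your own Cfsg.Agent.* helpers here

set_option autoImplicit false
open Cfsg

namespace Cfsg.Agent.S4640

/-- Let N be a normal subgroup of the finite group G of index a power of the prime p, M a maximal ideal of the algebraic integers containing p, b a block of N stabilized by every element of G, and B a block of G covering b (some member of B has a member of b as a constituent of its restriction to N). Suppose that B has a commutative defect group P. Then G = NP and P ∩ N is a defect group of b; every member of B restricts to a member of b; every member of b is the restriction of exactly [G : N] members of B; B contains exactly [G : N] times as many irreducible characters as b; and B and b have the same p-regular rank. -/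
theorem result {G : Type*} [Group G] [Fintype G] (p : ℕ) [Fact p.Prime] (M : Ideal Cfsg.AlgInt) (hM : Cfsg.IsPModular p M) (N : Subgroup G) [N.Normal] [Fintype N] (hNi : ∃ k : ℕ, N.index = p ^ k) (b : Set (Cfsg.IrrCharacter N)) (hb : Cfsg.IsPBlock M b) (hstab : ∀ g : G, Cfsg.StabilizesBlock N b g) (B : Set (Cfsg.IrrCharacter G)) (hB : Cfsg.IsPBlock M B) (hcov : ∃ χ ∈ B, ∃ θ ∈ b, Cfsg.classInner (fun n : N => (χ : G → ℂ) n) (θ : N → ℂ) ≠ 0) (P : Subgroup G) (hPD : Cfsg.IsDefectGroup p M B P) (hPab : ∀ x ∈ P, ∀ y ∈ P, x * y = y * x) : N ⊔ P = ⊤ ∧ Cfsg.IsDefectGroup p M b ((P ⊓ N).subgroupOf N) ∧ (∀ χ ∈ B, ∃ θ ∈ b, ∀ n : N, (χ : G → ℂ) n = (θ : N → ℂ) n) ∧ (∀ θ ∈ b, Nat.card {χ : Cfsg.IrrCharacter G // χ ∈ B ∧ ∀ n : N, (χ : G → ℂ) n = (θ : N → ℂ) n} = N.index) ∧ Nat.card B = N.index * Nat.card b ∧ Cfsg.blockRank p B = Cfsg.blockRank p b := by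
  obtain ⟨hsup, hdef⟩ := Cfsg.Agent.Lib.Helper79PExt.sup_eq_top_and_defect hM N hNi b hb hstab B hB hcov P hPD
  refine ⟨hsup, hdef, ?_, ?_, ?_, ?_⟩
  · intro χ hχ
    have hirr := Cfsg.Agent.Lib.Helper79PExt.isIrr_res hM N hNi B hB P hPD hPab hsup hχ
    refine ⟨⟨_, hirr⟩, ?_, fun n => rfl⟩
    apply Cfsg.Agent.Lib.Helper79PExt.under_mem hM N b hb hstab B hB hcov hχ
    unfold Cfsg.Agent.Lib.Helper21Cover.Over
    rw [Cfsg.Agent.Lib.Helper4Char.classInner_irr_self hirr]
    exact one_ne_zero
  · intro θ hθ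
    exact Cfsg.Agent.Lib.Helper79PExt.card_ext hM N hNi b hb hstab B hB hcov P hPD hPab hsup hθ
  · exact Cfsg.Agent.Lib.Helper79PExt.card_block hM N hNi b hb hstab B hB hcov P hPD hPab hsup
  · exact Cfsg.Agent.Lib.Helper79PExt.blockRank_eq hM N hNi b hb hstab B hB hcov P hPD hPab hsup

end Cfsg.Agent.S4640
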