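import Cfsg.Statements.S4645
import Cfsg.Agent.Lib.Helper78IndPair

set_option autoImplicit false
open Cfsg

namespace Cfsg.Agent.S4645

open Cfsg.Agent.Lib.Helper20Local Cfsg.Agent.Lib.Helper80Trace Cfsg.Agent.Lib.Helper80Up
open Cfsg.Agent.Lib.Helper78IndPair Cfsg.Agent.Lib.Helper78AbNil Cfsg.Agent.Lib.Helper80Full2
open Cfsg.Agent.Lib.Helper80Abel

/-- Let B be a block of the finite group G relative to a maximal ideal M of the algebraic integers containing the prime p, with a nontrivial cyclic defect group P; let c be a block of C_G(P) inducing B and T the stabilizer of c in N_G(P). Let Q be a nontrivial subgroup of P (so C_G(P) ≤ C_G(Q)), f the block of C_G(Q) induced by c inside C_G(Q), and T' the stabilizer of f in N_G(Q). Then T' = T·C_G(Q), the index of C_G(Q) in T' equals the index of C_G(P) in T, f has p-regular rank 1, and f is a nilpotent block of C_G(Q). -/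
theorem result {G : Type*} [Group G] [Finite G] (p : ℕ) [Fact p.Prime] (M : Ideal Cfsg.AlgInt) (hM : Cfsg.IsPModular p M) (B : Set (Cfsg.IrrCharacter G)) (hB : Cfsg.IsPBlock M B) (P : Subgroup G) (hPD : Cfsg.IsDefectGroup p M B P) (hP1 : P ≠ ⊥) (hcyc : IsCyclic P) (c : Set (Cfsg.IrrCharacter (Subgroup.centralizer (P : Set G)))) (hc : Cfsg.IsInducedBlock M (Subgroup.centralizer (P : Set G)) c B) (T : Subgroup G) (hT : ∀ g : G, g ∈ T ↔ (g ∈ Subgroup.normalizer (P : Set G) ∧ Cfsg.StabilizesBlock (Subgroup.centralizer (P : Set G)) c g)) (Q : Subgroup G) (hQP : Q ≤ P) (hQ1 : Q ≠ ⊥) (f : Set (Cfsg.IrrCharacter (Subgroup.centralizer (Q : Set G)))) (hf : Cfsg.IsInducedBlockIn M (Subgroup.centralizer (Q : Set G)) (Subgroup.centralizer (P : Set G)) c f) (T' : Subgroup G) (hT' : ∀ g : G, g ∈ T' ↔ (g ∈ Subgroup.normalizer (Q : Set G) ∧ Cfsg.StabilizesBlock (Subgroup.centralizer (Q : Set G)) f g)) : T' = T ⊔ Subgroup.centralizer (Q : Set G) ∧ (Subgroup.centralizer (Q : Set G)).relIndex T' =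 (Subgroup.centralizer (P : Set G)).relIndex T ∧ Cfsg.blockRank p f = 1 ∧ Cfsg.IsNilpotentBlock p M f := by
  classical
  have := Fintype.ofFinite G
  have hPr := IsPModular.isPrime hM
  have hab := comm_of_cyclic hcyc
  have hPp : IsPGroup p P := by
    have h := Cfsg.Agent.Lib.Helper20DefCard.card_defectGroup hM hB hPD
    exact IsPGroup.of_card h
  have hPC : P ≤ Subgroup.centralizer (Q : Set G) := by
    intro y hy
    rw [Subgroup.mem_centralizer_iff]
    intro q hq
    exact hab q (hQP hq) y hy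
  have hpair := isBrauerPairOf_of_induced hM hPp hc
  have hmax := isMaximal_of_defectGroup hM hpair hPD
  have hn := isNormalSubpair_of_inducedIn hM hPp hQP hPC hf
  have hle : Cfsg.Agent.Lib.Helper80Incl.PLE p M ⟨Q, f⟩ ⟨P, c⟩ := Relation.ReflTransGen.single hn
  have hTe := eq_pstab hPr hc.1 hT
  have hTe' := eq_pstab hPr hf.2.1 hT'
  obtain ⟨h1, h2, h3⟩ := cyclic_local hM hmax hcyc hle hQ1
  rw [hTe, hTe']
  refine ⟨h1, h2, ?_, h3⟩
  have hD := isDefectGroup_of_abelian hM hmax hle hPC
  apply blockRank_of_nilpotent hM hD _ h3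
  intro x hx y hy
  exact Subtype.ext (hab x hx y hy)

end Cfsg.Agent.S4645
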