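import Cfsg.Statements.S4646
import Cfsg.Agent.Lib.Helper79NilBlock
import Cfsg.Agent.S0938
-- import your own Cfsg.Agent.* helpers here

set_option autoImplicit false
open Cfsg

namespace Cfsg.Agent.S4646

open Cfsg.Agent.Lib.Helper11Frobenius Cfsg.Agent.Lib.Helper82Linear
open Cfsg.Agent.Lib.Helper20Local Cfsg.Agent.Lib.Helper20Block

theorem pRegularPart_reg {G : Type*} [Group G] (p : ℕ) (χ : G → ℂ) {g : G}
    (hg : IsPRegular p g) : pRegularPart p χ g = χ g := by
  unfold pRegularPart
  exact if_pos hg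

theorem pRegularPart_sing {G : Type*} [Group G] (p : ℕ) (χ : G → ℂ) {g : G}
    (hg : ¬ IsPRegular p g) : pRegularPart p χ g = 0 := by
  unfold pRegularPart
  exact if_neg hg

theorem isPRegular_one {G : Type*} [Group G] (p : ℕ) [Fact p.Prime] : IsPRegular p (1 : G) := by
  unfold IsPRegular
  rw [orderOf_one]
  exact (Fact.out : p.Prime).one_lt.ne' ∘ Nat.dvd_one.mp

theorem rank_one_of_npc {G : Type*} [Group G] [Finite G] (p : ℕ) [Fact p.Prime]
    (M : Ideal Cfsg.AlgInt) (hM : Cfsg.IsPModular p M) (h : HasNPC p G) :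
    Cfsg.blockRank p (Cfsg.principalBlock M G) = 1 := by
  have hPr := IsPModular.isPrime hM
  obtain ⟨N, hN, h1, k, h2⟩ := h
  have hmem : irrOne G ∈ principalBlock M G := sameBlock_refl hPr _
  obtain ⟨K, hK, hKB, hKp, -, hmax⟩ := Cfsg.Agent.S0938.result p M hM (principalBlock M G)
    ⟨irrOne G, rfl⟩ (irrOne G) hmem
  have hNK : N ≤ K := hmax N hN
    (fun hd => (Nat.Prime.coprime_iff_not_dvd Fact.out).mp h1.symm hd) (fun g _ => rfl)
  have hval : ∀ χ ∈ principalBlock M G, ∀ g : G, IsPRegular p g →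
      (χ : G → ℂ) g = (χ : G → ℂ) 1 := by
    intro χ hχ g hg
    have hgN : g ∈ N := (mem_iff_coprime N h1 k h2 g).mpr
      ((Nat.Prime.coprime_iff_not_dvd Fact.out).mpr hg).symm
    have hgK : g ∈ (K : Set G) := hNK hgN
    rw [hKB] at hgK
    exact hgK χ hχ
  set v : G → ℂ := pRegularPart p ((irrOne G : IrrCharacter G) : G → ℂ) with hv
  have hv0 : v ≠ 0 := by
    intro h0
    have := congrFun h0 1
    rw [hv, pRegularPart_reg p _ (isPRegular_one p)] at this
    exact one_ne_zero this
  have hspan : Submodule.span ℂ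
      ((fun χ : IrrCharacter G => pRegularPart p (χ : G → ℂ)) '' principalBlock M G)
      = Submodule.span ℂ {v} := by
    apply le_antisymm
    · rw [Submodule.span_le]
      rintro _ ⟨χ, hχ, rfl⟩
      rw [SetLike.mem_coe, Submodule.mem_span_singleton]
      refine ⟨(χ : G → ℂ) 1, ?_⟩
      ext g
      by_cases hg : IsPRegular p g
      · simp only [Pi.smul_apply, smul_eq_mul]
        rw [hv, pRegularPart_reg p _ hg, pRegularPart_reg p _ hg, hval χ hχ g hg]
        exact mul_one _
      · simp only [Pi.smul_apply, smul_eq_mul]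
        rw [hv, pRegularPart_sing p _ hg, pRegularPart_sing p _ hg, mul_zero]
    · rw [Submodule.span_le, Set.singleton_subset_iff]
      exact Submodule.subset_span ⟨irrOne G, hmem, rfl⟩
  unfold blockRank
  rw [hspan]
  exact finrank_span_singleton hv0

theorem npc_of_rank_one {G : Type*} [Group G] [Finite G] (p : ℕ) [Fact p.Prime]
    (M : Ideal Cfsg.AlgInt) (hM : Cfsg.IsPModular p M)
    (h : Cfsg.blockRank p (Cfsg.principalBlock M G) = 1) : HasNPC p G := by
  have hPr := IsPModular.isPrime hM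
  have hmem : irrOne G ∈ principalBlock M G := sameBlock_refl hPr _
  obtain ⟨K, hK, hKB, hKp, -, -⟩ := Cfsg.Agent.S0938.result p M hM (principalBlock M G)
    ⟨irrOne G, rfl⟩ (irrOne G) hmem
  set v : G → ℂ := pRegularPart p ((irrOne G : IrrCharacter G) : G → ℂ) with hv
  set W := Submodule.span ℂ
      ((fun χ : IrrCharacter G => pRegularPart p (χ : G → ℂ)) '' principalBlock M G) with hW
  have hvW : v ∈ W := Submodule.subset_span ⟨irrOne G, hmem, rfl⟩
  have hv0 : v ≠ 0 := by
    intro h0
    have := congrFun h0 1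
    rw [hv, pRegularPart_reg p _ (isPRegular_one p)] at this
    exact one_ne_zero this
  have hfr : Module.finrank ℂ W = 1 := h
  have hgen : ∀ w : W, ∃ c : ℂ, c • (⟨v, hvW⟩ : W) = w :=
    (finrank_eq_one_iff_of_nonzero' (⟨v, hvW⟩ : W)
      (fun h0 => hv0 (congrArg Subtype.val h0))).mp hfr
  have hval : ∀ χ ∈ principalBlock M G, ∀ g : G, IsPRegular p g →
      (χ : G → ℂ) g = (χ : G → ℂ) 1 := by
    intro χ hχ g hg
    have hχW : pRegularPart p (χ : G → ℂ) ∈ W := Submodule.subset_span ⟨χ, hχ, rfl⟩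
    obtain ⟨c, hc⟩ := hgen ⟨_, hχW⟩
    have hc' : c • v = pRegularPart p (χ : G → ℂ) := congrArg Subtype.val hc
    have e1 := congrFun hc' 1
    have e2 := congrFun hc' g
    simp only [Pi.smul_apply, smul_eq_mul] at e1 e2
    rw [hv, pRegularPart_reg p _ (isPRegular_one p), pRegularPart_reg p _ (isPRegular_one p)] at e1
    rw [hv, pRegularPart_reg p _ hg, pRegularPart_reg p _ hg] at e2
    rw [← e1, ← e2]
    rfl
  have hregK : ∀ g : G, IsPRegular p g → g ∈ K := by
    intro g hg
    have : g ∈ (K : Set G) := by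
      rw [hKB]
      exact fun χ hχ => hval χ hχ g hg
    exact this
  refine ⟨K, hK, ((Nat.Prime.coprime_iff_not_dvd Fact.out).mpr hKp).symm, ?_⟩
  have hp : IsPGroup p (G ⧸ K) := by
    intro q
    obtain ⟨n, rfl⟩ := QuotientGroup.mk_surjective q
    obtain ⟨k, m, hm, hkm⟩ := Nat.exists_eq_pow_mul_and_not_dvd (orderOf_pos n).ne' p
      (Fact.out : p.Prime).ne_one
    refine ⟨k, ?_⟩
    rw [← QuotientGroup.mk_pow, QuotientGroup.eq_one_iff]
    have h1 : orderOf (n ^ p ^ k) = m := by
      rw [orderOf_pow_of_dvd (pow_ne_zero _ (Fact.out : p.Prime).ne_zero) ⟨m, hkm⟩, hkm]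
      exact Nat.mul_div_cancel_left _ (pow_pos (Fact.out : p.Prime).pos _)
    apply hregK
    unfold IsPRegular
    rw [h1]
    exact hm
  obtain ⟨k, hk⟩ := IsPGroup.iff_card.mp hp
  exact ⟨k, by rw [Subgroup.index_eq_card, hk]⟩

/-- For a finite group G, a prime p and a maximal ideal M of the algebraic integers containing p: the principal block of G is nilpotent if and only if its p-regular rank is 1 (the trivial Brauer character is its only irreducible Brauer character). -/
theorem result {G : Type*} [Group G] [Finite G] (p : ℕ) [Fact p.Prime] (M : Ideal Cfsg.AlgInt) (hM : Cfsg.IsPModular p M) : Cfsg.IsNilpotentBlock p M (Cfsg.principalBlock M G) ↔ Cfsg.blockRank p (Cfsg.principalBlock M G) = 1 := by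
  have : Fintype G := Fintype.ofFinite G
  rw [Cfsg.Agent.Lib.Helper79NilBlock.nilpotent_iff_hasNPC hM, ← hasNPC_iff]
  exact ⟨rank_one_of_npc p M hM, npc_of_rank_one p M hM⟩

end Cfsg.Agent.S4646
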