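import Cfsg.Statements.S4647
import Cfsg.Agent.Lib.Helper40ModAlgClosed
import Cfsg.Agent.Lib.H80DMABS
import Cfsg.Agent.Lib.H80DMDC
import Cfsg.Agent.Lib.H80DMGRP1
import Cfsg.Agent.Lib.H80DMGRP2
import Cfsg.Agent.Lib.H80DMRKC
import Cfsg.Agent.Lib.H80DMRKR
import Cfsg.Agent.Lib.H80DMLNK1
import Cfsg.Agent.Lib.H80DMLNK2
import Cfsg.Agent.Lib.H80DMLNK3

set_option autoImplicit false
open Cfsg

namespace Cfsg.Agent.S4647

open Cfsg.Agent.Lib Cfsg.Agent.Lib.H80DMDefs Cfsg.Agent.Lib.Helper4ModRed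

/-- Let B be a block of the finite group G relative to a maximal ideal M of the algebraic integers containing the prime p, p^a the p-part of the order of G and p^d the order of a defect group D of B. If Σ_{χ ∈ B} χ(1)² = p^(2a−d) (the least possible value), then B is nilpotent. -/
theorem result {G : Type*} [Group G] [Finite G] (p : ℕ) [Fact p.Prime] (M : Ideal Cfsg.AlgInt) (hM : Cfsg.IsPModular p M) (B : Set (Cfsg.IrrCharacter G)) (hB : Cfsg.IsPBlock M B) (D : Subgroup G) (hD : Cfsg.IsDefectGroup p M B D) (a d : ℕ) (ha : (Nat.card G).factorization p = a) (hd : Nat.card D = p ^ d) (hmin : ∑ᶠ χ ∈ B, Cfsg.charDegree (χ : G → ℂ) ^ 2 = p ^ (2 * a - d)) : Cfsg.IsNilpotentBlock p M B := by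
  classical
  haveI := Fintype.ofFinite G
  haveI : M.IsPrime := hM.2.1.isPrime
  haveI : IsAlgClosed (kk M) := Helper40ModAlgClosed.isAlgClosed_kk
  haveI : CharP (kk M) p := Helper40ModRed.charP_kk hM
  have hp : p.Prime := Fact.out
  obtain ⟨ε, hε, hεc, hεi, hε0⟩ := H80DMLNK1.exists_eps hM hB
  have hDp : IsPGroup p D := H80DMLNK2.isPGroup_defect hD
  obtain ⟨S, hDS⟩ := hDp.exists_le_sylow
  have hS : IsPGroup p (S : Subgroup G) := S.isPGroup'
  have hScard : Nat.card (S : Subgroup G) = p ^ a := by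
    rw [← ha]; exact S.card_eq_multiplicity
  have hda : d ≤ a := by
    have h1 : Nat.card D ∣ Nat.card (S : Subgroup G) := Subgroup.card_dvd_of_le hDS
    rw [hd, hScard] at h1
    exact (Nat.pow_dvd_pow_iff_le_right hp.one_lt).mp h1
  have hN : Module.finrank (kk M) (LinearMap.range (cv ε)) ≤ p ^ (2 * a - d) := by
    rw [← hmin, ← H80DMRKC.finrank_cv B]
    exact H80DMRKR.finrank_le _ ε hε
  have hkey : ∀ y, Nat.card (qq (S : Subgroup G) y) ≤ p ^ d →
      p ^ (2 * a - d) ≤ Nat.card (dc (S : Subgroup G) y) := by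
    intro y hy
    have h1 := H80DMDC.card_dc (S : Subgroup G) y
    rw [hScard] at h1
    have h2 : p ^ (2 * a - d) * p ^ d = (p ^ a) ^ 2 := by
      rw [← pow_add, ← pow_mul]
      congr 1
      omega
    by_contra hlt
    push Not at hlt
    have h3 : Nat.card (dc (S : Subgroup G) y) * Nat.card (qq (S : Subgroup G) y)
        < p ^ (2 * a - d) * p ^ d :=
      Nat.mul_lt_mul_of_lt_of_le hlt hy (pow_pos hp.pos d)
    omega
  have hvert : ∀ y, NV ε (qq (S : Subgroup G) y) →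
      p ^ (2 * a - d) ≤ Nat.card (dc (S : Subgroup G) y) := by
    intro y hy
    apply hkey
    rw [← hd]
    exact H80DMLNK2.card_le hM hB ε hε hD _ (hS.to_le inf_le_left) hy
  obtain ⟨y, hy1, hy2⟩ := H80DMABS.abs_main p (S : Subgroup G) hS ε hεc hεi hε0 _ hN hvert
  have hqq : Nat.card (qq (S : Subgroup G) y) = Nat.card D := by
    have h1 := H80DMDC.card_dc (S : Subgroup G) y
    rw [hScard, hy1] at h1
    have h2 : p ^ (2 * a - d) * p ^ d = (p ^ a) ^ 2 := by
      rw [← pow_add, ← pow_mul]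
      congr 1
      omega
    rw [hd]
    exact Nat.eq_of_mul_eq_mul_left (pow_pos hp.pos _) (h1.trans h2.symm)
  have hDnv := H80DMLNK2.nv_defect hM hB ε hε hD
  refine ⟨hB, ?_⟩
  intro Q e hQe x hx _ hreg
  exact H80DMGRP2.grp2 p ε hεc S
    (fun Q' hQ'S hQ' x' hx' => H80DMGRP1.grp1 ε (S : Subgroup G) y D hDS hDnv hqq hy2 Q' hQ'S hQ' x' hx')
    Q hQe.1.1 (H80DMLNK3.nv_pair hM ε hε Q e hQe) x hx hreg

end Cfsg.Agent.S4647
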