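import Cfsg.Statements.S4648
import Cfsg.Agent.Lib.Helper81KulMain
import Cfsg.Agent.Lib.Helper20DefCard
import Cfsg.Agent.Lib.Helper15KulNIL

set_option autoImplicit false
open Cfsg

namespace Cfsg.Agent.S4648

theorem result {G : Type*} [Group G] [Finite G] (p : ℕ) [Fact p.Prime] (M : Ideal Cfsg.AlgInt) (hM : Cfsg.IsPModular p M) (B : Set (Cfsg.IrrCharacter G)) (hB : Cfsg.IsPBlock M B) (D : Subgroup G) (hD : Cfsg.IsDefectGroup p M B D) (hD1 : D ≠ ⊥) (hl : Cfsg.blockRank p B = 1) (hk : Nat.card B ≤ 4) : Cfsg.IsNilpotentBlock p M B ∧ Nat.card D = Nat.card B ∧ (p = 2 ∨ p = 3) := by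
  classical
  haveI := Fintype.ofFinite G
  haveI : M.IsPrime := Cfsg.Agent.Lib.Helper81Local.IsPModular.isPrime hM
  have hcard := Cfsg.Agent.Lib.Helper81KulMain.kul_main hM hB hD hl hk
  refine ⟨Cfsg.Agent.Lib.Helper15KulNIL.nil_of_small hM hB hD hl hcard (hcard ▸ hk), hcard, ?_⟩
  have hpd := Cfsg.Agent.Lib.Helper20DefCard.card_defectGroup hM hB hD
  have hp : p.Prime := Fact.out
  have hd0 : blockDefect p B ≠ 0 := by
    intro h0
    rw [h0, pow_zero] at hpd
    exact hD1 (Subgroup.card_eq_one.1 hpd)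
  have hle : p ≤ 4 := by
    calc p = p ^ 1 := (pow_one p).symm
      _ ≤ p ^ blockDefect p B := Nat.pow_le_pow_right hp.pos (Nat.pos_of_ne_zero hd0)
      _ = Nat.card D := hpd.symm
      _ ≤ 4 := hcard ▸ hk
  have h2 := hp.two_le
  interval_cases p
  · left; rfl
  · right; rfl
  · exact absurd hp (by norm_num)

end Cfsg.Agent.S4648
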