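import Cfsg.Statements.S4649
import Cfsg.Agent.S4689
import Cfsg.Agent.Lib.H81CycRK
import Cfsg.Agent.Lib.Helper80Nil
import Cfsg.Agent.Lib.Helper80IQ
import Cfsg.Agent.Lib.Helper80Corr

set_option autoImplicit false
open Cfsg

namespace Cfsg.Agent.S4649

/-- A block with cyclic defect group, of a finite group relative to a maximal ideal M of the algebraic integers containing the prime p, is nilpotent if and only if its p-regular rank is 1 (it has a unique irreducible Brauer character). -/
theorem result {G : Type*} [Group G] [Finite G] (p : ℕ) [Fact p.Prime] (M : Ideal Cfsg.AlgInt) (hM : Cfsg.IsPModular p M) (B : Set (Cfsg.IrrCharacter G)) (hB : Cfsg.IsPBlock M B) (P : Subgroup G) (hPD : Cfsg.IsDefectGroup p M B P) (hcyc : IsCyclic P) : Cfsg.IsNilpotentBlock p M B ↔ Cfsg.blockRank p B = 1 := by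
  classical
  have : Fintype G := Fintype.ofFinite G
  have := hM.2.1.isPrime
  constructor
  · intro hnil
    exact (Cfsg.Agent.S4689.result p M hM B hnil).1
  · intro hl
    obtain ⟨c, hmax⟩ := Cfsg.Agent.Lib.Helper80Corr.exists_maximal_of_defectGroup hM hB hPD
    have hab : ∀ x ∈ P, ∀ y ∈ P, x * y = y * x := by
      intro x hx y hy
      obtain ⟨g, hg⟩ := hcyc.exists_generator
      obtain ⟨m, hm⟩ := Subgroup.mem_zpowers_iff.1 (hg ⟨x, hx⟩)
      obtain ⟨n, hn⟩ := Subgroup.mem_zpowers_iff.1 (hg ⟨y, hy⟩)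
      have h : (⟨x, hx⟩ : P) * ⟨y, hy⟩ = ⟨y, hy⟩ * ⟨x, hx⟩ := by
        rw [← hm, ← hn, ← zpow_add, ← zpow_add, add_comm]
      exact congrArg Subtype.val h
    rw [Cfsg.Agent.Lib.Helper80Nil.nilpotent_iff_of_abelian hM hmax
      (Cfsg.Agent.Lib.Helper80IQ.not_dvd_index_of_maximal hM hmax) hab]
    by_cases hP1 : P = ⊥
    · subst hP1
      intro x _
      rw [Subgroup.mem_centralizer_iff]
      intro q hq
      have : q = 1 := by simpa using hq
      subst this
      simp
    · have h1 := Cfsg.Agent.Lib.H81CycRK.rank_ge_cyc hM hmax hcyc hP1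
      rw [hl] at h1
      have h2 : (Subgroup.centralizer (P : Set G)).relIndex
          (Cfsg.Agent.Lib.Helper80Trace.pstab P c) ≠ 0 := by
        rw [Subgroup.relIndex]
        exact Subgroup.index_ne_zero_of_finite
      have h3 : (Subgroup.centralizer (P : Set G)).relIndex
          (Cfsg.Agent.Lib.Helper80Trace.pstab P c) = 1 := by omega
      exact Subgroup.relIndex_eq_one.1 h3


end Cfsg.Agent.S4649
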