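import Cfsg.Statements.S4650
import Cfsg.Agent.Lib.Helper20Free

set_option autoImplicit false
open Cfsg

namespace Cfsg.Agent.S4650

open Cfsg.Agent.Lib.Helper20Free


/-- Let B be a block of the finite group G relative to a maximal ideal M of the algebraic integers containing the prime p, with a nontrivial commutative defect group P; let c be a block of C_G(P) inducing B and T the stabilizer of c in N_G(P). Then T/C_G(P) acts freely on the non-identity elements of P (an element of T fixing a non-identity element of P under conjugation lies in C_G(P)) if and only if, for every nontrivial subgroup Q of P, the block of C_G(Q) induced by c inside C_G(Q) is a nilpotent block of C_G(Q). -/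
theorem result {G : Type*} [Group G] [Finite G] (p : ℕ) [Fact p.Prime] (M : Ideal Cfsg.AlgInt) (hM : Cfsg.IsPModular p M) (B : Set (Cfsg.IrrCharacter G)) (hB : Cfsg.IsPBlock M B) (P : Subgroup G) (hPD : Cfsg.IsDefectGroup p M B P) (hPab : ∀ x ∈ P, ∀ y ∈ P, x * y = y * x) (hP1 : P ≠ ⊥) (c : Set (Cfsg.IrrCharacter (Subgroup.centralizer (P : Set G)))) (hc : Cfsg.IsInducedBlock M (Subgroup.centralizer (P : Set G)) c B) (T : Subgroup G) (hT : ∀ g : G, g ∈ T ↔ (g ∈ Subgroup.normalizer (P : Set G) ∧ Cfsg.StabilizesBlock (Subgroup.centralizer (P : Set G)) c g)) : (∀ g ∈ T, ∀ x ∈ P, x ≠ 1 → g * x * g⁻¹ = x → g ∈ Subgroup.centralizer (P : Set G)) ↔ ∀ Q : Subgroup G, Q ≤ P → Q ≠ ⊥ → ∀ f : Set (Cfsg.IrrCharacter (Subgroup.centralizer (Q : Set G))), Cfsg.IsInducedBlockIn M (Subgroup.centralizer (Q : Set G)) (Subgroup.centralizer (P : Set G)) c f → Cfsg.IsNilpotentBlock p M f := by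
  classical
  letI : Fintype G := Fintype.ofFinite G
  have hPp : IsPGroup p P := Cfsg.Agent.Lib.Helper20HK.isPGroup_of_defectGroup hPD
  constructor
  · intro hfree Q hQP hQ1 f hf
    have hCH : Subgroup.centralizer (P : Set G) ≤ Subgroup.centralizer (Q : Set G) :=
      Subgroup.centralizer_le hQP
    rw [nil_local_iff hM hPD hPab hc hCH hf]
    intro x hxH hxN hxS
    obtain ⟨y, hy⟩ := (Subgroup.ne_bot_iff_exists_ne_one).mp hQ1
    have hyQ : (y : G) ∈ Q := y.2
    have hy1' : (y : G) ≠ 1 := fun h => hy (Subtype.ext h)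
    refine hfree x ((hT x).mpr ⟨hxN, hxS⟩) (y : G) (hQP hyQ) hy1' ?_
    have := (Subgroup.mem_centralizer_iff.mp hxH) (y : G) hyQ
    rw [← this]
    group
  · intro hnil g hg x hx hx1 hgx
    have hQP : Subgroup.zpowers x ≤ P := Subgroup.zpowers_le.mpr hx
    have hQ1 : Subgroup.zpowers x ≠ ⊥ := by
      intro h
      exact hx1 (Subgroup.zpowers_eq_bot.mp h)
    have hCH : Subgroup.centralizer (P : Set G)
        ≤ Subgroup.centralizer ((Subgroup.zpowers x : Subgroup G) : Set G) :=
      Subgroup.centralizer_le hQP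
    obtain ⟨f, hf⟩ := exists_local hM hPp hPab hc.1 hCH
    have h := (nil_local_iff hM hPD hPab hc hCH hf).mp (hnil _ hQP hQ1 f hf)
    have hg' := (hT g).mp hg
    refine h g ?_ hg'.1 hg'.2
    rw [Subgroup.mem_centralizer_iff]
    intro y hy
    obtain ⟨k, rfl⟩ := Subgroup.mem_zpowers_iff.mp hy
    have hcomm : Commute g x := by
      have : g * x = x * g := by
        calc g * x = g * x * g⁻¹ * g := by group
          _ = x * g := by rw [hgx]
      exact this
    exact ((hcomm.zpow_right k).eq).symm

end Cfsg.Agent.S4650
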