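import Cfsg.Statements.S4652
import Mathlib
import Cfsg.Agent.S0906
import Cfsg.Agent.Lib.Helper81Block
import Cfsg.Agent.Lib.Helper82Linear
import Cfsg.Agent.Lib.Helper80PSolv

set_option autoImplicit false
open Cfsg

namespace Cfsg.Agent.S4652

open Cfsg.Agent.Lib.Helper81Local Cfsg.Agent.Lib.Helper81Base Cfsg.Agent.Lib.Helper81Block
  Cfsg.Agent.Lib.Helper82Linear Cfsg.Agent.Lib.Helper80PSolv

theorem centralizer_conj_index {G : Type*} [Group G] (x g : G) :
    (Subgroup.centralizer ({x * g * x⁻¹} : Set G)).index = (Subgroup.centralizer ({g} : Set G)).index := by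
  have : Subgroup.centralizer ({x * g * x⁻¹} : Set G)
      = (Subgroup.centralizer ({g} : Set G)).map (MulAut.conj x).toMonoidHom := by
    ext y
    rw [Subgroup.mem_centralizer_singleton_iff, Subgroup.mem_map]
    constructor
    · intro h
      refine ⟨x⁻¹ * y * x, ?_, by simp [MulAut.conj_apply, mul_assoc]⟩
      rw [Subgroup.mem_centralizer_singleton_iff]
      have e1 : x⁻¹ * y * x * g = x⁻¹ * (y * (x * g * x⁻¹)) * x := by group
      have e2 : g * (x⁻¹ * y * x) = x⁻¹ * ((x * g * x⁻¹) * y) * x := by group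
      rw [e1, e2, h]
    · rintro ⟨z, hz, rfl⟩
      rw [Subgroup.mem_centralizer_singleton_iff] at hz
      simp only [MulEquiv.coe_toMonoidHom, MulAut.conj_apply]
      have e1 : x * z * x⁻¹ * (x * g * x⁻¹) = x * (z * g) * x⁻¹ := by group
      have e2 : x * g * x⁻¹ * (x * z * x⁻¹) = x * (g * z) * x⁻¹ := by group
      rw [e1, e2, hz]
  rw [this]
  exact Subgroup.index_map_equiv _ (MulAut.conj x)

theorem centralChar_conj {G : Type*} [Group G] (χ : Cfsg.IrrCharacter G) (x g : G) :
    Cfsg.centralChar (χ : G → ℂ) (x * g * x⁻¹) = Cfsg.centralChar (χ : G → ℂ) g := by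
  unfold Cfsg.centralChar
  rw [centralizer_conj_index, irr_conj]

theorem isDefectClass_conj {G : Type*} [Group G] [Fintype G] (M : Ideal Cfsg.AlgInt)
    (B : Set (Cfsg.IrrCharacter G)) (x g : G) (h : Cfsg.IsDefectClass M B g) :
    Cfsg.IsDefectClass M B (x * g * x⁻¹) := by
  unfold Cfsg.IsDefectClass at h ⊢
  rw [blockCoeff_classfn B g x]
  refine ⟨h.1, h.2.1, fun χ hχ => ?_⟩
  rw [centralChar_conj]
  exact h.2.2 χ hχ

theorem not_dvd_index_of_defectClass {G : Type*} [Group G] [Fintype G] (p : ℕ)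
    (M : Ideal Cfsg.AlgInt) (hM : Cfsg.IsPModular p M) (g : G)
    (h : Cfsg.IsDefectClass M (Cfsg.principalBlock M G) g) :
    ¬ p ∣ (Subgroup.centralizer ({g} : Set G)).index := by
  have := hM.2.1.isPrime
  have h1 : irrOne G ∈ Cfsg.principalBlock M G := sameBlock_refl _
  have h2 := h.2.2 _ h1
  intro hd
  apply h2
  have : Cfsg.centralChar ((irrOne G : Cfsg.IrrCharacter G) : G → ℂ) g
      = ((Subgroup.centralizer ({g} : Set G)).index : ℂ) := by
    simp [Cfsg.centralChar, irrOne]
  rw [this]
  exact (memLocalIdeal_natCast_iff hM).mpr hd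


/-- Fix a prime p and a maximal ideal M of the algebraic integers containing p. The defect groups of the principal p-block of a finite group G are exactly the Sylow p-subgroups of G: a subgroup D is a defect group of the principal block if and only if D is a Sylow p-subgroup. -/
theorem result {G : Type*} [Group G] [Fintype G] (p : ℕ) [Fact p.Prime] (M : Ideal Cfsg.AlgInt) (hM : Cfsg.IsPModular p M) (D : Subgroup G) : Cfsg.IsDefectGroup p M (Cfsg.principalBlock M G) D ↔ ∃ S : Sylow p G, (S : Subgroup G) = D := by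
  have hp : p.Prime := Fact.out
  constructor
  · rintro ⟨g, hg, P, rfl⟩
    have h1 := not_dvd_index_of_defectClass p M hM g hg
    have hpg : IsPGroup p ((P : Subgroup (Subgroup.centralizer ({g} : Set G))).map
        (Subgroup.centralizer ({g} : Set G)).subtype) := P.2.map _
    have hi : ¬ p ∣ ((P : Subgroup (Subgroup.centralizer ({g} : Set G))).map
        (Subgroup.centralizer ({g} : Set G)).subtype).index := by
      rw [Subgroup.index_map_subtype]
      exact Nat.Prime.not_dvd_mul hp P.not_dvd_index h1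
    exact ⟨hpg.toSylow hi, rfl⟩
  · rintro ⟨S, rfl⟩
    have hB : Cfsg.IsPBlock M (Cfsg.principalBlock M G) := ⟨irrOne G, rfl⟩
    obtain ⟨g, hg⟩ := Cfsg.Agent.S0906.result p M hM _ hB
    have h1 := not_dvd_index_of_defectClass p M hM g hg
    obtain ⟨S', hS'⟩ := exists_sylow_le_of_not_dvd_index h1
    obtain ⟨x, hx⟩ := MulAction.exists_smul_eq G S' S
    refine ⟨x * g * x⁻¹, isDefectClass_conj M _ x g hg, ?_⟩
    have hle : (S : Subgroup G) ≤ Subgroup.centralizer ({x * g * x⁻¹} : Set G) := by
      intro s hs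
      rw [← hx, Sylow.coe_subgroup_smul, Subgroup.mem_pointwise_smul_iff_inv_smul_mem] at hs
      have h2 := hS' hs
      rw [Subgroup.mem_centralizer_singleton_iff] at h2 ⊢
      simp only [MulAut.smul_def, ← map_inv, MulAut.conj_apply, inv_inv] at h2
      have e1 : s * (x * g * x⁻¹) = x * ((x⁻¹ * s * x) * g) * x⁻¹ := by group
      have e2 : x * g * x⁻¹ * s = x * (g * (x⁻¹ * s * x)) * x⁻¹ := by group
      rw [e1, e2, h2]
    refine ⟨S.subtype hle, ?_⟩
    rw [Sylow.coe_subtype, Subgroup.subgroupOf_map_subtype, inf_of_le_left hle]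

end Cfsg.Agent.S4652
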