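import Cfsg.Statements.S4654
import Cfsg.Agent.Lib.Helper80NormalP
import Cfsg.Agent.Lib.Helper21FR

set_option autoImplicit false
open Cfsg

namespace Cfsg.Agent.S4654

/-- Fix a prime p and a maximal ideal M of the algebraic integers containing p. Let P be a normal p-subgroup of the finite group G, B a p-block of G and e a p-block of C_G(P) such that (P, e) is a Brauer pair of B (as P is normal, this says that e occurs in the idempotent of B, which is supported on C_G(P)). Let T be the stabilizer of e in G under conjugation. Then the idempotent of e is a block idempotent of T: some block E of T has, at every element of T, the same idempotent coefficient as e (zero off C_G(P)); and the idempotent of B is the sum of the distinct G-conjugates of the idempotent of e: its coefficient at g is the sum over all x in G of the coefficient of e at x⁻¹ g x, divided by the order of T. -/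
theorem result {G : Type*} [Group G] [Fintype G] (p : ℕ) [Fact p.Prime] (M : Ideal Cfsg.AlgInt) (hM : Cfsg.IsPModular p M) (P : Subgroup G) [P.Normal] (hP : IsPGroup p P) (B : Set (Cfsg.IrrCharacter G)) (e : Set (Cfsg.IrrCharacter (Subgroup.centralizer (P : Set G)))) (hBe : Cfsg.IsBrauerPairOf p M B P e) (T : Subgroup G) (hT : ∀ x : G, x ∈ T ↔ Cfsg.StabilizesBlock (Subgroup.centralizer (P : Set G)) e x) : (∃ E : Set (Cfsg.IrrCharacter T), Cfsg.IsPBlock M E ∧ ∀ t : T, Cfsg.blockCoeff E t = Cfsg.subgroupBlockCoeff (Subgroup.centralizer (P : Set G)) e (t : G)) ∧ ∀ g : G, Cfsg.blockCoeff B g = (Nat.card T : ℂ)⁻¹ * ∑ x : G, Cfsg.subgroupBlockCoeff (Subgroup.centralizer (P : Set G)) e (x⁻¹ * g * x) := by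
  classical
  have hPr := Cfsg.Agent.Lib.Helper20Local.IsPModular.isPrime hM
  obtain ⟨hPe, hB, hlam⟩ := Cfsg.Agent.Lib.Helper80Pairs.isBrauerPairOf_iff.mp hBe
  have he := hPe.2
  have hK : ∀ x : G, x ∈ Subgroup.normalizer ((Subgroup.centralizer (P : Set G) : Subgroup G) : Set G) := by
    intro x
    apply Cfsg.Agent.Lib.Helper80Pairs.normalizer_le_normalizer_centralizer P
    rw [Subgroup.normalizer_eq_top]
    exact Subgroup.mem_top x
  have hT' : ∀ x, x ∈ T ↔ Cfsg.Agent.Lib.Helper80Transport.cjf x (Cfsg.Agent.Lib.Helper80Trace.pfun P e)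
      = Cfsg.Agent.Lib.Helper80Trace.pfun P e := by
    intro x
    rw [hT, Cfsg.Agent.Lib.Helper80Transport.stabilizesBlock_iff hPr he]
    exact ⟨fun h => h.2, fun h => ⟨hK x, h⟩⟩
  have hinv : Cfsg.Agent.Lib.Helper80Brauer.IsInv T (Cfsg.Agent.Lib.Helper80Trace.pfun P e) :=
    Cfsg.Agent.Lib.Helper80Transport.isInv_iff_cjf.mpr (fun x hx => (hT' x).mp hx)
  have hPT : P ≤ T := fun x hx => (hT' x).mpr
    (Cfsg.Agent.Lib.Helper80Transport.isInv_iff_cjf.mp
      (Cfsg.Agent.Lib.Helper80Trace.isInv_self_ext P _) x hx)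
  have hCT : Subgroup.centralizer (P : Set G) ≤ T := fun x hx => (hT' x).mpr
    (Cfsg.Agent.Lib.Helper80Transport.isInv_iff_cjf.mp
      (Cfsg.Agent.Lib.Helper80Brauer.isInv_ext_self
        (Cfsg.Agent.Lib.Helper20Block.blockCoeff_isClassFunction e)) x hx)
  have hTN : T ≤ Subgroup.normalizer (P : Set G) := by
    rw [Subgroup.normalizer_eq_top]
    exact le_top
  refine ⟨?_, ?_⟩
  · obtain ⟨E, hE, hEe⟩ := Cfsg.Agent.Lib.Helper80Stab.exists_block_stab hM hP he hPT hCT hTN hinv
    refine ⟨E, hE, fun t => ?_⟩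
    rw [Cfsg.Agent.Lib.Helper80Brauer.subgroupBlockCoeff_eq, ← hEe,
      Cfsg.Agent.Lib.Helper80Brauer.ext_coe]
  · intro g
    rw [Cfsg.Agent.Lib.Helper80NormalP.blockCoeff_eq_tr hM P hP hBe hT',
      Cfsg.Agent.Lib.Helper80Brauer.subgroupBlockCoeff_eq]
    have h1 := Cfsg.Agent.Lib.Helper21FR.sum_eq_card_mul_sum_out T
      (fun x : G => Cfsg.Agent.Lib.Helper80Brauer.ext (Subgroup.centralizer (P : Set G))
        (Cfsg.blockCoeff e) (x⁻¹ * g * x)) (by
        intro x t
        have h2 := Cfsg.Agent.Lib.Helper80Brauer.IsInv.inv' hinv t.2 (x⁻¹ * g * x)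
        refine Eq.trans ?_ h2
        show _ = Cfsg.Agent.Lib.Helper80Brauer.ext (Subgroup.centralizer (P : Set G))
          (Cfsg.blockCoeff e) _
        congr 1
        group)
    rw [h1, ← mul_assoc, inv_mul_cancel₀, one_mul]
    · rfl
    · exact_mod_cast (Nat.card_pos (α := T)).ne'

end Cfsg.Agent.S4654
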