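import Cfsg.Statements.S4662
import Cfsg.Agent.Lib.Helper80Full2

set_option autoImplicit false
open Cfsg

namespace Cfsg.Agent.S4662

open Cfsg.Agent.Lib.Helper80Full2 Cfsg.Agent.Lib.Helper80Full Cfsg.Agent.Lib.Helper80Conj
  Cfsg.Agent.Lib.Helper80Trace Cfsg.Agent.Lib.Helper80Brauer Cfsg.Agent.Lib.Helper20Local
  Cfsg.Agent.Lib.Helper87Sylow


/-- Fix a prime p and a maximal ideal M of the algebraic integers containing p. Let (P, e) be a maximal Brauer pair of the p-block B of the finite group G, Q ≤ P, and f the p-block of C_G(Q) with (Q, f) ≤ (P, e). Let T be the stabilizer of f in N_G(Q). Then the idempotent of f is a block idempotent of T, and N_P(Q) is contained in a defect group of that block of T; moreover for some x in G the conjugate pair (x Q x⁻¹, conjugate of f) again lies below (P, e) and, with T' the stabilizer of the conjugate of f in N_G(x Q x⁻¹), N_P(x Q x⁻¹) is a defect group of the block of T' whose idempotent is that of the conjugate of f.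 -/
theorem result {G : Type*} [Group G] [Fintype G] (p : ℕ) [Fact p.Prime] (M : Ideal Cfsg.AlgInt) (hM : Cfsg.IsPModular p M) (B : Set (Cfsg.IrrCharacter G)) (P Q : Subgroup G) (e : Set (Cfsg.IrrCharacter (Subgroup.centralizer (P : Set G)))) (f : Set (Cfsg.IrrCharacter (Subgroup.centralizer (Q : Set G)))) (hmax : Cfsg.IsMaximalBrauerPair p M B P e) (hQP : Q ≤ P) (hf : Cfsg.IsPBlock M f) (hle : Cfsg.SubpairLE p M Q f P e) (T : Subgroup G) (hT : ∀ y : G, y ∈ T ↔ y ∈ Subgroup.normalizer (Q : Set G) ∧ Cfsg.StabilizesBlock (Subgroup.centralizer (Q : Set G)) f y) : (∃ F : Set (Cfsg.IrrCharacter T), Cfsg.IsPBlock M F ∧ (∀ t : T, Cfsg.blockCoeff F t = Cfsg.subgroupBlockCoeff (Subgroup.centralizer (Q : Set G)) f (t : G)) ∧ ∃ D : Subgroup T, Cfsg.IsDefectGroup p M F D ∧ (P ⊓ Subgroup.normalizer (Q : Set G)).subgroupOf T ≤ D) ∧ ∃ x : G, Cfsg.SubpairLE p M (Q.map (MulAut.conj x).toMonoidHom) (Cfsg.conjBlock Q x f) P e ∧ ∀ (T' : Subgroup G), (∀ y : G, y ∈ T' ↔ y ∈ Subgroup.normalizer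 ((Q.map (MulAut.conj x).toMonoidHom) : Set G) ∧ Cfsg.StabilizesBlock (Subgroup.centralizer ((Q.map (MulAut.conj x).toMonoidHom) : Set G)) (Cfsg.conjBlock Q x f) y) → ∃ F' : Set (Cfsg.IrrCharacter T'), Cfsg.IsPBlock M F' ∧ (∀ t : T', Cfsg.blockCoeff F' t = Cfsg.subgroupBlockCoeff (Subgroup.centralizer ((Q.map (MulAut.conj x).toMonoidHom) : Set G)) (Cfsg.conjBlock Q x f) (t : G)) ∧ Cfsg.IsDefectGroup p M F' ((P ⊓ Subgroup.normalizer ((Q.map (MulAut.conj x).toMonoidHom) : Set G)).subgroupOf T') := by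
  classical
  have hPr := IsPModular.isPrime hM
  obtain rfl := eq_pstab hPr hf hT
  constructor
  · obtain ⟨F, hF, hFe, D, hD, hle'⟩ := normalizer_le_defectGroup hM hmax.1.1 hle
    refine ⟨F, hF, fun t => ?_, D, hD, hle'⟩
    have := congrFun hFe (t : G)
    rw [ext_coe] at this
    exact this
  · obtain ⟨x, hx, F', hF', hFe', hD'⟩ := exists_conj_normalizer_defectGroup hM hmax hle
    refine ⟨x, hx, ?_⟩
    intro T' hT'
    have hb' : IsPBlock M (conjBlock Q x f) :=
      (isBrauerPair_cj (p := p) ⟨hmax.1.1.1.to_le hQP, hf⟩ x).2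
    obtain rfl := eq_pstab hPr hb' hT'
    refine ⟨F', hF', fun t => ?_, hD'⟩
    have := congrFun hFe' (t : G)
    rw [ext_coe] at this
    exact this

end Cfsg.Agent.S4662
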