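import Cfsg.Statements.S4664
import Mathlib
import Cfsg.Agent.Lib.Helper81Orth
import Cfsg.Agent.Lib.Helper4Eigen

set_option autoImplicit false
open Cfsg

namespace Cfsg.Agent.S4664

open Cfsg.Agent.Lib.Helper81Local Cfsg.Agent.Lib.Helper81Base Cfsg.Agent.Lib.Helper81Block
  Cfsg.Agent.Lib.Helper81Orth Cfsg.Agent.Lib.Helper81BB
open scoped ComplexConjugate

theorem conj_irr_mem {G : Type*} [Group G] [Fintype G] (m : ℕ) (hm : m ≠ 0) (χ : Cfsg.IrrCharacter G)
    (g : G) (hg : orderOf g ∣ m) :
    conj ((χ : G → ℂ) g) ∈ IntermediateField.adjoin ℚ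
      ({Complex.exp (2 * Real.pi * Complex.I / (m : ℂ))} : Set ℂ) := by
  obtain ⟨n, ρ, _, hρ⟩ := χ.2
  obtain ⟨μ, h1, -, -, -, h5⟩ := Cfsg.Agent.Lib.Helper4Eigen.exists_eigenvalues ρ g
  rw [← irr_inv, ← hρ, h5]
  apply sum_mem
  intro i _
  have hprim := Complex.isPrimitiveRoot_exp m hm
  have hpow : (conj (μ i)) ^ m = 1 := by
    obtain ⟨k, rfl⟩ := hg
    rw [← map_pow, pow_mul, h1 i, one_pow, map_one]
  haveI : NeZero m := ⟨hm⟩
  obtain ⟨j, _, hj⟩ := hprim.eq_pow_of_pow_eq_one hpow
  rw [← hj]
  exact pow_mem (IntermediateField.subset_adjoin ℚ _ (Set.mem_singleton _)) j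


/-- Fix a prime p and a maximal ideal M of the algebraic integers containing p, and let B be a p-block of the finite group G. Let m be the p'-part of the order of G and η = exp(2πi/m). Then every coefficient of the idempotent of B lies in the cyclotomic field ℚ(η). -/
theorem result {G : Type*} [Group G] [Fintype G] (p : ℕ) [Fact p.Prime] (M : Ideal Cfsg.AlgInt) (hM : Cfsg.IsPModular p M) (B : Set (Cfsg.IrrCharacter G)) (hB : Cfsg.IsPBlock M B) (g : G) : Cfsg.blockCoeff B g ∈ IntermediateField.adjoin ℚ ({Complex.exp (2 * Real.pi * Complex.I / ((Nat.card G / p ^ (Nat.card G).factorization p : ℕ) : ℂ))} : Set ℂ) := by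
  classical
  have hp : p.Prime := Fact.out
  by_cases hg : p ∣ orderOf g
  · rw [blockCoeff_eq_zero_of_singular hM hB hg]
    exact zero_mem _
  · have hcard : Nat.card G ≠ 0 := Nat.card_pos.ne'
    have hmul := Nat.ordProj_mul_ordCompl_eq_self (Nat.card G) p
    have hm0 : Nat.card G / p ^ (Nat.card G).factorization p ≠ 0 := by
      intro h0
      rw [h0, mul_zero] at hmul
      exact hcard hmul.symm
    have hdvd : orderOf g ∣ Nat.card G / p ^ (Nat.card G).factorization p := by
      have h1 : orderOf g ∣ p ^ (Nat.card G).factorization p *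
          (Nat.card G / p ^ (Nat.card G).factorization p) := by
        rw [hmul]; exact orderOf_dvd_natCard g
      have h2 : Nat.Coprime (orderOf g) (p ^ (Nat.card G).factorization p) :=
        Nat.Coprime.pow_right _ ((Nat.Prime.coprime_iff_not_dvd hp).mpr hg).symm
      exact h2.dvd_of_dvd_mul_left h1
    rw [blockCoeff_eq]
    apply mul_mem (inv_mem (natCast_mem _ _))
    apply sum_mem
    intro χ _
    split_ifs
    · apply mul_mem
      · obtain ⟨n, _, h⟩ := irr_one χ
        rw [h]
        exact natCast_mem _ _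
      · exact conj_irr_mem _ hm0 χ g hdvd
    · exact zero_mem _

end Cfsg.Agent.S4664
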