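import Cfsg.Statements.S4665
import Mathlib
import Cfsg.Agent.Lib.Helper4Char

set_option autoImplicit false
open Cfsg

namespace Cfsg.Agent.S4665

theorem pReg_pos {G : Type*} [Group G] (p : ℕ) (χ : G → ℂ) (g : G) (h : Cfsg.IsPRegular p g) :
    Cfsg.pRegularPart p χ g = χ g := by
  unfold Cfsg.pRegularPart
  exact if_pos h

theorem pReg_neg {G : Type*} [Group G] (p : ℕ) (χ : G → ℂ) (g : G) (h : ¬ Cfsg.IsPRegular p g) :
    Cfsg.pRegularPart p χ g = 0 := by
  unfold Cfsg.pRegularPart
  exact if_neg h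

theorem sum_sylow_irr {G : Type*} [Group G] [Fintype G] (P : Subgroup G) [Fintype P] (ψ : Cfsg.IrrCharacter G) :
    ∃ m : ℕ, ∑ x : P, (ψ : G → ℂ) x = (Nat.card P : ℂ) * m := by
  obtain ⟨n, ρ, _, hρ⟩ := ψ.2
  let σ : Representation ℂ P (Fin n → ℂ) := ρ.comp P.subtype
  have hne : (Nat.card P : ℂ) ≠ 0 := Nat.cast_ne_zero.mpr Nat.card_pos.ne'
  let _ : Invertible (Nat.card P : ℂ) := invertibleOfNonzero hne
  have h := Representation.card_inv_mul_sum_char_eq_finrank σ
  refine ⟨Module.finrank ℂ (Representation.invariants σ), ?_⟩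
  rw [← h, ← mul_assoc, mul_inv_cancel₀ hne, one_mul]
  apply Finset.sum_congr rfl
  intro x _
  rw [← hρ]
  rfl


/-- Fix a prime p, a maximal ideal M of the algebraic integers containing p, and a p-block B of the finite group G, and let p^a be the p-part of the order of G. Let χ be an integer combination of the irreducible characters in B. If the function that agrees with χ on p-regular elements and vanishes on p-singular elements is again an integer combination of the irreducible characters in B, then p^a divides χ(1). -/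
theorem result {G : Type*} [Group G] [Fintype G] (p : ℕ) [Fact p.Prime] (M : Ideal Cfsg.AlgInt) (hM : Cfsg.IsPModular p M) (B : Set (Cfsg.IrrCharacter G)) (hB : Cfsg.IsPBlock M B) (χ : G → ℂ) (hχ : (∃ n : Cfsg.IrrCharacter G → ℤ, ∀ g : G, χ g = ∑ᶠ ψ ∈ B, (n ψ : ℂ) * (ψ : G → ℂ) g)) (h0 : (∃ n : Cfsg.IrrCharacter G → ℤ, ∀ g : G, Cfsg.pRegularPart p χ g = ∑ᶠ ψ ∈ B, (n ψ : ℂ) * (ψ : G → ℂ) g)) : ∃ k : ℤ, χ 1 = (p ^ (Nat.card G).factorization p : ℂ) * k := by
  classical
  obtain ⟨n, hn⟩ := h0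
  obtain ⟨P⟩ : Nonempty (Sylow p G) := inferInstance
  have hfin : Finite (Cfsg.IrrCharacter G) := Cfsg.Agent.Lib.Helper4Char.finite_irrCharacter
  have hp : p.Prime := Fact.out
  have h1 : ∑ x : (P : Subgroup G), Cfsg.pRegularPart p χ x = χ 1 := by
    rw [Finset.sum_eq_single (1 : (P : Subgroup G))]
    · rw [pReg_pos]
      · rfl
      · simp only [Cfsg.IsPRegular, Subgroup.coe_one, orderOf_one]
        exact hp.one_lt.ne' ∘ Nat.dvd_one.mp
    · intro x _ hx
      apply pReg_neg
      simp only [Cfsg.IsPRegular]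
      rw [not_not]
      obtain ⟨k, hk⟩ := (P.2 x)
      have hord : orderOf x ∣ p ^ k := orderOf_dvd_of_pow_eq_one hk
      obtain ⟨j, _, hj⟩ := (Nat.dvd_prime_pow hp).mp hord
      rw [Subgroup.orderOf_coe, hj]
      have : j ≠ 0 := by
        rintro rfl
        rw [pow_zero, orderOf_eq_one_iff] at hj
        exact hx hj
      exact dvd_pow_self p this
    · intro h; exact absurd (Finset.mem_univ _) h
  choose m hm using sum_sylow_irr (P : Subgroup G)
  have h2 : ∑ x : (P : Subgroup G), Cfsg.pRegularPart p χ x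
      = (Nat.card (P : Subgroup G) : ℂ) * ((∑ᶠ ψ ∈ B, n ψ * (m ψ : ℤ) : ℤ) : ℂ) := by
    simp only [hn]
    have hBfin : B.Finite := Set.toFinite B
    simp only [finsum_mem_eq_finite_toFinset_sum _ hBfin]
    rw [Finset.sum_comm]
    push_cast
    rw [Finset.mul_sum]
    apply Finset.sum_congr rfl
    intro ψ _
    rw [← Finset.mul_sum, hm ψ]
    ring
  rw [h1] at h2
  refine ⟨∑ᶠ ψ ∈ B, n ψ * (m ψ : ℤ), ?_⟩
  rw [h2, P.card_eq_multiplicity]
  push_cast
  rfl

end Cfsg.Agent.S4665
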