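import Cfsg.Statements.S4666
import Cfsg.Agent.Lib.Helper84Contrib
import Cfsg.Agent.Lib.Helper81Rank

set_option autoImplicit false
open Cfsg

namespace Cfsg.Agent.S4666

open Cfsg.Agent.Lib.Helper84Contrib Cfsg.Agent.Lib.Helper81Defect

/-- Fix a prime p and a maximal ideal M of the algebraic integers containing p, and a p-block B of the finite group G of defect d. For every integer combination χ of the irreducible characters in B, p^d times the function that agrees with χ on p-regular elements and vanishes elsewhere is again an integer combination of the irreducible characters in B. -/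
theorem result {G : Type*} [Group G] [Fintype G] (p : ℕ) [Fact p.Prime] (M : Ideal Cfsg.AlgInt) (hM : Cfsg.IsPModular p M) (B : Set (Cfsg.IrrCharacter G)) (hB : Cfsg.IsPBlock M B) (χ : G → ℂ) (hχ : (∃ n : Cfsg.IrrCharacter G → ℤ, ∀ g : G, χ g = ∑ᶠ ψ ∈ B, (n ψ : ℂ) * (ψ : G → ℂ) g)) : (∃ n : Cfsg.IrrCharacter G → ℤ, ∀ g : G, (p ^ Cfsg.blockDefect p B : ℂ) * Cfsg.pRegularPart p χ g = ∑ᶠ ψ ∈ B, (n ψ : ℂ) * (ψ : G → ℂ) g) := by
  classical
  have hMp := hM.2.1.isPrime
  have hp : p.Prime := Fact.out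
  have hp0 : (p : ℂ) ≠ 0 := by exact_mod_cast hp.ne_zero
  have hpz : (p : ℤ) ≠ 0 := by exact_mod_cast hp.ne_zero
  obtain ⟨n, hn⟩ := hχ
  have hne := Cfsg.Agent.Lib.Helper81Block.isPBlock_nonempty hB
  have hab : minVal p B + blockDefect p B = (Nat.card G).factorization p := by
    have h1 := minVal_le_card (p := p) hne
    rw [blockDefect_def]
    omega
  set b0 := minVal p B with hb0
  set d := blockDefect p B with hd
  have hK' : ∀ ψ φ : IrrCharacter G, ∃ k : ℤ, ψ ∈ B → N p ψ φ = (p : ℤ) ^ b0 * k := by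
    intro ψ φ
    by_cases hψ : ψ ∈ B
    · obtain ⟨k, hk⟩ := (pow_dvd_pow (p : ℤ) (minVal_le (p := p) hψ)).trans (pow_dvd_N ψ φ)
      exact ⟨k, fun _ => hk⟩
    · exact ⟨0, fun h => absurd h hψ⟩
  choose K hK using hK'
  refine ⟨fun φ => ∑ ψ : IrrCharacter G, if ψ ∈ B then n ψ * K ψ φ else 0, fun g => ?_⟩
  rw [Cfsg.Agent.Lib.Helper81Block.finsum_mem_irr]
  have h1 : ∀ ψ ∈ B, (p : ℂ) ^ d * (if ¬ p ∣ orderOf g then (ψ : G → ℂ) g else 0)
      = ∑ φ : IrrCharacter G, if φ ∈ B then (K ψ φ : ℂ) * (φ : G → ℂ) g else 0 := by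
    intro ψ hψ
    have h3 := congrFun (tld_eq_sum p ψ) g
    rw [tld_def] at h3
    simp only [Finset.sum_apply, Pi.smul_apply, smul_eq_mul] at h3
    apply mul_left_cancel₀ (pow_ne_zero b0 hp0)
    rw [Finset.mul_sum]
    have h5 : ∀ φ : IrrCharacter G,
        (p : ℂ) ^ b0 * (if φ ∈ B then (K ψ φ : ℂ) * (φ : G → ℂ) g else 0)
        = (N p ψ φ : ℂ) * (φ : G → ℂ) g := by
      intro φ
      split_ifs with hφ
      · rw [hK ψ φ hψ]
        push_cast
        ring
      · rw [N_eq_zero_of_not_mem hM hB hψ hφ]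
        simp
    rw [Finset.sum_congr rfl fun φ _ => h5 φ, ← h3, ← hab]
    by_cases hd : p ∣ orderOf g
    · simp [hd]
    · simp only [hd, if_false, not_false_eq_true, if_true]
      push_cast
      ring
  rw [Cfsg.Agent.Lib.Helper81Rank.pRegularPart_apply, hn g,
    Cfsg.Agent.Lib.Helper81Block.finsum_mem_irr]
  have h2 : (p : ℂ) ^ d * (if ¬ p ∣ orderOf g then
      ∑ ψ : IrrCharacter G, (if ψ ∈ B then (n ψ : ℂ) * (ψ : G → ℂ) g else 0) else 0)
      = ∑ ψ : IrrCharacter G, ∑ φ : IrrCharacter G,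
        (if ψ ∈ B then (if φ ∈ B then (n ψ : ℂ) * (K ψ φ : ℂ) * (φ : G → ℂ) g else 0) else 0) := by
    have h4 : ∀ ψ : IrrCharacter G, ∑ φ : IrrCharacter G,
        (if ψ ∈ B then (if φ ∈ B then (n ψ : ℂ) * (K ψ φ : ℂ) * (φ : G → ℂ) g else 0) else 0)
        = (p : ℂ) ^ d * (if ¬ p ∣ orderOf g then
            (if ψ ∈ B then (n ψ : ℂ) * (ψ : G → ℂ) g else 0) else 0) := by
      intro ψ
      by_cases hψ : ψ ∈ B
      · simp only [hψ, if_true]
        have := h1 ψ hψ
        have e : (p : ℂ) ^ d * (if ¬ p ∣ orderOf g then (n ψ : ℂ) * (ψ : G → ℂ) g else 0)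
            = (n ψ : ℂ) * ((p : ℂ) ^ d * (if ¬ p ∣ orderOf g then (ψ : G → ℂ) g else 0)) := by
          split_ifs <;> ring
        rw [e, this, Finset.mul_sum]
        apply Finset.sum_congr rfl
        intro φ _
        split_ifs <;> ring
      · simp [hψ]
    rw [Finset.sum_congr rfl fun ψ _ => h4 ψ, ← Finset.mul_sum]
    congr 1
    split_ifs <;> simp
  rw [h2, Finset.sum_comm]
  apply Finset.sum_congr rfl
  intro φ _
  by_cases hφ : φ ∈ B
  · simp only [hφ, if_true]
    push_cast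
    rw [Finset.sum_mul]
    apply Finset.sum_congr rfl
    intro ψ _
    split_ifs <;> simp
  · simp [hφ]

end Cfsg.Agent.S4666
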