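import Cfsg.Statements.S4667
import Mathlib
import Cfsg.Agent.Lib.Helper81Orth2

set_option autoImplicit false
open Cfsg

namespace Cfsg.Agent.S4667

open Cfsg.Agent.Lib.Helper81Local Cfsg.Agent.Lib.Helper81Base Cfsg.Agent.Lib.Helper81Block
  Cfsg.Agent.Lib.Helper81Orth Cfsg.Agent.Lib.Helper81BB Cfsg.Agent.Lib.Helper81Orth2
open scoped ComplexConjugate

/-- expansion of a class function in irreducible characters -/
theorem expand {G : Type*} [Group G] [Fintype G] {α : G → ℂ} (hα : Cfsg.IsClassFunction G α) (x : G) :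
    α x = (Nat.card G : ℂ)⁻¹ * ∑ χ : Cfsg.IrrCharacter G,
      (∑ g, α g * (χ : G → ℂ) g⁻¹) * (χ : G → ℂ) x := by
  classical
  have hα' : Cfsg.IsClassFunction G (fun g => α g⁻¹) := by
    intro g h
    have := hα g⁻¹ h
    simpa [mul_assoc] using this
  have h := inversion hα' x⁻¹
  simp only [inv_inv] at h
  rw [h]
  congr 1
  apply Finset.sum_congr rfl
  intro χ _
  have h1 : (χ : G → ℂ) 1 ≠ 0 := by
    obtain ⟨n, hn, h⟩ := irr_one χ
    rw [h]
    exact_mod_cast hn.ne'
  unfold om
  rw [← irr_inv, inv_inv, ← Finset.sum_div]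
  have h2 : ∑ g, α g⁻¹ * (χ : G → ℂ) g = ∑ g, α g * (χ : G → ℂ) g⁻¹ := by
    apply Fintype.sum_equiv (Equiv.inv G)
    intro g
    simp
  rw [h2]
  field_simp

theorem pRegularPart_classfn {G : Type*} [Group G] (p : ℕ) {α : G → ℂ}
    (hα : Cfsg.IsClassFunction G α) : Cfsg.IsClassFunction G (Cfsg.pRegularPart p α) := by
  intro g h
  unfold Cfsg.pRegularPart Cfsg.IsPRegular
  have : orderOf (h * g * h⁻¹) = orderOf g := by
    have := orderOf_injective (MulAut.conj h).toMonoidHom (MulAut.conj h).injective g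
    simpa using this
  rw [this, hα g h]

/-- the functional `f ↦ |G|⁻¹ ∑ f(g) χ(g⁻¹)` -/
noncomputable def coef {G : Type*} [Group G] [Fintype G] (χ : Cfsg.IrrCharacter G) :
    (G → ℂ) →ₗ[ℂ] ℂ where
  toFun f := (Nat.card G : ℂ)⁻¹ * ∑ g, f g * (χ : G → ℂ) g⁻¹
  map_add' f g := by
    simp only [Pi.add_apply, add_mul, Finset.sum_add_distrib, mul_add]
  map_smul' c f := by
    simp only [Pi.smul_apply, smul_eq_mul, RingHom.id_apply, Finset.mul_sum]
    apply Finset.sum_congr rfl
    intro g _
    ring

/-- `°` as a linear map -/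
noncomputable def regL {G : Type*} [Group G] (p : ℕ) : (G → ℂ) →ₗ[ℂ] (G → ℂ) where
  toFun f := Cfsg.pRegularPart p f
  map_add' f g := by
    funext x
    unfold Cfsg.pRegularPart
    simp only [Pi.add_apply]
    split_ifs <;> simp
  map_smul' c f := by
    funext x
    unfold Cfsg.pRegularPart
    simp only [Pi.smul_apply, RingHom.id_apply]
    split_ifs <;> simp

theorem regL_idem {G : Type*} [Group G] (p : ℕ) (f : G → ℂ) :
    Cfsg.pRegularPart p (Cfsg.pRegularPart p f) = Cfsg.pRegularPart p f := by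
  funext x
  unfold Cfsg.pRegularPart
  split_ifs <;> simp


/-- Fix a prime p and a maximal ideal M of the algebraic integers containing p, and a p-block B of the finite group G. The p-regular rank of B (the number of irreducible Brauer characters in B) times the order of G equals the sum over the p-regular elements x of G of Σ_{χ ∈ B} χ(x) χ(x⁻¹) (written with the restriction of χ to p-regular elements, which vanishes at p-singular x). -/
theorem result {G : Type*} [Group G] [Fintype G] (p : ℕ) [Fact p.Prime] (M : Ideal Cfsg.AlgInt) (hM : Cfsg.IsPModular p M) (B : Set (Cfsg.IrrCharacter G)) (hB : Cfsg.IsPBlock M B) : (Nat.card G : ℂ) * (Cfsg.blockRank p B : ℂ) = ∑ x : G, ∑ᶠ χ ∈ B, Cfsg.pRegularPart p (χ : G → ℂ) x * (χ : G → ℂ) x⁻¹ := by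
  classical
  have hprime := hM.2.1.isPrime
  have h0 : (Nat.card G : ℂ) ≠ 0 := card_ne_zero
  set W := Submodule.span ℂ ((fun χ : IrrCharacter G => pRegularPart p (χ : G → ℂ)) '' B) with hW
  set T : (G → ℂ) →ₗ[ℂ] (G → ℂ) :=
    ∑ χ : IrrCharacter G, if χ ∈ B then (coef χ).smulRight (pRegularPart p (χ : G → ℂ)) else 0
    with hT
  have hTapp : ∀ f, T f = ∑ χ : IrrCharacter G,
      if χ ∈ B then (coef χ f) • (pRegularPart p (χ : G → ℂ)) else 0 := by
    intro f
    rw [hT, LinearMap.sum_apply]
    apply Finset.sum_congr rfl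
    intro χ _
    split_ifs <;> simp
  have hcoef0 : ∀ ψ ∈ B, ∀ χ ∉ B, coef χ (pRegularPart p (ψ : G → ℂ)) = 0 := by
    intro ψ hψ χ hχ
    have hnb : ¬ SameBlock M (ψ : G → ℂ) (χ : G → ℂ) := by
      intro hs
      exact hχ (isPBlock_mem_of_sameBlock hB hψ hs)
    have := regular_orth hM hnb
    show (Nat.card G : ℂ)⁻¹ * ∑ g, pRegularPart p (ψ : G → ℂ) g * (χ : G → ℂ) g⁻¹ = 0
    rw [mul_eq_zero]
    right
    rw [← this]
    apply Finset.sum_congr rfl
    intro g _
    unfold pRegularPart IsPRegular
    rw [irr_inv]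
    split_ifs <;> simp
  have hproj : LinearMap.IsProj W T := by
    constructor
    · intro f
      rw [hTapp]
      apply Submodule.sum_mem
      intro χ _
      split_ifs with h
      · exact Submodule.smul_mem _ _ (Submodule.subset_span ⟨χ, h, rfl⟩)
      · exact Submodule.zero_mem _
    · intro f hf
      induction hf using Submodule.span_induction with
      | mem f hf =>
        obtain ⟨ψ, hψ, rfl⟩ := hf
        show T (pRegularPart p (ψ : G → ℂ)) = pRegularPart p (ψ : G → ℂ)
        have hexp : pRegularPart p (ψ : G → ℂ) = ∑ χ : IrrCharacter G,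
            if χ ∈ B then (coef χ (pRegularPart p (ψ : G → ℂ))) • (χ : G → ℂ) else 0 := by
          funext x
          rw [expand (pRegularPart_classfn p (fun g h => irr_conj ψ g h)) x, Finset.mul_sum,
            Finset.sum_apply]
          apply Finset.sum_congr rfl
          intro χ _
          split_ifs with h
          · show _ = ((Nat.card G : ℂ)⁻¹ * ∑ g, pRegularPart p (ψ : G → ℂ) g * (χ : G → ℂ) g⁻¹) * _
            ring
          · have := hcoef0 ψ hψ χ h
            have h2 : (Nat.card G : ℂ)⁻¹ * ∑ g, pRegularPart p (ψ : G → ℂ) g * (χ : G → ℂ) g⁻¹ = 0 :=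
              this
            rw [← mul_assoc, h2, zero_mul]
            rfl
        have h3 := congrArg (regL p) hexp
        rw [map_sum] at h3
        rw [hTapp]
        have h4 : regL p (pRegularPart p (ψ : G → ℂ)) = pRegularPart p (ψ : G → ℂ) := regL_idem p _
        rw [h4] at h3
        conv_rhs => rw [h3]
        apply Finset.sum_congr rfl
        intro χ _
        split_ifs with h
        · rw [map_smul]; rfl
        · rw [map_zero]
      | zero => exact map_zero _
      | add x y _ _ hx hy => rw [map_add, hx, hy]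
      | smul c x _ hx => rw [map_smul, hx]
  have htr := hproj.trace
  have htr2 : LinearMap.trace ℂ (G → ℂ) T = ∑ χ : IrrCharacter G,
      if χ ∈ B then coef χ (pRegularPart p (χ : G → ℂ)) else 0 := by
    rw [hT, map_sum]
    apply Finset.sum_congr rfl
    intro χ _
    split_ifs
    · rw [LinearMap.trace_smulRight]
    · rw [map_zero]
  have hrank : (blockRank p B : ℂ) = (Module.finrank ℂ W : ℂ) := rfl
  rw [hrank, ← htr, htr2, Finset.mul_sum]
  simp_rw [finsum_mem_fintype]
  rw [Finset.sum_comm]
  apply Finset.sum_congr rfl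
  intro χ _
  split_ifs with h
  · show (Nat.card G : ℂ) * ((Nat.card G : ℂ)⁻¹ * ∑ g, pRegularPart p (χ : G → ℂ) g * (χ : G → ℂ) g⁻¹) = _
    rw [← mul_assoc, mul_inv_cancel₀ h0, one_mul]
  · simp

end Cfsg.Agent.S4667
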