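import Cfsg.Statements.S4668
import Mathlib
import Cfsg.Agent.Lib.Helper80Supp
import Cfsg.Agent.Lib.Helper81Orth
import Cfsg.Agent.Lib.Helper54CharP

set_option autoImplicit false
open Cfsg

namespace Cfsg.Agent.S4668

/-- Fix a prime p and a maximal ideal M of the algebraic integers containing p. Let Q₀ < Q₁ < ⋯ < Q_m be a strictly increasing chain of p-subgroups of the finite group G and N the intersection of their normalizers. Then every block idempotent of N is supported on C_G(Q_m): for every p-block E of N, the idempotent coefficient of E vanishes at every element of N outside C_G(Q_m). -/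
theorem result {G : Type*} [Group G] [Fintype G] (p : ℕ) [Fact p.Prime] (M : Ideal Cfsg.AlgInt) (hM : Cfsg.IsPModular p M) (m : ℕ) (Q : Fin (m + 1) → Subgroup G) (hQ : StrictMono Q) (hQp : ∀ i, IsPGroup p (Q i)) (N : Subgroup G) (hN : ∀ g : G, g ∈ N ↔ ∀ i, g ∈ Subgroup.normalizer (Q i : Set G)) (E : Set (Cfsg.IrrCharacter N)) (hE : Cfsg.IsPBlock M E) (n : N) (hn : (n : G) ∉ Subgroup.centralizer (Q (Fin.last m) : Set G)) : Cfsg.blockCoeff E n = 0 := by
  classical
  by_contra hne
  have hp : p.Prime := Fact.out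
  -- `n` is `p`-regular
  have hreg : ¬ p ∣ orderOf n := fun h =>
    hne (Cfsg.Agent.Lib.Helper81Orth.blockCoeff_eq_zero_of_singular hM hE h)
  have hreg' : ¬ p ∣ orderOf (n : G) := by rwa [Subgroup.orderOf_coe]
  have hnN : ∀ i, (n : G) ∈ Subgroup.normalizer (Q i : Set G) := (hN n).mp n.2
  set R : Subgroup G := Q (Fin.last m) ⊓ N with hR
  -- `R` is a normal `p`-subgroup of `N`
  have hRn : (R.subgroupOf N).Normal := by
    constructor
    intro x hx y
    rw [Subgroup.mem_subgroupOf] at hx ⊢
    refine ⟨?_, (y * x * y⁻¹).2⟩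
    have := (Subgroup.mem_normalizer_iff.mp ((hN y).mp y.2 (Fin.last m)) x).mp hx.1
    simpa using this
  have hRp : IsPGroup p (R.subgroupOf N) :=
    ((hQp (Fin.last m)).to_le inf_le_left).comap_subtype
  have hcen : n ∈ Subgroup.centralizer ((R.subgroupOf N : Subgroup N) : Set N) := by
    by_contra hcon
    exact hne (Cfsg.Agent.Lib.Helper80Supp.blockCoeff_eq_zero_of_normal hM (R.subgroupOf N) hRp hE
      hcon)
  have hcomm : ∀ x ∈ R, x * (n : G) = n * x := by
    intro x hx
    have := Subgroup.mem_centralizer_iff.mp hcen ⟨x, hx.2⟩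
      (by simpa [Subgroup.mem_subgroupOf] using hx)
    exact congrArg Subtype.val this
  set A : Subgroup G := Subgroup.zpowers (n : G) with hA
  have hAcard : (Nat.card A).Coprime p := by
    rw [hA, Nat.card_zpowers]
    exact ((Nat.Prime.coprime_iff_not_dvd hp).mpr hreg').symm
  have hmemCA : ∀ x : G, x * (n : G) = n * x → x ∈ Subgroup.centralizer (A : Set G) := by
    intro x hx
    rw [Subgroup.mem_centralizer_iff]
    intro y hy
    obtain ⟨k, rfl⟩ := Subgroup.mem_zpowers_iff.mp hy
    have hc : Commute x (n : G) := hx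
    exact (hc.zpow_right k).eq.symm
  have hmono : Monotone Q := hQ.monotone
  have key : ∀ k : ℕ, ∀ hk : k < m + 1, Q ⟨k, hk⟩ ≤ Subgroup.centralizer (A : Set G) := by
    intro k
    induction k with
    | zero =>
      intro hk x hx
      apply hmemCA
      apply hcomm
      refine ⟨hmono (Fin.le_last _) hx, (hN x).mpr fun i => ?_⟩
      exact Subgroup.le_normalizer (hmono (Fin.zero_le i) hx)
    | succ k ih =>
      intro hk
      have hk' : k < m + 1 := by omega
      have ih' := ih hk'
      have hle : Q ⟨k, hk'⟩ ≤ Q ⟨k + 1, hk⟩ := hmono (by simp [Fin.le_def])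
      apply Cfsg.Agent.Lib.Helper54CharP.thompson_AxB (Q ⟨k + 1, hk⟩) A (Q ⟨k, hk'⟩) (hQp _) (hQp _)
        hAcard
      · rw [hA, Subgroup.zpowers_le]
        exact hnN _
      · exact hle.trans Subgroup.le_normalizer
      · rw [Subgroup.commutator_comm, Subgroup.commutator_eq_bot_iff_le_centralizer]
        exact ih'
      · rintro x ⟨hx1, hx2⟩
        apply hmemCA
        apply hcomm
        refine ⟨hmono (Fin.le_last _) hx1, (hN x).mpr fun i => ?_⟩
        by_cases hi : (i : ℕ) ≤ k
        · have hle2 : Q i ≤ Q ⟨k, hk'⟩ := hmono (by simpa [Fin.le_def] using hi)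
          exact Subgroup.centralizer_le_normalizer _ (Subgroup.centralizer_le hle2 hx2)
        · have hle2 : Q ⟨k + 1, hk⟩ ≤ Q i := hmono (by simp [Fin.le_def]; omega)
          exact Subgroup.le_normalizer (hle2 hx1)
  apply hn
  have h1 := key m (by omega)
  rw [Subgroup.mem_centralizer_iff]
  intro x hx
  have h2 := Subgroup.mem_centralizer_iff.mp (h1 hx) (n : G) (Subgroup.mem_zpowers _)
  exact h2.symm

end Cfsg.Agent.S4668
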