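import Cfsg.Statements.S4671
import Cfsg.Agent.Lib.Helper20FRK

set_option autoImplicit false
open Cfsg

namespace Cfsg.Agent.S4671

open Cfsg.Agent.Lib.Helper20Local Cfsg.Agent.Lib.Helper20Center Cfsg.Agent.Lib.Helper20Block
open Cfsg.Agent.Lib.Helper20Ideal Cfsg.Agent.Lib.Helper20Defect
open Cfsg.Agent.Lib.Helper20First Cfsg.Agent.Lib.Helper20Induced Cfsg.Agent.Lib.Helper87Sylow
open Cfsg.Agent.Lib.Helper20DefCard Cfsg.Agent.Lib.Helper20FRK Cfsg.Agent.Lib.Helper20Conj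
open Cfsg.Agent.Lib.Helper21Cover Cfsg.Agent.Lib.Helper21Cover4 Cfsg.Agent.Lib.Helper20Cov
open Cfsg.Agent.Lib.Helper20Fong Cfsg.Agent.Lib.Helper21FR


/-- Fix a prime p and a maximal ideal M of the algebraic integers containing p. Let N be a normal subgroup of the finite group G, B a p-block of G and P a defect group of B. Then there is a p-block c of N, stable under conjugation by P and covered by B (some member of B has a constituent in c on restriction to N), such that P ∩ N is a defect group of c. -/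
theorem result {G : Type*} [Group G] [Fintype G] (p : ℕ) [Fact p.Prime] (M : Ideal Cfsg.AlgInt) (hM : Cfsg.IsPModular p M) (N : Subgroup G) [N.Normal] [Fintype N] (B : Set (Cfsg.IrrCharacter G)) (hB : Cfsg.IsPBlock M B) (P : Subgroup G) (hP : Cfsg.IsDefectGroup p M B P) : ∃ c : Set (Cfsg.IrrCharacter N), Cfsg.IsPBlock M c ∧ (∀ x ∈ P, Cfsg.StabilizesBlock N c x) ∧ (∃ χ ∈ B, ∃ θ ∈ c, Cfsg.classInner (fun n : N => (χ : G → ℂ) n) (θ : N → ℂ) ≠ 0) ∧ Cfsg.IsDefectGroup p M c ((P ⊓ N).subgroupOf N) := by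
  classical
  have hPr := IsPModular.isPrime hM
  have := hPr
  have hN : N.Normal := inferInstance
  obtain ⟨χ, hχ⟩ := IsPBlock.nonempty hPr hB
  obtain ⟨θ, hθ⟩ := exists_under (N := N) χ
  have hb : IsPBlock M (Cfsg.blockOf M (θ : N → ℂ)) := Cfsg.Agent.Lib.Helper81Block.isPBlock_blockOf θ
  have hcov : Cv B (Cfsg.blockOf M (θ : N → ℂ)) :=
    ⟨χ, hχ, θ, Cfsg.Agent.Lib.Helper81Block.self_mem_blockOf θ, hθ⟩
  obtain ⟨D, hD, hDT, hDN⟩ := exists_defect_in_stab hM hb hB hcov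
  obtain ⟨t, rfl⟩ := defectGroup_conj hM hB hD hP
  refine ⟨(fun θ => cjI hN θ t⁻¹) '' (Cfsg.blockOf M (θ : N → ℂ)),
    isPBlock_image hN hb _, ?_, ?_, ?_⟩
  · intro x hx
    rw [stabilizesBlock_iff_cjI hN]
    rintro _ ⟨θ₀, hθ₀, rfl⟩
    rw [mem_cj] at hx
    have h1 := (isStab_stabSub hPr hN hb _).1 ((stabSub hN _).inv_mem (hDT hx)) θ₀ hθ₀
    refine ⟨_, h1, ?_⟩
    dsimp only
    rw [cjI_cjI, cjI_cjI]
    congr 1
    group
  · exact ⟨χ, hχ, _, ⟨θ, Cfsg.Agent.Lib.Helper81Block.self_mem_blockOf θ, rfl⟩, over_cjI hN hθ _⟩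
  · have h := isDefectGroup_image (inf_le_right : D ⊓ N ≤ N) hDN t
    rwa [cj_inf_normal] at h

end Cfsg.Agent.S4671
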