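import Cfsg.Statements.S4672
import Cfsg.Agent.Lib.Helper20Fong

set_option autoImplicit false
open Cfsg

namespace Cfsg.Agent.S4672

open Cfsg.Agent.Lib.Helper20Cov Cfsg.Agent.Lib.Helper20Induced Cfsg.Agent.Lib.Helper87Sylow
open Cfsg.Agent.Lib.Helper20Fong Cfsg.Agent.Lib.Helper21Cover Cfsg.Agent.Lib.Helper21Cover4
open Cfsg.Agent.Lib.Helper20Local


/-- Fix a prime p and a maximal ideal M of the algebraic integers containing p. Let N be a normal subgroup of the finite group G of p-power index and c a p-block of N stable under conjugation by G. Then the idempotent of c is a block idempotent of G: there is a p-block B of G whose idempotent coefficients agree with those of c on N and vanish off N; and for every defect group P of such a block B, G = NP and P ∩ N is a defect group of c. -/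
theorem result {G : Type*} [Group G] [Fintype G] (p : ℕ) [Fact p.Prime] (M : Ideal Cfsg.AlgInt) (hM : Cfsg.IsPModular p M) (N : Subgroup G) [N.Normal] (hN : ∃ k : ℕ, N.index = p ^ k) (c : Set (Cfsg.IrrCharacter N)) (hc : Cfsg.IsPBlock M c) (hst : ∀ x : G, Cfsg.StabilizesBlock N c x) : (∃ B : Set (Cfsg.IrrCharacter G), Cfsg.IsPBlock M B ∧ ∀ g : G, Cfsg.blockCoeff B g = Cfsg.subgroupBlockCoeff N c g) ∧ ∀ B : Set (Cfsg.IrrCharacter G), Cfsg.IsPBlock M B → (∀ g : G, Cfsg.blockCoeff B g = Cfsg.subgroupBlockCoeff N c g) → ∀ P : Subgroup G, Cfsg.IsDefectGroup p M B P → N ⊔ P = ⊤ ∧ Cfsg.IsDefectGroup p M c ((P ⊓ N).subgroupOf N) := by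
  classical
  have hNn : N.Normal := inferInstance
  letI : Fintype N := Fintype.ofFinite N
  have hP := IsPModular.isPrime hM
  have := hP
  have hstab : Stable hNn c := stable_of_stabilizes hNn hst
  obtain ⟨B₀, ⟨hB₀, hcov₀⟩, huniq⟩ := unique_covering (G := G) hM hN hc
  have hco₀ : blockCoeff B₀ = extendByZero N (blockCoeff c) := by
    have := blockCoeff_eq_ext hNn hB₀ hc hcov₀ (fun B' hB' h' => huniq B' ⟨hB', h'⟩)
    rwa [orb_eq_of_stable hstab] at this
  refine ⟨⟨B₀, hB₀, fun g => by rw [hco₀, subgroupBlockCoeff_eq_ext]⟩, ?_⟩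
  intro B hB hco P hPd
  have hco' : blockCoeff B = extendByZero N (blockCoeff c) := by
    funext g
    rw [hco g, subgroupBlockCoeff_eq_ext]
  have hcov : Cv B c := covers_of_blockCoeff_eq hP hstab hB hco'
  obtain ⟨B', hB', hcv', hd'⟩ := exists_covering_defect (G := G) hM hc hstab
  have hBB' : B' = B := (huniq B' ⟨hB', hcv'⟩).trans (huniq B ⟨hB, hcov⟩).symm
  rw [hBB'] at hd'
  have h2 := defect_add_index hM hc hB hcov hPd
  obtain ⟨Q', hQ'⟩ := exists_defectGroup hM hc
  have hQN : Q'.map N.subtype ≤ N := Subgroup.map_subtype_le _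
  have hQQ : (Q'.map N.subtype).subgroupOf N = Q' :=
    Subgroup.comap_map_eq_self_of_injective N.subtype_injective Q'
  rw [← hQQ] at hQ'
  obtain ⟨x, hx⟩ := knorr hM hc hB hcov hQN hQ' hPd
  refine ⟨?_, ?_⟩
  · have h3 : (P ⊔ N).index.factorization p = 0 := by omega
    obtain ⟨k, hk⟩ := hN
    have h4 : (P ⊔ N).index ∣ p ^ k := hk ▸ Subgroup.index_dvd_of_le le_sup_right
    obtain ⟨m, -, hm⟩ := (Nat.dvd_prime_pow Fact.out).1 h4
    rw [hm, (Fact.out : p.Prime).factorization_pow, Finsupp.single_eq_same] at h3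
    rw [h3, pow_zero] at hm
    rw [sup_comm]
    exact Subgroup.index_eq_one.1 hm
  · rw [hx]
    exact isDefectGroup_cj_of_stable hstab hQN hQ' x

end Cfsg.Agent.S4672
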