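import Cfsg.Statements.S4673
import Cfsg.Agent.Lib.Helper20Mid

set_option autoImplicit false
open Cfsg

namespace Cfsg.Agent.S4673

open Cfsg.Agent.Lib.Helper20Local Cfsg.Agent.Lib.Helper20Center Cfsg.Agent.Lib.Helper20Block
open Cfsg.Agent.Lib.Helper20Ideal Cfsg.Agent.Lib.Helper20Defect
open Cfsg.Agent.Lib.Helper20First Cfsg.Agent.Lib.Helper20Induced Cfsg.Agent.Lib.Helper87Sylow
open Cfsg.Agent.Lib.Helper20DefCard Cfsg.Agent.Lib.Helper20FRK Cfsg.Agent.Lib.Helper20Conj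
open Cfsg.Agent.Lib.Helper21Cover Cfsg.Agent.Lib.Helper21Cover4 Cfsg.Agent.Lib.Helper20Cov
open Cfsg.Agent.Lib.Helper20Fong Cfsg.Agent.Lib.Helper21FR Cfsg.Agent.Lib.Helper20Mid
open Cfsg.Agent.Lib.Helper20Down Cfsg.Agent.Lib.Helper20Tower


/-- Fix a prime p and a maximal ideal M of the algebraic integers containing p. Let N ≤ L be normal subgroups of the finite group G with L/N a p-group, let B be a p-block of G covering the p-block c of N (some member of B has a constituent in c on restriction to N), and suppose that N contains a defect group of B. Then the stabilizer T of c in G satisfies T ∩ L = N. -/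
theorem result {G : Type*} [Group G] [Fintype G] (p : ℕ) [Fact p.Prime] (M : Ideal Cfsg.AlgInt) (hM : Cfsg.IsPModular p M) (N L : Subgroup G) [N.Normal] [L.Normal] [Fintype N] (hNL : N ≤ L) (hLN : ∃ k : ℕ, (N.subgroupOf L).index = p ^ k) (B : Set (Cfsg.IrrCharacter G)) (hB : Cfsg.IsPBlock M B) (c : Set (Cfsg.IrrCharacter N)) (hc : Cfsg.IsPBlock M c) (hcov : (∃ χ ∈ B, ∃ θ ∈ c, Cfsg.classInner (fun n : N => (χ : G → ℂ) n) (θ : N → ℂ) ≠ 0)) (hD : ∃ D : Subgroup G, Cfsg.IsDefectGroup p M B D ∧ D ≤ N) (T : Subgroup G) (hT : ∀ x : G, x ∈ T ↔ Cfsg.StabilizesBlock N c x) : T ⊓ L = N := by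
  classical
  have hp : p.Prime := Fact.out
  have hPr := IsPModular.isPrime hM
  have := hPr
  have hN : N.Normal := inferInstance
  have hN' : (N.subgroupOf L).Normal := inferInstance
  obtain ⟨χ, hχ, θ, hθ, hov⟩ := hcov
  obtain ⟨D, hD, hDN⟩ := hD
  obtain ⟨ψ, hψ1, hψ2⟩ := exists_middle_over hNL hov
  have hbL : IsPBlock M (Cfsg.blockOf M (ψ : L → ℂ)) :=
    Cfsg.Agent.Lib.Helper81Block.isPBlock_blockOf ψ
  have hψm := Cfsg.Agent.Lib.Helper81Block.self_mem_blockOf (M := M) ψ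
  have hcv1 : Cv B (Cfsg.blockOf M (ψ : L → ℂ)) := ⟨χ, hχ, ψ, hψm, hψ1⟩
  have hcv2 : Cv (Cfsg.blockOf M (ψ : L → ℂ)) (down hNL c) :=
    (cv_down_iff hNL _ c).2 ⟨ψ, hψm, θ, hθ, hψ2⟩
  have hc' := isPBlock_down (M := M) hNL hc
  obtain ⟨Q₀, hQ₀⟩ := exists_defectGroup hM hbL
  have hQ₁ : (Q₀.map L.subtype).subgroupOf L = Q₀ :=
    Subgroup.comap_map_eq_self_of_injective (Subgroup.subtype_injective _) Q₀
  have hQle : Q₀.map L.subtype ≤ L := Subgroup.map_subtype_le Q₀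
  have hQ₀' := hQ₀
  rw [← hQ₁] at hQ₀'
  obtain ⟨x, hx⟩ := knorr hM hbL hB hcv1 hQle hQ₀' hD
  have hDL : D ⊓ L = D := inf_eq_left.2 (hDN.trans hNL)
  rw [hDL] at hx
  have hQN : Q₀ ≤ N.subgroupOf L := by
    intro q hq
    rw [Subgroup.mem_subgroupOf]
    have h1 : x * (q : G) * x⁻¹ ∈ cj x (Q₀.map L.subtype) := by
      rw [mem_cj]
      have : x⁻¹ * (x * (q : G) * x⁻¹) * x = q := by group
      rw [this]
      exact ⟨q, hq, rfl⟩
    rw [← hx] at h1
    have h2 := hN.conj_mem _ (hDN h1) x⁻¹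
    have : x⁻¹ * (x * (q : G) * x⁻¹) * x⁻¹⁻¹ = q := by group
    rwa [this] at h2
  have h3 := defect_add_index hM hc' hbL hcv2 hQ₀
  rw [sup_eq_right.2 hQN] at h3
  have huniq := unique_covering (G := L) hM hLN hc'
  have h4 := defect_of_unique_covering hM hc' (le_stabSub hN' _) (isStab_stabSub hPr hN' hc')
    hbL hcv2 (fun B' hB' hcv' => huniq.unique ⟨hB', hcv'⟩ ⟨hbL, hcv2⟩)
  have h5 : ((N.subgroupOf L).relIndex (stabSub hN' (down hNL c))).factorization p = 0 := by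
    omega
  have h6 : (N.subgroupOf L).relIndex (stabSub hN' (down hNL c)) = 1 := by
    obtain ⟨k, hk⟩ := hLN
    have hdvd : (N.subgroupOf L).relIndex (stabSub hN' (down hNL c)) ∣ p ^ k := by
      rw [← hk]
      exact Subgroup.relIndex_dvd_index_of_normal _ _
    obtain ⟨j, _, hj⟩ := (Nat.dvd_prime_pow hp).1 hdvd
    rw [hj, hp.factorization_pow] at h5
    simp at h5
    rw [hj, h5, pow_zero]
  have h7 : stabSub hN' (down hNL c) ≤ N.subgroupOf L := Subgroup.relIndex_eq_one.1 h6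
  apply le_antisymm
  · rintro y ⟨hyT, hyL⟩
    have h8 := (stabilizesBlock_iff_cjI hN c y).1 ((hT y).1 hyT)
    have h9 : (⟨y, hyL⟩ : L)⁻¹ ∈ stabSub hN' (down hNL c) := by
      rw [isStab_stabSub hPr hN' hc']
      rintro _ ⟨θ₀, hθ₀, rfl⟩
      rw [cjI_down hN hN' hNL]
      exact ⟨_, h8 θ₀ hθ₀, rfl⟩
    have h10 := h7 ((Subgroup.inv_mem_iff _).1 h9)
    exact h10
  · refine le_inf ?_ hNL
    intro y hy
    rw [hT, stabilizesBlock_iff_cjI hN]
    exact (isStab_stabSub hPr hN hc _).1 (le_stabSub hN c (N.inv_mem hy))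

end Cfsg.Agent.S4673
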