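import Cfsg.Statements.S4674
import Cfsg.Agent.Lib.Helper20HK

set_option autoImplicit false
open Cfsg

namespace Cfsg.Agent.S4674

open Cfsg.Agent.Lib.Helper20Local Cfsg.Agent.Lib.Helper20Center Cfsg.Agent.Lib.Helper20Block
open Cfsg.Agent.Lib.Helper20Ideal Cfsg.Agent.Lib.Helper20Defect
open Cfsg.Agent.Lib.Helper20First Cfsg.Agent.Lib.Helper20Induced Cfsg.Agent.Lib.Helper87Sylow
open Cfsg.Agent.Lib.Helper20DefCard Cfsg.Agent.Lib.Helper20FRK Cfsg.Agent.Lib.Helper20Conj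
open Cfsg.Agent.Lib.Helper21Cover Cfsg.Agent.Lib.Helper21Cover4 Cfsg.Agent.Lib.Helper20Cov
open Cfsg.Agent.Lib.Helper20Fong Cfsg.Agent.Lib.Helper21FR Cfsg.Agent.Lib.Helper20Mid
open Cfsg.Agent.Lib.Helper20Down Cfsg.Agent.Lib.Helper20Tower Cfsg.Agent.Lib.Helper20HK
open Cfsg.Agent.Lib.Helper20Rel Cfsg.Agent.Lib.Helper20Major Cfsg.Agent.Lib.Helper20Sub


/-- Fix a prime p and a maximal ideal M of the algebraic integers containing p. Let N be a normal subgroup of the finite group G, Q a p-subgroup of N, H = N_G(Q) and L = H ∩ N = N_N(Q). Let d be a p-block of N with defect group Q and e the p-block of L with defect group Q that induces d inside N (its Brauer correspondent). Then block induction from H to G is a bijection from the p-blocks of H covering e onto the p-blocks of G covering d: every block of H covering e induces exactly one block of G, and that block covers d; and every block of G covering d is induced by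 exactly one block of H covering e. -/
theorem result {G : Type*} [Group G] [Fintype G] (p : ℕ) [Fact p.Prime] (M : Ideal Cfsg.AlgInt) (hM : Cfsg.IsPModular p M) (N : Subgroup G) [N.Normal] [Fintype N] (Q : Subgroup G) (hQ : IsPGroup p Q) (hQN : Q ≤ N) [Fintype ↥(Subgroup.normalizer (Q : Set G) ⊓ N)] (d : Set (Cfsg.IrrCharacter N)) (hd : Cfsg.IsPBlock M d) (hdQ : Cfsg.IsDefectGroup p M d (Q.subgroupOf N)) (e : Set (Cfsg.IrrCharacter ↥(Subgroup.normalizer (Q : Set G) ⊓ N))) (he : Cfsg.IsPBlock M e) (heQ : Cfsg.IsDefectGroup p M e (Q.subgroupOf (Subgroup.normalizer (Q : Set G) ⊓ N))) (hed : Cfsg.IsInducedBlockIn M N (Subgroup.normalizer (Q : Set G) ⊓ N) e d) : (∀ c : Set (Cfsg.IrrCharacter ↥(Subgroup.normalizer (Q : Set G))), Cfsg.IsPBlock M c → (∃ ψ ∈ c, ∃ ξ ∈ e, Cfsg.classInner (fun l : ↥(Subgroup.normalizer (Q : Set G) ⊓ N) => (ψ : ↥(Subgroup.normalizer (Q : Set G)) → ℂ) (Subgroup.inclusion inf_le_left l)) (ξ : ↥(Subgroup.normalizer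 (Q : Set G) ⊓ N) → ℂ) ≠ 0) → ∃! B : Set (Cfsg.IrrCharacter G), Cfsg.IsInducedBlock M (Subgroup.normalizer (Q : Set G)) c B ∧ (∃ χ ∈ B, ∃ θ ∈ d, Cfsg.classInner (fun n : N => (χ : G → ℂ) n) (θ : N → ℂ) ≠ 0)) ∧ (∀ B : Set (Cfsg.IrrCharacter G), Cfsg.IsPBlock M B → (∃ χ ∈ B, ∃ θ ∈ d, Cfsg.classInner (fun n : N => (χ : G → ℂ) n) (θ : N → ℂ) ≠ 0) → ∃! c : Set (Cfsg.IrrCharacter ↥(Subgroup.normalizer (Q : Set G))), (Cfsg.IsPBlock M c ∧ ∃ ψ ∈ c, ∃ ξ ∈ e, Cfsg.classInner (fun l : ↥(Subgroup.normalizer (Q : Set G) ⊓ N) => (ψ : ↥(Subgroup.normalizer (Q : Set G)) → ℂ) (Subgroup.inclusion inf_le_left l)) (ξ : ↥(Subgroup.normalizer (Q : Set G) ⊓ N) → ℂ) ≠ 0) ∧ Cfsg.IsInducedBlock M (Subgroup.normalizer (Q : Set G)) c B) := by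
  classical
  have hPr := IsPModular.isPrime hM
  have hbridge : ∀ c : Set (Cfsg.IrrCharacter ↥(Subgroup.normalizer (Q : Set G))),
      (∃ ψ ∈ c, ∃ ξ ∈ e, Cfsg.classInner (fun l : ↥(Subgroup.normalizer (Q : Set G) ⊓ N) =>
        (ψ : ↥(Subgroup.normalizer (Q : Set G)) → ℂ) (Subgroup.inclusion inf_le_left l))
        (ξ : ↥(Subgroup.normalizer (Q : Set G) ⊓ N) → ℂ) ≠ 0) ↔
      Cv c (down inf_le_left e) := by
    intro c
    rw [cv_down_iff]
    rfl
  simp only [hbridge]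
  constructor
  · intro c hc hcov
    obtain ⟨B, hB⟩ := Cfsg.Agent.S0919.result p M hM Q (Subgroup.normalizer (Q : Set G)) hQ
      Subgroup.le_normalizer (centralizer_le_normalizer' Q) le_rfl c hc
    refine ⟨B, ⟨hB, covers_induced hPr hcov hB hed⟩, ?_⟩
    rintro B' ⟨hB', _⟩
    exact induced_block_unique hPr hB' hB
  · intro B hB hcov
    obtain ⟨D, hD⟩ := exists_defectGroup hM hB
    obtain ⟨x, hx⟩ := knorr hM hd hB hcov hQN hdQ hD
    have hle : cj x Q ≤ D := by rw [← hx]; exact inf_le_left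
    obtain ⟨y, hy, hyC⟩ := (coeff_iff_le_defectGroup hM hB hD hQ).2 ⟨x, hle⟩
    obtain ⟨c, hc⟩ := exists_block_induced_of_coeff hM hQ (H := Subgroup.normalizer (Q : Set G))
      Subgroup.le_normalizer (centralizer_le_normalizer' Q) le_rfl hB hyC hy
    refine ⟨c, ⟨⟨hc.1, hk_covers hM rfl hQ hQN hd hdQ heQ hed hc hcov⟩, hc⟩, ?_⟩
    rintro c' ⟨⟨_, hcov'⟩, hc'⟩
    exact hk_injective hM rfl hQN he heQ hcov'
      (hk_covers hM rfl hQ hQN hd hdQ heQ hed hc hcov) hc' hc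

end Cfsg.Agent.S4674
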