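import Cfsg.Statements.S4675
import Cfsg.Agent.Lib.Helper81RankOne
import Cfsg.Agent.Lib.Helper20DefCard

set_option autoImplicit false
open Cfsg

namespace Cfsg.Agent.S4675


/-- Fix a prime p and a maximal ideal M of the algebraic integers containing p. Let B be a p-block of the finite group G with defect group P and p-regular rank one (a single irreducible Brauer character). Then there are a function φ on G that is, on the p-regular elements, an integer combination of the members of B, and natural numbers d_χ (χ ∈ B), such that every χ ∈ B agrees with d_χ·φ on the p-regular elements and Σ_{χ ∈ B} d_χ² equals the order of P (the single Cartan invariant of B is the order of P). -/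
theorem result {G : Type*} [Group G] [Fintype G] (p : ℕ) [Fact p.Prime] (M : Ideal Cfsg.AlgInt) (hM : Cfsg.IsPModular p M) (B : Set (Cfsg.IrrCharacter G)) (hB : Cfsg.IsPBlock M B) (P : Subgroup G) (hP : Cfsg.IsDefectGroup p M B P) (hl : Cfsg.blockRank p B = 1) : ∃ φ : G → ℂ, ∃ d : Cfsg.IrrCharacter G → ℕ, (∃ n : Cfsg.IrrCharacter G → ℤ, ∀ x : G, Cfsg.IsPRegular p x → φ x = ∑ᶠ ψ ∈ B, (n ψ : ℂ) * (ψ : G → ℂ) x) ∧ (∀ χ ∈ B, ∀ x : G, Cfsg.IsPRegular p x → (χ : G → ℂ) x = (d χ : ℂ) * φ x) ∧ ∑ᶠ χ ∈ B, d χ ^ 2 = Nat.card P := by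
  classical
  obtain ⟨n, d, h1, h2⟩ := Cfsg.Agent.Lib.Helper81RankOne.rank_one hM hB hl
  have hfs : ∀ {α : Type} [AddCommMonoid α] (f : Cfsg.IrrCharacter G → α),
      ∑ᶠ ψ ∈ B, f ψ = ∑ ψ : Cfsg.IrrCharacter G, (if ψ ∈ B then f ψ else 0) := by
    intro α _ f
    have : Fintype (Cfsg.IrrCharacter G) := Fintype.ofFinite _
    rw [finsum_mem_eq_finite_toFinset_sum f (Set.toFinite B), ← Finset.sum_filter]
    apply Finset.sum_congr _ (fun _ _ => rfl)
    ext x
    simp
  refine ⟨fun x => ∑ ψ : Cfsg.IrrCharacter G, (if ψ ∈ B then (n ψ : ℂ) * (ψ : G → ℂ) x else 0), d,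
    ⟨n, fun x _ => ?_⟩, fun χ hχ x hx => h1 χ hχ x hx, ?_⟩
  · rw [hfs]
  · rw [hfs, Cfsg.Agent.Lib.Helper20DefCard.card_defectGroup hM hB hP, ← h2]

end Cfsg.Agent.S4675
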