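import Cfsg.Statements.S4679
import Cfsg.Agent.Lib.Helper80BFus

set_option autoImplicit false
open Cfsg

namespace Cfsg.Agent.S4679

open Cfsg.Agent.Lib.Helper80Full2 Cfsg.Agent.Lib.Helper80Full Cfsg.Agent.Lib.Helper80Conj
  Cfsg.Agent.Lib.Helper80Trace Cfsg.Agent.Lib.Helper80Brauer Cfsg.Agent.Lib.Helper20Local
  Cfsg.Agent.Lib.Helper87Sylow


/-- Fix a prime p and a maximal ideal M of the algebraic integers containing p, a p-block B of the finite group G with maximal Brauer pair (P, e), its fusion system F on P, a Brauer pair (Q, f) ≤ (P, e), and let T be the stabilizer of f in N_G(Q). Then Q is fully normalized in F if and only if N_P(Q) is a defect group of the block of T whose idempotent is that of f. -/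
theorem result {G : Type*} [Group G] [Fintype G] (p : ℕ) [Fact p.Prime] (M : Ideal Cfsg.AlgInt) (hM : Cfsg.IsPModular p M) (B : Set (Cfsg.IrrCharacter G)) (P : Subgroup G) (e : Set (Cfsg.IrrCharacter (Subgroup.centralizer (P : Set G)))) (hmax : Cfsg.IsMaximalBrauerPair p M B P e) (F : Cfsg.FusionSystem P) (hF : Cfsg.IsBlockFusionSystemOn p M B P e F) (Q : Subgroup G) (f : Set (Cfsg.IrrCharacter (Subgroup.centralizer (Q : Set G)))) (hQP : Q ≤ P) (hf : Cfsg.IsPBlock M f) (hle : Cfsg.SubpairLE p M Q f P e) (T : Subgroup G) (hT : ∀ y : G, y ∈ T ↔ y ∈ Subgroup.normalizer (Q : Set G) ∧ Cfsg.StabilizesBlock (Subgroup.centralizer (Q : Set G)) f y) : F.IsFullyNormalized Q ↔ ∃ F' : Set (Cfsg.IrrCharacter T), Cfsg.IsPBlock M F' ∧ (∀ t : T, Cfsg.blockCoeff F' t = Cfsg.subgroupBlockCoeff (Subgroup.centralizer (Q : Set G)) f (t : G)) ∧ Cfsg.IsDefectGroup p M F' ((P ⊓ Subgroup.normalizer (Q : Set G)).subgroupOf T) := by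
  classical
  have hPr := IsPModular.isPrime hM
  obtain rfl := eq_pstab hPr hf hT
  rw [Cfsg.Agent.Lib.Helper80BFus.fullyNormalized_iff hM hF hle]
  constructor
  · rintro ⟨E, hE, hEe, hD⟩
    refine ⟨E, hE, fun t => ?_, hD⟩
    have := congrFun hEe (t : G)
    rw [ext_coe] at this
    exact this
  · rintro ⟨E, hE, hEe, hD⟩
    refine ⟨E, hE, ?_, hD⟩
    funext g
    by_cases hg : g ∈ pstab Q f
    · have := hEe ⟨g, hg⟩
      rw [ext_mem _ hg]
      exact this
    · rw [ext_not_mem _ hg]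
      have hg' : g ∉ Subgroup.centralizer (Q : Set G) := fun h => hg (centralizer_le_pstab Q f h)
      show 0 = ext _ _ g
      rw [ext_not_mem _ hg']

end Cfsg.Agent.S4679
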