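import Cfsg.Statements.S4685
import Cfsg.Agent.Lib.H25SCFACT2
import Cfsg.Agent.Lib.H25SCCMAJ
import Cfsg.Agent.Lib.Helper80StarMain

set_option autoImplicit false
open Cfsg

namespace Cfsg.Agent.S4685

/-- Fix a prime p and a maximal ideal M of the algebraic integers containing p, a p-block B of the finite group G with maximal Brauer pair (P, e) and fusion system F on P. Then for every h the number of irreducible characters of height h in B is divisible by the index of Z(P) ∩ foc(F) in Z(P), where foc(F) is the focal subgroup of F. -/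
theorem result {G : Type*} [Group G] [Fintype G] (p : ℕ) [Fact p.Prime] (M : Ideal Cfsg.AlgInt) (hM : Cfsg.IsPModular p M) (B : Set (Cfsg.IrrCharacter G)) (P : Subgroup G) (e : Set (Cfsg.IrrCharacter (Subgroup.centralizer (P : Set G)))) (hmax : Cfsg.IsMaximalBrauerPair p M B P e) (F : Cfsg.FusionSystem P) (hF : Cfsg.IsBlockFusionSystemOn p M B P e F) (h : ℕ) : ((P ⊓ Subgroup.centralizer (P : Set G) ⊓ F.focalSubgroup).subgroupOf (P ⊓ Subgroup.centralizer (P : Set G))).index ∣ Nat.card {χ : Cfsg.IrrCharacter G // χ ∈ B ∧ Cfsg.blockHeight p B (χ : G → ℂ) = h} := by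
  haveI := hM.2.1.isPrime
  have hgen := Cfsg.Agent.Lib.Helper80StarMain.starGenP hM hmax
  have h1 := Cfsg.Agent.Lib.H25SCFACT2.relIndex_dvd_card hM hmax hgen hF
    (P ⊓ Subgroup.centralizer (P : Set G)) inf_le_left h
    (fun χ hχ _ u hu => Cfsg.Agent.Lib.H25SCCMAJ.majorP hM hmax χ hχ u
      ⟨hu.1, fun y hy => Subgroup.mem_centralizer_iff.1 hu.2 y hy⟩)
  have h2 : ((P ⊓ Subgroup.centralizer (P : Set G) ⊓ F.focalSubgroup).subgroupOf
      (P ⊓ Subgroup.centralizer (P : Set G))).index
      = F.focalSubgroup.relIndex (P ⊓ Subgroup.centralizer (P : Set G)) := by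
    rw [← Subgroup.relIndex, Subgroup.inf_relIndex_left]
  rw [h2]
  exact h1

end Cfsg.Agent.S4685
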