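import Cfsg.Statements.S4693
import Cfsg.Agent.Lib.Helper80Cen

set_option autoImplicit false
open Cfsg

namespace Cfsg.Agent.S4693

open Cfsg.Agent.Lib.Helper80Full2 Cfsg.Agent.Lib.Helper80Abel Cfsg.Agent.Lib.Helper20Local
  Cfsg.Agent.Lib.Helper80Cen Cfsg.Agent.Lib.Helper80Trace Cfsg.Agent.Lib.Helper80Stab
  Cfsg.Agent.Lib.Helper80Brauer Cfsg.Agent.Lib.Helper80Pairs Cfsg.Agent.Lib.Helper80Incl
  Cfsg.Agent.Lib.Helper80Transport


/-- Fix a prime p and a maximal ideal M of the algebraic integers containing p, a p-block B of the finite group G with maximal Brauer pair (P, e) and fusion system F on P, and a Brauer pair (Q, f) ≤ (P, e) with Q centric in F. Suppose every element of G normalizes Q and stabilizes f. Then the idempotent of B agrees with that of f modulo M at every element of G, and f is the idempotent of a nilpotent block of Q·C_G(Q): some p-block of Q·C_G(Q) has the idempotent coefficients of f and is nilpotent. -/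
theorem result {G : Type*} [Group G] [Fintype G] (p : ℕ) [Fact p.Prime] (M : Ideal Cfsg.AlgInt) (hM : Cfsg.IsPModular p M) (B : Set (Cfsg.IrrCharacter G)) (P : Subgroup G) (e : Set (Cfsg.IrrCharacter (Subgroup.centralizer (P : Set G)))) (hmax : Cfsg.IsMaximalBrauerPair p M B P e) (F : Cfsg.FusionSystem P) (hF : Cfsg.IsBlockFusionSystemOn p M B P e F) (Q : Subgroup G) (f : Set (Cfsg.IrrCharacter (Subgroup.centralizer (Q : Set G)))) (hQP : Q ≤ P) (hf : Cfsg.IsPBlock M f) (hle : Cfsg.SubpairLE p M Q f P e) (hcen : F.IsCentric Q) (hG : ∀ x : G, x ∈ Subgroup.normalizer (Q : Set G) ∧ Cfsg.StabilizesBlock (Subgroup.centralizer (Q : Set G)) f x) : (∀ g : G, Cfsg.MemLocalIdeal M (Cfsg.blockCoeff B g - Cfsg.subgroupBlockCoeff (Subgroup.centralizer (Q : Set G)) f g)) ∧ ∃ F' : Set (Cfsg.IrrCharacter ↥(Q ⊔ Subgroup.centralizer (Q : Set G))), Cfsg.IsPBlock M F' ∧ (∀ t : ↥(Q ⊔ Subgroup.centralizer (Q : Set G)), Cfsg.blockCoeff F' t = Cfsg.subgroupBlockCoeff (Subgroup.centralizer (Q : Set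 G)) f (t : G)) ∧ Cfsg.IsNilpotentBlock p M F' := by
  classical
  have hPr := IsPModular.isPrime hM
  have htop : pstab Q f = ⊤ := by
    rw [eq_top_iff]
    intro x _
    obtain ⟨h1, h2⟩ := hG x
    rw [stabilizesBlock_iff hPr hf] at h2
    exact mem_stabFun.2 ⟨h1, h2.2⟩
  have hQfB : IsBrauerPairOf p M B Q f :=
    (isBrauerPairOf_iff_of_le hM hmax.1.2.1 hle).1 hmax.1
  constructor
  · intro g
    rw [blockCoeff_eq_pfun_of_stab_top hM hQfB htop]
    show MemLocalIdeal M (pfun Q f g - pfun Q f g)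
    rw [sub_self]
    exact memLocalIdeal_zero hPr
  · have hHT : Q ⊔ Subgroup.centralizer (Q : Set G) ≤ pstab Q f := htop ▸ le_top
    obtain ⟨F', hF', hF'e⟩ := exists_block_stab
      (T := Q ⊔ Subgroup.centralizer (Q : Set G)) hM hQfB.1.1 hf le_sup_left le_sup_right
      (hHT.trans (pstab_le Q f)) ((isInv_stabFun _ _).mono hHT)
    refine ⟨F', hF', fun t => ?_, ?_⟩
    · have := congrFun hF'e (t : G)
      rw [ext_coe] at this
      exact this
    · exact isNilpotentBlock_sup_centralizer hM hmax hle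
        (hcen.2 Q (Cfsg.Agent.Lib.Helper87Fusion.isConj_refl F hQP)) htop hF' hF'e

end Cfsg.Agent.S4693
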