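import Cfsg.Statements.S4694
import Cfsg.Agent.Lib.Helper81Weight
import Cfsg.Agent.Lib.Helper80Pairs

set_option autoImplicit false
open Cfsg

namespace Cfsg.Agent.S4694

open Cfsg.Agent.Lib.Helper81Local Cfsg.Agent.Lib.Helper81Base Cfsg.Agent.Lib.Helper81Block
  Cfsg.Agent.Lib.Helper81Weight
open scoped ComplexConjugate
/-- Fix a prime p and a maximal ideal M of the algebraic integers containing p, a p-block B of the finite group G and a Brauer pair (Q, e) of B. Let T be the stabilizer of e in N_G(Q) and suppose that (Q, e) carries a weight: the block of T whose idempotent is that of e contains an irreducible character χ that is constant on the cosets of Q and whose degree has p-part equal to the p-part of the index of Q in T. Then Z(Q) is a defect group of e as a block of C_G(Q), and Q is the largest normal p-subgroup of T: every p-subgroup of T normalized by T lies in Q. -/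
theorem result {G : Type*} [Group G] [Fintype G] (p : ℕ) [Fact p.Prime] (M : Ideal Cfsg.AlgInt) (hM : Cfsg.IsPModular p M) (B : Set (Cfsg.IrrCharacter G)) (Q : Subgroup G) (e : Set (Cfsg.IrrCharacter (Subgroup.centralizer (Q : Set G)))) (hQe : Cfsg.IsBrauerPairOf p M B Q e) (T : Subgroup G) (hT : ∀ y : G, y ∈ T ↔ y ∈ Subgroup.normalizer (Q : Set G) ∧ Cfsg.StabilizesBlock (Subgroup.centralizer (Q : Set G)) e y) (F' : Set (Cfsg.IrrCharacter T)) (hF' : Cfsg.IsPBlock M F') (hF'e : ∀ t : T, Cfsg.blockCoeff F' t = Cfsg.subgroupBlockCoeff (Subgroup.centralizer (Q : Set G)) e (t : G)) (χ : Cfsg.IrrCharacter T) (hχ : χ ∈ F') (hχQ : ∀ q : G, q ∈ Q → ∀ t : T, ∀ t' : T, (t' : G) = q * (t : G) → (χ : T → ℂ) t' = (χ : T → ℂ) t) (hdeg : (Cfsg.charDegree (χ : T → ℂ)).factorization p + (Nat.card Q).factorization p = (Nat.card T).factorization p) : Cfsg.IsDefectGroup p M e ((Q ⊓ Subgroup.centralizer (Q : Set G)).subgroupOf (Subgroup.centralizer (Q : Set G))) ∧ ∀ R : Subgroup G, R ≤ T → IsPGroup p R → (∀ t ∈ T, t ∈ Subgroup.normalizer (R : Set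 G)) → R ≤ Q := by
  classical
  have hp : p.Prime := Fact.out
  have hPr := hM.2.1.isPrime
  have hQp : IsPGroup p Q := hQe.1.1
  have he : IsPBlock M e := hQe.1.2
  have hTN : ∀ t ∈ T, t ∈ Subgroup.normalizer (Q : Set G) := fun t ht => ((hT t).1 ht).1
  have hCT : Subgroup.centralizer (Q : Set G) ≤ T := by
    intro y hy
    rw [hT]
    refine ⟨Subgroup.centralizer_le_normalizer _ hy, Subgroup.le_normalizer hy, ?_⟩
    intro ξ hξ
    refine ⟨ξ, hξ, ?_⟩
    intro k k' hk
    have : k' = ⟨y, hy⟩ * k * ⟨y, hy⟩⁻¹ := Subtype.ext (by simpa using hk)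
    rw [this, irr_conj]
  have hQT : Q ≤ T := by
    intro y hy
    rw [hT]
    refine ⟨Subgroup.le_normalizer hy,
      Cfsg.Agent.Lib.Helper80Pairs.normalizer_le_normalizer_centralizer Q
        (Subgroup.le_normalizer hy), ?_⟩
    intro ξ hξ
    refine ⟨ξ, hξ, ?_⟩
    intro k k' hk
    have : k' = k := by
      apply Subtype.ext
      rw [hk, (Subgroup.mem_centralizer_iff.1 k.2) y hy, mul_inv_cancel_right]
    rw [this]
  have hQTn : (Q.subgroupOf T).Normal := by
    constructor
    intro n hn g
    rw [Subgroup.mem_subgroupOf] at hn ⊢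
    have := (Subgroup.mem_normalizer_iff.1 (hTN g g.2)) n
    simpa using this.1 hn
  have hker : ∀ n ∈ Q.subgroupOf T, (χ : T → ℂ) n = (χ : T → ℂ) 1 := by
    intro n hn
    exact hχQ (n : G) (Subgroup.mem_subgroupOf.1 hn) 1 n (by simp)
  have hcQ : Nat.card (Q.subgroupOf T) = Nat.card Q :=
    Nat.card_congr (Subgroup.subgroupOfEquivOfLe hQT).toEquiv
  have hdeg' : (charDegree (χ : T → ℂ)).factorization p
      + (Nat.card (Q.subgroupOf T)).factorization p = (Nat.card T).factorization p := by
    rw [hcQ]; exact hdeg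
  constructor
  · have hι : (Subgroup.inclusion hCT).range.Normal := by
      constructor
      rintro n ⟨c, rfl⟩ g
      have hg := Cfsg.Agent.Lib.Helper80Pairs.normalizer_le_normalizer_centralizer Q (hTN g g.2)
      refine ⟨⟨(g : G) * c * (g : G)⁻¹, (Subgroup.mem_normalizer_iff.1 hg _).1 c.2⟩, ?_⟩
      apply Subtype.ext
      simp
    have hsum : ∑ c : Subgroup.centralizer (Q : Set G),
        blockCoeff e c * (χ : T → ℂ) (Subgroup.inclusion hCT c) = (χ : T → ℂ) 1 := by
      have h1 := om_blockCoeff F' χ
      rw [if_pos hχ] at h1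
      unfold om at h1
      rw [← Finset.sum_div, div_eq_one_iff_eq (irr_one_ne_zero χ)] at h1
      rw [← h1]
      apply Fintype.sum_of_injective (Subgroup.inclusion hCT) (Subgroup.inclusion_injective hCT)
      · intro t ht
        rw [hF'e, subgroupBlockCoeff, dif_neg, zero_mul]
        intro h
        exact ht ⟨⟨t, h⟩, rfl⟩
      · intro c
        rw [hF'e, subgroupBlockCoeff, dif_pos (by exact c.2)]
        rfl
    have h := isDefectGroup_of_weight hM (Q.subgroupOf T)
      (hQp.comap_of_injective T.subtype T.subtype_injective) χ hker hdeg'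
      (Subgroup.inclusion hCT) hι (by
        intro c hc
        rw [Subgroup.mem_center_iff]
        intro g
        apply Subtype.ext
        have hc' : (c : G) ∈ Q := Subgroup.mem_subgroupOf.1 hc
        exact ((Subgroup.mem_centralizer_iff.1 g.2) c hc').symm)
      (Subgroup.inclusion_injective hCT) he hsum
    have heq : (Q.subgroupOf T).comap (Subgroup.inclusion hCT)
        = (Q ⊓ Subgroup.centralizer (Q : Set G)).subgroupOf (Subgroup.centralizer (Q : Set G)) := by
      ext c
      rw [Subgroup.mem_comap, Subgroup.mem_subgroupOf, Subgroup.mem_subgroupOf, Subgroup.mem_inf]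
      constructor
      · intro h
        exact ⟨h, c.2⟩
      · intro h
        exact h.1
    rw [← heq]
    exact h
  · intro R hRT hR hRn
    have hRn' : (R.subgroupOf T).Normal := by
      constructor
      intro n hn g
      rw [Subgroup.mem_subgroupOf] at hn ⊢
      have := (Subgroup.mem_normalizer_iff.1 (hRn g g.2)) n
      simpa using this.1 hn
    have h := normal_le_of_weight hM (Q.subgroupOf T) χ hker hdeg' (R.subgroupOf T)
      (hR.comap_of_injective T.subtype T.subtype_injective)
    intro x hx
    have : (⟨x, hRT hx⟩ : T) ∈ R.subgroupOf T := Subgroup.mem_subgroupOf.2 hx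
    exact Subgroup.mem_subgroupOf.1 (h this)

end Cfsg.Agent.S4694
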