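import Cfsg.Statements.S4696
import Cfsg.Agent.Lib.H81CycRK
import Cfsg.Agent.Lib.H81CycGMAIN
import Cfsg.Agent.Lib.H81CycGBCY
import Cfsg.Agent.Lib.H81CycGBHYP
import Cfsg.Agent.Lib.H81CycGFIN
import Cfsg.Agent.Lib.H81CycGDEG

set_option autoImplicit false
open Cfsg

namespace Cfsg.Agent.S4696

/-- Let p be a prime, M a maximal ideal of the algebraic integers containing p, and B a p-block of the finite group G whose defect group D is cyclic of order p^a with a ≥ 1. Let C = C_G(D), let b be a block of C inducing B, let T be the stabilizer of b in N_G(D) (the elements g of N_G(D) such that the g-conjugate of every member of b is again in b), and let e be the index of C in T (the inertial index of B). Then e divides p − 1, every irreducible character in B has height zero, and B is the disjoint union of a set X of e characters and a set Y of (p^a − 1)/e characters,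 the members of Y agreeing on p-regular elements, for which there are signs δ_χ = ±1 (χ ∈ X) and δ₀ = ±1 such that: for every ψ ∈ Y and every p-regular g, δ₀ ψ(g) + Σ_{χ ∈ X} δ_χ χ(g) = 0; for all χ, χ' ∈ X the integers δ_χ χ(1) and δ_χ' χ'(1) are congruent modulo p^a; and for ψ ∈ Y and χ ∈ X, ψ(1) ≡ −e δ₀ δ_χ χ(1) modulo p^a. -/
theorem result {G : Type*} [Group G] [Finite G] (p : ℕ) [Fact p.Prime] (M : Ideal Cfsg.AlgInt) (hM : Cfsg.IsPModular p M) (D : Subgroup G) (hD : IsCyclic D) (a : ℕ) (ha : 1 ≤ a) (hDa : Nat.card D = p ^ a) (B : Set (Cfsg.IrrCharacter G)) (hB : Cfsg.IsPBlock M B) (hBD : Cfsg.IsDefectGroup p M B D) (b : Set (Cfsg.IrrCharacter (Subgroup.centralizer (D : Set G)))) (hind : Cfsg.IsInducedBlock M (Subgroup.centralizer (D : Set G)) b B) (T : Subgroup G) (hT : ∀ g : G, g ∈ T ↔ (g ∈ Subgroup.normalizer (D : Set G) ∧ ∀ θ ∈ b, ∀ θ' : Cfsg.IrrCharacter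 (Subgroup.centralizer (D : Set G)), (∀ h h' : Subgroup.centralizer (D : Set G), (h' : G) = g * h * g⁻¹ → (θ' : Subgroup.centralizer (D : Set G) → ℂ) h' = (θ : Subgroup.centralizer (D : Set G) → ℂ) h) → θ' ∈ b)) (e : ℕ) (he : (Subgroup.centralizer (D : Set G)).relIndex T = e) : e ∣ p - 1 ∧ (∀ χ ∈ B, Cfsg.blockHeight p B (χ : G → ℂ) = 0) ∧ ∃ X Y : Set (Cfsg.IrrCharacter G), B = X ∪ Y ∧ Disjoint X Y ∧ Nat.card X = e ∧ Nat.card Y = (p ^ a - 1) / e ∧ (∀ ψ ∈ Y, ∀ ψ' ∈ Y, ∀ g : G, ¬ p ∣ orderOf g → (ψ : G → ℂ) g = (ψ' : G → ℂ) g) ∧ ∃ (δ : Cfsg.IrrCharacter G → ℤ) (δ₀ : ℤ), (∀ χ ∈ X, δ χ = 1 ∨ δ χ = -1) ∧ (δ₀ = 1 ∨ δ₀ = -1) ∧ (∀ ψ ∈ Y, ∀ g : G, ¬ p ∣ orderOf g → (δ₀ : ℂ) * (ψ : G → ℂ) g + ∑ᶠ χ ∈ X, (δ χ : ℂ) * (χ : G → ℂ) g = 0) ∧ (∀ χ ∈ X, ∀ χ' ∈ X, δ χ * (Cfsg.charDegree (χ : G → ℂ) : ℤ) ≡ δ χ' * (Cfsg.charDegree (χ' : G → ℂ) : ℤ) [ZMOD (p : ℤ) ^ a]) ∧ (∀ ψ ∈ Y, ∀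 χ ∈ X, (Cfsg.charDegree (ψ : G → ℂ) : ℤ) ≡ -((e : ℤ) * δ₀ * δ χ * (Cfsg.charDegree (χ : G → ℂ) : ℤ)) [ZMOD (p : ℤ) ^ a]) := by
  classical
  have : Fintype G := Fintype.ofFinite G
  have := hM.2.1.isPrime
  have hp : p.Prime := Fact.out
  obtain ⟨hmax, hTe⟩ := Cfsg.Agent.Lib.H81CycGBHYP.max_of_hyp hM hBD hind hT
  have hD1 : D ≠ ⊥ := by
    rintro rfl
    rw [Subgroup.card_bot] at hDa
    have : 1 < p ^ a := Nat.one_lt_pow (by omega) hp.one_lt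
    omega
  have hrk := Cfsg.Agent.Lib.H81CycRK.rank_ge_cyc hM hmax hD hD1
  obtain ⟨hdvd, x₀, t₀, T', f, hcy⟩ := Cfsg.Agent.Lib.H81CycGBCY.cy_of_max hM hmax hD hD1
  rw [← hTe, he] at hdvd hcy hrk
  obtain ⟨-, X, Y, δ, δ₀, hXY, hdisj, hX, hY, hδ, hδ₀, hrel, hsing⟩ :=
    Cfsg.Agent.Lib.H81CycGMAIN.main_G hcy hrk
  have hfs : ∀ F : IrrCharacter G → ℂ,
      ∑ χ : IrrCharacter G, (if χ ∈ X then F χ else 0) = ∑ᶠ χ ∈ X, F χ := by
    intro F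
    rw [finsum_mem_eq_finite_toFinset_sum _ (Set.toFinite X), ← Finset.sum_filter]
    apply Finset.sum_congr _ (fun _ _ => rfl)
    ext χ
    simp
  have hrel' : ∀ ψ ∈ Y, ∀ g : G, ¬ p ∣ orderOf g →
      (δ₀ : ℂ) * (ψ : G → ℂ) g + ∑ᶠ χ ∈ X, (δ χ : ℂ) * (χ : G → ℂ) g = 0 := by
    intro ψ hψ g hg
    rw [← hfs]
    exact hrel ψ hψ g hg
  have hδ₀ne : (δ₀ : ℂ) ≠ 0 := by
    rcases hδ₀ with h | h <;> rw [h] <;> norm_num
  have hcong : ∀ χ ∈ X, ∀ χ' ∈ X, δ χ * (charDegree (χ : G → ℂ) : ℤ)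
      ≡ δ χ' * (charDegree (χ' : G → ℂ) : ℤ) [ZMOD (p : ℤ) ^ (Nat.card G).factorization p] :=
    fun χ hχ χ' hχ' => Cfsg.Agent.Lib.H81CycGDEG.deg_congr p χ χ' (δ χ) (δ χ') (hsing χ hχ χ' hχ')
  have hreld : ∀ ψ ∈ Y, (δ₀ : ℤ) * (charDegree (ψ : G → ℂ) : ℤ)
      + ∑ᶠ χ ∈ X, δ χ * (charDegree (χ : G → ℂ) : ℤ) = 0 := by
    intro ψ hψ
    have h1 : ¬ p ∣ orderOf (1 : G) := by
      rw [orderOf_one]; exact hp.one_lt.ne' ∘ Nat.dvd_one.mp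
    have h := hrel' ψ hψ 1 h1
    rw [finsum_mem_eq_finite_toFinset_sum _ (Set.toFinite X)] at h ⊢
    have h2 : ∀ χ : IrrCharacter G, (χ : G → ℂ) 1 = ((charDegree (χ : G → ℂ) : ℤ) : ℂ) := by
      intro χ
      rw [← Cfsg.Agent.Lib.Helper81Base.charDegree_eq]
      push_cast
      rfl
    simp only [h2] at h
    exact_mod_cast h
  obtain ⟨hh, hc1, hc2⟩ := Cfsg.Agent.Lib.H81CycGFIN.fin_arith hM ha hDa hB hBD hdvd hXY hX hδ hδ₀
    hreld hcong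
  refine ⟨hdvd, hh, X, Y, hXY, hdisj, hX, ?_, ?_, δ, δ₀, hδ, hδ₀, hrel', hc1, hc2⟩
  · rw [hDa] at hY
    have he0 : 0 < e := by
      rcases Nat.eq_zero_or_pos e with h | h
      · subst h
        have := Nat.eq_zero_of_zero_dvd hdvd
        have := hp.two_le
        omega
      · exact h
    have : p ^ a - 1 = e * Nat.card Y := by omega
    rw [this, Nat.mul_div_cancel_left _ he0]
  · intro ψ hψ ψ' hψ' g hg
    have h1 := hrel' ψ hψ g hg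
    have h2 := hrel' ψ' hψ' g hg
    have : (δ₀ : ℂ) * (ψ : G → ℂ) g = (δ₀ : ℂ) * (ψ' : G → ℂ) g := by
      linear_combination h1 - h2
    exact mul_left_cancel₀ hδ₀ne this


end Cfsg.Agent.S4696
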