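import Cfsg.Statements.S4706
import Mathlib
import Cfsg.Agent.S4702
import Cfsg.Agent.Lib.Helper81ClassMul
import Cfsg.Agent.Lib.Helper59BLIdx2
import Cfsg.Agent.Lib.Helper59E2Perm

set_option autoImplicit false
open Cfsg

namespace Cfsg.Agent.S4706

/-- Let p > 2 be a prime and G a permutation group on p letters whose Sylow p-subgroup P has normalizer of order 2p. Then either P is normal in G, or p − 1 = 2^a for some a and G is isomorphic to SL(2, 2^a). -/
theorem result {α : Type*} [Fintype α] [DecidableEq α] {p : ℕ} [Fact p.Prime] (hp : 2 < p) (hα : Fintype.card α = p) (G : Subgroup (Equiv.Perm α)) (P : Sylow p G) (hN : Nat.card (Subgroup.normalizer ((P : Subgroup G) : Set G)) = 2 * p) : (P : Subgroup G).Normal ∨ ∃ (a : ℕ) (F : Type) (_ : Field F) (_ : Fintype F), p = 2 ^ a + 1 ∧ Fintype.card F = 2 ^ a ∧ Nonempty (G ≃* Matrix.SpecialLinearGroup (Fin 2) F) := by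
  classical
  have hpp : p.Prime := Fact.out
  obtain ⟨hPc, hidx, hC⟩ := Cfsg.Agent.Lib.Helper59PrimeDeg.setup G hp hα P hN
  by_cases hp5 : 5 ≤ p
  · obtain ⟨M, hM⟩ := Cfsg.Agent.Lib.Helper81ClassMul.exists_modular hpp
    let _ : Fintype G := Fintype.ofFinite G
    let _ : Fintype ↥(P : Subgroup G) := Fintype.ofFinite _
    let _ : Fintype (Subgroup.normalizer ((P : Subgroup G) : Set G)) := Fintype.ofFinite _
    have h := Cfsg.Agent.Lib.Helper59E2.bl_of_prime_card hM P hPc
    have := Cfsg.Agent.Lib.Helper59BLDual.finite_hom ↥(P : Subgroup G) h.hab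
    let _ : Fintype (↥(P : Subgroup G) →* ℂˣ) := Fintype.ofFinite _
    obtain ⟨δ, ζ, A, D⟩ := Cfsg.Agent.Lib.Helper59BLIdx2.exists_data_idx_two h hidx
      (by rw [hPc]; omega)
    have hP1 : 1 < Nat.card ↥(P : Subgroup G) := by rw [hPc]; omega
    obtain ⟨χ₁, hχ₁, hX, hA⟩ := Cfsg.Agent.Lib.Helper59BLIdx2.exists_X_two h hP1 D
    have c : Cfsg.Agent.Lib.Helper59E2.Ctx M P δ ζ A χ₁ := ⟨h, hC, D, hχ₁, hX, hP1⟩
    rcases hA with hA | hA
    · left
      exact Cfsg.Agent.Lib.Helper59E2Perm.normal_of_pos c hA hα hPc hidx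
    · right
      obtain ⟨hcard, hfix⟩ := Cfsg.Agent.Lib.Helper59E2Perm.neg_case c hA hα hPc hidx hp5
      have h3 := Cfsg.Agent.Lib.Helper59PrimeDeg.three_trans G hα hcard hfix
      obtain ⟨a, _, ha, F, i1, i2, hF, hiso⟩ := Cfsg.Agent.S4702.result (by rw [hα]; omega)
        (by rw [hα]; exact hpp.odd_of_ne_two (by omega)) G h3 hfix
      exact ⟨a, F, i1, i2, by rw [← hα, ha], hF, hiso⟩
  · left
    have hp3 : p = 3 := by
      have h4 : p ≠ 4 := by
        intro h4
        rw [h4] at hpp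
        norm_num at hpp
      omega
    have h1 : Nat.card G ∣ 6 := by
      have h2 : Nat.card G ∣ Nat.card (Equiv.Perm α) := Subgroup.card_subgroup_dvd_card G
      rw [Nat.card_eq_fintype_card (α := Equiv.Perm α), Fintype.card_perm, hα, hp3] at h2
      exact h2
    have h2 : Subgroup.normalizer ((P : Subgroup G) : Set G) = ⊤ := by
      apply Subgroup.eq_top_of_card_eq
      rw [hN, hp3]
      have h3 : Nat.card (Subgroup.normalizer ((P : Subgroup G) : Set G)) ∣ Nat.card G :=
        Subgroup.card_subgroup_dvd_card _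
      rw [hN, hp3] at h3
      exact Nat.dvd_antisymm h3 h1
    exact Subgroup.normalizer_eq_top_iff.mp h2

end Cfsg.Agent.S4706
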