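import Cfsg.Statements.S4707
import Mathlib
import Cfsg.Agent.Lib.Helper81ClassMul
import Cfsg.Agent.Lib.Helper59BLIdx2
import Cfsg.Agent.Lib.Helper59TwoPMain

set_option autoImplicit false
open Cfsg

namespace Cfsg.Agent.S4707

/-- Let p > 3 be a prime and G a primitive permutation group of degree 2p that is not doubly transitive. If a Sylow p-subgroup of G has normalizer of order 2p, then p = 5 and G is isomorphic to the alternating group of degree 5. -/
theorem result {α : Type*} [Fintype α] [DecidableEq α] {p : ℕ} [Fact p.Prime] (hp : 3 < p) (hα : Fintype.card α = 2 * p) (G : Subgroup (Equiv.Perm α)) (hprim : MulAction.IsPreprimitive G α) (hnot2 : ¬ MulAction.IsMultiplyPretransitive G α 2) (P : Sylow p G) (hN : Nat.card (Subgroup.normalizer ((P : Subgroup G) : Set G)) = 2 * p) : p = 5 ∧ Nonempty (G ≃* alternatingGroup (Fin 5)) := by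
  classical
  have hpp : p.Prime := Fact.out
  have hp5 : 5 ≤ p := by
    have h4 : p ≠ 4 := by
      intro h4
      rw [h4] at hpp
      norm_num at hpp
    omega
  obtain ⟨hPc, hidx, hC⟩ := Cfsg.Agent.Lib.Helper59TwoP.setup2 G (by omega) hα hprim P hN
  obtain ⟨M, hM⟩ := Cfsg.Agent.Lib.Helper81ClassMul.exists_modular hpp
  let _ : Fintype G := Fintype.ofFinite G
  let _ : Fintype ↥(P : Subgroup G) := Fintype.ofFinite _
  let _ : Fintype (Subgroup.normalizer ((P : Subgroup G) : Set G)) := Fintype.ofFinite _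
  have h := Cfsg.Agent.Lib.Helper59E2.bl_of_prime_card hM P hPc
  have := Cfsg.Agent.Lib.Helper59BLDual.finite_hom ↥(P : Subgroup G) h.hab
  let _ : Fintype (↥(P : Subgroup G) →* ℂˣ) := Fintype.ofFinite _
  obtain ⟨δ, ζ, A, D⟩ := Cfsg.Agent.Lib.Helper59BLIdx2.exists_data_idx_two h hidx
    (by rw [hPc]; omega)
  have hP1 : 1 < Nat.card ↥(P : Subgroup G) := by rw [hPc]; omega
  obtain ⟨χ₁, hχ₁, hX, hA⟩ := Cfsg.Agent.Lib.Helper59BLIdx2.exists_X_two h hP1 D
  have c : Cfsg.Agent.Lib.Helper59E2.Ctx M P δ ζ A χ₁ := ⟨h, hC, D, hχ₁, hX, hP1⟩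
  exact Cfsg.Agent.Lib.Helper59TwoPMain.core c hA hp5 hα hprim hnot2 hPc hidx hN

end Cfsg.Agent.S4707
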