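import Cfsg.Statements.S4708
import Cfsg.Agent.Lib.Helper81Under
import Cfsg.Agent.Lib.Helper21Cover4
import Cfsg.Agent.Lib.Helper80Principal

set_option autoImplicit false
open Cfsg

namespace Cfsg.Agent.S4708

open Cfsg.Agent.Lib.Helper81Local Cfsg.Agent.Lib.Helper81Base Cfsg.Agent.Lib.Helper81Block
  Cfsg.Agent.Lib.Helper21Cover Cfsg.Agent.Lib.Helper21FR Cfsg.Agent.Lib.Helper82Linear
open scoped ComplexConjugate
/-- Let p be a prime, M a maximal ideal of the algebraic integers containing p, G a finite group and H a normal subgroup. Write λ(X) for the sum of the squares of the degrees of the irreducible characters in the principal p-block of a group X. Then λ(H) ≤ λ(G) ≤ [G : H]·λ(H). -/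
theorem result {G : Type*} [Group G] [Finite G] (p : ℕ) [Fact p.Prime] (M : Ideal Cfsg.AlgInt) (hM : Cfsg.IsPModular p M) (H : Subgroup G) [H.Normal] : (∑ᶠ θ ∈ Cfsg.principalBlock M H, Cfsg.charDegree (θ : H → ℂ) ^ 2) ≤ (∑ᶠ χ ∈ Cfsg.principalBlock M G, Cfsg.charDegree (χ : G → ℂ) ^ 2) ∧ (∑ᶠ χ ∈ Cfsg.principalBlock M G, Cfsg.charDegree (χ : G → ℂ) ^ 2) ≤ H.index * ∑ᶠ θ ∈ Cfsg.principalBlock M H, Cfsg.charDegree (θ : H → ℂ) ^ 2 := by
  classical
  have : Fintype G := Fintype.ofFinite G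
  have : Fintype H := Fintype.ofFinite H
  have hN : H.Normal := inferInstance
  have hMp := hM.2.1.isPrime
  set BG := Cfsg.principalBlock M G with hBG
  set BH := Cfsg.principalBlock M H with hBH
  have hBGb : IsPBlock M BG := Cfsg.Agent.Lib.Helper80Principal.isPBlock_principal G
  have hBHb : IsPBlock M BH := Cfsg.Agent.Lib.Helper80Principal.isPBlock_principal H
  have h1G : irrOne G ∈ BG := Cfsg.Agent.Lib.Helper80Principal.irrOne_mem_principal hMp G
  have h1H : irrOne H ∈ BH := Cfsg.Agent.Lib.Helper80Principal.irrOne_mem_principal hMp H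
  have hfs : ∀ {K : Type _} [Group K] [Fintype K] (S : Set (Cfsg.IrrCharacter K))
      (f : Cfsg.IrrCharacter K → ℕ),
      ∑ᶠ ψ ∈ S, f ψ = ∑ ψ : Cfsg.IrrCharacter K, (if ψ ∈ S then f ψ else 0) := by
    intro K _ _ S f
    rw [finsum_mem_eq_finite_toFinset_sum f (Set.toFinite S), ← Finset.sum_filter]
    apply Finset.sum_congr _ (fun _ _ => rfl)
    ext x
    simp
  rw [hfs, hfs]
  -- multiplicities
  have hres : ∀ χ : IrrCharacter G, IsCharacter H (fun n : H => (χ : G → ℂ) n) := fun χ =>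
    Cfsg.Agent.Lib.Helper4Char4.IsCharacter.restrict H
      (Cfsg.Agent.Lib.Helper4Char.IsIrrCharacter.isCharacter χ.2)
  choose m hm hm' using fun χ => Cfsg.Agent.Lib.Helper4Char4.IsCharacter.eq_sum_nat (hres χ)
  set dG : IrrCharacter G → ℕ := fun χ => charDegree (χ : G → ℂ) with hdG
  set dH : IrrCharacter H → ℕ := fun θ => charDegree (θ : H → ℂ) with hdH
  have F1 : ∀ χ, dG χ = ∑ θ, m χ θ * dH θ := by
    intro χ
    have h1 := congrFun (hm χ) 1
    simp only [Finset.sum_apply, Pi.smul_apply, smul_eq_mul, Subgroup.coe_one] at h1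
    have h2 : ((dG χ : ℕ) : ℂ) = ((∑ θ, m χ θ * dH θ : ℕ) : ℂ) := by
      push_cast
      simp only [hdG, hdH, charDegree_eq]
      exact h1
    exact_mod_cast h2
  have F2 : ∀ θ, ∑ χ, m χ θ * dG χ = H.index * dH θ := by
    intro θ
    have hθ : IsCharacter G (indFun H (θ : H → ℂ)) :=
      Cfsg.Agent.S0148.result H _ (Cfsg.Agent.Lib.Helper4Char.IsIrrCharacter.isCharacter θ.2)
    obtain ⟨n, hn, hn'⟩ := Cfsg.Agent.Lib.Helper4Char4.IsCharacter.eq_sum_nat hθ
    have hnm : ∀ χ, n χ = m χ θ := by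
      intro χ
      have h4 := hn' χ
      rw [Cfsg.Agent.Lib.Helper32Ind.frobenius H _ _
        (Cfsg.Agent.Lib.Helper4Char.IsIrrCharacter.isClassFunction χ.2),
        ← Cfsg.Agent.Lib.Helper4Char.classInner_conj_symm, hm' χ θ, Complex.conj_natCast] at h4
      exact_mod_cast h4.symm
    have h1 := congrFun hn 1
    rw [Cfsg.Agent.Lib.Helper82Mult.indFun_one] at h1
    simp only [Finset.sum_apply, Pi.smul_apply, smul_eq_mul] at h1
    have h2 : ((∑ χ, m χ θ * dG χ : ℕ) : ℂ) = ((H.index * dH θ : ℕ) : ℂ) := by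
      push_cast
      simp only [hdG, hdH, charDegree_eq]
      rw [h1]
      apply Finset.sum_congr rfl
      intro χ _
      rw [hnm]
    exact_mod_cast h2
  have hover : ∀ χ θ, m χ θ ≠ 0 ↔ Over χ θ := by
    intro χ θ
    unfold Over
    rw [hm' χ θ]
    exact_mod_cast Iff.rfl
  have hcov : ∃ χ ∈ BG, ∃ θ ∈ BH, Over χ θ :=
    ⟨irrOne G, h1G, irrOne H, h1H,
      Cfsg.Agent.Lib.Helper21Cover2.over_one_of_ker (fun _ _ => rfl)⟩
  have F3 : ∀ χ ∈ BG, ∀ θ, m χ θ ≠ 0 → θ ∈ BH := by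
    intro χ hχ θ hne
    have h1 := Cfsg.Agent.Lib.Helper21Cover4.mem_orb_of_mem hN hBGb hBHb hcov hχ ((hover χ θ).1 hne)
    obtain ⟨g, θ', hθ', rfl⟩ := (Cfsg.Agent.Lib.Helper21Cover.mem_orb hN BH _).1 h1
    have h2 := isPBlock_eq_blockOf (isPBlock_image hN hBHb g) (⟨irrOne H, h1H, rfl⟩ :
      cjI hN (irrOne H) g ∈ (fun θ => cjI hN θ g) '' BH)
    have h3 := isPBlock_eq_blockOf hBHb h1H
    have h4 : cjI hN θ' g ∈ (fun θ => cjI hN θ g) '' BH := ⟨θ', hθ', rfl⟩
    rw [h2] at h4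
    rw [h3]
    exact h4
  have F4 : ∀ θ ∈ BH, ∃ χ ∈ BG, m χ θ ≠ 0 := by
    intro θ hθ
    obtain ⟨χ, hχ, hov⟩ := Cfsg.Agent.Lib.Helper81Under.exists_over_of_covers hM hBGb hBHb hcov hθ
    exact ⟨χ, hχ, (hover χ θ).2 hov⟩
  -- the double sum
  have key : ∑ χ : IrrCharacter G, (if χ ∈ BG then dG χ ^ 2 else 0)
      = ∑ θ : IrrCharacter H, (if θ ∈ BH then dH θ * ∑ χ : IrrCharacter G,
          (if χ ∈ BG then m χ θ * dG χ else 0) else 0) := by
    have h1 : ∀ χ : IrrCharacter G, (if χ ∈ BG then dG χ ^ 2 else 0)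
        = ∑ θ : IrrCharacter H, (if θ ∈ BH then dH θ * (if χ ∈ BG then m χ θ * dG χ else 0) else 0) := by
      intro χ
      by_cases hχ : χ ∈ BG
      · simp only [if_pos hχ]
        have h0 : dG χ ^ 2 = (∑ θ, m χ θ * dH θ) * dG χ := by rw [← F1 χ, sq]
        rw [h0, Finset.sum_mul]
        apply Finset.sum_congr rfl
        intro θ _
        by_cases hθ : θ ∈ BH
        · rw [if_pos hθ]; ring
        · rw [if_neg hθ]
          have : m χ θ = 0 := by
            by_contra hne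
            exact hθ (F3 χ hχ θ hne)
          rw [this]; ring
      · simp [hχ]
    simp only [h1]
    rw [Finset.sum_comm]
    apply Finset.sum_congr rfl
    intro θ _
    by_cases hθ : θ ∈ BH
    · simp only [if_pos hθ, Finset.mul_sum]
    · simp [hθ]
  show (∑ θ : IrrCharacter H, (if θ ∈ BH then dH θ ^ 2 else 0))
      ≤ ∑ χ : IrrCharacter G, (if χ ∈ BG then dG χ ^ 2 else 0) ∧
    (∑ χ : IrrCharacter G, (if χ ∈ BG then dG χ ^ 2 else 0))
      ≤ H.index * ∑ θ : IrrCharacter H, (if θ ∈ BH then dH θ ^ 2 else 0)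
  rw [key]
  constructor
  · apply Finset.sum_le_sum
    intro θ _
    by_cases hθ : θ ∈ BH
    · rw [if_pos hθ, if_pos hθ, sq]
      apply Nat.mul_le_mul_left
      obtain ⟨χ, hχ, hne⟩ := F4 θ hθ
      have h1 : m χ θ * dG χ ≤ ∑ χ : IrrCharacter G, (if χ ∈ BG then m χ θ * dG χ else 0) := by
        have := Finset.single_le_sum (f := fun χ : IrrCharacter G => if χ ∈ BG then m χ θ * dG χ else 0)
          (fun _ _ => Nat.zero_le _) (Finset.mem_univ χ)
        simpa [hχ] using this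
      have h2 : m χ θ * dH θ ≤ dG χ := by
        rw [F1 χ]
        exact Finset.single_le_sum (f := fun θ : IrrCharacter H => m χ θ * dH θ)
          (fun _ _ => Nat.zero_le _) (Finset.mem_univ θ)
      have h3 : 1 ≤ m χ θ := Nat.one_le_iff_ne_zero.2 hne
      calc dH θ ≤ m χ θ * dH θ := Nat.le_mul_of_pos_left _ h3
        _ ≤ dG χ := h2
        _ ≤ m χ θ * dG χ := Nat.le_mul_of_pos_left _ h3
        _ ≤ _ := h1
    · rw [if_neg hθ, if_neg hθ]
  · rw [Finset.mul_sum]
    apply Finset.sum_le_sum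
    intro θ _
    by_cases hθ : θ ∈ BH
    · rw [if_pos hθ, if_pos hθ, sq, ← mul_assoc, mul_comm H.index, mul_assoc, ← F2 θ]
      apply Nat.mul_le_mul_left
      apply Finset.sum_le_sum
      intro χ _
      split_ifs
      · exact le_rfl
      · exact Nat.zero_le _
    · rw [if_neg hθ, if_neg hθ]
      simp

end Cfsg.Agent.S4708
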