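import Cfsg.Statements.S4709
import Mathlib
import Cfsg.Agent.Lib.Helper59BLFin

set_option autoImplicit false
open Cfsg

namespace Cfsg.Agent.S4709

/-- Let p be a prime, M a maximal ideal of the algebraic integers containing p, and G a finite group with a nontrivial abelian Sylow p-subgroup P; put N = N_G(P), C = C_G(P). Suppose N/C is cyclic of order m with 1 < m < #P − 1 (C has index m in N and N is generated by C and one element), and C_G(y) ∩ N = C for every non-identity y ∈ P. Put r = (#P − 1)/m. Then there is s ≤ m such that the principal p-block is the disjoint union of a set X of s characters containing the principal character and a set Y of r characters, with integers a_χ ≠ 0 (χ ∈ X), d and a sign δ = ±1, such that: every χ ∈ X takes the value a_χ at every element whose p-part is a non-identity element of P; there is a map ζ from the non-principal linear characters ψ of P onto Y, constant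 on N-conjugacy classes, with ζ_ψ(z) = d + δ·Σ ψ'(y) for every z whose p-part y is a non-identity element of P, the sum running over the N-conjugates ψ' of ψ; (d − δ)^2 + (r − 1) d^2 + Σ_{χ ∈ X} a_χ^2 = m + 1; all members of Y agree on p-regular elements; and (r d − δ) η(g) + Σ_{χ ∈ X} a_χ χ(g) = 0 for every η ∈ Y and every p-regular g. -/
theorem result {G : Type*} [Group G] [Finite G] (p : ℕ) [Fact p.Prime] (M : Ideal Cfsg.AlgInt) (hM : Cfsg.IsPModular p M) (P : Sylow p G) (hab : IsMulCommutative P) (hP1 : Nat.card P ≠ 1) (m : ℕ) (hm1 : 1 < m) (hm2 : m + 1 < Nat.card P) (hCN : (Subgroup.centralizer ((P : Subgroup G) : Set G)).relIndex (Subgroup.normalizer ((P : Subgroup G) : Set G)) = m) (hcyc : ∃ g : G, g ∈ Subgroup.normalizer ((P : Subgroup G) : Set G) ∧ Subgroup.centralizer ((P : Subgroup G) : Set G) ⊔ Subgroup.zpowers g = Subgroup.normalizer ((P : Subgroup G) : Set G)) (hfrob : ∀ y : G, y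 ∈ (P : Subgroup G) → y ≠ 1 → Subgroup.centralizer ({y} : Set G) ⊓ Subgroup.normalizer ((P : Subgroup G) : Set G) = Subgroup.centralizer ((P : Subgroup G) : Set G)) : ∃ (s : ℕ) (X Y : Set (Cfsg.IrrCharacter G)), s ≤ m ∧ Cfsg.principalBlock M G = X ∪ Y ∧ Disjoint X Y ∧ Nat.card X = s ∧ Nat.card Y = (Nat.card P - 1) / m ∧ (∃ χ₁ ∈ X, (χ₁ : G → ℂ) = fun _ => 1) ∧ ∃ (a : Cfsg.IrrCharacter G → ℤ) (d δ : ℤ) (ζ : (↥(P : Subgroup G) →* ℂˣ) → Cfsg.IrrCharacter G), (δ = 1 ∨ δ = -1) ∧ (∀ χ ∈ X, a χ ≠ 0 ∧ ∀ z y : G, Cfsg.IsPPart p z y → y ∈ (P : Subgroup G) → y ≠ 1 → (χ : G → ℂ) z = (a χ : ℂ)) ∧ (∀ ψ : ↥(P : Subgroup G) →* ℂˣ, ψ ≠ 1 → ζ ψ ∈ Y) ∧ (∀ η ∈ Y, ∃ ψ : ↥(P : Subgroup G) →* ℂˣ, ψ ≠ 1 ∧ ζ ψ = η) ∧ (∀ ψ ψ' : ↥(P : Subgroup G) →* ℂˣ, ψ ≠ 1 → (∃ n : G, n ∈ Subgroup.normalizer ((P : Subgroup G) : Set G) ∧ ∀ w w' : ↥(P : Subgroup G), (w' : G) = n * w * n⁻¹ → ψ' w' = ψ w) → ζ ψ' = ζ ψ) ∧ (∀ ψ : ↥(P : Subgroup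 G) →* ℂˣ, ψ ≠ 1 → ∀ (z : G) (y : ↥(P : Subgroup G)), Cfsg.IsPPart p z (y : G) → (y : G) ≠ 1 → (ζ ψ : G → ℂ) z = (d : ℂ) + (δ : ℂ) * ∑ᶠ ψ' ∈ {ψ' : ↥(P : Subgroup G) →* ℂˣ | ∃ n : G, n ∈ Subgroup.normalizer ((P : Subgroup G) : Set G) ∧ ∀ w w' : ↥(P : Subgroup G), (w' : G) = n * w * n⁻¹ → ψ' w' = ψ w}, ((ψ' y : ℂˣ) : ℂ)) ∧ ((d - δ) ^ 2 + ((Nat.card P - 1) / m - 1 : ℤ) * d ^ 2 + ∑ᶠ χ ∈ X, a χ ^ 2 = (m : ℤ) + 1) ∧ (∀ η ∈ Y, ∀ η' ∈ Y, ∀ g : G, ¬ p ∣ orderOf g → (η : G → ℂ) g = (η' : G → ℂ) g) ∧ (∀ η ∈ Y, ∀ g : G, ¬ p ∣ orderOf g → ((((Nat.card P - 1) / m : ℕ) : ℂ) * d - δ) * (η : G → ℂ) g + ∑ᶠ χ ∈ X, (a χ : ℂ) * (χ : G → ℂ) g = 0) := by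
  classical
  let _ : Fintype G := Fintype.ofFinite G
  let _ : Fintype ↥(P : Subgroup G) := Fintype.ofFinite _
  let _ : Fintype (Subgroup.normalizer ((P : Subgroup G) : Set G)) := Fintype.ofFinite _
  have := Cfsg.Agent.Lib.Helper59BLDual.finite_hom ↥(P : Subgroup G) hab
  let _ : Fintype (↥(P : Subgroup G) →* ℂˣ) := Fintype.ofFinite _
  have h : Cfsg.Agent.Lib.Helper59BLGram.BL p M P := ⟨hM, hab, hfrob⟩
  have hm2' : m + 1 < Nat.card ↥(P : Subgroup G) := hm2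
  obtain ⟨δ, d, ζ, A, D⟩ := Cfsg.Agent.Lib.Helper59BLStruct.exists_data h m hCN hm2'
  have hP : 1 < Nat.card ↥(P : Subgroup G) := by omega
  have hcY := Cfsg.Agent.Lib.Helper59BLFin.card_Y h D hCN
  set X := Cfsg.Agent.Lib.Helper59BLFin.Xset M ζ with hX
  set Y := Cfsg.Agent.Lib.Helper59BLFin.Yset ζ with hY
  set r := Nat.card Y with hr
  have hm0 : 0 < m := by omega
  have hrdiv : (Nat.card P - 1) / m = r := by
    have e : Nat.card P - 1 = r * m := by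
      have : r * m + 1 = Nat.card P := hcY
      omega
    rw [e, Nat.mul_div_cancel _ hm0]
  have hr2 : 2 ≤ r := by
    by_contra hlt
    have : r ≤ 1 := by omega
    have h3 : r * m ≤ 1 * m := Nat.mul_le_mul_right m this
    omega
  have hnorm := Cfsg.Agent.Lib.Helper59BLFin.norm_eq D
  have hδ2 : δ ^ 2 = 1 := by rcases D.hδ with h' | h' <;> rw [h'] <;> norm_num
  have hrel := fun ψ ψ' => Cfsg.Agent.Lib.Helper59BLTw.rel_iff P ψ ψ'
  refine ⟨Nat.card X, X, Y, ?_, Cfsg.Agent.Lib.Helper59BLFin.union_eq D,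
    Cfsg.Agent.Lib.Helper59BLFin.disjoint_XY, rfl, hrdiv.symm,
    ⟨_, Cfsg.Agent.Lib.Helper59BLFin.one_mem_X h D, rfl⟩, A, d, δ, ζ, D.hδ, ?_, ?_, ?_, ?_, ?_,
    ?_, ?_, ?_⟩
  · -- s ≤ m
    have h1 : (Nat.card X : ℤ) ≤ ∑ χ, if χ ∈ X then A χ ^ 2 else 0 := by
      have e : (Nat.card X : ℤ) = ∑ χ : Cfsg.IrrCharacter G, if χ ∈ X then 1 else 0 := by
        rw [Finset.sum_boole, Nat.card_eq_fintype_card, ← Set.toFinset_card]
        congr 2
        ext χ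
        simp
      rw [e]
      apply Finset.sum_le_sum
      intro χ _
      split_ifs with hχ
      · have h0 := Cfsg.Agent.Lib.Helper59BLFin.X_ne_zero h D hP hχ
        have : 0 < A χ ^ 2 := by positivity
        omega
      · exact le_refl _
    have h2 : 1 ≤ (d - δ) ^ 2 + ((r : ℤ) - 1) * d ^ 2 := by
      have hr' : (1 : ℤ) ≤ (r : ℤ) - 1 := by
        have : (2 : ℤ) ≤ (r : ℤ) := by exact_mod_cast hr2
        omega
      by_cases hdd : d = δ
      · rw [hdd, hδ2]; nlinarith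
      · have : 0 < (d - δ) ^ 2 := by
          have : d - δ ≠ 0 := sub_ne_zero.mpr hdd
          positivity
        nlinarith [sq_nonneg d]
    have h3 : (Nat.card X : ℤ) ≤ m := by nlinarith
    exact_mod_cast h3
  · intro χ hχ
    refine ⟨Cfsg.Agent.Lib.Helper59BLFin.X_ne_zero h D hP hχ, ?_⟩
    intro z y hzy hy hy1
    rw [Cfsg.Agent.Lib.Helper59BLSec.section_const h χ hχ.1 z y hzy hy hy1]
    exact Cfsg.Agent.Lib.Helper59BLFin.X_val D hχ ⟨y, hy⟩ (fun h' => hy1 (congrArg Subtype.val h'))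
  · intro ψ hψ
    exact ⟨ψ, hψ, rfl⟩
  · rintro η ⟨ψ, hψ, h1⟩
    exact ⟨ψ, hψ, h1⟩
  · intro ψ ψ' hψ hn
    have hr' := (hrel ψ ψ').mp hn
    exact ((D.hζ ψ ψ' hψ (Cfsg.Agent.Lib.Helper59BLTw.ne_one_of_rel P hr' hψ)).mpr hr').symm
  · intro ψ hψ z y hzy hy1
    rw [Cfsg.Agent.Lib.Helper59BLSec.section_const h (ζ ψ) (D.hmem ψ hψ) z y hzy y.2 hy1,
      Cfsg.Agent.Lib.Helper59BLFin.Y_val D ψ hψ y (fun h' => hy1 (congrArg Subtype.val h')),
      Cfsg.Agent.Lib.Helper59BLFin.finsum_mem_fintype]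
    congr 2
    apply Finset.sum_congr rfl
    intro ψ' _
    by_cases hr' : Cfsg.Agent.Lib.Helper59BLTw.Rel P ψ ψ'
    · rw [if_pos hr', if_pos]
      exact (hrel ψ ψ').mpr hr'
    · rw [if_neg hr', if_neg]
      exact fun h' => hr' ((hrel ψ ψ').mp h')
  · rw [Cfsg.Agent.Lib.Helper59BLFin.finsum_mem_fintype]
    have e : ((Nat.card P : ℤ) - 1) / (m : ℤ) = r := by
      have e1 : (Nat.card P : ℤ) - 1 = r * m := by
        have : r * m + 1 = Nat.card P := hcY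
        have h' : ((r * m + 1 : ℕ) : ℤ) = (Nat.card P : ℤ) := by rw [this]
        push_cast at h'
        linarith
      rw [e1]
      exact Int.mul_ediv_cancel _ (by exact_mod_cast hm0.ne')
    rw [e]
    nlinarith
  · intro η hη η' hη' g hg
    exact Cfsg.Agent.Lib.Helper59BLFin.Y_agree D hη hη' g hg
  · intro η hη g hg
    rw [Cfsg.Agent.Lib.Helper59BLFin.finsum_mem_fintype, hrdiv]
    exact Cfsg.Agent.Lib.Helper59BLFin.reg_rel D hη g hg

end Cfsg.Agent.S4709
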