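import Cfsg.Statements.S4710
import Cfsg.Agent.Lib.Helper81Height

set_option autoImplicit false
open Cfsg

namespace Cfsg.Agent.S4710

open Cfsg.Agent.Lib.Helper81Height Cfsg.Agent.Lib.Helper81Defect
/-- Let p be a prime, M a maximal ideal of the algebraic integers containing p, and B a p-block of defect d of the finite group G containing k irreducible characters. If B contains a character of positive height then 2k ≤ p^(2d − 2); and every character in B has height 0 when d ≤ 1 and height at most d − 2 when d ≥ 2. -/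
theorem result {G : Type*} [Group G] [Finite G] (p : ℕ) [Fact p.Prime] (M : Ideal Cfsg.AlgInt) (hM : Cfsg.IsPModular p M) (B : Set (Cfsg.IrrCharacter G)) (hB : Cfsg.IsPBlock M B) (d : ℕ) (hd : Cfsg.blockDefect p B = d) : ((∃ χ ∈ B, 0 < Cfsg.blockHeight p B (χ : G → ℂ)) → 2 * Nat.card B ≤ p ^ (2 * d - 2)) ∧ ∀ χ ∈ B, (d ≤ 1 → Cfsg.blockHeight p B (χ : G → ℂ) = 0) ∧ (2 ≤ d → Cfsg.blockHeight p B (χ : G → ℂ) ≤ d - 2) := by
  have := Fintype.ofFinite G
  subst hd
  refine ⟨?_, ?_⟩
  · rintro ⟨χ, hχ, h⟩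
    exact two_mul_card_le hM hB hχ h
  · intro χ hχ
    rcases Nat.eq_zero_or_pos (Cfsg.blockHeight p B (χ : G → ℂ)) with h | h
    · exact ⟨fun _ => h, fun _ => by omega⟩
    · have := height_add_two_le hM hB hχ h
      exact ⟨fun _ => by omega, fun _ => by omega⟩

end Cfsg.Agent.S4710
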