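import Cfsg.Statements.S4713
import Cfsg.Agent.Lib.Helper83Ito
import Cfsg.Agent.Lib.Helper14PSolvQ

set_option autoImplicit false
open Cfsg

namespace Cfsg.Agent.S4713


/-- Let p be a prime and G a finite p-solvable group. Then G has a normal abelian Sylow p-subgroup if and only if the degree of every irreducible character of G is prime to p. -/
theorem result {G : Type*} [Group G] [Finite G] (p : ℕ) [Fact p.Prime] (hsolv : Cfsg.IsPSolvable p G) (P : Sylow p G) : ((P : Subgroup G).Normal ∧ IsMulCommutative P) ↔ ∀ χ : Cfsg.IrrCharacter G, ¬ p ∣ Cfsg.charDegree (χ : G → ℂ) := by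
  constructor
  · rintro ⟨hn, hc⟩ χ hd
    have := hn
    have h1 := Cfsg.Agent.Lib.Helper83Ito.ito (P : Subgroup G) (fun a b => hc.is_comm.comm a b) χ
    exact P.not_dvd_index (hd.trans h1)
  · intro hdeg
    have hn := Cfsg.Agent.Lib.Helper83Ito.normal_sylow_aux p (fun G _ => Cfsg.IsPSolvable p G)
      (fun G _ _ N _ h => Cfsg.Agent.Lib.Helper14PSolvQ.isPSolvable_quotient N h)
      (fun G _ _ _ h => Cfsg.Agent.Lib.Helper14PSolvQ.exists_normal_of_isPSolvable h)
      _ G rfl hsolv hdeg P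
    exact ⟨hn, ⟨⟨Cfsg.Agent.Lib.Helper83Ito.comm_of_normal p hdeg (P : Subgroup G) P.2 hn⟩⟩⟩

end Cfsg.Agent.S4713
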