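import Cfsg.Statements.S4714
import Cfsg.Agent.Lib.Helper21DC

set_option autoImplicit false
open Cfsg

namespace Cfsg.Agent.S4714

/-- Let p be a prime, M a maximal ideal of the algebraic integers containing p, D a p-subgroup of the finite group G with G = D·C_G(D), and B a p-block with defect group D. Let χ be a member of B having D in its kernel (there is exactly one, the canonical character of B). Then the irreducible characters in B are exactly the functions θ on G for which there is an irreducible character ζ of D such that θ(yx) = ζ(y)χ(x) whenever y ∈ D, x has order prime to p and x commutes with y, and θ(z) = 0 whenever the p-part of z does not lie in D. -/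
theorem result {G : Type*} [Group G] [Finite G] (p : ℕ) [Fact p.Prime] (M : Ideal Cfsg.AlgInt) (hM : Cfsg.IsPModular p M) (D : Subgroup G) (hD : IsPGroup p D) (hG : D ⊔ Subgroup.centralizer (D : Set G) = ⊤) (B : Set (Cfsg.IrrCharacter G)) (hB : Cfsg.IsPBlock M B) (hBD : Cfsg.IsDefectGroup p M B D) (χ : Cfsg.IrrCharacter G) (hχ : χ ∈ B) (hχD : ∀ y ∈ D, (χ : G → ℂ) y = (χ : G → ℂ) 1) : (∀ θ : Cfsg.IrrCharacter G, θ ∈ B ↔ ∃ ζ : Cfsg.IrrCharacter D, (∀ (y : D) (x : G), ¬ p ∣ orderOf x → Commute (y : G) x → (θ : G → ℂ) ((y : G) * x) = (ζ : D → ℂ) y * (χ : G → ℂ) x) ∧ (∀ z : G, (∀ y : G, Cfsg.IsPPart p z y → y ∉ D) → (θ : G → ℂ) z = 0)) ∧ ∀ ζ : Cfsg.IrrCharacter D, ∃ θ ∈ B, (∀ (y : D) (x : G), ¬ p ∣ orderOf x → Commute (y : G) x → (θ : G → ℂ) ((y : G) * x) = (ζ : D → ℂ) y * (χ : G → ℂ) x) ∧ (∀ z : G, (∀ y : G, Cfsg.IsPPart p z y → y ∉ D) → (θ : G → ℂ) z = 0) := by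
  classical
  let _ := Fintype.ofFinite G
  let _ := Fintype.ofFinite D
  have hN := Lib.Helper21DC.normal_of_sup hG
  have key : ∀ (θ : IrrCharacter G) (ζ : IrrCharacter D), θ ∈ B → Lib.Helper21Cover.Over θ ζ →
      (∀ (y : D) (x : G), ¬ p ∣ orderOf x → Commute (y : G) x →
        (θ : G → ℂ) ((y : G) * x) = (ζ : D → ℂ) y * (χ : G → ℂ) x) ∧
      (∀ z : G, (∀ y : G, Cfsg.IsPPart p z y → y ∉ D) → (θ : G → ℂ) z = 0) := by
    intro θ ζ hθ ho
    refine ⟨fun y x hx _ => Lib.Helper21DC.formula hM hB hD hG hBD hχ hχD hθ ho y hx, ?_⟩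
    intro z hz
    obtain ⟨y, hy⟩ := Lib.Helper81Orth.exists_ppart hM.1 z
    exact Lib.Helper21DC.vanish hM hB hBD hθ hy (hz y hy)
  refine ⟨fun θ => ⟨fun hθ => ?_, ?_⟩, fun ζ => ?_⟩
  · obtain ⟨ζ, ho⟩ := Lib.Helper21Cover.exists_under (N := D) θ
    exact ⟨ζ, key θ ζ hθ ho⟩
  · rintro ⟨ζ, h1, _⟩
    apply Lib.Helper21DC.mem_of_formula hM hB hχ (ζ := ζ)
    intro x hx
    have := h1 1 x hx (by simp)
    simpa using this
  · obtain ⟨θ, hθ, ho⟩ := Lib.Helper21Cover2.exists_over_of_pgroup hM hB hD ζ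
    exact ⟨θ, hθ, key θ ζ hθ ho⟩

end Cfsg.Agent.S4714
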