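import Cfsg.Statements.S4715
import Cfsg.Agent.Lib.Helper78MajB

set_option autoImplicit false
open Cfsg

namespace Cfsg.Agent.S4715

open Cfsg.Agent.Lib.Helper20Local Cfsg.Agent.Lib.Helper80Trace Cfsg.Agent.Lib.Helper80Up
open Cfsg.Agent.Lib.Helper78MajB Cfsg.Agent.Lib.Helper81Defect Cfsg.Agent.Lib.Helper80Brauer


/-- Let p be a prime, M a maximal ideal of the algebraic integers containing p, B a p-block of the finite group G with defect group D of order p^d, H = D·C_G(D), b a block of H inducing B, T the stabilizer of b in N_G(D) and e = [T : H] the inertial index of B; let n be the integer with p^n ≤ e < p^(n+1) and p^c the order of the centre of D. Then every irreducible character in B has height h with h + c ≤ n + d. -/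
theorem result {G : Type*} [Group G] [Finite G] (p : ℕ) [Fact p.Prime] (M : Ideal Cfsg.AlgInt) (hM : Cfsg.IsPModular p M) (B : Set (Cfsg.IrrCharacter G)) (hB : Cfsg.IsPBlock M B) (D : Subgroup G) (hBD : Cfsg.IsDefectGroup p M B D) (d : ℕ) (hDd : Nat.card D = p ^ d) (H : Subgroup G) (hH : H = D ⊔ Subgroup.centralizer (D : Set G)) (b : Set (Cfsg.IrrCharacter H)) (hind : Cfsg.IsInducedBlock M H b B) (T : Subgroup G) (hT : ∀ g : G, g ∈ T ↔ (g ∈ Subgroup.normalizer (D : Set G) ∧ ∀ θ ∈ b, ∀ θ' : Cfsg.IrrCharacter H, (∀ h h' : H, (h' : G) = g * h * g⁻¹ → (θ' : H → ℂ) h' = (θ : H → ℂ) h) → θ' ∈ b)) (e : ℕ) (he : H.relIndex T = e) (n : ℕ) (hn : p ^ n ≤ e ∧ e < p ^ (n + 1)) (c : ℕ) (hc : Nat.card (Subgroup.center D) = p ^ c) : ∀ χ ∈ B, Cfsg.blockHeight p B (χ : G → ℂ) + c ≤ n + d := by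
  classical
  have := Fintype.ofFinite G
  subst hH
  have hp : p.Prime := Fact.out
  have hPr := IsPModular.isPrime hM
  have hDp : IsPGroup p D := IsPGroup.of_card hDd
  obtain ⟨ε, hε, hεb⟩ := exists_pair_of_sup hM hDp hind
  have hmax := isMaximal_of_defectGroup hM hε hBD
  have hNN : Subgroup.normalizer (D : Set G)
      ≤ Subgroup.normalizer ((D ⊔ Subgroup.centralizer (D : Set G) : Subgroup G) : Set G) := by
    intro y hy
    have h1 := Subgroup.mem_normalizer_iff.mp hy
    have h2 := Subgroup.mem_normalizer_iff.mp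
      (Cfsg.Agent.Lib.Helper80Pairs.normalizer_le_normalizer_centralizer D hy)
    have hle : ∀ z : G, z ∈ Subgroup.normalizer (D : Set G) →
        ∀ g ∈ D ⊔ Subgroup.centralizer (D : Set G),
        z * g * z⁻¹ ∈ D ⊔ Subgroup.centralizer (D : Set G) := by
      intro z hz g hg
      have h1 := Subgroup.mem_normalizer_iff.mp hz
      have h2 := Subgroup.mem_normalizer_iff.mp
        (Cfsg.Agent.Lib.Helper80Pairs.normalizer_le_normalizer_centralizer D hz)
      obtain ⟨u, hu, c, hc, rfl⟩ := Cfsg.Agent.Lib.Helper80Cen.mem_sup_centralizer hg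
      have : z * (u * c) * z⁻¹ = (z * u * z⁻¹) * (z * c * z⁻¹) := by group
      rw [this]
      exact Subgroup.mul_mem _ (Subgroup.mem_sup_left ((h1 u).1 hu))
        (Subgroup.mem_sup_right ((h2 c).1 hc))
    rw [Subgroup.mem_normalizer_iff]
    intro g
    constructor
    · exact hle y hy g
    · intro hg
      have := hle y⁻¹ (Subgroup.inv_mem _ hy) _ hg
      have e : y⁻¹ * (y * g * y⁻¹) * y⁻¹⁻¹ = g := by group
      rwa [e] at this
  have hsT : pstab D ε ≤ T := by
    intro y hy
    rw [hT]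
    refine ⟨pstab_le D ε hy, fun θ hθ θ' hc => ?_⟩
    exact mem_of_mem_pstab hM hNN hεb hy hθ hc
  have hrel : (D ⊔ Subgroup.centralizer (D : Set G)).relIndex (pstab D ε) ≤ e := by
    rw [← he]
    apply Nat.le_of_dvd
    · apply Nat.pos_of_ne_zero
      have : ((D ⊔ Subgroup.centralizer (D : Set G)).subgroupOf T).FiniteIndex := inferInstance
      exact this.index_ne_zero
    · have hHs : D ⊔ Subgroup.centralizer (D : Set G) ≤ pstab D ε :=
        sup_le (le_pstab D ε) (centralizer_le_pstab D ε)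
      exact Dvd.intro _ (Subgroup.relIndex_mul_relIndex _ _ _ hHs hsT)
  intro χ hχ
  have hdeg := factorization_deg_le (p := p) χ
  obtain ⟨w, hw⟩ : ∃ w, w + (charDegree (χ : G → ℂ)).factorization p
      = (Nat.card G).factorization p :=
    ⟨(Nat.card G).factorization p - (charDegree (χ : G → ℂ)).factorization p, by omega⟩
  have h1 := card_center_le hM hmax hχ hw
  rw [hc] at h1
  have h2 : p ^ c < p ^ (w + (n + 1)) := by
    calc p ^ c ≤ p ^ w * (D ⊔ Subgroup.centralizer (D : Set G)).relIndex (pstab D ε) := h1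
      _ ≤ p ^ w * e := Nat.mul_le_mul_left _ hrel
      _ < p ^ w * p ^ (n + 1) := Nat.mul_lt_mul_of_pos_left hn.2 (pow_pos hp.pos _)
      _ = p ^ (w + (n + 1)) := (pow_add _ _ _).symm
  have h3 : c < w + (n + 1) := (Nat.pow_lt_pow_iff_right hp.one_lt).1 h2
  have h4 := Cfsg.Agent.Lib.Helper20DefCard.card_defectGroup hM hB hBD
  rw [hDd] at h4
  have h5 : d = blockDefect p B := Nat.pow_right_injective hp.two_le h4
  rw [blockDefect_def] at h5
  rw [blockHeight_def]
  have h6 := minVal_le (p := p) hχ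
  omega

end Cfsg.Agent.S4715
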