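import Cfsg.Statements.S4717
import Cfsg.Agent.Lib.Helper20Major
import Cfsg.Agent.S0936

set_option autoImplicit false
open Cfsg

namespace Cfsg.Agent.S4717

open Cfsg.Agent.Lib.Helper20Local Cfsg.Agent.Lib.Helper20Block Cfsg.Agent.Lib.Helper20Induced
open Cfsg.Agent.Lib.Helper20Defect Cfsg.Agent.Lib.Helper87Sylow Cfsg.Agent.Lib.Helper20First
open Cfsg.Agent.Lib.Helper20Sub Cfsg.Agent.Lib.Helper20Brauer Cfsg.Agent.Lib.Helper20Conj
open Cfsg.Agent.Lib.Helper20Major Cfsg.Agent.Lib.Helper20DefCard

/-- Let p be a prime, M a maximal ideal of the algebraic integers containing p, and r a natural number; say that a finite group X has deficiency class r when X has no non-principal p-block of defect ≥ r. If G has deficiency class r then so does the centralizer of every p-element of G; conversely, if r > 0 and the centralizer of every element of order p has deficiency class r, then G has deficiency class r. -/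
theorem result {G : Type*} [Group G] [Finite G] (p : ℕ) [Fact p.Prime] (M : Ideal Cfsg.AlgInt) (hM : Cfsg.IsPModular p M) (r : ℕ) : ((∀ B' : Set (Cfsg.IrrCharacter G), Cfsg.IsPBlock M B' → B' ≠ Cfsg.principalBlock M G → Cfsg.blockDefect p B' < r) → ∀ y : G, (∃ k : ℕ, orderOf y = p ^ k) → (∀ B' : Set (Cfsg.IrrCharacter ↥(Subgroup.centralizer ({y} : Set G))), Cfsg.IsPBlock M B' → B' ≠ Cfsg.principalBlock M ↥(Subgroup.centralizer ({y} : Set G)) → Cfsg.blockDefect p B' < r)) ∧ (0 < r → (∀ y : G, orderOf y = p → (∀ B' : Set (Cfsg.IrrCharacter ↥(Subgroup.centralizer ({y} : Set G))), Cfsg.IsPBlock M B' → B' ≠ Cfsg.principalBlock M ↥(Subgroup.centralizer ({y} : Set G)) → Cfsg.blockDefect p B' < r)) → (∀ B' : Set (Cfsg.IrrCharacter G), Cfsg.IsPBlock M B' → B' ≠ Cfsg.principalBlock M G → Cfsg.blockDefect p B' < r)) := by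
  classical
  cases nonempty_fintype G
  have hPr := IsPModular.isPrime hM
  have hp : p.Prime := Fact.out
  constructor
  · rintro h y ⟨k, hk⟩ b hb hne
    have hdef := Cfsg.Agent.S0919.result p M hM (Subgroup.zpowers y)
      (Subgroup.centralizer ({y} : Set G)) (isPGroup_zpowers hk) (zpowers_le_centralizer y)
      (centralizer_zpowers_le y) (centralizer_singleton_le_normalizer y) b hb
    obtain ⟨B, hB⟩ := hdef
    have hBne : B ≠ Cfsg.principalBlock M G := by
      rintro rfl
      exact hne ((Cfsg.Agent.S0936.result p M hM _ b ⟨_, hB⟩).mp hB)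
    exact lt_of_le_of_lt (blockDefect_le_of_induced hM _ hB) (h B hB.2.1 hBne)
  · intro hr h B hB hne
    by_contra hcon
    push Not at hcon
    obtain ⟨D, hD⟩ := exists_defectGroup hM hB
    have hcard := card_defectGroup hM hB hD
    have hDp : IsPGroup p D := IsPGroup.of_card hcard
    have hnt : Nontrivial D := by
      rw [← Finite.one_lt_card_iff_nontrivial, hcard]
      exact Nat.one_lt_pow (by omega) hp.one_lt
    have hcn := hDp.center_nontrivial
    have hcp : IsPGroup p (Subgroup.center D) := hDp.to_subgroup _
    obtain ⟨j, hj⟩ := IsPGroup.iff_card.mp hcp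
    have hdvd : p ∣ Nat.card (Subgroup.center D) := by
      rw [hj]
      apply dvd_pow_self
      rintro rfl
      rw [pow_zero] at hj
      have := Finite.one_lt_card_iff_nontrivial.mpr hcn
      omega
    obtain ⟨z, hz⟩ := exists_prime_orderOf_dvd_card' p hdvd
    set y : G := ((z : D) : G) with hy
    have hyo : orderOf y = p := by
      rw [hy, Subgroup.orderOf_coe, Subgroup.orderOf_coe, hz]
    have hyD : y ∈ D := (z : D).2
    have hDy : D ≤ Subgroup.centralizer ({y} : Set G) := by
      intro d hd
      rw [Subgroup.mem_centralizer_singleton_iff]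
      have := Subgroup.mem_center_iff.mp z.2 ⟨d, hd⟩
      have := congrArg Subtype.val this
      simpa using this
    obtain ⟨b, hb, hbD⟩ := exists_block_induced_defectGroup hM
      (P := Subgroup.zpowers y) (H := Subgroup.centralizer ({y} : Set G))
      (isPGroup_zpowers (k := 1) (by rw [hyo, pow_one])) (zpowers_le_centralizer y)
      (centralizer_zpowers_le y) (centralizer_singleton_le_normalizer y) hB hD
      (by rw [Subgroup.zpowers_le]; exact hyD) (hDy.trans (centralizer_singleton_le_zpowers y))
    have hbne : b ≠ Cfsg.principalBlock M _ := by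
      intro he
      have h1 := (Cfsg.Agent.S0936.result p M hM _ b ⟨_, hb⟩).mpr he
      exact hne (induced_block_unique hPr hb h1)
    have h2 := h y hyo b hb.1 hbne
    have h3 := card_defectGroup hM hb.1 hbD
    rw [card_subgroupOf_of_le hDy, hcard] at h3
    have h4 := Nat.pow_right_injective hp.two_le h3
    omega

end Cfsg.Agent.S4717
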