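import Cfsg.Statements.S4718
import Cfsg.Agent.Lib.Helper84Landau
import Cfsg.Agent.S4494
import Cfsg.Agent.Lib.Helper81Subsec2

set_option autoImplicit false
universe u
open Cfsg

namespace Cfsg.Agent.S4718

/-- Let p be a prime and a a natural number. There is a bound N such that every finite group whose Sylow p-subgroups have order p^a and whose only p-block (relative to a maximal ideal of the algebraic integers containing p) is the principal block has order at most N. -/
theorem result (p : ℕ) [Fact p.Prime] (a : ℕ) : ∃ N : ℕ, ∀ (G : Type u) [Group G] [Finite G] (M : Ideal Cfsg.AlgInt), Cfsg.IsPModular p M → (Nat.card G).factorization p = a → (∀ B : Set (Cfsg.IrrCharacter G), Cfsg.IsPBlock M B → B = Cfsg.principalBlock M G) → Nat.card G ≤ N := by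
  obtain ⟨N, hN⟩ := Cfsg.Agent.Lib.Helper84Landau.landau.{u} (p ^ (2 * a) / 4 + 1)
  refine ⟨N, fun G _ _ M hM ha hB => hN G ?_⟩
  classical
  have := Fintype.ofFinite G
  have hMp := hM.2.1.isPrime
  have hp : p.Prime := Fact.out
  have hP : IsPBlock M (principalBlock M G) :=
    Cfsg.Agent.Lib.Helper81Subsec2.isPBlock_principalBlock
  have hall : principalBlock M G = Set.univ := by
    ext χ
    simp only [Set.mem_univ, iff_true]
    rw [← hB _ (Cfsg.Agent.Lib.Helper81Block.isPBlock_blockOf χ)]
    exact Cfsg.Agent.Lib.Helper81Block.self_mem_blockOf χ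
  have h := Cfsg.Agent.S4494.result p M hM _ hP
  have hcard : Nat.card (principalBlock M G) = Nat.card (IrrCharacter G) := by
    rw [hall]
    exact Nat.card_congr (Equiv.Set.univ _)
  have hd : blockDefect p (principalBlock M G) ≤ a := by
    rw [Cfsg.Agent.Lib.Helper81Defect.blockDefect_def, ha]
    exact Nat.sub_le _ _
  rw [← Cfsg.Agent.Lib.Helper4Char2.card_irr_eq_card_conjClasses, ← hcard]
  have h2 : p ^ (2 * blockDefect p (principalBlock M G)) ≤ p ^ (2 * a) :=
    Nat.pow_le_pow_right hp.pos (by omega)
  omega

end Cfsg.Agent.S4718
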