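import Cfsg.Statements.S4719
import Cfsg.Agent.Lib.Helper20Four
import Cfsg.Agent.Lib.Helper20Defic
import Cfsg.Agent.S4717
import Cfsg.Agent.S4718

set_option autoImplicit false
universe u
open Cfsg

namespace Cfsg.Agent.S4719

open Cfsg.Agent.Lib.Helper20Four Cfsg.Agent.Lib.Helper20Defic

/-- the hypothesis of the statement. -/
def Hyp (G : Type u) [Group G] (M : Ideal Cfsg.AlgInt) (r : ℕ) (P : Sylow 2 G) : Prop :=
  (∀ B : Set (Cfsg.IrrCharacter G), Cfsg.IsPBlock M B → B ≠ Cfsg.principalBlock M G →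
    Cfsg.blockDefect 2 B < r) ∧
  (∃ E : Subgroup G, E ≤ (P : Subgroup G) ∧ IsMulCommutative E ∧ (∀ x ∈ E, x * x = 1) ∧
    Nat.card E = 2 ^ (r + 1))

instance : Fact (Nat.Prime 2) := ⟨Nat.prime_two⟩

theorem cent_bound {G : Type u} [Group G] [Finite G] {M : Ideal Cfsg.AlgInt}
    (hM : Cfsg.IsPModular 2 M) {a r N₀ : ℕ}
    (hR : ∀ (H : Type u) [Group H] [Finite H] (M : Ideal Cfsg.AlgInt) (r : ℕ) (P : Sylow 2 H),
      Cfsg.IsPModular 2 M → (∃ a' < a, Nat.card P = 2 ^ a') → Hyp H M r P → Nat.card H ≤ N₀)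
    (hfac : (Nat.card G).factorization 2 = a)
    (hdef : ∀ B : Set (Cfsg.IrrCharacter G), Cfsg.IsPBlock M B → B ≠ Cfsg.principalBlock M G →
      Cfsg.blockDefect 2 B < r + 1)
    (E : Subgroup G) [hEc : IsMulCommutative E] (hE2 : ∀ x ∈ E, x * x = 1)
    (hEcard : Nat.card E = 2 ^ (r + 2)) {y : G} (hy : y ∈ E) (hy1 : y ≠ 1) :
    Nat.card (Subgroup.centralizer ({y} : Set G)) ≤ 2 * N₀ := by
  classical
  set C := Subgroup.centralizer ({y} : Set G) with hC
  haveI : Fintype C := Fintype.ofFinite C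
  have hoy : orderOf y = 2 := orderOf_eq_prime (by rw [pow_two]; exact hE2 y hy) hy1
  have hdefC := (Cfsg.Agent.S4717.result 2 M hM (r + 1)).1 hdef y ⟨1, by rw [hoy, pow_one]⟩
  have hyC : y ∈ C := Subgroup.mem_centralizer_singleton_iff.mpr rfl
  set y' : C := ⟨y, hyC⟩ with hy'
  set Z : Subgroup C := Subgroup.zpowers y' with hZ
  have hoy' : orderOf y' = 2 := by
    rw [← hoy, ← Subgroup.orderOf_coe y']
  have hZcard : Nat.card Z = 2 := by rw [hZ, Nat.card_zpowers, hoy']
  have hZc : Z ≤ Subgroup.center C := by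
    rw [hZ, Subgroup.zpowers_le, Subgroup.mem_center_iff]
    intro g
    apply Subtype.ext
    exact Subgroup.mem_centralizer_singleton_iff.mp g.2
  haveI hZn : Z.Normal := ⟨fun n hn g => by
    have h := Subgroup.mem_center_iff.mp (hZc hn) g
    rw [h, mul_inv_cancel_right]
    exact hn⟩
  have hECle : E ≤ C := by
    intro x hx
    rw [hC, Subgroup.mem_centralizer_singleton_iff]
    exact Subgroup.mul_comm_of_mem_isMulCommutative E hx hy
  set E' : Subgroup C := E.subgroupOf C with hE'
  have hE'card : Nat.card E' = 2 ^ (r + 2) := by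
    rw [← hEcard]
    exact Nat.card_congr (Subgroup.subgroupOfEquivOfLe hECle).toEquiv
  have hZE' : Z ≤ E' := by
    rw [hZ, Subgroup.zpowers_le, hE', Subgroup.mem_subgroupOf]
    exact hy
  set Ebar : Subgroup (C ⧸ Z) := E'.map (QuotientGroup.mk' Z) with hEbar
  have hEbarcard : Nat.card Ebar = 2 ^ (r + 1) := by
    have h1 := card_comap_mk Z Ebar
    rw [hEbar, Subgroup.comap_map_eq, QuotientGroup.ker_mk', sup_eq_left.mpr hZE', hE'card,
      hZcard] at h1
    have h2 : 2 ^ (r + 2) = 2 * 2 ^ (r + 1) := by ring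
    rw [h2] at h1
    exact (Nat.eq_of_mul_eq_mul_left (by norm_num) h1).symm
  have hEbarp : IsPGroup 2 Ebar := IsPGroup.of_card hEbarcard
  obtain ⟨Pbar, hPbar⟩ := hEbarp.exists_le_sylow
  have hcardC := Subgroup.card_eq_card_quotient_mul_card_subgroup Z
  rw [hZcard] at hcardC
  have hfacC : (Nat.card C).factorization 2 = (Nat.card (C ⧸ Z)).factorization 2 + 1 := by
    rw [hcardC, Nat.factorization_mul Nat.card_pos.ne' (by norm_num)]
    simp [Nat.prime_two.factorization_self]
  have hfacle : (Nat.card C).factorization 2 ≤ a := by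
    rw [← hfac]
    exact (Nat.factorization_le_iff_dvd Nat.card_pos.ne' Nat.card_pos.ne').mpr
      (Subgroup.card_subgroup_dvd_card C) 2
  have hfin := hR (C ⧸ Z) M r Pbar hM
    ⟨(Nat.card (C ⧸ Z)).factorization 2, by omega, Sylow.card_eq_multiplicity Pbar⟩
    ⟨fun B hB hne => by
        have := deficiency_quot hM Z hZcard hZc hdefC B hB hne
        omega,
      Ebar, hPbar, inferInstance, by
        rintro _ ⟨x, hx, rfl⟩
        have hx2 : x * x = 1 := by
          apply Subtype.ext
          exact hE2 _ hx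
        rw [← map_mul, hx2, map_one], hEbarcard⟩
  rw [hcardC]
  omega

theorem aux (a : ℕ) : ∃ N : ℕ, ∀ (G : Type u) [Group G] [Finite G] (M : Ideal Cfsg.AlgInt)
    (r : ℕ) (P : Sylow 2 G), Cfsg.IsPModular 2 M → (∃ a' < a, Nat.card P = 2 ^ a') →
      Hyp G M r P → Nat.card G ≤ N := by
  induction a with
  | zero =>
    refine ⟨0, ?_⟩
    rintro G _ _ M r P _ ⟨a', ha', _⟩
    omega
  | succ a ih =>
    obtain ⟨N₀, hR⟩ := ih
    obtain ⟨N₁, h1⟩ := Cfsg.Agent.S4718.result.{u} 2 a
    obtain ⟨N₂, h2⟩ := four_bound.{u} (a + (2 * N₀) * (2 * N₀) * (2 * N₀))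
    refine ⟨max N₀ (max N₁ N₂), ?_⟩
    rintro G _ _ M r P hM ⟨a', ha', hP⟩ hyp
    by_cases hlt : a' < a
    · exact (hR G M r P hM ⟨a', hlt, hP⟩ hyp).trans (le_max_left _ _)
    have haa : a' = a := by omega
    subst haa
    have hfac : (Nat.card G).factorization 2 = a' := by
      have := Sylow.card_eq_multiplicity P
      rw [hP] at this
      exact (Nat.pow_right_injective (le_refl 2) this).symm
    obtain ⟨hdef, E, hEP, hEc, hE2, hEcard⟩ := hyp
    cases r with
    | zero =>
      refine (h1 G M hM hfac ?_).trans ((le_max_left _ _).trans (le_max_right _ _))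
      intro B hB
      by_contra hne
      exact absurd (hdef B hB hne) (by omega)
    | succ r =>
      refine le_trans ?_ ((le_max_right _ _).trans (le_max_right _ _))
      have hcb : ∀ y ∈ E, y ≠ 1 → Nat.card (Subgroup.centralizer ({y} : Set G)) ≤ 2 * N₀ :=
        fun y hy hy1 => cent_bound hM hR hfac hdef E hE2 hEcard hy hy1
      have hE4 : 4 ≤ Nat.card E := by
        rw [hEcard]
        calc 4 = 2 ^ 2 := by norm_num
          _ ≤ 2 ^ (r + 1 + 1) := Nat.pow_le_pow_right (by norm_num) (by omega)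
      have hEbot : E ≠ ⊥ := by
        intro h
        rw [h, Subgroup.card_bot] at hE4
        omega
      obtain ⟨u, hu1⟩ := (Subgroup.ne_bot_iff_exists_ne_one).mp hEbot
      have hu1' : (u : G) ≠ 1 := fun h => hu1 (Subtype.ext h)
      have hou : orderOf (u : G) = 2 :=
        orderOf_eq_prime (by rw [pow_two]; exact hE2 u u.2) hu1'
      have hexw : ∃ w ∈ E, w ≠ 1 ∧ (u : G) ≠ w := by
        by_contra hcon
        push Not at hcon
        have hle : E ≤ Subgroup.zpowers (u : G) := by
          intro w hw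
          by_cases hw1 : w = 1
          · rw [hw1]; exact Subgroup.one_mem _
          · rw [← hcon w hw hw1]; exact Subgroup.mem_zpowers _
        have := Subgroup.card_le_of_le hle
        rw [Nat.card_zpowers, hou] at this
        omega
      obtain ⟨w, hw, hw1, huw⟩ := hexw
      have hcomm : (u : G) * w = w * u := Subgroup.mul_comm_of_mem_isMulCommutative E u.2 hw
      have huw1 : (u : G) * w ≠ 1 := by
        intro h
        apply huw
        have h3 := hE2 u u.2
        exact mul_left_cancel (h3.trans h.symm)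
      apply h2 G u w (hE2 u u.2) (hE2 w hw) hu1' hw1 huw hcomm
      rw [hfac]
      apply Nat.add_le_add_left
      exact Nat.mul_le_mul (Nat.mul_le_mul (hcb u u.2 hu1') (hcb w hw hw1))
        (hcb _ (E.mul_mem u.2 hw) huw1)


/-- For every natural number a there is a bound N with the following property. Let G be a finite group with Sylow 2-subgroups of order 2^a and r ≥ 0 such that G has no non-principal 2-block (relative to a maximal ideal of the algebraic integers containing 2) of defect ≥ r, and suppose a Sylow 2-subgroup of G contains an elementary abelian subgroup of order 2^(r+1). Then the order of G is at most N. -/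
theorem result (a : ℕ) : ∃ N : ℕ, ∀ (G : Type u) [Group G] [Finite G] (M : Ideal Cfsg.AlgInt) (r : ℕ) (P : Sylow 2 G), Cfsg.IsPModular 2 M → Nat.card P = 2 ^ a → (∀ B : Set (Cfsg.IrrCharacter G), Cfsg.IsPBlock M B → B ≠ Cfsg.principalBlock M G → Cfsg.blockDefect 2 B < r) → (∃ E : Subgroup G, E ≤ (P : Subgroup G) ∧ IsMulCommutative E ∧ (∀ x ∈ E, x * x = 1) ∧ Nat.card E = 2 ^ (r + 1)) → Nat.card G ≤ N := by
  obtain ⟨N, hN⟩ := aux.{u} (a + 1)
  refine ⟨N, ?_⟩
  intro G _ _ M r P hM hP hdef hE
  exact hN G M r P hM ⟨a, by omega, hP⟩ ⟨hdef, hE⟩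

end Cfsg.Agent.S4719
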