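import Cfsg.Statements.S4720
import Cfsg.Agent.Lib.Helper81Columns2

set_option autoImplicit false
open Cfsg

namespace Cfsg.Agent.S4720

open Cfsg.Agent.Lib.Helper81Columns Cfsg.Agent.Lib.Helper81Columns2 Cfsg.Agent.Lib.Helper81Base
  Cfsg.Agent.Lib.Helper81Block Cfsg.Agent.Lib.Helper81Subsec2 Cfsg.Agent.Lib.Helper81Orth2
open scoped ComplexConjugate
/-- Let p be a prime, M a maximal ideal of the algebraic integers containing p, P a p-subgroup of the finite group G, N a subgroup with P ≤ N ≤ N_G(P), and U a nonempty subset of P normalized by N such that an element of U and an element of P that are conjugate in G are already conjugate in N, and such that λ(C_G(y)) = w·#C_N(y) for every y ∈ U with one rational number w, where λ(X) denotes the sum of the squares of the degrees of the irreducible characters in the principal p-block of X. For a complex function θ on P and χ in the principal block of G put a_χ(θ) = #P⁻¹ Σ_{y ∈ P} χ(y) θ(y⁻¹). Then for generalized characters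 θ, η of P with θ vanishing outside U, Σ_χ a_χ(θ)·conj(a_χ(η)) = (w/#P²)·Σ_{y ∈ P} θ(y)·conj(Σ_{x ∈ N} η(x y x⁻¹)) (η extended by zero off P; the conjugates lie in P), the first sum over the principal p-block of G. -/
theorem result {G : Type*} [Group G] [Finite G] (p : ℕ) [Fact p.Prime] (M : Ideal Cfsg.AlgInt) (hM : Cfsg.IsPModular p M) (P : Subgroup G) (hP : IsPGroup p P) (N : Subgroup G) (hPN : P ≤ N) (hNN : N ≤ Subgroup.normalizer (P : Set G)) (U : Set G) (hUne : U.Nonempty) (hUP : U ⊆ (P : Set G)) (hUN : ∀ n ∈ N, ∀ u ∈ U, n * u * n⁻¹ ∈ U) (hfus : ∀ u ∈ U, ∀ g : G, g * u * g⁻¹ ∈ (P : Set G) → ∃ n ∈ N, n * u * n⁻¹ = g * u * g⁻¹) (w : ℚ) (hw : ∀ y ∈ U, ((∑ᶠ ψ ∈ Cfsg.principalBlock M ↥(Subgroup.centralizer ({y} : Set G)), Cfsg.charDegree (ψ : ↥(Subgroup.centralizer ({y} : Set G)) → ℂ) ^ 2) : ℚ) = w * Nat.card ↥(N ⊓ Subgroup.centralizer ({y} : Set G))) (θ η : ↥P → ℂ) (hθ : Cfsg.IsGeneralizedCharacter ↥P θ) (hη : Cfsg.IsGeneralizedCharacter ↥P η) (hθU : ∀ y : ↥P,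 (y : G) ∉ U → θ y = 0) : ∑ᶠ χ ∈ Cfsg.principalBlock M G, ((Nat.card ↥P : ℂ)⁻¹ * ∑ᶠ y : ↥P, (χ : G → ℂ) (y : G) * θ y⁻¹) * (starRingEnd ℂ) ((Nat.card ↥P : ℂ)⁻¹ * ∑ᶠ y : ↥P, (χ : G → ℂ) (y : G) * η y⁻¹) = ((w : ℂ) / ((Nat.card ↥P : ℂ) ^ 2)) * ∑ᶠ y : ↥P, θ y * (starRingEnd ℂ) (∑ᶠ x : ↥N, Cfsg.extendByZero P η ((x : G) * (y : G) * (x : G)⁻¹)) := by
  classical
  have := Fintype.ofFinite G
  have := hM.2.1.isPrime
  have hB : IsPBlock M (principalBlock M G) := isPBlock_principalBlock
  have hcol : ∀ (ζ : ↥P → ℂ) (χ : IrrCharacter G),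
      (Nat.card ↥P : ℂ)⁻¹ * ∑ᶠ y : ↥P, (χ : G → ℂ) (y : G) * ζ y⁻¹ = col P ζ (χ : G → ℂ) := by
    intro ζ χ; unfold col; rw [finsum_eq_sum_of_fintype]
  simp only [hcol]
  have hPc : (Nat.card ↥P : ℂ) ≠ 0 := by exact_mod_cast Nat.card_pos.ne'
  have hord : ∀ y : P, ∃ k : ℕ, orderOf (y : G) = p ^ k := by
    intro y
    obtain ⟨k, hk⟩ := (IsPGroup.iff_orderOf.1 hP) y
    exact ⟨k, by rw [Subgroup.orderOf_coe]; exact hk⟩
  have hconjcol : ∀ χ : IrrCharacter G, conj (col P η (χ : G → ℂ))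
      = (Nat.card ↥P : ℂ)⁻¹ * ∑ y' : P, (χ : G → ℂ) (y' : G) * conj (η y') := by
    intro χ
    unfold col
    rw [map_mul, map_inv₀, map_natCast, map_sum, ← Equiv.sum_comp (Equiv.inv P)]
    congr 1
    apply Finset.sum_congr rfl
    intro y' _
    simp only [Equiv.inv_apply, inv_inv, map_mul, Subgroup.coe_inv]
    rw [irr_inv, Complex.conj_conj]
  rw [finsum_mem_irr, finsum_eq_sum_of_fintype,
    sum_col_mul (principalBlock M G) P θ (fun χ => conj (col P η (χ : G → ℂ))),
    ← Equiv.sum_comp (Equiv.inv P), Finset.mul_sum, Finset.mul_sum]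
  apply Finset.sum_congr rfl
  intro y _
  simp only [Equiv.inv_apply, inv_inv]
  by_cases hyU : (y : G) ∈ U
  swap
  · rw [hθU y hyU]; simp
  have hmem : ∀ x : N, (x : G) * (y : G) * (x : G)⁻¹ ∈ P := by
    intro x
    exact (Subgroup.mem_normalizer_iff.1 (hNN x.2) (y : G)).1 y.2
  -- the column inner products
  have hT : ∀ y' : P, delta (principalBlock M G) (y' : G) (y : G)
      = (w : ℂ) * ∑ x : N, (if (x : G) * (y : G) * (x : G)⁻¹ = (y' : G) then (1 : ℂ) else 0) := by
    intro y'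
    by_cases hex : ∃ n : N, (n : G) * (y : G) * (n : G)⁻¹ = (y' : G)
    · obtain ⟨n, hn⟩ := hex
      rw [← hn, card_conj_fiber]
      have h1 : delta (principalBlock M G) ((n : G) * (y : G) * (n : G)⁻¹) (y : G)
          = delta (principalBlock M G) (y : G) (y : G) := by
        unfold delta
        apply Finset.sum_congr rfl
        intro χ _
        rw [irr_conj]
      rw [h1, delta_self_principal hM (y : G) (hord y)]
      have h2 := hw (y : G) hyU
      rw [finsum_mem_irr] at h2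
      have h3 := congrArg (fun q : ℚ => (q : ℂ)) h2

      push_cast at h3
      rw [← h3]
      apply Finset.sum_congr rfl
      intro ψ _
      split_ifs <;> simp
    · rw [Finset.sum_eq_zero, mul_zero]
      · apply block_orth_pelements hM hB (hord y') (hord y)
        intro hc
        obtain ⟨g, hg⟩ := isConj_iff.1 hc.symm
        obtain ⟨n, hnN, hn⟩ := hfus (y : G) hyU g (by rw [hg]; exact y'.2)
        exact hex ⟨⟨n, hnN⟩, by rw [← hg]; exact hn⟩
      · intro x _
        rw [if_neg]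
        intro hx
        exact hex ⟨x, hx⟩
  have key : ∑ χ : IrrCharacter G, (if χ ∈ principalBlock M G then
      (χ : G → ℂ) ((y⁻¹ : P) : G) * conj (col P η (χ : G → ℂ)) else 0)
      = (Nat.card ↥P : ℂ)⁻¹ * ((w : ℂ) *
        conj (∑ᶠ x : ↥N, Cfsg.extendByZero P η ((x : G) * (y : G) * (x : G)⁻¹))) := by
    have e1 : ∑ χ : IrrCharacter G, (if χ ∈ principalBlock M G then
        (χ : G → ℂ) ((y⁻¹ : P) : G) * conj (col P η (χ : G → ℂ)) else 0)
        = (Nat.card ↥P : ℂ)⁻¹ * ∑ y' : P, conj (η y') * delta (principalBlock M G) (y' : G) (y : G) := by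
      unfold delta
      simp only [Finset.mul_sum]
      rw [Finset.sum_comm]
      apply Finset.sum_congr rfl
      intro χ _
      split_ifs
      · rw [hconjcol, Subgroup.coe_inv, irr_inv, Finset.mul_sum, Finset.mul_sum]
        apply Finset.sum_congr rfl
        intro y' _
        ring
      · simp
    rw [e1]
    congr 1
    simp only [hT]
    rw [finsum_eq_sum_of_fintype, map_sum, Finset.mul_sum]
    simp only [Finset.mul_sum]
    rw [Finset.sum_comm]
    apply Finset.sum_congr rfl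
    intro x _
    rw [Finset.sum_eq_single (⟨(x : G) * (y : G) * (x : G)⁻¹, hmem x⟩ : P)]
    · rw [if_pos rfl]
      have : Cfsg.extendByZero P η ((x : G) * (y : G) * (x : G)⁻¹)
          = η ⟨(x : G) * (y : G) * (x : G)⁻¹, hmem x⟩ :=
        Subtype.val_injective.extend_apply η 0 ⟨(x : G) * (y : G) * (x : G)⁻¹, hmem x⟩
      rw [this]
      ring
    · intro y' _ hy'
      rw [if_neg]
      · ring
      · intro h
        exact hy' (Subtype.ext h.symm)
    · intro h; exact absurd (Finset.mem_univ _) h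
  rw [key]
  field_simp

end Cfsg.Agent.S4720
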