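import Cfsg.Statements.S4721
import Mathlib
import Cfsg.Agent.Lib.Helper59BLOdd

set_option autoImplicit false
open Cfsg

namespace Cfsg.Agent.S4721

/-- Let p be a prime, M a maximal ideal of the algebraic integers containing p, and G a finite group with a nontrivial abelian Sylow p-subgroup P, N = N_G(P), C = C_G(P), such that N/C is cyclic of order 3, #P > 4, and C_G(y) ∩ N = C for every non-identity y ∈ P. Then the principal p-block is the disjoint union of a set X of exactly 3 characters containing the principal character and a set Y of (#P − 1)/3 characters, with signs a_χ = ±1 (χ ∈ X, a = 1 at the principal character) and δ = ±1 such that every χ ∈ X takes the value a_χ at every element whose p-part is a non-identity element of P, and there is a map ζ from the non-principal linear characters of P onto Y, constant on N-conjugacy classes, with ζ_ψ(z) = δ·Σ ψ'(y) over the N-orbit of ψ, for z with p-part y ≠ 1 in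 P. If moreover G has an involution lying in no proper normal subgroup of G, then exactly two of the three numbers −δ and a_χ (χ ∈ X non-principal) equal −1, and the product of the degrees of the two non-principal members of X and of any member of Y is a perfect square. -/
theorem result {G : Type*} [Group G] [Finite G] (p : ℕ) [Fact p.Prime] (M : Ideal Cfsg.AlgInt) (hM : Cfsg.IsPModular p M) (P : Sylow p G) (hab : IsMulCommutative P) (hP1 : Nat.card P ≠ 1) (hCN : (Subgroup.centralizer ((P : Subgroup G) : Set G)).relIndex (Subgroup.normalizer ((P : Subgroup G) : Set G)) = 3) (hcyc : ∃ g : G, g ∈ Subgroup.normalizer ((P : Subgroup G) : Set G) ∧ Subgroup.centralizer ((P : Subgroup G) : Set G) ⊔ Subgroup.zpowers g = Subgroup.normalizer ((P : Subgroup G) : Set G)) (hm2 : 3 + 1 < Nat.card P) (hfrob : ∀ y : G, y ∈ (P : Subgroup G) → y ≠ 1 → Subgroup.centralizer ({y} : Set G) ⊓ Subgroup.normalizer ((P : Subgroup G) : Set G)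 = Subgroup.centralizer ((P : Subgroup G) : Set G)) : ∃ (X Y : Set (Cfsg.IrrCharacter G)), Cfsg.principalBlock M G = X ∪ Y ∧ Disjoint X Y ∧ Nat.card X = 3 ∧ Nat.card Y = (Nat.card P - 1) / 3 ∧ (∃ χ₁ ∈ X, (χ₁ : G → ℂ) = fun _ => 1) ∧ ∃ (a : Cfsg.IrrCharacter G → ℤ) (δ : ℤ) (ζ : (↥(P : Subgroup G) →* ℂˣ) → Cfsg.IrrCharacter G), (δ = 1 ∨ δ = -1) ∧ (∀ χ ∈ X, (a χ = 1 ∨ a χ = -1) ∧ ∀ z y : G, Cfsg.IsPPart p z y → y ∈ (P : Subgroup G) → y ≠ 1 → (χ : G → ℂ) z = (a χ : ℂ)) ∧ (∀ ψ : ↥(P : Subgroup G) →* ℂˣ, ψ ≠ 1 → ζ ψ ∈ Y) ∧ (∀ η ∈ Y, ∃ ψ : ↥(P : Subgroup G) →* ℂˣ, ψ ≠ 1 ∧ ζ ψ = η) ∧ (∀ ψ ψ' : ↥(P : Subgroup G) →* ℂˣ, ψ ≠ 1 → (∃ n : G, n ∈ Subgroup.normalizer ((P : Subgroup G) : Set G) ∧ ∀ w w' : ↥(P : Subgroup G), (w' : G) = n * w * n⁻¹ → ψ' w' = ψ w) → ζ ψ' = ζ ψ) ∧ (∀ ψ : ↥(P : Subgroup G) →* ℂˣ, ψ ≠ 1 → ∀ (z : G) (y : ↥(P : Subgroup G)), Cfsg.IsPPart p z (y : G) → (y : G) ≠ 1 → (ζ ψ : G → ℂ) z = (δ : ℂ) * ∑ᶠ ψ' ∈ {ψ' : ↥(P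 : Subgroup G) →* ℂˣ | ∃ n : G, n ∈ Subgroup.normalizer ((P : Subgroup G) : Set G) ∧ ∀ w w' : ↥(P : Subgroup G), (w' : G) = n * w * n⁻¹ → ψ' w' = ψ w}, ((ψ' y : ℂˣ) : ℂ)) ∧ ((∃ t : G, orderOf t = 2 ∧ ∀ K : Subgroup G, K.Normal → t ∈ K → K = ⊤) → Nat.card {χ : Cfsg.IrrCharacter G // χ ∈ X ∧ (χ : G → ℂ) ≠ (fun _ => 1) ∧ a χ = -1} + (if δ = 1 then 1 else 0) = 2 ∧ ∀ η ∈ Y, IsSquare (Cfsg.charDegree (η : G → ℂ) * ∏ᶠ χ ∈ {χ : Cfsg.IrrCharacter G | χ ∈ X ∧ (χ : G → ℂ) ≠ fun _ => 1}, Cfsg.charDegree (χ : G → ℂ))) := by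
  classical
  let _ : Fintype G := Fintype.ofFinite G
  let _ : Fintype ↥(P : Subgroup G) := Fintype.ofFinite _
  let _ : Fintype (Subgroup.normalizer ((P : Subgroup G) : Set G)) := Fintype.ofFinite _
  have := Cfsg.Agent.Lib.Helper59BLDual.finite_hom ↥(P : Subgroup G) hab
  let _ : Fintype (↥(P : Subgroup G) →* ℂˣ) := Fintype.ofFinite _
  have h : Cfsg.Agent.Lib.Helper59BLGram.BL p M P := ⟨hM, hab, hfrob⟩
  have hP4 : 4 < Nat.card ↥(P : Subgroup G) := hm2
  obtain ⟨δ, ζ, A, D⟩ := Cfsg.Agent.Lib.Helper59BLNorm.exists_data_three h hCN hP4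
  obtain ⟨χ₂, χ₃, h2, h3, h23, hX, hA2, hA3⟩ :=
    Cfsg.Agent.Lib.Helper59BLThree.exists_X_three h (by omega) D
  have hcY := Cfsg.Agent.Lib.Helper59BLFin.card_Y h D hCN
  set X := Cfsg.Agent.Lib.Helper59BLFin.Xset M ζ with hXdef
  set Y := Cfsg.Agent.Lib.Helper59BLFin.Yset ζ with hYdef
  have hrdiv : (Nat.card P - 1) / 3 = Nat.card Y := by
    have e : Nat.card P - 1 = Nat.card Y * 3 := by
      have : Nat.card Y * 3 + 1 = Nat.card P := hcY
      omega
    rw [e, Nat.mul_div_cancel _ (by norm_num)]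
  have hrel := fun ψ ψ' => Cfsg.Agent.Lib.Helper59BLTw.rel_iff P ψ ψ'
  have hone : ∀ χ : Cfsg.IrrCharacter G, (χ : G → ℂ) ≠ (fun _ => 1) ↔
      χ ≠ Cfsg.Agent.Lib.Helper82Linear.irrOne G := by
    intro χ
    constructor
    · intro h1 h2
      exact h1 (by rw [h2]; rfl)
    · intro h1 h2
      exact h1 (Subtype.ext h2)
  have hXcard : Nat.card X = 3 := by
    rw [hX, Nat.card_coe_set_eq, Set.ncard_insert_of_notMem, Set.ncard_pair h23]
    simp only [Set.mem_insert_iff, Set.mem_singleton_iff, not_or]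
    exact ⟨h2.symm, h3.symm⟩
  refine ⟨X, Y, Cfsg.Agent.Lib.Helper59BLFin.union_eq D,
    Cfsg.Agent.Lib.Helper59BLFin.disjoint_XY, hXcard, hrdiv.symm,
    ⟨_, Cfsg.Agent.Lib.Helper59BLFin.one_mem_X h D, rfl⟩, A, δ, ζ, D.hδ, ?_, ?_, ?_, ?_, ?_, ?_⟩
  · intro χ hχ
    refine ⟨?_, ?_⟩
    · have hχ' := hχ
      rw [hX] at hχ'
      simp only [Set.mem_insert_iff, Set.mem_singleton_iff] at hχ'
      rcases hχ' with rfl | rfl | rfl
      · exact Or.inl D.hAone
      · exact hA2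
      · exact hA3
    · intro z y hzy hy hy1
      rw [Cfsg.Agent.Lib.Helper59BLSec.section_const h χ hχ.1 z y hzy hy hy1]
      exact Cfsg.Agent.Lib.Helper59BLFin.X_val D hχ ⟨y, hy⟩
        (fun h' => hy1 (congrArg Subtype.val h'))
  · intro ψ hψ
    exact ⟨ψ, hψ, rfl⟩
  · rintro η ⟨ψ, hψ, h1⟩
    exact ⟨ψ, hψ, h1⟩
  · intro ψ ψ' hψ hn
    have hr' := (hrel ψ ψ').mp hn
    exact ((D.hζ ψ ψ' hψ (Cfsg.Agent.Lib.Helper59BLTw.ne_one_of_rel P hr' hψ)).mpr hr').symm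
  · intro ψ hψ z y hzy hy1
    rw [Cfsg.Agent.Lib.Helper59BLSec.section_const h (ζ ψ) (D.hmem ψ hψ) z y hzy y.2 hy1,
      Cfsg.Agent.Lib.Helper59BLFin.Y_val D ψ hψ y (fun h' => hy1 (congrArg Subtype.val h')),
      Cfsg.Agent.Lib.Helper59BLFin.finsum_mem_fintype]
    rw [Int.cast_zero, zero_add]
    congr 1
    apply Finset.sum_congr rfl
    intro ψ' _
    by_cases hr' : Cfsg.Agent.Lib.Helper59BLTw.Rel P ψ ψ'
    · rw [if_pos hr', if_pos]
      exact (hrel ψ ψ').mpr hr'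
    · rw [if_neg hr', if_neg]
      exact fun h' => hr' ((hrel ψ ψ').mp h')
  · rintro ⟨t, ht, hK⟩
    by_cases hp : p = 2
    · exfalso
      subst hp
      obtain ⟨χ, hχ1, hχ2, hχ3⟩ := Cfsg.Agent.Lib.Helper59BLTwo.two_case h hCN hP4
      have hK2 : IsPGroup 2 (Subgroup.zpowers t) :=
        IsPGroup.of_card (n := 1) (by rw [Nat.card_zpowers, ht]; norm_num)
      obtain ⟨c, hc⟩ := Cfsg.Agent.Lib.Helper59BSGrp.exists_conj_le P (Subgroup.zpowers t) hK2
      have h5 := hχ3 _ (hc t (Subgroup.mem_zpowers t))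
      rw [Cfsg.Agent.Lib.Helper81Base.irr_conj] at h5
      exact Cfsg.Agent.Lib.Helper59BLOdd.ne_of_no_proper t hK χ hχ1 (by rw [h5, hχ2])
    · have key := fun ψ hψ => Cfsg.Agent.Lib.Helper59BLOdd.odd_case h hCN hp D h2 h3 h23 hX hA2 hA3
        t ht hK ψ hψ
      obtain ⟨ψ₀, hψ₀⟩ := Cfsg.Agent.Lib.Helper59BLStruct.exists_ne_one h (by omega)
      have hsum := (key ψ₀ hψ₀).1
      constructor
      · rw [Nat.card_eq_fintype_card, Fintype.card_subtype]
        have hS : (Finset.univ.filter (fun χ : Cfsg.IrrCharacter G =>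
            χ ∈ X ∧ (χ : G → ℂ) ≠ (fun _ => 1) ∧ A χ = -1))
            = ({χ₂, χ₃} : Finset (Cfsg.IrrCharacter G)).filter (fun χ => A χ = -1) := by
          ext χ
          simp only [Finset.mem_filter, Finset.mem_univ, true_and, Finset.mem_insert,
            Finset.mem_singleton, hone, hX, Set.mem_insert_iff, Set.mem_singleton_iff]
          constructor
          · rintro ⟨h5 | h5 | h5, h6, h7⟩
            · exact absurd h5 h6
            · exact ⟨Or.inl h5, h7⟩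
            · exact ⟨Or.inr h5, h7⟩
          · rintro ⟨h5 | h5, h7⟩
            · exact ⟨Or.inr (Or.inl h5), h5 ▸ h2, h7⟩
            · exact ⟨Or.inr (Or.inr h5), h5 ▸ h3, h7⟩
        rw [hS, Finset.filter_insert, Finset.filter_singleton]
        rcases hA2 with a2 | a2 <;> rcases hA3 with a3 | a3 <;> rcases D.hδ with d1 | d1 <;>
          rw [a2, a3, d1] at hsum <;> first
          | (exfalso; omega)
          | (simp [a2, a3, d1, h23])
      · rintro η ⟨ψ, hψ, rfl⟩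
        have hsq := (key ψ hψ).2
        have hset : {χ : Cfsg.IrrCharacter G | χ ∈ X ∧ (χ : G → ℂ) ≠ fun _ => 1} = {χ₂, χ₃} := by
          ext χ
          simp only [Set.mem_ofPred_eq, hone, hX, Set.mem_insert_iff, Set.mem_singleton_iff]
          constructor
          · rintro ⟨h5 | h5 | h5, h6⟩
            · exact absurd h5 h6
            · exact Or.inl h5
            · exact Or.inr h5
          · rintro (h5 | h5)
            · exact ⟨Or.inr (Or.inl h5), h5 ▸ h2⟩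
            · exact ⟨Or.inr (Or.inr h5), h5 ▸ h3⟩
        rw [hset, finprod_mem_pair h23]
        rw [← Int.isSquare_natCast_iff]
        push_cast
        have e : (Cfsg.charDegree (ζ ψ : G → ℂ) : ℤ) * ((Cfsg.charDegree (χ₂ : G → ℂ) : ℤ) *
            (Cfsg.charDegree (χ₃ : G → ℂ) : ℤ)) = (Cfsg.charDegree (χ₂ : G → ℂ) : ℤ) *
            (Cfsg.charDegree (χ₃ : G → ℂ) : ℤ) * (Cfsg.charDegree (ζ ψ : G → ℂ) : ℤ) := by ring
        rw [e]
        exact hsq

end Cfsg.Agent.S4721
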