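import Cfsg.Statements.S4722
import Cfsg.Agent.Lib.Helper81Columns
import Cfsg.Agent.Lib.Helper21Cover2
import Cfsg.Agent.Lib.Helper82Quot
import Cfsg.Agent.Lib.Helper1Fitting

set_option autoImplicit false
open Cfsg

namespace Cfsg.Agent.S4722

open Cfsg.Agent.Lib.Helper81Columns Cfsg.Agent.Lib.Helper81Base Cfsg.Agent.Lib.Helper81Block
  Cfsg.Agent.Lib.Helper81Subsec2 Cfsg.Agent.Lib.Helper82Linear
open scoped ComplexConjugate
/-- Let M be a maximal ideal of the algebraic integers containing 2, P a 2-subgroup of the finite group G, U a subset of P, and t an involution of G such that no element of U is inverted by any conjugate of t. Let θ be a generalized character of P vanishing outside U, and for χ in the principal 2-block B₀ put a_χ = #P⁻¹ Σ_{y ∈ P} χ(y) θ(y⁻¹). Then Σ_{χ ∈ B₀} a_χ χ(t)^2/χ(1) = 0, Σ_{χ ∈ B₀} a_χ χ(1) = 0 and Σ_{χ ∈ B₀} a_χ χ(t) = 0. If moreover #P⁻¹ Σ_{y ∈ P} θ(y) ≠ 0, then either at least two of the a_χ have positive real part and at least two have negative real part, or G has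 a proper normal subgroup containing O_2'(G) and t. -/
theorem result {G : Type*} [Group G] [Finite G] (M : Ideal Cfsg.AlgInt) (hM : Cfsg.IsPModular 2 M) (P : Subgroup G) (hP : IsPGroup 2 P) (U : Set G) (hUP : U ⊆ (P : Set G)) (t : G) (ht : orderOf t = 2) (hinv : ∀ u ∈ U, ∀ g : G, (g * t * g⁻¹) * u * (g * t * g⁻¹)⁻¹ ≠ u⁻¹) (θ : ↥P → ℂ) (hθ : Cfsg.IsGeneralizedCharacter ↥P θ) (hθU : ∀ y : ↥P, (y : G) ∉ U → θ y = 0) : (∑ᶠ χ ∈ Cfsg.principalBlock M G, ((Nat.card ↥P : ℂ)⁻¹ * ∑ᶠ y : ↥P, (χ : G → ℂ) (y : G) * θ y⁻¹) * (χ : G → ℂ) t ^ 2 / (χ : G → ℂ) 1 = 0) ∧ (∑ᶠ χ ∈ Cfsg.principalBlock M G, ((Nat.card ↥P : ℂ)⁻¹ * ∑ᶠ y : ↥P, (χ : G → ℂ) (y : G) * θ y⁻¹) * (χ : G → ℂ) 1 = 0) ∧ (∑ᶠ χ ∈ Cfsg.principalBlock M G, ((Nat.card ↥P : ℂ)⁻¹ * ∑ᶠ y : ↥P, (χ : G → ℂ) (y : G) * θ y⁻¹) * (χ : G → ℂ) t = 0) ∧ ((Nat.card ↥P : ℂ)⁻¹ * ∑ᶠ y : ↥P, θ y ≠ 0 → (2 ≤ Nat.card {χ : Cfsg.IrrCharacter G // χ ∈ Cfsg.principalBlock M G ∧ 0 < (((Nat.card ↥P : ℂ)⁻¹ * ∑ᶠ y : ↥P, (χ : G → ℂ) (y : G) * θ y⁻¹)).re} ∧ 2 ≤ Nat.card {χ : Cfsg.IrrCharacter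 G // χ ∈ Cfsg.principalBlock M G ∧ (((Nat.card ↥P : ℂ)⁻¹ * ∑ᶠ y : ↥P, (χ : G → ℂ) (y : G) * θ y⁻¹)).re < 0}) ∨ ∃ K : Subgroup G, K.Normal ∧ K ≠ ⊤ ∧ Cfsg.pPrimeCore 2 G ≤ K ∧ t ∈ K) := by
  classical
  have := Fintype.ofFinite G
  have := hM.2.1.isPrime
  have hB : IsPBlock M (principalBlock M G) := isPBlock_principalBlock
  have htt : t * t = 1 := by rw [← pow_two, ← ht]; exact pow_orderOf_eq_one t
  have htinv : t⁻¹ = t := inv_eq_of_mul_eq_one_left htt
  have hcol : ∀ χ : IrrCharacter G,
      (Nat.card ↥P : ℂ)⁻¹ * ∑ᶠ y : ↥P, (χ : G → ℂ) (y : G) * θ y⁻¹ = col P θ (χ : G → ℂ) := by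
    intro χ; unfold col; rw [finsum_eq_sum_of_fintype]
  simp only [hcol]
  have hord : ∀ y : P, ∃ k : ℕ, orderOf (y : G) = 2 ^ k := by
    intro y
    obtain ⟨k, hk⟩ := (IsPGroup.iff_orderOf.1 hP) y
    exact ⟨k, by rw [Subgroup.orderOf_coe]; exact hk⟩
  have hU : ∀ y : P, θ y⁻¹ ≠ 0 → ((y : G)⁻¹) ∈ U := by
    intro y hy
    by_contra hcon
    exact hy (hθU y⁻¹ (by simpa using hcon))
  have hreal1 : ∀ χ : IrrCharacter G, conj ((χ : G → ℂ) 1) = (χ : G → ℂ) 1 := by
    intro χ; rw [← charDegree_eq]; simp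
  have hrealt : ∀ χ : IrrCharacter G, conj ((χ : G → ℂ) t) = (χ : G → ℂ) t := by
    intro χ; rw [← irr_inv, htinv]
  have R1 : ∑ χ : IrrCharacter G, (if χ ∈ principalBlock M G then
      col P θ (χ : G → ℂ) * ((χ : G → ℂ) t ^ 2 / (χ : G → ℂ) 1) else 0) = 0 := by
    apply sum_col_mul_eq_zero
    intro y hy
    apply sum_block_sq_div hM hB (hord y) htt
    intro g hg
    apply hinv _ (hU y hy) g
    calc g * t * g⁻¹ * (y : G)⁻¹ * (g * t * g⁻¹)⁻¹
        = (g * t * g⁻¹ * (y : G) * (g * t * g⁻¹)⁻¹)⁻¹ := by group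
      _ = ((y : G)⁻¹)⁻¹ := by rw [hg]
  have R2 : ∑ χ : IrrCharacter G, (if χ ∈ principalBlock M G then
      col P θ (χ : G → ℂ) * (χ : G → ℂ) 1 else 0) = 0 := by
    apply sum_col_mul_eq_zero
    intro y hy
    have h1 := block_orth_pelements hM hB (hord y) (⟨0, by simp⟩ : ∃ k : ℕ, orderOf (1 : G) = 2 ^ k)
      (by
        intro hc
        have hy1 : (y : G) = 1 := isConj_one_left.1 hc
        apply hinv _ (hU y hy) 1
        rw [hy1]
        simp)
    simpa only [hreal1] using h1
  have R3 : ∑ χ : IrrCharacter G, (if χ ∈ principalBlock M G then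
      col P θ (χ : G → ℂ) * (χ : G → ℂ) t else 0) = 0 := by
    apply sum_col_mul_eq_zero
    intro y hy
    have h1 := block_orth_pelements hM hB (hord y) (⟨1, by simpa using ht⟩ : ∃ k : ℕ, orderOf t = 2 ^ k)
      (by
        intro hc
        obtain ⟨s, hs⟩ := isConj_iff.1 hc
        have hy1 : (y : G) = s⁻¹ * t * s⁻¹⁻¹ := by rw [← hs]; group
        have hyy : (y : G) * (y : G) = 1 := by
          rw [hy1]
          calc s⁻¹ * t * s⁻¹⁻¹ * (s⁻¹ * t * s⁻¹⁻¹) = s⁻¹ * (t * t) * s := by group
            _ = 1 := by rw [htt]; group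
        have hyinv : (y : G)⁻¹ = y := inv_eq_of_mul_eq_one_left hyy
        apply hinv _ (hU y hy) s⁻¹
        rw [← hy1]
        simp [hyinv, hyy])
    simpa only [hrealt] using h1
  refine ⟨?_, ?_, ?_, ?_⟩
  · rw [finsum_mem_irr]
    simpa only [mul_div_assoc] using R1
  · rw [finsum_mem_irr]; exact R2
  · rw [finsum_mem_irr]; exact R3
  · intro hne
    by_cases hc : 2 ≤ Nat.card {χ : Cfsg.IrrCharacter G // χ ∈ Cfsg.principalBlock M G ∧
        0 < (col P θ (χ : G → ℂ)).re} ∧
        2 ≤ Nat.card {χ : Cfsg.IrrCharacter G // χ ∈ Cfsg.principalBlock M G ∧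
        (col P θ (χ : G → ℂ)).re < 0}
    · exact Or.inl hc
    · right
      have hcre : ∀ χ : IrrCharacter G, (((col P θ (χ : G → ℂ)).re : ℝ) : ℂ) = col P θ (χ : G → ℂ) := by
        intro χ
        obtain ⟨n, hn⟩ := col_int P hθ χ
        rw [hn]; simp
      have htre : ∀ χ : IrrCharacter G, ((((χ : G → ℂ) t).re : ℝ) : ℂ) = (χ : G → ℂ) t := fun χ =>
        Complex.conj_eq_iff_re.1 (hrealt χ)
      have hdeg : ∀ χ : IrrCharacter G, (((charDegree (χ : G → ℂ) : ℕ) : ℝ) : ℂ) = (χ : G → ℂ) 1 := by
        intro χ; rw [← charDegree_eq]; simp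
      have h1mem : irrOne G ∈ principalBlock M G := self_mem_blockOf (irrOne G)
      have hcol1 : col P θ ((irrOne G : IrrCharacter G) : G → ℂ) ≠ 0 := by
        intro h0
        apply hne
        rw [finsum_eq_sum_of_fintype]
        unfold col at h0
        rw [← h0]
        congr 1
        rw [← Equiv.sum_comp (Equiv.inv P)]
        apply Finset.sum_congr rfl
        intro y _
        show θ y⁻¹ = (1 : ℂ) * θ y⁻¹
        rw [one_mul]
      obtain ⟨χ, hχ1, hχ2, hχ3⟩ := exists_other
        (fun χ : IrrCharacter G => if χ ∈ principalBlock M G then (col P θ (χ : G → ℂ)).re else 0)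
        (fun χ => ((charDegree (χ : G → ℂ) : ℕ) : ℝ)) (fun χ => ((χ : G → ℂ) t).re)
        (fun χ => by exact_mod_cast charDegree_pos χ)
        (by
          have : ((∑ χ : IrrCharacter G,
              (if χ ∈ principalBlock M G then (col P θ (χ : G → ℂ)).re else 0) *
                ((charDegree (χ : G → ℂ) : ℕ) : ℝ) : ℝ) : ℂ) = 0 := by
            rw [← R2]
            push_cast
            apply Finset.sum_congr rfl
            intro χ _
            split_ifs
            · rw [hcre]
              congr 1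
              exact_mod_cast hdeg χ
            · simp
          exact_mod_cast this)
        (by
          have : ((∑ χ : IrrCharacter G,
              (if χ ∈ principalBlock M G then (col P θ (χ : G → ℂ)).re else 0) *
                ((χ : G → ℂ) t).re : ℝ) : ℂ) = 0 := by
            rw [← R3]
            push_cast
            apply Finset.sum_congr rfl
            intro χ _
            split_ifs
            · rw [hcre, htre]
            · simp
          exact_mod_cast this)
        (by
          have : ((∑ χ : IrrCharacter G,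
              (if χ ∈ principalBlock M G then (col P θ (χ : G → ℂ)).re else 0) *
                (((χ : G → ℂ) t).re ^ 2 / ((charDegree (χ : G → ℂ) : ℕ) : ℝ)) : ℝ) : ℂ) = 0 := by
            rw [← R1]
            push_cast
            apply Finset.sum_congr rfl
            intro χ _
            split_ifs
            · rw [hcre, htre]
              congr 2
              exact_mod_cast hdeg χ
            · simp
          exact_mod_cast this)
        (irrOne G)
        (by
          rw [if_pos h1mem]
          intro h0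
          apply hcol1
          rw [← hcre, h0]
          simp)
        (by
          have h1 : ((charDegree ((irrOne G : IrrCharacter G) : G → ℂ) : ℕ) : ℂ) = 1 :=
            charDegree_eq (irrOne G)
          have h2 : charDegree ((irrOne G : IrrCharacter G) : G → ℂ) = 1 := by exact_mod_cast h1
          show ((1 : ℂ)).re = _
          rw [h2]; simp)
        (by
          rw [not_and_or, not_le, not_le] at hc
          rcases hc with hc | hc
          · left
            intro i j hi hj
            have hsub := (Finite.card_le_one_iff_subsingleton).1 (Nat.lt_succ_iff.1 hc)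
            have hi' : i ∈ principalBlock M G ∧ 0 < (col P θ (i : G → ℂ)).re := by
              by_cases h : i ∈ principalBlock M G
              · simp only [h, if_true] at hi; exact ⟨h, hi⟩
              · simp only [h, if_false] at hi; exact absurd hi (lt_irrefl _)
            have hj' : j ∈ principalBlock M G ∧ 0 < (col P θ (j : G → ℂ)).re := by
              by_cases h : j ∈ principalBlock M G
              · simp only [h, if_true] at hj; exact ⟨h, hj⟩
              · simp only [h, if_false] at hj; exact absurd hj (lt_irrefl _)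
            exact congrArg Subtype.val (hsub.elim ⟨i, hi'⟩ ⟨j, hj'⟩)
          · right
            intro i j hi hj
            have hsub := (Finite.card_le_one_iff_subsingleton).1 (Nat.lt_succ_iff.1 hc)
            have hi' : i ∈ principalBlock M G ∧ (col P θ (i : G → ℂ)).re < 0 := by
              by_cases h : i ∈ principalBlock M G
              · simp only [h, if_true] at hi; exact ⟨h, hi⟩
              · simp only [h, if_false] at hi; exact absurd hi (lt_irrefl _)
            have hj' : j ∈ principalBlock M G ∧ (col P θ (j : G → ℂ)).re < 0 := by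
              by_cases h : j ∈ principalBlock M G
              · simp only [h, if_true] at hj; exact ⟨h, hj⟩
              · simp only [h, if_false] at hj; exact absurd hj (lt_irrefl _)
            exact congrArg Subtype.val (hsub.elim ⟨i, hi'⟩ ⟨j, hj'⟩))
      have hχB : χ ∈ principalBlock M G := by
        by_contra h
        exact hχ2 (if_neg h)
      have hχt : (χ : G → ℂ) t = (χ : G → ℂ) 1 := by
        rw [← htre, ← hdeg]
        exact_mod_cast hχ3
      have hχc := Cfsg.Agent.Lib.Helper4Char.IsIrrCharacter.isCharacter χ.2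
      refine ⟨Cfsg.Agent.Lib.Helper82Quot.charKer hχc, inferInstance, ?_, ?_, hχt⟩
      · intro htop
        have hall : ∀ g : G, (χ : G → ℂ) g = (χ : G → ℂ) 1 := by
          intro g
          have : g ∈ Cfsg.Agent.Lib.Helper82Quot.charKer hχc := by rw [htop]; trivial
          exact this
        have h1 := irr_orth χ (irrOne G)
        rw [if_neg hχ1] at h1
        have h2 : ∑ g : G, (χ : G → ℂ) g * conj (((irrOne G : IrrCharacter G) : G → ℂ) g)
            = (Nat.card G : ℂ) * (χ : G → ℂ) 1 := by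
          have : ∀ g : G, (χ : G → ℂ) g * conj (((irrOne G : IrrCharacter G) : G → ℂ) g)
              = (χ : G → ℂ) 1 := by
            intro g
            rw [hall g]
            show (χ : G → ℂ) 1 * conj (1 : ℂ) = _
            simp
          simp only [this, Finset.sum_const, Finset.card_univ, nsmul_eq_mul, Nat.card_eq_fintype_card]
        rw [h2] at h1
        rcases mul_eq_zero.1 h1 with h3 | h3
        · exact Cfsg.Agent.Lib.Helper81Base.card_ne_zero h3
        · exact irr_one_ne_zero χ h3
      · have hKn : (Cfsg.pPrimeCore 2 G).Normal := Cfsg.Agent.Lib.Helper1Fitting.pPrimeCore_normal 2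
        have hKc : (Nat.card (Cfsg.pPrimeCore 2 G)).Coprime 2 :=
          Cfsg.Agent.Lib.Helper1Fitting.card_pPrimeCore_coprime 2
        intro n hn
        exact Cfsg.Agent.Lib.Helper21Cover2.ker_of_sameBlock (N := Cfsg.pPrimeCore 2 G) hM
          (by
            intro hd
            have := Nat.Coprime.eq_one_of_dvd hKc.symm hd
            omega)
          (χ := irrOne G) (ψ := χ) (mem_blockOf.1 hχB) (fun _ _ => rfl) n hn

end Cfsg.Agent.S4722
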