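import Cfsg.Statements.S4723
import Cfsg.Agent.Lib.Helper81Stable

set_option autoImplicit false
open Cfsg

namespace Cfsg.Agent.S4723

open Cfsg.Agent.Lib.Helper21Cover Cfsg.Agent.Lib.Helper87Sylow Cfsg.Agent.Lib.Helper81Stable
/-- Let p be a prime, M a maximal ideal of the algebraic integers containing p, H a normal subgroup of the finite group G and b a p-block of H. Let T be the stabilizer of b in G. Then b contains a character θ of height zero whose own stabilizer in G (the elements g with θ(g h g⁻¹) = θ(h) for all h ∈ H) has index prime to p in T, i.e. contains a Sylow p-subgroup of T. -/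
theorem result {G : Type*} [Group G] [Finite G] (p : ℕ) [Fact p.Prime] (M : Ideal Cfsg.AlgInt) (hM : Cfsg.IsPModular p M) (H : Subgroup G) [H.Normal] (b : Set (Cfsg.IrrCharacter ↥H)) (hb : Cfsg.IsPBlock M b) (T : Subgroup G) (hT : (∀ g : G, g ∈ T ↔ ∀ θ ∈ b, ∀ θ' : Cfsg.IrrCharacter ↥H, (∀ h h' : ↥H, (h' : G) = g * h * g⁻¹ → (θ' : ↥H → ℂ) h' = (θ : ↥H → ℂ) h) → θ' ∈ b)) : ∃ θ ∈ b, Cfsg.blockHeight p b (θ : ↥H → ℂ) = 0 ∧ ∃ S : Subgroup G, S ≤ T ∧ (∀ g : G, g ∈ S ↔ (g ∈ T ∧ ∀ h h' : ↥H, (h' : G) = g * h * g⁻¹ → (θ : ↥H → ℂ) h' = (θ : ↥H → ℂ) h)) ∧ ¬ p ∣ S.relIndex T := by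
  classical
  have : Fintype G := Fintype.ofFinite G
  have : Fintype H := Fintype.ofFinite H
  have hN : H.Normal := inferInstance
  have hT' : ∀ g : G, g ∈ T ↔ ∀ θ ∈ b, cjI hN θ g⁻¹ ∈ b := by
    intro g
    rw [hT g]
    constructor
    · intro h θ hθ
      apply h θ hθ
      intro x x' e
      rw [cjI_apply]
      have : (⟨g⁻¹ * (x' : G) * g⁻¹⁻¹, hN.conj_mem _ x'.2 g⁻¹⟩ : H) = x := by
        apply Subtype.ext
        simp only [e]
        group
      rw [this]
    · intro h θ hθ θ' hc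
      have : θ' = cjI hN θ g⁻¹ := by
        apply Subtype.ext
        funext n
        rw [cjI_apply]
        apply hc
        simp only
        group
      rw [this]
      exact h θ hθ
  have hHT : H ≤ T := by
    intro g hg
    rw [hT']
    intro θ hθ
    have : cjI hN θ g⁻¹ = θ := by
      apply Subtype.ext
      funext n
      rw [cjI_apply]
      have h1 := Cfsg.Agent.Lib.Helper81Base.irr_conj θ n (⟨g, hg⟩⁻¹ : H)
      rw [← h1]
      rfl
    rw [this]
    exact hθ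
  obtain ⟨Q, hQ⟩ := exists_sylIn (p := p) T
  have hQH : SylIn p (Q ⊓ H) H := by
    apply hQ.inf_normal hHT
    rintro n _ _ ⟨x, hx, rfl⟩
    exact hN.conj_mem x hx n
  have hQb : ∀ g ∈ Q, ∀ θ ∈ b, cjI hN θ g ∈ b := by
    intro g hg θ hθ
    have h1 := (hT' g⁻¹).1 (T.inv_mem (hQ.1 hg)) θ hθ
    rwa [inv_inv] at h1
  obtain ⟨θ, hθ, h0, hfix⟩ := exists_height_zero_fixed hM H hb Q hQ.isPGroup hQb hQH
  refine ⟨θ, hθ, h0, ?_⟩
  let S : Subgroup G :=
    { carrier := {g | g ∈ T ∧ cjI hN θ g = θ}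
      one_mem' := ⟨T.one_mem, cjI_one hN θ⟩
      mul_mem' := by
        rintro a c ⟨ha, ha'⟩ ⟨hc, hc'⟩
        refine ⟨T.mul_mem ha hc, ?_⟩
        rw [← cjI_cjI, ha', hc']
      inv_mem' := by
        rintro a ⟨ha, ha'⟩
        refine ⟨T.inv_mem ha, ?_⟩
        conv_lhs => rw [← ha']
        rw [cjI_cjI, mul_inv_cancel, cjI_one] }
  have hSmem : ∀ g, g ∈ S ↔ (g ∈ T ∧ cjI hN θ g = θ) := fun g => Iff.rfl
  refine ⟨S, fun g hg => hg.1, ?_, ?_⟩
  · intro g
    rw [hSmem]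
    constructor
    · rintro ⟨h1, h2⟩
      refine ⟨h1, ?_⟩
      intro x x' e
      conv_rhs => rw [← h2]
      rw [cjI_apply]
      have : (⟨g * (x : G) * g⁻¹, hN.conj_mem _ x.2 g⟩ : H) = x' := Subtype.ext e.symm
      rw [this]
    · rintro ⟨h1, h2⟩
      refine ⟨h1, ?_⟩
      apply Subtype.ext
      funext n
      rw [cjI_apply]
      exact h2 n _ rfl
  · have hQS : Q ≤ S := fun g hg => ⟨hQ.1 hg, hfix g hg⟩
    intro hdvd
    have h1 : p ∣ Q.relIndex T := hdvd.trans (Subgroup.relIndex_dvd_of_le_left T hQS)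
    have h2 : Nat.card Q * Q.relIndex T = Nat.card T := by
      rw [← card_subgroupOf_of_le hQ.1]
      exact Subgroup.card_mul_index (Q.subgroupOf T)
    rw [hQ.2] at h2
    have h3 : Q.relIndex T = Nat.card T / p ^ (Nat.card T).factorization p := by
      exact (Nat.div_eq_of_eq_mul_right (pow_pos (Fact.out : p.Prime).pos _) h2.symm).symm
    rw [h3] at h1
    exact Nat.not_dvd_ordCompl Fact.out Nat.card_pos.ne' h1

end Cfsg.Agent.S4723
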