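import Cfsg.Statements.S4725
import Cfsg.Agent.Lib.Helper81Reg2
import Cfsg.Agent.Lib.Helper20IndBlock
import Cfsg.Agent.S0148

set_option autoImplicit false
open Cfsg

namespace Cfsg.Agent.S4725

open Cfsg.Agent.Lib.Helper20Center (om)
open Cfsg.Agent.Lib.Helper81Local Cfsg.Agent.Lib.Helper81Base Cfsg.Agent.Lib.Helper81BB
  Cfsg.Agent.Lib.Helper81Block Cfsg.Agent.Lib.Helper81Defect Cfsg.Agent.Lib.Helper81Reg
open scoped ComplexConjugate
/-- Let p be a prime, M a maximal ideal of the algebraic integers containing p, H a subgroup of the finite group G, and b a p-block of H inducing the p-block B of G, with b and B of the same defect. Then for every height-zero ζ ∈ b there is a height-zero χ ∈ B whose multiplicity in the character induced from ζ is not divisible by p. -/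
theorem result {G : Type*} [Group G] [Fintype G] (p : ℕ) [Fact p.Prime] (M : Ideal Cfsg.AlgInt) (hM : Cfsg.IsPModular p M) (H : Subgroup G) (b : Set (Cfsg.IrrCharacter ↥H)) (B : Set (Cfsg.IrrCharacter G)) (hind : Cfsg.IsInducedBlock M H b B) (hdef : Cfsg.blockDefect p b = Cfsg.blockDefect p B) (ζ : Cfsg.IrrCharacter ↥H) (hζ : ζ ∈ b) (hζ0 : Cfsg.blockHeight p b (ζ : ↥H → ℂ) = 0) : ∃ χ ∈ B, Cfsg.blockHeight p B (χ : G → ℂ) = 0 ∧ ∃ a : ℕ, Cfsg.classInner (Cfsg.indFun H (ζ : ↥H → ℂ)) (χ : G → ℂ) = (a : ℂ) ∧ ¬ p ∣ a := by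
  classical
  have hMp := hM.2.1.isPrime
  have : Fintype H := Fintype.ofFinite _
  obtain ⟨ξ₀, hξ₀, h0⟩ := exists_height_zero (p := p) (isPBlock_nonempty hind.2.1)
  have hθ : IsCharacter G (indFun H (ζ : H → ℂ)) :=
    Cfsg.Agent.S0148.result H _ (Cfsg.Agent.Lib.Helper4Char.IsIrrCharacter.isCharacter ζ.2)
  apply Cfsg.Agent.Lib.Helper81Reg2.exists_height_zero_constituent hM hind.2.1 hξ₀ h0 hθ
  intro hmem
  -- the formula for the regular pairing
  have hsum : ∑ g : G, areg p (indFun H (ζ : H → ℂ)) g * (ξ₀ : G → ℂ) g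
      = (Nat.card H : ℂ)⁻¹ * (Nat.card G : ℂ) *
        ∑ h : H, areg p (fun h : H => (ξ₀ : G → ℂ) h) h * (ζ : H → ℂ) h := by
    have h1 := Cfsg.Agent.Lib.Helper20IndBlock.sum_mul_indFun H
      (areg_isSC (M := M) (p := p) ξ₀).1 (ζ : H → ℂ)
    have h2 : ∑ h : H, areg p (fun h : H => (ξ₀ : G → ℂ) h) h * (ζ : H → ℂ) h
        = ∑ h : H, areg p (ξ₀ : G → ℂ) h * (ζ : H → ℂ) h := by
      apply Finset.sum_congr rfl
      intro h _
      simp only [areg, Subgroup.orderOf_coe]
    rw [h2, ← h1]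
    apply Fintype.sum_equiv (Equiv.inv G)
    intro x
    simp only [Equiv.inv_apply, areg, orderOf_inv]
    split_ifs
    · ring
    · rw [irr_inv ξ₀, Complex.conj_conj, Cfsg.Agent.Lib.Helper4Char2.IsCharacter.apply_inv hθ]
      ring
  have hG0 : (Nat.card G : ℂ) ≠ 0 := by exact_mod_cast Nat.card_pos.ne'
  have hH0 : (Nat.card H : ℂ) ≠ 0 := by exact_mod_cast Nat.card_pos.ne'
  have hζ1 := irr_one_ne_zero ζ
  have hξ1 := irr_one_ne_zero ξ₀
  have hform : creg p (ζ : H → ℂ) (fun h : H => (ξ₀ : G → ℂ) h)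
      = (((Nat.card H * charDegree (ξ₀ : G → ℂ) : ℕ) : ℂ) / ((Nat.card G * charDegree (ζ : H → ℂ) : ℕ) : ℂ))
        * creg p (ξ₀ : G → ℂ) (indFun H (ζ : H → ℂ)) := by
    unfold creg Cfsg.Agent.Lib.Helper20Center.om
    rw [hsum]
    push_cast
    rw [charDegree_eq, charDegree_eq]
    field_simp
  have hval : (Nat.card G * charDegree (ζ : H → ℂ)).factorization p
      ≤ (Nat.card H * charDegree (ξ₀ : G → ℂ)).factorization p := by
    rw [Nat.factorization_mul Nat.card_pos.ne' (charDegree_pos ζ).ne',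
      Nat.factorization_mul Nat.card_pos.ne' (charDegree_pos ξ₀).ne']
    simp only [Finsupp.add_apply]
    rw [blockDefect_def, blockDefect_def] at hdef
    rw [blockHeight_def] at h0 hζ0
    have h1 := minVal_le (p := p) hζ
    have h2 := minVal_le (p := p) hξ₀
    have h3 := minVal_le_card (p := p) (isPBlock_nonempty hind.1)
    have h4 := minVal_le_card (p := p) (isPBlock_nonempty hind.2.1)
    omega
  have hmem2 : MemLocalIdeal M (creg p (ζ : H → ℂ) (fun h : H => (ξ₀ : G → ℂ) h)) := by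
    rw [hform]
    apply memLocalIdeal_mul _ hmem
    apply memLocalRing_natDiv hM _ hval
    exact Nat.mul_ne_zero Nat.card_pos.ne' (charDegree_pos ζ).ne'
  have h1 := creg_induced (p := p) H hind hζ hξ₀ ξ₀
  have := memLocalIdeal_sub hmem2 h1
  apply creg_self_unit hM hind.2.1 hξ₀ h0
  simpa using this

end Cfsg.Agent.S4725
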