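import Cfsg.Statements.S4726
import Cfsg.Agent.Lib.Helper21Nest

set_option autoImplicit false
open Cfsg

namespace Cfsg.Agent.S4726

/-- Let p be a prime, M a maximal ideal of the algebraic integers containing p, H a subgroup of the finite group G and b a p-block of H with defect group D₀ such that C_G(D₀) ≤ H. Then b induces a block of G, and for every block B of G induced by b there is a defect group D of B with Z(D) ≤ Z(D₀) ≤ D₀ ≤ D (as subgroups of G). In particular, if the defect groups of B are abelian then D₀ is a defect group of B. -/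
theorem result {G : Type*} [Group G] [Finite G] (p : ℕ) [Fact p.Prime] (M : Ideal Cfsg.AlgInt) (hM : Cfsg.IsPModular p M) (H : Subgroup G) (b : Set (Cfsg.IrrCharacter ↥H)) (hb : Cfsg.IsPBlock M b) (D₀ : Subgroup ↥H) (hD₀ : Cfsg.IsDefectGroup p M b D₀) (hC : Subgroup.centralizer ((D₀.map H.subtype : Subgroup G) : Set G) ≤ H) : Cfsg.InducedBlockDefined M H b ∧ ∀ B : Set (Cfsg.IrrCharacter G), Cfsg.IsInducedBlock M H b B → (∃ D : Subgroup G, Cfsg.IsDefectGroup p M B D ∧ (Subgroup.center ↥D).map D.subtype ≤ ((Subgroup.center ↥D₀).map D₀.subtype).map H.subtype ∧ ((Subgroup.center ↥D₀).map D₀.subtype).map H.subtype ≤ D₀.map H.subtype ∧ D₀.map H.subtype ≤ D) ∧ (∀ D : Subgroup G, Cfsg.IsDefectGroup p M B D → IsMulCommutative ↥D → Cfsg.IsDefectGroup p M B (D₀.map H.subtype)) := by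
  classical
  let _ := Fintype.ofFinite G
  have hPr := Cfsg.Agent.Lib.Helper20Local.IsPModular.isPrime hM
  obtain ⟨B₀, hB₀, D, hD, hle, hcen⟩ := Cfsg.Agent.Lib.Helper21Nest.nested hM hb hD₀ hC
  refine ⟨⟨B₀, hB₀⟩, fun B hB => ?_⟩
  have hBB : B = B₀ := Cfsg.Agent.Lib.Helper20Major.induced_block_unique hPr hB hB₀
  subst hBB
  refine ⟨⟨D, hD, ?_, ?_, hle⟩, ?_⟩
  · rintro _ ⟨z, hz, rfl⟩
    have hzc : (z : G) ∈ Subgroup.centralizer ((D₀.map H.subtype : Subgroup G) : Set G) := by
      rw [Subgroup.mem_centralizer_iff]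
      intro y hy
      have := Subgroup.mem_center_iff.1 hz ⟨y, hle hy⟩
      exact congrArg Subtype.val this
    obtain ⟨w, hw, hwz⟩ := hcen ⟨z.2, hzc⟩
    refine ⟨w, ⟨⟨w, hw⟩, ?_, rfl⟩, hwz⟩
    show (⟨w, hw⟩ : D₀) ∈ Subgroup.center ↥D₀
    rw [Subgroup.mem_center_iff]
    intro y
    apply Subtype.ext
    apply Subtype.ext
    have h1 := Subgroup.mem_centralizer_iff.1 hzc ((y : H) : G) ⟨y, y.2, rfl⟩
    have h2 : (w : G) = (z : G) := hwz
    show ((y : H) : G) * (w : G) = (w : G) * ((y : H) : G)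
    rw [h2]
    exact h1
  · exact Subgroup.map_mono (Subgroup.map_subtype_le _)
  · intro D' hD' hab
    obtain ⟨y, hy⟩ := Cfsg.Agent.Lib.Helper80Conj.defectGroup_conj hM hB.2.1 hD hD'
    have hDab : ∀ a ∈ D, ∀ c ∈ D, a * c = c * a := by
      intro a ha c hc
      rw [hy, Cfsg.Agent.Lib.Helper87Sylow.mem_cj] at ha hc
      have := hab.is_comm.comm ⟨_, ha⟩ ⟨_, hc⟩
      have h3 := congrArg Subtype.val this
      simp only [Subgroup.coe_mul] at h3
      have h4 : y⁻¹ * (a * c) * y = y⁻¹ * (c * a) * y := by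
        calc y⁻¹ * (a * c) * y = (y⁻¹ * a * y) * (y⁻¹ * c * y) := by group
          _ = (y⁻¹ * c * y) * (y⁻¹ * a * y) := h3
          _ = y⁻¹ * (c * a) * y := by group
      exact mul_left_cancel (mul_right_cancel h4)
    have hDle : D ≤ D₀.map H.subtype := by
      intro a ha
      apply hcen
      refine ⟨ha, ?_⟩
      show a ∈ Subgroup.centralizer ((D₀.map H.subtype : Subgroup G) : Set G)
      rw [Subgroup.mem_centralizer_iff]
      intro c hc
      exact hDab c (hle hc) a ha
    have heq : D₀.map H.subtype = D := le_antisymm hle hDle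
    rw [heq]
    exact hD

end Cfsg.Agent.S4726
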