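import Cfsg.Statements.S4727
import Cfsg.Agent.Lib.Helper78PiKer
import Cfsg.Agent.Lib.Helper81Subsec
import Cfsg.Agent.Lib.Helper20Major

set_option autoImplicit false
open Cfsg

namespace Cfsg.Agent.S4727

open Cfsg.Agent.Lib Cfsg.Agent.Lib.Helper78PiKer
open Cfsg.Agent.Lib.Helper20Local Cfsg.Agent.Lib.Helper20Block Cfsg.Agent.Lib.Helper20Defect
open Cfsg.Agent.Lib.Helper20Induced Cfsg.Agent.Lib.Helper20Brauer

theorem mem_piCore_of_coe {G : Type*} [Group G] {σ : Set ℕ} {X : Subgroup G} {n : X}
    (h : (n : G) ∈ piCoreOf σ X) : n ∈ piCore σ X := by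
  obtain ⟨y, hy, hyn⟩ := h
  have : y = n := Subtype.ext hyn
  rwa [← this]


/-- Let p be a prime, π a set of primes containing p, M a maximal ideal of the algebraic integers containing p, and B a p-block of the finite group G with defect group D; let B₁ be the block of N_G(D) with defect group D that induces B (the Brauer correspondent of B). Suppose every element of O_π'(N_G(D)), the largest normal subgroup of N_G(D) whose order has no prime divisor in π, lies in the kernel of every member of B₁. If y is a p-element whose centralizer C has a normal Hall π'-subgroup (every element of C whose order has no prime divisor in π lies in O_π'(C)), then χ(y x) = χ(y) for every χ ∈ B and every x ∈ C whose order has no prime divisor in π. -/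
theorem result {G : Type*} [Group G] [Finite G] (p : ℕ) [Fact p.Prime] (M : Ideal Cfsg.AlgInt) (hM : Cfsg.IsPModular p M) (π : Set ℕ) (hpπ : p ∈ π) (B : Set (Cfsg.IrrCharacter G)) (hB : Cfsg.IsPBlock M B) (D : Subgroup G) (hBD : Cfsg.IsDefectGroup p M B D) (B₁ : Set (Cfsg.IrrCharacter ↥(Subgroup.normalizer (D : Set G)))) (hB₁ : Cfsg.IsInducedBlock M (Subgroup.normalizer (D : Set G)) B₁ B) (hB₁D : Cfsg.IsDefectGroup p M B₁ (D.subgroupOf (Subgroup.normalizer (D : Set G)))) (hker : ∀ n : ↥(Subgroup.normalizer (D : Set G)), n ∈ Cfsg.piCore {q | q ∉ π} ↥(Subgroup.normalizer (D : Set G)) → n ∈ Cfsg.blockKer B₁) (y : G) (hy : ∃ k : ℕ, orderOf y = p ^ k) (hC : ∀ x : ↥(Subgroup.centralizer ({y} : Set G)), (∀ q : ℕ, q.Prime → q ∣ orderOf x → q ∉ π) → x ∈ Cfsg.piCore {q | q ∉ π} ↥(Subgroup.centralizer ({y} : Set G))) : ∀ χ ∈ B, ∀ x : G, x ∈ Subgroup.centralizer ({y} : Set G) → (∀ q : ℕ, q.Prime → q ∣ orderOf x → q ∉ π) → (χ : G → ℂ) (y * x) = (χ : G → ℂ) y := by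
  classical
  have : Fintype G := Fintype.ofFinite G
  have hPr := IsPModular.isPrime hM
  have hp : p ∉ {q | q ∉ π} := fun h => h hpπ
  intro χ hχ x hx hxπ
  have hreg : ¬ p ∣ orderOf (⟨x, hx⟩ : Subgroup.centralizer ({y} : Set G)) := by
    rw [Subgroup.orderOf_mk]
    intro hd
    exact hxπ p Fact.out hd hpπ
  have hreg1 : ¬ p ∣ orderOf (1 : Subgroup.centralizer ({y} : Set G)) := by
    rw [orderOf_one]
    exact (Fact.out : p.Prime).one_lt.ne' ∘ Nat.dvd_one.mp
  have h1 := Helper81Subsec.blockPart_overSet hM hB y hy χ ⟨x, hx⟩ hreg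
  have h2 := Helper81Subsec.blockPart_overSet hM hB y hy χ 1 hreg1
  rw [if_pos hχ] at h1 h2
  have hxcore : (⟨x, hx⟩ : Subgroup.centralizer ({y} : Set G)) ∈
      piCore {q | q ∉ π} (Subgroup.centralizer ({y} : Set G)) := by
    apply hC
    intro q hq hd
    rw [Subgroup.orderOf_mk] at hd
    exact hxπ q hq hd
  have key : ∀ ψ ∈ Helper81Subsec.overSet M y B,
      (ψ : Subgroup.centralizer ({y} : Set G) → ℂ) ⟨x, hx⟩
        = (ψ : Subgroup.centralizer ({y} : Set G) → ℂ) 1 := by
    intro ψ hψ
    have hind : IsInducedBlock M (Subgroup.centralizer ({y} : Set G))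
      (blockOf M (ψ : Subgroup.centralizer ({y} : Set G) → ℂ)) B := hψ
    obtain ⟨D₀, hD₀⟩ := exists_defectGroup hM hind.1
    have e : (D₀.map (Subgroup.centralizer ({y} : Set G)).subtype).subgroupOf
        (Subgroup.centralizer ({y} : Set G)) = D₀ :=
      Subgroup.comap_map_eq_self_of_injective (Subgroup.subtype_injective _) D₀
    set y' : Subgroup.centralizer ({y} : Set G) :=
      ⟨y, Subgroup.mem_centralizer_singleton_iff.mpr rfl⟩ with hy'
    have hn : (Subgroup.zpowers y').Normal := by
      constructor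
      intro n hn g
      have hc : g * y' = y' * g := by
        apply Subtype.ext
        exact Subgroup.mem_centralizer_singleton_iff.mp g.2
      obtain ⟨k, rfl⟩ := Subgroup.mem_zpowers_iff.mp hn
      have : g * y' ^ k * g⁻¹ = y' ^ k := by
        have hcom : Commute g (y' ^ k) := (show Commute g y' from hc).zpow_right k
        rw [hcom.eq, mul_inv_cancel_right]
      rw [this]
      exact Subgroup.zpow_mem_zpowers _ _
    obtain ⟨k, hk⟩ := hy
    have hpg : IsPGroup p (Subgroup.zpowers y') :=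
      Helper20Major.isPGroup_zpowers (k := k) (by rw [hy', Subgroup.orderOf_mk, hk])
    have hyD : y' ∈ D₀ := le_defectGroup_of_normal hM _ hpg hind.1 hD₀ (Subgroup.mem_zpowers y')
    have hCle : Subgroup.centralizer
        ((D₀.map (Subgroup.centralizer ({y} : Set G)).subtype : Subgroup G) : Set G)
        ≤ Subgroup.centralizer ({y} : Set G) := by
      apply Subgroup.centralizer_le
      intro z hz
      rw [Set.mem_singleton_iff] at hz
      rw [hz]
      exact ⟨y', hyD, rfl⟩
    exact ker_of_induced hM hp hBD hB₁ hB₁D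
      (fun χ hχ n hn => hker n (mem_piCore_of_coe hn) χ hχ) hind (Subgroup.map_subtype_le _)
      (e.symm ▸ hD₀) hCle ψ (mem_blockOf_self hPr ψ) ⟨x, hx⟩ (Subgroup.mem_map_of_mem _ hxcore)
  have h3 : (χ : G → ℂ) (y * x) = (χ : G → ℂ) (y * ((1 : Subgroup.centralizer ({y} : Set G)) : G)) := by
    rw [← h2]
    have h1' : (χ : G → ℂ) (y * x) = _ := h1.symm
    rw [h1']
    unfold blockPart
    apply finsum_mem_congr rfl
    intro ψ hψ
    rw [key ψ hψ]
  rw [h3]
  simp

end Cfsg.Agent.S4727
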