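import Cfsg.Statements.S4728
import Cfsg.Agent.Lib.Helper78PiKer
import Cfsg.Agent.Lib.Helper20Ext

set_option autoImplicit false
open Cfsg

namespace Cfsg.Agent.S4728

open Cfsg.Agent.Lib Cfsg.Agent.Lib.Helper78PiKer
open Cfsg.Agent.Lib.Helper20Local Cfsg.Agent.Lib.Helper20Block Cfsg.Agent.Lib.Helper20Defect
open Cfsg.Agent.Lib.Helper20Induced Cfsg.Agent.Lib.Helper80Brauer Cfsg.Agent.Lib.Helper80Pairs
open Cfsg.Agent.Lib.Helper80Stab Cfsg.Agent.Lib.Helper80Conj Cfsg.Agent.Lib.Helper80Incl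

theorem mem_piCore_of_coe {G : Type*} [Group G] {σ : Set ℕ} {X : Subgroup G} {n : X}
    (h : (n : G) ∈ piCoreOf σ X) : n ∈ piCore σ X := by
  obtain ⟨y, hy, hyn⟩ := h
  have : y = n := Subtype.ext hyn
  rwa [← this]


/-- Let p be a prime, π a set of primes containing p, M a maximal ideal of the algebraic integers containing p, B a p-block of the finite group G with defect group D, and B₁ the block of N_G(D) with defect group D inducing B. Let D₀ be a p-subgroup, H₀ = D₀·C_G(D₀), and b a block of H₀ inducing B. Write O_π'(X) for the largest normal subgroup of X whose order has no prime divisor in π. Suppose that O_π'(C_G(D₀)) is a normal Hall π'-subgroup of C_G(D₀) (it contains every element of C_G(D₀) whose order has no prime divisor in π) and that every element of it lies in the kernel of every member of b. Then every element of O_π'(N_G(D)) lies in the kernel of every member of B₁. -/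
theorem result {G : Type*} [Group G] [Finite G] (p : ℕ) [Fact p.Prime] (M : Ideal Cfsg.AlgInt) (hM : Cfsg.IsPModular p M) (π : Set ℕ) (hpπ : p ∈ π) (B : Set (Cfsg.IrrCharacter G)) (hB : Cfsg.IsPBlock M B) (D : Subgroup G) (hBD : Cfsg.IsDefectGroup p M B D) (B₁ : Set (Cfsg.IrrCharacter ↥(Subgroup.normalizer (D : Set G)))) (hB₁ : Cfsg.IsInducedBlock M (Subgroup.normalizer (D : Set G)) B₁ B) (hB₁D : Cfsg.IsDefectGroup p M B₁ (D.subgroupOf (Subgroup.normalizer (D : Set G)))) (D₀ : Subgroup G) (hD₀ : IsPGroup p D₀) (H₀ : Subgroup G) (hH₀ : H₀ = D₀ ⊔ Subgroup.centralizer (D₀ : Set G)) (b : Set (Cfsg.IrrCharacter ↥H₀)) (hb : Cfsg.IsInducedBlock M H₀ b B) (hcompl : ∀ x : ↥(Subgroup.centralizer (D₀ : Set G)), (∀ q : ℕ, q.Prime → q ∣ orderOf x → q ∉ π) → x ∈ Cfsg.piCore {q | q ∉ π} ↥(Subgroup.centralizer (D₀ : Set G))) (hkerb : ∀ x : ↥(Subgroup.centralizer (D₀ : Set G)), x ∈ Cfsg.piCore {q | q ∉ π} ↥(Subgroup.centralizer (D₀ : Set G)) → ∀ θ ∈ b,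 ∀ h : ↥H₀, (h : G) = (x : G) → (θ : ↥H₀ → ℂ) h = (θ : ↥H₀ → ℂ) 1) : ∀ n : ↥(Subgroup.normalizer (D : Set G)), n ∈ Cfsg.piCore {q | q ∉ π} ↥(Subgroup.normalizer (D : Set G)) → n ∈ Cfsg.blockKer B₁ := by
  classical
  have : Fintype G := Fintype.ofFinite G
  have hPr := IsPModular.isPrime hM
  have hp : p ∉ {q | q ∉ π} := fun h => h hpπ
  subst hH₀
  have hDH : D₀ ≤ D₀ ⊔ Subgroup.centralizer (D₀ : Set G) := le_sup_left
  have hCH : Subgroup.centralizer (D₀ : Set G) ≤ D₀ ⊔ Subgroup.centralizer (D₀ : Set G) :=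
    le_sup_right
  have hHN := Helper20Ext.sup_centralizer_le_normalizer D₀
  -- a unit coefficient
  obtain ⟨Db, hDb⟩ := exists_defectGroup hM hb.1
  obtain ⟨g, hg, -⟩ := isDefectGroup_iff.mp hDb
  have hgC : (g : G) ∈ Subgroup.centralizer (D₀ : Set G) := by
    by_contra hcon
    apply hg.2.1
    rw [blockCoeff_eq_zero_of_le_normalizer hM hD₀ hDH hHN b hb.1 g hcon]
    exact memLocalIdeal_zero hPr
  obtain ⟨e, hpair, hl⟩ := exists_pair_of_block hM hD₀ hDH hCH hb (t := (g : G)) hgC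
    (by rw [ext_coe]; exact hg.2.1)
  have hHL : D₀ ⊔ Subgroup.centralizer (D₀ : Set G) ≤ Subgroup.normalizer
      ((piCoreOf {q | q ∉ π} (Subgroup.centralizer (D₀ : Set G)) : Subgroup G) : Set G) :=
    hHN.trans ((normalizer_le_normalizer_centralizer D₀).trans
      (Helper30Over.normalizer_le_normalizer_piCoreOf _ _))
  have hgood : Good {q | q ∉ π} ⟨D₀, e⟩ := by
    intro ξ hξ
    obtain ⟨θ, hθ⟩ := IsPBlock.nonempty hPr hb.1
    refine (ker_transfer hM hD₀ hCH (hDH.trans Subgroup.le_normalizer) hb.1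
      (isInv_ext_of_le hPr hDH hb.1) (not_mem_of_sub_one hPr (hl ξ hξ))
      (L := piCoreOf {q | q ∉ π} (Subgroup.centralizer (D₀ : Set G))) hHL (hDH.trans hHL)
      (not_dvd_card_core _ hp _) hθ).mp ?_
    intro h hh
    have h2 := Helper30Trans.piCoreOf_le _ _ hh
    exact hkerb ⟨(h : G), h2⟩ (mem_piCore_of_coe hh) θ hθ h rfl
  have hcomp : Compl {q | q ∉ π} D₀ := by
    intro y hy hyσ
    have := hcompl ⟨y, hy⟩ (by
      intro q hq hd
      rw [Subgroup.orderOf_mk] at hd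
      exact hyσ q hq hd)
    exact Subgroup.mem_map_of_mem _ this
  obtain ⟨hDp, eD, hmax, hlD⟩ := exists_top_pair hM hBD hB₁ hB₁D
  obtain ⟨x, hx⟩ := exists_conj_le_maximal hM hmax (a := ⟨D₀, e⟩) hpair
  have hgD := (good_up hM hp hx (good_cj hgood x) (compl_cj hcomp x)).1
  intro n hn χ hχ
  exact (good_top_iff hM hp hDp hB₁.1 hmax.1.1.2 hlD).mp hgD χ hχ n (Subgroup.mem_map_of_mem _ hn)

end Cfsg.Agent.S4728
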