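import Cfsg.Statements.S4730
import Cfsg.Agent.Lib.Helper4Burnside
import Cfsg.Agent.Lib.Helper81Defect
import Cfsg.Agent.Lib.Helper82Irr

set_option autoImplicit false
set_option linter.unusedSectionVars false
set_option linter.unusedVariables false
open Cfsg

namespace Cfsg.Agent.S4730

open Cfsg.Agent.Lib.Helper81Local Cfsg.Agent.Lib.Helper81Defect Cfsg.Agent.Lib.Helper82Irr
open Cfsg.Agent.Lib.Helper4Eigen Cfsg.Agent.Lib.Helper4Burnside

variable {G : Type*} [Group G] [Finite G] (p : ℕ) [Fact p.Prime]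

/-- a faithful irreducible character of `p`-power degree of a group with trivial centre vanishes
on nonidentity elements whose class size is prime to `p`. -/
theorem vanish (hZ : Subgroup.center G = ⊥) (χ : Cfsg.IrrCharacter G)
    (hfaith : ∀ g : G, (χ : G → ℂ) g = (χ : G → ℂ) 1 → g = 1) (n : ℕ)
    (hdeg : Cfsg.charDegree (χ : G → ℂ) = p ^ n) (z : G) (hz : z ≠ 1)
    (hidx : ¬ p ∣ (Subgroup.centralizer ({z} : Set G)).index) : (χ : G → ℂ) z = 0 := by
  classical
  obtain ⟨d, ρ, hirr, hχ⟩ := χ.2
  have hfin : Module.finrank ℂ (Fin d → ℂ) = d := by simp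
  have hd : d = p ^ n := by
    rw [← hdeg, Cfsg.charDegree, ← hχ, Representation.char_one]
    simp
  have hcop : Nat.Coprime (Module.finrank ℂ (Fin d → ℂ))
      (Subgroup.centralizer ({z} : Set G)).index := by
    rw [hfin, hd]
    exact Nat.Coprime.pow_left n ((Nat.Prime.coprime_iff_not_dvd (Fact.out : p.Prime)).mpr hidx)
  rcases char_eq_zero_or_norm_eq_of_coprime ρ z hcop with h | h
  · rw [← hχ]; exact h
  · exfalso
    obtain ⟨ω, hω⟩ := (norm_char_eq_finrank_iff ρ z).mp h
    have hinj : Function.Injective ρ := by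
      rw [injective_iff_map_eq_one]
      intro g hg
      apply hfaith
      rw [← hχ, Representation.char_one]
      exact (char_eq_finrank_iff ρ g).2 hg
    apply hz
    have : z ∈ Subgroup.center G := by
      rw [Subgroup.mem_center_iff]
      intro h
      apply hinj
      rw [map_mul, map_mul, hω]
      ext v
      simp
    rw [hZ] at this
    exact Subgroup.mem_bot.1 this

theorem le_factorization (M : Ideal Cfsg.AlgInt) (hM : Cfsg.IsPModular p M)
    (χ ψ : Cfsg.IrrCharacter G) (hψ : Cfsg.SameBlock M (χ : G → ℂ) (ψ : G → ℂ))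
    (H : Subgroup G) (b : ℕ) (hH : Nat.card H = p ^ b)
    (h0 : ∀ u ∈ H, u ≠ 1 → (χ : G → ℂ) u = 0)
    (hidx : ∀ u ∈ H, ¬ p ∣ (Subgroup.centralizer ({u} : Set G)).index) :
    b ≤ (Cfsg.charDegree (ψ : G → ℂ)).factorization p := by
  classical
  have hprime := hM.2.1.isPrime
  let _ : Fintype G := Fintype.ofFinite G
  let _ : Fintype H := Fintype.ofFinite H
  obtain ⟨m, hm⟩ := Cfsg.Agent.Lib.Helper81Orth2.sum_subgroup ψ H
  have hψ1 : (ψ : G → ℂ) 1 ≠ 0 := by
    rw [← irr_charDegree_cast]
    exact_mod_cast (irr_charDegree_pos ψ).ne'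
  have hmem : ∀ u : H, u ≠ 1 → MemLocalIdeal M ((ψ : G → ℂ) u / (ψ : G → ℂ) 1) := by
    intro u hu
    have hu' : (u : G) ≠ 1 := fun h => hu (Subtype.ext h)
    have h1 := hψ (u : G)
    rw [Cfsg.centralChar, Cfsg.centralChar, h0 u u.2 hu', mul_zero, zero_div, zero_sub] at h1
    have h2 := memLocalIdeal_neg h1
    rw [neg_neg] at h2
    have h3 : ¬ MemLocalIdeal M (((Subgroup.centralizer ({(u : G)} : Set G)).index : ℕ) : ℂ) := by
      rw [memLocalIdeal_natCast_iff hM]
      exact hidx u u.2
    have h4 := memLocalRing_inv (memLocalRing_natCast _) h3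
    have h5 := memLocalIdeal_mul h4 h2
    have hne : (((Subgroup.centralizer ({(u : G)} : Set G)).index : ℕ) : ℂ) ≠ 0 := by
      intro h
      apply h3
      rw [h]
      exact memLocalIdeal_zero
    have h6 : (((Subgroup.centralizer ({(u : G)} : Set G)).index : ℕ) : ℂ)⁻¹ *
        ((((Subgroup.centralizer ({(u : G)} : Set G)).index : ℕ) : ℂ) * (ψ : G → ℂ) u /
          (ψ : G → ℂ) 1) = (ψ : G → ℂ) u / (ψ : G → ℂ) 1 := by
      field_simp
    rwa [h6] at h5
  set w : ℂ := ∑ u ∈ Finset.univ.erase (1 : H), (ψ : G → ℂ) u / (ψ : G → ℂ) 1 with hw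
  have hwI : MemLocalIdeal M w :=
    memLocalIdeal_sum _ _ (fun u hu => hmem u (Finset.ne_of_mem_erase hu))
  have hsum : (Nat.card H : ℂ) * m = (ψ : G → ℂ) 1 * (1 + w) := by
    rw [← hm, ← Finset.add_sum_erase Finset.univ _ (Finset.mem_univ (1 : H)), hw, mul_add, mul_one,
      Finset.mul_sum]
    congr 1
    refine Finset.sum_congr rfl fun u _ => ?_
    field_simp
  have h1w : ¬ MemLocalIdeal M (1 + w) := by
    intro h
    apply not_memLocalIdeal_one (M := M)
    have := memLocalIdeal_sub h hwI
    simpa using this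
  have h1wR : MemLocalRing M (1 + w) := by
    have h1 : MemLocalRing M (1 : ℂ) := by simpa using memLocalRing_natCast (M := M) 1
    exact memLocalRing_add h1 (MemLocalIdeal.memLocalRing hwI)
  have hinv := memLocalRing_inv h1wR h1w
  have hne : (1 + w) ≠ 0 := by
    intro h
    apply h1w
    rw [h]
    exact memLocalIdeal_zero
  have heq : ((Cfsg.charDegree (ψ : G → ℂ) : ℕ) : ℂ) = ((Nat.card H * m : ℕ) : ℂ) * (1 + w)⁻¹ := by
    rw [irr_charDegree_cast]
    push_cast
    rw [hsum]
    field_simp
  have hle := factorization_le_of_eq_mul hM (irr_charDegree_pos ψ).ne' hinv heq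
  have hm0 : m ≠ 0 := by
    rintro rfl
    rw [Nat.cast_zero, mul_zero] at hsum
    exact (mul_ne_zero hψ1 hne) hsum.symm
  rw [hH, Nat.factorization_mul (pow_pos (Fact.out : p.Prime).pos b).ne' hm0,
    Nat.Prime.factorization_pow (Fact.out : p.Prime)] at hle
  simp only [Finsupp.coe_add, Pi.add_apply, Finsupp.single_eq_same] at hle
  omega

/-- Let p be a prime, M a maximal ideal of the algebraic integers containing p, and G a finite group with trivial centre, Sylow p-subgroup P of order p^a and centre Z(P) of order p^b. If χ is a faithful irreducible character of G whose degree is a power of p, then the p-block of χ has defect at most a − b; in particular, if P is abelian then χ lies in a block of defect zero. -/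
theorem result {G : Type*} [Group G] [Finite G] (p : ℕ) [Fact p.Prime] (M : Ideal Cfsg.AlgInt) (hM : Cfsg.IsPModular p M) (hZ : Subgroup.center G = ⊥) (P : Sylow p G) (a b : ℕ) (ha : Nat.card P = p ^ a) (hb : Nat.card (Subgroup.center ↥(P : Subgroup G)) = p ^ b) (χ : Cfsg.IrrCharacter G) (hfaith : ∀ g : G, (χ : G → ℂ) g = (χ : G → ℂ) 1 → g = 1) (n : ℕ) (hdeg : Cfsg.charDegree (χ : G → ℂ) = p ^ n) : Cfsg.blockDefect p (Cfsg.blockOf M (χ : G → ℂ)) ≤ a - b ∧ (IsMulCommutative ↥(P : Subgroup G) → Cfsg.blockDefect p (Cfsg.blockOf M (χ : G → ℂ)) = 0) := by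
  classical
  have hprime := hM.2.1.isPrime
  have hp : p.Prime := Fact.out
  set H : Subgroup G := (Subgroup.center ↥(P : Subgroup G)).map (P : Subgroup G).subtype with hH
  have hHcard : Nat.card H = p ^ b := by
    rw [hH, Subgroup.card_map_of_injective (Subgroup.subtype_injective _), hb]
  have hidx : ∀ u ∈ H, ¬ p ∣ (Subgroup.centralizer ({u} : Set G)).index := by
    intro u hu hdvd
    obtain ⟨c, hc, rfl⟩ := hu
    have hle : (P : Subgroup G) ≤ Subgroup.centralizer ({((P : Subgroup G).subtype c)} : Set G) := by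
      intro x hx
      rw [Subgroup.mem_centralizer_singleton_iff]
      have := Subgroup.mem_center_iff.1 hc ⟨x, hx⟩
      exact congrArg Subtype.val this
    exact P.not_dvd_index (hdvd.trans (Subgroup.index_dvd_of_le hle))
  have h0 : ∀ u ∈ H, u ≠ 1 → (χ : G → ℂ) u = 0 := fun u hu hu1 =>
    vanish p hZ χ hfaith n hdeg u hu1 (hidx u hu)
  have ha' : (Nat.card G).factorization p = a := by
    have := P.card_eq_multiplicity
    rw [ha] at this
    exact (Nat.pow_right_injective hp.two_le this).symm
  have hχB : χ ∈ Cfsg.blockOf M (χ : G → ℂ) := by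
    intro g
    rw [sub_self]
    exact memLocalIdeal_zero
  have hmain : Cfsg.blockDefect p (Cfsg.blockOf M (χ : G → ℂ)) ≤ a - b := by
    rw [blockDefect_def, ha']
    obtain ⟨ψ, hψ, hψe⟩ := exists_minVal (p := p) ⟨χ, hχB⟩
    have := le_factorization p M hM χ ψ hψ H b hHcard h0 hidx
    omega
  refine ⟨hmain, fun hcomm => ?_⟩
  have htop : Subgroup.center ↥(P : Subgroup G) = ⊤ := by
    rw [eq_top_iff]
    intro x _
    rw [Subgroup.mem_center_iff]
    intro y
    exact hcomm.is_comm.comm y x
  rw [htop, Subgroup.card_top, ha] at hb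
  have hab : a = b := Nat.pow_right_injective hp.two_le hb
  omega

end Cfsg.Agent.S4730
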