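import Cfsg.Statements.S4731
import Cfsg.Agent.Lib.Helper81Defect

set_option autoImplicit false
open Cfsg

namespace Cfsg.Agent.S4731

open Cfsg.Agent.Lib.Helper81Local Cfsg.Agent.Lib.Helper81Base Cfsg.Agent.Lib.Helper81BB
  Cfsg.Agent.Lib.Helper81Block Cfsg.Agent.Lib.Helper81Orth Cfsg.Agent.Lib.Helper81Orth2
  Cfsg.Agent.Lib.Helper81Defect

/-- Let p ≠ q be primes, M_p and M_q maximal ideals of the algebraic integers containing p and q respectively, and G a finite group with no element of order pq; let q^b be the q-part of the order of G. For a p-block B_p (relative to M_p), a q-block B_q (relative to M_q) and a p-singular element y, the sum of χ(1)χ(y) over the irreducible characters χ lying in both B_p and B_q is q^b times an algebraic integer. -/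
theorem result {G : Type*} [Group G] [Finite G] (p q : ℕ) [Fact p.Prime] [Fact q.Prime] (hpq : p ≠ q) (Mp Mq : Ideal Cfsg.AlgInt) (hMp : Cfsg.IsPModular p Mp) (hMq : Cfsg.IsPModular q Mq) (hno : ∀ g : G, orderOf g ≠ p * q) (b : ℕ) (hb : (Nat.card G).factorization q = b) (Bp : Set (Cfsg.IrrCharacter G)) (hBp : Cfsg.IsPBlock Mp Bp) (Bq : Set (Cfsg.IrrCharacter G)) (hBq : Cfsg.IsPBlock Mq Bq) (y : G) (hy : p ∣ orderOf y) : ∃ ω : Cfsg.AlgInt, ∑ᶠ χ ∈ Bp ∩ Bq, (Cfsg.charDegree (χ : G → ℂ) : ℂ) * (χ : G → ℂ) y = (q : ℂ) ^ b * (ω : ℂ) := by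
  classical
  have hfin := Fintype.ofFinite G
  have hp := hMp.1
  have hq := hMq.1
  -- every q-singular element is p-regular
  have hreg : ∀ g : G, q ∣ orderOf g → ¬ p ∣ orderOf g := by
    intro g hqg hpg
    have hcop : Nat.Coprime p q := (Nat.coprime_primes hp hq).2 hpq
    have hd : p * q ∣ orderOf g := hcop.mul_dvd_of_dvd_of_dvd hpg hqg
    exact hno _ (orderOf_pow_orderOf_div (orderOf_pos g).ne' hd)
  have hy' : p ∣ orderOf y⁻¹ := by rwa [orderOf_inv]
  set F : G → ℂ := fun u => ∑ χ : Cfsg.IrrCharacter G,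
    (if χ ∈ Bp then (if χ ∈ Bq then (χ : G → ℂ) y * (χ : G → ℂ) u else 0) else 0) with hF
  have h0 := card_ne_zero (G := G)
  have hFu : ∀ u : G, q ∣ orderOf u → F u = 0 := by
    intro u hu
    have key : (Nat.card G : ℂ) * F u = ∑ g, delta Bp g y⁻¹ * delta Bq u g := by
      have h1 : ∀ g, delta Bp g y⁻¹ * delta Bq u g = ∑ χ : Cfsg.IrrCharacter G,
          (if χ ∈ Bp then (χ : G → ℂ) y * ((χ : G → ℂ) g * delta Bq u g) else 0) := by
        intro g
        unfold delta
        rw [Finset.sum_mul]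
        apply Finset.sum_congr rfl
        intro χ _
        split_ifs
        · rw [← irr_inv, inv_inv]; ring
        · simp
      rw [Finset.sum_congr rfl fun g _ => h1 g, Finset.sum_comm, hF, Finset.mul_sum]
      apply Finset.sum_congr rfl
      intro χ _
      split_ifs with h1 h2
      · rw [← Finset.mul_sum, sum_delta_mul, if_pos h2]; ring
      · rw [← Finset.mul_sum, sum_delta_mul, if_neg h2]; ring
      · simp
    have hz : ∑ g, delta Bp g y⁻¹ * delta Bq u g = 0 := by
      apply Finset.sum_eq_zero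
      intro g _
      by_cases hg : q ∣ orderOf g
      · have : delta Bp g y⁻¹ = 0 := weak_block_orth hMp hBp (hreg g hg) hy'
        rw [this, zero_mul]
      · have : delta Bq g u = 0 := weak_block_orth hMq hBq hg hu
        have h3 : delta Bq u g = 0 := by rw [← delta_conj, this, map_zero]
        rw [h3, mul_zero]
    rw [hz] at key
    rcases mul_eq_zero.mp key with h | h
    · exact absurd h h0
    · exact h
  obtain ⟨Q⟩ : Nonempty (Sylow q G) := inferInstance
  have hfQ : Fintype (Q : Subgroup G) := Fintype.ofFinite _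
  have hQcard : Nat.card (Q : Subgroup G) = q ^ b := by
    rw [Sylow.card_eq_multiplicity, hb]
  have hsum1 : ∑ u : (Q : Subgroup G), F u = F 1 := by
    rw [Finset.sum_eq_single (1 : (Q : Subgroup G))]
    · rfl
    · intro u _ hu
      apply hFu
      obtain ⟨k, hk⟩ := (Q.2 : IsPGroup q (Q : Subgroup G)) u
      have hk' : orderOf u ∣ q ^ k := orderOf_dvd_of_pow_eq_one hk
      obtain ⟨j, _, hj⟩ := (Nat.dvd_prime_pow hq).mp hk'
      rw [Subgroup.orderOf_coe, hj]
      rcases Nat.eq_zero_or_pos j with h0 | h0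
      · subst h0
        rw [pow_zero, orderOf_eq_one_iff] at hj
        exact absurd hj hu
      · exact dvd_pow_self q h0.ne'
    · intro h
      exact absurd (Finset.mem_univ _) h
  choose n hn using fun χ : Cfsg.IrrCharacter G => sum_subgroup χ (Q : Subgroup G)
  have hsum2 : ∑ u : (Q : Subgroup G), F u = (q : ℂ) ^ b * ∑ χ : Cfsg.IrrCharacter G,
      (if χ ∈ Bp then (if χ ∈ Bq then (n χ : ℂ) * (χ : G → ℂ) y else 0) else 0) := by
    rw [hF]
    simp only []
    rw [Finset.sum_comm, Finset.mul_sum]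
    apply Finset.sum_congr rfl
    intro χ _
    split_ifs
    · rw [← Finset.mul_sum, hn, hQcard]
      push_cast
      ring
    · simp
    · simp
  have hint : IsIntegral ℤ (∑ χ : Cfsg.IrrCharacter G,
      (if χ ∈ Bp then (if χ ∈ Bq then (n χ : ℂ) * (χ : G → ℂ) y else 0) else 0)) := by
    apply IsIntegral.sum
    intro χ _
    split_ifs
    · exact (isIntegral_natCast (n χ)).mul (irr_integral χ y)
    · exact isIntegral_zero
    · exact isIntegral_zero
  refine ⟨⟨_, hint⟩, ?_⟩
  rw [finsum_mem_irr]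
  simp only []
  rw [← hsum2, hsum1, hF]
  apply Finset.sum_congr rfl
  intro χ _
  by_cases h1 : χ ∈ Bp
  · by_cases h2 : χ ∈ Bq
    · have h3 : χ ∈ Bp ∩ Bq := ⟨h1, h2⟩
      rw [if_pos h3, if_pos h1, if_pos h2, charDegree_eq]; ring
    · have h3 : χ ∉ Bp ∩ Bq := fun h => h2 h.2
      rw [if_neg h3, if_pos h1, if_neg h2]
  · have h3 : χ ∉ Bp ∩ Bq := fun h => h1 h.1
    rw [if_neg h3, if_neg h1]

end Cfsg.Agent.S4731
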