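import Cfsg.Statements.S4956
import Mathlib

set_option autoImplicit false
open Cfsg

namespace Cfsg.Agent.S4956

theorem avg {A : Type*} [Group A] [Finite A] (hcomm : ∀ a b : A, a * b = b * a) (α : MulAut A) (m : ℕ)
    (hm : (Nat.card A).Coprime m) (hα : α ^ m = 1) (u : A) :
    ∃ c w : A, α c = c ∧ u = c * w * (α w)⁻¹ := by
  let _ : CommGroup A := { (inferInstance : Group A) with mul_comm := hcomm }
  let N : ℕ → A := fun k => ∏ i ∈ Finset.range k, (α ^ i) u
  have hN1 : ∀ k, N (k+1) = α (N k) * u := by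
    intro k
    simp only [N]
    rw [Finset.prod_range_succ', map_prod]
    simp [pow_succ', MulAut.mul_apply]
  have hN2 : ∀ k, N (k+1) = N k * (α ^ k) u := fun k => Finset.prod_range_succ _ _
  have hNm : α (N m) = N m := by
    have := (hN1 m).symm.trans (hN2 m)
    rw [hα] at this
    simpa using this
  let z : A := ∏ k ∈ Finset.range m, N k
  have hz : α z * u ^ m = z * N m := by
    have h1 : α z * u ^ m = ∏ k ∈ Finset.range m, N (k+1) := by
      simp only [z, hN1]
      rw [map_prod, Finset.prod_mul_distrib, Finset.prod_const, Finset.card_range]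
    have h2 : (∏ k ∈ Finset.range m, N (k+1)) * N 0 = z * N m := by
      rw [← Finset.prod_range_succ', Finset.prod_range_succ]
    have h3 : N 0 = 1 := by simp [N]
    rw [h1, ← h2, h3, mul_one]
  have hinj : ∀ a b : A, a ^ m = b ^ m → a = b := fun a b h =>
    (powCoprime hm).injective (by simpa only [powCoprime_apply] using h)
  obtain ⟨c, hc⟩ : ∃ c, c ^ m = N m :=
    ⟨(powCoprime hm).symm (N m), by rw [← powCoprime_apply hm, Equiv.apply_symm_apply]⟩
  obtain ⟨w, hw⟩ : ∃ w, w ^ m = z :=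
    ⟨(powCoprime hm).symm z, by rw [← powCoprime_apply hm, Equiv.apply_symm_apply]⟩
  refine ⟨c, w, ?_, ?_⟩
  · apply hinj
    rw [← map_pow, hc, hNm]
  · apply hinj
    rw [mul_pow, mul_pow, inv_pow, ← map_pow, hc, hw]
    rw [eq_mul_inv_iff_mul_eq, mul_comm, hz, mul_comm]

/-- Let X be a finite group, V an abelian normal subgroup of X (any two elements of V commute) and G a complement to V in X whose order is coprime to that of V. Let S be a set of representatives of the orbits of G on V under conjugation: S lies in V and every element of V is conjugate under G to exactly one member of S. Then the number of conjugacy classes of X equals the sum, over s in S, of the number of conjugacy classes of the centralizer of s in G. -/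
theorem result {X : Type*} [Group X] [Finite X] (V : Subgroup X) [V.Normal] (hab : ∀ a ∈ V, ∀ b ∈ V, a * b = b * a) (G : Subgroup X) (hGV : Subgroup.IsComplement' V G) (hcop : (Nat.card V).Coprime (Nat.card G)) (S : Finset X) (hSV : ∀ s ∈ S, s ∈ V) (hrep : ∀ v ∈ V, ∃! s, s ∈ S ∧ ∃ g ∈ G, g * v * g⁻¹ = s) : Nat.card (ConjClasses X) = ∑ s ∈ S, Nat.card (ConjClasses ↥(G ⊓ Subgroup.centralizer ({s} : Set X))) := by
  classical
  have hVn : V.Normal := inferInstance
  have hdec : ∀ x : X, ∃ u ∈ V, ∃ g ∈ G, x = u * g := by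
    intro x
    obtain ⟨⟨⟨u, hu⟩, ⟨g, hg⟩⟩, h⟩ := hGV.2 x
    exact ⟨u, hu, g, hg, h.symm⟩
  have hdisj : ∀ x, x ∈ V → x ∈ G → x = 1 := by
    intro x hxV hxG
    exact (Subgroup.disjoint_def.mp hGV.disjoint) hxV hxG
  obtain ⟨e, he1, he0⟩ := Nat.chineseRemainder hcop 1 0
  have hpow : ∀ s ∈ V, ∀ h ∈ G, s * h = h * s → (s * h) ^ e = s := by
    intro s hs h hh hc
    rw [(show Commute s h from hc).mul_pow]
    have h1 : s ^ e = s ^ 1 :=
      pow_eq_pow_iff_modEq.mpr (he1.of_dvd (Subgroup.orderOf_dvd_natCard V hs))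
    have h2 : h ^ e = h ^ 0 :=
      pow_eq_pow_iff_modEq.mpr (he0.of_dvd (Subgroup.orderOf_dvd_natCard G hh))
    rw [h1, h2]; simp
  have hmemC : ∀ (s c : X), c ∈ G ⊓ Subgroup.centralizer ({s} : Set X) ↔ c ∈ G ∧ s * c = c * s := by
    intro s c
    rw [Subgroup.mem_inf, Subgroup.mem_centralizer_iff]
    simp
  let Φ : (Σ s : S, ConjClasses ↥(G ⊓ Subgroup.centralizer ({(s : X)} : Set X))) → ConjClasses X :=
    fun p => Quotient.lift
      (fun h : ↥(G ⊓ Subgroup.centralizer ({(p.1 : X)} : Set X)) => ConjClasses.mk ((p.1 : X) * (h : X)))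
      (by
        intro h h' hh
        obtain ⟨c, hc⟩ := isConj_iff.mp (show IsConj h h' from hh)
        apply ConjClasses.mk_eq_mk_iff_isConj.mpr
        apply isConj_iff.mpr
        refine ⟨(c : X), ?_⟩
        have hc' : (c : X) * h * (c : X)⁻¹ = h' := by
          have := congrArg Subtype.val hc
          simpa using this
        have hcs := ((hmemC _ _).mp c.2).2
        rw [← hc']
        calc (c : X) * ((p.1 : X) * (h : X)) * (c : X)⁻¹
            = ((c : X) * (p.1 : X)) * (h : X) * (c : X)⁻¹ := by group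
          _ = ((p.1 : X) * (c : X)) * (h : X) * (c : X)⁻¹ := by rw [hcs]
          _ = _ := by group) p.2
  have hinj : Function.Injective Φ := by
    rintro ⟨⟨s, hs⟩, c⟩ ⟨⟨s', hs'⟩, c'⟩ hΦ
    induction c using Quotient.inductionOn with
    | h h =>
    induction c' using Quotient.inductionOn with
    | h h' =>
    have hΦ' : ConjClasses.mk (s * (h : X)) = ConjClasses.mk (s' * (h' : X)) := hΦ
    obtain ⟨t, ht⟩ := isConj_iff.mp (ConjClasses.mk_eq_mk_iff_isConj.mp hΦ')
    obtain ⟨hhG, hhs⟩ := (hmemC _ _).mp h.2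
    obtain ⟨hhG', hhs'⟩ := (hmemC _ _).mp h'.2
    have h1 : t * s * t⁻¹ = s' := by
      have := congrArg (· ^ e) ht
      simp only [conj_pow] at this
      rwa [hpow s (hSV s hs) h hhG hhs, hpow s' (hSV s' hs') h' hhG' hhs'] at this
    have h2 : t * h * t⁻¹ = h' := by
      have : (t * s * t⁻¹) * (t * h * t⁻¹) = s' * h' := by rw [← ht]; group
      rw [h1] at this
      exact mul_left_cancel this
    obtain ⟨u, hu, g, hg, rfl⟩ := hdec t
    have h3 : g * s * g⁻¹ = s' := by
      have hV1 : g * s * g⁻¹ ∈ V := hVn.conj_mem _ (hSV s hs) g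
      have : u * (g * s * g⁻¹) * u⁻¹ = s' := by rw [← h1]; group
      rw [hab u hu _ hV1] at this
      simpa using this
    obtain rfl : s = s' := by
      obtain ⟨s0, _, huniq⟩ := hrep s (hSV s hs)
      rw [huniq s ⟨hs, 1, G.one_mem, by simp⟩, huniq s' ⟨hs', g, hg, h3⟩]
    have h4 : g * h * g⁻¹ = h' := by
      have hV2 : u⁻¹ * ((h' : X) * u * (h' : X)⁻¹) ∈ V :=
        V.mul_mem (V.inv_mem hu) (hVn.conj_mem _ hu _)
      have hG2 : g * h * g⁻¹ * (h' : X)⁻¹ ∈ G :=
        G.mul_mem (G.mul_mem (G.mul_mem hg hhG) (G.inv_mem hg)) (G.inv_mem hhG')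
      have heq : g * h * g⁻¹ * (h' : X)⁻¹ = u⁻¹ * ((h' : X) * u * (h' : X)⁻¹) := by
        rw [← h2]; group
      have := hdisj _ (heq ▸ hV2) hG2
      exact mul_inv_eq_one.mp this
    have hgC : g ∈ G ⊓ Subgroup.centralizer ({s} : Set X) := by
      rw [hmemC]
      refine ⟨hg, ?_⟩
      have := h3
      rw [mul_inv_eq_iff_eq_mul] at this
      exact this.symm
    congr 1
    apply Quotient.sound
    apply isConj_iff.mpr
    refine ⟨⟨g, hgC⟩, ?_⟩
    apply Subtype.ext
    simpa using h4
  have hsurj : Function.Surjective Φ := by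
    intro c
    induction c using Quotient.inductionOn with
    | h x =>
    obtain ⟨u, hu, g, hg, rfl⟩ := hdec x
    have hαm : (MulAut.conjNormal g : MulAut V) ^ (Nat.card G) = 1 := by
      rw [← map_pow]
      have : g ^ Nat.card G = 1 :=
        orderOf_dvd_iff_pow_eq_one.mp (Subgroup.orderOf_dvd_natCard G hg)
      rw [this, map_one]
    obtain ⟨c, w, hc, hw⟩ := avg (A := V) (fun a b => Subtype.ext (hab a a.2 b b.2))
      (MulAut.conjNormal g) (Nat.card G) hcop hαm ⟨u, hu⟩
    have hc' : g * (c : X) * g⁻¹ = c := by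
      have := congrArg Subtype.val hc
      simpa using this
    have hw' : u = (c : X) * w * (g * (w : X) * g⁻¹)⁻¹ := by
      have := congrArg Subtype.val hw
      simpa using this
    obtain ⟨s, ⟨hs, a, ha, has⟩, _⟩ := hrep c c.2
    have hmem : a * g * a⁻¹ ∈ G ⊓ Subgroup.centralizer ({s} : Set X) := by
      rw [hmemC]
      refine ⟨G.mul_mem (G.mul_mem ha hg) (G.inv_mem ha), ?_⟩
      rw [← has]
      have : (c : X) * g = g * c := by
        rw [mul_inv_eq_iff_eq_mul] at hc'
        exact hc'.symm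
      calc a * (c : X) * a⁻¹ * (a * g * a⁻¹) = a * ((c : X) * g) * a⁻¹ := by group
        _ = a * (g * (c : X)) * a⁻¹ := by rw [this]
        _ = _ := by group
    refine ⟨⟨⟨s, hs⟩, ConjClasses.mk ⟨a * g * a⁻¹, hmem⟩⟩, ?_⟩
    show ConjClasses.mk (s * (a * g * a⁻¹)) = ConjClasses.mk (u * g)
    apply ConjClasses.mk_eq_mk_iff_isConj.mpr
    apply isConj_iff.mpr
    refine ⟨(w : X) * a⁻¹, ?_⟩
    rw [← has, hw']
    have hwc : (w : X) * c = c * w := hab _ w.2 _ c.2
    group
    rw [hwc]
  have hcard := Nat.card_congr (Equiv.ofBijective Φ ⟨hinj, hsurj⟩)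
  rw [← hcard, Nat.card_sigma]
  exact Finset.sum_coe_sort S (fun s => Nat.card (ConjClasses ↥(G ⊓ Subgroup.centralizer ({s} : Set X))))

end Cfsg.Agent.S4956
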