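import Cfsg.Statements.S4958
import Cfsg.Agent.Lib.Helper84KnorrC
import Cfsg.Agent.S0169

set_option autoImplicit false
open Cfsg

namespace Cfsg.Agent.S4958

/-- Let X be a finite group and V a normal subgroup of X in which every element has order dividing the prime p, whose index in X is prime to p and which is its own centralizer in X; so V is an elementary abelian normal Sylow p-subgroup, and any complement G to V in X is a group of order prime to p acting faithfully on the vector space V by conjugation (the coprime linear setting of the k(GV) problem). Let G be a complement to V in X and suppose that for some v in V the centralizer of v in G is abelian. Then the number of conjugacy classes of X is at most the order of V (the abelian-stabilizer criterion for the k(GV) problem). -/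
theorem result {X : Type*} [Group X] [Finite X] (p : ℕ) [Fact p.Prime] (V : Subgroup X) [V.Normal] (hVexp : ∀ v ∈ V, v ^ p = 1) (hidx : ¬ p ∣ V.index) (hself : Subgroup.centralizer (V : Set X) = V) (G : Subgroup X) (hGV : Subgroup.IsComplement' V G) (v : X) (hv : v ∈ V) (hab : ∀ a ∈ G ⊓ Subgroup.centralizer ({v} : Set X), ∀ b ∈ G ⊓ Subgroup.centralizer ({v} : Set X), a * b = b * a) : Nat.card (ConjClasses X) ≤ Nat.card V := by
  classical
  have hp : p.Prime := Fact.out
  -- `V` is abelian
  have hVab : ∀ a ∈ V, ∀ b ∈ V, a * b = b * a := by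
    intro a ha b hb
    have : a ∈ Subgroup.centralizer (V : Set X) := by rw [hself]; exact ha
    exact (Subgroup.mem_centralizer_iff.mp this b hb).symm
  set Hs : Subgroup X := G ⊓ Subgroup.centralizer ({v} : Set X) with hHs
  letI iVc : CommGroup V := { (inferInstance : Group V) with
    mul_comm := fun a b => Subtype.ext (hVab a a.2 b b.2) }
  letI iHc : CommGroup Hs := { (inferInstance : Group Hs) with
    mul_comm := fun a b => Subtype.ext (hab a a.2 b b.2) }
  let φ : Hs →* MulAut V := (MulAut.conjNormal (H := V)).comp Hs.subtype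
  have hφ : ∀ (h : Hs) (x : V), V.subtype (φ h x) = Hs.subtype h * V.subtype x * (Hs.subtype h)⁻¹ := by
    intro h x
    exact MulAut.conjNormal_apply (h : X) x
  have hcardG : Nat.card G = V.index := by
    have h1 := hGV.card_mul_card
    have h2 := V.card_mul_index
    have hV0 : 0 < Nat.card V := Nat.card_pos
    have : Nat.card V * Nat.card G = Nat.card V * V.index := by rw [h1, h2]
    exact Nat.eq_of_mul_eq_mul_left hV0 this
  have hpG : ¬ p ∣ Nat.card G := by rw [hcardG]; exact hidx
  have hHsG : Nat.card Hs ∣ Nat.card G := Subgroup.card_dvd_of_le inf_le_left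
  have hpH : ¬ p ∣ Nat.card Hs := fun h => hpG (h.trans hHsG)
  have hVp : IsPGroup p V := by
    intro x
    refine ⟨1, ?_⟩
    rw [pow_one]
    exact Subtype.ext (hVexp x x.2)
  have hcop : (Nat.card Hs).Coprime (Nat.card V) := by
    obtain ⟨n, hn⟩ := hVp.exists_card_eq
    rw [hn]
    exact (Nat.Coprime.pow_left n ((hp.coprime_iff_not_dvd).mpr hpH)).symm
  have hdisj : ∀ x, x ∈ V → x ∈ G → x = 1 := by
    intro x hx1 hx2
    have := hGV.disjoint.le_bot ⟨hx1, hx2⟩
    exact this
  refine Cfsg.Agent.Lib.Helper84KnorrC.main p V.subtype Hs.subtype φ hφ V.subtype_injective v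
    (hVexp v hv) ?_ ?_ hcop hpH ?_ ?_
  · intro h
    have := h.2.2
    exact (Subgroup.mem_centralizer_singleton_iff.mp this)
  · intro c hc
    have hsup : c ∈ (V ⊔ G : Subgroup X) := by rw [hGV.sup_eq_top]; exact Subgroup.mem_top _
    rw [Subgroup.mem_sup_of_normal_left] at hsup
    obtain ⟨u, hu, g, hg, rfl⟩ := hsup
    have hgv : g * v = v * g := by
      have h1 : u * g * v = v * (u * g) := hc
      have h2 : v * u = u * v := hVab v hv u hu
      have h3 : u * (g * v) = u * (v * g) := by
        rw [← mul_assoc, h1, ← mul_assoc, h2, mul_assoc]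
      exact mul_left_cancel h3
    exact ⟨⟨u, hu⟩, ⟨g, hg, Subgroup.mem_centralizer_singleton_iff.mpr hgv⟩, rfl⟩
  · rw [injective_iff_map_eq_one]
    intro h hh
    have h1 : (h : X) ∈ Subgroup.centralizer (V : Set X) := by
      rw [Subgroup.mem_centralizer_iff]
      intro x hx
      have h2 : φ h ⟨x, hx⟩ = ⟨x, hx⟩ := by rw [hh]; rfl
      have h3 : (h : X) * x * (h : X)⁻¹ = x := by
        have := congrArg Subtype.val h2
        rwa [show ((φ h ⟨x, hx⟩ : V) : X) = (h : X) * x * (h : X)⁻¹ from hφ h ⟨x, hx⟩] at this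
      rw [mul_inv_eq_iff_eq_mul] at h3
      exact h3.symm
    rw [hself] at h1
    exact Subtype.ext (hdisj _ h1 h.2.1)
  · intro χ
    obtain ⟨n, ρ, hirr, hρ⟩ := χ.2
    rintro ⟨m, hm⟩
    haveI := hirr
    have hdvd := Cfsg.Agent.S0169.result ρ V hVab
    have h1 : (χ : X → ℂ) 1 = (Module.finrank ℂ (Fin n → ℂ) : ℂ) := by
      rw [← hρ]
      simp [Representation.character]
    rw [h1] at hm
    have h2 : ((Module.finrank ℂ (Fin n → ℂ) : ℤ) : ℂ) = (((p : ℤ) * m : ℤ) : ℂ) := by
      push_cast; exact hm
    have h3 : (Module.finrank ℂ (Fin n → ℂ) : ℤ) = (p : ℤ) * m := by exact_mod_cast h2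
    have h4 : (p : ℤ) ∣ (Module.finrank ℂ (Fin n → ℂ) : ℤ) := ⟨m, h3⟩
    have h5 : p ∣ Module.finrank ℂ (Fin n → ℂ) := by exact_mod_cast h4
    exact hidx (h5.trans hdvd)

end Cfsg.Agent.S4958
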