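import Cfsg.Statements.S4965
import Mathlib

set_option autoImplicit false
open Cfsg

namespace Cfsg.Agent.S4965

/-- Let X be a finite group with an abelian normal subgroup V (any two elements of V commute), and let φ be the action of X ⧸ V on V induced by conjugation (well defined because V is abelian; the hypothesis hφ says that the class of x acts as conjugation by x). Then X has at most as many conjugacy classes as the semidirect product of V by X ⧸ V formed with this action: the split extension has the largest class number among extensions with the given action. -/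
theorem result {X : Type*} [Group X] [Finite X] (V : Subgroup X) [V.Normal] (hab : ∀ a ∈ V, ∀ b ∈ V, a * b = b * a) (φ : X ⧸ V →* MulAut ↥V) (hφ : ∀ (x : X) (v : ↥V), ((φ (QuotientGroup.mk x) v : ↥V) : X) = x * v * x⁻¹) : Nat.card (ConjClasses X) ≤ Nat.card (ConjClasses (SemidirectProduct ↥V (X ⧸ V) φ)) := by
  classical
  have : Finite (SemidirectProduct ↥V (X ⧸ V) φ) :=
    Finite.of_equiv _ SemidirectProduct.equivProd.symm
  -- base commuting pair over a pair of cosets
  let Pr : (X ⧸ V) × (X ⧸ V) → X × X → Prop := fun ab xy =>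
    Commute xy.1 xy.2 ∧ (QuotientGroup.mk xy.1 : X ⧸ V) = ab.1 ∧ (QuotientGroup.mk xy.2 : X ⧸ V) = ab.2
  let base : (X ⧸ V) × (X ⧸ V) → X × X := fun ab =>
    if h : ∃ xy, Pr ab xy then h.choose else (1, 1)
  have hbase : ∀ (x y : X), Commute x y →
      Pr (QuotientGroup.mk x, QuotientGroup.mk y) (base (QuotientGroup.mk x, QuotientGroup.mk y)) := by
    intro x y hxy
    have h : ∃ xy, Pr (QuotientGroup.mk x, QuotientGroup.mk y) xy := ⟨(x, y), hxy, rfl, rfl⟩
    simp only [base, dif_pos h]
    exact h.choose_spec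
  have hmem : ∀ (x x0 : X), (QuotientGroup.mk x0 : X ⧸ V) = QuotientGroup.mk x → x * x0⁻¹ ∈ V := by
    intro x x0 h
    have h1 : x0⁻¹ * x ∈ V := QuotientGroup.eq.mp h
    have := (inferInstance : V.Normal).conj_mem _ h1 x0
    have h2 : x0 * (x0⁻¹ * x) * x0⁻¹ = x * x0⁻¹ := by group
    rwa [h2] at this
  let F : {p : X × X // Commute p.1 p.2} →
      {p : SemidirectProduct ↥V (X ⧸ V) φ × SemidirectProduct ↥V (X ⧸ V) φ // Commute p.1 p.2} :=
    fun p =>
      ⟨(⟨⟨p.1.1 * (base (QuotientGroup.mk p.1.1, QuotientGroup.mk p.1.2)).1⁻¹,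
            hmem _ _ (hbase _ _ p.2).2.1⟩, QuotientGroup.mk p.1.1⟩,
        ⟨⟨p.1.2 * (base (QuotientGroup.mk p.1.1, QuotientGroup.mk p.1.2)).2⁻¹,
            hmem _ _ (hbase _ _ p.2).2.2⟩, QuotientGroup.mk p.1.2⟩), by
        obtain ⟨⟨x, y⟩, hxy⟩ := p
        obtain ⟨hc, h1, h2⟩ := hbase x y hxy
        set x0 := (base (QuotientGroup.mk x, QuotientGroup.mk y)).1 with hx0
        set y0 := (base (QuotientGroup.mk x, QuotientGroup.mk y)).2 with hy0
        simp only at hc h1 h2 hxy ⊢
        have hu : x * x0⁻¹ ∈ V := hmem _ _ h1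
        have hw : y * y0⁻¹ ∈ V := hmem _ _ h2
        apply SemidirectProduct.ext
        · apply Subtype.ext
          simp only [SemidirectProduct.mul_left, Subgroup.coe_mul]
          have hφx : ∀ v : ↥V, ((φ (QuotientGroup.mk x) v : ↥V) : X) = x0 * v * x0⁻¹ := by
            intro v; rw [← h1]; exact hφ x0 v
          have hφy : ∀ v : ↥V, ((φ (QuotientGroup.mk y) v : ↥V) : X) = y0 * v * y0⁻¹ := by
            intro v; rw [← h2]; exact hφ y0 v
          rw [hφx, hφy]
          simp only
          -- u x0 w x0⁻¹ = w y0 u y0⁻¹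
          have e1 : x * x0⁻¹ * (x0 * (y * y0⁻¹) * x0⁻¹) = x * y * (x0 * y0)⁻¹ := by group
          have e2 : y * y0⁻¹ * (y0 * (x * x0⁻¹) * y0⁻¹) = y * x * (y0 * x0)⁻¹ := by group
          rw [e1, e2, hxy.eq, hc.eq]
        · simp only [SemidirectProduct.mul_right]
          rw [← QuotientGroup.mk_mul, ← QuotientGroup.mk_mul, hxy.eq]⟩
  have hF : Function.Injective F := by
    rintro ⟨⟨x, y⟩, hxy⟩ ⟨⟨x', y'⟩, hxy'⟩ h
    have h' := congrArg Subtype.val h
    have ha := congrArg (fun q => q.1.right) h'
    have hb := congrArg (fun q => q.2.right) h'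
    have h1 := congrArg (fun q => (q.1.left : X)) h'
    have h3 := congrArg (fun q => (q.2.left : X)) h'
    simp only [F] at ha hb h1 h3
    rw [ha, hb] at h1 h3
    have hx : x = x' := mul_right_cancel h1
    have hy : y = y' := mul_right_cancel h3
    subst hx; subst hy; rfl
  have hle := Nat.card_le_card_of_injective F hF
  rw [card_comm_eq_card_conjClasses_mul_card, card_comm_eq_card_conjClasses_mul_card,
    SemidirectProduct.card, mul_comm (Nat.card ↥V), ← Subgroup.card_eq_card_quotient_mul_card_subgroup] at hle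
  exact Nat.le_of_mul_le_mul_right hle Nat.card_pos

end Cfsg.Agent.S4965
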