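import Cfsg.Statements.S4966
import Mathlib

set_option autoImplicit false
open Cfsg

namespace Cfsg.Agent.S4966

open LinearMap (BilinForm)

universe u

section general

variable {F : Type*} [Field F] {G : Type*} [Group G] {V : Type*} [AddCommGroup V] [Module F V]

def Inv (ρ : Representation F G V) (U : Submodule F V) : Prop := ∀ g : G, ∀ u ∈ U, ρ g u ∈ U

def Good (ρ : Representation F G V) (K : Submodule F V) : Prop :=
  ∃ A : BilinForm F V, (∀ x : V, A x x = 0) ∧
    (∀ g : G, ∀ x ∈ K, ∀ y ∈ K, A (ρ g x) (ρ g y) = A x y) ∧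
    (∀ x ∈ K, (∀ y ∈ K, A x y = 0) → x = 0)

def resRep (ρ : Representation F G V) (N : Submodule F V) (hN : Inv ρ N) : Representation F G N :=
  (Subrepresentation.mk N (fun g _ hv => hN g _ hv) : Subrepresentation ρ).toRepresentation

@[simp] theorem resRep_coe (ρ : Representation F G V) (N : Submodule F V) (hN : Inv ρ N) (g : G) (x : N) :
    ((resRep ρ N hN g x : N) : V) = ρ g x := rfl

theorem inv_move (ρ : Representation F G V) (B : BilinForm F V)
    (hBinv : ∀ g x y, B (ρ g x) (ρ g y) = B x y) (g : G) (x y : V) :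
    B x (ρ g y) = B (ρ g⁻¹ x) y := by
  have := hBinv g (ρ g⁻¹ x) y
  rw [← this, ← Module.End.mul_apply, ← map_mul]
  simp

theorem splitO [FiniteDimensional F V] (ρ : Representation F G V) (B : BilinForm F V)
    (hB : B.Nondegenerate) (hBinv : ∀ g x y, B (ρ g x) (ρ g y) = B x y) (H : Submodule F V)
    (hH : Inv ρ H) (hnd : ∀ y ∈ H, (∀ x ∈ H, B x y = 0) → y = 0) :
    IsCompl H (B.orthogonal H) ∧ Inv ρ (B.orthogonal H) ∧
      (B.restrict (B.orthogonal H)).Nondegenerate := by
  have hmem : ∀ y, y ∈ B.orthogonal H ↔ ∀ x ∈ H, B x y = 0 := by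
    intro y
    rw [LinearMap.BilinForm.mem_orthogonal_iff]
  have hdec : ∀ v : V, ∃ h ∈ H, v - h ∈ B.orthogonal H := by
    intro v
    have hnd' : (B.flip.restrict H).Nondegenerate := by
      apply LinearMap.BilinForm.Nondegenerate.ofSeparatingLeft
      intro y hy
      have := hnd y y.2 (fun x hx => hy ⟨x, hx⟩)
      exact Subtype.ext this
    let φ : Module.Dual F H := (B.flip v).comp H.subtype
    refine ⟨((B.flip.restrict H).toDual hnd').symm φ, Submodule.coe_mem _, ?_⟩
    rw [hmem]
    intro x hx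
    have := LinearMap.BilinForm.apply_toDual_symm_apply (hB := hnd') φ ⟨x, hx⟩
    have h2 : B x (((B.flip.restrict H).toDual hnd').symm φ : H) = B x v := this
    rw [map_sub, h2, sub_self]
  have hcompl : IsCompl H (B.orthogonal H) := by
    constructor
    · rw [Submodule.disjoint_def]
      intro x hx hx'
      exact hnd x hx ((hmem x).mp hx')
    · rw [codisjoint_iff, eq_top_iff]
      intro v _
      obtain ⟨h, hh, hv⟩ := hdec v
      have : v = h + (v - h) := by abel
      rw [this]
      exact Submodule.add_mem_sup hh hv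
  refine ⟨hcompl, ?_, ?_⟩
  · intro g y hy
    rw [hmem] at hy ⊢
    intro x hx
    rw [inv_move ρ B hBinv]
    exact hy _ (hH _ _ hx)
  · apply LinearMap.BilinForm.Nondegenerate.ofSeparatingRight
    intro y hy
    apply Subtype.ext
    apply hB.2
    intro v
    obtain ⟨h, hh, hv⟩ := hdec v
    have : v = h + (v - h) := by abel
    rw [this, map_add, LinearMap.add_apply, (hmem y).mp y.2 h hh, zero_add]
    exact hy ⟨v - h, hv⟩

theorem good_of_local (ρ : Representation F G V) (K : Submodule F V) (hK : Inv ρ K)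
    (A' : BilinForm F V) (h1 : ∀ x ∈ K, A' x x = 0)
    (h2 : ∀ g, ∀ x ∈ K, ∀ y ∈ K, A' (ρ g x) (ρ g y) = A' x y)
    (h3 : ∀ x ∈ K, (∀ y ∈ K, A' x y = 0) → x = 0) : Good ρ K := by
  obtain ⟨Q, hQ⟩ := Submodule.exists_isCompl K
  let π : V →ₗ[F] V := K.projection Q hQ
  have hπ : ∀ x ∈ K, π x = x := fun x hx => Submodule.projection_apply_of_mem_left hQ hx
  have hπK : ∀ x, π x ∈ K := fun x => Submodule.projection_apply_mem hQ x
  refine ⟨A'.comp π π, fun x => ?_, fun g x hx y hy => ?_, fun x hx hxy => ?_⟩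
  · rw [LinearMap.BilinForm.comp_apply]; exact h1 _ (hπK x)
  · simp only [LinearMap.BilinForm.comp_apply]
    rw [hπ _ (hK g x hx), hπ _ (hK g y hy), hπ x hx, hπ y hy]
    exact h2 g x hx y hy
  · apply h3 x hx
    intro y hy
    have := hxy y hy
    rwa [LinearMap.BilinForm.comp_apply, hπ x hx, hπ y hy] at this

theorem good_of_sub (ρ : Representation F G V) (N : Submodule F V) (hN : Inv ρ N)
    (h : Good (resRep ρ N hN) ⊤) : Good ρ N := by
  obtain ⟨A, h1, h2, h3⟩ := h
  obtain ⟨Q, hQ⟩ := Submodule.exists_isCompl N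
  let π : V →ₗ[F] N := N.projectionOnto Q hQ
  have hπ : ∀ (x : V) (hx : x ∈ N), π x = ⟨x, hx⟩ := fun x hx =>
    Submodule.projectionOnto_apply_of_mem_left hQ hx
  refine ⟨A.comp π π, fun x => ?_, fun g x hx y hy => ?_, fun x hx hxy => ?_⟩
  · rw [LinearMap.BilinForm.comp_apply]; exact h1 _
  · simp only [LinearMap.BilinForm.comp_apply]
    rw [hπ _ (hN g x hx), hπ _ (hN g y hy), hπ x hx, hπ y hy]
    exact h2 g ⟨x, hx⟩ trivial ⟨y, hy⟩ trivial
  · have := h3 ⟨x, hx⟩ trivial (fun y _ => by
      have := hxy y y.2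
      rwa [LinearMap.BilinForm.comp_apply, hπ x hx, hπ y y.2] at this)
    exact congrArg Subtype.val this

theorem good_top_of_isCompl (ρ : Representation F G V) (H N : Submodule F V) (hc : IsCompl H N)
    (hH : Inv ρ H) (hN : Inv ρ N) (gH : Good ρ H) (gN : Good ρ N) : Good ρ ⊤ := by
  obtain ⟨A, a1, a2, a3⟩ := gH
  obtain ⟨C, c1, c2, c3⟩ := gN
  let p : V →ₗ[F] V := H.projection N hc
  let q : V →ₗ[F] V := N.projection H hc.symm
  have hpH : ∀ x, p x ∈ H := fun x => Submodule.projection_apply_mem hc x
  have hqN : ∀ x, q x ∈ N := fun x => Submodule.projection_apply_mem hc.symm x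
  have hpq : ∀ x, p x + q x = x := fun x => Submodule.projection_add_projection_eq_self hc x
  have hp1 : ∀ x ∈ H, p x = x := fun x hx => Submodule.projection_apply_of_mem_left hc hx
  have hq1 : ∀ x ∈ N, q x = x := fun x hx => Submodule.projection_apply_of_mem_left hc.symm hx
  have hp0 : ∀ x ∈ N, p x = 0 := fun x hx => Submodule.projection_apply_of_mem_right hc hx
  have hq0 : ∀ x ∈ H, q x = 0 := fun x hx => Submodule.projection_apply_of_mem_right hc.symm hx
  have hpg : ∀ g x, p (ρ g x) = ρ g (p x) := by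
    intro g x
    conv_lhs => rw [← hpq x, map_add, map_add, hp1 _ (hH g _ (hpH x)), hp0 _ (hN g _ (hqN x)), add_zero]
  have hqg : ∀ g x, q (ρ g x) = ρ g (q x) := by
    intro g x
    conv_lhs => rw [← hpq x, map_add, map_add, hq0 _ (hH g _ (hpH x)), hq1 _ (hN g _ (hqN x)), zero_add]
  refine ⟨A.comp p p + C.comp q q, fun x => ?_, fun g x _ y _ => ?_, fun x _ hxy => ?_⟩
  · simp [LinearMap.BilinForm.comp_apply, a1, c1]
  · simp only [LinearMap.BilinForm.add_apply, LinearMap.BilinForm.comp_apply, hpg, hqg]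
    rw [a2 g _ (hpH x) _ (hpH y), c2 g _ (hqN x) _ (hqN y)]
  · have e1 : p x = 0 := by
      apply a3 _ (hpH x)
      intro y hy
      have := hxy y trivial
      simpa [LinearMap.BilinForm.comp_apply, hp1 y hy, hq0 y hy] using this
    have e2 : q x = 0 := by
      apply c3 _ (hqN x)
      intro y hy
      have := hxy y trivial
      simpa [LinearMap.BilinForm.comp_apply, hq1 y hy, hp0 y hy] using this
    rw [← hpq x, e1, e2, add_zero]

end general

section asym

variable {F : Type*} [Field F] {G : Type*} [Group G] {V : Type*} [AddCommGroup V] [Module F V]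
  [FiniteDimensional F V]

theorem exists_asym (ρ : Representation F G V) (B : BilinForm F V) (hB : B.Nondegenerate)
    (hBinv : ∀ g x y, B (ρ g x) (ρ g y) = B x y) :
    ∃ T : V →ₗ[F] V, (∀ v w, B (T w) v = B v w) ∧ (∀ v w, B (T v) (T w) = B v w) ∧
      (∀ g w, T (ρ g w) = ρ g (T w)) ∧ Function.Injective T := by
  let T := LinearMap.BilinForm.symmCompOfNondegenerate B.flip B hB
  have hT : ∀ v w, B (T w) v = B v w := fun v w =>
    LinearMap.BilinForm.symmCompOfNondegenerate_left_apply B.flip hB v w
  refine ⟨T, hT, fun v w => ?_, fun g w => ?_, ?_⟩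
  · rw [hT, hT]
  · rw [← sub_eq_zero]
    apply hB.1
    intro v
    rw [map_sub, LinearMap.sub_apply, hT, sub_eq_zero]
    have hv : ρ g (ρ g⁻¹ v) = v := by
      rw [← Module.End.mul_apply, ← map_mul]; simp
    have h1 : B (ρ g (T w)) v = B (ρ g (T w)) (ρ g (ρ g⁻¹ v)) := by rw [hv]
    rw [h1, hBinv, hT, ← inv_move ρ B hBinv]
  · rw [injective_iff_map_eq_zero]
    intro w hw
    apply hB.2
    intro v
    rw [← hT, hw]; simp

end asym

section char2

variable {F : Type*} [Field F] [CharP F 2] {G : Type*} [Group G] [Finite G] [NeZero (Nat.card G : F)]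
  {U : Type*} [AddCommGroup U] [Module F U] [FiniteDimensional F U]

theorem exists_inv_compl (ρ : Representation F G U) (P : Submodule F U) (hP : Inv ρ P) :
    ∃ Q : Submodule F U, Inv ρ Q ∧ IsCompl P Q := by
  obtain ⟨σ, hσ⟩ := exists_isCompl (Subrepresentation.mk P (fun g _ hv => hP g _ hv) : Subrepresentation ρ)
  refine ⟨σ.toSubmodule, fun g u hu => σ.apply_mem_toSubmodule g hu, ?_⟩
  constructor
  · rw [disjoint_iff]
    exact congrArg Subrepresentation.toSubmodule (disjoint_iff.mp hσ.1)
  · rw [codisjoint_iff]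
    exact congrArg Subrepresentation.toSubmodule (codisjoint_iff.mp hσ.2)

theorem exists_good_piece [Nontrivial U] (ρ : Representation F G U) (B : BilinForm F U)
    (hB : B.Nondegenerate) (hBinv : ∀ g x y, B (ρ g x) (ρ g y) = B x y)
    (hfix : ∀ x, (∀ g, ρ g x = x) → x = 0) :
    ∃ H : Submodule F U, H ≠ ⊥ ∧ Inv ρ H ∧ (∀ y ∈ H, (∀ x ∈ H, B x y = 0) → y = 0) ∧ Good ρ H := by
  obtain ⟨T, hT, hTiso, hTρ, hTinj⟩ := exists_asym ρ B hB hBinv
  let P : Submodule F U → Prop := fun M => M ≠ ⊥ ∧ Inv ρ M ∧ ∀ x ∈ M, T x ∈ M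
  obtain ⟨M, ⟨hM0, hMinv, hMT⟩, hMmin⟩ := exists_minimal_of_wellFoundedLT P
    ⟨⊤, top_ne_bot, fun _ _ _ => trivial, fun _ _ => trivial⟩
  have hmin : ∀ K : Submodule F U, K ≤ M → Inv ρ K → (∀ x ∈ K, T x ∈ K) → K = ⊥ ∨ K = M := by
    intro K hKM hK1 hK2
    by_cases hK0 : K = ⊥
    · exact Or.inl hK0
    · exact Or.inr (le_antisymm hKM (hMmin ⟨hK0, hK1, hK2⟩ hKM))
  have hTsurj : ∀ m ∈ M, ∃ m' ∈ M, T m' = m := by
    have := hmin (M.map T) (by rintro _ ⟨x, hx, rfl⟩; exact hMT x hx)
      (by rintro g _ ⟨x, hx, rfl⟩; exact ⟨ρ g x, hMinv g x hx, hTρ g x⟩)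
      (by rintro _ ⟨x, hx, rfl⟩; exact ⟨T x, hMT x hx, rfl⟩)
    rcases this with h | h
    · exfalso
      apply hM0
      rw [eq_bot_iff]
      intro x hx
      have : T x ∈ M.map T := ⟨x, hx, rfl⟩
      rw [h, Submodule.mem_bot] at this
      rw [Submodule.mem_bot]
      exact hTinj (by rw [this, map_zero])
    · intro m hm
      rw [← h] at hm
      obtain ⟨x, hx, rfl⟩ := hm
      exact ⟨x, hx, rfl⟩
  have hmemO : ∀ y, y ∈ B.orthogonal M ↔ ∀ x ∈ M, B x y = 0 := by
    intro y
    rw [LinearMap.BilinForm.mem_orthogonal_iff]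
  have hOinv : Inv ρ (B.orthogonal M) := by
    intro g y hy
    rw [hmemO] at hy ⊢
    intro x hx
    rw [inv_move ρ B hBinv]
    exact hy _ (hMinv _ _ hx)
  have hR := hmin (M ⊓ B.orthogonal M) inf_le_left
    (fun g x hx => ⟨hMinv g x hx.1, hOinv g x hx.2⟩)
    (fun x hx => ⟨hMT x hx.1, (hmemO _).mpr (by
      intro m hm
      obtain ⟨m', hm', rfl⟩ := hTsurj m hm
      rw [hTiso]
      exact (hmemO x).mp hx.2 m' hm')⟩)
  rcases hR with hR | hR
  · -- B is nondegenerate on M
    have hnd : ∀ y ∈ M, (∀ x ∈ M, B x y = 0) → y = 0 := by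
      intro y hy h
      have : y ∈ M ⊓ B.orthogonal M := ⟨hy, (hmemO y).mpr h⟩
      rwa [hR, Submodule.mem_bot] at this
    refine ⟨M, hM0, hMinv, hnd, ?_⟩
    let R0 : Submodule F U :=
      { carrier := {x | x ∈ M ∧ ∀ y ∈ M, B x y + B y x = 0}
        add_mem' := by
          rintro a b ⟨ha, ha'⟩ ⟨hb, hb'⟩
          refine ⟨M.add_mem ha hb, fun y hy => ?_⟩
          have h1 := ha' y hy
          have h2 := hb' y hy
          simp only [map_add, LinearMap.add_apply]
          linear_combination h1 + h2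
        zero_mem' := ⟨M.zero_mem, fun y _ => by simp⟩
        smul_mem' := by
          rintro c a ⟨ha, ha'⟩
          refine ⟨M.smul_mem c ha, fun y hy => ?_⟩
          have h1 := ha' y hy
          simp only [map_smul, LinearMap.smul_apply, smul_eq_mul]
          linear_combination c * h1 }
    have hR0 := hmin R0 (fun x hx => hx.1)
      (fun g x hx => ⟨hMinv g x hx.1, fun y hy => by
        have hy' : ρ g (ρ g⁻¹ y) = y := by
          rw [← Module.End.mul_apply, ← map_mul]; simp
        rw [← hy', hBinv, hBinv]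
        exact hx.2 _ (hMinv _ _ hy)⟩)
      (fun x hx => ⟨hMT x hx.1, fun y hy => by
        obtain ⟨y', hy', rfl⟩ := hTsurj y hy
        rw [hTiso, hTiso]
        exact hx.2 _ hy'⟩)
    rcases hR0 with hR0 | hR0
    · refine ⟨B + B.flip, fun x => ?_, fun g x _ y _ => ?_, fun x hx h => ?_⟩
      · simp only [LinearMap.BilinForm.add_apply, LinearMap.BilinForm.flip_apply]
        exact CharTwo.add_self_eq_zero _
      · simp only [LinearMap.BilinForm.add_apply, LinearMap.BilinForm.flip_apply, hBinv]
      · have : x ∈ R0 := ⟨hx, fun y hy => by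
          have := h y hy
          simpa only [LinearMap.BilinForm.add_apply, LinearMap.BilinForm.flip_apply] using this⟩
        rwa [hR0, Submodule.mem_bot] at this
    · have hsym : ∀ x ∈ M, ∀ y ∈ M, B x y + B y x = 0 := by
        intro x hx y hy
        have : x ∈ R0 := by rw [hR0]; exact hx
        exact this.2 y hy
      let K : Submodule F U :=
        { carrier := {x | x ∈ M ∧ B x x = 0}
          add_mem' := by
            rintro a b ⟨ha, ha'⟩ ⟨hb, hb'⟩
            refine ⟨M.add_mem ha hb, ?_⟩
            have h1 := hsym a ha b hb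
            simp only [map_add, LinearMap.add_apply]
            linear_combination ha' + hb' + h1
          zero_mem' := ⟨M.zero_mem, by simp⟩
          smul_mem' := by
            rintro c a ⟨ha, ha'⟩
            refine ⟨M.smul_mem c ha, ?_⟩
            simp only [map_smul, LinearMap.smul_apply, smul_eq_mul]
            rw [ha']; simp }
      have hK := hmin K (fun x hx => hx.1)
        (fun g x hx => ⟨hMinv g x hx.1, by rw [hBinv]; exact hx.2⟩)
        (fun x hx => ⟨hMT x hx.1, by rw [hTiso]; exact hx.2⟩)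
      rcases hK with hK | hK
      · exfalso
        apply hM0
        rw [eq_bot_iff]
        intro x hx
        rw [Submodule.mem_bot]
        apply hfix
        intro g
        have hz : ρ g x - x ∈ K := by
          refine ⟨M.sub_mem (hMinv g x hx) hx, ?_⟩
          have h1 := hsym (ρ g x) (hMinv g x hx) x hx
          have h2 : B x x + B x x = 0 := CharTwo.add_self_eq_zero _
          simp only [map_sub, LinearMap.sub_apply, hBinv]
          linear_combination h2 - h1
        rw [hK, Submodule.mem_bot] at hz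
        exact sub_eq_zero.mp hz
      · apply good_of_local ρ M hMinv B
        · intro x hx
          have : x ∈ K := by rw [hK]; exact hx
          exact this.2
        · intro g x _ y _
          exact hBinv g x y
        · intro x hx h
          apply hnd x hx
          intro y hy
          have h1 := hsym x hx y hy
          rw [h y hy, zero_add] at h1
          exact h1
  · -- M is totally isotropic
    have hiso : ∀ x ∈ M, ∀ y ∈ M, B x y = 0 := by
      intro x hx y hy
      have : y ∈ M ⊓ B.orthogonal M := by rw [hR]; exact hy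
      exact (hmemO y).mp this.2 x hx
    obtain ⟨M1, hM1inv, hc⟩ := exists_inv_compl ρ (B.orthogonal M) hOinv
    have hMO : M ≤ B.orthogonal M := fun y hy => (hmemO y).mpr (fun x hx => hiso x hx y hy)
    -- left nondegeneracy of the pairing M × M1
    have hl : ∀ m ∈ M, (∀ y ∈ M1, B m y = 0) → m = 0 := by
      intro m hm h
      apply hB.1
      intro v
      have hv : v ∈ B.orthogonal M ⊔ M1 := by rw [hc.sup_eq_top]; trivial
      obtain ⟨a, ha, b, hb, rfl⟩ := Submodule.mem_sup.mp hv
      rw [map_add, (hmemO a).mp ha m hm, h b hb, add_zero]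
    have hr : ∀ y ∈ M1, (∀ m ∈ M, B m y = 0) → y = 0 := by
      intro y hy h
      have : y ∈ B.orthogonal M ⊓ M1 := ⟨(hmemO y).mpr h, hy⟩
      rwa [hc.inf_eq_bot, Submodule.mem_bot] at this
    let q : U →ₗ[F] U := M1.projection (B.orthogonal M) hc.symm
    have hq1 : ∀ x ∈ M1, q x = x := fun x hx => Submodule.projection_apply_of_mem_left hc.symm hx
    have hq0 : ∀ x ∈ B.orthogonal M, q x = 0 := fun x hx =>
      Submodule.projection_apply_of_mem_right hc.symm hx
    have hqg : ∀ g x, q (ρ g x) = ρ g (q x) := by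
      intro g x
      have hx : x ∈ B.orthogonal M ⊔ M1 := by rw [hc.sup_eq_top]; trivial
      obtain ⟨a, ha, b, hb, rfl⟩ := Submodule.mem_sup.mp hx
      simp only [map_add]
      rw [hq0 a ha, hq1 b hb, hq0 _ (hOinv g a ha), hq1 _ (hM1inv g b hb)]
      simp
    refine ⟨M ⊔ M1, ?_, ?_, ?_, ?_⟩
    · intro h
      apply hM0
      rw [eq_bot_iff, ← h]
      exact le_sup_left
    · intro g x hx
      obtain ⟨a, ha, b, hb, rfl⟩ := Submodule.mem_sup.mp hx
      rw [map_add]
      exact Submodule.add_mem_sup (hMinv g a ha) (hM1inv g b hb)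
    · intro y hy h
      obtain ⟨n, hn, n1, hn1, rfl⟩ := Submodule.mem_sup.mp hy
      have e1 : n1 = 0 := by
        apply hr n1 hn1
        intro m hm
        have := h m (Submodule.mem_sup_left hm)
        rwa [map_add, hiso m hm n hn, zero_add] at this
      subst e1
      rw [add_zero] at h ⊢
      have e2 : T n = 0 := by
        apply hl (T n) (hMT n hn)
        intro y hy
        rw [hT]
        exact h y (Submodule.mem_sup_right hy)
      exact hTinj (by rw [e2, map_zero])
    · let A : BilinForm F U :=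
        B.comp (LinearMap.id - q) q + (B.comp (LinearMap.id - q) q).flip
      have hA : ∀ x y, A x y = B (x - q x) (q y) + B (y - q y) (q x) := by
        intro x y
        simp [A, LinearMap.BilinForm.comp_apply, LinearMap.BilinForm.flip_apply]
      refine ⟨A, fun x => ?_, fun g x _ y _ => ?_, fun x hx h => ?_⟩
      · rw [hA]; exact CharTwo.add_self_eq_zero _
      · rw [hA, hA]
        simp only [hqg, ← map_sub, hBinv]
      · obtain ⟨m, hm, m1, hm1, rfl⟩ := Submodule.mem_sup.mp hx
        have hqx : q (m + m1) = m1 := by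
          rw [map_add, hq0 m (hMO hm), hq1 m1 hm1, zero_add]
        have e1 : m = 0 := by
          apply hl m hm
          intro y hy
          have := h y (Submodule.mem_sup_right hy)
          rw [hA, hqx, hq1 y hy] at this
          simpa using this
        have e2 : m1 = 0 := by
          apply hr m1 hm1
          intro n hn
          have := h n (Submodule.mem_sup_left hn)
          rw [hA, hqx, hq0 n (hMO hn)] at this
          simpa using this
        rw [e1, e2, add_zero]

end char2

section induction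

theorem alt_aux {F : Type*} [Field F] [CharP F 2] {G : Type*} [Group G] [Finite G]
    [NeZero (Nat.card G : F)] :
    ∀ (n : ℕ) (U : Type u) [AddCommGroup U] [Module F U] [FiniteDimensional F U]
      (ρ : Representation F G U) (B : BilinForm F U), Module.finrank F U ≤ n → B.Nondegenerate →
      (∀ g x y, B (ρ g x) (ρ g y) = B x y) → (∀ x, (∀ g, ρ g x = x) → x = 0) → Good ρ ⊤ := by
  intro n
  induction n with
  | zero =>
    intro U _ _ _ ρ B hn _ _ _
    have : Subsingleton U := Module.finrank_zero_iff.mp (Nat.le_zero.mp hn)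
    exact ⟨0, by simp, by simp, fun x _ _ => Subsingleton.elim _ _⟩
  | succ n ih =>
    intro U _ _ _ ρ B hn hB hBinv hfix
    rcases subsingleton_or_nontrivial U with hU | hU
    · exact ⟨0, by simp, by simp, fun x _ _ => Subsingleton.elim _ _⟩
    obtain ⟨H, hH0, hHinv, hHnd, hHgood⟩ := exists_good_piece ρ B hB hBinv hfix
    obtain ⟨hc, hNinv, hNnd⟩ := splitO ρ B hB hBinv H hHinv hHnd
    have hlt : Module.finrank F (B.orthogonal H) ≤ n := by
      have h1 := Submodule.finrank_add_eq_of_isCompl hc
      have h2 : 0 < Module.finrank F H := by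
        rw [Module.finrank_pos_iff]
        exact Submodule.nontrivial_iff_ne_bot.mpr hH0
      omega
    have gN := ih (B.orthogonal H) (resRep ρ _ hNinv) (B.restrict _) hlt hNnd
      (fun g x y => hBinv g x y)
      (fun x hx => Subtype.ext (hfix x (fun g => congrArg Subtype.val (hx g))))
    exact good_top_of_isCompl ρ H _ hc hHinv hNinv hHgood (good_of_sub ρ _ hNinv gN)

end induction

section final

variable {F : Type*} [Field F] {G : Type*} [Group G] {V : Type*} [AddCommGroup V] [Module F V]
  [FiniteDimensional F V]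

theorem exists_symm_form (W N : Submodule F V) (hc : IsCompl W N) :
    ∃ S : BilinForm F V, (∀ x y : V, S x y = S y x) ∧ (∀ x ∈ W, (∀ y ∈ W, S x y = 0) → x = 0) := by
  classical
  let b := Module.finBasis F W
  let D : BilinForm F W := b.toDual
  have hD : ∀ x y, D x y = D y x := by
    intro x y
    have : D.flip y = D y := by
      apply b.ext
      intro i
      show b.toDual (b i) y = b.toDual y (b i)
      rw [b.toDual_apply_left, b.toDual_apply_right]
    exact congrArg (fun f => f x) this
  let π : V →ₗ[F] W := W.projectionOnto N hc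
  have hπ : ∀ (x : V) (hx : x ∈ W), π x = ⟨x, hx⟩ := fun x hx =>
    Submodule.projectionOnto_apply_of_mem_left hc hx
  refine ⟨D.comp π π, fun x y => ?_, fun x hx h => ?_⟩
  · simp only [LinearMap.BilinForm.comp_apply]; exact hD _ _
  · have : (⟨x, hx⟩ : W) = 0 := by
      apply b.ext_elem
      intro i
      have h1 := h (b i) (b i).2
      rw [LinearMap.BilinForm.comp_apply, hπ x hx, hπ _ (b i).2] at h1
      have h2 : b.toDual ⟨x, hx⟩ (b i) = 0 := h1
      rw [b.toDual_apply_left] at h2
      simpa using h2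
    exact congrArg Subtype.val this

theorem odd_case (h2 : (2 : F) ≠ 0) (ρ : Representation F G V) (B : BilinForm F V)
    (hB : B.Nondegenerate) (hBinv : ∀ g : G, ∀ x y : V, B (ρ g x) (ρ g y) = B x y) :
    ∃ U W : Submodule F V, IsCompl U W ∧ (∀ g : G, ∀ u ∈ U, ρ g u ∈ U) ∧
      (∀ g : G, ∀ w ∈ W, ρ g w ∈ W) ∧
      (∃ A : BilinForm F V, (∀ x : V, A x x = 0) ∧
        (∀ g : G, ∀ x ∈ U, ∀ y ∈ U, A (ρ g x) (ρ g y) = A x y) ∧
        (∀ x ∈ U, (∀ y ∈ U, A x y = 0) → x = 0)) ∧
      (∃ S : BilinForm F V, (∀ x y : V, S x y = S y x) ∧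
        (∀ g : G, ∀ x ∈ W, ∀ y ∈ W, S (ρ g x) (ρ g y) = S x y) ∧
        (∀ x ∈ W, (∀ y ∈ W, S x y = 0) → x = 0)) := by
  obtain ⟨T, hT, hTiso, hTρ, hTinj⟩ := exists_asym ρ B hB hBinv
  let f : Module.End F V := 1 + T
  have hf : ∀ x, f x = x + T x := fun x => by simp [f]
  obtain ⟨n, hn⟩ := (Filter.eventually_atTop.mp
    ((LinearMap.eventually_isCompl_ker_pow_range_pow f).and (Filter.eventually_ge_atTop 1)))
  obtain ⟨hc, hn1⟩ := hn n le_rfl
  have hfT : Commute f T := by
    show (1 + T) * T = T * (1 + T)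
    rw [add_mul, mul_add, one_mul, mul_one]
  have hfρ : ∀ g, Commute f (ρ g) := by
    intro g
    apply LinearMap.ext
    intro x
    simp only [Module.End.mul_apply, hf, map_add, hTρ]
  have hfnρ : ∀ g x, (f ^ n) (ρ g x) = ρ g ((f ^ n) x) := by
    intro g x
    have := ((hfρ g).pow_left n).eq
    exact congrArg (fun h => h x) this
  have hfnT : ∀ k x, (f ^ k) (T x) = T ((f ^ k) x) := by
    intro k x
    have := (hfT.pow_left k).eq
    exact congrArg (fun h => h x) this
  have hadj1 : ∀ x y, B (f x) (T y) = B x (f y) := by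
    intro x y
    rw [hf, hf, map_add, LinearMap.add_apply, hTiso, map_add, add_comm]
  have hadj : ∀ k x y, B ((f ^ k) x) ((T ^ k) y) = B x ((f ^ k) y) := by
    intro k
    induction k with
    | zero => intro x y; simp
    | succ k ih =>
      intro x y
      have e1 : (f ^ (k + 1)) x = f ((f ^ k) x) := by rw [pow_succ', Module.End.mul_apply]
      have e2 : (T ^ (k + 1)) y = T ((T ^ k) y) := by rw [pow_succ', Module.End.mul_apply]
      have e3 : (f ^ (k + 1)) y = (f ^ k) (f y) := by rw [pow_succ, Module.End.mul_apply]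
      have h1 : f ((T ^ k) y) = (T ^ k) (f y) := by
        have := (hfT.pow_right k).eq
        exact congrArg (fun h => h y) this
      rw [e1, e2, e3, hadj1, h1, ih]
  have hUW : ∀ u ∈ LinearMap.ker (f ^ n), ∀ w ∈ LinearMap.range (f ^ n), B u w = 0 := by
    rintro u hu _ ⟨y, rfl⟩
    rw [← hadj, LinearMap.mem_ker.mp hu]; simp
  have hWU : ∀ u ∈ LinearMap.ker (f ^ n), ∀ w ∈ LinearMap.range (f ^ n), B w u = 0 := by
    intro u hu w hw
    rw [← hT]
    apply hUW _ _ w hw
    rw [LinearMap.mem_ker, hfnT, LinearMap.mem_ker.mp hu, map_zero]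
  have hdec : ∀ v : V, ∃ u ∈ LinearMap.ker (f ^ n), ∃ w ∈ LinearMap.range (f ^ n), u + w = v := by
    intro v
    have hv : v ∈ LinearMap.ker (f ^ n) ⊔ LinearMap.range (f ^ n) := by rw [hc.sup_eq_top]; trivial
    exact Submodule.mem_sup.mp hv
  refine ⟨LinearMap.ker (f ^ n), LinearMap.range (f ^ n), hc, ?_, ?_, ?_, ?_⟩
  · intro g u hu
    rw [LinearMap.mem_ker, hfnρ, LinearMap.mem_ker.mp hu, map_zero]
  · rintro g _ ⟨y, rfl⟩
    exact ⟨ρ g y, hfnρ g y⟩
  · refine ⟨B - B.flip, fun x => ?_, fun g x _ y _ => ?_, fun x hx h => ?_⟩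
    · simp [LinearMap.BilinForm.flip_apply]
    · simp only [LinearMap.BilinForm.sub_apply, LinearMap.BilinForm.flip_apply, hBinv]
    · have h1 : x - T x = 0 := by
        apply hB.1
        intro v
        obtain ⟨u, hu, w, hw, rfl⟩ := hdec v
        have h3 := h u hu
        simp only [LinearMap.BilinForm.sub_apply, LinearMap.BilinForm.flip_apply] at h3
        rw [map_sub, LinearMap.sub_apply, hT, map_add, map_add, LinearMap.add_apply,
          hUW x hx w hw, hWU x hx w hw]
        linear_combination h3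
      have h4 : f x = (2 : F) • x := by
        rw [hf, ← sub_eq_zero.mp h1, two_smul]
      have h5 : ∀ k, (f ^ k) x = (2 : F) ^ k • x := by
        intro k
        induction k with
        | zero => simp
        | succ k ih => rw [pow_succ' f, Module.End.mul_apply, ih, map_smul, h4, smul_smul, pow_succ]
      have h6 := LinearMap.mem_ker.mp hx
      rw [h5] at h6
      exact (smul_eq_zero.mp h6).resolve_left (pow_ne_zero _ h2)
  · refine ⟨B + B.flip, fun x y => ?_, fun g x _ y _ => ?_, fun x hx h => ?_⟩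
    · simp only [LinearMap.BilinForm.add_apply, LinearMap.BilinForm.flip_apply]; ring
    · simp only [LinearMap.BilinForm.add_apply, LinearMap.BilinForm.flip_apply, hBinv]
    · have h1 : f x = 0 := by
        apply hB.1
        intro v
        obtain ⟨u, hu, w, hw, rfl⟩ := hdec v
        have h3 := h w hw
        simp only [LinearMap.BilinForm.add_apply, LinearMap.BilinForm.flip_apply] at h3
        have e : B (f x) (u + w) = B x u + B u x + (B x w + B w x) := by
          rw [hf]; simp only [map_add, LinearMap.add_apply, hT]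
        rw [e, hWU u hu x hx, hUW u hu x hx, h3]; simp
      have h2 : x ∈ LinearMap.ker (f ^ n) := by
        obtain ⟨k, rfl⟩ : ∃ k, n = k + 1 := ⟨n - 1, by omega⟩
        rw [LinearMap.mem_ker, pow_succ, Module.End.mul_apply, h1, map_zero]
      have : x ∈ LinearMap.ker (f ^ n) ⊓ LinearMap.range (f ^ n) := ⟨h2, hx⟩
      rwa [hc.inf_eq_bot, Submodule.mem_bot] at this

end final

/-- Let F be a finite field of characteristic p, G a finite group of order prime to p, and V a finite-dimensional representation of G over F carrying a nondegenerate G-invariant bilinear form (equivalently, V is self-dual). Then V is the direct sum of two G-invariant subspaces U and W such that U carries a G-invariant alternating bilinear form that is nondegenerate on U and W carries a G-invariant symmetric bilinear form that is nondegenerate on W; moreover when p = 2 the decomposition can be chosen with G acting trivially on W. -/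
theorem result {F : Type*} [Field F] [Fintype F] (p : ℕ) [Fact p.Prime] [CharP F p] {G : Type*} [Group G] [Finite G] (hcop : ¬ p ∣ Nat.card G) {V : Type*} [AddCommGroup V] [Module F V] [FiniteDimensional F V] (ρ : Representation F G V) (B : LinearMap.BilinForm F V) (hB : B.Nondegenerate) (hBinv : ∀ g : G, ∀ x y : V, B (ρ g x) (ρ g y) = B x y) : ∃ U W : Submodule F V, IsCompl U W ∧ (∀ g : G, ∀ u ∈ U, ρ g u ∈ U) ∧ (∀ g : G, ∀ w ∈ W, ρ g w ∈ W) ∧ (∃ A : LinearMap.BilinForm F V, (∀ x : V, A x x = 0) ∧ (∀ g : G, ∀ x ∈ U, ∀ y ∈ U, A (ρ g x) (ρ g y) = A x y) ∧ (∀ x ∈ U, (∀ y ∈ U, A x y = 0) → x = 0)) ∧ (∃ S : LinearMap.BilinForm F V, (∀ x y : V, S x y = S y x) ∧ (∀ g : G, ∀ x ∈ W, ∀ y ∈ W, S (ρ g x) (ρ g y) = S x y) ∧ (∀ x ∈ W, (∀ y ∈ W, S x y = 0) → x = 0)) ∧ (p = 2 → ∀ g : G, ∀ w ∈ W, ρ g w = w) := by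
  by_cases hp2 : p = 2
  · subst hp2
    have hne : NeZero (Nat.card G : F) := ⟨by
      rw [Ne, CharP.cast_eq_zero_iff F 2]; exact hcop⟩
    have := Fintype.ofFinite G
    have hWinv : Inv ρ ρ.invariants := by
      intro g w hw
      rw [(Representation.mem_invariants ρ w).mp hw g]; exact hw
    have hWnd : ∀ y ∈ ρ.invariants, (∀ x ∈ ρ.invariants, B x y = 0) → y = 0 := by
      intro y hy h
      apply hB.2
      intro v
      have hs : (∑ g : G, ρ g v) ∈ ρ.invariants := by
        rw [Representation.mem_invariants]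
        intro h
        rw [map_sum]
        refine Fintype.sum_equiv (Equiv.mulLeft h) _ _ (fun g => ?_)
        simp [map_mul]
      have h1 := h _ hs
      rw [map_sum, LinearMap.sum_apply] at h1
      have h2 : ∀ g : G, B (ρ g v) y = B v y := by
        intro g
        conv_lhs => rw [← (Representation.mem_invariants ρ y).mp hy g]
        exact hBinv g v y
      simp only [h2, Finset.sum_const, Finset.card_univ, nsmul_eq_mul] at h1
      rw [← Nat.card_eq_fintype_card] at h1
      exact (mul_eq_zero.mp h1).resolve_left hne.out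
    obtain ⟨hc, hNinv, hNnd⟩ := splitO ρ B hB hBinv ρ.invariants hWinv hWnd
    have gN := alt_aux (Module.finrank F (B.orthogonal ρ.invariants)) (B.orthogonal ρ.invariants)
      (resRep ρ _ hNinv) (B.restrict _) le_rfl hNnd (fun g x y => hBinv g x y)
      (fun x hx => by
        have h1 : (x : V) ∈ ρ.invariants := by
          rw [Representation.mem_invariants]
          exact fun g => congrArg Subtype.val (hx g)
        have h2 : (x : V) ∈ ρ.invariants ⊓ B.orthogonal ρ.invariants := ⟨h1, x.2⟩
        rw [hc.inf_eq_bot, Submodule.mem_bot] at h2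
        exact Subtype.ext h2)
    obtain ⟨S, hS1, hS2⟩ := exists_symm_form ρ.invariants _ hc
    refine ⟨B.orthogonal ρ.invariants, ρ.invariants, hc.symm, hNinv, hWinv,
      good_of_sub ρ _ hNinv gN, ⟨S, hS1, ?_, hS2⟩, ?_⟩
    · intro g x hx y hy
      rw [(Representation.mem_invariants ρ x).mp hx g, (Representation.mem_invariants ρ y).mp hy g]
    · intro _ g w hw
      exact (Representation.mem_invariants ρ w).mp hw g
  · have h2 : (2 : F) ≠ 0 := by
      intro h
      have h' : ((2 : ℕ) : F) = 0 := by exact_mod_cast h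
      rw [CharP.cast_eq_zero_iff F p] at h'
      exact hp2 ((Nat.prime_dvd_prime_iff_eq (Fact.out) Nat.prime_two).mp h')
    obtain ⟨U, W, h1, h3, h4, h5, h6⟩ := odd_case h2 ρ B hB hBinv
    exact ⟨U, W, h1, h3, h4, h5, h6, fun h => absurd h hp2⟩

end Cfsg.Agent.S4966
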