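import Cfsg.Statements.S4967
import Mathlib

set_option autoImplicit false
open Cfsg

namespace Cfsg.Agent.S4967

open LinearMap (BilinForm)

section fieldcase

variable {F K : Type*} [Field F] [Fintype F] [Field K] [Algebra F K] [Finite K]
  {H : Type*} [CommGroup H] [Finite H]

theorem frob_pow_apply (j : ℕ) (x : K) :
    (FiniteField.frobeniusAlgHom F K ^ j) x = x ^ (Fintype.card F ^ j) := by
  rw [AlgHom.coe_pow, FiniteField.coe_frobeniusAlgHom, pow_iterate]

theorem field_forward (c : H →* K) (hc : Function.Injective c)
    (hspan : Submodule.span F (Set.range c) = ⊤) (hn : 2 ≤ Module.finrank F K)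
    (B : BilinForm F K) (hB : B.Nondegenerate) (hinv : ∀ h x y, B (c h * x) (c h * y) = B x y) :
    Even (Module.finrank F K) ∧ Nat.card H ∣ Fintype.card F ^ (Module.finrank F K / 2) + 1 := by
  classical
  have hcc : ∀ h, c h * c h⁻¹ = 1 := fun h => by rw [← map_mul]; simp
  -- adjoints
  have hadj : ∀ a : K, ∃ a' : K, ∀ x y, B (a * x) y = B x (a' * y) := by
    intro a
    have ha : a ∈ Submodule.span F (Set.range c) := by rw [hspan]; trivial
    induction ha using Submodule.span_induction with
    | mem a ha =>
      obtain ⟨h, rfl⟩ := ha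
      refine ⟨c h⁻¹, fun x y => ?_⟩
      rw [← hinv h x (c h⁻¹ * y), ← mul_assoc, hcc, one_mul]
    | zero => exact ⟨0, fun x y => by simp⟩
    | add a b _ _ iha ihb =>
      obtain ⟨a', ha'⟩ := iha
      obtain ⟨b', hb'⟩ := ihb
      refine ⟨a' + b', fun x y => ?_⟩
      rw [add_mul, add_mul, map_add, map_add, LinearMap.add_apply, ha', hb']
    | smul t a _ iha =>
      obtain ⟨a', ha'⟩ := iha
      refine ⟨t • a', fun x y => ?_⟩
      rw [smul_mul_assoc, smul_mul_assoc, map_smul, map_smul, LinearMap.smul_apply, ha']
  choose τ hτ using hadj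
  have huniq : ∀ a a' : K, (∀ x y, B (a * x) y = B x (a' * y)) → τ a = a' := by
    intro a a' h
    have : τ a * 1 - a' * 1 = 0 := by
      apply hB.2
      intro x
      rw [map_sub, ← hτ, ← h, sub_self]
    simpa [sub_eq_zero] using this
  let T : K →ₐ[F] K :=
    { toFun := τ
      map_one' := huniq 1 1 (fun x y => by simp)
      map_mul' := fun a b => huniq _ _ (fun x y => by
        rw [mul_assoc, hτ, hτ, ← mul_assoc, mul_comm (τ b)])
      map_zero' := huniq 0 0 (fun x y => by simp)
      map_add' := fun a b => huniq _ _ (fun x y => by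
        rw [add_mul, add_mul, map_add, map_add, LinearMap.add_apply, hτ, hτ])
      commutes' := fun t => huniq _ _ (fun x y => by
        rw [← Algebra.smul_def, ← Algebra.smul_def, map_smul, map_smul, LinearMap.smul_apply]) }
  have hTc : ∀ h, T (c h) = c h⁻¹ := fun h => huniq _ _ (fun x y => by
    rw [← hinv h x (c h⁻¹ * y), ← mul_assoc, hcc, one_mul])
  obtain ⟨⟨j, hj⟩, hjT⟩ := (FiniteField.bijective_frobeniusAlgHom_pow F K).2 T
  simp only at hjT
  have hpow : ∀ h, (c h) ^ (Fintype.card F ^ j) = c h⁻¹ := by
    intro h
    rw [← frob_pow_apply (F := F), hjT, hTc]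
  have hTT : T * T = 1 := by
    apply AlgHom.toLinearMap_injective
    apply LinearMap.ext_on hspan
    rintro _ ⟨h, rfl⟩
    simp [hTc]
  have hdvd : Module.finrank F K ∣ 2 * j := by
    rw [← FiniteField.orderOf_frobeniusAlgHom F K]
    apply orderOf_dvd_of_pow_eq_one
    rw [two_mul, pow_add, hjT, hTT]
  have hj0 : j ≠ 0 := by
    rintro rfl
    have h1 : ∀ h, c h = 1 ∨ c h = -1 := by
      intro h
      have h2 := hpow h
      simp only [pow_zero, pow_one] at h2
      have h3 : c h * c h = 1 := by
        have := hcc h
        rwa [← h2] at this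
      exact mul_self_eq_one_iff.mp h3
    have h4 : Submodule.span F (Set.range c) ≤ Submodule.span F {(1 : K)} := by
      rw [Submodule.span_le]
      rintro _ ⟨h, rfl⟩
      rcases h1 h with h | h
      · rw [h]; exact Submodule.mem_span_singleton_self 1
      · rw [h]; exact Submodule.neg_mem _ (Submodule.mem_span_singleton_self 1)
    rw [hspan] at h4
    have h5 := Submodule.finrank_mono h4
    rw [finrank_top, finrank_span_singleton one_ne_zero] at h5
    omega
  obtain ⟨k, hk⟩ := hdvd
  have hk1 : k = 1 := by
    rcases k with _ | _ | k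
    · omega
    · rfl
    · exfalso
      have : Module.finrank F K * (k + 1 + 1) ≥ Module.finrank F K * 2 := Nat.mul_le_mul_left _ (by omega)
      omega
  subst hk1
  rw [mul_one] at hk
  refine ⟨⟨j, by omega⟩, ?_⟩
  have hj2 : Module.finrank F K / 2 = j := by omega
  rw [hj2]
  have : IsCyclic H := isCyclic_of_injective_ringHom c hc
  rw [← IsCyclic.exponent_eq_card]
  apply Monoid.exponent_dvd_of_forall_pow_eq_one
  intro h
  apply hc
  rw [map_pow, pow_succ, hpow, map_one, mul_comm]
  exact hcc h

theorem field_backward (c : H →* K) (hev : Even (Module.finrank F K))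
    (hdvd : Nat.card H ∣ Fintype.card F ^ (Module.finrank F K / 2) + 1) :
    ∃ B : BilinForm F K, B.Nondegenerate ∧ ∀ h x y, B (c h * x) (c h * y) = B x y := by
  classical
  let σ : K →ₐ[F] K := FiniteField.frobeniusAlgHom F K ^ (Module.finrank F K / 2)
  have hσ : ∀ x, σ x = x ^ (Fintype.card F ^ (Module.finrank F K / 2)) := fun x =>
    frob_pow_apply _ x
  have hσsurj : Function.Surjective σ :=
    Finite.surjective_of_injective σ.toRingHom.injective
  have : FiniteDimensional F K := Module.Finite.of_finite
  refine ⟨(Algebra.traceForm F K).compRight σ.toLinearMap, ?_, ?_⟩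
  · apply LinearMap.BilinForm.Nondegenerate.ofSeparatingLeft
    intro x hx
    apply (traceForm_nondegenerate F K).1
    intro z
    obtain ⟨y, rfl⟩ := hσsurj z
    exact hx y
  · intro h x y
    simp only [LinearMap.BilinForm.compRight_apply, AlgHom.toLinearMap_apply, map_mul,
      Algebra.traceForm_apply]
    have h1 : c h * σ (c h) = 1 := by
      rw [hσ, ← pow_succ', ← map_pow]
      obtain ⟨k, hk⟩ := hdvd
      rw [hk, pow_mul, pow_card_eq_one', one_pow, map_one]
    have h2 : c h * x * (σ (c h) * σ y) = (c h * σ (c h)) * (x * σ y) := by ring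
    rw [h2, h1, one_mul]

end fieldcase

/-- Let F be a finite field with r elements and of characteristic p, H a finite abelian group of order prime to p, and V a faithful irreducible representation of H over F of dimension n (faithful: distinct elements act differently; irreducible: the only H-invariant subspaces are 0 and V). Call V self-dual when it carries a nondegenerate H-invariant bilinear form. If n = 1 and V is self-dual then H has order at most 2. If n ≥ 2 then V is self-dual if and only if n is even and the order of H divides r^(n/2) + 1. -/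
theorem result {F : Type*} [Field F] [Fintype F] (p : ℕ) [Fact p.Prime] [CharP F p] {H : Type*} [CommGroup H] [Finite H] (hcop : ¬ p ∣ Nat.card H) {V : Type*} [AddCommGroup V] [Module F V] [FiniteDimensional F V] (ρ : Representation F H V) (hfaith : Function.Injective ρ) (hirr : ∀ U : Submodule F V, (∀ h : H, ∀ u ∈ U, ρ h u ∈ U) → U = ⊥ ∨ U = ⊤) : (Module.finrank F V = 1 → (∃ B : LinearMap.BilinForm F V, B.Nondegenerate ∧ ∀ h : H, ∀ x y : V, B (ρ h x) (ρ h y) = B x y) → Nat.card H ≤ 2) ∧ (2 ≤ Module.finrank F V → ((∃ B : LinearMap.BilinForm F V, B.Nondegenerate ∧ ∀ h : H, ∀ x y : V, B (ρ h x) (ρ h y) = B x y) ↔ (Even (Module.finrank F V) ∧ Nat.card H ∣ Fintype.card F ^ (Module.finrank F V / 2) + 1))) := by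
  classical
  constructor
  · rintro h1 ⟨B, hB, hinv⟩
    obtain ⟨v0, hv0, hsp⟩ := finrank_eq_one_iff'.mp h1
    have hB0 : B v0 v0 ≠ 0 := by
      intro h0
      apply hv0
      apply hB.1
      intro w
      obtain ⟨t, rfl⟩ := hsp w
      rw [map_smul, h0, smul_zero]
    choose a ha using fun h : H => hsp (ρ h v0)
    have ha2 : ∀ h, a h = 1 ∨ a h = -1 := by
      intro h
      have h2 := hinv h v0 v0
      rw [← ha h, map_smul, map_smul, LinearMap.smul_apply, smul_eq_mul, smul_eq_mul] at h2
      have h3 : (a h * a h - 1) * B v0 v0 = 0 := by linear_combination h2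
      rcases mul_eq_zero.mp h3 with h4 | h4
      · exact mul_self_eq_one_iff.mp (sub_eq_zero.mp h4)
      · exact absurd h4 hB0
    have hainj : Function.Injective a := by
      intro h h' hh
      apply hfaith
      apply LinearMap.ext
      intro w
      obtain ⟨t, rfl⟩ := hsp w
      rw [map_smul, map_smul, ← ha h, ← ha h', hh]
    let f : H → ({1, -1} : Finset F) := fun h => ⟨a h, by
      rcases ha2 h with h' | h' <;> simp [h']⟩
    have hf : Function.Injective f := fun h h' hh => hainj (congrArg Subtype.val hh)
    calc Nat.card H ≤ Nat.card ({1, -1} : Finset F) := Nat.card_le_card_of_injective f hf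
      _ = ({1, -1} : Finset F).card := by rw [Nat.card_eq_fintype_card, Fintype.card_coe]
      _ ≤ 2 := Finset.card_le_two
  · intro hn
    have hnt : Nontrivial V := Module.nontrivial_of_finrank_pos (R := F) (by omega)
    have hirr' : ρ.IsIrreducible :=
      { exists_pair_ne := ⟨⊥, ⊤, fun h => by
          have := congrArg Subrepresentation.toSubmodule h
          exact bot_ne_top this⟩
        eq_bot_or_eq_top := fun σ => by
          rcases hirr σ.toSubmodule (fun h u hu => σ.apply_mem_toSubmodule h hu) with h | h
          · exact Or.inl (Subrepresentation.toSubmodule_injective h)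
          · exact Or.inr (Subrepresentation.toSubmodule_injective h) }
    have hsimple := (Representation.irreducible_iff_isSimpleModule_asModule ρ).mp hirr'
    obtain ⟨I, hI, ⟨e⟩⟩ := isSimpleModule_iff_quot_maximal.mp hsimple
    let _ := Ideal.Quotient.field I
    let eF : V ≃ₗ[F] (MonoidAlgebra F H ⧸ I) := ρ.asModuleEquiv.symm ≪≫ₗ (e.restrictScalars F)
    let c : H →* (MonoidAlgebra F H ⧸ I) :=
      ((Ideal.Quotient.mk I : MonoidAlgebra F H →+* _) : MonoidAlgebra F H →* _).comp
        (MonoidAlgebra.of F H)
    have hec : ∀ h v, eF (ρ h v) = c h * eF v := by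
      intro h v
      show e (ρ.asModuleEquiv.symm (ρ h v)) = c h * e (ρ.asModuleEquiv.symm v)
      rw [Representation.asModuleEquiv_symm_map_rho, map_smul, Algebra.smul_def]
      rfl
    have hes : ∀ h x, eF.symm (c h * x) = ρ h (eF.symm x) := by
      intro h x
      apply eF.injective
      rw [hec, LinearEquiv.apply_symm_apply, LinearEquiv.apply_symm_apply]
    have hc : Function.Injective c := by
      intro h h' hh
      apply hfaith
      apply LinearMap.ext
      intro v
      apply eF.injective
      rw [hec, hec, hh]
    have hspan : Submodule.span F (Set.range c) = ⊤ := by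
      rw [eq_top_iff]
      intro x _
      obtain ⟨a, rfl⟩ := Ideal.Quotient.mk_surjective x
      induction a using MonoidAlgebra.induction_on with
      | of g => exact Submodule.subset_span ⟨g, rfl⟩
      | add f g hf hg => rw [map_add]; exact Submodule.add_mem _ (hf trivial) (hg trivial)
      | smul r f hf =>
        have : (Ideal.Quotient.mk I) (r • f) = r • (Ideal.Quotient.mk I) f := rfl
        rw [this]; exact Submodule.smul_mem _ _ (hf trivial)
    have hfinK : Module.Finite F (MonoidAlgebra F H ⧸ I) := Module.Finite.equiv eF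
    have hFinK : Finite (MonoidAlgebra F H ⧸ I) := Module.finite_of_finite F
    have hrank : Module.finrank F V = Module.finrank F (MonoidAlgebra F H ⧸ I) := eF.finrank_eq
    rw [hrank] at hn ⊢
    constructor
    · rintro ⟨B, hB, hinv⟩
      apply field_forward c hc hspan hn (LinearMap.BilinForm.congr eF B) (hB.congr eF)
      intro h x y
      simp only [LinearMap.BilinForm.congr_apply, hes, hinv]
    · rintro ⟨hev, hdvd⟩
      obtain ⟨B, hB, hinv⟩ := field_backward c hev hdvd
      refine ⟨LinearMap.BilinForm.congr eF.symm B, hB.congr eF.symm, ?_⟩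
      intro h x y
      simp only [LinearMap.BilinForm.congr_apply, LinearEquiv.symm_symm, hec, hinv]

end Cfsg.Agent.S4967
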