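import Cfsg.Statements.S5014
import Cfsg.Agent.Lib.Helper85RankOne

set_option autoImplicit false
open Cfsg

namespace Cfsg.Agent.S5014

open Cfsg.Agent.Lib.Helper85RankOne

/-- Let X = ⟨A, B⟩ be a rank one group with unipotent subgroups A and B and let Ω be the set of conjugates of A under X. Then Ω has at least three members, X acts doubly transitively on Ω by conjugation (any two ordered pairs of distinct members are carried to one another by a single element of X), and A acts regularly on Ω with A removed: for C, D in Ω different from A there is exactly one element of A conjugating C to D. -/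
theorem result {G : Type*} [Group G] {A B : Subgroup G} (h : Cfsg.IsRankOnePair A B) :
    (∃ C₁ ∈ Cfsg.unipotentSubgroups A B, ∃ C₂ ∈ Cfsg.unipotentSubgroups A B, ∃ C₃ ∈ Cfsg.unipotentSubgroups A B,
      C₁ ≠ C₂ ∧ C₁ ≠ C₃ ∧ C₂ ≠ C₃) ∧
    (∀ C₁ ∈ Cfsg.unipotentSubgroups A B, ∀ C₂ ∈ Cfsg.unipotentSubgroups A B, ∀ D₁ ∈ Cfsg.unipotentSubgroups A B,
      ∀ D₂ ∈ Cfsg.unipotentSubgroups A B, C₁ ≠ C₂ → D₁ ≠ D₂ →
        ∃ x ∈ A ⊔ B, Cfsg.conjBy C₁ x = D₁ ∧ Cfsg.conjBy C₂ x = D₂) ∧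
    (∀ C ∈ Cfsg.unipotentSubgroups A B, ∀ D ∈ Cfsg.unipotentSubgroups A B, C ≠ A → D ≠ A →
      ∃! a : G, a ∈ A ∧ Cfsg.conjBy C a = D) := by
  refine ⟨?_, ?_, ?_⟩
  · obtain ⟨a, ha, ha1⟩ := exists_left h
    refine ⟨A, left_mem_unipotent, B, right_mem_unipotent h, conjBy B a,
      conj_mem_unipotent (right_mem_unipotent h) (Subgroup.mem_sup_left ha), h.ne, ?_, ?_⟩
    · intro e
      apply h.ne
      rw [eq_comm, conjBy_eq_iff, conjBy_of_mem (A.inv_mem ha)] at e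
      exact e.symm
    · intro e
      exact ha1 (norm_left h ha e.symm)
  · intro C₁ hC₁ C₂ hC₂ D₁ hD₁ D₂ hD₂ hC hD
    obtain ⟨x, hx, rfl, rfl⟩ := exists_conj_pair h hC₁ hC₂ hC
    obtain ⟨y, hy, rfl, rfl⟩ := exists_conj_pair h hD₁ hD₂ hD
    refine ⟨y * x⁻¹, (A ⊔ B).mul_mem hy ((A ⊔ B).inv_mem hx), ?_, ?_⟩
    · rw [conjBy_conjBy]; simp [mul_assoc]
    · rw [conjBy_conjBy]; simp [mul_assoc]
  · intro C hC D hD hCA hDA
    have hp := (pair_of_mem h left_mem_unipotent hC hCA.symm).1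
    rcases (mem_unipotent_iff h).mp hC with h1 | ⟨a₁, ha₁, rfl⟩
    · exact absurd h1 hCA
    rcases (mem_unipotent_iff h).mp hD with h1 | ⟨a₂, ha₂, rfl⟩
    · exact absurd h1 hDA
    refine ⟨a₂ * a₁⁻¹, ⟨A.mul_mem ha₂ (A.inv_mem ha₁), ?_⟩, ?_⟩
    · rw [conjBy_conjBy]; simp [mul_assoc]
    · rintro a' ⟨ha', e⟩
      apply conj_inj_left hp ha' (A.mul_mem ha₂ (A.inv_mem ha₁))
      rw [e, conjBy_conjBy]; simp [mul_assoc]

end Cfsg.Agent.S5014
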