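import Cfsg.Statements.S5015
import Cfsg.Agent.Lib.Helper85RankOne

set_option autoImplicit false
open Cfsg

namespace Cfsg.Agent.S5015

open Cfsg.Agent.Lib.Helper85RankOne

/-- Let a group Y act doubly transitively on a set Ω with at least three points, and suppose that the stabilizer of a point α contains a nilpotent subgroup A, normalized by that stabilizer, which acts regularly on the points other than α. Then for any y in Y moving α, the subgroups A and y A y⁻¹ are the unipotent subgroups of a rank one group, and the normal closure of A in Y (the subgroup generated by all conjugates of A) is generated by A and y A y⁻¹ alone. -/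
theorem result {Y Ω : Type*} [Group Y] [MulAction Y Ω]
    (h2 : MulAction.IsMultiplyPretransitive Y Ω 2) (hΩ : 3 ≤ ENat.card Ω) (α : Ω) (A : Subgroup Y)
    (hA : A ≤ MulAction.stabilizer Y α) (hAn : ∀ y ∈ MulAction.stabilizer Y α, Cfsg.conjBy A y = A)
    (hnil : Group.IsNilpotent A) (hreg : ∀ β γ : Ω, β ≠ α → γ ≠ α → ∃! a : Y, a ∈ A ∧ a • β = γ)
    (y : Y) (hy : y ∉ MulAction.stabilizer Y α) :
    Cfsg.IsRankOnePair A (Cfsg.conjBy A y) ∧ Subgroup.normalClosure (A : Set Y) = A ⊔ Cfsg.conjBy A y := by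
  set β := y • α with hβ
  have hβα : β ≠ α := fun e => hy (MulAction.mem_stabilizer_iff.mpr e)
  -- a third point
  obtain ⟨δ, hδα, hδβ⟩ : ∃ δ : Ω, δ ≠ α ∧ δ ≠ β := by
    by_contra hcon
    push Not at hcon
    have hsub : (Set.univ : Set Ω) ⊆ {α, β} := by
      intro x _
      by_cases hx : x = α
      · left; exact hx
      · right; exact hcon x hx
    have h1 : (Set.univ : Set Ω).encard ≤ 2 := (Set.encard_le_encard hsub).trans (Set.encard_pair hβα.symm).le
    rw [Set.encard_univ] at h1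
    have h3 : (3 : ℕ∞) ≤ 2 := hΩ.trans h1
    exact absurd h3 (by decide)
  -- conjugates depend only on the image of α
  have L1 : ∀ g g' : Y, g • α = g' • α → conjBy A g = conjBy A g' := by
    intro g g' e
    have hs : g'⁻¹ * g ∈ MulAction.stabilizer Y α := by
      rw [MulAction.mem_stabilizer_iff, mul_smul, e, inv_smul_smul]
    have := hAn _ hs
    rw [← conjBy_conjBy, conjBy_eq_iff, inv_inv] at this
    exact this
  have hAfix : ∀ a ∈ A, a • α = α := fun a ha => MulAction.mem_stabilizer_iff.mp (hA ha)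
  have hBfix : ∀ b ∈ conjBy A y, b • β = β := by
    intro b hb
    rw [mem_conjBy] at hb
    have := hAfix _ hb
    rw [mul_smul, mul_smul, inv_smul_eq_iff] at this
    exact this
  have hBtrans : ∀ γ ε : Ω, γ ≠ β → ε ≠ β → ∃ b ∈ conjBy A y, b • γ = ε := by
    intro γ ε hγ hε
    obtain ⟨a, ⟨ha, hae⟩, -⟩ := hreg (y⁻¹ • γ) (y⁻¹ • ε)
      (by intro e; apply hγ; rw [inv_smul_eq_iff] at e; exact e)
      (by intro e; apply hε; rw [inv_smul_eq_iff] at e; exact e)
    refine ⟨y * a * y⁻¹, conj_mem_conjBy ha y, ?_⟩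
    rw [mul_smul, mul_smul, hae, smul_inv_smul]
  have hAsemi : ∀ a ∈ A, ∀ γ : Ω, γ ≠ α → a • γ = γ → a = 1 := by
    intro a ha γ hγ e
    obtain ⟨a0, -, huniq⟩ := hreg γ γ hγ hγ
    rw [huniq a ⟨ha, e⟩, huniq 1 ⟨A.one_mem, one_smul _ _⟩]
  have hBsemi : ∀ b ∈ conjBy A y, ∀ γ : Ω, γ ≠ β → b • γ = γ → b = 1 := by
    intro b hb γ hγ e
    rw [mem_conjBy] at hb
    have := hAsemi _ hb (y⁻¹ • γ) (by intro e; apply hγ; rw [inv_smul_eq_iff] at e; exact e)
      (by rw [mul_smul, mul_smul, smul_inv_smul, e])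
    have h2 : b = y * (y⁻¹ * b * y) * y⁻¹ := by group
    rw [h2, this]; simp
  have hpair : Cfsg.IsRankOnePair A (Cfsg.conjBy A y) := by
    refine ⟨?_, hnil, isNilpotent_conjBy hnil y, ?_, ?_⟩
    · intro e
      obtain ⟨a, ⟨ha, hae⟩, -⟩ := hreg β δ hβα hδα
      rw [e] at ha
      rw [hBfix a ha] at hae
      exact hδβ hae.symm
    · intro a ha ha1
      have h1 : a⁻¹ • β ≠ β := by
        intro e
        apply ha1
        have := hAsemi _ (A.inv_mem ha) β hβα e
        simpa using this
      obtain ⟨b, hb, hbe⟩ := hBtrans α (a⁻¹ • β) hβα.symm h1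
      refine ⟨b⁻¹, Subgroup.inv_mem _ hb, ?_, ?_⟩
      · intro e
        have hb1 : b = 1 := by simpa using e
        rw [hb1, one_smul, eq_inv_smul_iff, hAfix a ha] at hbe
        exact hβα hbe.symm
      · rw [inv_inv, conjBy_conjBy]
        apply L1
        rw [hbe, mul_smul]
    · intro b hb hb1
      have h1 : b⁻¹ • α ≠ α := by
        intro e
        apply hb1
        have := hBsemi _ (Subgroup.inv_mem _ hb) α hβα.symm e
        simpa using this
      obtain ⟨a, ⟨ha, hae⟩, -⟩ := hreg β (b⁻¹ • α) hβα h1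
      refine ⟨a⁻¹, A.inv_mem ha, ?_, ?_⟩
      · intro e
        have ha1 : a = 1 := by simpa using e
        rw [ha1, one_smul, eq_inv_smul_iff, hBfix b hb] at hae
        exact hβα hae
      · rw [inv_inv, conjBy_conjBy]
        apply L1
        rw [mul_smul, hae]
  refine ⟨hpair, ?_⟩
  have htrans : ∀ γ : Ω, ∃ x ∈ A ⊔ conjBy A y, x • α = γ := by
    intro γ
    by_cases hγ : γ = α
    · exact ⟨1, Subgroup.one_mem _, by rw [one_smul, hγ]⟩
    · obtain ⟨b, hb, hbe⟩ := hBtrans α δ hβα.symm hδβ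
      obtain ⟨a, ⟨ha, hae⟩, -⟩ := hreg δ γ hδα hγ
      exact ⟨a * b, Subgroup.mul_mem _ (Subgroup.mem_sup_left ha) (Subgroup.mem_sup_right hb),
        by rw [mul_smul, hbe, hae]⟩
  have hconj : ∀ g : Y, conjBy A g ≤ A ⊔ conjBy A y := by
    intro g
    obtain ⟨x, hx, hxe⟩ := htrans (g • α)
    rw [L1 g x hxe.symm]
    exact conjBy_le_of_le le_sup_left hx
  have hnormal : (A ⊔ conjBy A y).Normal := by
    constructor
    intro n hn g
    have h1 : g * n * g⁻¹ ∈ conjBy (A ⊔ conjBy A y) g := conj_mem_conjBy hn g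
    rw [conjBy_sup, conjBy_conjBy] at h1
    exact (sup_le (hconj g) (hconj (g * y))) h1
  apply le_antisymm
  · exact Subgroup.normalClosure_le_normal (le_sup_left (a := A) (b := conjBy A y))
  · refine sup_le Subgroup.le_normalClosure ?_
    intro x hx
    rw [mem_conjBy] at hx
    have h1 : y⁻¹ * x * y ∈ Subgroup.normalClosure (A : Set Y) := Subgroup.le_normalClosure hx
    have h2 := (Subgroup.normalClosure_normal (s := (A : Set Y))).conj_mem _ h1 y
    have h3 : y * (y⁻¹ * x * y) * y⁻¹ = x := by group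
    rwa [h3] at h2

end Cfsg.Agent.S5015
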