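import Cfsg.Statements.S5018
import Cfsg.Agent.Lib.Helper85RankOne

set_option autoImplicit false
open Cfsg

namespace Cfsg.Agent.S5018

open Cfsg.Agent.Lib.Helper85RankOne

/-- A rank one group is not nilpotent, and its second centre equals its centre. -/
theorem result {X : Type*} [Group X] {A B : Subgroup X} (h : Cfsg.IsRankOneGroup X A B) :
    Subgroup.upperCentralSeries X 2 = Subgroup.center X ∧ ¬ Group.IsNilpotent X := by
  obtain ⟨htop, hp⟩ := h
  constructor
  · apply le_antisymm
    · intro z hz
      rw [Subgroup.mem_upperCentralSeries_succ_iff] at hz
      rw [Subgroup.mem_center_iff]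
      intro y
      refine (central_of_commutator_central hp (z := z) (by rw [htop]; trivial) ?_ y
        (by rw [htop]; trivial)).symm
      intro x _ y _
      have := hz x
      rw [Subgroup.upperCentralSeries_one, Subgroup.mem_center_iff, commutatorElement_def] at this
      exact (this y).symm
    · rw [← Subgroup.upperCentralSeries_one]
      exact Subgroup.upperCentralSeries_mono X (by norm_num)
  · intro hnil
    apply not_isNilpotent hp
    rw [htop]
    exact Group.isNilpotent_top.mpr hnil

end Cfsg.Agent.S5018
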