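import Cfsg.Statements.S5020
import Cfsg.Agent.Lib.H85DSmall
import Cfsg.Agent.Lib.H85DQS
import Cfsg.Agent.Lib.H85DLe

set_option autoImplicit false
open Cfsg

namespace Cfsg.Agent.S5020



/-- Let X be a special rank one group with abelian unipotent subgroups A and B, and H = N(A) ∩ N(B) its diagonal subgroup. Then either A has at most three elements and X is isomorphic to SL₂(2), SL₂(3) or PSL₂(3); or X = X' A with the commutator subgroup X' quasisimple and the commutator subgroup ⁅A, H⁆ having more than three elements. -/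
theorem result {X : Type*} [Group X] {A B : Subgroup X} (h : Cfsg.IsRankOneGroup X A B)
    (hs : Cfsg.IsSpecialRankOnePair A B) (hab : Cfsg.HasAbelianUnipotents A B) :
    (ENat.card A ≤ 3 ∧ (Nonempty (X ≃* Matrix.SpecialLinearGroup (Fin 2) (ZMod 2)) ∨
        Nonempty (X ≃* Matrix.SpecialLinearGroup (Fin 2) (ZMod 3)) ∨
        Nonempty (X ≃* Matrix.ProjectiveSpecialLinearGroup (Fin 2) (ZMod 3)))) ∨
    (commutator X ⊔ A = ⊤ ∧ Cfsg.IsQuasisimple (commutator X) ∧
      3 < ENat.card ↥(⁅A, Cfsg.rankOneDiagonal A B⁆ : Subgroup X)) := by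
  by_cases h3 : ENat.card A ≤ 3
  · exact Or.inl ⟨h3, Cfsg.Agent.Lib.H85DSmall.small h hs h3⟩
  · rw [not_le] at h3
    obtain ⟨q1, q2⟩ := Cfsg.Agent.Lib.H85DQS.quasi h hs h3
    exact Or.inr ⟨q1, q2, Cfsg.Agent.Lib.H85DLe.card_comm h hs hab h3⟩
end Cfsg.Agent.S5020
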