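import Cfsg.Statements.S5023
import Cfsg.Agent.Lib.Helper85Quad
import Cfsg.Agent.S5021

set_option autoImplicit false
open Cfsg

namespace Cfsg.Agent.S5023

open Cfsg.Agent.Lib.Helper85RankOne Cfsg.Agent.Lib.Helper85Quad

/-- Let X be a rank one group with unipotent subgroups A and B that acts faithfully on an abelian group V (written additively) with A acting quadratically: a' • (a • v − v) = a • v − v for all a, a' in A and v in V. Then A is either torsion-free or an elementary abelian p-group for some prime p. -/
theorem result {X : Type*} [Group X] {A B : Subgroup X} (h : Cfsg.IsRankOneGroup X A B)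
    {V : Type*} [AddCommGroup V] [DistribMulAction X V] (hf : ∀ x : X, (∀ v : V, x • v = v) → x = 1)
    (hq : ∀ a ∈ A, ∀ a' ∈ A, ∀ v : V, a' • (a • v - v) = a • v - v) :
    (∀ a ∈ A, a ≠ 1 → ¬ IsOfFinOrder a) ∨ ∃ p : ℕ, p.Prime ∧ Cfsg.IsElementaryAbelian p A := by
  have hp := h.2
  have hinj : ∀ x y : X, (∀ v : V, x • v = y • v) → x = y := by
    intro x y hxy
    have : x * y⁻¹ = 1 := by
      apply hf
      intro v
      rw [mul_smul, hxy, smul_inv_smul]
    exact mul_inv_eq_one.mp this
  -- commuting from two-sided quadratic relations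
  have hcomm_of : ∀ x y : X, (∀ v : V, y • (x • v - v) = x • v - v) →
      (∀ v : V, x • (y • v - v) = y • v - v) → x * y = y * x := by
    intro x y h1 h2
    apply hinj
    intro v
    have e1 := h1 v
    have e2 := h2 v
    rw [smul_sub] at e1 e2
    rw [mul_smul, mul_smul]
    have e3 : x • y • v = y • v - v + x • v := by rw [← e2]; abel
    have e4 : y • x • v = x • v - v + y • v := by rw [← e1]; abel
    rw [e3, e4]; abel
  have hX : ∃ x y : X, ∃ n : V, y • (x • n - n) ≠ x • n - n := by
    by_contra hcon
    push Not at hcon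
    apply not_commute hp
    intro a _ b _
    exact hcomm_of a b (fun v => hcon a b v) (fun v => hcon b a v)
  have hs := special_of_quadratic h hq hX
  have hA : IsMulCommutative A := by
    rw [Cfsg.Agent.Lib.Helper85RankOne.isMulCommutative_iff]
    intro a ha a' ha'
    exact hcomm_of a a' (fun v => hq a ha a' ha' v) (fun v => hq a' ha' a ha v)
  have hB : IsMulCommutative B := by
    obtain ⟨x, -, hx⟩ := exists_conj_eq_right hp
    rw [← hx]; exact isMulCommutative_conjBy hA x
  rcases Cfsg.Agent.S5021.result h hs ⟨hA, hB⟩ with h1 | h1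
  · exact Or.inr h1
  · exact Or.inl h1.1

end Cfsg.Agent.S5023
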