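import Cfsg.Statements.S5024
import Cfsg.Agent.Lib.Helper85Root

set_option autoImplicit false
open Cfsg

namespace Cfsg.Agent.S5024

open Cfsg.Agent.Lib.Helper85RankOne Cfsg.Agent.Lib.Helper85Root

/-- Let S be a set of abstract root subgroups of G, A and C members of S, B a rank one partner of A in S and D a rank one partner of C in S. If the rank one group ⟨A, B⟩ is contained in ⟨C, D⟩ then the two coincide, and C and D are conjugates of A inside ⟨A, B⟩. -/
theorem result {G : Type*} [Group G] {S : Set (Subgroup G)} (hS : Cfsg.IsRootSubgroupSet S)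
    {A B C D : Subgroup G} (hA : A ∈ S) (hC : C ∈ S) (hB : B ∈ Cfsg.rankOnePartners S A) (hD : D ∈ Cfsg.rankOnePartners S C)
    (hle : A ⊔ B ≤ C ⊔ D) : A ⊔ B = C ⊔ D ∧ C ∈ Cfsg.unipotentSubgroups A B ∧ D ∈ Cfsg.unipotentSubgroups A B := by
  have hAB := hB.2
  have hCD := hD.2
  have h1 : A ∈ unipotentSubgroups C D := mem_unipotent_of_le hS hA hC hAB hCD hle
  have h2 : B ∈ unipotentSubgroups C D :=
    mem_unipotent_of_le hS hB.1 hC (RankOnePair_symm hAB) hCD (by rw [sup_comm]; exact hle)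
  refine ⟨(pair_of_mem hCD h1 h2 hAB.ne).2, ?_, ?_⟩
  · rw [unipotent_eq_of_mem hCD h1 h2 hAB.ne]
    exact left_mem_unipotent
  · rw [unipotent_eq_of_mem hCD h1 h2 hAB.ne]
    exact right_mem_unipotent hCD

end Cfsg.Agent.S5024
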