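import Cfsg.Statements.S5025
import Cfsg.Agent.Lib.Helper85Root

set_option autoImplicit false
open Cfsg

namespace Cfsg.Agent.S5025

open Cfsg.Agent.Lib.Helper85RankOne Cfsg.Agent.Lib.Helper85Root

/-- Let S be a set of abstract root subgroups of G, A ∈ S and B a rank one partner of A in S. If z ≠ 1 centralizes ⟨A, B⟩, then no product z a with a a non-identity element of A is a non-identity element of a member of S. -/
theorem result {G : Type*} [Group G] {S : Set (Subgroup G)} (hS : Cfsg.IsRootSubgroupSet S)
    {A B : Subgroup G} (hA : A ∈ S) (hB : B ∈ Cfsg.rankOnePartners S A) {z : G}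
    (hz : z ∈ Subgroup.centralizer ((A ⊔ B : Subgroup G) : Set G)) (hz1 : z ≠ 1) :
    ∀ a ∈ A, a ≠ 1 → z * a ∉ Cfsg.rootElements S := by
  apply central_translate hS hB.1 hB.2 _ hz1
  intro x hx
  exact ((Subgroup.mem_centralizer_iff.mp hz) x hx).symm

end Cfsg.Agent.S5025
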