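import Cfsg.Statements.S5026
import Cfsg.Agent.Lib.Helper85Root

set_option autoImplicit false
open Cfsg

namespace Cfsg.Agent.S5026

open Cfsg.Agent.Lib.Helper85RankOne Cfsg.Agent.Lib.Helper85Root

theorem le_centralizer_zpowers {G : Type*} [Group G] {E : Subgroup G} {x : G} :
    E ≤ Subgroup.centralizer ((Subgroup.zpowers x : Subgroup G) : Set G) ↔ ∀ e ∈ E, x * e = e * x := by
  constructor
  · intro h e he
    exact (Subgroup.mem_centralizer_iff.mp (h he)) x (Subgroup.mem_zpowers x)
  · intro h e he
    rw [Subgroup.mem_centralizer_iff]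
    rintro _ ⟨n, rfl⟩
    have hc : Commute x e := h e he
    exact (hc.zpow_left n)

/-- Let S be a degenerate set of abstract root subgroups of G (a set of abstract transvection groups) and let a, b be commuting non-identity elements of members of S with a b ≠ 1. Then the members of S centralizing a b are exactly those centralizing both a and b. -/
theorem result {G : Type*} [Group G] {S : Set (Subgroup G)} (hS : Cfsg.IsRootSubgroupSet S) (hdeg : Cfsg.IsDegenerateRootSet S)
    {a b : G} (ha : a ∈ Cfsg.rootElements S) (hb : b ∈ Cfsg.rootElements S) (hab : a * b = b * a) (hab1 : a * b ≠ 1) :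
    Cfsg.centralizingMembers S (Subgroup.zpowers (a * b)) =
      Cfsg.centralizingMembers S (Subgroup.zpowers a) ∩ Cfsg.centralizingMembers S (Subgroup.zpowers b) := by
  have key : ∀ E ∈ S, (∀ e ∈ E, (a * b) * e = e * (a * b)) → ∀ e ∈ E, a * e = e * a := by
    intro E hE hc
    by_contra hna
    obtain ⟨ha1, A, hA, haA⟩ := ha
    obtain ⟨hb1, B, hB, hbB⟩ := hb
    have hAE : IsRankOnePair A E := by
      rcases hS.pair A hA E hE with h | h | h
      · exfalso
        apply hna
        rw [commutator_eq_bot_iff'] at h
        exact h a haA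
      · exact h
      · exact absurd h (hdeg A hA E hE)
    have hEa : conjBy E a ≠ E := fun e => ha1 (norm_left hAE haA e)
    have hEab : conjBy E (b * a) = E := by
      rw [← hab]; exact conjBy_eq_of_commute hc
    have hEb : conjBy E a = conjBy E b⁻¹ := by
      rw [← conjBy_conjBy, conjBy_eq_iff] at hEab
      exact hEab
    have hBE : IsRankOnePair B E := by
      rcases hS.pair B hB E hE with h | h | h
      · exfalso
        apply hEa
        rw [commutator_eq_bot_iff'] at h
        rw [hEb]
        exact conjBy_eq_of_commute (h b⁻¹ (B.inv_mem hbB))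
      · exact h
      · exact absurd h (hdeg B hB E hE)
    obtain ⟨e, he, -, h1⟩ := partner_left hAE haA ha1
    obtain ⟨e', he', -, h2⟩ := partner_left hBE (B.inv_mem hbB) (by simpa using hb1)
    rw [hEb, ← h2, conjBy_eq_iff, conjBy_conjBy] at h1
    have htE : e⁻¹ * e' ∈ E := E.mul_mem (E.inv_mem he) he'
    by_cases hAB : A = B
    · apply hab1
      apply norm_left hAE (A.mul_mem haA (by rw [hAB]; exact hbB))
      exact conjBy_eq_of_commute hc
    · have hm : A ∈ unipotentSubgroups B E := by
        rw [h1]; exact conj_mem_unipotent left_mem_unipotent (Subgroup.mem_sup_right htE)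
      have hp := (pair_of_mem hBE hm left_mem_unipotent hAB).1
      -- `a ∈ A` and `b ∈ B` commute
      have hAb : conjBy A b = A := by
        by_contra hne
        have hm2 : conjBy A b ∈ unipotentSubgroups A B :=
          conj_mem_unipotent left_mem_unipotent (Subgroup.mem_sup_right hbB)
        have hp2 := (pair_of_mem hp left_mem_unipotent hm2 (Ne.symm hne)).1
        have hmem : a ∈ A ⊓ conjBy A b := by
          have h3 : a ∈ conjBy A b := by
            rw [mem_conjBy]
            have : b⁻¹ * a * b = a := by rw [mul_assoc, hab]; group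
            rw [this]; exact haA
          exact ⟨haA, h3⟩
        rw [inf_eq_bot hp2, Subgroup.mem_bot] at hmem
        exact ha1 hmem
      exact hb1 (norm_right hp hbB hAb)
  ext E
  simp only [centralizingMembers, Set.mem_ofPred_eq, Set.mem_inter_iff, le_centralizer_zpowers]
  constructor
  · rintro ⟨hE, hc⟩
    have h1 := key E hE hc
    refine ⟨⟨hE, h1⟩, hE, ?_⟩
    intro e he
    have h2 := hc e he
    have h3 := h1 e he
    have : a * (b * e) = a * (e * b) := by
      rw [← mul_assoc, h2, ← mul_assoc, ← mul_assoc, h3]
    exact mul_left_cancel this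
  · rintro ⟨⟨hE, h1⟩, -, h2⟩
    refine ⟨hE, ?_⟩
    intro e he
    rw [mul_assoc, h2 e he, ← mul_assoc, h1 e he, mul_assoc]

end Cfsg.Agent.S5026
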