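import Cfsg.Statements.S5027
import Cfsg.Agent.Lib.Helper85Root

set_option autoImplicit false
open Cfsg

namespace Cfsg.Agent.S5027

open Cfsg.Agent.Lib.Helper85RankOne Cfsg.Agent.Lib.Helper85Root

/-- Let S be a set of abstract root subgroups of G such that every member of S has a rank one partner in S (the graph of rank one pairs on S has no isolated vertex). Then the second centre of G equals its centre. -/
theorem result {G : Type*} [Group G] {S : Set (Subgroup G)} (hS : Cfsg.IsRootSubgroupSet S)
    (hF : ∀ A ∈ S, ¬ Cfsg.IsIsolatedIn (Cfsg.FAdj S) S A) : Subgroup.upperCentralSeries G 2 = Subgroup.center G := by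
  apply le_antisymm
  · intro z hz
    rw [Subgroup.mem_upperCentralSeries_succ_iff] at hz
    have hcomm : ∀ A ∈ S, A ≤ Subgroup.centralizer ({z} : Set G) := by
      intro A hA a ha
      rw [Subgroup.mem_centralizer_iff]
      intro z' hz'
      rw [Set.mem_singleton_iff] at hz'
      rw [hz']
      by_cases ha1 : a = 1
      · rw [ha1]; simp
      obtain ⟨B, hB, hp⟩ := exists_partner (hF A hA) hA
      have hw := hz a
      rw [Subgroup.upperCentralSeries_one, Subgroup.mem_center_iff, commutatorElement_def] at hw
      by_contra hne
      have hw1 : z * a * z⁻¹ * a⁻¹ ≠ 1 := by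
        intro e
        apply hne
        have : z * a = (z * a * z⁻¹ * a⁻¹) * (a * z) := by group
        rw [this, e, one_mul]
      have := central_translate hS hB hp (z := z * a * z⁻¹ * a⁻¹) (fun x _ => (hw x).symm) hw1 a ha ha1
      apply this
      have e : z * a * z⁻¹ * a⁻¹ * a = z * a * z⁻¹ := by group
      rw [e]
      refine ⟨?_, conjBy A z, hS.conj_mem A hA z, conj_mem_conjBy ha z⟩
      intro e1
      apply ha1
      have : a = z⁻¹ * (z * a * z⁻¹) * z := by group
      rw [this, e1]; simp
    have htop : (⊤ : Subgroup G) ≤ Subgroup.centralizer ({z} : Set G) := by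
      rw [← hS.generates]
      exact iSup₂_le hcomm
    rw [Subgroup.mem_center_iff]
    intro g
    have := htop (Subgroup.mem_top g)
    rw [Subgroup.mem_centralizer_iff] at this
    exact (this z rfl).symm
  · rw [← Subgroup.upperCentralSeries_one]
    exact Subgroup.upperCentralSeries_mono G (by norm_num)

end Cfsg.Agent.S5027
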