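import Cfsg.Statements.S5030
import Cfsg.Agent.Lib.Helper85Chain

set_option autoImplicit false
open Cfsg

namespace Cfsg.Agent.S5030
open Cfsg.Agent.Lib.Helper85Chain Cfsg.Agent.Lib.Helper85RankOne Cfsg.Agent.Lib.Helper85Line2



/-- Let S be a set of abstract root subgroups of G and A, B, C ∈ S with ⁅A, B⁆ ∈ S and ⁅B, C⁆ ∈ S, where A and C are different and commute. For a non-identity b ∈ B put X = ⟨A, b⁻¹ C b⟩ and Y = ⟨b⁻¹ A b, C⟩ and R = ⟨A, B, C⟩. Then X and Y are either both abelian or both nilpotent of class exactly two; X and Y commute elementwise; XY is normal in R with R = (XY) B; and R is nilpotent. -/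
theorem result {G : Type*} [Group G] {S : Set (Subgroup G)} (hS : Cfsg.IsRootSubgroupSet S)
    {A B C : Subgroup G} (hA : A ∈ S) (hB : B ∈ S) (hC : C ∈ S) (hAB : ⁅A, B⁆ ∈ S) (hBC : ⁅B, C⁆ ∈ S)
    (hAC : C ∈ Cfsg.commutingPartners S A)
    {b : G} (hb : b ∈ B) (hb1 : b ≠ 1) :
    ((IsMulCommutative ↥(A ⊔ Cfsg.conjBy C b⁻¹) ∧ IsMulCommutative ↥(Cfsg.conjBy A b⁻¹ ⊔ C)) ∨
      ((¬ IsMulCommutative ↥(A ⊔ Cfsg.conjBy C b⁻¹) ∧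
          ⁅⁅A ⊔ Cfsg.conjBy C b⁻¹, A ⊔ Cfsg.conjBy C b⁻¹⁆, A ⊔ Cfsg.conjBy C b⁻¹⁆ = ⊥) ∧
        (¬ IsMulCommutative ↥(Cfsg.conjBy A b⁻¹ ⊔ C) ∧
          ⁅⁅Cfsg.conjBy A b⁻¹ ⊔ C, Cfsg.conjBy A b⁻¹ ⊔ C⁆, Cfsg.conjBy A b⁻¹ ⊔ C⁆ = ⊥))) ∧
    ⁅A ⊔ Cfsg.conjBy C b⁻¹, Cfsg.conjBy A b⁻¹ ⊔ C⁆ = ⊥ ∧
    (∀ r ∈ A ⊔ B ⊔ C, Cfsg.conjBy ((A ⊔ Cfsg.conjBy C b⁻¹) ⊔ (Cfsg.conjBy A b⁻¹ ⊔ C)) r =
      (A ⊔ Cfsg.conjBy C b⁻¹) ⊔ (Cfsg.conjBy A b⁻¹ ⊔ C)) ∧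
    ((A ⊔ Cfsg.conjBy C b⁻¹) ⊔ (Cfsg.conjBy A b⁻¹ ⊔ C)) ⊔ B = A ⊔ B ⊔ C ∧
    Group.IsNilpotent ↥(A ⊔ B ⊔ C) := by
  have h : Chain S A B C := ⟨hA, hB, hC, hAB, hBC, hAC.2.2⟩
  have hWe : (A ⊔ Cfsg.conjBy C b⁻¹) ⊔ (Cfsg.conjBy A b⁻¹ ⊔ C) = Chain.WW A C b := by
    unfold Chain.WW
    rw [sup_comm C]
  have hAW : A ≤ Chain.WW A C b := Chain.A_le_WW A C b
  have hCW : C ≤ Chain.WW A C b := Chain.C_le_WW A C b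
  have hAR : A ≤ A ⊔ B ⊔ C := le_trans le_sup_left le_sup_left
  have hBR : B ≤ A ⊔ B ⊔ C := le_trans le_sup_right le_sup_left
  have hCR : C ≤ A ⊔ B ⊔ C := le_sup_right
  refine ⟨?_, h.cXY hS hb, ?_, ?_, h.nilpotent hS hb hb1⟩
  · by_cases hc : ⁅A, Cfsg.conjBy C b⁻¹⁆ = ⊥
    · left
      refine ⟨(h.X_comm_iff hS b⁻¹).mpr hc, ?_⟩
      rw [sup_comm]
      exact (h.symm.X_comm_iff hS b⁻¹).mpr ((h.comm_iff_comm hS hb hb1).mp hc)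
    · right
      refine ⟨⟨fun h1 => hc ((h.X_comm_iff hS b⁻¹).mp h1), h.X_class hS hb hb1⟩, ?_⟩
      rw [sup_comm]
      exact ⟨fun h1 => hc ((h.comm_iff_comm hS hb hb1).mpr ((h.symm.X_comm_iff hS b⁻¹).mp h1)),
        h.symm.X_class hS hb hb1⟩
  · rw [hWe]
    apply conjBy_eq_of_le
    rw [← nz_iff]
    exact ((Nz.of_le hAW).sup (h.nz_WW_B hS hb hb1)).sup (Nz.of_le hCW)
  · rw [hWe]
    apply le_antisymm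
    · have hbR : b⁻¹ ∈ A ⊔ B ⊔ C := hBR (B.inv_mem hb)
      exact sup_le (sup_le (sup_le hAR (conjBy_le_of_le hCR hbR))
        (sup_le hCR (conjBy_le_of_le hAR hbR))) hBR
    · exact sup_le (sup_le (le_trans hAW le_sup_left) le_sup_right) (le_trans hCW le_sup_left)

end Cfsg.Agent.S5030
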