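import Cfsg.Statements.S5032
import Cfsg.Agent.Lib.Helper85Graph

set_option autoImplicit false
open Cfsg

namespace Cfsg.Agent.S5032

open Cfsg.Agent.Lib.Helper85RankOne Cfsg.Agent.Lib.Helper85Root Cfsg.Agent.Lib.Helper85Comm Cfsg.Agent.Lib.Helper85Graph

variable {G : Type*} [Group G] {S : Set (Subgroup G)}

theorem reach_step (hS : IsRootSubgroupSet S) (hpart : ∀ A ∈ S, ∃ A' ∈ S, IsRankOnePair A A')
    {D E : Subgroup G} (hD : D ∈ S) (hE : E ∈ S) {d : G} (hd : d ∈ D) :
    Relation.ReflTransGen (FAdj S) E (conjBy E d) := by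
  rcases hS.pair D hD E hE with h | h | h
  · rw [commutator_eq_bot_iff'] at h
    rw [conjBy_eq_of_commute (h d hd)]
  · by_cases hne : conjBy E d = E
    · rw [hne]
    · have hm := conj_mem_unipotent (right_mem_unipotent h) (Subgroup.mem_sup_left hd)
      have hp := (pair_of_mem h (right_mem_unipotent h) hm (Ne.symm hne)).1
      exact Relation.ReflTransGen.single ⟨hE, hS.conj_mem E hE d, hp⟩
  · obtain ⟨E', hE', hpE⟩ := hpart E hE
    obtain ⟨C', hC', hpC⟩ := hpart _ h.1
    have hl : E ∈ linePartners S ⁅E, D⁆ := mem_linePartners hS hE hE' hpE (commutatorCase_symm h)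
    rw [Subgroup.commutator_comm] at hl
    have hr : Relation.ReflTransGen (FAdj S) ⁅D, E⁆ E :=
      reach_of_linePartner hS h.1 hC' hpC hE' hpE hl
    have hr2 := reach_conj hS hr d
    rw [conjBy_eq_of_commute (fun c hc => commutator_commute_left h d hd c hc)] at hr2
    exact (reach_symm hr).trans hr2

/-- The elements moving every member of `S` inside its component. -/
def reachSubgroup (hS : IsRootSubgroupSet S) : Subgroup G where
  carrier := {g | ∀ E ∈ S, Relation.ReflTransGen (FAdj S) E (conjBy E g)}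
  one_mem' := by
    intro E _
    rw [conjBy_one]
  mul_mem' := by
    intro g k hg hk E hE
    rw [← conjBy_conjBy]
    exact (hk E hE).trans (hg _ (hS.conj_mem E hE k))
  inv_mem' := by
    intro g hg E hE
    have := hg _ (hS.conj_mem E hE g⁻¹)
    rw [conjBy_conjBy_inv] at this
    exact reach_symm this

theorem reach_conjBy (hS : IsRootSubgroupSet S) (hpart : ∀ A ∈ S, ∃ A' ∈ S, IsRankOnePair A A')
    (g : G) : ∀ E ∈ S, Relation.ReflTransGen (FAdj S) E (conjBy E g) := by
  have hle : (⊤ : Subgroup G) ≤ reachSubgroup hS := by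
    rw [← hS.generates]
    apply iSup₂_le
    intro D hD d hd E hE
    exact reach_step hS hpart hD hE hd
  exact hle (Subgroup.mem_top g)

/-- Let S be a set of abstract root subgroups of G with more than one member. Then the graph of rank one pairs on S is connected if and only if S is a single conjugacy class of G and some member of S has a rank one partner in S. -/
theorem result {G : Type*} [Group G] {S : Set (Subgroup G)} (hS : Cfsg.IsRootSubgroupSet S) (h2 : ∃ A ∈ S, ∃ B ∈ S, A ≠ B) :
    Cfsg.IsConnectedFamily (Cfsg.FAdj S) S ↔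
      (Cfsg.IsConjClassOfSubgroups S ∧ ∃ A ∈ S, ¬ Cfsg.IsIsolatedIn (Cfsg.FAdj S) S A) := by
  constructor
  · intro hc
    obtain ⟨A, hA, B, hB, hAB⟩ := h2
    refine ⟨⟨⟨A, hA⟩, fun C hC D hD => conj_of_reach (hc C hC D hD)⟩, A, hA, ?_⟩
    obtain ⟨C, hC, hp⟩ := exists_adj_of_reach (hc A hA B hB) hAB.symm
    exact not_isolated hA hC hp
  · rintro ⟨⟨-, hconj⟩, A₀, hA₀, hiso⟩
    obtain ⟨A₀', hA₀', hp₀⟩ := exists_partner hiso hA₀
    have hpart : ∀ A ∈ S, ∃ A' ∈ S, IsRankOnePair A A' := by
      intro A hA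
      obtain ⟨g, rfl⟩ := hconj A₀ hA₀ A hA
      exact ⟨conjBy A₀' g, hS.conj_mem _ hA₀' g, isRankOnePair_conj hp₀ g⟩
    intro A hA B hB
    obtain ⟨g, rfl⟩ := hconj A hA B hB
    exact reach_conjBy hS hpart g A hA

end Cfsg.Agent.S5032
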