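import Cfsg.Statements.S5033
import Cfsg.Agent.Lib.Helper85Line

set_option autoImplicit false
open Cfsg

namespace Cfsg.Agent.S5033

open Cfsg.Agent.Lib.Helper85RankOne Cfsg.Agent.Lib.Helper85Root Cfsg.Agent.Lib.Helper85Comm Cfsg.Agent.Lib.Helper85Graph
  Cfsg.Agent.Lib.Helper85Special Cfsg.Agent.Lib.Helper85Transfer Cfsg.Agent.Lib.Helper85Line

open scoped commutatorElement

variable {G : Type*} [Group G] {S : Set (Subgroup G)}

theorem all_partner (h2 : ∃ A ∈ S, ∃ B ∈ S, A ≠ B) (h1 : IsConnectedFamily (FAdj S) S) :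
    ∀ A ∈ S, ∃ A' ∈ S, IsRankOnePair A A' := by
  intro A hA
  obtain ⟨C, hC, D, hD, hCD⟩ := h2
  by_cases hAC : C = A
  · exact exists_adj_of_reach (h1 A hA D hD) (by rw [← hAC]; exact hCD.symm)
  · exact exists_adj_of_reach (h1 A hA C hC) hAC

theorem top_le_of_member (hS : IsRootSubgroupSet S) (hconj : ∀ A ∈ S, ∀ B ∈ S, ∃ g : G, B = conjBy A g)
    {N : Subgroup G} (hN : N.Normal) {C : Subgroup G} (hC : C ∈ S) (hle : C ≤ N) : N = ⊤ := by
  rw [eq_top_iff, ← hS.generates]
  apply iSup₂_le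
  intro D hD
  obtain ⟨g, rfl⟩ := hconj C hC D hD
  intro x hx
  rw [mem_conjBy] at hx
  have := hN.conj_mem _ (hle hx) g
  have e : g * (g⁻¹ * x * g) * g⁻¹ = x := by group
  rwa [e] at this

theorem commutator_eq_top (hS : IsRootSubgroupSet S)
    (hpart : ∀ A ∈ S, ∃ A' ∈ S, IsRankOnePair A A')
    (hconj : ∀ A ∈ S, ∀ B ∈ S, ∃ g : G, B = conjBy A g)
    (h3 : IsDegenerateRootSet S → ∀ A ∈ S, 3 < ENat.card A)
    (h4 : ∀ A ∈ S, ∀ B ∈ rankOnePartners S A, IsSpecialRankOnePair A B) : commutator G = ⊤ := by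
  by_cases hdeg : IsDegenerateRootSet S
  · rw [eq_top_iff, ← hS.generates]
    apply iSup₂_le
    intro A hA
    obtain ⟨B, hB, hp⟩ := hpart A hA
    exact le_commutator (h4 A hA B ⟨hB, hp⟩) (h3 hdeg A hA)
  · unfold IsDegenerateRootSet at hdeg
    push Not at hdeg
    obtain ⟨A, hA, B, hB, hc⟩ := hdeg
    apply top_le_of_member hS hconj inferInstance hc.1
    rw [commutator_def]
    exact Subgroup.commutator_mono le_top le_top

theorem commutator_conj_le {N E A : Subgroup G} (hN : N.Normal) (hEA : ⁅E, A⁆ = ⊥) {n : G}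
    (hn : n ∈ N) : ⁅E, conjBy A n⁆ ≤ N := by
  rw [Subgroup.commutator_le]
  intro e he y hy
  rw [mem_conjBy] at hy
  set a := n⁻¹ * y * n with ha
  have hea : e * a = a * e := (commutator_eq_bot_iff'.mp hEA) e he a hy
  have hy' : y = n * a * n⁻¹ := by rw [ha]; group
  have e1 : ⁅e, y⁆ = (e * n * e⁻¹) * ((e * a) * (n⁻¹ * e⁻¹ * n) * a⁻¹) * n⁻¹ := by
    rw [commutatorElement_def, hy']; group
  have e2 : (e * a) * (n⁻¹ * e⁻¹ * n) * a⁻¹ = a * ((e * n⁻¹ * e⁻¹) * n) * a⁻¹ := by
    rw [hea]; group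
  rw [e1, e2]
  refine N.mul_mem (N.mul_mem (hN.conj_mem n hn e) ?_) (N.inv_mem hn)
  exact hN.conj_mem _ (N.mul_mem (hN.conj_mem _ (N.inv_mem hn) e) hn) a

theorem commutator_sup_le {N A X : Subgroup G} (hN : N.Normal) (hA : IsMulCommutative A)
    (hX : X ≤ N ⊔ A) : ⁅X, X⁆ ≤ N := by
  have h1 : ⁅X, X⁆.map (QuotientGroup.mk' N) = ⊥ := by
    rw [Subgroup.map_commutator, eq_bot_iff]
    have h2 : X.map (QuotientGroup.mk' N) ≤ A.map (QuotientGroup.mk' N) := by
      refine (Subgroup.map_mono hX).trans ?_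
      rw [Subgroup.map_sup]
      refine sup_le ?_ le_rfl
      have : N.map (QuotientGroup.mk' N) = ⊥ := by
        rw [Subgroup.map_eq_bot_iff, QuotientGroup.ker_mk']
      rw [this]; exact bot_le
    refine (Subgroup.commutator_mono h2 h2).trans ?_
    rw [← Subgroup.map_commutator, Subgroup.commutator_self_eq_bot_iff.mpr hA, Subgroup.map_bot]
  rw [Subgroup.map_eq_bot_iff, QuotientGroup.ker_mk'] at h1
  exact h1

theorem normal_dichotomy' (hS : IsRootSubgroupSet S)
    (hpart : ∀ A ∈ S, ∃ A' ∈ S, IsRankOnePair A A')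
    (hconj : ∀ A ∈ S, ∀ B ∈ S, ∃ g : G, B = conjBy A g)
    (h2' : ∀ A ∈ S, ∀ C ∈ S, A ≠ C → centralizingMembers S A ≠ centralizingMembers S C)
    (h3 : IsDegenerateRootSet S → ∀ A ∈ S, 3 < ENat.card A)
    (h4 : ∀ A ∈ S, ∀ B ∈ rankOnePartners S A, IsSpecialRankOnePair A B) :
    ∀ N : Subgroup G, N.Normal → N ≤ Subgroup.center G ∨ N = ⊤ := by
  intro N hN
  by_cases htop : N = ⊤
  · exact Or.inr htop
  left
  have hstar : ∀ C ∈ S, ¬ C ≤ N := fun C hC hle => htop (top_le_of_member hS hconj hN hC hle)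
  -- (N3)
  have hN3 : ∀ E ∈ S, ∀ A ∈ S, ⁅E, A⁆ = ⊥ → ∀ n ∈ N, ¬ RootCommutatorCase S E (conjBy A n) := by
    intro E _ A _ hEA n hn hc
    exact hstar _ hc.1 (commutator_conj_le hN hEA hn)
  have hself : ∀ A ∈ S, ⁅A, A⁆ = ⊥ := fun A hA =>
    Subgroup.commutator_self_eq_bot_iff.mpr (hS.commutative A hA)
  -- case (α) is impossible
  have hα : ∀ A ∈ S, ∀ n ∈ N, ¬ IsRankOnePair A (conjBy A n) := by
    intro A hA n hn hp
    have hB : conjBy A n ∈ S := hS.conj_mem A hA n
    by_cases hcard : 3 < ENat.card A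
    · apply hstar A hA
      refine (le_commutator_sup (h4 A hA _ ⟨hB, hp⟩) hcard).trans ?_
      apply commutator_sup_le hN (hS.commutative A hA)
      refine sup_le le_sup_right ?_
      exact conjBy_le_of_le le_sup_right (Subgroup.mem_sup_left hn)
    · have hdeg : ¬ IsDegenerateRootSet S := fun hd => hcard (h3 hd A hA)
      unfold IsDegenerateRootSet at hdeg
      push Not at hdeg
      obtain ⟨C, hC, D, hD, hc⟩ := hdeg
      obtain ⟨g, rfl⟩ := hconj A hA C hC
      have hc' : RootCommutatorCase S A (conjBy D g⁻¹) := by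
        apply commutatorCase_of_mem hS hA (hS.conj_mem D hD g⁻¹)
        have := hS.conj_mem _ hc.1 g⁻¹
        rwa [conjBy_commutator, conjBy_inv_conjBy] at this
      obtain ⟨E, hE, -, hAE, hEB⟩ := exists_line_commutator hS hA hB hp hc'
      exact hN3 E hE.1 A hA (by rw [Subgroup.commutator_comm]; exact hAE) n hn hEB
  -- hence (γ)
  have hγ : ∀ A ∈ S, ∀ n ∈ N, ⁅A, conjBy A n⁆ = ⊥ := by
    intro A hA n hn
    rcases hS.pair A hA _ (hS.conj_mem A hA n) with h | h | h
    · exact h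
    · exact absurd h (hα A hA n hn)
    · exact absurd h (hN3 A hA A hA (hself A hA) n hn)
  have hsub : ∀ A ∈ S, ∀ n ∈ N, ∀ E ∈ S, ⁅E, A⁆ = ⊥ → ⁅E, conjBy A n⁆ = ⊥ := by
    intro A hA n hn E hE hEA
    rcases hS.pair E hE _ (hS.conj_mem A hA n) with h | h | h
    · exact h
    · exfalso
      have hFA : IsRankOnePair (conjBy E n⁻¹) A := by
        have := isRankOnePair_conj h n⁻¹
        rwa [conjBy_inv_conjBy] at this
      obtain ⟨e, he, he1⟩ := exists_ne_one_of_ne_bot (hS.ne_bot E hE)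
      have hf : n⁻¹ * e * n⁻¹⁻¹ ∈ conjBy E n⁻¹ := conj_mem_conjBy he n⁻¹
      have hf1 : n⁻¹ * e * n⁻¹⁻¹ ≠ 1 := by
        intro e1
        apply he1
        have : e = n * (n⁻¹ * e * n⁻¹⁻¹) * n⁻¹ := by group
        rw [this, e1]; group
      set f := n⁻¹ * e * n⁻¹⁻¹ with hfdef
      have hxN : f * e⁻¹ ∈ N := by
        have : f * e⁻¹ = n⁻¹ * (e * n * e⁻¹) := by rw [hfdef]; group
        rw [this]
        exact N.mul_mem (N.inv_mem hn) (hN.conj_mem n hn e)
      have hAe : conjBy A e⁻¹ = A :=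
        conjBy_eq_of_commute (fun x hx => (commutator_eq_bot_iff'.mp hEA) e⁻¹ (E.inv_mem he) x hx)
      have hAx : conjBy A (f * e⁻¹) = conjBy A f := by rw [← conjBy_conjBy, hAe]
      have hne : conjBy A f ≠ A := fun e2 => hf1 (norm_left hFA hf e2)
      have hm : conjBy A f ∈ unipotentSubgroups (conjBy E n⁻¹) A :=
        conj_mem_unipotent (right_mem_unipotent hFA) (Subgroup.mem_sup_left hf)
      have hp2 := (pair_of_mem hFA (right_mem_unipotent hFA) hm hne.symm).1
      rw [← hAx] at hp2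
      exact hα A hA _ hxN hp2
    · exact absurd h (hN3 E hE A hA hEA n hn)
  have hfix : ∀ n ∈ N, ∀ A ∈ S, conjBy A n = A := by
    intro n hn A hA
    by_contra hne
    apply h2' A hA _ (hS.conj_mem A hA n) (Ne.symm hne)
    ext E
    simp only [centralizingMembers, Set.mem_ofPred_eq, ← Subgroup.commutator_eq_bot_iff_le_centralizer]
    constructor
    · rintro ⟨hE, h⟩; exact ⟨hE, hsub A hA n hn E hE h⟩
    · rintro ⟨hE, h⟩
      refine ⟨hE, ?_⟩
      have := hsub _ (hS.conj_mem A hA n) n⁻¹ (N.inv_mem hn) E hE h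
      rwa [conjBy_inv_conjBy] at this
  intro n hn
  have hcomm : ∀ A ∈ S, A ≤ Subgroup.centralizer ({n} : Set G) := by
    intro A hA a ha
    obtain ⟨B, hB, hp⟩ := hpart A hA
    rw [Subgroup.mem_centralizer_iff]
    intro z hz
    rw [Set.mem_singleton_iff] at hz
    rw [hz]
    exact central_of_normalizes hp (fun C hC => hfix n hn C (unipotent_subset hS hA hC)) a
      (Subgroup.mem_sup_left ha)
  have htop' : (⊤ : Subgroup G) ≤ Subgroup.centralizer ({n} : Set G) := by
    rw [← hS.generates]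
    exact iSup₂_le hcomm
  rw [Subgroup.mem_center_iff]
  intro g
  have := htop' (Subgroup.mem_top g)
  rw [Subgroup.mem_centralizer_iff] at this
  exact (this n rfl).symm

/-- Quasisimplicity criterion for groups generated by abstract root subgroups. Let S be a set of abstract root subgroups of G with more than one member such that: the graph of rank one pairs on S is connected; no two different members of S have the same set of commuting members of S; if S is degenerate then every member of S has more than three elements; and every rank one pair in S is special. Then for every A ∈ S one has G = G' A with A ∩ G' ≠ 1, and the commutator subgroup G' is quasisimple. Moreover G is perfect if S is non-degenerate, or if some rank one pair A, B in S generates a perfect group. -/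
theorem result {G : Type*} [Group G] {S : Set (Subgroup G)} (hS : Cfsg.IsRootSubgroupSet S) (h2 : ∃ A ∈ S, ∃ B ∈ S, A ≠ B)
    (h1 : Cfsg.IsConnectedFamily (Cfsg.FAdj S) S)
    (h2' : ∀ A ∈ S, ∀ C ∈ S, A ≠ C → Cfsg.centralizingMembers S A ≠ Cfsg.centralizingMembers S C)
    (h3 : Cfsg.IsDegenerateRootSet S → ∀ A ∈ S, 3 < ENat.card A)
    (h4 : ∀ A ∈ S, ∀ B ∈ Cfsg.rankOnePartners S A, Cfsg.IsSpecialRankOnePair A B) :
    (∀ A ∈ S, commutator G ⊔ A = ⊤ ∧ A ⊓ commutator G ≠ ⊥) ∧ Cfsg.IsQuasisimple ↥(commutator G) ∧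
    (Cfsg.IsNondegenerateRootSet S → commutator G = ⊤) ∧
    ((∃ A ∈ S, ∃ B ∈ Cfsg.rankOnePartners S A, Group.IsPerfect ↥(A ⊔ B)) → commutator G = ⊤) := by
  have hpart := all_partner h2 h1
  have hconj : ∀ A ∈ S, ∀ B ∈ S, ∃ g : G, B = conjBy A g :=
    fun A hA B hB => conj_of_reach (h1 A hA B hB)
  have hperf : commutator G = ⊤ := commutator_eq_top hS hpart hconj h3 h4
  have hQ : IsQuasisimple G := by
    refine ⟨⟨hperf⟩, isSimpleGroup_quotient_center ?_ (normal_dichotomy' hS hpart hconj h2' h3 h4)⟩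
    intro hc
    obtain ⟨A, hA, -⟩ := h2
    obtain ⟨B, -, hp⟩ := hpart A hA
    apply not_commute hp
    intro a _ b _
    have ha : a ∈ Subgroup.center G := by rw [hc]; trivial
    exact (Subgroup.mem_center_iff.mp ha b).symm
  refine ⟨?_, ?_, fun _ => hperf, fun _ => hperf⟩
  · intro A hA
    rw [hperf]
    refine ⟨top_sup_eq A, ?_⟩
    rw [inf_top_eq]
    exact hS.ne_bot A hA
  · rw [hperf]
    exact isQuasisimple_of_equiv Subgroup.topEquiv hQ

end Cfsg.Agent.S5033
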