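import Cfsg.Statements.S5043
import Cfsg.Agent.Lib.H12RSLNondeg
import Cfsg.Agent.Lib.H12RSLGen
import Cfsg.Agent.Lib.H12RSLNotRank
import Cfsg.Agent.Lib.H12RSLCommon

set_option autoImplicit false
open Matrix
open Cfsg

namespace Cfsg.Agent.S5043

open Cfsg.Agent.Lib.H12RSLDefs Cfsg.Agent.Lib.H12RSLMem Cfsg.Agent.Lib.H12RSLBasic
  Cfsg.Agent.Lib.H12RSLSig Cfsg.Agent.Lib.H12RSLCaseA Cfsg.Agent.Lib.H12RSLCaseC2
  Cfsg.Agent.Lib.H12RSLPSL2 Cfsg.Agent.Lib.H12RootRankOne Cfsg.Agent.Lib.H12RSLNondeg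
  Cfsg.Agent.Lib.H12RSLGen Cfsg.Agent.Lib.H12RSLNotRank Cfsg.Agent.Lib.H12RSLCommon
  Cfsg.Agent.Lib.H12RootSymm Cfsg.Agent.Lib.H12RootComm

theorem rootSet (k : Type*) [Field k] (n : ℕ) : Cfsg.IsRootSubgroupSet (SigSL k n) where
  commutative := by
    intro A hA
    obtain ⟨p, φ, h, rfl⟩ := (mem_SigSL_iff n A).1 hA
    exact TSL_comm h.2.2
  ne_bot := by
    intro A hA
    obtain ⟨p, φ, h, rfl⟩ := (mem_SigSL_iff n A).1 hA
    exact TSL_ne_bot h
  generates := iSup_SigSL n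
  conj_mem := by
    rintro A ⟨g, rfl⟩ h
    exact ⟨h * g, conjBy_conjBy _ g h⟩
  pair := by
    intro A hA B hB
    obtain ⟨p, φ, h1, rfl⟩ := (mem_SigSL_iff n A).1 hA
    obtain ⟨r, ψ, h2, rfl⟩ := (mem_SigSL_iff n B).1 hB
    by_cases h3 : φ ⬝ᵥ r = 0
    · by_cases h4 : ψ ⬝ᵥ p = 0
      · exact Or.inl (comm_eq_bot h1.2.2 h2.2.2 h3 h4)
      · exact Or.inr (Or.inr (commCase n h1 h2 h3 h4))
    · by_cases h4 : ψ ⬝ᵥ p = 0
      · exact Or.inr (Or.inr (commCase' n h1 h2 h3 h4))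
      · exact Or.inr (Or.inl (rankOne_of_psl2 (psl2 h1 h2 h3 h4)))

theorem main (k : Type*) [Field k] (n : ℕ) :
    Cfsg.IsRootSubgroupClass (SigSL k n) ∧ Cfsg.IsNondegenerateRootSet (SigSL k n) ∧
    Cfsg.IsKRootSubgroupSet k (SigSL k n) ∧
    Cfsg.IsConnectedFamily (Cfsg.FAdj (SigSL k n)) (SigSL k n) := by
  refine ⟨⟨rootSet k n, conjClass_of_conj _⟩, nondeg n, ⟨rootSet k n, ?_⟩, ?_⟩
  · intro A hA B hB hAB
    obtain ⟨p, φ, h1, rfl⟩ := (mem_SigSL_iff n A).1 hA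
    obtain ⟨r, ψ, h2, rfl⟩ := (mem_SigSL_iff n B).1 hB
    by_cases h3 : φ ⬝ᵥ r = 0
    · by_cases h4 : ψ ⬝ᵥ p = 0
      · exact absurd hAB (not_rankOne_of_comm (comm_eq_bot h1.2.2 h2.2.2 h3 h4) (TSL_ne_bot h1))
      · exact absurd hAB (not_rankOne h1 h2 h3 h4)
    · by_cases h4 : ψ ⬝ᵥ p = 0
      · exact absurd (Cfsg.RankOnePair_symm hAB) (not_rankOne h2 h1 h4 h3)
      · exact psl2 h1 h2 h3 h4
  · apply connected_of_common
    intro A hA B hB
    obtain ⟨p, φ, h1, rfl⟩ := (mem_SigSL_iff n A).1 hA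
    obtain ⟨r, ψ, h2, rfl⟩ := (mem_SigSL_iff n B).1 hB
    obtain ⟨s, χ, h, a1, a2, a3, a4⟩ := exists_common h1 h2
    exact ⟨TSL s χ, (mem_SigSL_iff n _).2 ⟨s, χ, h, rfl⟩, rankOne_of_psl2 (psl2 h1 h a1 a2),
      rankOne_of_psl2 (psl2 h h2 a4 a3)⟩

/-- Let k be a field and n a natural number. In SL_{n+3}(k) (so in every dimension at least 3) the conjugates of the root subgroup of elementary transvections 1 + c E₁₂ (c ∈ k) — that is, the groups of transvections attached to an incident point–hyperplane pair — form a non-degenerate class of abstract k-root subgroups of SL_{n+3}(k) whose graph of rank one pairs is connected. -/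
theorem result (k : Type*) [Field k] (n : ℕ) :
    Cfsg.IsRootSubgroupClass {A : Subgroup (Matrix.SpecialLinearGroup (Fin (n + 3)) k) |
        ∃ g : Matrix.SpecialLinearGroup (Fin (n + 3)) k,
          A = Cfsg.conjBy (Subgroup.closure {t : Matrix.SpecialLinearGroup (Fin (n + 3)) k |
            ∃ c : k, (t : Matrix (Fin (n + 3)) (Fin (n + 3)) k) = Matrix.transvection 0 1 c}) g} ∧
    Cfsg.IsNondegenerateRootSet {A : Subgroup (Matrix.SpecialLinearGroup (Fin (n + 3)) k) |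
        ∃ g : Matrix.SpecialLinearGroup (Fin (n + 3)) k,
          A = Cfsg.conjBy (Subgroup.closure {t : Matrix.SpecialLinearGroup (Fin (n + 3)) k |
            ∃ c : k, (t : Matrix (Fin (n + 3)) (Fin (n + 3)) k) = Matrix.transvection 0 1 c}) g} ∧
    Cfsg.IsKRootSubgroupSet k {A : Subgroup (Matrix.SpecialLinearGroup (Fin (n + 3)) k) |
        ∃ g : Matrix.SpecialLinearGroup (Fin (n + 3)) k,
          A = Cfsg.conjBy (Subgroup.closure {t : Matrix.SpecialLinearGroup (Fin (n + 3)) k |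
            ∃ c : k, (t : Matrix (Fin (n + 3)) (Fin (n + 3)) k) = Matrix.transvection 0 1 c}) g} ∧
    Cfsg.IsConnectedFamily (Cfsg.FAdj {A : Subgroup (Matrix.SpecialLinearGroup (Fin (n + 3)) k) |
        ∃ g : Matrix.SpecialLinearGroup (Fin (n + 3)) k,
          A = Cfsg.conjBy (Subgroup.closure {t : Matrix.SpecialLinearGroup (Fin (n + 3)) k |
            ∃ c : k, (t : Matrix (Fin (n + 3)) (Fin (n + 3)) k) = Matrix.transvection 0 1 c}) g})
      {A : Subgroup (Matrix.SpecialLinearGroup (Fin (n + 3)) k) |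
        ∃ g : Matrix.SpecialLinearGroup (Fin (n + 3)) k,
          A = Cfsg.conjBy (Subgroup.closure {t : Matrix.SpecialLinearGroup (Fin (n + 3)) k |
            ∃ c : k, (t : Matrix (Fin (n + 3)) (Fin (n + 3)) k) = Matrix.transvection 0 1 c}) g} :=
  main k n

end Cfsg.Agent.S5043
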