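import Cfsg.Statements.S5045
import Cfsg.Agent.Lib.Helper60RIa

set_option autoImplicit false
open Cfsg

namespace Cfsg.Agent.S5045

open Cfsg.Agent.Lib.Helper60RIa

variable {G : Type*} [Group G] {D : Set G}

theorem component_eq {a b : G} (h : Relation.ReflTransGen (OddAdj D) a b) :
    elemComponentOf (OddAdj D) D a = elemComponentOf (OddAdj D) D b := by
  have h' := reach_symm h
  ext c
  constructor
  · rintro ⟨hc, hr⟩; exact ⟨hc, h'.trans hr⟩
  · rintro ⟨hc, hr⟩; exact ⟨hc, h.trans hr⟩

theorem exists_adj {a : G} (h : ∃ a' ∈ elemComponentOf (OddAdj D) D a, a' ≠ a) :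
    ∃ c, OddAdj D a c := by
  obtain ⟨a', ⟨-, hr⟩, hne⟩ := h
  rcases Relation.ReflTransGen.cases_head hr with h1 | ⟨c, hc, -⟩
  · exact absurd h1.symm hne
  · exact ⟨c, hc⟩

/-- product partners with odd partners are joined by a path -/
theorem reach_of_partner (hD : IsRootInvolutionSet D) {a f a' f' : G}
    (hf : f ∈ productPartners D a) (ha' : OddAdj D a a') (hf' : OddAdj D f f') :
    Relation.ReflTransGen (OddAdj D) a f := by
  obtain ⟨⟨hfD, hfa, hne⟩, hfaD⟩ := hf
  have haD := ha'.1
  by_cases h1 : Odd (orderOf (f * a'))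
  · have hne1 : f ≠ a' := by
      rintro rfl
      exact ha'.2.2.1 (eq_of_commute_of_odd (hD.orderOf_eq a haD) (hD.orderOf_eq f hfD) hfa.symm
        ha'.2.2.2)
    exact (Relation.ReflTransGen.single ha').tail (oddAdj_symm ⟨hfD, ha'.2.1, hne1, h1⟩)
  by_cases h2 : Odd (orderOf (a * f'))
  · have hne2 : a ≠ f' := by
      rintro rfl
      exact hf'.2.2.1 (eq_of_commute_of_odd (hD.orderOf_eq f hfD) (hD.orderOf_eq a haD) hfa
        hf'.2.2.2)
    exact (Relation.ReflTransGen.single ⟨haD, hf'.2.1, hne2, h2⟩).tail (oddAdj_symm hf')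
  have hafD : a * f ∈ D := by rw [← hfa]; exact hfaD
  have h3 : Odd (orderOf (a * f * a')) :=
    odd_mul hD haD ha'.2.1 hfD hfa.symm hafD ha'.2.2.1 ha'.2.2.2 h1
  have h4 : Odd (orderOf (f * a * f')) :=
    odd_mul hD hfD hf'.2.1 haD hfa hfaD hf'.2.2.1 hf'.2.2.2 h2
  have hne3 : a * f ≠ a' := by
    intro e
    apply ha'.2.2.1
    apply eq_of_commute_of_odd (hD.orderOf_eq a haD) (hD.orderOf_eq a' ha'.2.1) _ ha'.2.2.2
    rw [← e, mul_assoc a f a, hfa]
  have hne4 : f * a ≠ f' := by
    intro e
    apply hf'.2.2.1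
    apply eq_of_commute_of_odd (hD.orderOf_eq f hfD) (hD.orderOf_eq f' hf'.2.1) _ hf'.2.2.2
    rw [← e, mul_assoc f a f, ← hfa]
  have e1 : OddAdj D a' (a * f) := oddAdj_symm ⟨hafD, ha'.2.1, hne3, h3⟩
  have e2 : OddAdj D (a * f) f' := by
    rw [← hfa]; exact ⟨hfaD, hf'.2.1, hne4, h4⟩
  exact (((Relation.ReflTransGen.single ha').tail e1).tail e2).tail (oddAdj_symm hf')

/-- Let G be a finite group generated by a set D of root involutions, and W the set of members of D whose product with every other member of D has even order or is trivial (the isolated vertices of the odd-order-product graph on D). Then W is conjugation-invariant and generates a normal 2-subgroup of G meeting D in exactly W; the commutator of two members of D lying in different connected components of that graph, each with more than one member, lies in the subgroup generated by W; and for a in such a component, every member of D commuting with a, different from a and with product with a in D, lies in that component or in W. -/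
theorem result {G : Type*} [Group G] [Finite G] {D : Set G} (hD : Cfsg.IsRootInvolutionSet D) :
    (∀ w ∈ {w | Cfsg.IsIsolatedElem (Cfsg.OddAdj D) D w}, ∀ g : G, g * w * g⁻¹ ∈ {w | Cfsg.IsIsolatedElem (Cfsg.OddAdj D) D w}) ∧
    (Subgroup.closure {w | Cfsg.IsIsolatedElem (Cfsg.OddAdj D) D w}).Normal ∧
    IsPGroup 2 ↥(Subgroup.closure {w | Cfsg.IsIsolatedElem (Cfsg.OddAdj D) D w}) ∧
    (Subgroup.closure {w | Cfsg.IsIsolatedElem (Cfsg.OddAdj D) D w} : Set G) ∩ D = {w | Cfsg.IsIsolatedElem (Cfsg.OddAdj D) D w} ∧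
    (∀ a ∈ D, ∀ b ∈ D, (∃ a' ∈ Cfsg.elemComponentOf (Cfsg.OddAdj D) D a, a' ≠ a) →
      (∃ b' ∈ Cfsg.elemComponentOf (Cfsg.OddAdj D) D b, b' ≠ b) →
      Cfsg.elemComponentOf (Cfsg.OddAdj D) D a ≠ Cfsg.elemComponentOf (Cfsg.OddAdj D) D b →
        a * b * a⁻¹ * b⁻¹ ∈ Subgroup.closure {w | Cfsg.IsIsolatedElem (Cfsg.OddAdj D) D w}) ∧
    (∀ a ∈ D, (∃ a' ∈ Cfsg.elemComponentOf (Cfsg.OddAdj D) D a, a' ≠ a) →
      Cfsg.productPartners D a ⊆ Cfsg.elemComponentOf (Cfsg.OddAdj D) D a ∪ {w | Cfsg.IsIsolatedElem (Cfsg.OddAdj D) D w}) := by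
  set W : Set G := {w | Cfsg.IsIsolatedElem (Cfsg.OddAdj D) D w} with hW
  have h1 : ∀ w ∈ W, ∀ g : G, g * w * g⁻¹ ∈ W := by
    rintro w ⟨hwD, hw⟩ g
    refine ⟨hD.conj_mem w hwD g, fun b => ⟨fun h => ?_, fun h => ?_⟩⟩
    · have := oddAdj_conj hD h g⁻¹
      have e : g⁻¹ * (g * w * g⁻¹) * g⁻¹⁻¹ = w := by group
      rw [e] at this
      exact (hw _).1 this
    · have := oddAdj_conj hD h g⁻¹
      have e : g⁻¹ * (g * w * g⁻¹) * g⁻¹⁻¹ = w := by group
      rw [e] at this
      exact (hw _).2 this
  have h2 : (Subgroup.closure W).Normal := by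
    constructor
    intro n hn g
    exact Cfsg.Agent.Lib.Helper5BaerSuzuki.conj_mem_closure (fun k hk => h1 k hk g) hn
  have h3 : IsPGroup 2 ↥(Subgroup.closure W) := by
    apply Cfsg.Agent.Lib.Helper5BaerSuzuki.isPGroup_closure W h1
    rintro x ⟨hxD, hx⟩ y ⟨hyD, -⟩
    apply Cfsg.Agent.Lib.Helper91V.isPGroup_two_closure_pair (sq (hD.orderOf_eq x hxD))
      (sq (hD.orderOf_eq y hyD))
    by_cases hxy : x = y
    · subst hxy
      rw [sq (hD.orderOf_eq x hxD), one_pow]
    · exact pow_four_of_not_odd hD hxD hyD (fun ho => (hx y).1 ⟨hxD, hyD, hxy, ho⟩)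
  have h4 : (Subgroup.closure W : Set G) ∩ D = W := by
    apply Set.Subset.antisymm
    · rintro d ⟨hdW, hdD⟩
      have key : ∀ b, ¬ OddAdj D d b := by
        intro b hb
        obtain ⟨g, hg⟩ := conj_of_oddAdj hD hb
        have hm : d * b ∈ Subgroup.closure W := by
          rw [← hg]
          exact Subgroup.mul_mem _ hdW (h2.conj_mem d hdW g)
        obtain ⟨k, hk⟩ := h3 ⟨d * b, hm⟩
        have hk' : (d * b) ^ (2 ^ k) = 1 := by simpa using congrArg Subtype.val hk
        have h5 := eq_one_of_odd_of_pow_two hb.2.2.2 hk'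
        apply hb.2.2.1
        calc d = d * (b * b) := by rw [sq (hD.orderOf_eq b hb.2.1), mul_one]
          _ = (d * b) * b := by group
          _ = b := by rw [h5, one_mul]
      exact ⟨hdD, fun b => ⟨key b, fun h => key b (oddAdj_symm h)⟩⟩
    · intro w hw
      exact ⟨Subgroup.subset_closure hw, hw.1⟩
  have h6 : ∀ a ∈ D, (∃ a' ∈ Cfsg.elemComponentOf (Cfsg.OddAdj D) D a, a' ≠ a) →
      Cfsg.productPartners D a ⊆ Cfsg.elemComponentOf (Cfsg.OddAdj D) D a ∪ W := by
    intro a _ hcomp f hf
    obtain ⟨a', ha'⟩ := exists_adj hcomp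
    by_cases hfW : f ∈ W
    · exact Or.inr hfW
    · left
      have : ∃ f', OddAdj D f f' := by
        by_contra hcon
        push Not at hcon
        exact hfW ⟨hf.1.1, fun b => ⟨hcon b, fun h => hcon b (oddAdj_symm h)⟩⟩
      obtain ⟨f', hf'⟩ := this
      exact ⟨hf.1.1, reach_of_partner hD hf ha' hf'⟩
  refine ⟨h1, h2, h3, h4, ?_, h6⟩
  intro a ha b hb hca hcb hne
  have ha2 := sq (hD.orderOf_eq a ha)
  have hb2 := sq (hD.orderOf_eq b hb)
  rw [inv_eq (hD.orderOf_eq a ha), inv_eq (hD.orderOf_eq b hb)]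
  rcases hD.pair a ha b hb with h | h | ⟨h, hf⟩
  · have : a * b * a * b = 1 := by
      calc a * b * a * b = a * (b * a) * b := by group
        _ = a * (a * b) * b := by rw [h]
        _ = (a * a) * (b * b) := by group
        _ = 1 := by rw [ha2, hb2, one_mul]
    rw [this]; exact Subgroup.one_mem _
  · exfalso
    by_cases hab : a = b
    · subst hab; exact hne rfl
    · exact hne (component_eq (Relation.ReflTransGen.single ⟨ha, hb, hab, h⟩))
  · have hfe : (a * b) ^ 2 = a * b * a * b := by rw [pow_two]; group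
    rw [hfe] at hf
    have h44 : a * b * a * b * (a * b * a * b) = 1 := by
      have : (a * b) ^ 4 = a * b * a * b * (a * b * a * b) := by
        simp only [pow_succ, pow_zero, one_mul]; group
      rw [← this, ← h]; exact pow_orderOf_eq_one _
    -- f ∈ X_a
    have hone : (1 : G) ∉ D := fun h1D => by
      have := hD.orderOf_eq 1 h1D
      simp at this
    have hfa : a * b * a * b ∈ productPartners D a := by
      have e1 : a * b * a * b * a ∈ D := by
        have := hD.conj_mem a ha (a * b)
        have e : a * b * a * (a * b)⁻¹ = a * b * a * b * a := by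
          have : a * b * a * (a * b)⁻¹ = a * b * a * b⁻¹ * a⁻¹ := by group
          rw [this, inv_eq (hD.orderOf_eq a ha), inv_eq (hD.orderOf_eq b hb)]
        rwa [e] at this
      refine ⟨⟨hf, ?_, ?_⟩, e1⟩
      · have e2 : a * (a * b * a * b) = b * a * b := by
          calc a * (a * b * a * b) = (a * a) * b * a * b := by group
            _ = b * a * b := by rw [ha2, one_mul]
        have e3 : (a * b * a * b * a) * (b * a * b) = 1 := by
          rw [← h44]; group
        have e4 : (b * a * b)⁻¹ = b * a * b := by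
          have : (b * a * b)⁻¹ = b⁻¹ * a⁻¹ * b⁻¹ := by group
          rw [this, inv_eq (hD.orderOf_eq a ha), inv_eq (hD.orderOf_eq b hb)]
        rw [e2, ← e4]
        exact eq_inv_of_mul_eq_one_left e3
      · intro e
        rw [e, ha2] at e1
        exact hone e1
    have hfb : a * b * a * b ∈ productPartners D b := by
      have e0 : a * b * a * b * b = a * b * a := by
        rw [mul_assoc (a * b * a), hb2, mul_one]
      have e1 : a * b * a * b * b ∈ D := by
        rw [e0]
        have := hD.conj_mem b hb a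
        rwa [inv_eq (hD.orderOf_eq a ha)] at this
      refine ⟨⟨hf, ?_, ?_⟩, e1⟩
      · have e3 : (a * b * a) * (b * (a * b * a * b)) = 1 := by
          rw [← h44]; group
        have e4 : (a * b * a)⁻¹ = a * b * a := by
          have : (a * b * a)⁻¹ = a⁻¹ * b⁻¹ * a⁻¹ := by group
          rw [this, inv_eq (hD.orderOf_eq a ha), inv_eq (hD.orderOf_eq b hb)]
        rw [e0]
        exact e4.symm.trans (eq_inv_of_mul_eq_one_right e3).symm
      · intro e
        rw [e, hb2] at e1
        exact hone e1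
    rcases h6 a ha hca hfa with h7 | h7
    · rcases h6 b hb hcb hfb with h8 | h8
      · exfalso
        exact hne ((component_eq h7.2).trans (component_eq h8.2).symm)
      · exact Subgroup.subset_closure h8
    · exact Subgroup.subset_closure h7

end Cfsg.Agent.S5045
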