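import Cfsg.Statements.S5048
import Cfsg.Agent.Lib.Helper60RIa
import Cfsg.Agent.Lib.Helper27Core
import Cfsg.Agent.Lib.Helper60Core

set_option autoImplicit false
open Cfsg

namespace Cfsg.Agent.S5048

open Cfsg.Agent.Lib.Helper60RIa
open scoped commutatorElement

variable {G : Type*} [Group G] {D : Set G}

/-- a commuting set of involutions generates a 2-group -/
theorem isPGroup_two_closure' {E : Set G} (hE2 : ∀ x ∈ E, x * x = 1)
    (hc : ∀ x ∈ E, ∀ y ∈ E, Commute x y) : IsPGroup 2 (Subgroup.closure E) := by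
  have h1 : Subgroup.closure E ≤ Subgroup.centralizer E := by
    rw [Subgroup.closure_le]
    intro x hx
    rw [SetLike.mem_coe, Subgroup.mem_centralizer_iff]
    intro y hy
    exact (hc y hy x hx).eq
  have h2 : Subgroup.closure E ≤ Subgroup.centralizer (Subgroup.closure E : Set G) := by
    rw [Subgroup.closure_le]
    intro x hx
    rw [SetLike.mem_coe, Subgroup.mem_centralizer_iff]
    intro y hy
    have := h1 hy
    rw [Subgroup.mem_centralizer_iff] at this
    exact (this x hx).symm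
  have h3 : ∀ g ∈ Subgroup.closure E, g * g = 1 := by
    intro g hg
    induction hg using Subgroup.closure_induction with
    | mem x hx => exact hE2 x hx
    | one => simp
    | mul a b ha hb iha ihb =>
      have hab : b * a = a * b := by
        have := h2 ha
        rw [Subgroup.mem_centralizer_iff] at this
        exact this b hb
      calc a * b * (a * b) = a * (b * a) * b := by group
        _ = (a * a) * (b * b) := by rw [hab]; group
        _ = 1 := by rw [iha, ihb, one_mul]
    | inv a _ iha =>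
      have : a⁻¹ * a⁻¹ = (a * a)⁻¹ := by group
      rw [this, iha, inv_one]
  rintro ⟨g, hg⟩
  refine ⟨1, Subtype.ext ?_⟩
  show g ^ (2 ^ 1) = 1
  rw [pow_one, pow_two]
  exact h3 g hg

/-- `b ∈ X_a` commutes with all `N`-conjugates of `a`, `N` a proper normal subgroup -/
theorem commute_conj_aux (hD : IsRootInvolutionSet D)
    (hcl : ∀ a ∈ D, ∀ b ∈ D, ∃ g : G, g * a * g⁻¹ = b) {N : Subgroup G} (hN : N.Normal)
    (hne : N ≠ ⊤) {a b n : G} (ha : a ∈ D) (hb : b ∈ D) (hab : a * b = b * a) (habD : a * b ∈ D)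
    (hn : n ∈ N) : Commute b (n * a * n⁻¹) := by
  have ha' : n * a * n⁻¹ ∈ D := hD.conj_mem a ha n
  have ha2 := sq (hD.orderOf_eq a ha)
  have hb2 := sq (hD.orderOf_eq b hb)
  -- `b * a' = (b * a) * m` with `m ∈ N`
  have hm : a⁻¹ * (n * a * n⁻¹) ∈ N := by
    have : a⁻¹ * (n * a * n⁻¹) = (a⁻¹ * n * a⁻¹⁻¹) * n⁻¹ := by group
    rw [this]
    exact N.mul_mem (hN.conj_mem n hn _) (N.inv_mem hn)
  have hq : ∀ k : ℕ, ((QuotientGroup.mk' N) (b * (n * a * n⁻¹))) ^ k
      = ((QuotientGroup.mk' N) (b * a)) ^ k := by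
    intro k
    congr 1
    have : b * (n * a * n⁻¹) = b * a * (a⁻¹ * (n * a * n⁻¹)) := by group
    have hm1 : (QuotientGroup.mk' N) (a⁻¹ * (n * a * n⁻¹)) = 1 := (QuotientGroup.eq_one_iff _).mpr hm
    rw [this, map_mul, hm1, mul_one]
  have hba2 : (b * a) * (b * a) = 1 := by
    calc b * a * (b * a) = b * (a * b) * a := by group
      _ = b * (b * a) * a := by rw [hab]
      _ = (b * b) * (a * a) := by group
      _ = 1 := by rw [ha2, hb2, one_mul]
  rcases hD.pair b hb _ ha' with h | h | ⟨-, h⟩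
  · exact h
  · exfalso
    obtain ⟨k, hk⟩ := h
    have h1 : (b * (n * a * n⁻¹)) ^ (2 * k + 1) = 1 := by rw [← hk]; exact pow_orderOf_eq_one _
    have h2 := hq (2 * k + 1)
    rw [← map_pow, h1, map_one, ← map_pow] at h2
    have h3 : (b * a) ^ (2 * k + 1) = b * a := by
      rw [pow_succ, pow_mul, pow_two, hba2, one_pow, one_mul]
    rw [h3] at h2
    have h4 : b * a ∈ N := (QuotientGroup.eq_one_iff _).mp h2.symm
    rw [← hab] at h4
    exact not_mem_of_normal hD hcl hN hne habD h4
  · exfalso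
    have h2 := hq 2
    rw [← map_pow, ← map_pow, pow_two (b * a), hba2, map_one] at h2
    exact not_mem_of_normal hD hcl hN hne h ((QuotientGroup.eq_one_iff _).mp h2)

/-- Let G be a finite group generated by a set D of root involutions whose odd-order-product graph is connected, with some product of two different commuting members of D again in D. Then the largest solvable normal subgroup of G is the preimage of the centre of G/O₂(G), and the quotient of G by it is a simple group. -/
theorem result {G : Type*} [Group G] [Finite G] {D : Set G} (hD : Cfsg.IsRootInvolutionSet D)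
    (hc : Cfsg.IsConnectedSet (Cfsg.OddAdj D) D) (hDD : (D ∩ Cfsg.commutingProducts D).Nonempty) :
    Cfsg.solvableRadical G = Cfsg.twoZCore G ∧ IsSimpleGroup (G ⧸ Cfsg.twoZCore G) := by
  have hcl : ∀ a ∈ D, ∀ b ∈ D, ∃ g : G, g * a * g⁻¹ = b :=
    fun a ha b hb => conj_of_reach hD (hc a ha b hb)
  obtain ⟨x, hxD, a₀, ha₀, b₀, hb₀, hab₀, hne₀, rfl⟩ := hDD
  -- every member has a product partner
  have hpart : ∀ a ∈ D, ∃ b ∈ D, a * b = b * a ∧ a * b ∈ D := by
    intro a ha
    obtain ⟨g, rfl⟩ := hcl a₀ ha₀ a ha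
    refine ⟨g * b₀ * g⁻¹, hD.conj_mem b₀ hb₀ g, ?_, ?_⟩
    · calc g * a₀ * g⁻¹ * (g * b₀ * g⁻¹) = g * (a₀ * b₀) * g⁻¹ := by group
        _ = g * (b₀ * a₀) * g⁻¹ := by rw [hab₀]
        _ = _ := by group
    · have : g * a₀ * g⁻¹ * (g * b₀ * g⁻¹) = g * (a₀ * b₀) * g⁻¹ := by group
      rw [this]
      exact hD.conj_mem _ hxD g
  -- `a` commutes with its conjugates under a proper normal subgroup
  have hcomm : ∀ N : Subgroup G, N.Normal → N ≠ ⊤ → ∀ a ∈ D, ∀ n ∈ N,
      Commute a (n * a * n⁻¹) := by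
    intro N hN hne a ha n hn
    obtain ⟨b, hb, hab, habD⟩ := hpart a ha
    have h1 := commute_conj_aux hD hcl hN hne ha hb hab habD hn
    have ha2 := sq (hD.orderOf_eq a ha)
    have h2 : a * (a * b) = (a * b) * a := by rw [← mul_assoc, ha2, one_mul, hab, mul_assoc, ha2, mul_one]
    have h3 : a * (a * b) ∈ D := by rw [← mul_assoc, ha2, one_mul]; exact hb
    have h4 := commute_conj_aux hD hcl hN hne ha habD h2 h3 hn
    have h5 : a = (a * b) * b := by rw [mul_assoc, sq (hD.orderOf_eq b hb), mul_one]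
    have h6 : Commute ((a * b) * b) (n * a * n⁻¹) := h4.mul_left h1
    rwa [← h5] at h6
  -- commutators with a proper normal subgroup lie in `O₂(G)`
  have hcomO : ∀ N : Subgroup G, N.Normal → N ≠ ⊤ → ∀ n ∈ N, ∀ a ∈ D,
      a * (n * a * n⁻¹) ∈ pCore 2 G := by
    intro N hN hne n hn a ha
    set E : Set G := {x | ∃ m ∈ N, x = m * a * m⁻¹} with hE
    have hE2 : ∀ x ∈ E, x * x = 1 := by
      rintro x ⟨m, -, rfl⟩
      exact sq (by rw [orderOf_conj]; exact hD.orderOf_eq a ha)
    have hEc : ∀ x ∈ E, ∀ y ∈ E, Commute x y := by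
      rintro x ⟨m, hm, rfl⟩ y ⟨m', hm', rfl⟩
      have h1 := hcomm N hN hne a ha (m⁻¹ * m') (N.mul_mem (N.inv_mem hm) hm')
      have h2 := h1.conj m
      have h3 : m * ((m⁻¹ * m') * a * (m⁻¹ * m')⁻¹) * m⁻¹ = m' * a * m'⁻¹ := by group
      rwa [h3] at h2
    have hP : IsPGroup 2 (Subgroup.closure E) := isPGroup_two_closure' hE2 hEc
    set F : Subgroup G := Subgroup.closure E ⊓ N with hF
    have hFP : IsPGroup 2 F := hP.to_le inf_le_left
    have hFsub : F.IsSubnormal := by
      apply Subgroup.IsSubnormal.step F N inf_le_right hN.isSubnormal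
      constructor
      rintro ⟨x, hxN⟩ hx ⟨m, hm⟩
      rw [Subgroup.mem_subgroupOf] at hx ⊢
      refine ⟨?_, ?_⟩
      · apply Cfsg.Agent.Lib.Helper5BaerSuzuki.conj_mem_closure _ hx.1
        rintro k ⟨m', hm', rfl⟩
        exact ⟨m * m', N.mul_mem hm hm', by group⟩
      · exact N.mul_mem (N.mul_mem hm hxN) (N.inv_mem hm)
    apply Cfsg.Agent.Lib.Helper27Core.subnormal_le_pCore hFsub hFP
    refine ⟨?_, ?_⟩
    · apply Subgroup.mul_mem
      · exact Subgroup.subset_closure ⟨1, N.one_mem, by simp⟩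
      · exact Subgroup.subset_closure ⟨n, hn, rfl⟩
    · have : a * (n * a * n⁻¹) = (a * n * a⁻¹) * n⁻¹ := by
        rw [inv_eq (hD.orderOf_eq a ha)]; group
      rw [SetLike.mem_coe, this]
      exact N.mul_mem (hN.conj_mem n hn a) (N.inv_mem hn)
  -- proper normal subgroups lie in `twoZCore`
  have hle : ∀ N : Subgroup G, N.Normal → N ≠ ⊤ → N ≤ twoZCore G := by
    intro N hN hne n hn
    rw [twoZCore, Subgroup.mem_comap, Subgroup.mem_center_iff]
    intro x
    obtain ⟨g, rfl⟩ := QuotientGroup.mk'_surjective _ x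
    have htop : (⊤ : Subgroup G) ≤ (Subgroup.centralizer
        {(QuotientGroup.mk' (pCore 2 G)) n}).comap (QuotientGroup.mk' (pCore 2 G)) := by
      rw [← hD.generates, Subgroup.closure_le]
      intro a ha
      rw [SetLike.mem_coe, Subgroup.mem_comap, Subgroup.mem_centralizer_singleton_iff]
      rw [← map_mul, ← map_mul]
      apply QuotientGroup.eq.mpr
      have h1 := hcomO N hN hne n⁻¹ (N.inv_mem hn) a ha
      have h2 : (a * n)⁻¹ * (n * a) = (a * (n⁻¹ * a * n⁻¹⁻¹))⁻¹ := by
        have : (a * (n⁻¹ * a * n⁻¹⁻¹))⁻¹ = n⁻¹ * a⁻¹ * n * a⁻¹ := by group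
        rw [this, inv_eq (hD.orderOf_eq a ha)]
        have : (a * n)⁻¹ * (n * a) = n⁻¹ * a⁻¹ * n * a := by group
        rw [this, inv_eq (hD.orderOf_eq a ha)]
      rw [h2]; exact Subgroup.inv_mem _ h1
    have hg := htop (Subgroup.mem_top g)
    rw [Subgroup.mem_comap, Subgroup.mem_centralizer_singleton_iff] at hg
    exact hg
  have hne : a₀ ≠ b₀ := by
    rintro rfl; exact hne₀ (sq (hD.orderOf_eq _ ha₀))
  have hZne : twoZCore G ≠ ⊤ := by
    intro htop
    obtain ⟨c, hc1⟩ : ∃ c, OddAdj D a₀ c := by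
      rcases Relation.ReflTransGen.cases_head (hc a₀ ha₀ b₀ hb₀) with h | ⟨c, h, -⟩
      · exact absurd h hne
      · exact ⟨c, h⟩
    obtain ⟨g, hg⟩ := conj_of_oddAdj hD hc1
    have h1 : a₀ ∈ twoZCore G := by rw [htop]; trivial
    rw [twoZCore, Subgroup.mem_comap, Subgroup.mem_center_iff] at h1
    have h2 : a₀ * c ∈ pCore 2 G := by
      have h3 := h1 ((QuotientGroup.mk' (pCore 2 G)) g)
      rw [← map_mul, ← map_mul] at h3
      have h4 := QuotientGroup.eq.mp h3.symm
      have h5 : g * ((a₀ * g)⁻¹ * (g * a₀)) * g⁻¹ = a₀ * c := by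
        rw [← hg]
        have : g * ((a₀ * g)⁻¹ * (g * a₀)) * g⁻¹ = a₀⁻¹ * (g * a₀ * g⁻¹) := by group
        rw [this, inv_eq (hD.orderOf_eq _ ha₀)]
      rw [← h5]
      exact (inferInstance : (pCore 2 G).Normal).conj_mem _ h4 g
    obtain ⟨k, hk⟩ := (Cfsg.Agent.Lib.Helper60Core.pCore_isPGroup 2) ⟨a₀ * c, h2⟩
    have h3 : (a₀ * c) ^ (2 ^ k) = 1 := by simpa using congrArg Subtype.val hk
    have h4 := eq_one_of_odd_of_pow_two hc1.2.2.2 h3
    apply hc1.2.2.1
    calc a₀ = a₀ * (c * c) := by rw [sq (hD.orderOf_eq c hc1.2.1), mul_one]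
      _ = (a₀ * c) * c := by group
      _ = c := by rw [h4, one_mul]
  have hsimple : IsSimpleGroup (G ⧸ twoZCore G) := by
    have : Nontrivial (G ⧸ twoZCore G) := QuotientGroup.nontrivial_iff.mpr hZne
    refine ⟨fun H hH => ?_⟩
    by_cases htop : H.comap (QuotientGroup.mk' (twoZCore G)) = ⊤
    · right
      rw [eq_top_iff]
      intro x _
      obtain ⟨g, rfl⟩ := QuotientGroup.mk'_surjective _ x
      have : g ∈ H.comap (QuotientGroup.mk' (twoZCore G)) := by rw [htop]; trivial
      exact this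
    · left
      have h1 := hle _ (hH.comap _) htop
      rw [eq_bot_iff]
      intro x hx
      obtain ⟨g, rfl⟩ := QuotientGroup.mk'_surjective _ x
      have : g ∈ twoZCore G := h1 hx
      rw [Subgroup.mem_bot]
      exact (QuotientGroup.eq_one_iff g).mpr this
  refine ⟨le_antisymm ?_ ?_, hsimple⟩
  · apply sSup_le
    rintro N ⟨hN, hsol⟩
    by_cases htop : N = ⊤
    · exfalso
      subst htop
      have : Group.IsSolvable G :=
        Group.isSolvable_of_surjective (f := (⊤ : Subgroup G).subtype)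
          (fun x => ⟨⟨x, trivial⟩, rfl⟩)
      have : Nontrivial G := ⟨a₀, 1, ne_one (hD.orderOf_eq _ ha₀)⟩
      have h1 : commutator G < ⊤ := Group.IsSolvable.commutator_lt_top_of_nontrivial G
      obtain ⟨g, hg⟩ := hcl a₀ ha₀ b₀ hb₀
      have h2 : a₀ * b₀ ∈ commutator G := by
        have h3 : a₀ * b₀ = ⁅a₀, g⁆ := by
          rw [commutatorElement_def, ← hg, inv_eq (hD.orderOf_eq _ ha₀)]; group
        rw [h3, commutator_def]
        exact Subgroup.commutator_mem_commutator (Subgroup.mem_top _) (Subgroup.mem_top _)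
      exact not_mem_of_normal hD hcl inferInstance h1.ne hxD h2
    · exact hle N hN htop
  · apply le_sSup
    refine ⟨inferInstance, ?_⟩
    have hle2 : pCore 2 G ≤ twoZCore G := by
      intro x hx
      rw [twoZCore, Subgroup.mem_comap]
      have : (QuotientGroup.mk' (pCore 2 G)) x = 1 := (QuotientGroup.eq_one_iff x).mpr hx
      rw [this]; exact Subgroup.one_mem _
    have : Group.IsNilpotent ↥(pCore 2 G) :=
      (Cfsg.Agent.Lib.Helper60Core.pCore_isPGroup 2).isNilpotent
    have : Group.IsSolvable ↥(Subgroup.center (G ⧸ pCore 2 G)) :=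
      Group.isSolvable_of_comm (fun a b => Subtype.ext ((Subgroup.mem_center_iff.mp b.2 a.1)))
    refine Group.isSolvable_of_ker_le_range (Subgroup.inclusion hle2)
      (((QuotientGroup.mk' (pCore 2 G)).comp (twoZCore G).subtype).codRestrict
        (Subgroup.center (G ⧸ pCore 2 G)) (fun x => x.2)) ?_
    rintro ⟨x, hx⟩ hxk
    rw [MonoidHom.mem_ker] at hxk
    have h1 : (QuotientGroup.mk' (pCore 2 G)) x = 1 := congrArg Subtype.val hxk
    exact ⟨⟨x, (QuotientGroup.eq_one_iff x).mp h1⟩, rfl⟩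

end Cfsg.Agent.S5048
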