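import Cfsg.Statements.S5049
-- import your own Cfsg.Agent.* helpers here
import Mathlib
import Cfsg.Agent.Lib.Helper1Fitting

set_option autoImplicit false
open Cfsg

namespace Cfsg.Agent.S5049

open scoped commutatorElement


/-- Let G be a finite group generated by a set D of odd transpositions (root involutions with no product of order 4), Q = O₂(G), and for a ∈ D let Q_a be the commutator subgroup of Q with a. Then every member of D commuting with a centralizes Q_a; and for b ∈ D with ab of odd order greater than 1, the centralizer of ab in Q is the intersection of the centralizers of a and b in Q. -/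
theorem result {G : Type*} [Group G] [Finite G] {D : Set G} (hD : Cfsg.IsOddTranspositionSet D) {a : G} (ha : a ∈ D) :
    (∀ e ∈ Cfsg.commutingMembers D a, ∀ q ∈ ⁅Cfsg.pCore 2 G, Subgroup.zpowers a⁆, e * q = q * e) ∧
    (∀ b ∈ Cfsg.oddPartners D a,
      Cfsg.pCore 2 G ⊓ Subgroup.centralizer {a * b} = Cfsg.pCore 2 G ⊓ Subgroup.centralizer {a} ⊓ Subgroup.centralizer {b}) := by
  classical
  set Q := Cfsg.pCore 2 G with hQ
  haveI hQn : Q.Normal := Cfsg.Agent.Lib.Helper1Fitting.pCore_normal 2
  have hQp : IsPGroup 2 Q := Cfsg.Agent.Lib.Helper1Fitting.pCore_isPGroup 2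
  have pr : ∀ x ∈ D, ∀ y ∈ D, x * y = y * x ∨ Odd (orderOf (x * y)) := by
    intro x hx y hy
    rcases hD.1.pair x hx y hy with h | h | h
    · exact Or.inl h
    · exact Or.inr h
    · exact absurd h.1 (hD.2 x hx y hy)
  have sq : ∀ x ∈ D, x * x = 1 := by
    intro x hx
    have := hD.1.orderOf_eq x hx
    rw [← pow_two, ← this]
    exact pow_orderOf_eq_one x
  have inv : ∀ x ∈ D, x⁻¹ = x := by
    intro x hx
    exact inv_eq_of_mul_eq_one_left (sq x hx)
  have odd2 : ∀ z ∈ Q, Odd (orderOf z) → z = 1 := by
    intro z hz ho
    obtain ⟨k, hk⟩ := hQp ⟨z, hz⟩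
    have hk' : z ^ (2 ^ k) = 1 := by
      have := congrArg Subtype.val hk
      simpa using this
    have hd : orderOf z ∣ 2 ^ k := orderOf_dvd_of_pow_eq_one hk'
    obtain ⟨j, _, hj⟩ := (Nat.dvd_prime_pow Nat.prime_two).mp hd
    rcases Nat.eq_zero_or_pos j with h0 | h0
    · rw [h0, pow_zero] at hj
      exact orderOf_eq_one_iff.mp hj
    · exfalso
      rw [hj] at ho
      have : Even (2 ^ j) := (Nat.even_pow.mpr ⟨even_two, by omega⟩)
      exact (Nat.not_even_iff_odd.mpr ho) this
  have odd2' : ∀ z ∈ Q, ∀ m : ℕ, Odd m → z ^ m = 1 → z = 1 := by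
    intro z hz m hm h
    apply odd2 z hz
    exact Odd.of_dvd_nat hm (orderOf_dvd_of_pow_eq_one h)
  constructor
  · intro e he
    obtain ⟨heD, hea⟩ := he
    have hle : ⁅Q, Subgroup.zpowers a⁆ ≤ Subgroup.centralizer {e} := by
      rw [Subgroup.commutator_le]
      intro g hg x hx
      obtain ⟨k, rfl⟩ := Subgroup.mem_zpowers_iff.mp hx
      rw [Subgroup.mem_centralizer_singleton_iff]
      have c1 : Commute e a := hea
      have c2 : Commute e (g * a * g⁻¹) := by
        have ha' : g * a * g⁻¹ ∈ D := hD.1.conj_mem a ha g
        rcases pr e heD _ ha' with h | h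
        · exact h
        · have hc : g * a * g⁻¹ * a⁻¹ ∈ Q := by
            have : a * g⁻¹ * a⁻¹ ∈ Q := hQn.conj_mem _ (Q.inv_mem hg) a
            have h2 := Q.mul_mem hg this
            simpa [mul_assoc] using h2
          set c := g * a * g⁻¹ * a⁻¹ with hcdef
          have hca : g * a * g⁻¹ = c * a := by rw [hcdef]; group
          have hz : (e * (g * a * g⁻¹)) ^ 2 = (e * c * e⁻¹) * (a * c * a⁻¹) := by
            rw [hca, pow_two, inv e heD, inv a ha]
            have h1 : a * e = e * a := hea.symm
            calc e * (c * a) * (e * (c * a)) = e * c * (a * e) * c * a := by group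
              _ = e * c * (e * a) * c * a := by rw [h1]
              _ = e * c * e * (a * c * a) := by group
          have hzQ : (e * (g * a * g⁻¹)) ^ 2 ∈ Q := by
            rw [hz]
            exact Q.mul_mem (hQn.conj_mem _ hc e) (hQn.conj_mem _ hc a)
          have hz1 : (e * (g * a * g⁻¹)) ^ 2 = 1 := by
            apply odd2 _ hzQ
            exact Odd.of_dvd_nat h (orderOf_pow_dvd 2)
          have h3 : e * (g * a * g⁻¹) * (e * (g * a * g⁻¹)) = 1 := by rw [← pow_two]; exact hz1
          have h4 : e * (g * a * g⁻¹) = (e * (g * a * g⁻¹))⁻¹ := eq_inv_of_mul_eq_one_left h3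
          rw [mul_inv_rev, inv e heD, inv _ ha'] at h4
          exact h4
      have c3 : Commute e (g * a ^ k * g⁻¹) := by
        rw [← conj_zpow]
        exact c2.zpow_right k
      have c4 : Commute e (a ^ k)⁻¹ := (c1.zpow_right k).inv_right
      have : Commute e ⁅g, a ^ k⁆ := by
        rw [commutatorElement_def]
        exact c3.mul_right c4
      exact this.symm
    intro q hq
    have := hle hq
    rw [Subgroup.mem_centralizer_singleton_iff] at this
    exact this.symm
  · intro b hb
    obtain ⟨hbD, hba, hodd⟩ := hb
    ext q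
    simp only [Subgroup.mem_inf, Subgroup.mem_centralizer_singleton_iff]
    constructor
    · rintro ⟨hq, hqc0⟩
      set c := a * b with hc
      have hqc : c * q = q * c := hqc0.symm
      have hqc' : q * c * q⁻¹ = c := by
        rw [← hqc]; group
      have hac : a * c * a⁻¹ = c⁻¹ := by
        rw [hc, mul_inv_rev, inv a ha, inv b hbD]
        calc a * (a * b) * a = (a * a) * b * a := by group
          _ = b * a := by rw [sq a ha, one_mul]
      set a' := q * a * q⁻¹ with ha'def
      have ha' : a' ∈ D := hD.1.conj_mem a ha q
      have ha'c : a' * c * a'⁻¹ = c⁻¹ := by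
        have e1 : q⁻¹ * c * q = c := by
          calc q⁻¹ * c * q = q⁻¹ * (q * c * q⁻¹) * q := by rw [hqc']
            _ = c := by group
        calc a' * c * a'⁻¹ = q * (a * (q⁻¹ * c * q) * a⁻¹) * q⁻¹ := by rw [ha'def]; group
          _ = q * c⁻¹ * q⁻¹ := by rw [e1, hac]
          _ = (q * c * q⁻¹)⁻¹ := by group
          _ = c⁻¹ := by rw [hqc']
      set t := a' * a with ht
      have htQ : t ∈ Q := by
        have : a * q⁻¹ * a⁻¹ ∈ Q := hQn.conj_mem _ (Q.inv_mem hq) a
        have h2 := Q.mul_mem hq this
        rw [inv a ha] at h2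
        have e : t = q * (a * q⁻¹ * a) := by rw [ht, ha'def]; group
        rw [e]; exact h2
      have htc : Commute t c := by
        have : t * c * t⁻¹ = c := by
          calc t * c * t⁻¹ = a' * (a * c * a⁻¹) * a'⁻¹ := by rw [ht]; group
            _ = a' * c⁻¹ * a'⁻¹ := by rw [hac]
            _ = (a' * c * a'⁻¹)⁻¹ := by group
            _ = c := by rw [ha'c, inv_inv]
        have h2 : t * c = c * t := by
          calc t * c = (t * c * t⁻¹) * t := by group
            _ = c * t := by rw [this]
        exact h2
      have hab : a' * b = t * c := by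
        rw [ht, hc]
        calc a' * b = a' * (a * a) * b := by rw [sq a ha, mul_one]
          _ = a' * a * (a * b) := by group
      have ht1 : t = 1 := by
        rcases pr a' ha' b hbD with h | h
        · exfalso
          have h1 : (a' * b) ^ 2 = 1 := by
            rw [pow_two]
            calc a' * b * (a' * b) = a' * (b * a') * b := by group
              _ = a' * (a' * b) * b := by rw [h]
              _ = (a' * a') * (b * b) := by group
              _ = 1 := by rw [sq a' ha', sq b hbD, one_mul]
          rw [hab, htc.mul_pow] at h1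
          have h2 : c ^ 2 = (t ^ 2)⁻¹ := eq_inv_of_mul_eq_one_right h1
          have h3 : c ^ 2 ∈ Q := by rw [h2]; exact Q.inv_mem (Q.pow_mem htQ 2)
          have h4 : c ^ 2 = 1 := odd2 _ h3 (Odd.of_dvd_nat hodd (orderOf_pow_dvd 2))
          have h5 : orderOf c ∣ 2 := orderOf_dvd_of_pow_eq_one h4
          have h6 : orderOf c = 1 := by
            rcases (Nat.dvd_prime Nat.prime_two).mp h5 with h | h
            · exact h
            · exfalso; rw [h] at hodd; exact absurd hodd (by decide)
          have h7 : a * b = 1 := orderOf_eq_one_iff.mp h6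
          have h8 : b = a⁻¹ := eq_inv_of_mul_eq_one_right h7
          rw [inv a ha] at h8
          exact hba h8
        · rw [hab] at h
          apply odd2' t htQ (orderOf (t * c) * orderOf c) (h.mul hodd)
          have h1 : (t * c) ^ (orderOf (t * c) * orderOf c) = 1 := by
            rw [pow_mul, pow_orderOf_eq_one, one_pow]
          rw [htc.mul_pow] at h1
          have h2 : c ^ (orderOf (t * c) * orderOf c) = 1 := by
            rw [mul_comm, pow_mul, pow_orderOf_eq_one, one_pow]
          rw [h2, mul_one] at h1
          exact h1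
      have hqa : a * q = q * a := by
        have h1 : a' = a⁻¹ := eq_inv_of_mul_eq_one_left ht1
        rw [inv a ha, ha'def] at h1
        calc a * q = (q * a * q⁻¹) * q := by rw [h1]
          _ = q * a := by group
      refine ⟨⟨hq, hqa.symm⟩, ?_⟩
      have hb' : b = a * c := by
        rw [hc, ← mul_assoc, sq a ha, one_mul]
      rw [hb']
      symm
      calc a * c * q = a * (c * q) := by group
        _ = a * (q * c) := by rw [hqc]
        _ = (a * q) * c := by group
        _ = q * a * c := by rw [hqa]
        _ = q * (a * c) := by group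
    · rintro ⟨⟨hq, hqa0⟩, hqb0⟩
      have hqa := hqa0.symm
      have hqb := hqb0.symm
      refine ⟨hq, ?_⟩
      symm
      calc a * b * q = a * (b * q) := by group
        _ = a * (q * b) := by rw [hqb]
        _ = (a * q) * b := by group
        _ = q * a * b := by rw [hqa]
        _ = q * (a * b) := by group

end Cfsg.Agent.S5049
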