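import Cfsg.Statements.S5057
-- import your own Cfsg.Agent.* helpers here
import Mathlib

set_option autoImplicit false
open Cfsg

namespace Cfsg.Agent.S5057


set_option maxRecDepth 100000 in
theorem L1 : ∀ σ : Equiv.Perm (Fin 6), Equiv.Perm.sign σ = 1 → σ^3 = 1 ∨ σ^4 = 1 ∨ σ^5 = 1 := by
  decide +kernel

set_option maxRecDepth 100000 in
theorem L2 : ∀ σ : Equiv.Perm (Fin 6), Equiv.Perm.sign σ = 1 → σ ≠ 1 → σ^2 = 1 →
    ∃ g : Equiv.Perm (Fin 6), Equiv.Perm.sign g = 1 ∧
      σ = g * (Equiv.swap 0 1 * Equiv.swap 2 3) * g⁻¹ := by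
  decide +kernel

theorem hord (x : ↥(alternatingGroup (Fin 6))) :
    orderOf x = 1 ∨ orderOf x = 2 ∨ orderOf x = 3 ∨ orderOf x = 4 ∨ orderOf x = 5 := by
  have hs : Equiv.Perm.sign (x : Equiv.Perm (Fin 6)) = 1 := Equiv.Perm.mem_alternatingGroup.mp x.2
  rcases L1 _ hs with h | h | h
  · have h' : x ^ 3 = 1 := Subtype.ext (by simpa using h)
    have hd := orderOf_dvd_of_pow_eq_one h'
    rcases (Nat.dvd_prime Nat.prime_three).mp hd with h1 | h1
    · exact Or.inl h1
    · exact Or.inr (Or.inr (Or.inl h1))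
  · have h' : x ^ 4 = 1 := Subtype.ext (by simpa using h)
    have hd := orderOf_dvd_of_pow_eq_one h'
    have hle : orderOf x ≤ 4 := Nat.le_of_dvd (by norm_num) hd
    interval_cases (orderOf x) <;> simp_all
  · have h' : x ^ 5 = 1 := Subtype.ext (by simpa using h)
    have hd := orderOf_dvd_of_pow_eq_one h'
    rcases (Nat.dvd_prime Nat.prime_five).mp hd with h1 | h1
    · exact Or.inl h1
    · exact Or.inr (Or.inr (Or.inr (Or.inr h1)))

theorem hconj0 (a : ↥(alternatingGroup (Fin 6))) (ha : orderOf a = 2) :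
    ∃ g : ↥(alternatingGroup (Fin 6)),
      (a : Equiv.Perm (Fin 6)) = (g : Equiv.Perm (Fin 6)) * (Equiv.swap 0 1 * Equiv.swap 2 3) * (g : Equiv.Perm (Fin 6))⁻¹ := by
  have hs : Equiv.Perm.sign (a : Equiv.Perm (Fin 6)) = 1 := Equiv.Perm.mem_alternatingGroup.mp a.2
  have h1 : (a : Equiv.Perm (Fin 6)) ≠ 1 := by
    intro h
    have : a = 1 := Subtype.ext h
    rw [this, orderOf_one] at ha
    exact absurd ha (by norm_num)
  have h2 : (a : Equiv.Perm (Fin 6)) ^ 2 = 1 := by
    have : a ^ 2 = 1 := by rw [← ha]; exact pow_orderOf_eq_one a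
    have := congrArg Subtype.val this
    simpa using this
  obtain ⟨g, hg, h⟩ := L2 _ hs h1 h2
  exact ⟨⟨g, Equiv.Perm.mem_alternatingGroup.mpr hg⟩, h⟩


/-- The involutions of the alternating group of degree 6 form a class of root involutions (a single conjugacy class of involutions generating the group, any two of which commute, have product of odd order, or have product of order 4 whose square is again an involution of the class), and the product of any two of them has order at most 5. -/
theorem result :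
    Cfsg.IsRootInvolutionClass {g : ↥(alternatingGroup (Fin 6)) | orderOf g = 2} ∧
    ∀ d ∈ {g : ↥(alternatingGroup (Fin 6)) | orderOf g = 2}, ∀ e ∈ {g : ↥(alternatingGroup (Fin 6)) | orderOf g = 2},
      orderOf (d * e) ≤ 5 := by
  classical
  set D : Set ↥(alternatingGroup (Fin 6)) := {g | orderOf g = 2} with hD
  have hconjmem : ∀ d ∈ D, ∀ g : ↥(alternatingGroup (Fin 6)), g * d * g⁻¹ ∈ D := by
    intro d hd g
    have : orderOf (g * d * g⁻¹) = orderOf d := by
      have := (MulAut.conj g).orderOf_eq d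
      simpa using this
    show orderOf (g * d * g⁻¹) = 2
    rw [this]; exact hd
  have hs0 : (Equiv.swap 0 1 * Equiv.swap 2 3 : Equiv.Perm (Fin 6)) ∈ alternatingGroup (Fin 6) :=
    Equiv.Perm.mem_alternatingGroup.mpr (by decide)
  have hs0D : (⟨_, hs0⟩ : ↥(alternatingGroup (Fin 6))) ∈ D := by
    show orderOf _ = 2
    rw [orderOf_eq_prime_iff]
    constructor
    · apply Subtype.ext
      show (Equiv.swap 0 1 * Equiv.swap 2 3 : Equiv.Perm (Fin 6)) ^ 2 = 1
      decide
    · intro h
      have h5 : (Equiv.swap 0 1 * Equiv.swap 2 3 : Equiv.Perm (Fin 6)) = 1 := congrArg Subtype.val h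
      exact absurd h5 (by decide)
  have hclass : ∀ a ∈ D, ∀ b ∈ D, ∃ g : ↥(alternatingGroup (Fin 6)), b = g * a * g⁻¹ := by
    intro a ha b hb
    obtain ⟨g, hg⟩ := hconj0 a ha
    obtain ⟨h, hh⟩ := hconj0 b hb
    refine ⟨h * g⁻¹, ?_⟩
    apply Subtype.ext
    push_cast
    rw [hg, hh]
    group
  have hgen : Subgroup.closure D = ⊤ := by
    have h1 : Group.conjugatesOfSet D = D := by
      apply Set.Subset.antisymm
      · intro x hx
        obtain ⟨a, ha, hax⟩ := Group.mem_conjugatesOfSet_iff.mp hx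
        obtain ⟨c, hc⟩ := isConj_iff.mp hax
        rw [← hc]
        exact hconjmem a ha c
      · exact Group.subset_conjugatesOfSet
    have h2 : Subgroup.closure D = Subgroup.normalClosure D := by
      rw [Subgroup.normalClosure, h1]
    haveI : IsSimpleGroup ↥(alternatingGroup (Fin 6)) := alternatingGroup.isSimpleGroup (by simp)
    rw [h2]
    rcases (Subgroup.normalClosure_normal (s := D)).eq_bot_or_eq_top with h | h
    · exfalso
      have h3 : (⟨_, hs0⟩ : ↥(alternatingGroup (Fin 6))) ∈ Subgroup.normalClosure D :=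
        Subgroup.subset_normalClosure hs0D
      rw [h, Subgroup.mem_bot] at h3
      have h4 : orderOf (⟨_, hs0⟩ : ↥(alternatingGroup (Fin 6))) = 2 := hs0D
      rw [h3, orderOf_one] at h4
      exact absurd h4 (by norm_num)
    · exact h
  have hpair : ∀ a ∈ D, ∀ b ∈ D, a * b = b * a ∨ Odd (orderOf (a * b)) ∨
      (orderOf (a * b) = 4 ∧ (a * b) ^ 2 ∈ D) := by
    intro a ha b hb
    have ha2 : a * a = 1 := by
      rw [← pow_two]; have : orderOf a = 2 := ha; rw [← this]; exact pow_orderOf_eq_one a
    have hb2 : b * b = 1 := by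
      rw [← pow_two]; have : orderOf b = 2 := hb; rw [← this]; exact pow_orderOf_eq_one b
    rcases hord (a * b) with h | h | h | h | h
    · right; left; rw [h]; decide
    · left
      have h1 : (a * b) * (a * b) = 1 := by rw [← pow_two, ← h]; exact pow_orderOf_eq_one _
      calc a * b = a * ((a * b) * (a * b)) * b := by rw [h1, mul_one]
        _ = (a * a) * b * a * (b * b) := by group
        _ = b * a := by rw [ha2, hb2, one_mul, mul_one]
    · right; left; rw [h]; decide
    · right; right
      refine ⟨h, ?_⟩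
      show orderOf ((a * b) ^ 2) = 2
      rw [orderOf_pow, h]
      norm_num
    · right; left; rw [h]; decide
  refine ⟨⟨⟨fun d hd => hd, hgen, hconjmem, hpair⟩, ⟨_, hs0D⟩, hclass⟩, ?_⟩
  intro d _ e _
  rcases hord (d * e) with h | h | h | h | h <;> omega

end Cfsg.Agent.S5057
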