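import Cfsg.Statements.S5058
import Cfsg.Agent.Lib.H12RInvBasic
import Cfsg.Agent.Lib.H12RInvFour
import Cfsg.Agent.Lib.H12RInvOdd
import Cfsg.Agent.Lib.H12RInvThree
import Cfsg.Agent.Lib.H12RSLCaseA

set_option autoImplicit false
open Matrix
open Cfsg

namespace Cfsg.Agent.S5058

open Cfsg.Agent.Lib.H12RSLDefs Cfsg.Agent.Lib.H12RSLMem Cfsg.Agent.Lib.H12RInvMem
  Cfsg.Agent.Lib.H12RInvBasic Cfsg.Agent.Lib.H12RInvFour Cfsg.Agent.Lib.H12RInvOdd
  Cfsg.Agent.Lib.H12RInvThree Cfsg.Agent.Lib.H12RSLCaseA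

theorem rootSet (F : Type*) [Field F] [Fintype F] [CharP F 2] (n : ℕ) :
    Cfsg.IsRootInvolutionSet (DSL F n) where
  orderOf_eq := by
    intro d hd
    obtain ⟨p, φ, h, rfl⟩ := (mem_DSL_iff n d).1 hd
    exact orderOf_tvS h
  generates := closure_DSL n
  conj_mem := fun d hd g => conj_mem_DSL n hd g
  pair := by
    intro a ha b hb
    obtain ⟨p, φ, h1, rfl⟩ := (mem_DSL_iff n a).1 ha
    obtain ⟨r, ψ, h2, rfl⟩ := (mem_DSL_iff n b).1 hb
    by_cases h3 : φ ⬝ᵥ r = 0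
    · by_cases h4 : ψ ⬝ᵥ p = 0
      · exact Or.inl (tvS_comm h1.2.2 h2.2.2 h3 h4 1 1)
      · exact Or.inr (Or.inr (four' n h1 h2 h3 h4))
    · by_cases h4 : ψ ⬝ᵥ p = 0
      · exact Or.inr (Or.inr (four n h1 h2 h3 h4))
      · exact Or.inr (Or.inl (odd h1 h2 h3 h4))

theorem main (F : Type*) [Field F] [Fintype F] [CharP F 2] (n : ℕ) :
    Cfsg.IsRootInvolutionClass (DSL F n) ∧
    (Fintype.card F = 2 → Cfsg.IsThreeFourPlusTranspositionSet (DSL F n)) := by
  refine ⟨⟨rootSet F n, DSL_nonempty n, fun a ha b hb => exists_conj_DSL n ha hb⟩, fun hF =>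
    ⟨rootSet F n, ?_⟩⟩
  intro a ha b hb hodd
  obtain ⟨p, φ, h1, rfl⟩ := (mem_DSL_iff n a).1 ha
  obtain ⟨r, ψ, h2, rfl⟩ := (mem_DSL_iff n b).1 hb
  by_cases h3 : φ ⬝ᵥ r = 0
  · by_cases h4 : ψ ⬝ᵥ p = 0
    · left
      have hc := tvS_comm h1.2.2 h2.2.2 h3 h4 (1 : F) 1
      have e1 : tvS p φ (1 : F) ^ 2 = 1 := by
        rw [← orderOf_tvS h1]
        exact pow_orderOf_eq_one _
      have e2 : tvS r ψ (1 : F) ^ 2 = 1 := by
        rw [← orderOf_tvS h2]
        exact pow_orderOf_eq_one _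
      have hsq : (tvS p φ (1 : F) * tvS r ψ 1) ^ 2 = 1 := by
        rw [(show Commute (tvS p φ (1 : F)) (tvS r ψ 1) from hc).mul_pow, e1, e2, one_mul]
      have hd : orderOf (tvS p φ (1 : F) * tvS r ψ 1) ∣ 2 := orderOf_dvd_of_pow_eq_one hsq
      rcases (Nat.dvd_prime Nat.prime_two).1 hd with h | h
      · exact h
      · rw [h] at hodd
        exact absurd hodd (by decide)
    · rw [(four' n h1 h2 h3 h4).1] at hodd
      exact absurd hodd (by decide)
  · by_cases h4 : ψ ⬝ᵥ p = 0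
    · rw [(four n h1 h2 h3 h4).1] at hodd
      exact absurd hodd (by decide)
    · have hd : orderOf (tvS p φ (1 : F) * tvS r ψ 1) ∣ 3 :=
        orderOf_dvd_of_pow_eq_one (cube_of_card hF h1.2.2 h2.2.2 h3 h4)
      exact (Nat.dvd_prime Nat.prime_three).1 hd

/-- Let F be a finite field of characteristic 2 and n a natural number. Then the transvections of SL_{n+3}(F) (so in every dimension at least 3) (the conjugates of the elementary matrices 1 + c E₁₂, c ≠ 0) form a class of root involutions of SL_{n+3}(F); when F has two elements they form a class of {3,4}⁺-transpositions (every product of odd order has order 1 or 3). -/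
theorem result (F : Type*) [Field F] [Fintype F] [CharP F 2] (n : ℕ) :
    Cfsg.IsRootInvolutionClass {t : Matrix.SpecialLinearGroup (Fin (n + 3)) F | ∃ c : F, c ≠ 0 ∧
        ∃ g : Matrix.SpecialLinearGroup (Fin (n + 3)) F, ((g⁻¹ * t * g : Matrix.SpecialLinearGroup (Fin (n + 3)) F) :
          Matrix (Fin (n + 3)) (Fin (n + 3)) F) = Matrix.transvection 0 1 c} ∧
    (Fintype.card F = 2 → Cfsg.IsThreeFourPlusTranspositionSet {t : Matrix.SpecialLinearGroup (Fin (n + 3)) F | ∃ c : F, c ≠ 0 ∧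
        ∃ g : Matrix.SpecialLinearGroup (Fin (n + 3)) F, ((g⁻¹ * t * g : Matrix.SpecialLinearGroup (Fin (n + 3)) F) :
          Matrix (Fin (n + 3)) (Fin (n + 3)) F) = Matrix.transvection 0 1 c}) :=
  main F n

end Cfsg.Agent.S5058
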