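import Cfsg.Statements.S5059
import Cfsg.Agent.Lib.Helper85QP

set_option autoImplicit false
universe u
open Cfsg

namespace Cfsg.Agent.S5059
open Cfsg.Agent.Lib.Helper85QP



/-- Let k be a field of characteristic not 2 with k not of order 3, M a finite-dimensional k-vector space and G ≤ GL(M) such that (G, M) is a quadratic pair (M irreducible for G, and G generated by its quadratically acting elements σ whose scalar family 1 + c(σ − 1), c ∈ k, lies in G). Write 𝒬_d for the quadratic elements of G of minimal commutator rank, E(σ) for the subgroup generated by the members of 𝒬_d with the same fixed space and commutator space as σ, and Σ for the set of these subgroups. Then for σ ∈ 𝒬_d the subgroup E(σ) consists exactly of those members together with the identity, it is abelian, and if k has prime characteristic p every element of E(σ) has order dividing p. -/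
theorem result {k : Type u} [Field k] (hk2 : ringChar k ≠ 2) (hk3 : Nat.card k ≠ 3)
    {M : Type u} [AddCommGroup M] [Module k M] [FiniteDimensional k M]
    {G : Subgroup (LinearMap.GeneralLinearGroup k M)} (hG : Cfsg.IsQuadraticPair G)
    {σ : LinearMap.GeneralLinearGroup k M} (hσ : σ ∈ Cfsg.minimalQuadraticElements G) :
    (Cfsg.sameActionSubgroup G σ : Set (LinearMap.GeneralLinearGroup k M)) = Cfsg.sameActionClass G σ ∪ {1} ∧
    IsMulCommutative ↥(Cfsg.sameActionSubgroup G σ) ∧
    (∀ p : ℕ, p.Prime → ringChar k = p → ∀ x ∈ Cfsg.sameActionSubgroup G σ, x ^ p = 1) := by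
  classical
  have hR := mem_min_iff.1 hσ
  refine ⟨?_, ?_, ?_⟩
  · ext g
    simp only [SetLike.mem_coe, Set.mem_union, Set.mem_singleton_iff]
    rw [mem_E_iff hσ, mem_class_iff]
    constructor
    · intro h
      by_cases h1 : (g : M →ₗ[k] M) - 1 = 0
      · right
        exact Units.ext (by rw [Units.val_one]; exact sub_eq_zero.1 h1)
      · exact Or.inl ⟨h1, h⟩
    · rintro (⟨_, h⟩ | rfl)
      · exact h
      · left; simp
  · refine ⟨⟨fun a b => Subtype.ext (Units.ext ?_)⟩⟩
    have ha := (mem_E_iff hσ).1 a.2
    have hb := (mem_E_iff hσ).1 b.2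
    have h1 := IsLg.mul hR.sq ha hb
    have h2 := IsLg.mul hR.sq hb ha
    simp only [Subgroup.coe_mul, Units.val_mul]
    have e1 : ((a : LinearMap.GeneralLinearGroup k M) : M →ₗ[k] M) * ((b : LinearMap.GeneralLinearGroup k M) : M →ₗ[k] M) =
        (((a : LinearMap.GeneralLinearGroup k M) : M →ₗ[k] M) - 1) * (((b : LinearMap.GeneralLinearGroup k M) : M →ₗ[k] M) - 1) +
          ((a : LinearMap.GeneralLinearGroup k M) : M →ₗ[k] M) + ((b : LinearMap.GeneralLinearGroup k M) : M →ₗ[k] M) - 1 := by
      noncomm_ring
    have e2 : ((b : LinearMap.GeneralLinearGroup k M) : M →ₗ[k] M) * ((a : LinearMap.GeneralLinearGroup k M) : M →ₗ[k] M) =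
        (((b : LinearMap.GeneralLinearGroup k M) : M →ₗ[k] M) - 1) * (((a : LinearMap.GeneralLinearGroup k M) : M →ₗ[k] M) - 1) +
          ((a : LinearMap.GeneralLinearGroup k M) : M →ₗ[k] M) + ((b : LinearMap.GeneralLinearGroup k M) : M →ₗ[k] M) - 1 := by
      noncomm_ring
    rw [e1, e2, h1, h2]
  · intro p _ hp x hx
    have hx' := (mem_E_iff hσ).1 hx
    have h0 := IsLg.mul hR.sq hx' hx'
    apply Units.ext
    rw [Units.val_pow_eq_pow_val, Units.val_one]
    have key : ∀ n : ℕ, (x : M →ₗ[k] M) ^ n = 1 + (n : k) • ((x : M →ₗ[k] M) - 1) := by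
      intro n
      induction n with
      | zero => simp
      | succ n ih =>
        rw [pow_succ, ih]
        have : (1 + (n : k) • ((x : M →ₗ[k] M) - 1)) * (x : M →ₗ[k] M) =
            (x : M →ₗ[k] M) + (n : k) • (((x : M →ₗ[k] M) - 1) * ((x : M →ₗ[k] M) - 1)) +
              (n : k) • ((x : M →ₗ[k] M) - 1) := by
          rw [add_mul, one_mul, smul_mul_assoc, mul_sub, mul_one, smul_sub, smul_sub]
          abel
        rw [this, h0, smul_zero, add_zero]
        push_cast
        rw [add_smul, one_smul]
        abel
    rw [key]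
    have : (p : k) = 0 := by rw [← hp]; exact ringChar.Nat.cast_ringChar
    rw [this, zero_smul, add_zero]
end Cfsg.Agent.S5059
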