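import Cfsg.Statements.S5060
import Cfsg.Agent.Lib.Helper85SX

set_option autoImplicit false
open Cfsg

namespace Cfsg.Agent.S5060
open Cfsg.Agent.Lib.Helper85SX Cfsg.Agent.Lib.Helper85SL



/-- Let k ⊆ K be fields with the characteristic of k not 2 and k not of order 3, and let α ∈ K be a non-zero element algebraic over k. Then the subgroup of SL₂(K) generated by the upper unitriangular matrices with entry c and the lower unitriangular matrices with entry cα, c ranging over k, is exactly the group of matrices of SL₂(K) with all entries in k(α). -/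
theorem result {k K : Type*} [Field k] [Field K] [Algebra k K] (hk2 : ringChar k ≠ 2) (hk3 : Nat.card k ≠ 3)
    (α : K) (hα : IsAlgebraic k α) (hα0 : α ≠ 0) :
    (Subgroup.closure ({g : Matrix.SpecialLinearGroup (Fin 2) K | ∃ c : k, (g : Matrix (Fin 2) (Fin 2) K) = !![1, algebraMap k K c; 0, 1]} ∪
        {g : Matrix.SpecialLinearGroup (Fin 2) K | ∃ c : k, (g : Matrix (Fin 2) (Fin 2) K) = !![1, 0; algebraMap k K c * α, 1]}) :
      Set (Matrix.SpecialLinearGroup (Fin 2) K)) =
    {g : Matrix.SpecialLinearGroup (Fin 2) K | ∀ i j : Fin 2, (g : Matrix (Fin 2) (Fin 2) K) i j ∈ IntermediateField.adjoin k ({α} : Set K)} := by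
  classical
  set F := IntermediateField.adjoin k ({α} : Set K) with hF
  have hint : IsIntegral k α := hα.isIntegral
  set a : F := ⟨α, IntermediateField.mem_adjoin_simple_self k α⟩ with ha
  have haK : algebraMap F K a = α := rfl
  have ha0 : a ≠ 0 := by
    intro h
    apply hα0
    rw [← haK, h, map_zero]
  have hinta : IsIntegral k a := by
    rw [← isIntegral_algebraMap_iff (B := K) (algebraMap F K).injective]
    exact hint
  have hsurj : Function.Surjective (Polynomial.aeval (R := k) a) := by
    intro x
    have hx : (x : K) ∈ (IntermediateField.adjoin k ({α} : Set K)).toSubalgebra := x.2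
    rw [IntermediateField.adjoin_simple_toSubalgebra_of_isAlgebraic hα, Algebra.adjoin_singleton_eq_range_aeval] at hx
    obtain ⟨μ, hμ⟩ := hx
    refine ⟨μ, ?_⟩
    apply (algebraMap F K).injective
    rw [← Polynomial.aeval_algebraMap_apply]
    exact hμ
  have hfin : Finite k → Finite F := by
    intro hk
    have : FiniteDimensional k F := IntermediateField.adjoin.finiteDimensional hint
    exact Module.finite_of_finite k
  set φ : Matrix.SpecialLinearGroup (Fin 2) F →* Matrix.SpecialLinearGroup (Fin 2) K :=
    Matrix.SpecialLinearGroup.map (algebraMap F K) with hφ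
  set S : Set (Matrix.SpecialLinearGroup (Fin 2) K) :=
    ({g : Matrix.SpecialLinearGroup (Fin 2) K | ∃ c : k, (g : Matrix (Fin 2) (Fin 2) K) = !![1, algebraMap k K c; 0, 1]} ∪
        {g : Matrix.SpecialLinearGroup (Fin 2) K | ∃ c : k, (g : Matrix (Fin 2) (Fin 2) K) = !![1, 0; algebraMap k K c * α, 1]}) with hS
  have hφv : ∀ (g : Matrix.SpecialLinearGroup (Fin 2) F) (i j : Fin 2),
      (φ g : Matrix (Fin 2) (Fin 2) K) i j = algebraMap F K ((g : Matrix (Fin 2) (Fin 2) F) i j) := by
    intro g i j
    rfl
  have htop : (Subgroup.closure S).comap φ = ⊤ := by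
    apply gen_top (Ring.two_ne_zero hk2) hk3 hfin a hinta ha0 hsurj
    · intro c
      rw [Subgroup.mem_comap]
      apply Subgroup.subset_closure
      left
      refine ⟨c, ?_⟩
      ext i j
      rw [hφv]
      fin_cases i <;> fin_cases j <;> simp [uu_val, ← IsScalarTower.algebraMap_apply]
    · intro c
      rw [Subgroup.mem_comap]
      apply Subgroup.subset_closure
      right
      refine ⟨c, ?_⟩
      ext i j
      rw [hφv]
      fin_cases i <;> fin_cases j <;> simp [ll_val]
      left; rfl
  ext g
  simp only [SetLike.mem_coe, Set.mem_ofPred_eq]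
  constructor
  · intro hg
    have hle : Subgroup.closure S ≤ φ.range := by
      rw [Subgroup.closure_le]
      rintro g (⟨c, hc⟩ | ⟨c, hc⟩)
      · refine ⟨uu (algebraMap k F c), ?_⟩
        ext i j
        rw [hφv, hc]
        fin_cases i <;> fin_cases j <;> simp [uu_val, ← IsScalarTower.algebraMap_apply]
      · refine ⟨ll (algebraMap k F c * a), ?_⟩
        ext i j
        rw [hφv, hc]
        fin_cases i <;> fin_cases j <;> simp [ll_val]
        left; rfl
    obtain ⟨g', rfl⟩ := hle hg
    intro i j
    rw [hφv]
    exact ((g' : Matrix (Fin 2) (Fin 2) F) i j).2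
  · intro hg
    set M : Matrix (Fin 2) (Fin 2) F := fun i j => ⟨(g : Matrix (Fin 2) (Fin 2) K) i j, hg i j⟩ with hM
    have hdet : M.det = 1 := by
      apply (algebraMap F K).injective
      rw [map_one, RingHom.map_det]
      have : (algebraMap F K).mapMatrix M = (g : Matrix (Fin 2) (Fin 2) K) := by
        ext i j
        rfl
      rw [this]
      exact g.2
    have h1 : (⟨M, hdet⟩ : Matrix.SpecialLinearGroup (Fin 2) F) ∈ (Subgroup.closure S).comap φ := by
      rw [htop]; trivial
    replace h1 : φ ⟨M, hdet⟩ ∈ Subgroup.closure S := h1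
    have h2 : φ ⟨M, hdet⟩ = g := by
      ext i j
      rfl
    rwa [h2] at h1

end Cfsg.Agent.S5060
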