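import Cfsg.Statements.S5064
import Cfsg.Agent.Lib.Helper85QI
import Cfsg.Agent.Lib.Helper85QM

set_option autoImplicit false
universe u
open Cfsg

namespace Cfsg.Agent.S5064
open Polynomial Cfsg.Agent.Lib.Helper85QA Cfsg.Agent.Lib.Helper85QK Cfsg.Agent.Lib.Helper85QP Cfsg.Agent.Lib.Helper85QC Cfsg.Agent.Lib.Helper85QI Cfsg.Agent.Lib.Helper85QM Cfsg.Agent.Lib.Helper85SL


theorem field_part {k : Type u} [Field k] {K : Type u} [Field K] [Algebra k K] (π : k[X] →ₐ[k] K)
    (hπ : Function.Surjective π) {f : k[X]} (hf : f ≠ 0) (hf0 : π f = 0) :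
    IsAlgebraic k (π X) ∧ IntermediateField.adjoin k ({π X} : Set K) = ⊤ := by
  have hav : ∀ μ : k[X], aeval (π X) μ = π μ := by
    intro μ
    rw [Polynomial.aeval_algHom_apply, aeval_X_left_apply]
  refine ⟨⟨f, hf, by rw [hav, hf0]⟩, ?_⟩
  rw [eq_top_iff]
  intro κ _
  obtain ⟨μ, rfl⟩ := hπ κ
  have e : π μ = aeval (π X) μ := (hav μ).symm
  rw [e]
  exact IntermediateField.algebra_adjoin_le_adjoin k _ (Polynomial.aeval_mem_adjoin_singleton k (π X))



/-- Let k be a field of characteristic not 2 with k not of order 3, M a finite-dimensional k-vector space and G ≤ GL(M) such that (G, M) is a quadratic pair (M irreducible for G, and G generated by its quadratically acting elements σ whose scalar family 1 + c(σ − 1), c ∈ k, lies in G). Write 𝒬_d for the quadratic elements of G of minimal commutator rank, E(σ) for the subgroup generated by the members of 𝒬_d with the same fixed space and commutator space as σ, and Σ for the set of these subgroups. If σ, τ ∈ 𝒬_d and the subgroup H generated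 by their two scalar families does not act unipotently on M, then H is isomorphic to SL₂ over a simple algebraic extension k(λ) of k. -/
theorem result {k : Type u} [Field k] (hk2 : ringChar k ≠ 2) (hk3 : Nat.card k ≠ 3)
    {M : Type u} [AddCommGroup M] [Module k M] [FiniteDimensional k M]
    {G : Subgroup (LinearMap.GeneralLinearGroup k M)} (hG : Cfsg.IsQuadraticPair G)
    {σ τ : LinearMap.GeneralLinearGroup k M} (hσ : σ ∈ Cfsg.minimalQuadraticElements G) (hτ : τ ∈ Cfsg.minimalQuadraticElements G)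
    (hH : ¬ Cfsg.IsUnipotentOn (Subgroup.closure (Cfsg.scalarFamily σ ∪ Cfsg.scalarFamily τ))) :
    ∃ (K : Type u) (_ : Field K) (_ : Algebra k K) (lam : K), IsAlgebraic k lam ∧
      IntermediateField.adjoin k ({lam} : Set K) = ⊤ ∧
      Nonempty (↥(Subgroup.closure (Cfsg.scalarFamily σ ∪ Cfsg.scalarFamily τ)) ≃* Matrix.SpecialLinearGroup (Fin 2) K) := by
  classical
  have hN := mem_min_iff.1 hσ
  have hN' := mem_min_iff.1 hτ
  set N : M →ₗ[k] M := (σ : M →ₗ[k] M) - 1 with hNdef
  set N' : M →ₗ[k] M := (τ : M →ₗ[k] M) - 1 with hN'def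
  set H := Subgroup.closure (Cfsg.scalarFamily σ ∪ Cfsg.scalarFamily τ) with hHdef
  have h2 : (2 : k) ≠ 0 := Ring.two_ne_zero hk2
  have hHG : H ≤ G := by
    rw [hHdef, Subgroup.closure_le]
    rintro g (hg | hg)
    · exact hσ.1.2.2 hg
    · exact hτ.1.2.2 hg
  have fN : InG H N := fun c => ⟨uof (c • N) (smul_sq hN.sq c), Subgroup.subset_closure (Or.inl ⟨c, rfl⟩), rfl⟩
  have fN' : InG H N' := fun c => ⟨uof (c • N') (smul_sq hN'.sq c), Subgroup.subset_closure (Or.inr ⟨c, rfl⟩), rfl⟩
  have h := mkCtx hHG hN hN' fN fN'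
  set Z := N * N' + N' * N with hZ
  set Nc : Cen Z := ⟨N, mem_Cen.2 (z_comm hN.sq)⟩ with hNc
  set Nc' : Cen Z := ⟨N', mem_Cen.2 (z_comm' hN'.sq)⟩ with hNc'
  have hx : (X : k[X]) • Nc ≠ 0 := by
    intro h0
    apply hH
    have z1 : Z * N = 0 := by
      have := congrArg Subtype.val h0
      rwa [smul_val, aeval_X] at this
    have zz : Z ^ 2 = 0 := by
      have : Z ^ 2 = (Z * N) * N' + N' * (Z * N) := by
        rw [pow_two]
        conv_lhs => rw [hZ, mul_add, ← hZ, ← mul_assoc, ← mul_assoc, z_comm' hN'.sq, ← hZ]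
        simp only [mul_assoc]
      rw [this, z1]; simp
    have z2 : Z * N' = 0 := (nilc hk2 hN hN' zz).2
    have w1 : N * N' * N = 0 := by
      have : Z * N = N * N' * N := by rw [hZ, add_mul, mul_assoc N' N N, hN.sq, mul_zero, add_zero]
      rw [← this, z1]
    have w2 : N' * N * N' = 0 := by
      have : Z * N' = N' * N * N' := by rw [hZ, add_mul, mul_assoc N N' N', hN'.sq, mul_zero, zero_add]
      rw [← this, z2]
    apply unip_pair (range_le_ker hN.sq) (range_le_ker hN'.sq)
    rintro g (⟨c, hg⟩ | ⟨c, hg⟩)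
    · left
      have e : (g : M →ₗ[k] M) - 1 = c • N := by rw [hg, add_sub_cancel_left]
      rw [e]
      refine ⟨?_, ?_, ?_⟩
      · rintro _ ⟨m, rfl⟩
        exact ⟨c • m, by simp⟩
      · intro m hm
        rw [LinearMap.mem_ker] at hm ⊢
        simp [hm]
      · rintro _ ⟨m, rfl⟩
        rw [LinearMap.mem_ker, LinearMap.smul_apply, map_smul]
        have := LinearMap.congr_fun w2 m
        simp only [Module.End.mul_apply, LinearMap.zero_apply] at this
        rw [this, smul_zero]
    · right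
      have e : (g : M →ₗ[k] M) - 1 = c • N' := by rw [hg, add_sub_cancel_left]
      rw [e]
      refine ⟨?_, ?_, ?_⟩
      · rintro _ ⟨m, rfl⟩
        exact ⟨c • m, by simp⟩
      · intro m hm
        rw [LinearMap.mem_ker] at hm ⊢
        simp [hm]
      · rintro _ ⟨m, rfl⟩
        rw [LinearMap.mem_ker, LinearMap.smul_apply, map_smul]
        have := LinearMap.congr_fun w1 m
        simp only [Module.End.mul_apply, LinearMap.zero_apply] at this
        rw [this, smul_zero]
  have kl₁ : ∀ μ : k[X], Fam (P := k[X]) k (Gc H Z) (μ • Nc) :=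
    fun μ => kl h2 hk3 (fin_Cen _) h (LinearMap.charpoly_monic _) (charpoly_kill _) μ
  have kl₂ : ∀ μ : k[X], Fam (P := k[X]) k (Gc H Z) (μ • Nc') :=
    fun μ => kl h2 hk3 (fin_Cen _) h.symm (LinearMap.charpoly_monic _) (charpoly_kill _) μ
  have hNc0 : Nc ≠ 0 := by
    intro h0; exact hx (by rw [h0, smul_zero])
  have hm := ann_max h kl₁ (LinearMap.charpoly_monic Z) (charpoly_kill _) hNc0
  obtain ⟨ω, e1, e2⟩ := inv_pair h2 h kl₁ kl₂ (LinearMap.charpoly_monic Z) (charpoly_kill _) hx
  have hx' : (X : k[X]) • Nc' ≠ 0 := by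
    intro h0
    have : Nc' = 0 := by rw [← e2, mul_smul, h0, smul_zero]
    apply hx
    have hz := h.z
    rw [this, mul_zero, zero_mul, add_zero] at hz
    calc (X : k[X]) • Nc = ((X : k[X]) • (1 : Cen Z)) * Nc := by rw [smul_mul_assoc, one_mul]
      _ = 0 := by rw [← hz, zero_mul]
  set I := Ideal.torsionOf k[X] (Cen Z) Nc with hI
  let _ : Field (k[X] ⧸ I) := Ideal.Quotient.field I
  have hfI : LinearMap.charpoly Z ∈ I := by
    rw [hI, Ideal.mem_torsionOf_iff]
    calc LinearMap.charpoly Z • Nc = (LinearMap.charpoly Z • (1 : Cen Z)) * Nc := by rw [smul_mul_assoc, one_mul]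
      _ = 0 := by rw [charpoly_kill, zero_mul]
  obtain ⟨a1, a2⟩ := field_part (Ideal.Quotient.mkₐ k I) (Ideal.Quotient.mkₐ_surjective k I)
    (LinearMap.charpoly_monic Z).ne_zero (Ideal.Quotient.eq_zero_iff_mem.2 hfI)
  refine ⟨k[X] ⧸ I, inferInstance, inferInstance, Ideal.Quotient.mkₐ k I X, a1, a2, ?_⟩
  obtain ⟨Φ, hinj, hu, hl⟩ := sl2_embed (Ideal.Quotient.mk I) Ideal.Quotient.mk_surjective h.toQPair e1 e2
    (fun y => by rw [Ideal.Quotient.eq_zero_iff_mem, hI, Ideal.mem_torsionOf_iff])
    (fun y => ⟨fun hy => ann_iff h2 h kl₂ hx hy, fun hy => ann_iff h2 h.symm kl₁ hx' hy⟩)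
  set Ψ : Matrix.SpecialLinearGroup (Fin 2) (k[X] ⧸ I) →* LinearMap.GeneralLinearGroup k M :=
    (Units.map ((Cen Z).val : Cen Z →* Module.End k M)).comp Φ with hΨ
  have hΨinj : Function.Injective Ψ := by
    intro a b hab
    apply hinj
    apply Units.ext
    apply Subtype.ext
    exact congrArg Units.val hab
  have hrange : Ψ.range = H := by
    rw [MonoidHom.range_eq_map, ← closure_eq_top, MonoidHom.map_closure]
    apply le_antisymm
    · rw [Subgroup.closure_le]
      rintro _ ⟨g, (⟨κ, rfl⟩ | ⟨κ, rfl⟩), rfl⟩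
      · obtain ⟨a, rfl⟩ := Ideal.Quotient.mk_surjective κ
        obtain ⟨u, hu1, hu2⟩ := In_val (kl₁ a).in
        have e : Ψ (uu ((Ideal.Quotient.mk I) a)) = u := by
          apply Units.ext
          rw [hu2]
          exact congrArg Subtype.val (hu a)
        show Ψ _ ∈ H
        rw [e]; exact hu1
      · obtain ⟨a, rfl⟩ := Ideal.Quotient.mk_surjective κ
        obtain ⟨u, hu1, hu2⟩ := In_val (kl₂ (a * ω)).in
        have e : Ψ (ll ((Ideal.Quotient.mk I) a)) = u := by
          apply Units.ext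
          rw [hu2]
          exact congrArg Subtype.val (hl a)
        show Ψ _ ∈ H
        rw [e]; exact hu1
    · rw [hHdef, Subgroup.closure_le]
      rintro g (⟨c, hg⟩ | ⟨c, hg⟩)
      · apply Subgroup.subset_closure
        refine ⟨uu (Ideal.Quotient.mk I (C c)), Or.inl ⟨_, rfl⟩, ?_⟩
        apply Units.ext
        rw [hg]
        have := congrArg Subtype.val (hu (C c))
        refine this.trans ?_
        rw [Subalgebra.coe_add, ← algebraMap_eq, C_smul_val]
        rfl
      · apply Subgroup.subset_closure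
        refine ⟨ll (Ideal.Quotient.mk I (C c * X)), Or.inr ⟨_, rfl⟩, ?_⟩
        apply Units.ext
        rw [hg]
        have := congrArg Subtype.val (hl (C c * X))
        refine this.trans ?_
        have e3 : (C c * X * ω) • Nc' = (algebraMap k k[X] c) • Nc' := by
          have : (C c * X * ω) • Nc' = (C c) • ((ω * X) • Nc') := by module
          rw [this, e2, algebraMap_eq]
        rw [e3, Subalgebra.coe_add, C_smul_val]
        rfl
  exact ⟨(MulEquiv.subgroupCongr hrange.symm).trans (MonoidHom.ofInjective hΨinj).symm⟩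
end Cfsg.Agent.S5064
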