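import Cfsg.Statements.S5065
import Cfsg.Agent.Lib.Helper85QR

set_option autoImplicit false
universe u
open Cfsg

namespace Cfsg.Agent.S5065
open Cfsg.Agent.Lib.Helper85QP Cfsg.Agent.Lib.Helper85QS Cfsg.Agent.Lib.Helper85QR



/-- Let k be a field of characteristic not 2 with k not of order 3, M a finite-dimensional k-vector space and G ≤ GL(M) such that (G, M) is a quadratic pair (M irreducible for G, and G generated by its quadratically acting elements σ whose scalar family 1 + c(σ − 1), c ∈ k, lies in G). Write 𝒬_d for the quadratic elements of G of minimal commutator rank, E(σ) for the subgroup generated by the members of 𝒬_d with the same fixed space and commutator space as σ, and Σ for the set of these subgroups. For σ, τ ∈ 𝒬_d put A = E(σ), B = E(τ) and X = ⟨A, B⟩. Then either X acts unipotently on M, or A and B are the unipotent subgroups of a special rank one group X; in the latter case X contains exactly one central involution acting as −1 on the commutator space [M,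 X] and trivially on the fixed space C_M(X), and M is the direct sum of C_M(X) and [M, X]. -/
theorem result {k : Type u} [Field k] (hk2 : ringChar k ≠ 2) (hk3 : Nat.card k ≠ 3)
    {M : Type u} [AddCommGroup M] [Module k M] [FiniteDimensional k M]
    {G : Subgroup (LinearMap.GeneralLinearGroup k M)} (hG : Cfsg.IsQuadraticPair G)
    {σ τ : LinearMap.GeneralLinearGroup k M} (hσ : σ ∈ Cfsg.minimalQuadraticElements G) (hτ : τ ∈ Cfsg.minimalQuadraticElements G) :
    Cfsg.IsUnipotentOn (Cfsg.sameActionSubgroup G σ ⊔ Cfsg.sameActionSubgroup G τ) ∨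
    (Cfsg.IsSpecialRankOnePair (Cfsg.sameActionSubgroup G σ) (Cfsg.sameActionSubgroup G τ) ∧
      (∃! i : LinearMap.GeneralLinearGroup k M, i ∈ Cfsg.sameActionSubgroup G σ ⊔ Cfsg.sameActionSubgroup G τ ∧ i ≠ 1 ∧ i * i = 1 ∧
        (∀ x ∈ Cfsg.sameActionSubgroup G σ ⊔ Cfsg.sameActionSubgroup G τ, i * x = x * i) ∧
        (∀ m ∈ Cfsg.commutatorSubmodule (Cfsg.sameActionSubgroup G σ ⊔ Cfsg.sameActionSubgroup G τ), (i : M →ₗ[k] M) m = -m) ∧
        (∀ m ∈ Cfsg.fixedSubmodule (Cfsg.sameActionSubgroup G σ ⊔ Cfsg.sameActionSubgroup G τ), (i : M →ₗ[k] M) m = m)) ∧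
      IsCompl (Cfsg.fixedSubmodule (Cfsg.sameActionSubgroup G σ ⊔ Cfsg.sameActionSubgroup G τ))
        (Cfsg.commutatorSubmodule (Cfsg.sameActionSubgroup G σ ⊔ Cfsg.sameActionSubgroup G τ))) := by
  classical
  have hN := mem_min_iff.1 hσ
  have hN' := mem_min_iff.1 hτ
  rcases dich hk2 hk3 hN hN' with h0 | ⟨d1, d2⟩
  · exact Or.inl (unip_case hk2 hk3 hσ hτ h0)
  right
  refine ⟨rankOne hk2 hk3 hσ hτ d1 d2, ?_⟩
  set X : M →ₗ[k] M := (σ : M →ₗ[k] M) - 1 with hXd
  set N' : M →ₗ[k] M := (τ : M →ₗ[k] M) - 1 with hN'd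
  obtain ⟨Y, hY, hY0, e1, e2⟩ := sharp hk2 hk3 hN' d1 d2 (IsLg.self hN) hN.ne
  have hXX := hN.sq
  have hYY := IsLg.mul hN'.sq hY hY
  obtain ⟨hYk, hYr⟩ : LinearMap.ker Y = LinearMap.ker N' ∧ LinearMap.range Y = LinearMap.range N' := by
    rcases hY with h | ⟨_, a, b⟩
    · exact absurd h hY0
    · exact ⟨a, b⟩
  set W := Cfsg.sameActionSubgroup G σ ⊔ Cfsg.sameActionSubgroup G τ with hW
  set ε : M →ₗ[k] M := X * Y + Y * X with hε
  have εX : ε * X = X := by rw [hε, add_mul, e1, mul_assoc Y X X, hXX, mul_zero, add_zero]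
  have Xε : X * ε = X := by rw [hε, mul_add, ← mul_assoc, hXX, zero_mul, zero_add, ← mul_assoc, e1]
  have εY : ε * Y = Y := by rw [hε, add_mul, e2, mul_assoc X Y Y, hYY, mul_zero, zero_add]
  have Yε : Y * ε = Y := by rw [hε, mul_add, ← mul_assoc, e2, ← mul_assoc, hYY, zero_mul, add_zero]
  have εε : ε * ε = ε := by
    conv_lhs => rw [hε, add_mul, mul_assoc, mul_assoc, ← hε, Yε, Xε]
  have gen : ∀ (A T : M →ₗ[k] M), ε * A = A → A * ε = A → LinearMap.range T ≤ LinearMap.range A →
      LinearMap.ker A ≤ LinearMap.ker T → ε * T = T ∧ T * ε = T := by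
    intro A T h1 h2 hr hk
    constructor
    · ext m
      obtain ⟨a, ha⟩ := hr ⟨m, rfl⟩
      rw [Module.End.mul_apply, ← ha, ← Module.End.mul_apply, h1]
    · ext m
      have : m - ε m ∈ LinearMap.ker A := by
        rw [LinearMap.mem_ker, map_sub, ← Module.End.mul_apply, h2, sub_self]
      have := LinearMap.mem_ker.1 (hk this)
      rw [map_sub, sub_eq_zero] at this
      rw [Module.End.mul_apply]; exact this.symm
  have P : ∀ g ∈ W, ε * ((g : M →ₗ[k] M) - 1) = (g : M →ₗ[k] M) - 1 ∧
      ((g : M →ₗ[k] M) - 1) * ε = (g : M →ₗ[k] M) - 1 := by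
    intro g hg
    have e : W = Subgroup.closure ((Cfsg.sameActionSubgroup G σ : Set (LinearMap.GeneralLinearGroup k M)) ∪
        (Cfsg.sameActionSubgroup G τ : Set (LinearMap.GeneralLinearGroup k M))) := by
      rw [Subgroup.closure_union, Subgroup.closure_eq, Subgroup.closure_eq]
    rw [e] at hg
    induction hg using Subgroup.closure_induction with
    | mem g hg =>
      rcases hg with hg | hg
      · have hl := (mem_E_iff hσ).1 hg
        exact gen X _ εX Xε hl.range_le hl.ker_le
      · have hl := (mem_E_iff hτ).1 hg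
        exact gen Y _ εY Yε (by rw [hYr]; exact hl.range_le) (by rw [hYk]; exact hl.ker_le)
    | one => simp
    | mul a b _ _ ha hb =>
      have e : ((a * b : LinearMap.GeneralLinearGroup k M) : M →ₗ[k] M) - 1 =
          ((a : M →ₗ[k] M) - 1) * ((b : M →ₗ[k] M) - 1) + ((a : M →ₗ[k] M) - 1) + ((b : M →ₗ[k] M) - 1) := by
        rw [Units.val_mul]; noncomm_ring
      rw [e]
      constructor
      · rw [mul_add, mul_add, ← mul_assoc, ha.1, hb.1]
      · rw [add_mul, add_mul, mul_assoc, ha.2, hb.2]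
    | inv a _ ha =>
      have f1 : ((a⁻¹ : LinearMap.GeneralLinearGroup k M) : M →ₗ[k] M) - 1 =
          -(((a : M →ₗ[k] M) - 1) * ((a⁻¹ : LinearMap.GeneralLinearGroup k M) : M →ₗ[k] M)) := by
        rw [sub_mul, Units.mul_inv]; simp
      have f2 : ((a⁻¹ : LinearMap.GeneralLinearGroup k M) : M →ₗ[k] M) - 1 =
          -(((a⁻¹ : LinearMap.GeneralLinearGroup k M) : M →ₗ[k] M) * ((a : M →ₗ[k] M) - 1)) := by
        rw [mul_sub, Units.inv_mul]; simp
      constructor
      · rw [f1, mul_neg, ← mul_assoc, ha.1]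
      · rw [f2, neg_mul, mul_assoc, ha.2]
  have hσW : σ ∈ W := Subgroup.mem_sup_left (self_mem_E hσ)
  have hbW : ∀ c : k, uof (c • Y) (smul_sq hYY c) ∈ W := fun c =>
    Subgroup.mem_sup_right (by rw [mem_E_iff hτ, uof_sub]; exact hY.smul hN' c)
  have hfix : Cfsg.fixedSubmodule W = LinearMap.ker ε := by
    apply le_antisymm
    · intro m hm
      simp only [Cfsg.fixedSubmodule, Submodule.mem_iInf] at hm
      have h1 : X m = 0 := hm σ hσW
      have h2 : Y m = 0 := by
        have := hm _ (hbW 1)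
        rw [uof_sub, one_smul] at this
        exact this
      rw [LinearMap.mem_ker, hε, LinearMap.add_apply, Module.End.mul_apply, Module.End.mul_apply, h1, h2]
      simp
    · intro m hm
      simp only [Cfsg.fixedSubmodule, Submodule.mem_iInf]
      intro g hg
      rw [LinearMap.mem_ker, ← (P g hg).2, Module.End.mul_apply, LinearMap.mem_ker.1 hm, map_zero]
  have hcom : Cfsg.commutatorSubmodule W = LinearMap.range ε := by
    apply le_antisymm
    · apply iSup₂_le
      rintro g hg _ ⟨m, rfl⟩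
      exact ⟨((g : M →ₗ[k] M) - 1) m, by rw [← Module.End.mul_apply, (P g hg).1]⟩
    · rintro _ ⟨m, rfl⟩
      rw [hε, LinearMap.add_apply, Module.End.mul_apply, Module.End.mul_apply]
      apply Submodule.add_mem
      · exact (le_iSup₂ (f := fun (g : LinearMap.GeneralLinearGroup k M) (_ : g ∈ W) =>
          LinearMap.range ((g : M →ₗ[k] M) - 1)) σ hσW) ⟨_, rfl⟩
      · have := (le_iSup₂ (f := fun (g : LinearMap.GeneralLinearGroup k M) (_ : g ∈ W) =>
          LinearMap.range ((g : M →ₗ[k] M) - 1)) _ (hbW 1))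
        apply this
        simp only [uof_sub, one_smul]
        exact ⟨_, rfl⟩
  have hcompl : IsCompl (Cfsg.fixedSubmodule W) (Cfsg.commutatorSubmodule W) := by
    rw [hfix, hcom]
    exact (LinearMap.IsIdempotentElem.isCompl εε).symm
  refine ⟨?_, hcompl⟩
  -- the involution
  set n : LinearMap.GeneralLinearGroup k M := σ * uof ((-1 : k) • Y) (smul_sq hYY _) * σ with hn
  have hnW : n ∈ W := W.mul_mem (W.mul_mem hσW (hbW _)) hσW
  have hnv : (n : M →ₗ[k] M) = 1 - ε + (X - Y) := by
    have hs : (σ : M →ₗ[k] M) = 1 + X := by rw [hXd]; abel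
    rw [hn, Units.val_mul, Units.val_mul, uof_val, hs, neg_smul, one_smul]
    have : (1 + X) * (1 + -Y) * (1 + X) = 1 + X + X - Y - X * Y - Y * X + X * X - X * Y * X := by noncomm_ring
    rw [this, hXX, e1, hε]; abel
  have hiv : ((n * n : LinearMap.GeneralLinearGroup k M) : M →ₗ[k] M) = 1 - ε - ε := by
    rw [Units.val_mul, hnv]
    have t1 : ε * (X - Y) = X - Y := by rw [mul_sub, εX, εY]
    have t2 : (X - Y) * ε = X - Y := by rw [sub_mul, Xε, Yε]
    have t3 : (X - Y) * (X - Y) = -ε := by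
      have : (X - Y) * (X - Y) = X * X - X * Y - Y * X + Y * Y := by noncomm_ring
      rw [this, hXX, hYY, hε]; abel
    have : (1 - ε + (X - Y)) * (1 - ε + (X - Y)) = 1 - ε - ε + ε * ε + (X - Y) - ε * (X - Y) + (X - Y) -
        (X - Y) * ε + (X - Y) * (X - Y) := by noncomm_ring
    rw [this, εε, t1, t2, t3]; abel
  have hε0 : ε ≠ 0 := by
    intro h0
    apply hN.ne
    rw [← εX, h0, zero_mul]
  have h2 : (2 : k) ≠ 0 := Ring.two_ne_zero hk2
  have act : ∀ m, ((n * n : LinearMap.GeneralLinearGroup k M) : M →ₗ[k] M) m = m - ε m - ε m := by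
    intro m; rw [hiv]; simp
  refine ⟨n * n, ⟨W.mul_mem hnW hnW, ?_, ?_, ?_, ?_, ?_⟩, ?_⟩
  · intro h1
    have := congrArg Units.val h1
    rw [hiv, Units.val_one] at this
    apply hε0
    have h3 : (2 : k) • ε = 0 := by
      rw [two_smul]
      have : ε + ε = 1 - (1 - ε - ε) := by abel
      rw [this, ‹(1 : M →ₗ[k] M) - ε - ε = 1›, sub_self]
    exact (smul_eq_zero.1 h3).resolve_left h2
  · apply Units.ext
    rw [Units.val_mul, hiv, Units.val_one]
    have : (1 - ε - ε) * (1 - ε - ε) = 1 - ε - ε - ε - ε + ε * ε + ε * ε + ε * ε + ε * ε := by noncomm_ring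
    rw [this, εε]; abel
  · intro x hx
    apply Units.ext
    rw [Units.val_mul (n * n) x, Units.val_mul x (n * n), hiv]
    have h3 : ε * (x : M →ₗ[k] M) = (x : M →ₗ[k] M) * ε := by
      have a1 := (P x hx).1
      have a2 := (P x hx).2
      rw [mul_sub, mul_one] at a1
      rw [sub_mul, one_mul] at a2
      have b1 : ε * (x : M →ₗ[k] M) = (x : M →ₗ[k] M) - 1 + ε := by rw [← a1]; abel
      have b2 : (x : M →ₗ[k] M) * ε = (x : M →ₗ[k] M) - 1 + ε := by rw [← a2]; abel
      rw [b1, b2]
    rw [sub_mul, sub_mul, mul_sub, mul_sub, h3]; simp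
  · intro m hm
    rw [hcom] at hm
    obtain ⟨a, rfl⟩ := hm
    rw [act, ← Module.End.mul_apply, εε]; abel
  · intro m hm
    rw [hfix] at hm
    rw [act, LinearMap.mem_ker.1 hm]; simp
  · rintro j ⟨_, _, _, _, j1, j2⟩
    apply Units.ext
    ext m
    have d : m = (m - ε m) + ε m := by abel
    have m1 : m - ε m ∈ Cfsg.fixedSubmodule W := by
      rw [hfix, LinearMap.mem_ker, map_sub, ← Module.End.mul_apply, εε, sub_self]
    have m2 : ε m ∈ Cfsg.commutatorSubmodule W := by rw [hcom]; exact ⟨m, rfl⟩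
    rw [act]
    conv_lhs => rw [d, map_add, j1 _ m2, j2 _ m1]
    abel
end Cfsg.Agent.S5065
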