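import Cfsg.Statements.S5067

set_option autoImplicit false
open Cfsg

namespace Cfsg.Agent.S5067
open scoped commutatorElement


theorem aux {P : Type*} [Group P] [Group.IsNilpotent P]
    (hna : ¬ IsMulCommutative P) {E : Subgroup P} (hE : IsMulCommutative ↥E) :
    Group.nilpotencyClass ↥(Subgroup.normalClosure (E : Set P)) < Group.nilpotencyClass P := by
  set N := Subgroup.normalClosure (E : Set P) with hN
  set M := E ⊔ commutator P with hM
  have hMn : M.Normal := Subgroup.Normal.of_commutator_le _ le_sup_right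
  have hNM : N ≤ M := Subgroup.normalClosure_le_normal (SetLike.coe_subset_coe.2 le_sup_left)
  set γ := (⊤ : Subgroup P).lowerCentralSeries 2 with hγ
  have hγn : γ.Normal := inferInstance
  have hd : ∀ d ∈ commutator P, ∀ x : P, ⁅d, x⁆ ∈ γ := by
    intro d hd x
    exact Subgroup.commutator_mem_commutator hd (Subgroup.mem_top x)
  have hd' : ∀ d ∈ commutator P, ∀ x : P, ⁅x, d⁆ ∈ γ := by
    intro d hdd x
    rw [← commutatorElement_inv]
    exact γ.inv_mem (hd d hdd x)
  have hMM : ⁅M, M⁆ ≤ γ := by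
    rw [Subgroup.commutator_le]
    intro g₁ h₁ g₂ h₂
    rw [hM, Subgroup.mem_sup_of_normal_right] at h₁ h₂
    obtain ⟨e₁, he₁, d₁, hd₁, rfl⟩ := h₁
    obtain ⟨e₂, he₂, d₂, hd₂, rfl⟩ := h₂
    have i1 : ⁅e₁ * d₁, e₂ * d₂⁆ = e₁ * ⁅d₁, e₂ * d₂⁆ * e₁⁻¹ * (⁅e₁, e₂⁆ * (e₂ * ⁅e₁, d₂⁆ * e₂⁻¹)) := by
      simp only [commutatorElement_def]; group
    have i2 : ⁅e₁, e₂⁆ = 1 := by
      rw [commutatorElement_eq_one_iff_mul_comm]
      have := hE.is_comm.comm (⟨e₁, he₁⟩ : E) ⟨e₂, he₂⟩
      exact congrArg Subtype.val this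
    rw [i1, i2, one_mul]
    exact γ.mul_mem (hγn.conj_mem _ (hd d₁ hd₁ _) _) (hγn.conj_mem _ (hd' d₂ hd₂ _) _)
  have key : ∀ n : ℕ, N.lowerCentralSeries (n + 1) ≤ (⊤ : Subgroup P).lowerCentralSeries (n + 2) := by
    intro n
    induction n with
    | zero =>
      rw [Subgroup.lowerCentralSeries_succ, Subgroup.lowerCentralSeries_zero]
      exact (Subgroup.commutator_mono hNM hNM).trans hMM
    | succ n ih =>
      rw [Subgroup.lowerCentralSeries_succ, Subgroup.lowerCentralSeries_succ _ (n + 1 + 1)]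
      exact Subgroup.commutator_mono ih le_top
  have hc := Subgroup.lowerCentralSeries_nilpotencyClass (G := P)
  obtain ⟨m, hm⟩ : ∃ m, Group.nilpotencyClass P = m + 2 := by
    rcases h : Group.nilpotencyClass P with _ | _ | m
    · exfalso
      rw [h, Subgroup.lowerCentralSeries_zero] at hc
      apply hna
      have : Subsingleton P := Subgroup.subsingleton_iff.1 (subsingleton_of_bot_eq_top hc.symm)
      exact ⟨⟨fun a b => Subsingleton.elim _ _⟩⟩
    · exfalso
      rw [h] at hc
      apply hna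
      refine ⟨⟨fun a b => ?_⟩⟩
      rw [← commutatorElement_eq_one_iff_mul_comm, ← Subgroup.mem_bot, ← hc]
      exact Subgroup.commutator_mem_commutator (Subgroup.mem_top a) (Subgroup.mem_top b)
    · exact ⟨m, rfl⟩
  rw [hm] at hc ⊢
  have h1 : N.lowerCentralSeries (m + 1) = ⊥ := by
    rw [eq_bot_iff, ← hc]; exact key m
  have h2 : (⊤ : Subgroup N).lowerCentralSeries (m + 1) = ⊥ := by
    rw [← Subgroup.map_subtype_inj, Subgroup.map_bot, Subgroup.top_subtype_lowerCentralSeries, h1]
  have := Subgroup.lowerCentralSeries_eq_bot_iff_nilpotencyClass_le.1 h2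
  omega


/-- Let P be a non-abelian nilpotent p-group (every element of p-power order; P possibly infinite) generated by two abelian subgroups E and F. Then the normal closure of E in P, and likewise that of F, has nilpotency class strictly smaller than that of P. -/
theorem result {P : Type*} [Group P] {p : ℕ} [Fact p.Prime] (hP : IsPGroup p P) [Group.IsNilpotent P]
    (hna : ¬ IsMulCommutative P) {E F : Subgroup P} (hE : IsMulCommutative ↥E) (hF : IsMulCommutative ↥F) (hgen : E ⊔ F = ⊤) :
    Group.nilpotencyClass ↥(Subgroup.normalClosure (E : Set P)) < Group.nilpotencyClass P ∧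
    Group.nilpotencyClass ↥(Subgroup.normalClosure (F : Set P)) < Group.nilpotencyClass P := by
  exact ⟨aux hna hE, aux hna hF⟩

end Cfsg.Agent.S5067
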