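import Cfsg.Statements.S5069
import Cfsg.Agent.Lib.Helper85QU

set_option autoImplicit false
universe u
open Cfsg

namespace Cfsg.Agent.S5069
open Cfsg.Agent.Lib.Helper85QX Cfsg.Agent.Lib.Helper85QY Cfsg.Agent.Lib.Helper85QU Cfsg.Agent.Lib.Helper85Graph



/-- Let k be a field of characteristic not 2 with k not of order 3, M a finite-dimensional k-vector space and G ≤ GL(M) such that (G, M) is a quadratic pair (M irreducible for G, and G generated by its quadratically acting elements σ whose scalar family 1 + c(σ − 1), c ∈ k, lies in G). Write 𝒬_d for the quadratic elements of G of minimal commutator rank, E(σ) for the subgroup generated by the members of 𝒬_d with the same fixed space and commutator space as σ, and Σ for the set of these subgroups. Then Σ is a disjoint union of finitely many parts Σ₁, …, Σ_r such that the subgroups G_i generated by the Σ_i commute pairwise, each G_i is quasisimple, and inside G_i the members of Σ_i form a class of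 abstract root subgroups in which every rank one pair A, B contains subgroups A₀ ≤ A, B₀ ≤ B generating an image of SL₂(k₁) with central kernel on unitriangular subgroups for some field k₁ with at least four elements. -/
theorem result {k : Type u} [Field k] (hk2 : ringChar k ≠ 2) (hk3 : Nat.card k ≠ 3)
    {M : Type u} [AddCommGroup M] [Module k M] [FiniteDimensional k M]
    {G : Subgroup (LinearMap.GeneralLinearGroup k M)} (hG : Cfsg.IsQuadraticPair G) :
    ∃ (r : ℕ) (part : Fin r → Set (Subgroup (LinearMap.GeneralLinearGroup k M))),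
      (⋃ i, part i) = Cfsg.quadraticRootSubgroups G ∧ (∀ i j, i ≠ j → Disjoint (part i) (part j)) ∧ (∀ i, (part i).Nonempty) ∧
      (∀ i j, i ≠ j → ⁅(⨆ A ∈ part i, A), (⨆ A ∈ part j, A)⁆ = ⊥) ∧
      (∀ i, Cfsg.IsQuasisimple ↥(⨆ A ∈ part i, A) ∧
        Cfsg.IsRootSubgroupClass ((fun A : Subgroup (LinearMap.GeneralLinearGroup k M) => A.subgroupOf (⨆ B ∈ part i, B)) '' (part i)) ∧
        ∀ A ∈ part i, ∀ B ∈ Cfsg.rankOnePartners (part i) A, ∃ A₀ B₀ : Subgroup (LinearMap.GeneralLinearGroup k M), A₀ ≤ A ∧ B₀ ≤ B ∧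
          ∃ (k₁ : Type u) (_ : Field k₁), 3 < ENat.card k₁ ∧ Cfsg.IsPSL2PairOver k₁ A₀ B₀) := by
  classical
  have hfin := comps_finite hk2 hk3 hG
  have : Finite {𝒞 : Set (Subgroup (LinearMap.GeneralLinearGroup k M)) |
      ∃ A ∈ Cfsg.quadraticRootSubgroups G, 𝒞 = Cp G A} := hfin
  let e := Finite.equivFin {𝒞 : Set (Subgroup (LinearMap.GeneralLinearGroup k M)) |
      ∃ A ∈ Cfsg.quadraticRootSubgroups G, 𝒞 = Cp G A}
  have hpart : ∀ i, ∃ A ∈ Cfsg.quadraticRootSubgroups G, (e.symm i).1 = Cp G A := fun i => (e.symm i).2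
  have hdisj : ∀ i j, ∀ A, A ∈ (e.symm i).1 → A ∈ (e.symm j).1 → i = j := by
    intro i j A hi hj
    obtain ⟨Ai, _, ei⟩ := hpart i
    obtain ⟨Aj, _, ej⟩ := hpart j
    have : (e.symm i).1 = (e.symm j).1 := by
      rw [ei] at hi ⊢
      rw [ej] at hj ⊢
      rw [← cp_eq_of_mem hi, ← cp_eq_of_mem hj]
    exact e.symm.injective (Subtype.ext this)
  refine ⟨_, fun i => (e.symm i).1, ?_, ?_, ?_, ?_, ?_⟩
  · ext A
    simp only [Set.mem_iUnion]
    constructor
    · rintro ⟨i, hi⟩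
      obtain ⟨Ai, _, ei⟩ := hpart i
      rw [ei] at hi
      exact hi.1
    · intro hA
      refine ⟨e ⟨Cp G A, A, hA, rfl⟩, ?_⟩
      rw [Equiv.symm_apply_apply]
      exact ⟨hA, Relation.ReflTransGen.refl⟩
  · intro i j hij
    rw [Set.disjoint_left]
    intro A hi hj
    exact hij (hdisj i j A hi hj)
  · intro i
    obtain ⟨Ai, hAi, ei⟩ := hpart i
    refine ⟨Ai, ?_⟩
    show Ai ∈ (e.symm i).1
    rw [ei]; exact ⟨hAi, Relation.ReflTransGen.refl⟩
  · intro i j hij
    rw [Subgroup.commutator_eq_bot_iff_le_centralizer]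
    refine iSup₂_le fun A hA => ?_
    rw [Subgroup.le_centralizer_iff]
    refine iSup₂_le fun B hB => ?_
    rw [← Subgroup.commutator_eq_bot_iff_le_centralizer]
    obtain ⟨Ai, _, ei⟩ := hpart i
    obtain ⟨Aj, _, ej⟩ := hpart j
    have hA' : A ∈ Cp G Ai := by rw [← ei]; exact hA
    have hB' : B ∈ Cp G Aj := by rw [← ej]; exact hB
    apply comm_of_not_rch hk2 hk3 hG hB'.1 hA'.1
    intro hr
    apply hij
    apply hdisj i j A hA
    show A ∈ (e.symm j).1
    rw [ej]
    exact ⟨hA'.1, hB'.2.trans hr⟩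
  · have key : ∀ 𝒞 : Set (Subgroup (LinearMap.GeneralLinearGroup k M)),
        (∃ A ∈ Cfsg.quadraticRootSubgroups G, 𝒞 = Cp G A) →
        (Cfsg.IsQuasisimple ↥(⨆ A ∈ 𝒞, A) ∧
        Cfsg.IsRootSubgroupClass ((fun A : Subgroup (LinearMap.GeneralLinearGroup k M) => A.subgroupOf (⨆ B ∈ 𝒞, B)) '' 𝒞) ∧
        ∀ A ∈ 𝒞, ∀ B ∈ Cfsg.rankOnePartners 𝒞 A, ∃ A₀ B₀ : Subgroup (LinearMap.GeneralLinearGroup k M), A₀ ≤ A ∧ B₀ ≤ B ∧
          ∃ (k₁ : Type u) (_ : Field k₁), 3 < ENat.card k₁ ∧ Cfsg.IsPSL2PairOver k₁ A₀ B₀) := by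
      rintro _ ⟨Ai, hAi, rfl⟩
      refine ⟨cp_quasisimple hk2 hk3 hG hAi, cp_class hk2 hk3 hG hAi, ?_⟩
      intro A hA B hB
      obtain ⟨A₀, B₀, h1, h2, h3⟩ := sigma_psl2 hk2 hk3 hG hA.1 hB.1.1 hB.2
      exact ⟨A₀, B₀, h1, h2, k, inferInstance, card_gt hk2 hk3, h3⟩
    intro i
    exact key _ (hpart i)
end Cfsg.Agent.S5069
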