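import Cfsg.Statements.S5070
import Cfsg.Agent.Lib.H12RootRankOne
import Cfsg.Agent.Lib.H12RootComm
import Cfsg.Agent.Lib.H12RSpBasic
import Cfsg.Agent.Lib.H12RSpConj
import Cfsg.Agent.Lib.H12RSpGen
import Cfsg.Agent.Lib.H12RSpClass
import Cfsg.Agent.Lib.H12RSpPerp
import Cfsg.Agent.Lib.H12RSpNoComm
import Cfsg.Agent.Lib.H12RSpPSL2
import Cfsg.Agent.Lib.H12RSpCommon

set_option autoImplicit false
open Matrix
open Cfsg

namespace Cfsg.Agent.S5070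

open Cfsg.Agent.Lib.H12RootDefs Cfsg.Agent.Lib.Helper17Symp Cfsg.Agent.Lib.Helper17Symp2
  Cfsg.Agent.Lib.H12RootRankOne Cfsg.Agent.Lib.H12RootComm Cfsg.Agent.Lib.H12RSpBasic
  Cfsg.Agent.Lib.H12RSpConj Cfsg.Agent.Lib.H12RSpGen Cfsg.Agent.Lib.H12RSpClass
  Cfsg.Agent.Lib.H12RSpPerp Cfsg.Agent.Lib.H12RSpNoComm Cfsg.Agent.Lib.H12RSpPSL2
  Cfsg.Agent.Lib.H12RSpCommon

theorem rootSet (F : Type*) [Field F] (m : ℕ) : Cfsg.IsRootSubgroupSet (SigSp F m) where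
  commutative := by
    rintro A ⟨p, -, rfl⟩
    exact TSp_comm p
  ne_bot := by
    rintro A ⟨p, hp, rfl⟩
    exact TSp_ne_bot hp
  generates := iSup_SigSp
  conj_mem := by
    rintro A ⟨p, hp, rfl⟩ g
    exact ⟨_, mulVec_ne_zero g hp, conjBy_TSp p g⟩
  pair := by
    rintro A ⟨p, hp, rfl⟩ B ⟨q, hq, rfl⟩
    by_cases h : sympForm (m + 1) F p q = 0
    · exact Or.inl (comm_eq_bot h)
    · exact Or.inr (Or.inl (rankOne_of_psl2 (psl2 h)))

theorem main (F : Type*) [Field F] (m : ℕ) :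
    Cfsg.IsRootSubgroupClass (SigSp F m) ∧ Cfsg.IsDegenerateRootSet (SigSp F m) ∧
    Cfsg.IsKRootSubgroupSet F (SigSp F m) ∧
    Cfsg.IsConnectedFamily (Cfsg.FAdj (SigSp F m)) (SigSp F m) := by
  refine ⟨⟨rootSet F m, ⟨TSp (Pi.single (Sum.inl 0) 1), _, ?_, rfl⟩, ?_⟩, ?_, ⟨rootSet F m, ?_⟩, ?_⟩
  · intro h
    have := congrFun h (Sum.inl 0)
    simp at this
  · rintro A ⟨p, hp, rfl⟩ B ⟨q, hq, rfl⟩
    exact exists_conj hp hq
  · rintro A ⟨p, hp, rfl⟩ B ⟨q, hq, rfl⟩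
    exact not_commCase hp hq
  · rintro A ⟨p, hp, rfl⟩ B ⟨q, hq, rfl⟩ hAB
    by_cases h : sympForm (m + 1) F p q = 0
    · exact absurd hAB (not_rankOne_of_comm (comm_eq_bot h) (TSp_ne_bot hp))
    · exact psl2 h
  · apply connected_of_common
    rintro A ⟨p, hp, rfl⟩ B ⟨q, hq, rfl⟩
    obtain ⟨r, h1, h2⟩ := exists_common hp hq
    have hr : r ≠ 0 := by
      rintro rfl
      exact h1 (sympForm_zero_right (m + 1) p)
    exact ⟨TSp r, ⟨r, hr, rfl⟩, rankOne_of_psl2 (psl2 h1), rankOne_of_psl2 (psl2 h2)⟩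

/-- Let F be a field, m a natural number and V = F^{2(m+1)} with the standard non-degenerate alternating form f(u, v) = uᵀ J v. For a non-zero vector p let T(p) be the group of symplectic transvections v ↦ v + c f(v, p) p, c ∈ F. Then the subgroups T(p), p ≠ 0, generate the symplectic group Sp_{2(m+1)}(F) and form a degenerate class of abstract F-root subgroups of it (any two of them either commute elementwise or are the unipotent subgroups of a rank one group that is an image of SL₂(F) with central kernel, never the commutator case), and their graph of rank one pairs is connected. -/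
theorem result (F : Type*) [Field F] (m : ℕ) :
    Cfsg.IsRootSubgroupClass {A : Subgroup ↥(Matrix.symplecticGroup (Fin (m + 1)) F) | ∃ p : Fin (m + 1) ⊕ Fin (m + 1) → F, p ≠ 0 ∧
        A = Subgroup.closure {g : ↥(Matrix.symplecticGroup (Fin (m + 1)) F) | ∃ c : F, ∀ v : Fin (m + 1) ⊕ Fin (m + 1) → F,
          (g : Matrix (Fin (m + 1) ⊕ Fin (m + 1)) (Fin (m + 1) ⊕ Fin (m + 1)) F) *ᵥ v =
            v + (c * (v ⬝ᵥ (Matrix.J (Fin (m + 1)) F *ᵥ p))) • p}} ∧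
    Cfsg.IsDegenerateRootSet {A : Subgroup ↥(Matrix.symplecticGroup (Fin (m + 1)) F) | ∃ p : Fin (m + 1) ⊕ Fin (m + 1) → F, p ≠ 0 ∧
        A = Subgroup.closure {g : ↥(Matrix.symplecticGroup (Fin (m + 1)) F) | ∃ c : F, ∀ v : Fin (m + 1) ⊕ Fin (m + 1) → F,
          (g : Matrix (Fin (m + 1) ⊕ Fin (m + 1)) (Fin (m + 1) ⊕ Fin (m + 1)) F) *ᵥ v =
            v + (c * (v ⬝ᵥ (Matrix.J (Fin (m + 1)) F *ᵥ p))) • p}} ∧
    Cfsg.IsKRootSubgroupSet F {A : Subgroup ↥(Matrix.symplecticGroup (Fin (m + 1)) F) | ∃ p : Fin (m + 1) ⊕ Fin (m + 1) → F, p ≠ 0 ∧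
        A = Subgroup.closure {g : ↥(Matrix.symplecticGroup (Fin (m + 1)) F) | ∃ c : F, ∀ v : Fin (m + 1) ⊕ Fin (m + 1) → F,
          (g : Matrix (Fin (m + 1) ⊕ Fin (m + 1)) (Fin (m + 1) ⊕ Fin (m + 1)) F) *ᵥ v =
            v + (c * (v ⬝ᵥ (Matrix.J (Fin (m + 1)) F *ᵥ p))) • p}} ∧
    Cfsg.IsConnectedFamily (Cfsg.FAdj {A : Subgroup ↥(Matrix.symplecticGroup (Fin (m + 1)) F) | ∃ p : Fin (m + 1) ⊕ Fin (m + 1) → F, p ≠ 0 ∧
        A = Subgroup.closure {g : ↥(Matrix.symplecticGroup (Fin (m + 1)) F) | ∃ c : F, ∀ v : Fin (m + 1) ⊕ Fin (m + 1) → F,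
          (g : Matrix (Fin (m + 1) ⊕ Fin (m + 1)) (Fin (m + 1) ⊕ Fin (m + 1)) F) *ᵥ v =
            v + (c * (v ⬝ᵥ (Matrix.J (Fin (m + 1)) F *ᵥ p))) • p}})
      {A : Subgroup ↥(Matrix.symplecticGroup (Fin (m + 1)) F) | ∃ p : Fin (m + 1) ⊕ Fin (m + 1) → F, p ≠ 0 ∧
        A = Subgroup.closure {g : ↥(Matrix.symplecticGroup (Fin (m + 1)) F) | ∃ c : F, ∀ v : Fin (m + 1) ⊕ Fin (m + 1) → F,
          (g : Matrix (Fin (m + 1) ⊕ Fin (m + 1)) (Fin (m + 1) ⊕ Fin (m + 1)) F) *ᵥ v =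
            v + (c * (v ⬝ᵥ (Matrix.J (Fin (m + 1)) F *ᵥ p))) • p}} :=
  main F m

end Cfsg.Agent.S5070
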