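import Cfsg.Statements.S5073
import Cfsg.Agent.Lib.Helper85QV

set_option autoImplicit false
universe u
open Cfsg

namespace Cfsg.Agent.S5073
open Cfsg.Agent.Lib.Helper85QP Cfsg.Agent.Lib.Helper85QS Cfsg.Agent.Lib.Helper85QR Cfsg.Agent.Lib.Helper85QV



/-- Let k be a field of characteristic not 2 with k not of order 3, M a finite-dimensional k-vector space and G ≤ GL(M) such that (G, M) is a quadratic pair (M irreducible for G, and G generated by its quadratically acting elements σ whose scalar family 1 + c(σ − 1), c ∈ k, lies in G). Write 𝒬_d for the quadratic elements of G of minimal commutator rank, E(σ) for the subgroup generated by the members of 𝒬_d with the same fixed space and commutator space as σ, and Σ for the set of these subgroups. Let E, F ∈ Σ. If some non-identity element of E commutes with some non-identity element of F, or some non-identity element of E normalizes F, then E and F commute elementwise. -/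
theorem result {k : Type u} [Field k] (hk2 : ringChar k ≠ 2) (hk3 : Nat.card k ≠ 3)
    {M : Type u} [AddCommGroup M] [Module k M] [FiniteDimensional k M]
    {G : Subgroup (LinearMap.GeneralLinearGroup k M)} (hG : Cfsg.IsQuadraticPair G)
    {E F : Subgroup (LinearMap.GeneralLinearGroup k M)} (hE : E ∈ Cfsg.quadraticRootSubgroups G) (hF : F ∈ Cfsg.quadraticRootSubgroups G)
    (h : (∃ e ∈ E, e ≠ 1 ∧ ∃ f ∈ F, f ≠ 1 ∧ e * f = f * e) ∨ E ⊓ Subgroup.normalizer (F : Set (LinearMap.GeneralLinearGroup k M)) ≠ ⊥) :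
    ⁅E, F⁆ = ⊥ := by
  classical
  obtain ⟨σ, hσ, rfl⟩ := hE
  obtain ⟨τ, hτ, rfl⟩ := hF
  have hN := mem_min_iff.1 hσ
  have hN' := mem_min_iff.1 hτ
  set N : M →ₗ[k] M := (σ : M →ₗ[k] M) - 1 with hNd
  set N' : M →ₗ[k] M := (τ : M →ₗ[k] M) - 1 with hN'd
  have goal_of : (∀ X Y, IsLg G N X → IsLg G N' Y → X * Y = Y * X) →
      ⁅Cfsg.sameActionSubgroup G σ, Cfsg.sameActionSubgroup G τ⁆ = ⊥ := by
    intro hc
    rw [Subgroup.commutator_eq_bot_iff_le_centralizer]
    intro e he
    rw [Subgroup.mem_centralizer_iff]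
    intro f hf
    have := hc _ _ ((mem_E_iff hσ).1 he) ((mem_E_iff hτ).1 hf)
    apply Units.ext
    rw [Units.val_mul, Units.val_mul]
    have e1 : (f : M →ₗ[k] M) * (e : M →ₗ[k] M) = ((f : M →ₗ[k] M) - 1) * ((e : M →ₗ[k] M) - 1) +
        (e : M →ₗ[k] M) + (f : M →ₗ[k] M) - 1 := by noncomm_ring
    have e2 : (e : M →ₗ[k] M) * (f : M →ₗ[k] M) = ((e : M →ₗ[k] M) - 1) * ((f : M →ₗ[k] M) - 1) +
        (e : M →ₗ[k] M) + (f : M →ₗ[k] M) - 1 := by noncomm_ring
    rw [e1, e2, this]
  have data : ∀ {A T : M →ₗ[k] M}, IsLg G A T → T ≠ 0 →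
      LinearMap.ker T = LinearMap.ker A ∧ LinearMap.range T = LinearMap.range A := by
    intro A T hT h0
    rcases hT with h | ⟨_, a, b⟩
    · exact absurd h h0
    · exact ⟨a, b⟩
  -- reformulate the hypothesis
  have h' : (∃ X Y, IsLg G N X ∧ X ≠ 0 ∧ IsLg G N' Y ∧ Y ≠ 0 ∧ X * Y = Y * X) ∨
      (∃ X, IsLg G N X ∧ X ≠ 0 ∧ IsLg G N' ((1 + X) * N' * (1 - X))) := by
    rcases h with ⟨e, he, he1, f, hf, hf1, hc⟩ | h
    · left
      refine ⟨_, _, (mem_E_iff hσ).1 he, ne_one_iff.1 he1, (mem_E_iff hτ).1 hf, ne_one_iff.1 hf1, ?_⟩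
      have := congrArg Units.val hc
      rw [Units.val_mul, Units.val_mul] at this
      have e1 : ((e : M →ₗ[k] M) - 1) * ((f : M →ₗ[k] M) - 1) = (e : M →ₗ[k] M) * (f : M →ₗ[k] M) -
          (e : M →ₗ[k] M) - (f : M →ₗ[k] M) + 1 := by noncomm_ring
      have e2 : ((f : M →ₗ[k] M) - 1) * ((e : M →ₗ[k] M) - 1) = (f : M →ₗ[k] M) * (e : M →ₗ[k] M) -
          (e : M →ₗ[k] M) - (f : M →ₗ[k] M) + 1 := by noncomm_ring
      rw [e1, e2, this]
    · right
      obtain ⟨e, he1⟩ := Subgroup.ne_bot_iff_exists_ne_one.1 h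
      obtain ⟨e, ⟨h1, h2⟩⟩ := e
      have he1' : e ≠ 1 := fun h0 => he1 (Subtype.ext h0)
      have hX := (mem_E_iff hσ).1 h1
      refine ⟨_, hX, ne_one_iff.1 he1', ?_⟩
      have h3 : e * τ * e⁻¹ ∈ Cfsg.sameActionSubgroup G τ := by
        have := Subgroup.mem_normalizer_iff_map_conj_eq.1 h2
        rw [← this]
        exact ⟨τ, self_mem_E hτ, rfl⟩
      have h4 := (mem_E_iff hτ).1 h3
      rw [conj_sub] at h4
      have hXX := IsLg.mul hN.sq hX hX
      have a1 : (e : M →ₗ[k] M) = 1 + ((e : M →ₗ[k] M) - 1) := by abel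
      have a2 : ((e⁻¹ : LinearMap.GeneralLinearGroup k M) : M →ₗ[k] M) = 1 - ((e : M →ₗ[k] M) - 1) := by
        conv_lhs => rw [eq_uof (a := e) hXX]
        rw [uof_inv_val]
      rw [a2] at h4
      conv at h4 => rw [a1]
      simpa using h4
  rcases dich hk2 hk3 hN hN' with h0 | ⟨d1, d2⟩
  · have up := UP.of hk2 hk3 hN hN' h0
    have K : (∃ X Y, IsLg G N X ∧ X ≠ 0 ∧ IsLg G N' Y ∧ Y ≠ 0 ∧ X * Y = Y * X) →
        ∀ X Y, IsLg G N X → IsLg G N' Y → X * Y = Y * X := by
      rintro ⟨X, Y, hX, hX0, hY, hY0, hc⟩ X₂ Y₂ hX₂ hY₂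
      by_contra hne
      obtain ⟨-, -, hII, hab⟩ := up.nu_main hX₂ hY₂ (sub_ne_zero.2 hne)
      obtain ⟨hXk, hXr⟩ := data hX hX0
      obtain ⟨hYk, hYr⟩ := data hY hY0
      have hz : X * Y = 0 := by
        ext m
        have : (X * Y) m ∈ LinearMap.range N ⊓ LinearMap.range N' := by
          refine ⟨hX.range_le ⟨Y m, rfl⟩, ?_⟩
          rw [hc]
          exact hY.range_le ⟨X m, rfl⟩
        rw [hII, Submodule.mem_bot] at this
        exact this
      have i1 : LinearMap.range N' ≤ LinearMap.ker N := by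
        rw [← hYr, ← hXk]
        rintro _ ⟨m, rfl⟩
        exact LinearMap.mem_ker.2 (LinearMap.congr_fun hz m)
      have i2 : LinearMap.range N ≤ LinearMap.ker N' := by
        rw [← hXr, ← hYk]
        rintro _ ⟨m, rfl⟩
        rw [hc] at hz
        exact LinearMap.mem_ker.2 (LinearMap.congr_fun hz m)
      rw [inf_eq_left.2 i1, inf_eq_left.2 i2, up.finrank_eq] at hab
      have : Module.finrank k (LinearMap.range N) = 0 := by omega
      have := Submodule.finrank_eq_zero.1 this
      apply hN.ne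
      exact LinearMap.range_eq_bot.1 this
    rcases h' with h' | ⟨X, hX, hX0, hl⟩
    · exact goal_of (K h')
    · have hs : (1 + X) * N' * (1 - X) = N' + (X * N' - N' * X) := by
        have : (1 + X) * N' * (1 - X) = N' + (X * N' - N' * X) - X * N' * X := by noncomm_ring
        rw [this, up.xyx hX hX (IsLg.self hN'), sub_zero]
      rw [hs] at hl
      have hν : IsLg G N' (X * N' - N' * X) := by
        have := hl.sub hN' (IsLg.self hN')
        simpa using this
      by_cases hν0 : X * N' - N' * X = 0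
      · exact goal_of (K ⟨X, N', hX, hX0, IsLg.self hN', hN'.ne, sub_eq_zero.1 hν0⟩)
      · exfalso
        obtain ⟨-, hr, hII, -⟩ := up.nu_main hX (IsLg.self hN') hν0
        obtain ⟨hνk, hνr⟩ := data hν hν0
        have i1 : LinearMap.range N ≤ LinearMap.ker N' := by
          rw [← hνk]
          intro m hm
          rw [LinearMap.mem_ker, LinearMap.sub_apply, Module.End.mul_apply, Module.End.mul_apply,
            LinearMap.mem_ker.1 (hX.ker_le (range_le_ker hN.sq hm)),
            LinearMap.mem_ker.1 (hX.ker_le (up.m2 N' (IsLg.self hN') m hm))]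
          simp
        rw [hνr, inf_eq_left.2 i1] at hr
        have i2 : LinearMap.range N ≤ LinearMap.range N ⊓ LinearMap.range N' := by
          refine le_inf le_rfl ?_
          rw [hr]; exact le_sup_left
        rw [hII] at i2
        exact hN.ne (LinearMap.range_eq_bot.1 (le_bot_iff.1 i2))
  · exfalso
    rcases h' with ⟨X, Y, hX, hX0, hY, hY0, hc⟩ | ⟨X, hX, hX0, hl⟩
    · obtain ⟨hXk, hXr⟩ := data hX hX0
      obtain ⟨hYk, hYr⟩ := data hY hY0
      have hz : X * Y * X = 0 := by
        rw [hc, mul_assoc, IsLg.mul hN.sq hX hX, mul_zero]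
      exact type_excl hX0 hz (by rw [hXr, hYk]; exact d1) (by rw [hYr, hXk]; exact d2)
    · obtain ⟨hXk, hXr⟩ := data hX hX0
      have hXX := IsLg.mul hN.sq hX hX
      apply hN'.ne
      ext m
      have h1 : (1 + X) (N' m) ∈ LinearMap.range N' := by
        apply hl.range_le
        refine ⟨(1 + X) m, ?_⟩
        rw [Module.End.mul_apply, Module.End.mul_apply, ← Module.End.mul_apply (1 - X) (1 + X)]
        have : (1 - X) * (1 + X) = 1 := by
          have : (1 - X) * (1 + X) = 1 - X * X := by noncomm_ring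
          rw [this, hXX, sub_zero]
        rw [this]; rfl
      have h2 : X (N' m) ∈ LinearMap.range N' := by
        have := Submodule.sub_mem _ h1 (⟨m, rfl⟩ : N' m ∈ LinearMap.range N')
        simpa using this
      have h3 : X (N' m) ∈ LinearMap.range N ⊓ LinearMap.ker N' :=
        ⟨hX.range_le ⟨_, rfl⟩, range_le_ker hN'.sq h2⟩
      rw [d1, Submodule.mem_bot] at h3
      have h4 : N' m ∈ LinearMap.range N' ⊓ LinearMap.ker N := by
        refine ⟨⟨m, rfl⟩, ?_⟩
        rw [← hXk]; exact h3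
      rw [d2, Submodule.mem_bot] at h4
      exact h4
end Cfsg.Agent.S5073
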