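import Cfsg.Statements.S5104
import Cfsg.Agent.Lib.Helper87Fusion

set_option autoImplicit false
open Cfsg

namespace Cfsg.Agent.S5104

open Cfsg.Agent.Lib.Helper87Fusion Cfsg.FusionSystem

/-- In a saturated fusion system over a finite p-group S, a fully centralized subgroup U with C_S(U) ≤ U is centric. -/
theorem result {Ω : Type*} [Group Ω] {S : Subgroup Ω} [Finite S] (p : ℕ) [Fact p.Prime] (hS : IsPGroup p S) (F : Cfsg.FusionSystem S) (hF : F.IsSaturated p) (U : Subgroup Ω) (hU : F.IsFullyCentralized U) (hC : Cfsg.FusionSystem.centralizerIn S U ≤ U) : F.IsCentric U := by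
  refine ⟨hU.1, fun Q hQ => ?_⟩
  have hcard := hU.2 Q hQ
  obtain ⟨f, hf, hfQ⟩ := isConj_iff.1 hQ
  have hQS : Q ≤ S := hf.image_le hfQ
  haveI : Finite (centralizerIn S Q) :=
    Finite.of_injective (Subgroup.inclusion (centralizerIn_le S Q)) (Subgroup.inclusion_injective _)
  have hmaps : ∀ x ∈ centralizerIn S U, f x ∈ Q ⊓ centralizerIn S Q := by
    intro x hx
    have hxU := hC hx
    refine ⟨IsMap.mem_image hfQ hxU, mem_centralizerIn.2 ⟨hf.mem hxU, fun y hy => ?_⟩⟩
    obtain ⟨u, hu, rfl⟩ := IsMap.exists_of_mem_image hfQ hy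
    rw [← hf.map_mul hu hxU, ← hf.map_mul hxU hu, (mem_centralizerIn.1 hx).2 u hu]
  haveI : Finite ↥(Q ⊓ centralizerIn S Q) :=
    Finite.of_injective (Subgroup.inclusion (inf_le_right : Q ⊓ centralizerIn S Q ≤ centralizerIn S Q))
      (Subgroup.inclusion_injective _)
  have hle : Nat.card (centralizerIn S U) ≤ Nat.card ↥(Q ⊓ centralizerIn S Q) := by
    apply Nat.card_le_card_of_injective
      (fun x : centralizerIn S U => (⟨f x, hmaps x x.2⟩ : ↥(Q ⊓ centralizerIn S Q)))
    intro a b hab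
    have : f a = f b := congrArg Subtype.val hab
    exact Subtype.ext (hf.inj (hC a.2) (hC b.2) this)
  have heq : Q ⊓ centralizerIn S Q = centralizerIn S Q :=
    Subgroup.eq_of_le_of_card_ge inf_le_right (hcard.trans hle)
  rw [← heq]
  exact inf_le_left

end Cfsg.Agent.S5104
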