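import Cfsg.Statements.S5105
import Mathlib
import Cfsg.Agent.Lib.Helper87Fusion3

set_option autoImplicit false
open Cfsg

namespace Cfsg.Agent.S5105

open Cfsg.Agent.Lib.Helper87Fusion3 Cfsg.FusionSystem

/-- rigidity: an automorphism fixing a Sylow subgroup pointwise, when `C_G(O) ≤ O` for a normal
subgroup `O ≤ T`, is conjugation by an element of `O` centralizing `O`. -/
theorem rigid {G : Type*} [Group G] [Finite G] {p : ℕ} [Fact p.Prime] (T : Sylow p G)
    (O : Subgroup G) [hOn : O.Normal] (hOT : O ≤ T)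
    (hC : Subgroup.centralizer (O : Set G) ≤ O) (ψ : G ≃* G) (hψ : ∀ x ∈ T, ψ x = x) :
    ∃ z ∈ O, ∀ g : G, ψ g = z * g * z⁻¹ := by
  classical
  set A : Subgroup G := O ⊓ Subgroup.centralizer (O : Set G) with hA
  have hcomm : ∀ a b : A, a * b = b * a := by
    intro a b
    apply Subtype.ext
    exact ((Subgroup.mem_centralizer_iff.1 b.2.2) a a.2.1)
  let _ : CommGroup A := { (inferInstance : Group A) with mul_comm := hcomm }
  have hfA : ∀ g : G, ψ g * g⁻¹ ∈ A := by
    intro g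
    have h1 : ψ g * g⁻¹ ∈ Subgroup.centralizer (O : Set G) := by
      rw [Subgroup.mem_centralizer_iff]
      intro x hx
      have h2 : g⁻¹ * x * g ∈ O := by
        have := hOn.conj_mem x hx g⁻¹
        rwa [inv_inv] at this
      have h3 : ψ (g⁻¹ * x * g) = g⁻¹ * x * g := hψ _ (hOT h2)
      rw [map_mul, map_mul, map_inv, hψ x (hOT hx)] at h3
      calc x * (ψ g * g⁻¹) = ψ g * ((ψ g)⁻¹ * x * ψ g) * g⁻¹ := by group
        _ = ψ g * (g⁻¹ * x * g) * g⁻¹ := by rw [h3]
        _ = ψ g * g⁻¹ * x := by group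
    exact ⟨hC h1, h1⟩
  let f : G → A := fun g => ⟨ψ g * g⁻¹, hfA g⟩
  have hfT : ∀ (g : G) (s : G), s ∈ T → f (g * s) = f g := by
    intro g s hs
    apply Subtype.ext
    show ψ (g * s) * (g * s)⁻¹ = ψ g * g⁻¹
    rw [map_mul, hψ s hs]
    group
  let Fq : G ⧸ (T : Subgroup G) → A := Quotient.lift f (by
    intro a b hab
    have hab' : a⁻¹ * b ∈ (T : Subgroup G) := QuotientGroup.leftRel_apply.1 hab
    have := hfT a (a⁻¹ * b) hab'
    rw [mul_inv_cancel_left] at this
    exact this.symm)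
  have hFq : ∀ g : G, Fq (g : G ⧸ (T : Subgroup G)) = f g := fun g => rfl
  have hfmul : ∀ h g : G, f (h * g) = f h * MulAut.conjNormal h (f g) := by
    intro h g
    apply Subtype.ext
    show ψ (h * g) * (h * g)⁻¹ = ψ h * h⁻¹ * (h * (ψ g * g⁻¹) * h⁻¹)
    rw [map_mul]
    group
  have : Fintype (G ⧸ (T : Subgroup G)) := Fintype.ofFinite _
  set w : A := ∏ c : G ⧸ (T : Subgroup G), Fq c with hw
  set m := Fintype.card (G ⧸ (T : Subgroup G)) with hm
  have hkey : ∀ h : G, w = f h ^ m * MulAut.conjNormal h w := by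
    intro h
    have h1 : w = ∏ c : G ⧸ (T : Subgroup G), Fq (h • c) :=
      (Equiv.prod_comp (MulAction.toPerm h) Fq).symm
    have h2 : ∀ c : G ⧸ (T : Subgroup G), Fq (h • c) = f h * MulAut.conjNormal h (Fq c) := by
      intro c
      induction c using QuotientGroup.induction_on with
      | H g => exact hfmul h g
    calc w = ∏ c : G ⧸ (T : Subgroup G), Fq (h • c) := h1
      _ = ∏ c : G ⧸ (T : Subgroup G), (f h * MulAut.conjNormal h (Fq c)) := by simp only [h2]
      _ = f h ^ m * MulAut.conjNormal h w := by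
        rw [Finset.prod_mul_distrib, Finset.prod_const, Finset.card_univ, ← map_prod]
  have hcop : (Nat.card A).Coprime m := by
    have hAp : IsPGroup p A := T.2.to_le (inf_le_left.trans hOT)
    obtain ⟨k, hk⟩ := IsPGroup.iff_card.1 hAp
    rw [hk]
    apply Nat.Coprime.pow_left
    have hpp : p.Prime := Fact.out
    rw [hpp.coprime_iff_not_dvd]
    have := T.not_dvd_index
    rwa [Subgroup.index, Nat.card_eq_fintype_card] at this
  obtain ⟨z, hz⟩ := (powCoprime hcop).surjective w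
  have hz' : z ^ m = w := hz
  refine ⟨z, z.2.1, fun g => ?_⟩
  have h1 := hkey g
  rw [← hz', map_pow] at h1
  have h2 : (z * (MulAut.conjNormal g z)⁻¹) ^ m = f g ^ m := by
    rw [mul_pow, inv_pow, h1]
    simp
  have h3 : z * (MulAut.conjNormal g z)⁻¹ = f g := (powCoprime hcop).injective h2
  have h4 : (z : G) * (g * z * g⁻¹)⁻¹ = ψ g * g⁻¹ := congrArg Subtype.val h3
  calc ψ g = (ψ g * g⁻¹) * g := by group
    _ = (z : G) * (g * z * g⁻¹)⁻¹ * g := by rw [h4]
    _ = _ := by group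


/-- Model Theorem, rigidity: if G is a model of a constrained fusion system over a finite p-group S (through ι : S → G), then every automorphism of G fixing ι(S) elementwise is conjugation by ι(z) for some z in the centre of S. -/
theorem result {Ω : Type*} [Group Ω] {S : Subgroup Ω} [Finite S] (p : ℕ) [Fact p.Prime] (hS : IsPGroup p S) (F : Cfsg.FusionSystem S) (hF : F.IsConstrained p) {G : Type*} [Group G] (ι : S →* G) (hG : F.IsModel p G ι) (ψ : G ≃* G) (hψ : ∀ x : S, ψ (ι x) = ι x) : ∃ z : S, z ∈ Subgroup.center S ∧ ∀ g : G, ψ g = ι z * g * (ι z)⁻¹ := by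
  obtain ⟨hfin, hι, ⟨T, hT⟩, hC⟩ := hG
  have : (pCore p G).Normal := pCore_normal p G
  have hOT : pCore p G ≤ T := (pCore_isPGroup p G).le_sylow_of_normal T
  obtain ⟨z, hz, hzψ⟩ := rigid T (pCore p G) hOT hC ψ (by
    intro x hx
    have hx' : x ∈ (T : Subgroup G) := hx
    rw [hT] at hx'
    obtain ⟨s, rfl⟩ := hx'
    exact hψ s)
  have hzT : z ∈ (T : Subgroup G) := hOT hz
  rw [hT] at hzT
  obtain ⟨z₀, rfl⟩ := hzT
  refine ⟨z₀, ?_, hzψ⟩
  rw [Subgroup.mem_center_iff]
  intro s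
  apply hι.1
  have h1 := hzψ (ι s)
  rw [hψ s] at h1
  rw [map_mul, map_mul]
  calc ι s * ι z₀ = (ι z₀ * ι s * (ι z₀)⁻¹) * ι z₀ := by rw [← h1]
    _ = _ := by group

end Cfsg.Agent.S5105
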