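import Cfsg.Statements.S5107
import Cfsg.Agent.S5088
import Cfsg.Agent.S5076
import Cfsg.Agent.Lib.Helper87Realized

set_option autoImplicit false
open Cfsg

namespace Cfsg.Agent.S5107

open Cfsg.FusionSystem


/-- If a Sylow p-subgroup S of a finite group G has nilpotency class at most two and its centre is strongly closed in S with respect to G, then every map of the fusion system of G on S is conjugation by an element of N_G(S), and S is the largest subgroup normal in that fusion system. -/
theorem result {G : Type*} [Group G] [Finite G] (p : ℕ) [Fact p.Prime] (S : Sylow p G) (hcl : ⁅(S : Subgroup G), (S : Subgroup G)⁆ ≤ (S : Subgroup G) ⊓ Subgroup.centralizer ((S : Subgroup G) : Set G)) (hZ : Cfsg.IsStronglyClosed ((S : Subgroup G) ⊓ Subgroup.centralizer ((S : Subgroup G) : Set G)) (S : Subgroup G)) : (∀ (P : Subgroup G) (φ : P →* G), φ ∈ (Cfsg.groupFusionSystem (S : Subgroup G)).Hom P → ∃ g ∈ Subgroup.normalizer ((S : Subgroup G) : Set G), ∀ x : P, φ x = g * (x : G) * g⁻¹) ∧ (Cfsg.groupFusionSystem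 (S : Subgroup G)).core = S := by
  set F := Cfsg.groupFusionSystem (S : Subgroup G) with hF
  set Z := (S : Subgroup G) ⊓ Subgroup.centralizer ((S : Subgroup G) : Set G) with hZdef
  have hsat : F.IsSaturated p := Cfsg.Agent.S5076.result p S
  have hZc : F.StronglyClosed Z := by
    refine ⟨hZ.1, ?_⟩
    rintro R hR φ ⟨-, hφS, g, hg⟩ x
    have h1 := hφS x
    rw [hg x] at h1 ⊢
    exact hZ.2 x (hR x.2) g h1
  have hSc : F.StronglyClosed (S : Subgroup G) := by
    refine ⟨le_rfl, ?_⟩
    rintro R hR φ ⟨-, hφS, -⟩ x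
    exact hφS x
  have hnormal : F.IsNormal (S : Subgroup G) := by
    rw [Cfsg.Agent.S5088.result p S.2 F hsat]
    refine ⟨2, ![⊥, Z, (S : Subgroup G)], rfl, rfl, ?_, ?_⟩
    · intro i j hij
      fin_cases i <;> fin_cases j <;> first | exact le_rfl | exact bot_le | exact hZ.1 | (exfalso; revert hij; decide)
    · intro i
      fin_cases i
      · refine ⟨hZc, ?_⟩
        show ⁅(S : Subgroup G), Z⁆ ≤ ⊥
        rw [le_bot_iff, Subgroup.commutator_comm, Subgroup.commutator_eq_bot_iff_le_centralizer]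
        exact inf_le_right
      · exact ⟨hSc, hcl⟩
  refine ⟨?_, ?_⟩
  · intro P φ hφ
    obtain ⟨ψ, ⟨-, hψS, g, hg⟩, hψφ, -⟩ := hnormal.2 P φ hφ
    refine ⟨g, ?_, fun x => ?_⟩
    · apply Cfsg.Agent.Lib.Helper87Realized.mem_normalizer_of_conj_mem
      intro s hs
      have h1 := hψS ⟨s, (le_sup_right : (S : Subgroup G) ≤ P ⊔ S) hs⟩
      rwa [hg] at h1
    · rw [← hψφ x, hg]
      rfl
  · apply le_antisymm
    · exact sSup_le (fun Q hQ => hQ.1)
    · exact le_sSup hnormal

end Cfsg.Agent.S5107
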