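import Cfsg.Statements.S5112
import Cfsg.Agent.S5111
import Cfsg.Agent.Lib.Helper15Aut2

set_option autoImplicit false
open Cfsg

namespace Cfsg.Agent.S5112

open Cfsg.Agent.Lib.Helper87Fusion Cfsg.FusionSystem Cfsg.Agent.Lib.Helper15Aut2

theorem autInducedBy_self_eq_inn {Ω : Type*} [Group Ω] (S : Subgroup Ω) :
    autInducedBy S S = Cfsg.Inn S := by
  ext α
  rw [mem_autInducedBy_iff]
  constructor
  · rintro ⟨g, hg, h⟩
    refine ⟨⟨g, hg⟩, ?_⟩
    ext x
    rw [h x]
    simp [MulAut.conj_apply]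
  · rintro ⟨g, rfl⟩
    refine ⟨g.1, g.2, fun x => ?_⟩
    simp [MulAut.conj_apply]

/-- If `Aut(S)` is a `p`-group then `Aut_F(S) = Inn(S)` in every saturated fusion system. -/
theorem autGroup_eq_inn {Ω : Type*} [Group Ω] {S : Subgroup Ω} [Finite S] (p : ℕ) [Fact p.Prime]
    (hS : IsPGroup p S) (hA : IsPGroup p (MulAut S)) (F : Cfsg.FusionSystem S) (hF : F.IsSaturated p) :
    F.autGroup S = Cfsg.Inn S := by
  obtain ⟨-, R, hR⟩ := ((Cfsg.Agent.S5111.result p hS F).1 hF).1
  have hAF : IsPGroup p (F.autGroup S) := hA.to_subgroup _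
  have htop : (R : Subgroup (F.autGroup S)) = ⊤ := by
    have h1 : IsPGroup p (⊤ : Subgroup (F.autGroup S)) := hAF.to_subgroup _
    exact (R.3 h1 le_top).symm
  rw [← autInducedBy_self_eq_inn]
  apply le_antisymm
  · intro α hα
    have : (⟨α, hα⟩ : F.autGroup S) ∈ (autInducedBy S S).subgroupOf (F.autGroup S) := by
      rw [← hR, htop]; exact Subgroup.mem_top _
    exact Subgroup.mem_subgroupOf.1 this
  · exact autInducedBy_le_autGroup F le_rfl

/-- If S is a dihedral or generalized quaternion 2-group of order at least 16, then in every saturated fusion system over S (at the prime 2) the automorphism group Aut_F(S) consists of the inner automorphisms of S. -/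
theorem result {Ω : Type*} [Group Ω] {S : Subgroup Ω} [Finite S] (n : ℕ) (hn : 4 ≤ n) (hshape : Nonempty (S ≃* DihedralGroup (2 ^ (n - 1))) ∨ Nonempty (S ≃* QuaternionGroup (2 ^ (n - 2)))) (F : Cfsg.FusionSystem S) (hF : F.IsSaturated 2) : F.autGroup S = Cfsg.Inn S := by
  haveI : Fact (Nat.Prime 2) := ⟨Nat.prime_two⟩
  rcases hshape with ⟨⟨e⟩⟩ | ⟨⟨e⟩⟩
  · refine autGroup_eq_inn 2 ?_ (isPGroup_mulAut_congr e (isPGroup_mulAut_dihedral (n - 1) (by omega))) F hF
    apply IsPGroup.of_card (n := n - 1 + 1)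
    rw [Nat.card_congr e.toEquiv, DihedralGroup.nat_card, pow_succ, mul_comm]
  · refine autGroup_eq_inn 2 ?_ (isPGroup_mulAut_congr e (isPGroup_mulAut_quaternion (n - 2) (by omega))) F hF
    apply IsPGroup.of_card (n := n - 2 + 2)
    haveI : NeZero (2 ^ (n - 2)) := ⟨by positivity⟩
    rw [Nat.card_congr e.toEquiv, Nat.card_eq_fintype_card, QuaternionGroup.card, pow_add]
    ring

end Cfsg.Agent.S5112
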