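import Cfsg.Statements.S5119
import Cfsg.Agent.Lib.Helper87Invariant

set_option autoImplicit false
open Cfsg

namespace Cfsg.Agent.S5119

open Cfsg.FusionSystem Cfsg.Agent.Lib.Helper87Fusion Cfsg.Agent.Lib.Helper87Fusion2
  Cfsg.Agent.Lib.Helper87Fusion3 Cfsg.Agent.Lib.Helper87Invariant Cfsg.Agent.Lib.Helper87Hyperfocal
  Cfsg.Agent.Lib.Helper90NormalCrit

/-- Let F be a saturated fusion system over a finite p-group S and E a subsystem of F over a subgroup T that is strongly closed in F. Then E is invariant in F (invariance under Aut_F(T) plus the Frattini condition) if and only if the strong invariance condition holds: for P ≤ Q ≤ T, every map φ of E from P into Q and every map ψ of F with source Q, the transported map ψ φ ψ⁻¹ on ψ(P) is a map of E. -/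
theorem result {Ω : Type*} [Group Ω] {S : Subgroup Ω} [Finite S] (p : ℕ) [Fact p.Prime] (hS : IsPGroup p S) (F : Cfsg.FusionSystem S) (hF : F.IsSaturated p) {T : Subgroup Ω} (E : Cfsg.FusionSystem T) (hE : E.IsSubsystemOf F) (hT : F.StronglyClosed T) : E.IsInvariantIn F ↔ ∀ (P Q : Subgroup Ω) (hPQ : P ≤ Q) (_ : Q ≤ T) (φ : P →* Ω) (_ : φ ∈ E.Hom P) (hφQ : ∀ x : P, φ x ∈ Q) (ψ : Q →* Ω) (_ : ψ ∈ F.Hom Q), ∃ χ ∈ E.Hom ((P.subgroupOf Q).map ψ), ∀ (x : P) (hx : ψ (Subgroup.inclusion hPQ x) ∈ (P.subgroupOf Q).map ψ), χ ⟨ψ (Subgroup.inclusion hPQ x), hx⟩ = ψ ⟨φ x, hφQ x⟩ := by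
  constructor
  · intro h P Q hPQ hQT φ hφ hφQ ψ hψ
    have hP' : tot ψ '' (P : Set Ω) = (((P.subgroupOf Q).map ψ : Subgroup Ω) : Set Ω) :=
      (map_subgroupOf_eq_iff hPQ ψ (fun x => (tot_apply ψ x).symm)).1 rfl
    have hb := isMap_tot hψ
    obtain ⟨bi, hbi, i1, i2, i3⟩ := (hb.restrict hPQ).inv hP'
    have hd : IsMap E ((P.subgroupOf Q).map ψ) (fun y => tot ψ (tot φ (bi y))) :=
      Cfsg.Agent.Lib.Helper88Normal.conj_map h hPQ hQT (isMap_tot hφ)
        (fun x hx => by rw [tot_of_mem φ hx]; exact hφQ _) hb hP'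
        (fun x hx => by
          show tot ψ (tot φ (bi (tot ψ x))) = _
          rw [i1 x hx])
    obtain ⟨χ, hχ, hχd⟩ := hd
    refine ⟨χ, hχ, fun x hx => ?_⟩
    rw [hχd]
    show tot ψ (tot φ (bi (ψ (Subgroup.inclusion hPQ x)))) = _
    have e : ψ (Subgroup.inclusion hPQ x) = tot ψ (x : Ω) := (tot_of_mem ψ (hPQ x.2)).symm
    rw [e, i1 x x.2, tot_apply φ x, tot_of_mem ψ (hφQ x)]
  · intro h
    have hSI : SI E F := by
      intro P Q P' c b hPQ hQT hc hcQ hb hP'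
      obtain ⟨φ, hφ, hφc⟩ := hc
      obtain ⟨ψ, hψ, hψb⟩ := hb
      obtain ⟨χ, hχ, H⟩ := h P Q hPQ hQT φ hφ (fun x => by rw [hφc]; exact hcQ x x.2) ψ hψ
      have hPP : (P.subgroupOf Q).map ψ = P' := (map_subgroupOf_eq_iff hPQ ψ hψb).2 hP'
      subst hPP
      refine ⟨tot χ, isMap_tot hχ, fun x hx => ?_⟩
      have hx' : ψ (Subgroup.inclusion hPQ ⟨x, hx⟩) ∈ (P.subgroupOf Q).map ψ :=
        ⟨_, Subgroup.mem_subgroupOf.2 hx, rfl⟩
      have h1 := H ⟨x, hx⟩ hx'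
      have h2 : b x = ψ (Subgroup.inclusion hPQ ⟨x, hx⟩) := (hψb ⟨x, hPQ hx⟩).symm
      rw [h2, tot_of_mem χ hx', h1, hψb]
      exact congrArg b (hφc ⟨x, hx⟩)
    apply isInvariantIn_of (fun P f hf => IsMap_of_subsystem hE hf) hT
    · intro P P' f a hf ha hP'
      exact hSI P T P' f a hf.le le_rfl hf (fun x hx => hf.mem hx) ha hP'
    · intro P f hP hf
      exact frattini_of_SI hS hF hE hT hSI (Nat.card T) P hP (by omega) f hf

end Cfsg.Agent.S5119
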