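import Cfsg.Statements.S5139
import Cfsg.Agent.Lib.Helper87PPower
import Cfsg.Agent.S5076

set_option autoImplicit false
open Cfsg

namespace Cfsg.Agent.S5139

open Cfsg.Agent.Lib.Helper87PPower Cfsg.Agent.Lib.Helper87Hyperfocal


/-- Let G be a finite group with Sylow p-subgroup S and O^p(G) the subgroup generated by the elements of order prime to p. Then the p-residual subsystem of the fusion system of G on S — the saturated subsystem of p-power index over the hyperfocal subgroup — is the fusion system of O^p(G) on S ∩ O^p(G): its maps are exactly the conjugation maps by elements of O^p(G) between subgroups of S ∩ O^p(G). -/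
theorem result {G : Type*} [Group G] [Finite G] (p : ℕ) [Fact p.Prime] (S : Sylow p G) (E : Cfsg.FusionSystem ((Cfsg.groupFusionSystem (S : Subgroup G)).hyperfocalSubgroup p)) (hE : (Cfsg.groupFusionSystem (S : Subgroup G)).IsPResidual p E) : ∃ h : (S : Subgroup G) ⊓ Cfsg.pResidual p G ≤ Cfsg.pResidual p G, ∀ P : Subgroup G, E.Hom P = (Cfsg.fusionSystemOfSubgroup (Cfsg.pResidual p G) ((S : Subgroup G) ⊓ Cfsg.pResidual p G) h).Hom P := by
  refine ⟨inf_le_right, fun P => ?_⟩
  have hT := hyperfocal_group_eq S
  apply Set.Subset.antisymm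
  · exact hom_subset_of_pPowerIndex S.2 hT E _ hE.1 hE.2.1 (group_pPowerIndex S) P
  · exact hom_subset_of_pPowerIndex S.2 hT.symm _ E
      (fusionSystemOfSubgroup_saturated _ _ inf_le_right (sylIn_inf_pResidual S))
      (group_pPowerIndex S).1 hE.2 P

end Cfsg.Agent.S5139
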