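import Cfsg.Statements.S5164
import Mathlib

set_option autoImplicit false
open Cfsg

namespace Cfsg.Agent.S5164

/-- a `p`-group acting faithfully on fewer than `p^2` points is commutative -/
theorem comm_of_card_lt {G α : Type*} [Group G] [Finite G] [MulAction G α] [FaithfulSMul G α]
    [Finite α] (p : ℕ) [Fact p.Prime] (hG : IsPGroup p G) (hα : Nat.card α < p ^ 2) (g h : G) :
    g * h = h * g := by
  have hp : p.Prime := Fact.out
  apply FaithfulSMul.eq_of_smul_eq_smul (α := α)
  intro a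
  set K := MulAction.stabilizer G a with hK
  obtain ⟨m, hm⟩ := IsPGroup.iff_card.mp hG
  have hidx : K.index ∣ p ^ m := hm ▸ K.index_dvd_card
  obtain ⟨k, hkm, hk⟩ := (Nat.dvd_prime_pow hp).mp hidx
  have hle : K.index ≤ Nat.card α := by
    rw [hK, MulAction.index_stabilizer]
    exact Set.ncard_le_card _
  have hk1 : k < 2 := by
    have : p ^ k < p ^ 2 := hk ▸ (lt_of_le_of_lt hle hα)
    exact (Nat.pow_lt_pow_iff_right hp.one_lt).mp this
  have key : (h * g)⁻¹ * (g * h) ∈ K := by
    interval_cases k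
    · have : K = ⊤ := by simpa using hk
      rw [this]; trivial
    · have hm0 : m ≠ 0 := by omega
      have hn : K.Normal := by
        apply Subgroup.normal_of_index_eq_minFac_card
        rw [hk, hm, hp.pow_minFac hm0, pow_one]
      have hc : Nat.card (G ⧸ K) = p := by
        rw [← Subgroup.index_eq_card, hk, pow_one]
      have := isCyclic_of_prime_card hc
      have e : (QuotientGroup.mk (h * g) : G ⧸ K) = QuotientGroup.mk (g * h) := by
        rw [QuotientGroup.mk_mul, QuotientGroup.mk_mul]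
        exact IsCyclic.commGroup.mul_comm _ _
      exact QuotientGroup.eq.mp e
  have := MulAction.mem_stabilizer_iff.mp key
  rw [mul_smul, inv_smul_eq_iff] at this
  exact this

theorem comm_of_sylow_comm {G : Type*} [Group G] [Finite G] (p : ℕ) [Fact p.Prime] (S : Sylow p G)
    (hS : IsMulCommutative S) (H : Subgroup G) (hH : IsPGroup p H) (x y : G) (hx : x ∈ H)
    (hy : y ∈ H) : x * y = y * x := by
  obtain ⟨Q, hQ⟩ := hH.exists_le_sylow
  obtain ⟨g, hg⟩ := MulAction.exists_smul_eq G Q S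
  have key : ∀ z ∈ H, g * z * g⁻¹ ∈ S := by
    intro z hz
    rw [← hg, Sylow.smul_def, ← SetLike.mem_coe]
    exact ⟨z, hQ hz, rfl⟩
  have h := (isMulCommutative_iff.mp hS) ⟨_, key x hx⟩ ⟨_, key y hy⟩
  have h' : (g * x * g⁻¹) * (g * y * g⁻¹) = (g * y * g⁻¹) * (g * x * g⁻¹) := congrArg Subtype.val h
  have e1 : (g * x * g⁻¹) * (g * y * g⁻¹) = g * (x * y) * g⁻¹ := by group
  have e2 : (g * y * g⁻¹) * (g * x * g⁻¹) = g * (y * x) * g⁻¹ := by group
  rw [e1, e2] at h'
  exact mul_left_cancel (mul_right_cancel h')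

theorem isPGroup_zpowers {G : Type*} [Group G] (p k : ℕ) (a : G) (h : a ^ (p ^ k) = 1) :
    IsPGroup p (Subgroup.zpowers a) := by
  rintro ⟨g, hg⟩
  obtain ⟨j, rfl⟩ := Subgroup.mem_zpowers_iff.mp hg
  refine ⟨k, Subtype.ext ?_⟩
  show (a ^ j) ^ (p ^ k) = 1
  rw [← zpow_natCast, ← zpow_mul, mul_comm, zpow_mul, zpow_natCast, h, one_zpow]

/-- the shift on the first coordinate -/
def shiftA (p : ℕ) : Equiv.Perm (ZMod p × ZMod p) :=
  Equiv.prodCongr (Equiv.addRight 1) (Equiv.refl _)

/-- the shear by `f` -/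
def shearB (p : ℕ) : Multiplicative (ZMod p → ZMod p) →* Equiv.Perm (ZMod p × ZMod p) where
  toFun f :=
    { toFun := fun x => (x.1, x.2 + Multiplicative.toAdd f x.1)
      invFun := fun x => (x.1, x.2 - Multiplicative.toAdd f x.1)
      left_inv := fun x => by simp
      right_inv := fun x => by simp }
  map_one' := by ext x <;> simp
  map_mul' f g := by
    ext x
    · simp
    · simp only [toAdd_mul, Pi.add_apply, Equiv.coe_fn_mk, Equiv.Perm.coe_mul, Function.comp_apply]
      ring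

theorem exists_nonabelian (p : ℕ) [Fact p.Prime] :
    ∃ (H : Subgroup (Equiv.Perm (ZMod p × ZMod p))) (x y : Equiv.Perm (ZMod p × ZMod p)),
      IsPGroup p H ∧ x ∈ H ∧ y ∈ H ∧ x * y ≠ y * x := by
  have hp : p.Prime := Fact.out
  have hK : IsPGroup p (shearB p).range := by
    have h0 : IsPGroup p (Multiplicative (ZMod p → ZMod p)) := by
      intro f
      refine ⟨1, ?_⟩
      rw [pow_one]
      apply Multiplicative.toAdd.injective
      rw [toAdd_pow]
      ext i
      simp
    exact h0.of_surjective (shearB p).rangeRestrict (shearB p).rangeRestrict_surjective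
  have hA : IsPGroup p (Subgroup.zpowers (shiftA p)) := by
    have h1 : (shiftA p) ^ p = 1 := by
      have : ∀ k : ℕ, ∀ x : ZMod p × ZMod p, ((shiftA p) ^ k) x = (x.1 + k, x.2) := by
        intro k
        induction k with
        | zero => intro x; simp
        | succ k ih =>
          intro x
          rw [pow_succ, Equiv.Perm.mul_apply, ih]
          simp only [shiftA, Equiv.prodCongr_apply, Equiv.coe_addRight, Equiv.coe_refl, Prod.map_fst,
            Prod.map_snd, id_eq, Nat.cast_add, Nat.cast_one, Prod.mk.injEq, and_true]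
          ring
      ext x <;> simp [this]
    exact isPGroup_zpowers p 1 _ (by rwa [pow_one])
  have hN : Subgroup.zpowers (shiftA p) ≤ Subgroup.normalizer ((shearB p).range : Set _) := by
    rw [Subgroup.zpowers_le]
    rw [Subgroup.mem_normalizer_iff]
    intro h
    constructor
    · rintro ⟨f, rfl⟩
      refine ⟨Multiplicative.ofAdd (fun x => Multiplicative.toAdd f (x - 1)), ?_⟩
      ext x <;> simp [shearB, shiftA, Equiv.Perm.inv_def, sub_eq_add_neg]
    · rintro ⟨f, hf⟩
      refine ⟨Multiplicative.ofAdd (fun x => Multiplicative.toAdd f (x + 1)), ?_⟩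
      have : h = (shiftA p)⁻¹ * (shearB p f) * shiftA p := by
        rw [hf]; group
      rw [this]
      ext x <;> simp [shearB, shiftA, Equiv.Perm.inv_def]
  refine ⟨Subgroup.zpowers (shiftA p) ⊔ (shearB p).range, shiftA p,
    shearB p (Multiplicative.ofAdd id), hA.to_sup_of_normal_right' hK hN,
    Subgroup.mem_sup_left (Subgroup.mem_zpowers _), Subgroup.mem_sup_right ⟨_, rfl⟩, ?_⟩
  intro h
  have h2 := congrArg (fun σ : Equiv.Perm (ZMod p × ZMod p) => (σ (0, 0)).2) h
  simp [shearB, shiftA] at h2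

theorem mem_normalizer_zpowers {G : Type*} [Group G] (x y : G) (h : y * x * y⁻¹ = x⁻¹) :
    y ∈ Subgroup.normalizer ((Subgroup.zpowers x : Subgroup G) : Set G) := by
  have h' : y⁻¹ * x * y = x⁻¹ := by
    have : x = y⁻¹ * x⁻¹ * y := by rw [← h]; group
    calc y⁻¹ * x * y = (y⁻¹ * x⁻¹ * y)⁻¹ := by group
      _ = x⁻¹ := by rw [← this]
  rw [Subgroup.mem_normalizer_iff]
  intro g
  constructor
  · intro hg
    obtain ⟨j, rfl⟩ := Subgroup.mem_zpowers_iff.mp hg
    have : y * x ^ j * y⁻¹ = (y * x * y⁻¹) ^ j := by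
      simp
    rw [this, h]
    exact Subgroup.zpow_mem _ (Subgroup.inv_mem _ (Subgroup.mem_zpowers x)) j
  · intro hg
    obtain ⟨j, hj⟩ := Subgroup.mem_zpowers_iff.mp hg
    have e : g = y⁻¹ * x ^ j * y := by rw [hj]; group
    have : y⁻¹ * x ^ j * y = (y⁻¹ * x * y) ^ j := by
      simpa using (map_zpow (MulAut.conj y⁻¹) x j)
    rw [e, this, h']
    exact Subgroup.zpow_mem _ (Subgroup.inv_mem _ (Subgroup.mem_zpowers x)) j

theorem exists_nonabelian_two :
    ∃ (H : Subgroup (Equiv.Perm (Fin 6))) (x y : Equiv.Perm (Fin 6)),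
      IsPGroup 2 H ∧ x ∈ H ∧ y ∈ H ∧ x * y ≠ y * x ∧ ∀ g ∈ H, Equiv.Perm.sign g = 1 := by
  let x : Equiv.Perm (Fin 6) := Equiv.swap 0 1 * Equiv.swap 1 2 * Equiv.swap 2 3 * Equiv.swap 4 5
  let y : Equiv.Perm (Fin 6) := Equiv.swap 0 2 * Equiv.swap 4 5
  have hx4 : x ^ (2 ^ 2) = 1 := by decide
  have hy2 : y ^ (2 ^ 1) = 1 := by decide
  have hc : y * x * y⁻¹ = x⁻¹ := by decide
  have hne : x * y ≠ y * x := by decide
  have hsx : Equiv.Perm.sign x = 1 := by decide
  have hsy : Equiv.Perm.sign y = 1 := by decide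
  refine ⟨Subgroup.zpowers y ⊔ Subgroup.zpowers x, x, y, ?_, Subgroup.mem_sup_right (Subgroup.mem_zpowers _),
    Subgroup.mem_sup_left (Subgroup.mem_zpowers _), hne, ?_⟩
  · refine (isPGroup_zpowers 2 1 y hy2).to_sup_of_normal_right' (isPGroup_zpowers 2 2 x hx4) ?_
    rw [Subgroup.zpowers_le]
    exact mem_normalizer_zpowers x y hc
  · have : Subgroup.zpowers y ⊔ Subgroup.zpowers x ≤ (Equiv.Perm.sign (α := Fin 6)).ker := by
      refine sup_le ?_ ?_ <;> rw [Subgroup.zpowers_le] <;> assumption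
    intro g hg
    exact this hg

theorem transfer (n p : ℕ) {α : Type*} [Fintype α] [DecidableEq α] (ι : α ↪ Fin n)
    (H : Subgroup (Equiv.Perm α)) (x y : Equiv.Perm α) (hH : IsPGroup p H) (hx : x ∈ H) (hy : y ∈ H)
    (hxy : x * y ≠ y * x) (hs : ∀ g ∈ H, Equiv.Perm.sign g = 1) :
    ∃ (H' : Subgroup (alternatingGroup (Fin n))) (x' y' : alternatingGroup (Fin n)),
      IsPGroup p H' ∧ x' ∈ H' ∧ y' ∈ H' ∧ x' * y' ≠ y' * x' := by
  classical
  have hsign : ∀ g : H, (Equiv.Perm.viaEmbeddingHom ι).comp H.subtype g ∈ alternatingGroup (Fin n) := by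
    intro g
    rw [Equiv.Perm.mem_alternatingGroup]
    have := hs g g.2
    rw [← this]
    simp only [MonoidHom.comp_apply, Subgroup.subtype_apply, Equiv.Perm.viaEmbeddingHom_apply,
      Equiv.Perm.viaEmbedding]
    convert Equiv.Perm.sign_extendDomain (g : Equiv.Perm α) _
  let ψ : H →* alternatingGroup (Fin n) :=
    ((Equiv.Perm.viaEmbeddingHom ι).comp H.subtype).codRestrict _ hsign
  have hψ : Function.Injective ψ := by
    intro a b hab
    have h1 : (Equiv.Perm.viaEmbeddingHom ι) a = (Equiv.Perm.viaEmbeddingHom ι) b :=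
      congrArg Subtype.val hab
    exact Subtype.ext (Equiv.Perm.viaEmbeddingHom_injective ι h1)
  refine ⟨ψ.range, ψ ⟨x, hx⟩, ψ ⟨y, hy⟩, hH.of_surjective ψ.rangeRestrict ψ.rangeRestrict_surjective,
    ⟨_, rfl⟩, ⟨_, rfl⟩, ?_⟩
  intro h
  rw [← map_mul, ← map_mul] at h
  exact hxy (congrArg Subtype.val (hψ h))

theorem exists_nonabelian_alt (n p : ℕ) (hn : 6 ≤ n) [Fact p.Prime] (hnp : p ^ 2 ≤ n) :
    ∃ (H' : Subgroup (alternatingGroup (Fin n))) (x' y' : alternatingGroup (Fin n)),
      IsPGroup p H' ∧ x' ∈ H' ∧ y' ∈ H' ∧ x' * y' ≠ y' * x' := by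
  classical
  have hp : p.Prime := Fact.out
  by_cases h2 : p = 2
  · subst h2
    obtain ⟨H, x, y, hH, hx, hy, hxy, hs⟩ := exists_nonabelian_two
    exact transfer n 2 (Fin.castLEEmb hn) H x y hH hx hy hxy hs
  · obtain ⟨H, x, y, hH, hx, hy, hxy⟩ := exists_nonabelian p
    have hcard : Fintype.card (ZMod p × ZMod p) ≤ Fintype.card (Fin n) := by
      rw [Fintype.card_prod, ZMod.card, Fintype.card_fin]
      nlinarith
    obtain ⟨ι⟩ := Function.Embedding.nonempty_of_card_le hcard
    refine transfer n p ι H x y hH hx hy hxy ?_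
    intro g hg
    obtain ⟨k, hk⟩ := hH ⟨g, hg⟩
    have hk' : g ^ (p ^ k) = 1 := congrArg Subtype.val hk
    have hs : (Equiv.Perm.sign g) ^ (p ^ k) = 1 := by rw [← map_pow, hk', map_one]
    rcases Int.units_eq_one_or (Equiv.Perm.sign g) with h | h
    · exact h
    · exfalso
      rw [h, Odd.neg_one_pow ((hp.odd_of_ne_two h2).pow)] at hs
      exact absurd hs (by decide)

/-- For n ≥ 6 and a prime p, a nontrivial Sylow p-subgroup of the alternating group of degree n is abelian if and only if n < p². -/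
theorem result (n p : ℕ) (hn : 6 ≤ n) [Fact p.Prime] (S : Sylow p (alternatingGroup (Fin n))) (hS : (S : Subgroup (alternatingGroup (Fin n))) ≠ ⊥) : IsMulCommutative S ↔ n < p ^ 2 := by
  constructor
  · intro hc
    by_contra hlt
    obtain ⟨H, x, y, hH, hx, hy, hxy⟩ := exists_nonabelian_alt n p hn (not_lt.mp hlt)
    exact hxy (comm_of_sylow_comm p S hc H hH x y hx hy)
  · intro hlt
    rw [isMulCommutative_iff]
    intro a b
    exact comm_of_card_lt (α := Fin n) p S.isPGroup' (by simpa using hlt) a b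

end Cfsg.Agent.S5164
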