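import Cfsg.Statements.S5345
-- import your own Cfsg.Agent.* helpers here

set_option autoImplicit false
open Cfsg

namespace Cfsg.Agent.S5345

theorem sq_one {G : Type*} [Group G] {D : Set G} (hD : Cfsg.IsThreeTranspositionSet D) {d : G}
    (hd : d ∈ D) : d * d = 1 := by
  have := pow_orderOf_eq_one d
  rw [hD.1 d hd, pow_two] at this
  exact this

theorem comm_of_two_group {G : Type*} [Group G] {D : Set G} (hD : Cfsg.IsThreeTranspositionSet D)
    (T : Subgroup G) (hT : IsPGroup 2 T) {d e : G} (hd : d ∈ D) (he : e ∈ D) (hdT : d ∈ T)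
    (heT : e ∈ T) : d * e = e * d := by
  have hd2 := sq_one hD hd
  have he2 := sq_one hD he
  have hdinv : d⁻¹ = d := inv_eq_of_mul_eq_one_left hd2
  have heinv : e⁻¹ = e := inv_eq_of_mul_eq_one_left he2
  obtain ⟨k, hk⟩ := hT ⟨d * e, T.mul_mem hdT heT⟩
  have hk' : (d * e) ^ (2 ^ k) = 1 := by
    have := congrArg Subtype.val hk
    simpa using this
  have h2 : (d * e) ^ 2 = 1 := by
    rcases hD.2 d hd e he with h | h
    · exact h
    · have hc : Nat.Coprime (2 ^ k) 3 := by
        apply Nat.Coprime.pow_left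
        decide
      have := pow_gcd_eq_one.2 ⟨hk', h⟩
      rw [hc, pow_one] at this
      rw [this, one_pow]
  have h3 : d * e = (d * e)⁻¹ := by
    rw [pow_two] at h2
    exact eq_inv_of_mul_eq_one_left h2
  rw [h3, mul_inv_rev, hdinv, heinv]

/-- Let D be a conjugation-invariant generating set of 3-transpositions of a finite group G and T a Sylow 2-subgroup of G. Then the members of D lying in T generate an abelian subgroup, and their number is the width of D (the largest number of pairwise commuting members of D). -/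
theorem result {G : Type*} [Group G] [Finite G] {D : Set G} (hD : Cfsg.IsThreeTranspositionGroup D) (T : Sylow 2 G) : IsMulCommutative (Subgroup.closure {d : G | d ∈ D ∧ d ∈ T}) ∧ {d : G | d ∈ D ∧ d ∈ T}.ncard = Cfsg.commutingWidth D := by
  obtain ⟨hD3, hconj, -⟩ := hD
  have hcomm : ∀ x ∈ {d : G | d ∈ D ∧ d ∈ T}, ∀ y ∈ {d : G | d ∈ D ∧ d ∈ T}, x * y = y * x := by
    rintro x ⟨hx, hxT⟩ y ⟨hy, hyT⟩
    exact comm_of_two_group hD3 T T.2 hx hy hxT hyT
  refine ⟨Subgroup.isMulCommutative_closure hcomm, ?_⟩
  symm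
  unfold Cfsg.commutingWidth
  apply IsGreatest.csSup_eq
  constructor
  · exact ⟨_, fun d hd => hd.1, Set.toFinite _, fun a ha b hb => hcomm a ha b hb, rfl⟩
  · rintro n ⟨E, hED, -, hEc, rfl⟩
    have hc : IsMulCommutative (Subgroup.closure E) :=
      Subgroup.isMulCommutative_closure (fun a ha b hb => hEc a ha b hb)
    have hsq : ∀ x ∈ Subgroup.closure E, x ^ 2 = 1 := by
      intro x hx
      induction hx using Subgroup.closure_induction with
      | mem x hx => rw [pow_two]; exact sq_one hD3 (hED hx)
      | one => simp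
      | mul x y hx hy hx2 hy2 =>
        have hxy : Commute x y := by
          have := hc.is_comm.comm ⟨x, hx⟩ ⟨y, hy⟩
          exact congrArg Subtype.val this
        rw [hxy.mul_pow, hx2, hy2, one_mul]
      | inv x _ hx2 => rw [inv_pow, hx2, inv_one]
    have hp : IsPGroup 2 (Subgroup.closure E) := by
      intro x
      refine ⟨1, ?_⟩
      apply Subtype.ext
      simpa using hsq x x.2
    obtain ⟨Q, hQ⟩ := hp.exists_le_sylow
    obtain ⟨g, hg⟩ := MulAction.exists_smul_eq G Q T
    apply Set.ncard_le_ncard_of_injOn (fun e => g * e * g⁻¹) ?_ ?_ (Set.toFinite _)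
    · intro e he
      refine ⟨hconj g e (hED he), ?_⟩
      have h1 : e ∈ (Q : Subgroup G) := hQ (Subgroup.subset_closure he)
      have h2 : g * e * g⁻¹ ∈ ((g • Q : Sylow 2 G) : Subgroup G) := by
        rw [Sylow.coe_subgroup_smul]
        exact ⟨e, h1, rfl⟩
      rw [hg] at h2
      exact h2
    · intro a _ b _ hab
      simpa using hab

end Cfsg.Agent.S5345
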