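import Cfsg.Statements.S5358
-- import your own Cfsg.Agent.* helpers here

set_option autoImplicit false
open scoped MatrixGroups
open Cfsg

namespace Cfsg.Agent.S5358

theorem polarVec_dot (n : ℕ) (Q : QuadraticForm (ZMod 3) (Fin n → ZMod 3)) (w x : Fin n → ZMod 3) :
    Cfsg.polarVec (⇑Q) w ⬝ᵥ x = QuadraticMap.polar (⇑Q) w x := by
  have h := LinearMap.pi_apply_eq_sum_univ (QuadraticMap.polarBilin Q w) x
  simp only [QuadraticMap.polarBilin_apply_apply] at h
  rw [h]
  simp only [dotProduct, Cfsg.polarVec, smul_eq_mul]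
  apply Finset.sum_congr rfl
  intro j _
  rw [mul_comm]
  congr 2
  ext i
  simp [Pi.single_apply, eq_comm]

/-- Let Q be a non-degenerate quadratic form on the n-dimensional coordinate space over the field with three elements and u, v vectors of the same non-zero norm Q(u) = Q(v) spanning different lines (v ≠ u and v ≠ −u). Then the reflection matrices of u and v commute if and only if u and v are orthogonal for the polar form of Q. -/
theorem result (n : ℕ) (Q : QuadraticForm (ZMod 3) (Fin n → ZMod 3)) (hQ : (QuadraticMap.polarBilin Q).Nondegenerate) (u v : Fin n → ZMod 3) (hu : Q u ≠ 0) (huv : Q u = Q v) (h1 : v ≠ u) (h2 : v ≠ -u) : Commute (Cfsg.reflectionMatrix (⇑Q) u) (Cfsg.reflectionMatrix (⇑Q) v) ↔ QuadraticMap.polar (⇑Q) u v = 0 := by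
  have hv : Q v ≠ 0 := huv ▸ hu
  obtain ⟨β, hβ⟩ : ∃ β, β = QuadraticMap.polar (⇑Q) u v := ⟨_, rfl⟩
  have hβ' : QuadraticMap.polar (⇑Q) v u = β := by rw [hβ, QuadraticMap.polar_comm]
  rw [← hβ]
  obtain ⟨A, hA⟩ : ∃ A, A = Matrix.vecMulVec u (Cfsg.polarVec (⇑Q) u) := ⟨_, rfl⟩
  obtain ⟨B, hB⟩ : ∃ B, B = Matrix.vecMulVec v (Cfsg.polarVec (⇑Q) v) := ⟨_, rfl⟩
  have hAB : A * B = Matrix.vecMulVec u (β • Cfsg.polarVec (⇑Q) v) := by
    rw [hA, hB, Matrix.vecMulVec_mul_vecMulVec, polarVec_dot, ← hβ]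
  have hBA : B * A = Matrix.vecMulVec v (β • Cfsg.polarVec (⇑Q) u) := by
    rw [hA, hB, Matrix.vecMulVec_mul_vecMulVec, polarVec_dot, hβ']
  have hcomm : Commute (Cfsg.reflectionMatrix (⇑Q) u) (Cfsg.reflectionMatrix (⇑Q) v) ↔ A * B = B * A := by
    unfold Cfsg.reflectionMatrix
    rw [← hA, ← hB]
    constructor
    · intro h
      have h1 : (1 - (Q u)⁻¹ • A) * (1 - (Q v)⁻¹ • B) = (1 - (Q v)⁻¹ • B) * (1 - (Q u)⁻¹ • A) := h
      have h2 : ((Q u)⁻¹ * (Q v)⁻¹) • (A * B) = ((Q u)⁻¹ * (Q v)⁻¹) • (B * A) := by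
        have e1 : (1 - (Q u)⁻¹ • A) * (1 - (Q v)⁻¹ • B) = 1 - (Q u)⁻¹ • A - (Q v)⁻¹ • B + ((Q u)⁻¹ * (Q v)⁻¹) • (A * B) := by
          rw [sub_mul, mul_sub, mul_sub, one_mul, mul_one, one_mul, smul_mul_smul_comm]
          abel
        have e2 : (1 - (Q v)⁻¹ • B) * (1 - (Q u)⁻¹ • A) = 1 - (Q u)⁻¹ • A - (Q v)⁻¹ • B + ((Q u)⁻¹ * (Q v)⁻¹) • (B * A) := by
          rw [sub_mul, mul_sub, mul_sub, one_mul, mul_one, one_mul, smul_mul_smul_comm, mul_comm (Q v)⁻¹]
          abel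
        rw [e1, e2] at h1
        exact add_left_cancel h1
      have h3 : ((Q u)⁻¹ * (Q v)⁻¹) ≠ 0 := mul_ne_zero (inv_ne_zero hu) (inv_ne_zero hv)
      exact smul_right_injective _ h3 h2
    · intro h
      show (1 - (Q u)⁻¹ • A) * (1 - (Q v)⁻¹ • B) = (1 - (Q v)⁻¹ • B) * (1 - (Q u)⁻¹ • A)
      rw [sub_mul, mul_sub, mul_sub, one_mul, mul_one, one_mul, smul_mul_smul_comm,
        sub_mul, mul_sub, mul_sub, one_mul, mul_one, one_mul, smul_mul_smul_comm, mul_comm (Q v)⁻¹, h]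
      abel
  rw [hcomm, hAB, hBA]
  constructor
  · intro h
    by_contra hβ0
    have k1 := congrArg (fun M => Matrix.mulVec M u) h
    simp only [Matrix.vecMulVec_mulVec, smul_dotProduct, polarVec_dot, hβ', QuadraticMap.polar_self] at k1
    have k2 : β • u = (2 * Q u) • v := by
      have h3 : β • (β • u) = β • ((2 * Q u) • v) := by
        ext i
        have := congrFun k1 i
        simp only [Pi.smul_apply, smul_eq_mul, MulOpposite.smul_eq_mul_unop, MulOpposite.unop_op, nsmul_eq_mul] at this ⊢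
        push_cast at this
        linear_combination this
      exact smul_right_injective _ hβ0 h3
    have h20 : (2 : ZMod 3) ≠ 0 := by decide
    have hc : (2 * Q u) ≠ 0 := mul_ne_zero h20 hu
    have h4 : v = ((2 * Q u)⁻¹ * β) • u := by
      rw [mul_smul, k2, smul_smul, inv_mul_cancel₀ hc, one_smul]
    obtain ⟨l, hl⟩ : ∃ l, l = (2 * Q u)⁻¹ * β := ⟨_, rfl⟩
    rw [← hl] at h4
    have h5 : Q v = (l * l) * Q u := by
      rw [h4, QuadraticMap.map_smul, smul_eq_mul]
    rw [← huv] at h5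
    have h6 : l * l = 1 := by
      have : (l * l) * Q u = 1 * Q u := by rw [one_mul]; exact h5.symm
      exact mul_right_cancel₀ hu this
    rcases mul_self_eq_one_iff.mp h6 with h7 | h7
    · apply h1
      rw [h4, h7, one_smul]
    · apply h2
      rw [h4, h7, neg_smul, one_smul]
  · intro h
    rw [h]
    simp

end Cfsg.Agent.S5358
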