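import Cfsg.Statements.S5359
import Cfsg.Agent.Lib.Helper91Refl
import Cfsg.Agent.Lib.Helper91Trans
import Cfsg.Agent.Lib.Helper49CD

set_option autoImplicit false
open Cfsg

namespace Cfsg.Agent.S5359

open Cfsg.Agent.Lib.Helper49Orth Cfsg.Agent.Lib.Helper91Refl

/-- Let Q be a non-degenerate quadratic form on the n-dimensional coordinate space over the field with three elements, n odd and at least 5, and c a non-zero scalar. Then the subgroup of the isometry group of Q generated by the reflections in vectors of norm c has index 2 in the isometry group. -/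
theorem result (n : ℕ) (hn : 5 ≤ n) (hodd : Odd n) (Q : QuadraticForm (ZMod 3) (Fin n → ZMod 3)) (hQ : (QuadraticMap.polarBilin Q).Nondegenerate) (c : ZMod 3) (hc : c ≠ 0) : (Cfsg.reflectionSubgroup (⇑Q) c).index = 2 := by
  have hnc : -c ≠ 0 := neg_ne_zero.2 hc
  have hmemR : ∀ v, Q v = c → reflO' Q v ∈ reflectionSubgroup (⇑Q) c := fun v hv =>
    Subgroup.subset_closure ((mem_reflectionsOfNorm Q hc _).2 ⟨v, hv, rfl⟩)
  have hnorm : (reflectionSubgroup (⇑Q) c).Normal := by
    apply Cfsg.Agent.Lib.Helper91Trans.closure_normal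
    intro k hk g
    obtain ⟨v, hv, rfl⟩ := (mem_reflectionsOfNorm Q hc k).1 hk
    rw [r_conj]
    exact (mem_reflectionsOfNorm Q hc _).2 ⟨_, by rw [Q_act]; exact hv, rfl⟩
  -- orthogonal pairs of norm `-c`
  have horth : ∀ v w, Q v = -c → Q w = -c → QuadraticMap.polar (⇑Q) v w = 0 →
      reflO' Q v * reflO' Q w ∈ reflectionSubgroup (⇑Q) c := by
    intro v w hv hw hvw
    have hs : Q (v + w) = c := by
      rw [Q_add, hv, hw, hvw]
      have key : ∀ c : ZMod 3, -c + -c + 0 = c := by decide
      exact key c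
    have hs0 : Q (v + w) ≠ 0 := by rw [hs]; exact hc
    have hact : act Q (reflO' Q (v + w)) v = (-1 : ZMod 3) • w := by
      unfold act
      rw [reflO'_eq Q hs0, coe_reflO, refl_add_apply Q (hv.trans hw.symm) hs0]
      simp
    have hconj := r_conj Q (reflO' Q (v + w)) v
    rw [hact, r_smul Q (by decide)] at hconj
    rw [← hconj]
    have e : reflO' Q v * (reflO' Q (v + w) * reflO' Q v * (reflO' Q (v + w))⁻¹)
        = (reflO' Q v * reflO' Q (v + w) * (reflO' Q v)⁻¹) * (reflO' Q (v + w))⁻¹ := by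
      rw [r_inv Q v]
      simp only [mul_assoc]
    rw [e]
    exact Subgroup.mul_mem _ (hnorm.conj_mem _ (hmemR _ hs) _) (Subgroup.inv_mem _ (hmemR _ hs))
  have hpair : ∀ v w, Q v = -c → Q w = -c →
      reflO' Q v * reflO' Q w ∈ reflectionSubgroup (⇑Q) c := by
    intro v w hv hw
    obtain ⟨u, h1, h2, h3⟩ := exists_perp_pair Q hQ w (v := v) (by rw [hv]; exact hnc) hn hnc
    have e : reflO' Q v * reflO' Q w = (reflO' Q v * reflO' Q u) * (reflO' Q u * reflO' Q w) := by
      rw [mul_assoc, ← mul_assoc (reflO' Q u), r_mul_self, one_mul]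
    rw [e]
    exact Subgroup.mul_mem _ (horth v u hv h3 h1)
      (horth u w h3 hw (by rw [QuadraticMap.polar_comm]; exact h2))
  obtain ⟨w0, hw0⟩ := exists_norm Q hQ (by omega) hnc
  have hw00 : Q w0 ≠ 0 := by rw [hw0]; exact hnc
  -- the character
  have hψc : ∀ v, Q v = c → chi Q (-c) (reflO' Q v) = 1 := by
    intro v hv
    have hv0 : Q v ≠ 0 := by rw [hv]; exact hc
    rw [reflO'_eq Q hv0]
    apply (chi_refl Q two_ne hnc hv0).2
    rw [hv]
    have key : ∀ c : ZMod 3, c ≠ 0 → ¬ IsSquare (-c * c) := by decide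
    exact key c hc
  have hψw : chi Q (-c) (reflO' Q w0) = -1 := by
    rw [reflO'_eq Q hw00]
    apply (chi_refl Q two_ne hnc hw00).1
    rw [hw0]
    exact ⟨-c, rfl⟩
  have hRker : ∀ g ∈ reflectionSubgroup (⇑Q) c, chi Q (-c) g = 1 := by
    intro g hg
    have : reflectionSubgroup (⇑Q) c ≤ (chi Q (-c)).ker := by
      unfold reflectionSubgroup
      rw [Subgroup.closure_le]
      intro k hk
      obtain ⟨v, hv, rfl⟩ := (mem_reflectionsOfNorm Q hc k).1 hk
      exact hψc v hv
    exact this hg
  have hdich : ∀ g : ↥(Cfsg.isometryGroup (ZMod 3) (⇑Q)),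
      g ∈ reflectionSubgroup (⇑Q) c ∨ g * reflO' Q w0 ∈ reflectionSubgroup (⇑Q) c := by
    intro g
    obtain ⟨vs, hvs, rfl⟩ := Cfsg.Agent.Lib.Helper49CD.exists_list_refl Q two_ne hQ g
    induction vs with
    | nil => left; simp
    | cons v vs ih =>
      have ih' := ih (fun x hx => hvs x (List.mem_cons_of_mem _ hx))
      have hv0 : Q v ≠ 0 := hvs v List.mem_cons_self
      simp only [List.map_cons, List.prod_cons]
      obtain ⟨g', hg'⟩ : ∃ g', g' = (vs.map (reflO' Q)).prod := ⟨_, rfl⟩
      rw [← hg'] at ih' ⊢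
      have key : ∀ c x : ZMod 3, c ≠ 0 → x ≠ 0 → x = c ∨ x = -c := by decide
      rcases key c (Q v) hc hv0 with hv | hv
      · rcases ih' with h | h
        · left; exact Subgroup.mul_mem _ (hmemR v hv) h
        · right
          rw [mul_assoc]
          exact Subgroup.mul_mem _ (hmemR v hv) h
      · rcases ih' with h | h
        · right
          have e : reflO' Q v * g' * reflO' Q w0
              = (reflO' Q v * g' * (reflO' Q v)⁻¹) * (reflO' Q v * reflO' Q w0) := by
            simp only [mul_assoc, inv_mul_cancel_left]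
          rw [e]
          exact Subgroup.mul_mem _ (hnorm.conj_mem _ h _) (hpair v w0 hv hw0)
        · left
          have e : reflO' Q v * g'
              = (reflO' Q v * (g' * reflO' Q w0) * (reflO' Q v)⁻¹) * (reflO' Q v * reflO' Q w0) := by
            have := r_mul_self Q w0
            simp only [mul_assoc, inv_mul_cancel_left, this, mul_one]
          rw [e]
          exact Subgroup.mul_mem _ (hnorm.conj_mem _ h _) (hpair v w0 hv hw0)
  rw [Subgroup.index_eq_two_iff]
  refine ⟨reflO' Q w0, fun b => ?_⟩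
  have hnot : ¬ (b * reflO' Q w0 ∈ reflectionSubgroup (⇑Q) c ∧ b ∈ reflectionSubgroup (⇑Q) c) := by
    rintro ⟨h1, h2⟩
    have e1 := hRker _ h1
    rw [map_mul, hRker _ h2, hψw] at e1
    exact absurd e1 (by decide)
  rcases hdich b with h | h
  · right
    exact ⟨h, fun h' => hnot ⟨h', h⟩⟩
  · left
    exact ⟨h, fun h' => hnot ⟨h, h'⟩⟩

end Cfsg.Agent.S5359
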