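import Cfsg.Statements.S5360
import Cfsg.Agent.S5357
import Cfsg.Agent.Lib.Helper91Refl
import Cfsg.Agent.Lib.Helper91Trans
import Cfsg.Agent.Lib.Helper49CD
import Cfsg.Agent.Lib.Helper49Simple
import Cfsg.Agent.Lib.Helper27Basic

set_option autoImplicit false
open scoped MatrixGroups
open Cfsg

namespace Cfsg.Agent.S5360

open Cfsg.Agent.Lib.Helper49Orth Cfsg.Agent.Lib.Helper91Refl
open scoped commutatorElement

/-- a group generated by one class of involutions has commutator subgroup of index at most 2 -/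
theorem index_commutator_le_two {G : Type*} [Group G] (d : G) (hd : d * d = 1)
    (hgen : Subgroup.closure (conjugatesOf d) = ⊤) : (commutator G).index ≤ 2 := by
  have hdich : ∀ g : G, g ∈ commutator G ∨ g * d ∈ commutator G := by
    intro g
    have hg : g ∈ Subgroup.closure (conjugatesOf d) := by rw [hgen]; trivial
    have hdi : d⁻¹ = d := inv_eq_of_mul_eq_one_left hd
    have hN : (commutator G).Normal := inferInstance
    induction hg using Subgroup.closure_induction with
    | mem x hx =>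
      right
      obtain ⟨k, rfl⟩ := isConj_iff.1 (show IsConj d x from hx)
      have : k * d * k⁻¹ * d = ⁅k, d⁆ := by rw [commutatorElement_def, hdi]
      rw [this]
      exact Subgroup.commutator_mem_commutator (Subgroup.mem_top _) (Subgroup.mem_top _)
    | one => left; exact Subgroup.one_mem _
    | mul x y _ _ hx hy =>
      rcases hx with hx | hx <;> rcases hy with hy | hy
      · left; exact Subgroup.mul_mem _ hx hy
      · right; rw [mul_assoc]; exact Subgroup.mul_mem _ hx hy
      · right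
        have e : x * y * d = (x * d) * (d * y * d⁻¹) := by
          rw [hdi]
          calc x * y * d = x * (1 * y) * d := by rw [one_mul]
            _ = x * ((d * d) * y) * d := by rw [hd]
            _ = _ := by simp only [mul_assoc]
        rw [e]
        exact Subgroup.mul_mem _ hx (hN.conj_mem _ hy _)
      · left
        have e : x * y = (x * d) * (d * (y * d) * d⁻¹) := by
          rw [hdi]
          calc x * y = x * (1 * y * 1) := by rw [one_mul, mul_one]
            _ = x * ((d * d) * y * (d * d)) := by rw [hd]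
            _ = _ := by simp only [mul_assoc]
        rw [e]
        exact Subgroup.mul_mem _ hx (hN.conj_mem _ hy _)
    | inv x _ hx =>
      rcases hx with hx | hx
      · left; exact Subgroup.inv_mem _ hx
      · right
        have e : x⁻¹ * d = d * (x * d)⁻¹ * d⁻¹ := by
          rw [hdi, _root_.mul_inv_rev, hdi]
          calc x⁻¹ * d = 1 * x⁻¹ * d := by rw [one_mul]
            _ = (d * d) * x⁻¹ * d := by rw [hd]
            _ = _ := by simp only [mul_assoc]
        rw [e]
        exact hN.conj_mem _ (Subgroup.inv_mem _ hx) _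
  by_cases hdm : d ∈ commutator G
  · have : commutator G = ⊤ := by
      rw [eq_top_iff]
      intro g _
      rcases hdich g with h | h
      · exact h
      · exact (Subgroup.mul_mem_cancel_right _ hdm).1 h
    rw [this, Subgroup.index_top]
    norm_num
  · apply le_of_eq
    rw [Subgroup.index_eq_two_iff]
    refine ⟨d, fun b => ?_⟩
    rcases hdich b with h | h
    · right
      exact ⟨h, fun h' => hdm ((Subgroup.mul_mem_cancel_left _ h).1 h')⟩
    · left
      exact ⟨h, fun h' => hdm ((Subgroup.mul_mem_cancel_left _ h').1 h)⟩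

section refl

variable {n : ℕ} (Q : QuadraticForm (ZMod 3) (Fin n → ZMod 3))

theorem mem_R {c : ZMod 3} (hc : c ≠ 0) (v : Fin n → ZMod 3) (hv : Q v = c) :
    reflO' Q v ∈ reflectionSubgroup (⇑Q) c :=
  Subgroup.subset_closure ((mem_reflectionsOfNorm Q hc _).2 ⟨v, hv, rfl⟩)

theorem Omega_le (hn : 5 ≤ n) (hQ : (QuadraticMap.polarBilin Q).Nondegenerate) {c : ZMod 3}
    (hc : c ≠ 0) : Cfsg.Omega (ZMod 3) (⇑Q) ≤ reflectionSubgroup (⇑Q) c := by
  have hnc : -c ≠ 0 := neg_ne_zero.2 hc
  have hmemR : ∀ v, Q v = c → reflO' Q v ∈ reflectionSubgroup (⇑Q) c := mem_R Q hc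
  have hnorm : (reflectionSubgroup (⇑Q) c).Normal := by
    apply Cfsg.Agent.Lib.Helper91Trans.closure_normal
    intro k hk g
    obtain ⟨v, hv, rfl⟩ := (mem_reflectionsOfNorm Q hc k).1 hk
    rw [r_conj]
    exact (mem_reflectionsOfNorm Q hc _).2 ⟨_, by rw [Q_act]; exact hv, rfl⟩
  have horth : ∀ v w, Q v = -c → Q w = -c → QuadraticMap.polar (⇑Q) v w = 0 →
      reflO' Q v * reflO' Q w ∈ reflectionSubgroup (⇑Q) c := by
    intro v w hv hw hvw
    have hs : Q (v + w) = c := by
      rw [Q_add, hv, hw, hvw]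
      have key : ∀ c : ZMod 3, -c + -c + 0 = c := by decide
      exact key c
    have hs0 : Q (v + w) ≠ 0 := by rw [hs]; exact hc
    have hact : act Q (reflO' Q (v + w)) v = (-1 : ZMod 3) • w := by
      unfold act
      rw [reflO'_eq Q hs0, coe_reflO, refl_add_apply Q (hv.trans hw.symm) hs0]
      simp
    have hconj := r_conj Q (reflO' Q (v + w)) v
    rw [hact, r_smul Q (by decide)] at hconj
    rw [← hconj]
    have e : reflO' Q v * (reflO' Q (v + w) * reflO' Q v * (reflO' Q (v + w))⁻¹)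
        = (reflO' Q v * reflO' Q (v + w) * (reflO' Q v)⁻¹) * (reflO' Q (v + w))⁻¹ := by
      rw [r_inv Q v]
      simp only [mul_assoc]
    rw [e]
    exact Subgroup.mul_mem _ (hnorm.conj_mem _ (hmemR _ hs) _) (Subgroup.inv_mem _ (hmemR _ hs))
  have hpair : ∀ v w, Q v = -c → Q w = -c →
      reflO' Q v * reflO' Q w ∈ reflectionSubgroup (⇑Q) c := by
    intro v w hv hw
    obtain ⟨u, h1, h2, h3⟩ := exists_perp_pair Q hQ w (v := v) (by rw [hv]; exact hnc) hn hnc
    have e : reflO' Q v * reflO' Q w = (reflO' Q v * reflO' Q u) * (reflO' Q u * reflO' Q w) := by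
      rw [mul_assoc, ← mul_assoc (reflO' Q u), r_mul_self, one_mul]
    rw [e]
    exact Subgroup.mul_mem _ (horth v u hv h3 h1)
      (horth u w h3 hw (by rw [QuadraticMap.polar_comm]; exact h2))
  obtain ⟨w0, hw0⟩ := exists_norm Q hQ (by omega) hnc
  have hw00 : Q w0 ≠ 0 := by rw [hw0]; exact hnc
  have hψc : ∀ v, Q v = c → chi Q (-c) (reflO' Q v) = 1 := by
    intro v hv
    have hv0 : Q v ≠ 0 := by rw [hv]; exact hc
    rw [reflO'_eq Q hv0]
    apply (chi_refl Q two_ne hnc hv0).2
    rw [hv]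
    have key : ∀ c : ZMod 3, c ≠ 0 → ¬ IsSquare (-c * c) := by decide
    exact key c hc
  have hψw : chi Q (-c) (reflO' Q w0) = -1 := by
    rw [reflO'_eq Q hw00]
    apply (chi_refl Q two_ne hnc hw00).1
    rw [hw0]
    exact ⟨-c, rfl⟩
  have hRker : ∀ g ∈ reflectionSubgroup (⇑Q) c, chi Q (-c) g = 1 := by
    intro g hg
    have : reflectionSubgroup (⇑Q) c ≤ (chi Q (-c)).ker := by
      unfold reflectionSubgroup
      rw [Subgroup.closure_le]
      intro k hk
      obtain ⟨v, hv, rfl⟩ := (mem_reflectionsOfNorm Q hc k).1 hk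
      exact hψc v hv
    exact this hg
  have hdich : ∀ g : ↥(Cfsg.isometryGroup (ZMod 3) (⇑Q)),
      g ∈ reflectionSubgroup (⇑Q) c ∨ g * reflO' Q w0 ∈ reflectionSubgroup (⇑Q) c := by
    intro g
    obtain ⟨vs, hvs, rfl⟩ := Cfsg.Agent.Lib.Helper49CD.exists_list_refl Q two_ne hQ g
    induction vs with
    | nil => left; simp
    | cons v vs ih =>
      have ih' := ih (fun x hx => hvs x (List.mem_cons_of_mem _ hx))
      have hv0 : Q v ≠ 0 := hvs v List.mem_cons_self
      simp only [List.map_cons, List.prod_cons]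
      obtain ⟨g', hg'⟩ : ∃ g', g' = (vs.map (reflO' Q)).prod := ⟨_, rfl⟩
      rw [← hg'] at ih' ⊢
      have key : ∀ c x : ZMod 3, c ≠ 0 → x ≠ 0 → x = c ∨ x = -c := by decide
      rcases key c (Q v) hc hv0 with hv | hv
      · rcases ih' with h | h
        · left; exact Subgroup.mul_mem _ (hmemR v hv) h
        · right
          rw [mul_assoc]
          exact Subgroup.mul_mem _ (hmemR v hv) h
      · rcases ih' with h | h
        · right
          have e : reflO' Q v * g' * reflO' Q w0
              = (reflO' Q v * g' * (reflO' Q v)⁻¹) * (reflO' Q v * reflO' Q w0) := by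
            simp only [mul_assoc, inv_mul_cancel_left]
          rw [e]
          exact Subgroup.mul_mem _ (hnorm.conj_mem _ h _) (hpair v w0 hv hw0)
        · left
          have e : reflO' Q v * g'
              = (reflO' Q v * (g' * reflO' Q w0) * (reflO' Q v)⁻¹) * (reflO' Q v * reflO' Q w0) := by
            have := r_mul_self Q w0
            simp only [mul_assoc, inv_mul_cancel_left, this, mul_one]
          rw [e]
          exact Subgroup.mul_mem _ (hnorm.conj_mem _ h _) (hpair v w0 hv hw0)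
  intro g hg
  have h1 : chi Q (-c) g = 1 := Abelianization.commutator_subset_ker _ hg
  rcases hdich g with h | h
  · exact h
  · exfalso
    have e1 := hRker _ h
    rw [map_mul, h1, hψw] at e1
    exact absurd e1 (by decide)

theorem comm_R (hn : 5 ≤ n) (hQ : (QuadraticMap.polarBilin Q).Nondegenerate) {c : ZMod 3}
    (hc : c ≠ 0) : (commutator ↥(reflectionSubgroup (⇑Q) c)).map (reflectionSubgroup (⇑Q) c).subtype
      = Cfsg.Omega (ZMod 3) (⇑Q) := by
  rw [Subgroup.map_subtype_commutator]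
  apply le_antisymm
  · exact Subgroup.commutator_mono le_top le_top
  · conv_lhs => rw [← Cfsg.Agent.Lib.Helper49Perfect.Omega_comm_eq Q hQ (by simpa using hn)]
    exact Subgroup.commutator_mono (Omega_le Q hn hQ hc) (Omega_le Q hn hQ hc)

/-- E1 -/
theorem exists_E1 (hQ : (QuadraticMap.polarBilin Q).Nondegenerate) {c : ZMod 3}
    (hc : c ≠ 0) {u v : Fin n → ZMod 3} (hu : Q u = c) (hv : Q v = c)
    (huv : QuadraticMap.polar (⇑Q) u v ≠ 0) (hne : reflO' Q u ≠ reflO' Q v) :
    ∃ w, Q w = c ∧ QuadraticMap.polar (⇑Q) u w = 0 ∧ QuadraticMap.polar (⇑Q) v w ≠ 0 := by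
  have h2c : 2 * c ≠ 0 := mul_ne_zero two_ne hc
  have huu : QuadraticMap.polar (⇑Q) u u = 2 * c := by
    rw [QuadraticMap.polar_self, hu]; simp [two_mul]
  have hproj : ∀ y : Fin n → ZMod 3,
      QuadraticMap.polar (⇑Q) u (y - ((2 * c)⁻¹ * QuadraticMap.polar (⇑Q) u y) • u) = 0 := by
    intro y
    rw [QuadraticMap.polar_sub_right, QuadraticMap.polar_smul_right, huu, smul_eq_mul,
      mul_assoc, mul_comm (QuadraticMap.polar (⇑Q) u y), ← mul_assoc, inv_mul_cancel₀ h2c, one_mul,
      sub_self]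
  obtain ⟨s, hs⟩ : ∃ s, s = (2 * c)⁻¹ * QuadraticMap.polar (⇑Q) u v := ⟨_, rfl⟩
  have hs0 : s ≠ 0 := by rw [hs]; exact mul_ne_zero (inv_ne_zero h2c) huv
  have hss : s * s = 1 := by
    have key : ∀ a : ZMod 3, a ≠ 0 → a * a = 1 := by decide
    exact key s hs0
  have hB : QuadraticMap.polar (⇑Q) u v = 2 * c * s := by
    rw [hs, ← mul_assoc, mul_inv_cancel₀ h2c, one_mul]
  obtain ⟨v', hv'⟩ : ∃ v', v' = v - s • u := ⟨_, rfl⟩
  have huv' : QuadraticMap.polar (⇑Q) u v' = 0 := by rw [hv', hs]; exact hproj v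
  have hv'u : QuadraticMap.polar (⇑Q) v' u = 0 := by rw [QuadraticMap.polar_comm]; exact huv'
  have hv'0 : v' ≠ 0 := by
    intro h0
    apply hne
    have : v = s • u := by rw [hv'] at h0; exact sub_eq_zero.1 h0
    rw [this, r_smul Q hs0]
  have hQv' : Q v' = 0 := by
    rw [hv', Q_sub, QuadraticMap.map_smul, QuadraticMap.polar_smul_right, QuadraticMap.polar_comm,
      hB, hu, hv]
    simp only [smul_eq_mul]
    have : c + s * s * c - s * (2 * c * s) = c * (1 - s * s) := by ring
    rw [this, hss]; ring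
  have hv'v' : QuadraticMap.polar (⇑Q) v' v' = 0 := by
    rw [QuadraticMap.polar_self, hQv']; simp
  obtain ⟨z0, hz0⟩ : ∃ z0, QuadraticMap.polar (⇑Q) v' z0 ≠ 0 := by
    by_contra hcon
    push Not at hcon
    exact hv'0 (hQ.1 _ hcon)
  obtain ⟨z, hz⟩ : ∃ z, z = z0 - ((2 * c)⁻¹ * QuadraticMap.polar (⇑Q) u z0) • u := ⟨_, rfl⟩
  have huz : QuadraticMap.polar (⇑Q) u z = 0 := by rw [hz]; exact hproj z0
  obtain ⟨b, hb⟩ : ∃ b, b = QuadraticMap.polar (⇑Q) v' z := ⟨_, rfl⟩
  have hb0 : b ≠ 0 := by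
    rw [hb, hz, QuadraticMap.polar_sub_right, QuadraticMap.polar_smul_right, hv'u]
    simpa using hz0
  refine ⟨z + ((c - Q z) * b⁻¹) • v', ?_, ?_, ?_⟩
  · rw [Q_add, QuadraticMap.map_smul, hQv', QuadraticMap.polar_smul_right, QuadraticMap.polar_comm,
      ← hb]
    simp only [smul_eq_mul]
    field_simp
    ring
  · rw [QuadraticMap.polar_add_right, QuadraticMap.polar_smul_right, huz, huv']
    simp
  · have hvv : v = v' + s • u := by rw [hv']; abel
    have e1 : QuadraticMap.polar (⇑Q) v' (z + ((c - Q z) * b⁻¹) • v') = b := by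
      rw [QuadraticMap.polar_add_right, QuadraticMap.polar_smul_right, hv'v', ← hb]
      simp
    have e2 : QuadraticMap.polar (⇑Q) u (z + ((c - Q z) * b⁻¹) • v') = 0 := by
      rw [QuadraticMap.polar_add_right, QuadraticMap.polar_smul_right, huz, huv']
      simp
    rw [hvv, QuadraticMap.polar_add_left, QuadraticMap.polar_smul_left, e1, e2]
    simpa using hb0

/-- E2 -/
theorem exists_E2 (hn : 5 ≤ n) (hQ : (QuadraticMap.polarBilin Q).Nondegenerate) {c : ZMod 3}
    (hc : c ≠ 0) {u v w : Fin n → ZMod 3} (hu : Q u = c) (hv : Q v = c) (hw : Q w = c)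
    (huv : QuadraticMap.polar (⇑Q) u v = 0) (huw : QuadraticMap.polar (⇑Q) u w = 0)
    (hvw : QuadraticMap.polar (⇑Q) v w = 0) :
    ∃ x, Q x = c ∧ QuadraticMap.polar (⇑Q) u x = 0 ∧ QuadraticMap.polar (⇑Q) v x ≠ 0 ∧
      QuadraticMap.polar (⇑Q) w x ≠ 0 := by
  have h2c : 2 * c ≠ 0 := mul_ne_zero two_ne hc
  obtain ⟨y, h1, h2, h3, h4⟩ := exists_perp_three Q hQ (e1 := u) (e2 := v) (e3 := w)
    (by rw [hu]; exact hc) (by rw [hv]; exact hc) (by rw [hw]; exact hc) huv huw hvw hn
    (neg_ne_zero.2 hc)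
  have hvv : QuadraticMap.polar (⇑Q) v v = 2 * c := by
    rw [QuadraticMap.polar_self, hv]; simp [two_mul]
  have hww : QuadraticMap.polar (⇑Q) w w = 2 * c := by
    rw [QuadraticMap.polar_self, hw]; simp [two_mul]
  have hwv : QuadraticMap.polar (⇑Q) w v = 0 := by rw [QuadraticMap.polar_comm]; exact hvw
  refine ⟨v + w + y, ?_, ?_, ?_, ?_⟩
  · rw [Q_add, Q_add, QuadraticMap.polar_add_left, hv, hw, h4, hvw, h2, h3]
    ring
  · rw [QuadraticMap.polar_add_right, QuadraticMap.polar_add_right, huv, huw, h1]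
    simp
  · rw [QuadraticMap.polar_add_right, QuadraticMap.polar_add_right, hvv, hvw, h2]
    simpa using h2c
  · rw [QuadraticMap.polar_add_right, QuadraticMap.polar_add_right, hwv, hww, h3]
    simpa using h2c

/-- the block argument at the level of vectors -/
theorem block_core (hn : 5 ≤ n) (hQ : (QuadraticMap.polarBilin Q).Nondegenerate) {c : ZMod 3}
    (hc : c ≠ 0) (P : (Fin n → ZMod 3) → Prop)
    (hP3 : ∀ u v x, Q u = c → Q v = c → Q x = c → P u → P v → QuadraticMap.polar (⇑Q) u x = 0 →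
      QuadraticMap.polar (⇑Q) v x ≠ 0 → P x)
    {u v : Fin n → ZMod 3} (hu : Q u = c) (hv : Q v = c) (hPu : P u) (hPv : P v)
    (hne : reflO' Q u ≠ reflO' Q v) : ∀ w, Q w = c → P w := by
  -- an orthogonal pair
  obtain ⟨v1, hv1, hPv1, huv1⟩ : ∃ v1, Q v1 = c ∧ P v1 ∧ QuadraticMap.polar (⇑Q) u v1 = 0 := by
    by_cases h : QuadraticMap.polar (⇑Q) u v = 0
    · exact ⟨v, hv, hPv, h⟩
    · obtain ⟨w, h1, h2, h3⟩ := exists_E1 Q hQ hc hu hv h hne
      exact ⟨w, h1, hP3 u v w hu hv h1 hPu hPv h2 h3, h2⟩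
  have step2 : ∀ x, Q x = c → QuadraticMap.polar (⇑Q) u x = 0 → P x := by
    intro x hx hux
    by_cases h : QuadraticMap.polar (⇑Q) v1 x = 0
    · obtain ⟨y, h1, h2, h3, h4⟩ := exists_E2 Q hn hQ hc hu hv1 hx huv1 hux h
      have hPy : P y := hP3 u v1 y hu hv1 h1 hPu hPv1 h2 h3
      exact hP3 u y x hu h1 hx hPu hPy hux (by rw [QuadraticMap.polar_comm]; exact h4)
    · exact hP3 u v1 x hu hv1 hx hPu hPv1 hux h
  intro w hw
  by_cases h : QuadraticMap.polar (⇑Q) u w = 0
  · exact step2 w hw h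
  · obtain ⟨x, h1, h2, h3⟩ := exists_perp_pair Q hQ w (v := u) (by rw [hu]; exact hc) hn hc
    exact hP3 x u w h3 hu hw (step2 x h3 h1) hPu (by rw [QuadraticMap.polar_comm]; exact h2) h

end refl

/-- Let Q be a non-degenerate quadratic form on the n-dimensional coordinate space over the field with three elements, n ≥ 5, c a non-zero scalar, and R the subgroup of the isometry group generated by the reflections of norm c. Then the commutator subgroup of R is quasisimple of index at most 2, the generalized Fitting subgroup of R is the product of the centre and the commutator subgroup, and R acts primitively by conjugation on its reflections of norm c. -/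
theorem result (n : ℕ) (hn : 5 ≤ n) (Q : QuadraticForm (ZMod 3) (Fin n → ZMod 3)) (hQ : (QuadraticMap.polarBilin Q).Nondegenerate) (c : ZMod 3) (hc : c ≠ 0) : Cfsg.IsQuasisimple (commutator ↥(Cfsg.reflectionSubgroup (⇑Q) c)) ∧ (commutator ↥(Cfsg.reflectionSubgroup (⇑Q) c)).index ≤ 2 ∧ Cfsg.generalizedFittingSubgroup ↥(Cfsg.reflectionSubgroup (⇑Q) c) = Subgroup.center ↥(Cfsg.reflectionSubgroup (⇑Q) c) ⊔ commutator ↥(Cfsg.reflectionSubgroup (⇑Q) c) ∧ Cfsg.IsPrimitiveUnderConj {g : ↥(Cfsg.reflectionSubgroup (⇑Q) c) | (g : ↥(Cfsg.isometryGroup (ZMod 3) (⇑Q))) ∈ Cfsg.reflectionsOfNorm (⇑Q) c} := by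
  obtain ⟨R, hR⟩ : ∃ R, R = Cfsg.reflectionSubgroup (⇑Q) c := ⟨_, rfl⟩
  have hcard : 5 ≤ Fintype.card (Fin n) := by simpa using hn
  have hmap := comm_R Q hn hQ hc
  have h57 := Cfsg.Agent.S5357.result n hn Q hQ c hc
  have hmemR : ∀ v, Q v = c → reflO' Q v ∈ R := by rw [hR]; exact mem_R Q hc
  rw [← hR] at hmap h57 ⊢
  obtain ⟨⟨hord, -⟩, ⟨d, hdD, hDd⟩, hgen⟩ := h57
  have hQS : Cfsg.IsQuasisimple (commutator ↥R) := by
    rw [Cfsg.Agent.Lib.Helper27Basic.isQuasisimple_subgroup_iff,
      ← Cfsg.Agent.Lib.Helper27Basic.QS_map_subtype_iff, hmap,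
      ← Cfsg.Agent.Lib.Helper27Basic.isQuasisimple_subgroup_iff]
    exact ⟨⟨Cfsg.Agent.Lib.Helper49Perfect.Omega_perfect Q hQ hcard⟩,
      Cfsg.Agent.Lib.Helper49Simple.POmega_simple Q hQ hcard⟩
  refine ⟨hQS, ?_, ?_, ?_⟩
  · apply index_commutator_le_two d
    · have := hord d hdD
      rw [← pow_two, ← this]
      exact pow_orderOf_eq_one d
    · rw [← hDd]; exact hgen
  · have hL : Cfsg.IsComponent (commutator ↥R) :=
      ⟨(inferInstance : (commutator ↥R).Normal).isSubnormal, hQS⟩
    have hcent : ∀ H : Subgroup ↥R, ⁅commutator ↥R, H⁆ = ⊥ → H ≤ Subgroup.center ↥R := by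
      intro H hH z hz
      rw [Cfsg.Agent.Lib.Helper27Basic.comm_eq_bot_iff] at hH
      have h1 := Cfsg.Agent.Lib.Helper49Center.eq_one_or_neg_one_of_commute Q hQ hcard
        (z : ↥(Cfsg.isometryGroup (ZMod 3) (⇑Q))) (by
          intro g hg
          rw [← hmap] at hg
          obtain ⟨g', hg', rfl⟩ := hg
          have := hH g' hg' z hz
          exact (congrArg Subtype.val this).symm)
      rw [Subgroup.mem_center_iff]
      intro y
      apply Subtype.ext
      apply iso_ext
      simp only [Subgroup.coe_mul, Units.val_mul]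
      rcases h1 with h1 | h1 <;> rw [h1] <;> simp
    unfold Cfsg.generalizedFittingSubgroup Cfsg.layer Cfsg.fittingSubgroup
    apply le_antisymm
    · apply sup_le
      · apply sSup_le
        intro K hK
        by_cases hKL : commutator ↥R = K
        · rw [← hKL]; exact le_sup_right
        · exact le_sup_of_le_left (hcent K (Cfsg.Agent.Lib.Helper27Basic.comp_comm hL hK hKL))
      · apply sSup_le
        rintro N ⟨hN, hnil⟩
        refine le_sup_of_le_left (hcent N (Cfsg.Agent.Lib.Helper27Basic.comp_comm_solvable hL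
          inferInstance ?_))
        rw [Subgroup.normalizer_eq_top]
        exact le_top
    · apply sup_le
      · exact le_sup_of_le_right (le_sSup ⟨inferInstance,
          ⟨1, Subgroup.upperCentralSeries_one_eq_top_iff.2 inferInstance⟩⟩)
      · exact le_sup_of_le_left (le_sSup hL)
  · refine ⟨?_, ?_, ?_⟩
    · intro a ha b hb
      rw [hDd] at ha hb
      obtain ⟨x, rfl⟩ := isConj_iff.1 (show IsConj d a from ha)
      obtain ⟨y, rfl⟩ := isConj_iff.1 (show IsConj d b from hb)
      exact ⟨y * x⁻¹, by group⟩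
    · obtain ⟨u, hu⟩ := exists_norm Q hQ (by omega) hc
      have hu0 : Q u ≠ 0 := by rw [hu]; exact hc
      obtain ⟨v, huv, hv⟩ := exists_perp_one Q hQ hu0 (by omega) hc
      have hv0 : Q v ≠ 0 := by rw [hv]; exact hc
      refine ⟨⟨reflO' Q u, hmemR u hu⟩, ?_, ⟨reflO' Q v, hmemR v hv⟩, ?_, ?_⟩
      · exact (mem_reflectionsOfNorm Q hc _).2 ⟨u, hu, rfl⟩
      · exact (mem_reflectionsOfNorm Q hc _).2 ⟨v, hv, rfl⟩
      · intro h
        have h1 : reflO' Q u = reflO' Q v := congrArg Subtype.val h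
        have h2 : reflO' Q u * reflO' Q v * reflO' Q u = reflO' Q v := r_commute Q hu0 huv
        have h3 : act Q (reflO' Q u) u = act Q (reflO' Q v) u := by rw [h1]
        rw [act_r Q hu0, act_r Q hv0, QuadraticMap.polar_comm (⇑Q) v u, huv,
          QuadraticMap.polar_self] at h3
        have hu00 : u = 0 := by
          funext i
          have h4 := congrFun h3 i
          simp only [Pi.sub_apply, Pi.smul_apply, smul_eq_mul, mul_zero, zero_mul, sub_zero,
            nsmul_eq_mul, Nat.cast_ofNat, Pi.zero_apply] at h4 ⊢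
          rw [mul_comm (2 : ZMod 3), ← mul_assoc, inv_mul_cancel₀ hu0, one_mul] at h4
          have key : ∀ a : ZMod 3, a - 2 * a = a → a = 0 := by decide
          exact key _ h4
        rw [hu00, QuadraticMap.map_zero] at hu0
        exact hu0 rfl
    · intro B hBD hblk
      by_contra hcon
      push Not at hcon
      obtain ⟨hns, hne⟩ := hcon
      obtain ⟨a, ha, b, hb, hab⟩ := hns
      apply hne
      apply Set.Subset.antisymm hBD
      have hblock : ∀ g : ↥R, ∀ x ∈ B, g * x * g⁻¹ ∈ B → ∀ y ∈ B, g * y * g⁻¹ ∈ B := by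
        intro g x hx hgx y hy
        rcases hblk g with h | h
        · rw [← h]; exact ⟨y, hy, rfl⟩
        · exact absurd hgx (Set.disjoint_left.1 h ⟨x, hx, rfl⟩)
      obtain ⟨P, hP⟩ : ∃ P : (Fin n → ZMod 3) → Prop,
          P = fun w => ∃ h : reflO' Q w ∈ R, (⟨reflO' Q w, h⟩ : ↥R) ∈ B := ⟨_, rfl⟩
      have hP3 : ∀ u v x, Q u = c → Q v = c → Q x = c → P u → P v →
          QuadraticMap.polar (⇑Q) u x = 0 → QuadraticMap.polar (⇑Q) v x ≠ 0 → P x := by
        rw [hP]
        rintro u v x hu hv hx ⟨hu1, hu2⟩ ⟨hv1, hv2⟩ hux hvx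
        have hx1 := hmemR x hx
        have hx0 : Q x ≠ 0 := by rw [hx]; exact hc
        refine ⟨hx1, ?_⟩
        have e1 : (⟨reflO' Q x, hx1⟩ : ↥R) * ⟨reflO' Q u, hu1⟩ * (⟨reflO' Q x, hx1⟩ : ↥R)⁻¹
            = ⟨reflO' Q u, hu1⟩ := by
          apply Subtype.ext
          simp only [Subgroup.coe_mul, InvMemClass.coe_inv]
          rw [r_inv]
          exact r_commute Q hx0 (by rw [QuadraticMap.polar_comm]; exact hux)
        have h1 := hblock ⟨reflO' Q x, hx1⟩ _ hu2 (by rw [e1]; exact hu2) _ hv2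
        have h2 := hblock ⟨reflO' Q v, hv1⟩ _ hv2 (by rw [mul_inv_cancel_right]; exact hv2) _ h1
        have e2 : (⟨reflO' Q v, hv1⟩ : ↥R) * ((⟨reflO' Q x, hx1⟩ : ↥R) * ⟨reflO' Q v, hv1⟩ *
            (⟨reflO' Q x, hx1⟩ : ↥R)⁻¹) * (⟨reflO' Q v, hv1⟩ : ↥R)⁻¹ = ⟨reflO' Q x, hx1⟩ := by
          apply Subtype.ext
          simp only [Subgroup.coe_mul, InvMemClass.coe_inv]
          rw [r_inv, r_inv, r_braid Q hx0 (hx.trans hv.symm)
            (by rw [QuadraticMap.polar_comm]; exact hvx)]
          calc reflO' Q v * (reflO' Q v * reflO' Q x * reflO' Q v) * reflO' Q v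
              = (reflO' Q v * reflO' Q v) * reflO' Q x * (reflO' Q v * reflO' Q v) := by
                simp only [mul_assoc]
            _ = reflO' Q x := by rw [r_mul_self, one_mul, mul_one]
        rw [e2] at h2
        exact h2
      obtain ⟨u, hu, hau⟩ := (mem_reflectionsOfNorm Q hc _).1 (hBD ha)
      obtain ⟨v, hv, hbv⟩ := (mem_reflectionsOfNorm Q hc _).1 (hBD hb)
      have hPu : P u := by
        rw [hP]
        refine ⟨hmemR u hu, ?_⟩
        have : (⟨reflO' Q u, hmemR u hu⟩ : ↥R) = a := Subtype.ext hau.symm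
        rw [this]; exact ha
      have hPv : P v := by
        rw [hP]
        refine ⟨hmemR v hv, ?_⟩
        have : (⟨reflO' Q v, hmemR v hv⟩ : ↥R) = b := Subtype.ext hbv.symm
        rw [this]; exact hb
      have hall := block_core Q hn hQ hc P hP3 hu hv hPu hPv (by
        rw [← hau, ← hbv]
        exact fun h => hab (Subtype.ext h))
      intro g hg
      obtain ⟨w, hw, hgw⟩ := (mem_reflectionsOfNorm Q hc _).1 hg
      have hPw := hall w hw
      rw [hP] at hPw
      obtain ⟨h1, h2⟩ := hPw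
      have : (⟨reflO' Q w, h1⟩ : ↥R) = g := Subtype.ext hgw.symm
      rw [← this]; exact h2

end Cfsg.Agent.S5360
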