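import Cfsg.Statements.S5363
-- import your own Cfsg.Agent.* helpers here

set_option autoImplicit false
open Cfsg

namespace Cfsg.Agent.S5363

/-- Let D be a conjugation-invariant set of involutions of a finite group G. Then every product of two members of D has odd order or order 2 if and only if, for every a in D and every b in D different from a and commuting with a, the members of D commuting with a b are exactly those commuting with both a and b. -/
theorem result {G : Type*} [Group G] [Finite G] {D : Set G} (hinv : ∀ d ∈ D, orderOf d = 2) (hconj : ∀ g : G, ∀ d ∈ D, g * d * g⁻¹ ∈ D) : (∀ a ∈ D, ∀ b ∈ D, Odd (orderOf (a * b)) ∨ orderOf (a * b) = 2) ↔ ∀ a ∈ D, ∀ b ∈ D, b ≠ a → Commute a b → {y : G | y ∈ D ∧ Commute (a * b) y} = {y : G | y ∈ D ∧ Commute a y} ∩ {y : G | y ∈ D ∧ Commute b y} := by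
  have hsq : ∀ d ∈ D, d * d = 1 := fun d hd => by
    have := pow_orderOf_eq_one d
    rw [hinv d hd, pow_two] at this
    exact this
  have hinv' : ∀ d ∈ D, d⁻¹ = d := fun d hd => inv_eq_of_mul_eq_one_left (hsq d hd)
  constructor
  · intro h a ha b hb hba hab
    ext y
    simp only [Set.mem_ofPred_eq, Set.mem_inter_iff]
    constructor
    · rintro ⟨hy, hc⟩
      have key : Commute a y := by
        rcases h a ha y hy with hodd | h2
        · have ht2 : orderOf (a * b) = 2 := by
            apply orderOf_eq_prime
            · rw [pow_two]
              calc a * b * (a * b) = a * (b * a) * b := by group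
                _ = a * (a * b) * b := by rw [hab.eq]
                _ = (a * a) * (b * b) := by group
                _ = 1 := by rw [hsq a ha, hsq b hb, one_mul]
            · intro h1
              apply hba
              have : b = a⁻¹ := eq_inv_of_mul_eq_one_right h1
              rw [this, hinv' a ha]
          have hta : Commute (a * b) a := (Commute.refl a).mul_left hab.symm
          have hcomm : Commute (a * b) (a * y) := hta.mul_right hc
          have hby : b * y = (a * b) * (a * y) := by
            calc b * y = (a * a) * b * y := by rw [hsq a ha, one_mul]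
              _ = a * (a * b) * y := by group
              _ = (a * b) * a * y := by rw [hta.eq]
              _ = (a * b) * (a * y) := by group
          have hcop : Nat.Coprime (orderOf (a * b)) (orderOf (a * y)) := by
            rw [ht2]
            exact (Nat.coprime_two_left).mpr hodd
          have hord := hcomm.orderOf_mul_eq_mul_orderOf_of_coprime hcop
          rw [← hby, ht2] at hord
          rcases h b hb y hy with hodd2 | h22
          · rw [hord] at hodd2
            exact absurd hodd2 (by simp)
          · rw [hord] at h22
            have h1 : orderOf (a * y) = 1 := by omega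
            rw [orderOf_eq_one_iff] at h1
            have : y = a⁻¹ := eq_inv_of_mul_eq_one_right h1
            rw [this]
            exact (Commute.refl a).inv_right
        · have h3 : (a * y) * (a * y) = 1 := by
            have := pow_orderOf_eq_one (a * y)
            rw [h2, pow_two] at this
            exact this
          show a * y = y * a
          calc a * y = a * y * ((a * y) * (y * a)) := by
                have : (a * y) * (y * a) = 1 := by
                  calc (a * y) * (y * a) = a * (y * y) * a := by group
                    _ = 1 := by rw [hsq y hy, mul_one, hsq a ha]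
                rw [this, mul_one]
            _ = ((a * y) * (a * y)) * (y * a) := by group
            _ = y * a := by rw [h3, one_mul]
      refine ⟨⟨hy, key⟩, hy, ?_⟩
      have hb' : b = a * (a * b) := by rw [← mul_assoc, hsq a ha, one_mul]
      rw [hb']
      exact key.mul_left hc
    · rintro ⟨⟨hy, h1⟩, _, h2⟩
      exact ⟨hy, h1.mul_left h2⟩
  · intro h a ha b hb
    by_cases hodd : Odd (orderOf (a * b))
    · exact Or.inl hodd
    · right
      rw [Nat.not_odd_iff_even] at hodd
      obtain ⟨k, hk⟩ := hodd
      obtain ⟨x, hx⟩ : ∃ x, x = a * b := ⟨_, rfl⟩
      rw [← hx] at hk ⊢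
      have hxpos : 0 < orderOf x := orderOf_pos x
      have hkpos : 0 < k := by omega
      have hax : ∀ j : ℕ, a * x ^ j = (x ^ j)⁻¹ * a := by
        intro j
        induction j with
        | zero => simp
        | succ j ih =>
          have h1 : a * x = x⁻¹ * a := by
            rw [hx, mul_inv_rev, hinv' a ha, hinv' b hb]
            calc a * (a * b) = (a * a) * b := by group
              _ = b * (a * a) := by rw [hsq a ha, one_mul, mul_one]
              _ = b * a * a := by group
          calc a * x ^ (j + 1) = (a * x ^ j) * x := by rw [pow_succ]; group
            _ = (x ^ j)⁻¹ * (a * x) := by rw [ih]; group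
            _ = (x ^ j)⁻¹ * (x⁻¹ * a) := by rw [h1]
            _ = (x ^ (j + 1))⁻¹ * a := by rw [pow_succ', mul_inv_rev]; group
      have hbx : ∀ j : ℕ, b * x ^ j = (x ^ j)⁻¹ * b := by
        intro j
        induction j with
        | zero => simp
        | succ j ih =>
          have h1 : b * x = x⁻¹ * b := by
            rw [hx, mul_inv_rev, hinv' a ha, hinv' b hb]
            group
          calc b * x ^ (j + 1) = (b * x ^ j) * x := by rw [pow_succ]; group
            _ = (x ^ j)⁻¹ * (b * x) := by rw [ih]; group
            _ = (x ^ j)⁻¹ * (x⁻¹ * b) := by rw [h1]
            _ = (x ^ (j + 1))⁻¹ * b := by rw [pow_succ', mul_inv_rev]; group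
      have hzz : x ^ k * x ^ k = 1 := by
        rw [← pow_add, ← hk]
        exact pow_orderOf_eq_one x
      have hzinv : (x ^ k)⁻¹ = x ^ k := inv_eq_of_mul_eq_one_left hzz
      have hz1 : x ^ k ≠ 1 := by
        intro h1
        have := orderOf_le_of_pow_eq_one hkpos h1
        omega
      have hca : Commute a (x ^ k) := by
        show a * x ^ k = x ^ k * a
        rw [hax k, hzinv]
      have hcb : Commute b (x ^ k) := by
        show b * x ^ k = x ^ k * b
        rw [hbx k, hzinv]
      have hcD : a * x ^ k ∈ D := by
        rcases Nat.even_or_odd' k with ⟨j, hj | hj⟩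
        · have : a * x ^ k = (x ^ j)⁻¹ * a * ((x ^ j)⁻¹)⁻¹ := by
            rw [inv_inv, ← hax j, hj, two_mul, pow_add]
            group
          rw [this]
          exact hconj _ a ha
        · have : a * x ^ k = (x ^ j)⁻¹ * b * ((x ^ j)⁻¹)⁻¹ := by
            rw [inv_inv, ← hbx j, hj, pow_succ', two_mul, pow_add]
            have : a * x = b := by rw [hx, ← mul_assoc, hsq a ha, one_mul]
            calc a * (x * (x ^ j * x ^ j)) = (a * x) * (x ^ j * x ^ j) := by group
              _ = b * x ^ j * x ^ j := by rw [this]; group
          rw [this]
          exact hconj _ b hb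
      have hcne : a * x ^ k ≠ a := by
        intro h1
        exact hz1 (mul_left_cancel (h1.trans (mul_one a).symm))
      have hcc : Commute a (a * x ^ k) := (Commute.refl a).mul_right hca
      have hset := h a ha (a * x ^ k) hcD hcne hcc
      have hbmem : b ∈ {y : G | y ∈ D ∧ Commute (a * (a * x ^ k)) y} := by
        refine ⟨hb, ?_⟩
        have : a * (a * x ^ k) = x ^ k := by rw [← mul_assoc, hsq a ha, one_mul]
        rw [this]
        exact hcb.symm
      rw [hset] at hbmem
      have hab : Commute a b := hbmem.1.2
      have hx2 : x ^ 2 = 1 := by
        rw [pow_two, hx]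
        calc a * b * (a * b) = a * (b * a) * b := by group
          _ = a * (a * b) * b := by rw [hab.eq]
          _ = (a * a) * (b * b) := by group
          _ = 1 := by rw [hsq a ha, hsq b hb, one_mul]
      have hdvd := orderOf_dvd_of_pow_eq_one hx2
      have := Nat.le_of_dvd (by norm_num) hdvd
      omega

end Cfsg.Agent.S5363
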