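import Cfsg.Statements.S5364
-- import your own Cfsg.Agent.* helpers here

set_option autoImplicit false
open Cfsg

namespace Cfsg.Agent.S5364

/-- Let D be a conjugation-invariant set of involutions of a finite group G and t an involution in the centre of G such that d t does not lie in D for any d in D. If the images of the members of D in G modulo the subgroup generated by t satisfy the 3-transposition order conditions (each has order 2 and any two have product of order at most 3), then so do the members of D. -/
theorem result {G : Type*} [Group G] [Finite G] {D : Set G} (hinv : ∀ d ∈ D, orderOf d = 2) (hconj : ∀ g : G, ∀ d ∈ D, g * d * g⁻¹ ∈ D) (t : G) (ht : orderOf t = 2) (htZ : t ∈ Subgroup.center G) (hDt : ∀ d ∈ D, d * t ∉ D) [(Subgroup.zpowers t).Normal] (himg : Cfsg.IsThreeTranspositionSet ((QuotientGroup.mk : G → G ⧸ Subgroup.zpowers t) '' D)) : Cfsg.IsThreeTranspositionSet D := by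
  have hsq : ∀ d ∈ D, d * d = 1 := fun d hd => by
    have := pow_orderOf_eq_one d
    rw [hinv d hd, pow_two] at this
    exact this
  have hinv' : ∀ d ∈ D, d⁻¹ = d := fun d hd => inv_eq_of_mul_eq_one_left (hsq d hd)
  have htt : t * t = 1 := by
    have := pow_orderOf_eq_one t
    rw [ht, pow_two] at this
    exact this
  have hmem : ∀ x : G, x ∈ Subgroup.zpowers t → x = 1 ∨ x = t := by
    intro x hx
    obtain ⟨k, rfl⟩ := Subgroup.mem_zpowers_iff.mp hx
    have h2 : t ^ (2 : ℤ) = 1 := by
      rw [show (2 : ℤ) = ((2 : ℕ) : ℤ) from rfl, zpow_natCast, pow_two, htt]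
    rcases Int.even_or_odd' k with ⟨j, hj | hj⟩
    · left
      rw [hj, zpow_mul, h2, one_zpow]
    · right
      rw [hj, zpow_add, zpow_mul, h2, one_zpow, one_mul, zpow_one]
  refine ⟨hinv, ?_⟩
  intro d hd e he
  have hq := himg.2 (QuotientGroup.mk d) ⟨d, hd, rfl⟩ (QuotientGroup.mk e) ⟨e, he, rfl⟩
  rcases hq with hq | hq
  · have h1 : ((d * e) ^ 2 : G) ∈ Subgroup.zpowers t := by
      rw [← QuotientGroup.eq_one_iff]
      exact hq
    rcases hmem _ h1 with h1 | h1
    · exact Or.inl h1
    · exfalso
      apply hDt e he
      have : e * t = d * e * d⁻¹ := by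
        rw [← h1, pow_two, hinv' d hd]
        calc e * (d * e * (d * e)) = e * d * e * d * e := by group
          _ = (d * d) * (e * d * e * d * e) := by rw [hsq d hd, one_mul]
          _ = d * ((d * e) ^ 2 * (d * e)) := by rw [pow_two]; group
          _ = d * ((d * e) * (d * e) ^ 2) := by rw [pow_two]; group
          _ = d * ((d * e) * t) := by rw [h1]
          _ = d * (t * (d * e)) := by rw [(Subgroup.mem_center_iff.mp htZ (d * e))]
          _ = d * ((d * e) ^ 2 * (d * e)) := by rw [h1]
          _ = (d * d) * e * d * e * d * e := by rw [pow_two]; group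
          _ = e * d * e * d * e := by rw [hsq d hd]; group
          _ = e * d * e * d * e * (d * d) := by rw [hsq d hd, mul_one]
          _ = e * ((d * e) ^ 2 * d) * d := by rw [pow_two]; group
          _ = e * (t * d) * d := by rw [h1]
          _ = e * (d * t) * d := by rw [(Subgroup.mem_center_iff.mp htZ d)]
          _ = e * d * (d * e) ^ 2 * d := by rw [h1]; group
          _ = e * (d * d) * e * d * e * d := by rw [pow_two]; group
          _ = (e * e) * d * e * d := by rw [hsq d hd]; group
          _ = d * e * d := by rw [hsq e he]; group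
      rw [this]
      exact hconj d e he
  · have h1 : ((d * e) ^ 3 : G) ∈ Subgroup.zpowers t := by
      rw [← QuotientGroup.eq_one_iff]
      exact hq
    rcases hmem _ h1 with h1 | h1
    · exact Or.inr h1
    · exfalso
      apply hDt e he
      have : e * t = d * (e * d * e⁻¹) * d⁻¹ := by
        rw [hinv' d hd, hinv' e he]
        have h2 : t = d * e * d * e * d * e := by
          rw [← h1, pow_succ, pow_two]; group
        calc e * t = t * e := by rw [(Subgroup.mem_center_iff.mp htZ e)]
          _ = d * e * d * e * d * (e * e) := by rw [h2]; group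
          _ = d * (e * d * e) * d := by rw [hsq e he]; group
      rw [this]
      exact hconj d _ (hconj e d hd)

end Cfsg.Agent.S5364
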