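import Cfsg.Statements.S5366

set_option autoImplicit false
open Cfsg

namespace Cfsg.Agent.S5366

open Cfsg.LineSystem

section general
variable {X : Type*} {Y : Type*}

/-- `{x,y,z}` is a line with three different points. -/
def Tri (L : Set (Set X)) (x y z : X) : Prop :=
  z ≠ x ∧ z ≠ y ∧ x ≠ y ∧ ({x, y, z} : Set X) ∈ L

theorem lineMap_spec {L : Set (Set X)} {x y : X} (h : ∃ z, Tri L x y z) :
    Tri L x y (lineMap L x y) := by
  have h' : ∃ z : X, z ≠ x ∧ z ≠ y ∧ x ≠ y ∧ ({x, y, z} : Set X) ∈ L := h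
  unfold lineMap
  rw [dif_pos h']
  exact h'.choose_spec

theorem lineMap_of_not {L : Set (Set X)} {x y : X} (h : ¬ ∃ z, Tri L x y z) :
    lineMap L x y = y := by
  unfold lineMap
  exact dif_neg h

theorem tri_unique {L : Set (Set X)} (hP : IsPartialLinear L) {x y z z' : X}
    (h : Tri L x y z) (h' : Tri L x y z') : z = z' := by
  have e := hP _ h.2.2.2 _ h'.2.2.2 x y h.2.2.1 (by simp) (by simp) (by simp) (by simp)
  have hz : z ∈ ({x, y, z'} : Set X) := e ▸ (by simp)
  simp only [Set.mem_insert_iff, Set.mem_singleton_iff] at hz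
  rcases hz with hz | hz | hz
  · exact absurd hz h.1
  · exact absurd hz h.2.1
  · exact hz

theorem lineMap_of_tri {L : Set (Set X)} (hP : IsPartialLinear L) {x y z : X}
    (h : Tri L x y z) : lineMap L x y = z :=
  tri_unique hP (lineMap_spec ⟨z, h⟩) h

theorem tri_swap {L : Set (Set X)} {x y z : X} (h : Tri L x y z) : Tri L x z y := by
  refine ⟨h.2.2.1.symm, h.2.1.symm, h.1.symm, ?_⟩
  have : ({x, z, y} : Set X) = {x, y, z} := by rw [Set.pair_comm z y]
  rw [this]; exact h.2.2.2

theorem tri_swap' {L : Set (Set X)} {x y z : X} (h : Tri L x y z) : Tri L y x z := by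
  refine ⟨h.2.1, h.1, h.2.2.1.symm, ?_⟩
  have : ({y, x, z} : Set X) = {x, y, z} := Set.insert_comm y x {z}
  rw [this]; exact h.2.2.2

theorem lineMap_self {L : Set (Set X)} (x : X) : lineMap L x x = x :=
  lineMap_of_not (fun ⟨_, h⟩ => h.2.2.1 rfl)

theorem lineMap_invol {L : Set (Set X)} (hP : IsPartialLinear L) (x y : X) :
    lineMap L x (lineMap L x y) = y := by
  by_cases h : ∃ z, Tri L x y z
  · obtain ⟨z, hz⟩ := h
    rw [lineMap_of_tri hP hz, lineMap_of_tri hP (tri_swap hz)]
  · rw [lineMap_of_not h, lineMap_of_not h]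

/-- every line through `x` is a triangle at `x`. -/
theorem exists_tri {L : Set (Set X)} (h3 : ∀ l ∈ L, l.ncard = 3) {l : Set X} (hl : l ∈ L) {x : X}
    (hx : x ∈ l) : ∃ y z, Tri L x y z ∧ l = {x, y, z} := by
  obtain ⟨a, b, c, hab, hac, hbc, rfl⟩ := Set.ncard_eq_three.1 (h3 l hl)
  simp only [Set.mem_insert_iff, Set.mem_singleton_iff] at hx
  have T : Tri L a b c := ⟨hac.symm, hbc.symm, hab, hl⟩
  rcases hx with rfl | rfl | rfl
  · exact ⟨b, c, T, rfl⟩
  · exact ⟨a, c, tri_swap' T, Set.insert_comm _ _ _⟩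
  · refine ⟨b, a, tri_swap' (tri_swap (tri_swap' T)), ?_⟩
    ext w; simp only [Set.mem_insert_iff, Set.mem_singleton_iff]; tauto

theorem tri_iso {L : Set (Set X)} {M : Set (Set Y)} {e : X ≃ Y} (he : IsIso L M e) (x y z : X) :
    Tri L x y z ↔ Tri M (e x) (e y) (e z) := by
  unfold Tri
  rw [he {x, y, z}, Set.image_insert_eq, Set.image_pair]
  simp only [ne_eq, EmbeddingLike.apply_eq_iff_eq]

theorem lineMap_iso {L : Set (Set X)} {M : Set (Set Y)} {e : X ≃ Y} (hP : IsPartialLinear L)
    (he : IsIso L M e) (x y : X) : e (lineMap L x y) = lineMap M (e x) (e y) := by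
  by_cases h : ∃ z, Tri L x y z
  · obtain ⟨z, hz⟩ := h
    have h2 := lineMap_spec ⟨e z, (tri_iso he x y z).1 hz⟩
    obtain ⟨w, hw⟩ := e.surjective (lineMap M (e x) (e y))
    rw [← hw] at h2 ⊢
    rw [lineMap_of_tri hP ((tri_iso he x y w).2 h2)]
  · rw [lineMap_of_not h, lineMap_of_not]
    rintro ⟨w, hw⟩
    obtain ⟨z, rfl⟩ := e.surjective w
    exact h ⟨z, (tri_iso he x y z).2 hw⟩

/-- the maps `t(x)` send lines to lines. -/
def Good (L : Set (Set X)) : Prop := ∀ x, ∀ l ∈ L, lineMap L x '' l ∈ L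

theorem good_iso {L : Set (Set X)} {M : Set (Set Y)} {e : X ≃ Y} (hP : IsPartialLinear L)
    (he : IsIso L M e) (hM : Good M) : Good L := by
  intro x l hl
  rw [he]
  have := hM (e x) _ ((he l).1 hl)
  convert this using 1
  rw [Set.image_image, Set.image_image]
  exact Set.image_congr (fun y _ => lineMap_iso hP he x y)

theorem partialLinear_restrict {L : Set (Set X)} (hP : IsPartialLinear L) (S : Set X) :
    IsPartialLinear (restrict L S) := by
  rintro _ ⟨l, hl, _, rfl⟩ _ ⟨m, hm, _, rfl⟩ x y hxy hx hy hx' hy'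
  have : l = m := hP l hl m hm x y (fun h => hxy (Subtype.ext h)) hx hy hx' hy'
  rw [this]

theorem tri_restrict {L : Set (Set X)} {S : Set X} (x y z : S) :
    Tri (restrict L S) x y z ↔ Tri L x y z := by
  unfold Tri
  have hne : ∀ a b : S, a ≠ b ↔ (a : X) ≠ b := fun a b => by
    rw [ne_eq, ne_eq, Subtype.ext_iff]
  rw [hne, hne, hne]
  refine and_congr_right fun _ => and_congr_right fun _ => and_congr_right fun _ => ?_
  constructor
  · rintro ⟨l, hl, hlS, h⟩
    have : l = {(x : X), (y : X), (z : X)} := by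
      ext w
      constructor
      · intro hw
        have : (⟨w, hlS hw⟩ : S) ∈ ({x, y, z} : Set S) := by rw [h]; exact hw
        simp only [Set.mem_insert_iff, Set.mem_singleton_iff] at this ⊢
        rcases this with h | h | h
        · left; exact congrArg Subtype.val h
        · right; left; exact congrArg Subtype.val h
        · right; right; exact congrArg Subtype.val h
      · intro hw
        have hx : x ∈ {w : S | (w : X) ∈ l} := h ▸ (by simp)
        have hy : y ∈ {w : S | (w : X) ∈ l} := h ▸ (by simp)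
        have hz : z ∈ {w : S | (w : X) ∈ l} := h ▸ (by simp)
        simp only [Set.mem_insert_iff, Set.mem_singleton_iff] at hw
        rcases hw with rfl | rfl | rfl
        · exact hx
        · exact hy
        · exact hz
    rw [← this]; exact hl
  · intro h
    refine ⟨_, h, ?_, ?_⟩
    · intro w hw
      simp only [Set.mem_insert_iff, Set.mem_singleton_iff] at hw
      rcases hw with rfl | rfl | rfl
      · exact x.2
      · exact y.2
      · exact z.2
    · ext w
      simp only [Set.mem_insert_iff, Set.mem_singleton_iff, Set.mem_ofPred_eq, Subtype.ext_iff]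

theorem lineMap_restrict {L : Set (Set X)} (hP : IsPartialLinear L) {S : Set X}
    (hS : IsSubspace L S) (x y : S) :
    ((lineMap (restrict L S) x y : S) : X) = lineMap L x y := by
  by_cases h : ∃ z, Tri L x y z
  · obtain ⟨z, hz⟩ := h
    have hzS : z ∈ S := hS _ hz.2.2.2 x x.2 y y.2 hz.2.2.1 (by simp) (by simp) (by simp)
    have h2 : Tri (restrict L S) x y ⟨z, hzS⟩ := (tri_restrict x y ⟨z, hzS⟩).2 hz
    rw [lineMap_of_tri hP hz, lineMap_of_tri (partialLinear_restrict hP S) h2]
  · rw [lineMap_of_not h, lineMap_of_not]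
    rintro ⟨w, hw⟩
    exact h ⟨w, (tri_restrict x y w).1 hw⟩

theorem isSubspace_span (L : Set (Set X)) (S : Set X) : IsSubspace L (span L S) := by
  intro l hl x hx y hy hxy hxl hyl w hw T hT
  exact hT.2 l hl x (hx T hT) y (hy T hT) hxy hxl hyl hw

theorem subset_span (L : Set (Set X)) (S : Set X) : S ⊆ span L S := by
  intro x hx T hT
  exact hT.1 hx

theorem good_restrict {L : Set (Set X)} (hP : IsPartialLinear L) {S : Set X}
    (hS : IsSubspace L S) (hG : Good (restrict L S)) {x : X} (hx : x ∈ S) {l : Set X} (hl : l ∈ L)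
    (hlS : l ⊆ S) : lineMap L x '' l ∈ L := by
  obtain ⟨l', hl', hl'S, h⟩ := hG ⟨x, hx⟩ {w : S | (w : X) ∈ l} ⟨l, hl, hlS, rfl⟩
  have : lineMap L x '' l = l' := by
    ext w
    constructor
    · rintro ⟨y, hy, rfl⟩
      have : lineMap (restrict L S) ⟨x, hx⟩ ⟨y, hlS hy⟩ ∈ {w : S | (w : X) ∈ l'} := by
        rw [← h]; exact ⟨⟨y, hlS hy⟩, hy, rfl⟩
      have h2 := lineMap_restrict hP hS ⟨x, hx⟩ ⟨y, hlS hy⟩
      rw [← h2]; exact this
    · intro hw
      have : (⟨w, hl'S hw⟩ : S) ∈ lineMap (restrict L S) ⟨x, hx⟩ '' {w : S | (w : X) ∈ l} := by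
        rw [h]; exact hw
      obtain ⟨y, hy, hyw⟩ := this
      refine ⟨y, hy, ?_⟩
      rw [← lineMap_restrict hP hS ⟨x, hx⟩ y, hyw]
  rw [this]; exact hl'

end general

section dual

def TD' (i : Fin 4) (x y z : DualAffinePoint) : Prop :=
  z ≠ x ∧ z ≠ y ∧ x ≠ y ∧ i ∉ x.val ∧ i ∉ y.val ∧ i ∉ z.val

instance (i : Fin 4) (x y z : DualAffinePoint) : Decidable (TD' i x y z) := by
  unfold TD'; infer_instance

def TD (x y z : DualAffinePoint) : Prop := ∃ i : Fin 4, TD' i x y z

instance (x y z : DualAffinePoint) : Decidable (TD x y z) := by unfold TD; infer_instance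

def RD (x y z : DualAffinePoint) : Prop := TD x y z ∨ (z = y ∧ ∀ z', ¬ TD x y z')

instance (x y z : DualAffinePoint) : Decidable (RD x y z) := by unfold RD; infer_instance

theorem lemA : ∀ (i : Fin 4) (x y z s : DualAffinePoint), TD' i x y z → i ∉ s.val →
    s = x ∨ s = y ∨ s = z := by
  decide +kernel

theorem lemC : ∀ (x y z z' : DualAffinePoint), TD x y z → TD x y z' → z = z' := by
  decide +kernel

theorem lemB : ∀ (x : DualAffinePoint) (i : Fin 4), ∃ j : Fin 4, ∀ z : DualAffinePoint,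
    j ∉ z.val ↔ ∃ y : DualAffinePoint, i ∉ y.val ∧ RD x y z := by
  decide +kernel

theorem tri_dual (x y z : DualAffinePoint) : Tri dualAffinePlaneTwo x y z ↔ TD x y z := by
  constructor
  · rintro ⟨h1, h2, h3, i, h⟩
    have hx : x ∈ {s : DualAffinePoint | i ∉ s.val} := h ▸ (by simp)
    have hy : y ∈ {s : DualAffinePoint | i ∉ s.val} := h ▸ (by simp)
    have hz : z ∈ {s : DualAffinePoint | i ∉ s.val} := h ▸ (by simp)
    exact ⟨i, h1, h2, h3, hx, hy, hz⟩
  · rintro ⟨i, h⟩
    refine ⟨h.1, h.2.1, h.2.2.1, i, ?_⟩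
    ext s
    constructor
    · intro hs
      simp only [Set.mem_insert_iff, Set.mem_singleton_iff] at hs
      rcases hs with rfl | rfl | rfl
      · exact h.2.2.2.1
      · exact h.2.2.2.2.1
      · exact h.2.2.2.2.2
    · intro hs
      simp only [Set.mem_insert_iff, Set.mem_singleton_iff]
      exact lemA i x y z s h hs

theorem lineMap_dual (x y z : DualAffinePoint) :
    lineMap dualAffinePlaneTwo x y = z ↔ RD x y z := by
  constructor
  · rintro rfl
    by_cases h : ∃ z, Tri dualAffinePlaneTwo x y z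
    · left; exact (tri_dual _ _ _).1 (lineMap_spec h)
    · right
      refine ⟨lineMap_of_not h, fun z' hz' => h ⟨z', (tri_dual _ _ _).2 hz'⟩⟩
  · rintro (h | ⟨rfl, h⟩)
    · exact lemC _ _ _ _ ((tri_dual _ _ _).1 (lineMap_spec ⟨z, (tri_dual _ _ _).2 h⟩)) h
    · exact lineMap_of_not (fun ⟨z', hz'⟩ => h z' ((tri_dual _ _ _).1 hz'))

theorem good_dual : Good dualAffinePlaneTwo := by
  rintro x _ ⟨i, rfl⟩
  obtain ⟨j, hj⟩ := lemB x i
  refine ⟨j, ?_⟩
  ext z
  rw [Set.mem_ofPred_eq, hj z]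
  constructor
  · rintro ⟨y, hy, h⟩
    exact ⟨y, hy, (lineMap_dual x y z).1 h⟩
  · rintro ⟨y, hy, h⟩
    exact ⟨y, hy, (lineMap_dual x y z).2 h⟩

end dual

section affine

theorem three_zero : (3 : ZMod 3) = 0 := by decide

theorem tri_affine {x y z : Fin 2 → ZMod 3} (h : Tri affinePlaneThree x y z) : z = -x - y := by
  obtain ⟨h1, h2, h3, v, w, hw, h⟩ := h
  have hx : x ∈ {p : Fin 2 → ZMod 3 | ∃ c : ZMod 3, p = v + c • w} := h ▸ (by simp)
  have hy : y ∈ {p : Fin 2 → ZMod 3 | ∃ c : ZMod 3, p = v + c • w} := h ▸ (by simp)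
  have hz : z ∈ {p : Fin 2 → ZMod 3 | ∃ c : ZMod 3, p = v + c • w} := h ▸ (by simp)
  obtain ⟨c1, rfl⟩ := hx
  obtain ⟨c2, rfl⟩ := hy
  obtain ⟨c3, rfl⟩ := hz
  have k1 : c3 ≠ c1 := fun e => h1 (by rw [e])
  have k2 : c3 ≠ c2 := fun e => h2 (by rw [e])
  have k3 : c1 ≠ c2 := fun e => h3 (by rw [e])
  have key : ∀ c1 c2 c3 : ZMod 3, c3 ≠ c1 → c3 ≠ c2 → c1 ≠ c2 → c3 = -c1 - c2 := by decide
  rw [key c1 c2 c3 k1 k2 k3]
  funext i
  simp only [Pi.add_apply, Pi.smul_apply, smul_eq_mul, Pi.sub_apply, Pi.neg_apply]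
  linear_combination (v i) * three_zero

theorem tri_affine_exists {x y : Fin 2 → ZMod 3} (hxy : x ≠ y) :
    Tri affinePlaneThree x y (-x - y) := by
  have key : ∀ a b : ZMod 3, -a - b = a → a = b := by decide
  have key' : ∀ a b : ZMod 3, -a - b = b → a = b := by decide
  refine ⟨fun e => hxy ?_, fun e => hxy ?_, hxy, x, y - x, sub_ne_zero.2 hxy.symm, ?_⟩
  · funext i; exact key _ _ (congrFun e i)
  · funext i; exact key' _ _ (congrFun e i)
  · ext p
    simp only [Set.mem_insert_iff, Set.mem_singleton_iff, Set.mem_ofPred_eq]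
    constructor
    · rintro (rfl | rfl | rfl)
      · exact ⟨0, by simp⟩
      · exact ⟨1, by simp⟩
      · refine ⟨2, ?_⟩
        funext i
        simp only [Pi.add_apply, Pi.smul_apply, smul_eq_mul, Pi.sub_apply, Pi.neg_apply]
        linear_combination (-(y i)) * three_zero
    · rintro ⟨c, rfl⟩
      have hc : ∀ c : ZMod 3, c = 0 ∨ c = 1 ∨ c = 2 := by decide
      rcases hc c with rfl | rfl | rfl
      · left; simp
      · right; left; simp
      · right; right
        funext i
        simp only [Pi.add_apply, Pi.smul_apply, smul_eq_mul, Pi.sub_apply, Pi.neg_apply]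
        linear_combination (y i) * three_zero

theorem lineMap_affine (x y : Fin 2 → ZMod 3) : lineMap affinePlaneThree x y = -x - y := by
  by_cases hxy : x = y
  · subst hxy
    rw [lineMap_self]
    funext i
    simp only [Pi.sub_apply, Pi.neg_apply]
    linear_combination (x i) * three_zero
  · exact tri_affine (lineMap_spec ⟨_, tri_affine_exists hxy⟩)

theorem good_affine : Good affinePlaneThree := by
  rintro x _ ⟨v, w, hw, rfl⟩
  refine ⟨-x - v, -w, neg_ne_zero.2 hw, ?_⟩
  ext p
  simp only [Set.mem_image, Set.mem_ofPred_eq, lineMap_affine]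
  constructor
  · rintro ⟨_, ⟨c, rfl⟩, rfl⟩
    refine ⟨c, ?_⟩
    rw [smul_neg]; abel
  · rintro ⟨c, rfl⟩
    refine ⟨_, ⟨c, rfl⟩, ?_⟩
    rw [smul_neg]; abel

end affine

section main
variable {X : Type*}

theorem image_line {L : Set (Set X)} (hL : IsFischerSpace L) (x : X) {l : Set X} (hl : l ∈ L) :
    lineMap L x '' l ∈ L := by
  obtain ⟨hP, h3, hpl⟩ := hL
  by_cases hx : x ∈ l
  · obtain ⟨y, z, hT, rfl⟩ := exists_tri h3 hl hx
    rw [Set.image_insert_eq, Set.image_pair, lineMap_self, lineMap_of_tri hP hT,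
      lineMap_of_tri hP (tri_swap hT)]
    exact (tri_swap hT).2.2.2
  · by_cases hc : ∃ a ∈ l, ∃ b, Tri L x a b
    · obtain ⟨a, ha, b, hT⟩ := hc
      have hne : l ≠ {x, a, b} := fun e => hx (e ▸ (by simp))
      have hS := isSubspace_span L (l ∪ {x, a, b})
      have hsub := subset_span L (l ∪ {x, a, b})
      have hG : Good (restrict L (span L (l ∪ {x, a, b}))) := by
        rcases hpl l hl _ hT.2.2.2 hne ⟨a, ha, by simp⟩ with ⟨e, he⟩ | ⟨e, he⟩
        · exact good_iso (partialLinear_restrict hP _) he good_dual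
        · exact good_iso (partialLinear_restrict hP _) he good_affine
      exact good_restrict hP hS hG (hsub (Or.inr (by simp))) hl
        (fun w hw => hsub (Or.inl hw))
    · have : lineMap L x '' l = l := by
        have : ∀ a ∈ l, lineMap L x a = a := fun a ha =>
          lineMap_of_not (fun ⟨b, hb⟩ => hc ⟨a, ha, b, hb⟩)
        ext w
        constructor
        · rintro ⟨a, ha, rfl⟩; rw [this a ha]; exact ha
        · intro hw; exact ⟨w, hw, this w hw⟩
      rw [this]; exact hl

/-- the permutation `t(x)`. -/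
noncomputable def tPerm {L : Set (Set X)} (hP : IsPartialLinear L) (x : X) : Equiv.Perm X :=
  ⟨lineMap L x, lineMap L x, lineMap_invol hP x, lineMap_invol hP x⟩

theorem tPerm_iso {L : Set (Set X)} (hL : IsFischerSpace L) (x : X) :
    IsIso L L (tPerm hL.1 x) := by
  intro l
  constructor
  · intro hl; exact image_line hL x hl
  · intro hl
    have := image_line hL x hl
    have e : lineMap L x '' (⇑(tPerm hL.1 x) '' l) = l := by
      rw [Set.image_image]
      have : ∀ y, lineMap L x ((tPerm hL.1 x) y) = y := fun y => lineMap_invol hL.1 x y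
      simp only [this, Set.image_id']
    rwa [e] at this

theorem tPerm_mul_self {L : Set (Set X)} (hP : IsPartialLinear L) (x : X) :
    tPerm hP x * tPerm hP x = 1 := by
  ext y; exact lineMap_invol hP x y

theorem tPerm_conj {L : Set (Set X)} (hL : IsFischerSpace L) (x y : X) :
    tPerm hL.1 x * tPerm hL.1 y * tPerm hL.1 x = tPerm hL.1 (lineMap L x y) := by
  ext w
  have h := lineMap_iso hL.1 (tPerm_iso hL x) y (lineMap L x w)
  have e : (tPerm hL.1 x) (lineMap L x w) = w := lineMap_invol hL.1 x w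
  rw [e] at h
  exact h

end main

theorem result {X : Type*} (L : Set (Set X)) (hL : Cfsg.IsFischerSpace L) (hnd : Cfsg.LineSystem.IsNondegenerate L) : (∀ x : X, ∃ σ : Equiv.Perm X, ⇑σ = Cfsg.LineSystem.lineMap L x ∧ orderOf σ = 2 ∧ Cfsg.LineSystem.IsIso L L σ) ∧ Cfsg.IsThreeTranspositionSet {σ : Equiv.Perm X | ∃ x : X, ⇑σ = Cfsg.LineSystem.lineMap L x} := by
  have hord : ∀ x : X, orderOf (tPerm hL.1 x) = 2 := by
    intro x
    refine orderOf_eq_prime (by rw [sq]; exact tPerm_mul_self hL.1 x) ?_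
    intro h1
    obtain ⟨l, hl, hx⟩ := hnd x
    obtain ⟨y, z, hT, -⟩ := exists_tri hL.2.1 hl hx
    have : (tPerm hL.1 x) y = z := lineMap_of_tri hL.1 hT
    rw [h1] at this
    exact hT.2.1 this.symm
  have heq : ∀ (σ : Equiv.Perm X) (x : X), ⇑σ = lineMap L x → σ = tPerm hL.1 x := by
    intro σ x h
    ext w
    exact congrFun h w
  refine ⟨fun x => ⟨tPerm hL.1 x, rfl, hord x, tPerm_iso hL x⟩, ?_, ?_⟩
  · rintro σ ⟨x, hx⟩
    rw [heq σ x hx]; exact hord x
  · rintro σ ⟨x, hx⟩ τ ⟨y, hy⟩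
    rw [heq σ x hx, heq τ y hy]
    have sx := tPerm_mul_self hL.1 x
    have sy := tPerm_mul_self hL.1 y
    by_cases h : ∃ z, Tri L x y z
    · obtain ⟨z, hz⟩ := h
      right
      have c1 := tPerm_conj hL x y
      have c2 := tPerm_conj hL y x
      rw [lineMap_of_tri hL.1 hz] at c1
      rw [lineMap_of_tri hL.1 (tri_swap' hz)] at c2
      have sz := tPerm_mul_self hL.1 z
      calc (tPerm hL.1 x * tPerm hL.1 y) ^ 3
          = (tPerm hL.1 x * tPerm hL.1 y * tPerm hL.1 x) *
            (tPerm hL.1 y * tPerm hL.1 x * tPerm hL.1 y) := by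
              simp only [pow_succ, pow_zero, one_mul, mul_assoc]
        _ = 1 := by rw [c1, c2, sz]
    · left
      have c1 := tPerm_conj hL x y
      rw [lineMap_of_not h] at c1
      calc (tPerm hL.1 x * tPerm hL.1 y) ^ 2
          = (tPerm hL.1 x * tPerm hL.1 y * tPerm hL.1 x) * tPerm hL.1 y := by
              simp only [pow_succ, pow_zero, one_mul, mul_assoc]
        _ = 1 := by rw [c1, sy]

end Cfsg.Agent.S5366
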