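import Cfsg.Statements.S5367
import Cfsg.Agent.Lib.Helper91Trans

set_option autoImplicit false
open Cfsg

namespace Cfsg.Agent.S5367

open Cfsg.LineSystem Cfsg.Agent.Lib.Helper91Trans

section embed
variable {X : Type*} {Y : Type*}

theorem isIso_symm {L : Set (Set X)} {M : Set (Set Y)} {e : X ≃ Y} (he : IsIso L M e) :
    IsIso M L e.symm := by
  intro m
  rw [he (e.symm '' m), Set.image_image]
  simp

theorem iso_of_embedding {L : Set (Set X)} {M : Set (Set Y)} (hP : IsPartialLinear L)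
    (h2 : ∀ k ∈ L, ∃ x ∈ k, ∃ x' ∈ k, x ≠ x')
    (f : Y → X) (hinj : Function.Injective f)
    (hline : ∀ m ∈ M, f '' m ∈ L)
    (hcol : ∀ y y', y ≠ y' → (∃ k ∈ L, f y ∈ k ∧ f y' ∈ k) → ∃ m ∈ M, y ∈ m ∧ y' ∈ m)
    (S : Set X) (S0 : Set Y) (hS : S ⊆ Set.range f) (hS0 : f '' S0 ⊆ S)
    (hgen : ∀ U : Set Y, IsSubspace M U → S0 ⊆ U → U = Set.univ) :
    Isomorphic (restrict L (span L S)) M := by
  -- lines inside the range
  have hk : ∀ k ∈ L, ∀ y y', y ≠ y' → f y ∈ k → f y' ∈ k → ∃ m ∈ M, k = f '' m := by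
    intro k hk y y' hyy hy hy'
    obtain ⟨m, hm, h1, h2⟩ := hcol y y' hyy ⟨k, hk, hy, hy'⟩
    exact ⟨m, hm, hP k hk _ (hline m hm) (f y) (f y') (fun h => hyy (hinj h)) hy hy'
      ⟨y, h1, rfl⟩ ⟨y', h2, rfl⟩⟩
  have hsub : IsSubspace L (Set.range f) := by
    rintro k hkL _ ⟨y, rfl⟩ _ ⟨y', rfl⟩ hne hy hy'
    obtain ⟨m, _, rfl⟩ := hk k hkL y y' (fun h => hne (by rw [h])) hy hy'
    exact Set.image_subset_range f m
  have hspan : span L S = Set.range f := by
    apply Set.Subset.antisymm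
    · exact Set.sInter_subset_of_mem ⟨hS, hsub⟩
    · rintro _ ⟨y, rfl⟩ T ⟨hST, hT⟩
      have hU : IsSubspace M (f ⁻¹' T) := by
        intro m hm y hy y' hy' hne h1 h2 w hw
        exact hT _ (hline m hm) (f y) hy (f y') hy' (fun h => hne (hinj h)) ⟨y, h1, rfl⟩
          ⟨y', h2, rfl⟩ ⟨w, hw, rfl⟩
      have := hgen _ hU (fun s hs => hST (hS0 ⟨s, hs, rfl⟩))
      have hy : y ∈ f ⁻¹' T := by rw [this]; trivial
      exact hy
  have hmem : ∀ y, f y ∈ span L S := fun y => by rw [hspan]; exact ⟨y, rfl⟩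
  let e' : Y ≃ span L S := Equiv.ofBijective (fun y => ⟨f y, hmem y⟩) (by
    constructor
    · intro y y' h
      exact hinj (congrArg Subtype.val h)
    · rintro ⟨x, hx⟩
      rw [hspan] at hx
      obtain ⟨y, rfl⟩ := hx
      exact ⟨y, rfl⟩)
  have he' : ∀ y, ((e' y : span L S) : X) = f y := fun y => rfl
  have himg : ∀ m : Set Y, e' '' m = {w : span L S | (w : X) ∈ f '' m} := by
    intro m
    ext w
    constructor
    · rintro ⟨y, hy, rfl⟩
      exact ⟨y, hy, rfl⟩
    · rintro ⟨y, hy, h⟩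
      exact ⟨y, hy, Subtype.ext h⟩
  refine ⟨e'.symm, isIso_symm ?_⟩
  intro m
  constructor
  · intro hm
    refine ⟨f '' m, hline m hm, ?_, himg m⟩
    rintro _ ⟨y, _, rfl⟩
    exact hmem y
  · rintro ⟨k, hkL, hkS, h⟩
    obtain ⟨x, hx, x', hx', hne⟩ := h2 k hkL
    have hxr := hkS hx
    have hxr' := hkS hx'
    rw [hspan] at hxr hxr'
    obtain ⟨y, rfl⟩ := hxr
    obtain ⟨y', rfl⟩ := hxr'
    obtain ⟨m', hm', rfl⟩ := hk k hkL y y' (fun h => hne (by rw [h])) hx hx'
    rw [← himg m'] at h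
    have := e'.injective.image_injective h
    rw [this]; exact hm'

end embed

section grp
variable {G : Type*} [Group G] {D : Set G}

/-- `x`, `y` do not commute and `z` is the third point of their line. -/
def Ln (x y z : D) : Prop := ¬ Commute (x : G) (y : G) ∧ (z : G) = (y : G) * (x : G) * (y : G)⁻¹

/-- conjugation inside `D`. -/
def cj (hD : IsThreeTranspositionGroup D) (g x : D) : D :=
  ⟨(g : G) * (x : G) * (g : G)⁻¹, hD.2.1 g x x.2⟩

theorem Ln.swap (hD : IsThreeTranspositionGroup D) {x y z : D} (h : Ln x y z) : Ln y x z := by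
  refine ⟨fun c => h.1 c.symm, ?_⟩
  rw [h.2, inv_eq hD.1 y.2, inv_eq hD.1 x.2]
  exact braid hD.1 y.2 x.2 (fun c => h.1 c.symm)

theorem Ln.rot (hD : IsThreeTranspositionGroup D) {x y z : D} (h : Ln x y z) : Ln y z x := by
  have hqi := inv_eq hD.1 y.2
  have br := braid hD.1 x.2 y.2 h.1
  have hqq := sq_one hD.1 y.2
  refine ⟨?_, ?_⟩
  · intro c
    apply h.1
    have c' : Commute ((y : G) * (x : G) * (y : G)⁻¹) (y : G) := by rw [← h.2]; exact c.symm
    rw [commute_conj_iff] at c'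
    simpa using c'
  · apply eq_mul_inv_of_mul_eq
    rw [h.2, hqi]
    calc (x : G) * ((y : G) * x * y) = ((x : G) * y * x) * y := by simp only [mul_assoc]
      _ = (y : G) * x * y * y := by rw [br]

theorem Ln.ne12 {x y z : D} (h : Ln x y z) : x ≠ y := by
  rintro rfl
  exact h.1 (Commute.refl _)

theorem Ln.ne23 (hD : IsThreeTranspositionGroup D) {x y z : D} (h : Ln x y z) : y ≠ z :=
  (h.rot hD).ne12

theorem Ln.ne31 (hD : IsThreeTranspositionGroup D) {x y z : D} (h : Ln x y z) : z ≠ x :=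
  ((h.rot hD).rot hD).ne12

theorem Ln.unique {x y z z' : D} (h : Ln x y z) (h' : Ln x y z') : z = z' :=
  Subtype.ext (h.2.trans h'.2.symm)

theorem Ln.mem {x y z : D} (h : Ln x y z) : ({x, y, z} : Set D) ∈ threeTranspositionLines D := by
  refine ⟨x, y, h.1, ?_⟩
  ext w
  simp only [Set.mem_insert_iff, Set.mem_singleton_iff, Set.mem_ofPred_eq, Subtype.ext_iff, h.2]

theorem exists_Ln (hD : IsThreeTranspositionGroup D) {l : Set D}
    (hl : l ∈ threeTranspositionLines D) : ∃ x y z : D, Ln x y z ∧ l = {x, y, z} := by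
  obtain ⟨x, y, hxy, rfl⟩ := hl
  refine ⟨x, y, cj hD y x, ⟨hxy, rfl⟩, ?_⟩
  ext w
  simp only [Set.mem_insert_iff, Set.mem_singleton_iff, Set.mem_ofPred_eq, Subtype.ext_iff, cj]

theorem line_through (hD : IsThreeTranspositionGroup D) {l : Set D}
    (hl : l ∈ threeTranspositionLines D) {p q : D} (hp : p ∈ l) (hq : q ∈ l) (hpq : p ≠ q) :
    ∃ r, Ln p q r ∧ l = {p, q, r} := by
  obtain ⟨x, y, z, h, rfl⟩ := exists_Ln hD hl
  simp only [Set.mem_insert_iff, Set.mem_singleton_iff] at hp hq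
  rcases hp with rfl | rfl | rfl <;> rcases hq with rfl | rfl | rfl
  · exact absurd rfl hpq
  · exact ⟨_, h, rfl⟩
  · refine ⟨_, ((h.rot hD).rot hD).swap hD, ?_⟩
    rw [Set.pair_comm]
  · exact ⟨_, h.swap hD, Set.insert_comm _ _ _⟩
  · exact absurd rfl hpq
  · refine ⟨_, h.rot hD, ?_⟩
    ext w; simp only [Set.mem_insert_iff, Set.mem_singleton_iff]; tauto
  · refine ⟨_, (h.rot hD).rot hD, ?_⟩
    ext w; simp only [Set.mem_insert_iff, Set.mem_singleton_iff]; tauto
  · refine ⟨_, (h.rot hD).swap hD, ?_⟩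
    ext w; simp only [Set.mem_insert_iff, Set.mem_singleton_iff]; tauto
  · exact absurd rfl hpq

theorem partialLinear (hD : IsThreeTranspositionGroup D) :
    IsPartialLinear (threeTranspositionLines D) := by
  intro l hl m hm x y hxy hx hy hx' hy'
  obtain ⟨r, hr, rfl⟩ := line_through hD hl hx hy hxy
  obtain ⟨r', hr', rfl⟩ := line_through hD hm hx' hy' hxy
  rw [hr.unique hr']

theorem ncard_line (hD : IsThreeTranspositionGroup D) {l : Set D}
    (hl : l ∈ threeTranspositionLines D) : l.ncard = 3 := by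
  obtain ⟨x, y, z, h, rfl⟩ := exists_Ln hD hl
  exact Set.ncard_eq_three.2 ⟨x, y, z, h.ne12, (h.ne31 hD).symm, h.ne23 hD, rfl⟩

theorem Ln.conj (hD : IsThreeTranspositionGroup D) (g : D) {x y z : D} (h : Ln x y z) :
    Ln (cj hD g x) (cj hD g y) (cj hD g z) := by
  refine ⟨fun c => h.1 ((Commute.conj_iff (g : G)).1 c), ?_⟩
  simp only [cj, h.2]
  group

/-- embedding criterion for the line system of `D`. -/
theorem iso_of_model (hD : IsThreeTranspositionGroup D) {Y : Type*} {M : Set (Set Y)} (f : Y → D)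
    (hM1 : ∀ m ∈ M, ∃ x y z, m = {x, y, z} ∧ Ln (f x) (f y) (f z))
    (hM3 : ∀ y y', y ≠ y' → (∃ m ∈ M, y ∈ m ∧ y' ∈ m) ∨
      (f y ≠ f y' ∧ Commute (f y : G) (f y' : G)))
    (S : Set D) (S0 : Set Y) (hS : S ⊆ Set.range f) (hS0 : f '' S0 ⊆ S)
    (hgen : ∀ U : Set Y, IsSubspace M U → S0 ⊆ U → U = Set.univ) :
    Isomorphic (restrict (threeTranspositionLines D) (span (threeTranspositionLines D) S)) M := by
  have hne : ∀ y y', y ≠ y' → f y ≠ f y' := by
    intro y y' hyy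
    rcases hM3 y y' hyy with ⟨m, hm, hy, hy'⟩ | h
    · obtain ⟨p, q, r, rfl, h⟩ := hM1 m hm
      simp only [Set.mem_insert_iff, Set.mem_singleton_iff] at hy hy'
      rcases hy with rfl | rfl | rfl <;> rcases hy' with rfl | rfl | rfl
      · exact absurd rfl hyy
      · exact h.ne12
      · exact (h.ne31 hD).symm
      · exact h.ne12.symm
      · exact absurd rfl hyy
      · exact h.ne23 hD
      · exact h.ne31 hD
      · exact (h.ne23 hD).symm
      · exact absurd rfl hyy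
    · exact h.1
  refine iso_of_embedding (partialLinear hD) ?_ f ?_ ?_ ?_ S S0 hS hS0 hgen
  · intro k hk
    obtain ⟨x, y, z, h, rfl⟩ := exists_Ln hD hk
    exact ⟨x, by simp, y, by simp, h.ne12⟩
  · intro y y' h
    by_contra hyy
    exact hne y y' hyy h
  · intro m hm
    obtain ⟨p, q, r, rfl, h⟩ := hM1 m hm
    rw [Set.image_insert_eq, Set.image_pair]
    exact h.mem
  · rintro y y' hyy ⟨k, hk, hy, hy'⟩
    rcases hM3 y y' hyy with h | h
    · exact h
    · obtain ⟨r, hr, -⟩ := line_through hD hk hy hy' h.1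
      exact absurd h.2 hr.1

end grp

section dual

def s01 : DualAffinePoint := ⟨{0, 1}, by decide⟩
def s02 : DualAffinePoint := ⟨{0, 2}, by decide⟩
def s03 : DualAffinePoint := ⟨{0, 3}, by decide⟩
def s12 : DualAffinePoint := ⟨{1, 2}, by decide⟩
def s13 : DualAffinePoint := ⟨{1, 3}, by decide⟩
def s23 : DualAffinePoint := ⟨{2, 3}, by decide⟩

theorem dual_pts : ∀ s : DualAffinePoint,
    s = s01 ∨ s = s02 ∨ s = s03 ∨ s = s12 ∨ s = s13 ∨ s = s23 := by decide

theorem dual_line0 : ∀ s : DualAffinePoint, (0 : Fin 4) ∉ s.val ↔ s = s12 ∨ s = s13 ∨ s = s23 := by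
  decide
theorem dual_line1 : ∀ s : DualAffinePoint, (1 : Fin 4) ∉ s.val ↔ s = s02 ∨ s = s03 ∨ s = s23 := by
  decide
theorem dual_line2 : ∀ s : DualAffinePoint, (2 : Fin 4) ∉ s.val ↔ s = s01 ∨ s = s03 ∨ s = s13 := by
  decide
theorem dual_line3 : ∀ s : DualAffinePoint, (3 : Fin 4) ∉ s.val ↔ s = s01 ∨ s = s02 ∨ s = s12 := by
  decide

theorem dual_pairs : ∀ y y' : DualAffinePoint, y ≠ y' →
    (∃ i : Fin 4, i ∉ y.val ∧ i ∉ y'.val) ∨ (y = s01 ∧ y' = s23) ∨ (y = s23 ∧ y' = s01) ∨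
      (y = s02 ∧ y' = s13) ∨ (y = s13 ∧ y' = s02) ∨ (y = s03 ∧ y' = s12) ∨
      (y = s12 ∧ y' = s03) := by decide

def fD {α : Type*} (p01 p02 p03 p12 p13 p23 : α) (s : DualAffinePoint) : α :=
  if s = s01 then p01 else if s = s02 then p02 else if s = s03 then p03 else
    if s = s12 then p12 else if s = s13 then p13 else p23

variable {α : Type*} (p01 p02 p03 p12 p13 p23 : α)

theorem fD01 : fD p01 p02 p03 p12 p13 p23 s01 = p01 := rfl
theorem fD02 : fD p01 p02 p03 p12 p13 p23 s02 = p02 := rfl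
theorem fD03 : fD p01 p02 p03 p12 p13 p23 s03 = p03 := rfl
theorem fD12 : fD p01 p02 p03 p12 p13 p23 s12 = p12 := rfl
theorem fD13 : fD p01 p02 p03 p12 p13 p23 s13 = p13 := rfl
theorem fD23 : fD p01 p02 p03 p12 p13 p23 s23 = p23 := rfl

theorem dual_gen (U : Set DualAffinePoint) (hU : IsSubspace dualAffinePlaneTwo U)
    (h : ({s01, s02, s12, s13, s23} : Set DualAffinePoint) ⊆ U) : U = Set.univ := by
  apply Set.eq_univ_of_forall
  intro s
  rcases dual_pts s with rfl | rfl | rfl | rfl | rfl | rfl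
  · exact h (by simp)
  · exact h (by simp)
  · have h1 : (2 : Fin 4) ∉ s01.val := by decide
    have h2 : (2 : Fin 4) ∉ s13.val := by decide
    have h3 : (2 : Fin 4) ∉ s03.val := by decide
    exact hU {s | (2 : Fin 4) ∉ s.val} ⟨2, rfl⟩ s01 (h (by simp)) s13 (h (by simp)) (by decide)
      h1 h2 h3
  · exact h (by simp)
  · exact h (by simp)
  · exact h (by simp)

end dual

section dualgrp
variable {G : Type*} [Group G] {D : Set G}

theorem Ln.cj_eq (hD : IsThreeTranspositionGroup D) {x y z : D} (h : Ln x y z) : cj hD y x = z :=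
  Subtype.ext h.2.symm

theorem Ln.left_cancel (hD : IsThreeTranspositionGroup D) {x x' y z : D} (h : Ln x y z)
    (h' : Ln x' y z) : x = x' :=
  (h.rot hD).unique (h'.rot hD)

theorem iso_dual (hD : IsThreeTranspositionGroup D) {a b c ab ac : D} (hab : Ln a b ab)
    (hac : Ln a c ac) (hbc : Commute (b : G) (c : G)) (hne : b ≠ c) :
    Isomorphic (restrict (threeTranspositionLines D)
      (span (threeTranspositionLines D) ({a, b, ab} ∪ {a, c, ac}))) dualAffinePlaneTwo := by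
  -- non-commuting pairs
  have n1 : ¬ Commute (ac : G) (b : G) := by
    intro h
    rw [hac.2, commute_conj_iff] at h
    have : (c : G)⁻¹ * b * c = b := by
      rw [mul_assoc, hbc.eq, ← mul_assoc, inv_mul_cancel, one_mul]
    rw [this] at h
    exact hab.1 h
  have n2 : ¬ Commute (ab : G) (c : G) := by
    intro h
    rw [hab.2, commute_conj_iff] at h
    have : (b : G)⁻¹ * c * b = c := by
      rw [mul_assoc, hbc.symm.eq, ← mul_assoc, inv_mul_cancel, one_mul]
    rw [this] at h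
    exact hac.1 h
  obtain ⟨x, hx⟩ : ∃ x, x = cj hD b ac := ⟨_, rfl⟩
  have l2 : Ln ac b x := ⟨n1, by rw [hx]; rfl⟩
  have l1 : Ln ab c x := by
    refine ⟨n2, ?_⟩
    rw [hx]
    simp only [cj, hab.2, hac.2]
    have e := hbc.eq
    calc (b : G) * (c * a * (c : G)⁻¹) * (b : G)⁻¹ = ((b : G) * c) * a * ((b : G) * c)⁻¹ := by group
      _ = ((c : G) * b) * a * ((c : G) * b)⁻¹ := by rw [e]
      _ = (c : G) * (b * a * (b : G)⁻¹) * (c : G)⁻¹ := by group
  -- `a` commutes with `x`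
  have hax : cj hD a x = x := by
    have h1 := l2.conj hD a
    rw [((hac.rot hD).rot hD).cj_eq hD, (hab.swap hD).cj_eq hD] at h1
    exact h1.unique (l1.swap hD)
  have cax : Commute (x : G) (a : G) := by
    have := congrArg Subtype.val hax
    simp only [cj] at this
    show (x : G) * a = a * x
    rw [mul_inv_eq_iff_eq_mul] at this
    exact this.symm
  have habac : ab ≠ ac := by
    intro e
    rw [e] at hab
    exact hne (((hab.rot hD).rot hD).unique ((hac.rot hD).rot hD))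
  have hxa : x ≠ a := by
    intro e
    rw [e] at l2
    exact habac ((hab.swap hD).unique (l2.rot hD))
  have cabac : Commute (ab : G) (ac : G) := by
    rw [(hab.swap hD).2, (hac.swap hD).2]
    exact (Commute.conj_iff (a : G)).2 hbc
  refine iso_of_model hD (fD b ab x a ac c) ?_ ?_ _ {s01, s02, s12, s13, s23} ?_ ?_ dual_gen
  · rintro _ ⟨i, rfl⟩
    fin_cases i
    · refine ⟨s12, s13, s23, ?_, ((hac.rot hD).rot hD).swap hD⟩
      ext s; exact dual_line0 s
    · refine ⟨s02, s03, s23, ?_, ((l1.rot hD).rot hD).swap hD⟩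
      ext s; exact dual_line1 s
    · refine ⟨s01, s03, s13, ?_, l2.rot hD⟩
      ext s; exact dual_line2 s
    · refine ⟨s01, s02, s12, ?_, hab.rot hD⟩
      ext s; exact dual_line3 s
  · intro y y' hyy
    rcases dual_pairs y y' hyy with ⟨i, h1, h2⟩ | ⟨rfl, rfl⟩ | ⟨rfl, rfl⟩ | ⟨rfl, rfl⟩ | ⟨rfl, rfl⟩ |
      ⟨rfl, rfl⟩ | ⟨rfl, rfl⟩
    · exact Or.inl ⟨_, ⟨i, rfl⟩, h1, h2⟩
    · exact Or.inr ⟨hne, hbc⟩
    · exact Or.inr ⟨hne.symm, hbc.symm⟩
    · exact Or.inr ⟨habac, cabac⟩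
    · exact Or.inr ⟨habac.symm, cabac.symm⟩
    · exact Or.inr ⟨hxa, cax⟩
    · exact Or.inr ⟨hxa.symm, cax.symm⟩
  · intro w hw
    simp only [Set.mem_union, Set.mem_insert_iff, Set.mem_singleton_iff] at hw
    rcases hw with (rfl | rfl | rfl) | (rfl | rfl | rfl)
    · exact ⟨s12, rfl⟩
    · exact ⟨s01, rfl⟩
    · exact ⟨s02, rfl⟩
    · exact ⟨s12, rfl⟩
    · exact ⟨s23, rfl⟩
    · exact ⟨s13, rfl⟩
  · rintro _ ⟨s, hs, rfl⟩
    simp only [Set.mem_insert_iff, Set.mem_singleton_iff] at hs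
    rcases hs with rfl | rfl | rfl | rfl | rfl
    · simp [fD01]
    · simp [fD02]
    · simp [fD12]
    · simp [fD13]
    · simp [fD23]

end dualgrp

section affine

def sel {α : Type*} (x0 x1 x2 : α) (i : ZMod 3) : α := if i = 0 then x0 else if i = 1 then x1 else x2

def fA {α : Type*} (p00 p01 p02 p10 p11 p12 p20 p21 p22 : α) (v : Fin 2 → ZMod 3) : α :=
  sel (sel p00 p01 p02 (v 1)) (sel p10 p11 p12 (v 1)) (sel p20 p21 p22 (v 1)) (v 0)

/-- the twelve lines of the affine plane. -/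
def baseList : List ((Fin 2 → ZMod 3) × (Fin 2 → ZMod 3) × (Fin 2 → ZMod 3)) :=
  [(![0,0], ![1,0], ![2,0]), (![0,0], ![0,1], ![0,2]), (![2,2], ![0,0], ![1,1]),
   (![1,2], ![0,0], ![2,1]), (![1,0], ![0,2], ![2,1]), (![2,0], ![0,1], ![1,2]),
   (![1,0], ![0,1], ![2,2]), (![2,0], ![0,2], ![1,1]), (![1,1], ![0,1], ![2,1]),
   (![2,2], ![0,2], ![1,2]), (![1,1], ![1,0], ![1,2]), (![2,2], ![2,0], ![2,1])]

theorem affine_lines : ∀ v w : Fin 2 → ZMod 3, w ≠ 0 → ∃ t ∈ baseList,
    (∀ c : ZMod 3, v + c • w = t.1 ∨ v + c • w = t.2.1 ∨ v + c • w = t.2.2) ∧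
    (∃ c : ZMod 3, t.1 = v + c • w) ∧ (∃ c : ZMod 3, t.2.1 = v + c • w) ∧
    (∃ c : ZMod 3, t.2.2 = v + c • w) := by
  decide +kernel

def s0List : List (Fin 2 → ZMod 3) := [![0,0], ![1,0], ![2,0], ![0,1], ![0,2]]

theorem affine_gen0 : ∀ v : Fin 2 → ZMod 3, v ∈ s0List ∨
    ∃ x ∈ s0List, ∃ y ∈ s0List, x ≠ y ∧ v = x + (2 : ZMod 3) • (y - x) := by
  decide +kernel

theorem affine_gen (U : Set (Fin 2 → ZMod 3)) (hU : IsSubspace affinePlaneThree U)
    (h : {v | v ∈ s0List} ⊆ U) : U = Set.univ := by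
  apply Set.eq_univ_of_forall
  intro v
  rcases affine_gen0 v with hv | ⟨x, hx, y, hy, hxy, rfl⟩
  · exact h hv
  · exact hU _ ⟨x, y - x, sub_ne_zero.2 hxy.symm, rfl⟩ x (h hx) y (h hy) hxy ⟨0, by simp⟩
      ⟨1, by simp⟩ ⟨2, rfl⟩

end affine

section affinegrp
variable {G : Type*} [Group G] {D : Set G}

theorem iso_affine (hD : IsThreeTranspositionGroup D) {a b c ab ac : D} (hab : Ln a b ab)
    (hac : Ln a c ac) (hbc : ¬ Commute (b : G) (c : G)) (habc : ¬ Commute (ab : G) (c : G)) :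
    Isomorphic (restrict (threeTranspositionLines D)
      (span (threeTranspositionLines D) ({a, b, ab} ∪ {a, c, ac}))) affinePlaneThree := by
  obtain ⟨p22, h22⟩ : ∃ x, x = cj hD c b := ⟨_, rfl⟩
  obtain ⟨p12, h12⟩ : ∃ x, x = cj hD c ab := ⟨_, rfl⟩
  obtain ⟨p11, h11⟩ : ∃ x, x = cj hD a p22 := ⟨_, rfl⟩
  obtain ⟨p21, h21⟩ : ∃ x, x = cj hD a p12 := ⟨_, rfl⟩
  have ea_b : cj hD a b = ab := (hab.swap hD).cj_eq hD
  have ea_ab : cj hD a ab = b := ((hab.rot hD).rot hD).cj_eq hD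
  have ea_c : cj hD a c = ac := (hac.swap hD).cj_eq hD
  have ea_ac : cj hD a ac = c := ((hac.rot hD).rot hD).cj_eq hD
  have l7 : Ln b c p22 := ⟨hbc, by rw [h22]; rfl⟩
  have l6 : Ln ab c p12 := ⟨habc, by rw [h12]; rfl⟩
  have l5 : Ln b ac p21 := by
    have := l6.conj hD a
    rwa [ea_ab, ea_c, ← h21] at this
  have l8 : Ln ab ac p11 := by
    have := l7.conj hD a
    rwa [ea_b, ea_c, ← h11] at this
  have hci : (c : G)⁻¹ * a * c = ac := by
    rw [hac.2, inv_eq hD.1 c.2]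
  have l3 : Ln p22 a p11 := by
    refine ⟨?_, by rw [h11]; rfl⟩
    intro h
    rw [l7.2, commute_conj_iff, hci] at h
    exact l5.1 h
  have l4 : Ln p12 a p21 := by
    refine ⟨?_, by rw [h21]; rfl⟩
    intro h
    rw [l6.2, commute_conj_iff, hci] at h
    exact l8.1 h
  have of_cj : ∀ {x y z : D}, cj hD y x = z → x ≠ z → Ln x y z := by
    intro x y z h hne
    refine ⟨?_, (congrArg Subtype.val h).symm⟩
    intro hc
    apply hne
    rw [← h]
    apply Subtype.ext
    simp only [cj]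
    rw [← hc.eq, mul_assoc, mul_inv_cancel, mul_one]
  have l9 : Ln p11 c p21 := by
    apply of_cj
    · have := l8.conj hD c
      rw [l6.cj_eq hD, ((hac.rot hD).swap hD).cj_eq hD] at this
      exact this.unique l4
    · intro e
      rw [h11, h21] at e
      have e2 : p22 = p12 := by
        have := congrArg Subtype.val e
        simp only [cj] at this
        exact Subtype.ext (by simpa using this)
      rw [e2] at l7
      exact hab.ne23 hD (l7.left_cancel hD l6)
  have l11 : Ln p11 b p12 := by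
    apply of_cj
    · have := l8.conj hD b
      rw [((hab.rot hD).swap hD).cj_eq hD, (l5.swap hD).cj_eq hD] at this
      exact this.unique (l4.rot hD)
    · intro e
      rw [e] at l8
      exact hac.ne23 hD (((l6.swap hD).left_cancel hD (l8.swap hD)))
  have ea_11 : cj hD a p11 = p22 := ((l3.rot hD).swap hD).cj_eq hD
  have ea_21 : cj hD a p21 = p12 := ((l4.rot hD).swap hD).cj_eq hD
  have l10 : Ln p22 ac p12 := by
    have := l9.conj hD a
    rwa [ea_11, ea_c, ea_21] at this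
  have l12 : Ln p22 ab p21 := by
    have := l11.conj hD a
    rwa [ea_11, ea_b, ← h21] at this
  refine iso_of_model hD (fA a c ac b p11 p12 ab p21 p22) ?_ ?_ _ {v | v ∈ s0List} ?_ ?_ affine_gen
  · rintro _ ⟨v, w, hw, rfl⟩
    obtain ⟨t, ht, h1, ⟨c1, h2⟩, ⟨c2, h3⟩, ⟨c3, h4⟩⟩ := affine_lines v w hw
    refine ⟨t.1, t.2.1, t.2.2, ?_, ?_⟩
    · ext p
      simp only [Set.mem_ofPred_eq, Set.mem_insert_iff, Set.mem_singleton_iff]
      constructor
      · rintro ⟨c, rfl⟩; exact h1 c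
      · rintro (rfl | rfl | rfl)
        · exact ⟨c1, h2⟩
        · exact ⟨c2, h3⟩
        · exact ⟨c3, h4⟩
    · simp only [baseList, List.mem_cons, List.not_mem_nil, or_false] at ht
      rcases ht with rfl | rfl | rfl | rfl | rfl | rfl | rfl | rfl | rfl | rfl | rfl | rfl
      · exact hab
      · exact hac
      · exact l3
      · exact l4
      · exact l5
      · exact l6
      · exact l7
      · exact l8
      · exact l9
      · exact l10
      · exact l11
      · exact l12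
  · intro y y' hyy
    exact Or.inl ⟨_, ⟨y, y' - y, sub_ne_zero.2 hyy.symm, rfl⟩, ⟨0, by simp⟩, ⟨1, by simp⟩⟩
  · intro w hw
    simp only [Set.mem_union, Set.mem_insert_iff, Set.mem_singleton_iff] at hw
    rcases hw with (rfl | rfl | rfl) | (rfl | rfl | rfl)
    · exact ⟨![0,0], rfl⟩
    · exact ⟨![1,0], rfl⟩
    · exact ⟨![2,0], rfl⟩
    · exact ⟨![0,0], rfl⟩
    · exact ⟨![0,1], rfl⟩
    · exact ⟨![0,2], rfl⟩
  · rintro _ ⟨s, hs, rfl⟩
    simp only [s0List, List.mem_cons, List.not_mem_nil, or_false, Set.mem_ofPred_eq] at hs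
    rcases hs with rfl | rfl | rfl | rfl | rfl
    · left; left; rfl
    · left; right; left; rfl
    · left; right; right; rfl
    · right; right; left; rfl
    · right; right; right; rfl

end affinegrp

theorem result {G : Type*} [Group G] [Finite G] {D : Set G} (hD : Cfsg.IsThreeTranspositionGroup D) : Cfsg.IsFischerSpace (Cfsg.threeTranspositionLines D) := by
  refine ⟨partialLinear hD, fun l hl => ncard_line hD hl, ?_⟩
  rintro l hl m hm hlm ⟨a, hal, ham⟩
  -- a second point on each line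
  obtain ⟨b, hbl, hba⟩ : ∃ b ∈ l, a ≠ b := by
    obtain ⟨x, y, z, h, rfl⟩ := exists_Ln hD hl
    by_cases e : a = x
    · exact ⟨y, by simp, by rw [e]; exact h.ne12⟩
    · exact ⟨x, by simp, e⟩
  obtain ⟨c, hcm, hca⟩ : ∃ c ∈ m, a ≠ c := by
    obtain ⟨x, y, z, h, rfl⟩ := exists_Ln hD hm
    by_cases e : a = x
    · exact ⟨y, by simp, by rw [e]; exact h.ne12⟩
    · exact ⟨x, by simp, e⟩
  obtain ⟨ab, hab, rfl⟩ := line_through hD hl hal hbl hba
  obtain ⟨ac, hac, rfl⟩ := line_through hD hm ham hcm hca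
  by_cases h1 : Commute (b : G) (c : G)
  · left
    refine iso_dual hD hab hac h1 ?_
    rintro rfl
    exact hlm (by rw [hab.unique hac])
  · by_cases h2 : Commute (ab : G) (c : G)
    · left
      have hab' : Ln a ab b := (hab.swap hD).rot hD
      have e : ({a, b, ab} : Set D) = {a, ab, b} := by rw [Set.pair_comm]
      rw [e]
      refine iso_dual hD hab' hac h2 ?_
      rintro rfl
      exact hlm (by rw [e, hab'.unique hac])
    · right
      exact iso_affine hD hab hac h1 h2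

end Cfsg.Agent.S5367
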