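import Cfsg.Statements.S5392
import Cfsg.Agent.Lib.Helper93LeechIrr

set_option autoImplicit false
open Cfsg

namespace Cfsg.Agent.S5392

open Cfsg.Agent.Lib.Helper93LeechIrr Cfsg.Agent.Lib.Helper93LeechCross
  Cfsg.Agent.Lib.Helper33LCo0 Cfsg.Agent.Lib.Helper33LPair

/-- The Leech lattice modulo twice itself is a faithful irreducible module for the first Conway group: an automorphism of the rank-24 lattice built from the length-24 code that moves every lattice vector only by twice a lattice vector lies in the centre of the automorphism group (the centre consists of ±1, which act trivially there, so the kernel is exactly the centre), and an additive subgroup lying between twice the lattice and the lattice that is invariant under all lattice automorphisms is one of the two. -/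
theorem result : (∀ g : ↥Cfsg.Co0, (∀ v : ↥Cfsg.leechLattice, ∃ w : ↥Cfsg.leechLattice, ((g • v : ↥Cfsg.leechLattice) : Cfsg.GolayPt → ℤ) - (v : Cfsg.GolayPt → ℤ) = 2 • (w : Cfsg.GolayPt → ℤ)) → g ∈ Subgroup.center ↥Cfsg.Co0) ∧ ∀ M : AddSubgroup (Cfsg.GolayPt → ℤ), (∀ v ∈ Cfsg.leechLattice, (2 : ℤ) • v ∈ M) → M ≤ Cfsg.leechLattice → (∀ g : ↥Cfsg.Co0, ∀ v : ↥Cfsg.leechLattice, (v : Cfsg.GolayPt → ℤ) ∈ M → ((g • v : ↥Cfsg.leechLattice) : Cfsg.GolayPt → ℤ) ∈ M) → (∀ x ∈ M, ∃ w ∈ Cfsg.leechLattice, x = (2 : ℤ) • w) ∨ M = Cfsg.leechLattice := by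
  constructor
  · intro g hg
    apply central_of_pm
    intro v hv
    obtain ⟨w, hw⟩ := hg v
    by_cases hw0 : (w : Cfsg.GolayPt → ℤ) = 0
    · left
      rw [hw0, smul_zero, sub_eq_zero] at hw
      exact Subtype.ext hw
    · right
      have n0 := min_norm' w.2 hw0
      have e1 : Cfsg.sqNorm (((g • v : ↥Cfsg.leechLattice) : Cfsg.GolayPt → ℤ) - (v : Cfsg.GolayPt → ℤ))
          = 4 * Cfsg.sqNorm (w : Cfsg.GolayPt → ℤ) := by rw [hw, sqNorm_two_smul]
      rw [sqNorm_sub, sqNorm_smul', hv] at e1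
      have e2 := sqNorm_add ((g • v : ↥Cfsg.leechLattice) : Cfsg.GolayPt → ℤ) (v : Cfsg.GolayPt → ℤ)
      rw [sqNorm_smul', hv] at e2
      have e3 : ((g • v : ↥Cfsg.leechLattice) : Cfsg.GolayPt → ℤ) + (v : Cfsg.GolayPt → ℤ) = 0 := by
        by_contra hne
        have := Cfsg.Agent.Lib.Helper94Leech.sqNorm_pos hne
        omega
      apply Subtype.ext
      exact eq_neg_of_add_eq_zero_left e3
  · intro M h2 hM hinv
    by_cases hall : ∀ x ∈ M, ∃ w ∈ Cfsg.leechLattice, x = (2 : ℤ) • w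
    · left; exact hall
    · right
      push Not at hall
      obtain ⟨x, hxM, hx⟩ := hall
      obtain ⟨y, z, hn, hxy⟩ := rep ⟨x, hM hxM⟩
      have hxy' : x = (y : Cfsg.GolayPt → ℤ) + (2 : ℤ) • (z : Cfsg.GolayPt → ℤ) := by
        have := congrArg (fun w : ↥Cfsg.leechLattice => (w : Cfsg.GolayPt → ℤ)) hxy
        simp only [coe_add'] at this
        rw [this, two_smul]
      have hyM : (y : Cfsg.GolayPt → ℤ) ∈ M := by
        have : (y : Cfsg.GolayPt → ℤ) = x - (2 : ℤ) • (z : Cfsg.GolayPt → ℤ) := by rw [hxy']; abel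
        rw [this]
        exact M.sub_mem hxM (h2 _ z.2)
      have hy0 : (y : Cfsg.GolayPt → ℤ) ≠ 0 := by
        intro h0
        apply hx z z.2
        rw [hxy', h0, zero_add]
      have hsame : ∀ u : ↥Cfsg.leechLattice,
          Cfsg.sqNorm (u : Cfsg.GolayPt → ℤ) = Cfsg.sqNorm (y : Cfsg.GolayPt → ℤ) →
          (u : Cfsg.GolayPt → ℤ) ∈ M := by
        intro u hu
        obtain ⟨g, hg⟩ := short_trans y u hu.symm hn
        rw [← hg]
        exact hinv g y hyM
      have nadd : ∀ a b : ↥Cfsg.leechLattice,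
          Cfsg.sqNorm ((a + b : ↥Cfsg.leechLattice) : Cfsg.GolayPt → ℤ)
          = Cfsg.sqNorm (a : Cfsg.GolayPt → ℤ)
            + 2 * Cfsg.dotInt (a : Cfsg.GolayPt → ℤ) (b : Cfsg.GolayPt → ℤ)
            + Cfsg.sqNorm (b : Cfsg.GolayPt → ℤ) := fun a b => sqNorm_add _ _
      have nsub : ∀ a b : ↥Cfsg.leechLattice,
          Cfsg.sqNorm ((a - b : ↥Cfsg.leechLattice) : Cfsg.GolayPt → ℤ)
          = Cfsg.sqNorm (a : Cfsg.GolayPt → ℤ)
            - 2 * Cfsg.dotInt (a : Cfsg.GolayPt → ℤ) (b : Cfsg.GolayPt → ℤ)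
            + Cfsg.sqNorm (b : Cfsg.GolayPt → ℤ) := fun a b => sqNorm_sub _ _
      have hmin : ∃ m : ↥Cfsg.leechLattice, Cfsg.sqNorm (m : Cfsg.GolayPt → ℤ) = 32 ∧
          (m : Cfsg.GolayPt → ℤ) ∈ M := by
        rcases short_cases y.2 hn with h0 | h1 | h1 | h1
        · exact absurd h0 hy0
        · exact ⟨y, h1, hyM⟩
        · refine ⟨vB - vB', by rw [nsub, nB, nB', dBB']; norm_num, ?_⟩
          have a1 := hsame (vA + vB) (by rw [nadd, nA, nB, dAB, h1]; norm_num)
          have a2 := hsame (vA + vB') (by rw [nadd, nA, nB', dAB', h1]; norm_num)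
          have a3 := M.sub_mem a1 a2
          have : ((vB - vB' : ↥Cfsg.leechLattice) : Cfsg.GolayPt → ℤ)
              = ((vA + vB : ↥Cfsg.leechLattice) : Cfsg.GolayPt → ℤ)
                - ((vA + vB' : ↥Cfsg.leechLattice) : Cfsg.GolayPt → ℤ) := by
            rw [← AddSubgroup.coe_sub]
            congr 1
            abel
          rw [this]; exact a3
        · refine ⟨vG - vF, by rw [nsub, nG, nF, dGF]; norm_num, ?_⟩
          have a1 := hsame (vB + vG) (by rw [nadd, nB, nG, dBG, h1]; norm_num)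
          have a2 := hsame (vB + vF) (by rw [nadd, nB, nF, dBF, h1]; norm_num)
          have a3 := M.sub_mem a1 a2
          have : ((vG - vF : ↥Cfsg.leechLattice) : Cfsg.GolayPt → ℤ)
              = ((vB + vG : ↥Cfsg.leechLattice) : Cfsg.GolayPt → ℤ)
                - ((vB + vF : ↥Cfsg.leechLattice) : Cfsg.GolayPt → ℤ) := by
            rw [← AddSubgroup.coe_sub]
            congr 1
            abel
          rw [this]; exact a3
      obtain ⟨m, hm, hmM⟩ := hmin
      apply le_antisymm hM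
      rw [← closure_min, AddSubgroup.closure_le]
      intro u hu
      obtain ⟨g, hg⟩ := Cfsg.Agent.Lib.Helper33LMinTrans.min_trans m ⟨u, hu.1⟩ hm hu.2
      have := hinv g m hmM
      rw [hg] at this
      exact this

end Cfsg.Agent.S5392
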