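import Cfsg.Statements.S5393
import Cfsg.Agent.S0358
import Cfsg.Agent.S0370

set_option autoImplicit false
open Cfsg

namespace Cfsg.Agent.S5393

/-- the shift by one on the 23 residues -/
noncomputable abbrev sh : Equiv.Perm Cfsg.GolayPt := Equiv.optionCongr (Equiv.addRight (1 : ZMod 23))

theorem sh_zpow_some (k : ℤ) (x : ZMod 23) : (sh ^ k) (some x) = some (x + (k : ZMod 23)) := by
  induction k using Int.induction_on generalizing x with
  | zero => simp
  | succ i ih =>
    rw [zpow_add_one, Equiv.Perm.mul_apply]
    have : sh (some x) = some (x + 1) := rfl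
    rw [this, ih]
    push_cast
    congr 1
    ring
  | pred i ih =>
    rw [zpow_sub_one, Equiv.Perm.mul_apply]
    have : sh⁻¹ (some x) = some (x - 1) := by
      rw [Equiv.Perm.inv_eq_iff_eq]
      show some x = some (x - 1 + 1)
      congr 1
      ring
    rw [this, ih]
    push_cast
    congr 1
    ring

theorem sh_zpow_none (k : ℤ) : (sh ^ k) none = none := by
  induction k using Int.induction_on with
  | zero => simp
  | succ i ih =>
    rw [zpow_add_one, Equiv.Perm.mul_apply]
    have : sh none = none := rfl
    rw [this, ih]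
  | pred i ih =>
    rw [zpow_sub_one, Equiv.Perm.mul_apply]
    have : sh⁻¹ none = none := by
      rw [Equiv.Perm.inv_eq_iff_eq]
      rfl
    rw [this, ih]

theorem sh_pow : sh ^ 23 = 1 := by
  ext p
  have h := sh_zpow_some 23
  have h' := sh_zpow_none 23
  rw [show ((23 : ℤ)) = ((23 : ℕ) : ℤ) from rfl, zpow_natCast] at h h'
  cases p with
  | none => rw [h']; rfl
  | some x =>
    rw [h x]
    have : (((23 : ℕ) : ℤ) : ZMod 23) = 0 := by decide
    rw [this, add_zero]
    rfl

theorem isPGroup_zpowers : IsPGroup 23 (Subgroup.zpowers sh) := by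
  rintro ⟨g, hg⟩
  obtain ⟨k, rfl⟩ := Subgroup.mem_zpowers_iff.mp hg
  refine ⟨1, Subtype.ext ?_⟩
  show (sh ^ k) ^ (23 ^ 1) = 1
  rw [pow_one, ← zpow_natCast, ← zpow_mul, mul_comm, zpow_mul, zpow_natCast, sh_pow, one_zpow]

theorem sum_eq_zero_of_mem {w : Cfsg.GolayPt → ZMod 2} (hw : w ∈ Cfsg.golayCode) : ∑ p, w p = 0 := by
  unfold Cfsg.golayCode at hw
  induction hw using Submodule.span_induction with
  | mem x hx =>
    rcases hx with ⟨t, rfl⟩ | hx
    · revert t
      decide
    · rw [Set.mem_singleton_iff] at hx
      subst hx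
      decide
  | zero => simp
  | add x y _ _ hx hy => simp [Finset.sum_add_distrib, hx, hy]
  | smul a x _ hx => simp [← Finset.mul_sum, hx]

theorem zpowers_le : Subgroup.zpowers sh ≤ Cfsg.M24 := by
  rw [Subgroup.zpowers_le]
  exact Cfsg.Agent.S0370.result

/-- the action of the cyclic group generated by the shift on an invariant subspace -/
@[instance_reducible] noncomputable def act (W : Submodule (ZMod 2) (Cfsg.GolayPt → ZMod 2))
    (hinv : ∀ σ ∈ Cfsg.M24, ∀ w ∈ W, (fun p => w (σ.symm p)) ∈ W) :
    MulAction (Subgroup.zpowers sh) W where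
  smul g w := ⟨fun p => w.1 ((g : Equiv.Perm Cfsg.GolayPt).symm p), hinv g (zpowers_le g.2) w.1 w.2⟩
  one_smul w := by
    apply Subtype.ext
    rfl
  mul_smul g h w := by
    apply Subtype.ext
    rfl

theorem const_of_fixed {w : Cfsg.GolayPt → ZMod 2} (hw : w ∈ Cfsg.golayCode)
    (hfix : ∀ k : ℤ, (fun p => w ((sh ^ k).symm p)) = w) : w = 0 ∨ w = fun _ => 1 := by
  have key : ∀ x : ZMod 23, w (some x) = w (some 0) := by
    intro x
    have h : w ((sh ^ (-(x.val : ℤ))).symm (some 0)) = w (some 0) :=
      congrFun (hfix (-(x.val : ℤ))) (some 0)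
    have e : (sh ^ (-(x.val : ℤ))).symm (some 0) = some x := by
      have : (sh ^ (-(x.val : ℤ))).symm = sh ^ ((x.val : ℤ)) := by
        rw [zpow_neg]
        rfl
      rw [this, sh_zpow_some]
      simp
    rw [e] at h
    exact h
  have hsum := sum_eq_zero_of_mem hw
  rw [Fintype.sum_option] at hsum
  have h2 : ∑ x : ZMod 23, w (some x) = w (some 0) := by
    rw [Finset.sum_congr rfl (fun x _ => key x), Finset.sum_const, Finset.card_univ, ZMod.card]
    generalize w (some 0) = c
    revert c
    decide
  rw [h2] at hsum
  have h3 : w none = w (some 0) := by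
    generalize w (some 0) = c at hsum
    generalize w none = e at hsum
    revert c e
    decide
  have h4 : ∀ p, w p = w (some 0) := by
    intro p
    cases p with
    | none => exact h3
    | some x => exact key x
  have h5 : w (some 0) = 0 ∨ w (some 0) = 1 := by
    generalize w (some 0) = c
    revert c
    decide
  rcases h5 with h5 | h5
  · left
    funext p
    rw [h4 p, h5]
    rfl
  · right
    funext p
    rw [h4 p, h5]

theorem card_modEq (W : Submodule (ZMod 2) (Cfsg.GolayPt → ZMod 2))
    (h1 : (fun _ => (1 : ZMod 2)) ∈ W) (hW : W ≤ Cfsg.golayCode)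
    (hinv : ∀ σ ∈ Cfsg.M24, ∀ w ∈ W, (fun p => w (σ.symm p)) ∈ W) :
    Nat.card W ≡ 2 [MOD 23] := by
  let _ := act W hinv
  have : Fact (Nat.Prime 23) := ⟨by norm_num⟩
  have h := isPGroup_zpowers.card_modEq_card_fixedPoints W
  have hfix : (MulAction.fixedPoints (Subgroup.zpowers sh) W) = {0, ⟨fun _ => 1, h1⟩} := by
    ext w
    constructor
    · intro hw
      have hw' : ∀ k : ℤ, (fun p => w.1 ((sh ^ k).symm p)) = w.1 := by
        intro k
        have := hw ⟨sh ^ k, Subgroup.zpow_mem_zpowers sh k⟩
        exact congrArg Subtype.val this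
      rcases const_of_fixed (hW w.2) hw' with h0 | h0
      · left
        exact Subtype.ext h0
      · right
        exact Subtype.ext h0
    · intro hw
      rcases hw with rfl | hw
      · intro g
        apply Subtype.ext
        rfl
      · rw [Set.mem_singleton_iff] at hw
        subst hw
        intro g
        apply Subtype.ext
        rfl
  rw [hfix] at h
  have h2 : Nat.card ↑({0, ⟨fun _ => 1, h1⟩} : Set W) = 2 := by
    rw [Nat.card_coe_set_eq]
    apply Set.ncard_pair
    intro h0
    have : (0 : ZMod 2) = 1 := congrFun (congrArg Subtype.val h0) none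
    revert this
    decide
  rw [h2] at h
  exact h

/-- The length-24 code built from the squares modulo 23 contains the all-ones word, and the code modulo the all-ones word is an irreducible module over the field with two elements for the code's automorphism group: a subspace of the code that contains the all-ones word and is invariant under every coordinate permutation preserving the code is either the span of the all-ones word or the whole code. -/
theorem result : (fun _ : Cfsg.GolayPt => (1 : ZMod 2)) ∈ Cfsg.golayCode ∧ ∀ W : Submodule (ZMod 2) (Cfsg.GolayPt → ZMod 2), (fun _ => (1 : ZMod 2)) ∈ W → W ≤ Cfsg.golayCode → (∀ σ ∈ Cfsg.M24, ∀ w ∈ W, (fun p => w (σ.symm p)) ∈ W) → W = Submodule.span (ZMod 2) {fun _ => (1 : ZMod 2)} ∨ W = Cfsg.golayCode := by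
  refine ⟨Submodule.subset_span (Or.inr rfl), ?_⟩
  intro W h1 hW hinv
  have hmod := card_modEq W h1 hW hinv
  have hcard : Nat.card W = 2 ^ Module.finrank (ZMod 2) W := by
    rw [Module.natCard_eq_pow_finrank (K := ZMod 2), Nat.card_zmod]
  have hle : Module.finrank (ZMod 2) W ≤ 12 := by
    rw [← Cfsg.Agent.S0358.result]
    exact Submodule.finrank_mono hW
  rw [hcard] at hmod
  have hk : Module.finrank (ZMod 2) W = 1 ∨ Module.finrank (ZMod 2) W = 12 := by
    generalize Module.finrank (ZMod 2) W = k at hmod hle
    interval_cases k <;> first | (left; rfl) | (right; rfl) | (exfalso; revert hmod; decide)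
  rcases hk with hk | hk
  · left
    symm
    apply Submodule.eq_of_le_of_finrank_eq
    · rw [Submodule.span_singleton_le_iff_mem]
      exact h1
    · rw [hk]
      apply finrank_span_singleton
      intro h0
      have := congrFun h0 none
      revert this
      decide
  · right
    apply Submodule.eq_of_le_of_finrank_eq hW
    rw [hk, Cfsg.Agent.S0358.result]

end Cfsg.Agent.S5393
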