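import Cfsg.Statements.S5395
-- import your own Cfsg.Agent.* helpers here

set_option autoImplicit false
open Cfsg

namespace Cfsg.Agent.S5395

section
open scoped IsMulCommutative
variable {E : Type*} [Group E]

/-- `x ↦ g x g⁻¹ x⁻¹` as a homomorphism into the centre -/
def commHom (hc : commutator E ≤ Subgroup.center E) (g : E) : E →* Subgroup.center E where
  toFun x := ⟨g * x * g⁻¹ * x⁻¹, hc (by
    rw [← commutatorElement_def]
    exact Subgroup.commutator_mem_commutator (Subgroup.mem_top g) (Subgroup.mem_top x))⟩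
  map_one' := by
    apply Subtype.ext
    simp
  map_mul' x y := by
    apply Subtype.ext
    show g * (x * y) * g⁻¹ * (x * y)⁻¹ = (g * x * g⁻¹ * x⁻¹) * (g * y * g⁻¹ * y⁻¹)
    have hk : g * y * g⁻¹ * y⁻¹ ∈ Subgroup.center E := hc (by
      rw [← commutatorElement_def]
      exact Subgroup.commutator_mem_commutator (Subgroup.mem_top g) (Subgroup.mem_top y))
    have h1 := Subgroup.mem_center_iff.mp hk x⁻¹
    calc g * (x * y) * g⁻¹ * (x * y)⁻¹ = g * x * g⁻¹ * ((g * y * g⁻¹ * y⁻¹) * x⁻¹) := by group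
      _ = g * x * g⁻¹ * (x⁻¹ * (g * y * g⁻¹ * y⁻¹)) := by rw [h1]
      _ = (g * x * g⁻¹ * x⁻¹) * (g * y * g⁻¹ * y⁻¹) := by group

/-- `g ↦ (x ↦ g x g⁻¹ x⁻¹)` as a homomorphism -/
def commHom₂ (hc : commutator E ≤ Subgroup.center E) : E →* (E →* Subgroup.center E) where
  toFun g := commHom hc g
  map_one' := by
    ext x
    show 1 * x * 1⁻¹ * x⁻¹ = 1
    simp
  map_mul' g h := by
    ext x
    show g * h * x * (g * h)⁻¹ * x⁻¹ = (g * x * g⁻¹ * x⁻¹) * (h * x * h⁻¹ * x⁻¹)
    have hk : h * x * h⁻¹ * x⁻¹ ∈ Subgroup.center E := hc (by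
      rw [← commutatorElement_def]
      exact Subgroup.commutator_mem_commutator (Subgroup.mem_top h) (Subgroup.mem_top x))
    have h1 := Subgroup.mem_center_iff.mp hk (x * g⁻¹ * x⁻¹)
    calc g * h * x * (g * h)⁻¹ * x⁻¹ = g * ((h * x * h⁻¹ * x⁻¹) * (x * g⁻¹ * x⁻¹)) := by group
      _ = g * ((x * g⁻¹ * x⁻¹) * (h * x * h⁻¹ * x⁻¹)) := by rw [h1]
      _ = (g * x * g⁻¹ * x⁻¹) * (h * x * h⁻¹ * x⁻¹) := by group

theorem ker_commHom₂ (hc : commutator E ≤ Subgroup.center E) :
    (commHom₂ hc).ker = Subgroup.center E := by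
  ext g
  rw [MonoidHom.mem_ker, Subgroup.mem_center_iff]
  constructor
  · intro h x
    have h1 : g * x * g⁻¹ * x⁻¹ = 1 := congrArg Subtype.val (DFunLike.congr_fun h x)
    calc x * g = (g * x * g⁻¹ * x⁻¹)⁻¹ * (g * x) := by group
      _ = g * x := by rw [h1]; simp
  · intro h
    ext x
    show g * x * g⁻¹ * x⁻¹ = 1
    rw [← h x]
    group

theorem card_hom_le [Finite E] (hcomm : commutator E = Subgroup.center E)
    (h2 : Nat.card (Subgroup.center E) = 2) :
    Nat.card (E →* Subgroup.center E) ≤ Nat.card (E ⧸ Subgroup.center E) := by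
  have hA : Nat.card (Abelianization E) = Nat.card (E ⧸ Subgroup.center E) := by
    unfold Abelianization
    rw [hcomm]
  rw [← hA]
  have : NeZero ((Monoid.exponent (Abelianization E) : ℕ) : ℂ) :=
    ⟨by exact_mod_cast Monoid.exponent_ne_zero_of_finite⟩
  have : NeZero ((Monoid.exponent (Subgroup.center E) : ℕ) : ℂ) :=
    ⟨by exact_mod_cast Monoid.exponent_ne_zero_of_finite⟩
  rw [← CommGroup.card_monoidHom_of_hasEnoughRootsOfUnity (Abelianization E) ℂ]
  have hfin : Finite (Abelianization E →* ℂˣ) :=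
    Finite.of_equiv _ (CommGroup.monoidHom_mulEquiv_of_hasEnoughRootsOfUnity
      (Abelianization E) ℂ).some.toEquiv.symm
  obtain ⟨z, hz, hz'⟩ := (Nat.card_eq_two_iff' (1 : Subgroup.center E)).mp h2
  obtain ⟨χ, hχ⟩ := CommGroup.exists_apply_ne_one_of_hasEnoughRootsOfUnity (Subgroup.center E) ℂ hz
  have hinj : Function.Injective χ := by
    rw [injective_iff_map_eq_one]
    intro a ha
    by_contra hne
    rw [hz' a hne] at ha
    exact hχ ha
  apply Nat.card_le_card_of_injective (fun f : E →* Subgroup.center E => χ.comp (Abelianization.lift f))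
  intro f f' hff
  apply Abelianization.lift.injective
  ext a
  have := DFunLike.congr_fun hff (Abelianization.of a)
  exact congrArg Subtype.val (hinj this)

end

/-- For a finite extraspecial 2-group E, an automorphism of E that induces the identity on E modulo its centre is inner (so these automorphisms form exactly the inner automorphism group, an elementary abelian 2-group of order |E|/2). -/
theorem result {E : Type*} [Group E] [Finite E] (hE : Cfsg.IsExtraspecial 2 E) (φ : E ≃* E) (hφ : ∀ x : E, φ x * x⁻¹ ∈ Subgroup.center E) : ∃ g : E, ∀ x : E, φ x = g * x * g⁻¹ := by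
  open scoped IsMulCommutative in
  have hcomm : commutator E = Subgroup.center E := hE.1.2.2
  have hc : commutator E ≤ Subgroup.center E := hcomm.le
  have h2 : Nat.card (Subgroup.center E) = 2 := hE.2
  have hle := card_hom_le hcomm h2
  have hfin : Finite (E →* Subgroup.center E) :=
    Finite.of_injective (fun f : E →* Subgroup.center E => (f : E → Subgroup.center E)) DFunLike.coe_injective
  have hbij : Function.Bijective (QuotientGroup.kerLift (commHom₂ hc)) := by
    apply Function.Injective.bijective_of_nat_card_le (QuotientGroup.kerLift_injective _)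
    rw [ker_commHom₂ hc]
    exact hle
  let lam : E →* Subgroup.center E :=
    { toFun := fun x => ⟨φ x * x⁻¹, hφ x⟩
      map_one' := by
        apply Subtype.ext
        simp
      map_mul' := fun x y => by
        apply Subtype.ext
        show φ (x * y) * (x * y)⁻¹ = (φ x * x⁻¹) * (φ y * y⁻¹)
        have h1 := Subgroup.mem_center_iff.mp (hφ y) x⁻¹
        rw [map_mul]
        calc φ x * φ y * (x * y)⁻¹ = φ x * ((φ y * y⁻¹) * x⁻¹) := by group
          _ = φ x * (x⁻¹ * (φ y * y⁻¹)) := by rw [h1]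
          _ = (φ x * x⁻¹) * (φ y * y⁻¹) := by group }
  obtain ⟨q, hq⟩ := hbij.2 lam
  obtain ⟨g, rfl⟩ := QuotientGroup.mk_surjective q
  refine ⟨g, fun x => ?_⟩
  have h3 : g * x * g⁻¹ * x⁻¹ = φ x * x⁻¹ := congrArg Subtype.val (DFunLike.congr_fun hq x)
  exact (mul_right_cancel h3).symm

end Cfsg.Agent.S5395
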