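import Cfsg.Statements.S5406
import Cfsg.Agent.Lib.Helper93Monster5

set_option autoImplicit false
open Cfsg

namespace Cfsg.Agent.S5406

open Cfsg.Agent.Lib.Helper93Monster Cfsg.Agent.Lib.Helper93Monster5

/-- Let G be a finite group of Monster type at the involution z with Q the extraspecial normal subgroup of order 2^25 of C = C_G(z) (so C/Q is identified with the first Conway group with Q modulo its centre the Leech lattice modulo 2, and z is not weakly closed in Q). Then C acts transitively by conjugation on the conjugates of z that lie in Q and differ from z. -/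
theorem result {G : Type*} [Group G] [Finite G] (z : G) (Q : Subgroup (Subgroup.centralizer ({z} : Set G))) [Q.Normal] (hM : Cfsg.IsOfMonsterType z Q) (s t : G) (hsQ : ∃ hsc : s ∈ Subgroup.centralizer ({z} : Set G), (⟨s, hsc⟩ : Subgroup.centralizer ({z} : Set G)) ∈ Q) (htQ : ∃ htc : t ∈ Subgroup.centralizer ({z} : Set G), (⟨t, htc⟩ : Subgroup.centralizer ({z} : Set G)) ∈ Q) (hs : IsConj z s) (ht : IsConj z t) (hs1 : s ≠ z) (ht1 : t ≠ z) : ∃ h ∈ Subgroup.centralizer ({z} : Set G), h * s * h⁻¹ = t := by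
  obtain ⟨⟨hz2, hF, hE, hcard, -⟩, e, ψ, hψ⟩ := hM
  have hP := pk_z hz2 hE hF
  obtain ⟨hsc, hsQ'⟩ := hsQ
  obtain ⟨htc, htQ'⟩ := htQ
  rw [isConj_iff] at hs ht
  obtain ⟨k, hk⟩ := hs
  obtain ⟨l, hl⟩ := ht
  obtain ⟨-, vs, hns, hvs⟩ := type4_of_conj hz2 hE hF hcard hψ
    (⟨⟨s, hsc⟩, hsQ'⟩ : Q) k hk.symm (by rw [hk]; exact hs1)
  obtain ⟨htC, vt, hnt, hvt⟩ := type4_of_conj hz2 hE hF hcard hψ
    (⟨⟨t, htc⟩, htQ'⟩ : Q) l hl.symm (by rw [hl]; exact ht1)
  obtain ⟨h, hh⟩ := conj_of_same_norm hP hψ hvs hvt (by rw [hns, hnt]) (by rw [hns]) htC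
  exact ⟨h, h.2, congrArg (fun x : Q => ((x : Subgroup.centralizer ({z} : Set G)) : G)) hh⟩

end Cfsg.Agent.S5406
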