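import Cfsg.Statements.S5409
import Cfsg.Agent.Lib.Helper93Monster7

set_option autoImplicit false
open Cfsg

namespace Cfsg.Agent.S5409

open Cfsg.Agent.Lib.Helper93Monster Cfsg.Agent.Lib.Helper93Monster4 Cfsg.Agent.Lib.Helper93Monster7

/-- Let G be a finite group of Monster type at the involution z with Q the extraspecial normal subgroup of order 2^25 of C = C_G(z) (so C/Q is identified with the first Conway group with Q modulo its centre the Leech lattice modulo 2, and z is not weakly closed in Q). Then for a conjugate s = g z g⁻¹ of z lying in Q and different from z, the intersection of Q with its conjugate g Q g⁻¹ (both regarded as subgroups of G) has order 2^13. -/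
theorem result {G : Type*} [Group G] [Finite G] (z : G) (Q : Subgroup (Subgroup.centralizer ({z} : Set G))) [Q.Normal] (hM : Cfsg.IsOfMonsterType z Q) (s : G) (hsQ : ∃ hsc : s ∈ Subgroup.centralizer ({z} : Set G), (⟨s, hsc⟩ : Subgroup.centralizer ({z} : Set G)) ∈ Q) (hs : IsConj z s) (hs1 : s ≠ z) (g : G) (hg : g * z * g⁻¹ = s) : Nat.card ↥((Q.map (Subgroup.centralizer ({z} : Set G)).subtype) ⊓ (Q.map (Subgroup.centralizer ({z} : Set G)).subtype).map (MulAut.conj g).toMonoidHom) = 2 ^ 13 := by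
  obtain ⟨hsc, hsQ'⟩ := hsQ
  obtain ⟨e, ψ, H⟩ := exists_ctx hM g ⟨⟨s, hsc⟩, hsQ'⟩ hg.symm (by rw [hg]; exact hs1)
  have h1 : (Q.map (Subgroup.centralizer ({z} : Set G)).subtype) ⊓
      (Q.map (Subgroup.centralizer ({z} : Set G)).subtype).map (MulAut.conj g).toMonoidHom
      = (BB Q g).map ((Subgroup.centralizer ({z} : Set G)).subtype.comp Q.subtype) := by
    ext x
    rw [Subgroup.mem_inf, Subgroup.mem_map, Subgroup.mem_map, Subgroup.mem_map]
    constructor
    · rintro ⟨⟨c, hc, rfl⟩, ⟨_, ⟨c', hc', rfl⟩, h⟩⟩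
      exact ⟨⟨c, hc⟩, ⟨⟨c', hc'⟩, h⟩, rfl⟩
    · rintro ⟨q, ⟨q', hq'⟩, rfl⟩
      exact ⟨⟨q.1, q.2, rfl⟩, ⟨q'.1.1, ⟨q'.1, q'.2, rfl⟩, hq'⟩⟩
  have hinj : Function.Injective ((Subgroup.centralizer ({z} : Set G)).subtype.comp Q.subtype) := by
    intro a b hab
    exact Subtype.ext (Subtype.ext hab)
  rw [h1, Subgroup.card_map_of_injective hinj, H.cards.1]

end Cfsg.Agent.S5409
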