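import Cfsg.Statements.S5410
import Cfsg.Agent.Lib.Helper93Monster7

set_option autoImplicit false
open Cfsg

namespace Cfsg.Agent.S5410

open Cfsg.Agent.Lib.Helper93Monster Cfsg.Agent.Lib.Helper93Monster4 Cfsg.Agent.Lib.Helper93Monster7

/-- Let G be a finite group of Monster type at the involution z with Q the extraspecial normal subgroup of order 2^25 of C = C_G(z) (so C/Q is identified with the first Conway group with Q modulo its centre the Leech lattice modulo 2, and z is not weakly closed in Q). Let g in G with s = g z g⁻¹ a member of Q other than z, let X be the image in C/Q of the centralizer of s in C, and let E be the image in C/Q of the intersection of g Q g⁻¹ with C. Then E is a normal subgroup of X, elementary abelian of order 2^11, and it has a complement in X isomorphic to the Mathieu group of degree 24 (the automorphism group of the length-24 binary Golay code). -/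
theorem result {G : Type*} [Group G] [Finite G] (z : G) (Q : Subgroup (Subgroup.centralizer ({z} : Set G))) [Q.Normal] (hM : Cfsg.IsOfMonsterType z Q) (s : G) (hsQ : ∃ hsc : s ∈ Subgroup.centralizer ({z} : Set G), (⟨s, hsc⟩ : Subgroup.centralizer ({z} : Set G)) ∈ Q) (hs : IsConj z s) (hs1 : s ≠ z) (g : G) (hg : g * z * g⁻¹ = s) (X E : Subgroup ((Subgroup.centralizer ({z} : Set G)) ⧸ Q)) (hX : X = ((Subgroup.centralizer ({z} : Set G) ⊓ Subgroup.centralizer ({s} : Set G)).subgroupOf (Subgroup.centralizer ({z} : Set G))).map (QuotientGroup.mk' Q)) (hE : E = (((Q.map (Subgroup.centralizer ({z} : Set G)).subtype).map (MulAut.conj g).toMonoidHom ⊓ Subgroup.centralizer ({z} : Set G)).subgroupOf (Subgroup.centralizer ({z} : Set G))).map (QuotientGroup.mk' Q)) : E ≤ X ∧ (∀ x ∈ X, ∀ y ∈ E, x * y * x⁻¹ ∈ E) ∧ Cfsg.IsElementaryAbelian 2 E ∧ Nat.card E = 2 ^ 11 ∧ ∃ K : Subgroup ((Subgroup.centralizer ({z} : Set G)) ⧸ Q), K ≤ X ∧ E ⊓ K = ⊥ ∧ E ⊔ K = X ∧ Nonempty (K ≃* Cfsg.M24) := by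
  obtain ⟨hsc, hsQ'⟩ := hsQ
  obtain ⟨e, ψ, H⟩ := exists_ctx hM g ⟨⟨s, hsc⟩, hsQ'⟩ hg.symm (by rw [hg]; exact hs1)
  have hX' : X = XX (⟨⟨s, hsc⟩, hsQ'⟩ : Q) := by
    rw [hX]
    unfold XX
    congr 1
    ext h
    rw [Subgroup.mem_subgroupOf, Subgroup.mem_inf, Subgroup.mem_centralizer_singleton_iff,
      Subgroup.mem_centralizer_singleton_iff, Subgroup.mem_centralizer_singleton_iff]
    constructor
    · rintro ⟨-, h2⟩
      exact Subtype.ext h2
    · intro h2
      exact ⟨Subgroup.mem_centralizer_singleton_iff.1 h.2,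
        congrArg (fun u : Subgroup.centralizer ({z} : Set G) => (u : G)) h2⟩
  have hE' : E = EE Q g := by
    rw [hE]
    unfold EE
    congr 1
    ext h
    rw [Subgroup.mem_subgroupOf, Subgroup.mem_inf, Subgroup.mem_map, mem_ER]
    constructor
    · rintro ⟨⟨_, ⟨c', hc', rfl⟩, h2⟩, -⟩
      exact ⟨⟨c', hc'⟩, h2⟩
    · rintro ⟨q, hq⟩
      exact ⟨⟨q.1.1, ⟨q.1, q.2, rfl⟩, hq⟩, h.2⟩
  rw [hX', hE']
  exact ⟨H.EE_le_XX, H.conj_mem_EE, H.EE_elem, H.cards.2, H.complement⟩

end Cfsg.Agent.S5410
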