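import Cfsg.Statements.S5412
import Cfsg.Agent.Lib.Helper93Monster13

set_option autoImplicit false
open Cfsg

namespace Cfsg.Agent.S5412

open Cfsg.Agent.Lib.Helper93Monster Cfsg.Agent.Lib.Helper93Monster4 Cfsg.Agent.Lib.Helper93Monster9
  Cfsg.Agent.Lib.Helper93Monster10 Cfsg.Agent.Lib.Helper93Monster12 Cfsg.Agent.Lib.Helper93Monster13

/-- Let G be a finite group of Monster type at the involution z with Q the extraspecial normal subgroup of order 2^25 of C = C_G(z) (so C/Q is identified with the first Conway group with Q modulo its centre the Leech lattice modulo 2, and z is not weakly closed in Q). Let t be an involution of Q not conjugate to z in G. Then the centralizer of t modulo the subgroup generated by t is a group of Baby Monster type (an involution whose centralizer D has generalized Fitting subgroup R extraspecial of order 2^23 with D/R identified with the second Conway group acting on R modulo its centre as on the vectors of the Leech lattice modulo 2 orthogonal to a short vector, modulo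 that vector; the involution not weakly closed in R). -/
theorem result {G : Type*} [Group G] [Finite G] (z : G) (Q : Subgroup (Subgroup.centralizer ({z} : Set G))) [Q.Normal] (hM : Cfsg.IsOfMonsterType z Q) (t : G) (htQ : ∃ htc : t ∈ Subgroup.centralizer ({z} : Set G), (⟨t, htc⟩ : Subgroup.centralizer ({z} : Set G)) ∈ Q) (ht2 : orderOf t = 2) (ht : ¬ IsConj z t) [hn : ((Subgroup.zpowers t).subgroupOf (Subgroup.centralizer ({t} : Set G))).Normal] : Cfsg.IsOfBabyMonsterType (↥(Subgroup.centralizer ({t} : Set G)) ⧸ (Subgroup.zpowers t).subgroupOf (Subgroup.centralizer ({t} : Set G))) := by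
  obtain ⟨htc, htQ'⟩ := htQ
  obtain ⟨e, ψ, H⟩ := exists_ctx2 hM (⟨⟨t, htc⟩, htQ'⟩ : Q) ht2 ht
  obtain ⟨x, s', hxt, hsx, hst, hsz⟩ := exists_nwc hM (⟨⟨t, htc⟩, htQ'⟩ : Q) ht2 ht
  have htt : (((⟨⟨t, htc⟩, htQ'⟩ : Q) : Subgroup.centralizer ({z} : Set G)) : G) = t := rfl
  have hnorm := RR_normal (hn := hn) H htt
  obtain ⟨e', he'⟩ := exists_equiv (hn := hn) H htt
  have hz1 : z ≠ 1 := by
    intro h
    have := H.hz2
    rw [h, orderOf_one] at this
    omega
  have hzt : z ≠ t := fun h => ht (h ▸ IsConj.refl z)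
  refine ⟨P1 (hn := hn) htt (zH _), RR (hn := hn) Q htt, hnorm,
    ⟨?_, gfit_RR H htt, extraspecial_RR H htt, card_RR H htt, ?_⟩, e', psiT H htt,
    isLeechPerp H htt e' he'⟩
  · apply orderOf_eq_prime
    · rw [← map_pow]
      have : (zH (⟨⟨t, htc⟩, htQ'⟩ : Q)) ^ 2 = 1 := by
        apply Subtype.ext
        apply Subtype.ext
        show z ^ 2 = 1
        rw [sq]; exact z_sq H
      rw [this, map_one]
    · intro h
      rcases (P1_eq_one_iff htt (t_sq' H htt) _).1 h with h1 | h1
      · exact hz1 h1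
      · exact hzt h1
  · have hxC : x ∈ Subgroup.centralizer ({t} : Set G) :=
      Subgroup.mem_centralizer_singleton_iff.2 hxt
    have hsH : (s' : Subgroup.centralizer ({z} : Set G)) ∈ HH (⟨⟨t, htc⟩, htQ'⟩ : Q) :=
      mem_HH.2 (congrArg (fun u : Q => (u : Subgroup.centralizer ({z} : Set G))) hst)
    have hconj : (QuotientGroup.mk (⟨x, hxC⟩ : Subgroup.centralizer ({t} : Set G)) :
        _ ⧸ (Subgroup.zpowers t).subgroupOf (Subgroup.centralizer ({t} : Set G))) *
        P1 (hn := hn) htt (zH _) * (QuotientGroup.mk (⟨x, hxC⟩ : Subgroup.centralizer ({t} : Set G)))⁻¹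
        = P1 (hn := hn) htt ⟨(s' : Subgroup.centralizer ({z} : Set G)), hsH⟩ := by
      show (QuotientGroup.mk ((⟨x, hxC⟩ : Subgroup.centralizer ({t} : Set G)) * P0 htt (zH _) *
        (⟨x, hxC⟩ : Subgroup.centralizer ({t} : Set G))⁻¹) : _ ⧸ _) = QuotientGroup.mk (P0 htt _)
      congr 1
      apply Subtype.ext
      exact hsx.symm
    refine ⟨QuotientGroup.mk (⟨x, hxC⟩ : Subgroup.centralizer ({t} : Set G)), ?_, ?_⟩
    · rw [hconj]
      exact ⟨(PP (hn := hn) htt ⟨(s' : Subgroup.centralizer ({z} : Set G)), hsH⟩).2,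
        ⟨⟨(s' : Subgroup.centralizer ({z} : Set G)), hsH⟩, s'.2, rfl⟩⟩
    · rw [hconj]
      intro h
      have h1 : P1 (hn := hn) htt (⟨(s' : Subgroup.centralizer ({z} : Set G)), hsH⟩ * (zH _)⁻¹) = 1 := by
        rw [map_mul, map_inv, h, mul_inv_cancel]
      rcases (P1_eq_one_iff htt (t_sq' H htt) _).1 h1 with h2 | h2
      · have h3 : ((s' : Subgroup.centralizer ({z} : Set G)) : G) * z⁻¹ = 1 := h2
        exact hsz (mul_inv_eq_one.1 h3)
      · have h3 : ((s' : Subgroup.centralizer ({z} : Set G)) : G) * z⁻¹ = t := h2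
        apply tz_not_conj H htt
        rw [isConj_iff]
        exact ⟨x, by rw [← hsx]; exact mul_inv_eq_iff_eq_mul.1 h3⟩

end Cfsg.Agent.S5412
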