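import Cfsg.Statements.S5423
import Cfsg.Agent.Lib.H12XAgl
import Cfsg.Agent.Lib.H12XLarge
import Cfsg.Agent.Lib.Helper1Fitting

set_option autoImplicit false
open Cfsg

namespace Cfsg.Agent.S5423

/-- Let G be a finite group that is the split extension of an elementary abelian normal subgroup U of order 2^(n+1), n ≥ 1, by its full automorphism group: U has a complement M in G whose conjugation action on U is faithful and realizes every automorphism of U. Let Z be a subgroup of U of order 2 and Q the largest normal 2-subgroup of the centralizer C of Z. Then Q is extraspecial of order 2^(2n+1) with an elementary abelian subgroup of order 2^(n+1) (plus type), Q is a large extraspecial 2-subgroup of G, and C is the split extension of Q by the general linear group of degree n over the field with two elements. -/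
theorem result {G : Type*} [Group G] [Finite G] (n : ℕ) (hn : 1 ≤ n) (U M : Subgroup G) [U.Normal] (hU : Cfsg.IsElementaryAbelian 2 U) (hUcard : Nat.card ↥U = 2 ^ (n + 1)) (hUM : U ⊓ M = ⊥) (hUM' : U ⊔ M = ⊤) (hfaith : ∀ m ∈ M, (∀ u ∈ U, m * u * m⁻¹ = u) → m = 1) (hfull : ∀ φ : ↥U ≃* ↥U, ∃ m ∈ M, ∀ u : ↥U, ((φ u : ↥U) : G) = m * u * m⁻¹) (Z : Subgroup G) (hZU : Z ≤ U) (hZ : Nat.card ↥Z = 2) (Q : Subgroup G) (hQ : Q = (Cfsg.pCore 2 ↥(Subgroup.centralizer (Z : Set G))).map (Subgroup.centralizer (Z : Set G)).subtype) : Cfsg.IsExtraspecial 2 ↥Q ∧ Nat.card ↥Q = 2 ^ (2 * n + 1) ∧ (∃ E : Subgroup G, E ≤ Q ∧ Cfsg.IsElementaryAbelian 2 E ∧ Nat.card ↥E = 2 ^ (n + 1)) ∧ Cfsg.IsLargeExtraspecial Q ∧ ∃ K : Subgroup G, K ≤ Subgroup.centralizer (Z : Set G) ∧ Q ⊓ K = ⊥ ∧ Q ⊔ K = Subgroup.centralizer (Z : Set G) ∧ Nonempty (↥K ≃* Matrix.GeneralLinearGroup (Fin n) (ZMod 2)) := by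
  classical
  -- a generator of `Z`
  obtain ⟨z, hz1, hZz⟩ : ∃ z : G, z ≠ 1 ∧ Z = Subgroup.zpowers z := by
    have : Fact (Nat.Prime 2) := ⟨Nat.prime_two⟩
    have hne : Z ≠ ⊥ := by
      intro h
      rw [h, Subgroup.card_bot] at hZ
      omega
    obtain ⟨z, hzZ, hz1⟩ := (Subgroup.ne_bot_iff_exists_ne_one.1 hne |> fun ⟨a, ha⟩ => (⟨a.1, a.2, fun h => ha (Subtype.ext h)⟩ : ∃ z : G, z ∈ Z ∧ z ≠ 1))
    refine ⟨z, hz1, ?_⟩
    have hle : Subgroup.zpowers z ≤ Z := Subgroup.zpowers_le.2 hzZ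
    have hfin : Finite ↥Z := inferInstance
    symm
    apply Subgroup.eq_of_le_of_card_ge hle
    rw [hZ, Nat.card_zpowers]
    have h1 : orderOf z ≠ 1 := fun h => hz1 (orderOf_eq_one_iff.1 h)
    have h0 : 0 < orderOf z := orderOf_pos z
    omega
  have hcen : Subgroup.centralizer (Z : Set G) = Subgroup.centralizer ({z} : Set G) := by
    rw [hZz]
    ext x
    rw [Subgroup.mem_centralizer_iff, Subgroup.mem_centralizer_iff]
    constructor
    · intro h y hy
      rw [Set.mem_singleton_iff] at hy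
      subst hy
      exact h _ (Subgroup.mem_zpowers _)
    · rintro h _ ⟨i, rfl⟩
      have h1 : Commute z x := h z rfl
      exact (h1.zpow_left i)
  rw [hcen] at hQ ⊢
  have hzU : z ∈ U := hZU (by rw [hZz]; exact Subgroup.mem_zpowers z)
  have hA : Cfsg.Agent.Lib.H12XDefs.Agl n U M z :=
    { elem := hU
      card := hUcard
      norm := fun m _ u hu => ‹U.Normal›.conj_mem u hu m
      inf := hUM
      faith := hfaith
      full := hfull
      zU := hzU
      z1 := hz1
      cent := fun c _ => by rw [hUM']; exact Subgroup.mem_top c }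
  obtain ⟨Q', hQ', hC, -⟩ := Cfsg.Agent.Lib.H12XAgl.agl_main hn hA
  have hQQ : Q = Q' := hQ.trans hQ'
  subst hQQ
  have hUp : IsPGroup 2 ↥U := by
    intro u
    refine ⟨1, ?_⟩
    apply Subtype.ext
    have := hU.2 u.1 u.2
    simpa using this
  have hzp : z ∈ Cfsg.pCore 2 G := Cfsg.Agent.Lib.Helper1Fitting.le_pCore ‹U.Normal› hUp hzU
  have hL := Cfsg.Agent.Lib.H12XLarge.large_of_mem_pCore hC hzp
  obtain ⟨h1, h2, h3, -, -, -, h7⟩ := hC
  exact ⟨h1, h2, h3, hL, h7⟩


end Cfsg.Agent.S5423
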