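import Cfsg.Statements.S5425
import Cfsg.Agent.Lib.H12XAgl
import Cfsg.Agent.Lib.H12XLarge
import Cfsg.Agent.Lib.H12XGLSL
import Cfsg.Agent.Lib.H12XM24c
import Cfsg.Agent.Lib.H12XAut16
import Cfsg.Agent.Lib.H12XFull

set_option autoImplicit false
open Cfsg

namespace Cfsg.Agent.S5425

/-- In the Mathieu group of degree 24 (the automorphism group of the length-24 binary Golay code, acting on the 24 coordinates), let z be an involution whose fixed points form an octad (the support of a code word of weight 8), and let Q be the largest normal 2-subgroup of the centralizer C of z. Then Q is extraspecial of order 2^7 with an elementary abelian subgroup of order 16 (plus type), Q is a large extraspecial 2-subgroup, and C is the split extension of Q by the special linear group of degree 3 over the field with two elements. -/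
theorem result (z : ↥Cfsg.M24) (hz : orderOf z = 2) (hfix : (Finset.univ.filter fun p : Cfsg.GolayPt => (z : Equiv.Perm Cfsg.GolayPt) p = p) ∈ Cfsg.octads) (Q : Subgroup ↥Cfsg.M24) (hQ : Q = (Cfsg.pCore 2 ↥(Subgroup.centralizer ({z} : Set ↥Cfsg.M24))).map (Subgroup.centralizer ({z} : Set ↥Cfsg.M24)).subtype) : Cfsg.IsExtraspecial 2 ↥Q ∧ Nat.card ↥Q = 2 ^ 7 ∧ (∃ E : Subgroup ↥Cfsg.M24, E ≤ Q ∧ Cfsg.IsElementaryAbelian 2 E ∧ Nat.card ↥E = 2 ^ 4) ∧ Cfsg.IsLargeExtraspecial Q ∧ ∃ K : Subgroup ↥Cfsg.M24, K ≤ Subgroup.centralizer ({z} : Set ↥Cfsg.M24) ∧ Q ⊓ K = ⊥ ∧ Q ⊔ K = Subgroup.centralizer ({z} : Set ↥Cfsg.M24) ∧ Nonempty (↥K ≃* Matrix.SpecialLinearGroup (Fin 3) (ZMod 2)) := by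
  obtain ⟨o, ho'⟩ : ∃ o : Finset Cfsg.GolayPt,
      (Finset.univ.filter fun p : Cfsg.GolayPt => (z : Equiv.Perm Cfsg.GolayPt) p = p) = o := ⟨_, rfl⟩
  have ho : o ∈ Cfsg.octads := ho' ▸ hfix
  obtain ⟨p, hp⟩ := Cfsg.Agent.Lib.H12XM24b.exists_not_mem ho
  have hz1 : z ≠ 1 := by
    intro h
    rw [h, orderOf_one] at hz
    omega
  have hfaith := Cfsg.Agent.Lib.H12XM24c.faith ho hp
  have hnorm : ∀ m ∈ Cfsg.Agent.Lib.H12XM24Defs.M24p o p, ∀ u ∈ Cfsg.Agent.Lib.H12XM24Defs.U24 o,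
      m * u * m⁻¹ ∈ Cfsg.Agent.Lib.H12XM24Defs.U24 o := Cfsg.Agent.Lib.H12XM24b.norm
  have hA : Cfsg.Agent.Lib.H12XDefs.Agl 3 (Cfsg.Agent.Lib.H12XM24Defs.U24 o)
      (Cfsg.Agent.Lib.H12XM24Defs.M24p o p) z :=
    { elem := Cfsg.Agent.Lib.H12XM24a.elem ho
      card := Cfsg.Agent.Lib.H12XM24a.card_U ho
      norm := hnorm
      inf := Cfsg.Agent.Lib.H12XM24a.inf ho hp
      faith := hfaith
      full := Cfsg.Agent.Lib.H12XFull.full_of_card hnorm hfaith (by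
        rw [Cfsg.Agent.Lib.H12XM24a.card_M ho hp]
        exact Cfsg.Agent.Lib.H12XAut16.card_mulAut_le (Cfsg.Agent.Lib.H12XM24a.elem ho)
          (Cfsg.Agent.Lib.H12XM24a.card_U ho))
      zU := Cfsg.Agent.Lib.H12XM24b.z_mem z ho'
      z1 := hz1
      cent := fun c hc => Cfsg.Agent.Lib.H12XM24a.le_sup ho hp (Cfsg.Agent.Lib.H12XM24b.cent z ho' c hc) }
  obtain ⟨Q', hQ', hC, g, hg1, hg2⟩ := Cfsg.Agent.Lib.H12XAgl.agl_main (by omega) hA
  have hQQ : Q = Q' := hQ.trans hQ'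
  subst hQQ
  have hL := Cfsg.Agent.Lib.H12XLarge.large_of_conj (by omega) hC g hg1 hg2
  obtain ⟨h1, h2, h3, -, -, -, K, hK1, hK2, hK3, ⟨eK⟩⟩ := hC
  obtain ⟨e2⟩ := Cfsg.Agent.Lib.H12XGLSL.glsl 3
  exact ⟨h1, h2, h3, hL, K, hK1, hK2, hK3, ⟨eK.trans e2⟩⟩


end Cfsg.Agent.S5425
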