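import Cfsg.Statements.S5427
import Cfsg.Agent.Lib.Helper36Large

set_option autoImplicit false
open Cfsg

namespace Cfsg.Agent.S5427

open Subgroup
open Cfsg.Agent.Lib.Helper36Extra Cfsg.Agent.Lib.Helper36GF2 Cfsg.Agent.Lib.Helper36Simple
open Cfsg.Agent.Lib.Helper36Large Cfsg.Agent.Lib.Helper94Extra

/-- Let z be an involution of the finite group G whose centralizer C has generalized Fitting subgroup Q, an extraspecial 2-group of width at least 2 (order 2^(2w+1), w ≥ 2). Let K be a subgroup of G such that the subgroup U generated by the K-conjugates of z is abelian and C is generated by the C-conjugates of U. Suppose that either some K-conjugate of z other than z lies in Q, or some element u of U ∩ Q outside the subgroup generated by z has z in the largest normal 2-subgroup of its centralizer. Then G is simple and Q is a large extraspecial 2-subgroup of G. -/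
theorem result {G : Type*} [Group G] [Finite G] (z : G) (hz : orderOf z = 2) (Q : Subgroup G) (hQC : Q ≤ Subgroup.centralizer ({z} : Set G)) (hF : (Cfsg.generalizedFittingSubgroup ↥(Subgroup.centralizer ({z} : Set G))).map (Subgroup.centralizer ({z} : Set G)).subtype = Q) (hQ : Cfsg.IsExtraspecial 2 ↥Q) (w : ℕ) (hw : 2 ≤ w) (hcard : Nat.card ↥Q = 2 ^ (2 * w + 1)) (K U : Subgroup G) (hU : U = Subgroup.closure {x : G | ∃ k ∈ K, x = k * z * k⁻¹}) (hUab : IsMulCommutative ↥U) (hgen : Subgroup.closure {x : G | ∃ c ∈ Subgroup.centralizer ({z} : Set G), ∃ u ∈ U, x = c * u * c⁻¹} = Subgroup.centralizer ({z} : Set G)) (h3 : (∃ k ∈ K, k * z * k⁻¹ ∈ Q ∧ k * z * k⁻¹ ≠ z) ∨ ∃ u ∈ U ⊓ Q, u ∉ Subgroup.zpowers z ∧ (∃ hz' : z ∈ Subgroup.centralizer ({u} : Set G), (⟨z, hz'⟩ : ↥(Subgroup.centralizer ({u} : Set G))) ∈ Cfsg.pCore 2 ↥(Subgroup.centralizer ({u} : Set G)))) : IsSimpleGroup G ∧ Cfsg.IsLargeExtraspecial Q := by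
  have hQF : QF z = Q := hF
  subst hQF
  have hz1 : z ≠ 1 := by
    rintro rfl
    simp at hz
  have hzz : z * z = 1 := by rw [← pow_two, ← hz]; exact pow_orderOf_eq_one z
  have hQ2 : IsPGroup 2 (QF z) := IsPGroup.of_card hcard
  obtain ⟨w', hw'⟩ := ex_of_isExtraspecial (QF z) hQ
  have hE : Ex (QF z) z := by
    have h2 : z = 1 ∨ z = w' := by
      apply hw'.center z (self_mem_QF z)
      intro b hb
      exact (mem_CC.mp (QF_le z hb)).symm
    rw [← h2.resolve_left hz1] at hw'
    exact hw'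
  -- elements of `U` are involutions
  have hU2 : ∀ u ∈ U, u * u = 1 := by
    intro u hu
    rw [hU] at hu
    induction hu using Subgroup.closure_induction with
    | mem x hx =>
      obtain ⟨k, -, rfl⟩ := hx
      calc k * z * k⁻¹ * (k * z * k⁻¹) = k * (z * z) * k⁻¹ := by group
        _ = 1 := by rw [hzz]; group
    | one => simp
    | mul x y hx hy ihx ihy =>
      have hc : x * y = y * x := by
        have := hUab.is_comm.comm ⟨x, hU ▸ hx⟩ ⟨y, hU ▸ hy⟩
        exact congrArg Subtype.val this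
      calc x * y * (x * y) = x * (y * x) * y := by group
        _ = x * (x * y) * y := by rw [hc]
        _ = (x * x) * (y * y) := by group
        _ = 1 := by rw [ihx, ihy, one_mul]
    | inv x hx ihx =>
      calc x⁻¹ * x⁻¹ = (x * x)⁻¹ := by group
        _ = 1 := by rw [ihx, inv_one]
  -- the good involution
  have hgood : ∃ u ∈ QF z, u * u = 1 ∧ u ≠ 1 ∧ u ≠ z ∧ z ∈ QQ u := by
    rcases h3 with ⟨k, hk, hkQ, hkz⟩ | ⟨u, hu, huz, hz', hzu⟩
    · refine ⟨k * z * k⁻¹, hkQ, ?_, ?_, hkz, mem_QQ_conj_of hz hQ2 hQ k hkQ⟩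
      · calc k * z * k⁻¹ * (k * z * k⁻¹) = k * (z * z) * k⁻¹ := by group
          _ = 1 := by rw [hzz]; group
      · intro h
        apply hz1
        calc z = k⁻¹ * (k * z * k⁻¹) * k := by group
          _ = 1 := by rw [h]; group
    · rw [mem_inf] at hu
      refine ⟨u, hu.2, hU2 u hu.1, ?_, ?_, ⟨_, hzu, rfl⟩⟩
      · rintro rfl; exact huz (one_mem _)
      · rintro rfl; exact huz (mem_zpowers _)
  obtain ⟨u, huQ, hu2, hu1, huz, hzu⟩ := hgood
  have hT := eq_bot_of_normalized hE hQ2 huQ hu2 hu1 huz hzu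
  refine ⟨?_, isLargeExtraspecial_of hE hQ (fun Y hY hQY => hT Y (no_invol_of_odd hY) hQY)⟩
  have hnt : Nontrivial G := ⟨⟨z, 1, hz1⟩⟩
  refine ⟨fun N hN => ?_⟩
  by_cases hN1 : N = ⊥
  · left; exact hN1
  right
  have hzN : z ∈ N := by
    by_contra hzN
    apply hN1
    have hNQ : ∀ a ∈ N, a ∈ QF z → a = 1 := by
      intro a haN haQ
      by_contra ha1
      exact hzN (Ex.mem_of_normal hE hN haN haQ ha1)
    have hfpf : ∀ n ∈ N, z * n = n * z → n = 1 := by
      intro n hn hnz
      have hnC : n ∈ CC z := mem_CC.mpr hnz.symm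
      apply hNQ n hn
      apply centralizer_QF_le z
      refine mem_inf.mpr ⟨hnC, ?_⟩
      rw [mem_centralizer_iff]
      intro q hq
      have h1 : n * q * n⁻¹ * q⁻¹ ∈ N := by
        have := N.mul_mem hn (hN.conj_mem _ (N.inv_mem hn) q)
        simpa [mul_assoc] using this
      have h2 : n * q * n⁻¹ * q⁻¹ ∈ QF z :=
        (QF z).mul_mem (conj_mem_QF hnC hq) ((QF z).inv_mem hq)
      have h3 := hNQ _ h1 h2
      have h4 : n * q = q * n := by
        calc n * q = (n * q * n⁻¹ * q⁻¹) * (q * n) := by group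
          _ = q * n := by rw [h3, one_mul]
      exact h4.symm
    have hinv := inverts_of_fpf hzz (fun n hn => hN.conj_mem n hn z) hfpf
    apply hT N
    · intro a ha haa
      apply hfpf a ha
      have h1 := hinv a ha
      have h2 : a⁻¹ = a := inv_eq_of_mul_eq_one_left haa
      rw [h2] at h1
      calc z * a = (z * a * z⁻¹) * z := by group
        _ = a * z := by rw [h1]
    · rw [normalizer_eq_top_iff.mpr hN]; exact le_top
  apply eq_top_of_CC_le hE hQ2 hN
  have hUN : U ≤ N := by
    rw [hU, closure_le]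
    rintro _ ⟨k, -, rfl⟩
    exact hN.conj_mem z hzN k
  change centralizer ({z} : Set G) ≤ N
  rw [← hgen, closure_le]
  rintro _ ⟨c, -, u', hu', rfl⟩
  exact hN.conj_mem u' (hUN hu') c

end Cfsg.Agent.S5427
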