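import Cfsg.Statements.S5428
import Cfsg.Agent.Lib.Helper93LargeCrit2

set_option autoImplicit false
open Cfsg

namespace Cfsg.Agent.S5428

open Subgroup
open Cfsg.Agent.Lib.Helper36Extra Cfsg.Agent.Lib.Helper36GF2 Cfsg.Agent.Lib.Helper36Simple
open Cfsg.Agent.Lib.Helper36Large Cfsg.Agent.Lib.Helper94Extra
open Cfsg.Agent.Lib.Helper93Pk Cfsg.Agent.Lib.Helper93LargeCrit Cfsg.Agent.Lib.Helper93LargeCrit2
open scoped commutatorElement

/-- a non-central element of the fixed points is moved -/
theorem exists_move_fixed {G : Type*} [Group G] [Finite G] {Q : Subgroup G} {z : G} (hE : Ex Q z)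
    (hQ2 : IsPGroup 2 Q) (A : Subgroup G) (hAodd : Odd (Nat.card A))
    (hAQ : A ≤ normalizer (Q : Set G)) {x : G} (hx : x ∈ Q)
    (hxA : x ∈ centralizer (A : Set G)) (h1 : x ≠ 1) (h2 : x ≠ z) :
    ∃ p ∈ Q ⊓ centralizer (A : Set G), p * x * p⁻¹ = x * z := by
  by_contra hcon
  push Not at hcon
  rcases center_fixed hE hQ2 A hAodd hAQ hx hxA (by
    intro r hr
    rcases hE.comm r (mem_inf.1 hr).1 x hx with h | h
    · exact h
    · exfalso
      apply hcon r hr
      rw [h, mul_assoc x, hE.cen r (mem_inf.1 hr).1]; group) with h | h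
  · exact h1 h
  · exact h2 h

/-- Let z be an involution of the finite group G whose centralizer C has generalized Fitting subgroup Q extraspecial (as a 2-group), let A be a subgroup of C of odd order, and let R be the centralizer of A in Q; suppose R has order at least 32, the largest normal subgroup of odd order of the centralizer of the subgroup generated by A and R lies in A, the order of that centralizer is not divisible by 4, and g is an element of G with g z g⁻¹ in R but outside the centre Z of Q. Let M be the subgroup generated by A and the centralizer of A (A is normal in it). Then: the centralizer in M of the subgroup generated by R and A, joined with A, equals the subgroup generated by A and Z; the image of R in M/A is a large extraspecial 2-subgroup of M/A; and g z g⁻¹ is conjugate to z inside the subgroup generated by R and the centralizer of A in g Q g⁻¹. -/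
theorem result {G : Type*} [Group G] [Finite G] (z : G) (hz : orderOf z = 2) (Q : Subgroup G) (hQC : Q ≤ Subgroup.centralizer ({z} : Set G)) (hF : (Cfsg.generalizedFittingSubgroup ↥(Subgroup.centralizer ({z} : Set G))).map (Subgroup.centralizer ({z} : Set G)).subtype = Q) (hQ : Cfsg.IsExtraspecial 2 ↥Q) (A : Subgroup G) (hA : A ≤ Subgroup.centralizer ({z} : Set G)) (hAodd : Odd (Nat.card ↥A)) (R : Subgroup G) (hR : R = Q ⊓ Subgroup.centralizer (A : Set G)) (hR32 : 32 ≤ Nat.card ↥R) (hO : (Cfsg.oddCore ↥(Subgroup.centralizer ((A ⊔ R : Subgroup G) : Set G))).map (Subgroup.centralizer ((A ⊔ R : Subgroup G) : Set G)).subtype ≤ A) (h4 : ¬ 4 ∣ Nat.card ↥(Subgroup.centralizer ((A ⊔ R : Subgroup G) : Set G))) (g : G) (hgR : g * z * g⁻¹ ∈ R) (hgZ : g * z * g⁻¹ ∉ ((Subgroup.center ↥Q).map Q.subtype)) (M : Subgroup G) (hM : M = Subgroup.centralizer (A : Set G) ⊔ A) [hn : (A.subgroupOf M).Normal] : (M ⊓ Subgroup.centralizer ((R ⊔ A : Subgroup G) : Set G)) ⊔ A = A ⊔ ((Subgroup.center ↥Q).map Q.subtype)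 ∧ Cfsg.IsLargeExtraspecial ((R.subgroupOf M).map (QuotientGroup.mk' (A.subgroupOf M))) ∧ ∃ x ∈ R ⊔ ((Q).map (MulAut.conj g).toMonoidHom ⊓ Subgroup.centralizer (A : Set G)), x * (g * z * g⁻¹) * x⁻¹ = z := by
  have hQF : QF z = Q := hF
  subst hQF
  subst hR
  subst hM
  have hz1 : z ≠ 1 := by
    rintro rfl
    simp at hz
  have hzz : z * z = 1 := by rw [← pow_two, ← hz]; exact pow_orderOf_eq_one z
  have hQ2 : IsPGroup 2 (QF z) := hQ.1.1
  obtain ⟨w', hw'⟩ := ex_of_isExtraspecial (QF z) hQ
  have hE : Ex (QF z) z := by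
    have h2 : z = 1 ∨ z = w' := by
      apply hw'.center z (self_mem_QF z)
      intro b hb
      exact (mem_CC.mp (QF_le z hb)).symm
    rw [← h2.resolve_left hz1] at hw'
    exact hw'
  obtain ⟨s, hs⟩ : ∃ s, s = g * z * g⁻¹ := ⟨_, rfl⟩
  rw [← hs] at hgR hgZ ⊢
  obtain ⟨hgQ, hsA⟩ := mem_inf.1 hgR
  have hss : s * s = 1 := by
    rw [hs]
    calc g * z * g⁻¹ * (g * z * g⁻¹) = g * (z * z) * g⁻¹ := by group
      _ = 1 := by rw [hzz]; group
  have hs1 : s ≠ 1 := by
    intro h
    apply hz1
    calc z = g⁻¹ * (g * z * g⁻¹) * g := by group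
      _ = 1 := by rw [← hs, h]; group
  have hsz : s ≠ z := by
    intro h
    apply hgZ
    rw [h]
    refine ⟨⟨z, hE.mem⟩, ?_, rfl⟩
    rw [SetLike.mem_coe, mem_center_iff]
    intro r
    exact Subtype.ext (hE.cen r.1 r.2)
  have hAN : A ≤ normalizer (QF z : Set G) := hA.trans (CC_le_normalizer_QF z)
  have hzA : z ∈ centralizer (A : Set G) := by
    rw [mem_centralizer_iff]
    intro a ha
    exact mem_CC.1 (hA ha)
  obtain ⟨p, hp, hps⟩ := exists_move_fixed hE hQ2 A hAodd hAN hgQ hsA hs1 hsz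
  have hzQQ : z ∈ QQ s := by rw [hs]; exact mem_QQ_conj_of hz hQ2 hQ g (hs ▸ hgQ)
  have hzs : z * s = s * z := (hE.cen s hgQ).symm
  -- the conjugate of `Q`
  have hEg : Ex ((QF z).map (MulAut.conj g).toMonoidHom) s := by
    have := Ex.map_injective (f := (MulAut.conj g).toMonoidHom) (MulAut.conj g).injective hE
    rw [hs]
    exact this
  have hQg2 : IsPGroup 2 ((QF z).map (MulAut.conj g).toMonoidHom) := hQ2.map _
  have hQgs : (QF z).map (MulAut.conj g).toMonoidHom = QF s := by
    rw [hs]; exact (QF_conj g z).symm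
  have hANg : A ≤ normalizer (((QF z).map (MulAut.conj g).toMonoidHom : Subgroup G) : Set G) := by
    rw [hQgs]
    refine le_trans ?_ (CC_le_normalizer_QF s)
    intro a ha
    rw [mem_CC]
    exact (mem_centralizer_iff.1 hsA) a ha
  have hzQg : z ∈ (QF z).map (MulAut.conj g).toMonoidHom := by
    have hz' : g⁻¹ * z * g ∈ QF z := by
      rw [← QQ_eq_QF hQ2, ← mem_QQ_conj (g := g), ← hs]
      have : g * (g⁻¹ * z * g) * g⁻¹ = z := by group
      rw [this]
      exact hzQQ
    refine ⟨_, hz', ?_⟩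
    show g * (g⁻¹ * z * g) * g⁻¹ = z
    group
  obtain ⟨q', hq', hq'z⟩ := exists_move_fixed hEg hQg2 A hAodd hANg hzQg hzA hz1 (Ne.symm hsz)
  have hYA := no_invol_of_odd hAodd
  have hAQ1 : ∀ a, a ∈ A → a ∈ QF z → a = 1 := fun a h1 h2 => eq_one_of_isPGroup hYA hQ2 h1 h2
  have hzZ : z ∈ (center ↥(QF z)).map (QF z).subtype := by
    refine ⟨⟨z, hE.mem⟩, ?_, rfl⟩
    rw [SetLike.mem_coe, mem_center_iff]
    intro r
    exact Subtype.ext (hE.cen r.1 r.2)
  have hzX : z ∈ centralizer ((A ⊔ (QF z ⊓ centralizer (A : Set G)) : Subgroup G) : Set G) := by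
    rw [mem_centralizer_iff]
    intro h hh
    have h1 : A ⊔ (QF z ⊓ centralizer (A : Set G)) ≤ CC z := sup_le hA (inf_le_left.trans (QF_le z))
    exact mem_CC.1 (h1 hh)
  have hX : ∀ c, c ∈ centralizer ((A ⊔ (QF z ⊓ centralizer (A : Set G)) : Subgroup G) : Set G) →
      c ∈ A ∨ c * z ∈ A := by
    intro c hc
    have h1 := mem_oddCore_or
      (⟨z, hzX⟩ : ↥(centralizer ((A ⊔ (QF z ⊓ centralizer (A : Set G)) : Subgroup G) : Set G)))
      (by rw [Subgroup.orderOf_mk]; exact hz)
      (by
        intro x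
        apply Subtype.ext
        have h2 := (mem_centralizer_iff.1 x.2) z (mem_sup_right (mem_inf.2 ⟨hE.mem, hzA⟩))
        exact h2.symm) h4 ⟨c, hc⟩
    rcases h1 with h | h
    · left; exact hO ⟨_, h, rfl⟩
    · right; exact hO ⟨_, h, rfl⟩
  refine ⟨?_, ?_, q'⁻¹ * p, ?_, ?_⟩
  · apply le_antisymm
    · apply sup_le _ le_sup_left
      intro m hm
      have hm2 := (mem_inf.1 hm).2
      rw [sup_comm] at hm2
      rcases hX m hm2 with h | h
      · exact mem_sup_left h
      · have h1 : m = (m * z) * z := by rw [mul_assoc, hzz, mul_one]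
        rw [h1]
        exact mul_mem (mem_sup_left h) (mem_sup_right hzZ)
    · apply sup_le le_sup_right
      rintro _ ⟨x, hx, rfl⟩
      rw [SetLike.mem_coe, mem_center_iff] at hx
      have h1 : (x : G) = 1 ∨ (x : G) = z := by
        apply hE.center _ x.2
        intro b hb
        exact (congrArg Subtype.val (hx ⟨b, hb⟩)).symm
      rcases h1 with h1 | h1
      · show (x : G) ∈ _
        rw [h1]; exact one_mem _
      · show (x : G) ∈ _
        rw [h1]
        apply mem_sup_left
        refine mem_inf.2 ⟨mem_sup_left hzA, ?_⟩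
        rw [sup_comm]
        exact hzX
  · have hMdec : ∀ m ∈ centralizer (A : Set G) ⊔ A, ∃ c ∈ centralizer (A : Set G), ∃ a ∈ A,
        m = c * a := by
      intro m hm
      have h1 : (m : G) ∈ ((centralizer (A : Set G) ⊔ A : Subgroup G) : Set G) := hm
      rw [coe_mul_of_left_le_normalizer_right _ _ (centralizer_le_normalizer _)] at h1
      obtain ⟨c, hc, a, ha, rfl⟩ := h1
      exact ⟨c, hc, a, ha, rfl⟩
    have hMA : ∀ m ∈ centralizer (A : Set G) ⊔ A, ∀ a ∈ A, m * a * m⁻¹ ∈ A := by
      intro m hm a ha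
      obtain ⟨c, hc, a0, ha0, rfl⟩ := hMdec m hm
      have h1 : a0 * a * a0⁻¹ ∈ A := A.mul_mem (A.mul_mem ha0 ha) (A.inv_mem ha0)
      have h2 := (mem_centralizer_iff.1 hc) _ h1
      have h3 : c * a0 * a * (c * a0)⁻¹ = c * (a0 * a * a0⁻¹) * c⁻¹ := by group
      rw [h3, ← h2]
      simpa using h1
    have hRM : QF z ⊓ centralizer (A : Set G) ≤ centralizer (A : Set G) ⊔ A :=
      inf_le_right.trans le_sup_left
    revert hn
    generalize hM : centralizer (A : Set G) ⊔ A = M at hMdec hMA hRM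
    generalize hN' : A.subgroupOf M = N
    intro hn
    have hN := hN'.symm
    have hπ : ∀ x y : ↥M, QuotientGroup.mk' N x = QuotientGroup.mk' N y →
        ∃ a ∈ A, (x : G) * a = y := by
      intro x y h
      obtain ⟨n, hn1, hxn⟩ := (QuotientGroup.mk'_eq_mk' N).1 h
      rw [hN] at hn1
      exact ⟨n, Subgroup.mem_subgroupOf.1 hn1, congrArg Subtype.val hxn⟩
    have hπA : ∀ x : ↥M, (x : G) ∈ A → QuotientGroup.mk' N x = 1 := by
      intro x hx
      rw [QuotientGroup.mk'_apply, QuotientGroup.eq_one_iff, hN]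
      exact Subgroup.mem_subgroupOf.2 hx
    obtain ⟨R, hR⟩ : ∃ R, R = ((QF z ⊓ centralizer (A : Set G)).subgroupOf M).map
      (QuotientGroup.mk' N) := ⟨_, rfl⟩
    rw [← hR]
    have hmemR : ∀ (x : G) (_ : x ∈ QF z ⊓ centralizer (A : Set G)) (hxM : x ∈ M),
        QuotientGroup.mk' N ⟨x, hxM⟩ ∈ R := by
      intro x hx hxM
      rw [hR]
      exact ⟨⟨x, hxM⟩, Subgroup.mem_subgroupOf.2 hx, rfl⟩
    have hexR : ∀ r ∈ R, ∃ (x : G) (_ : x ∈ QF z ⊓ centralizer (A : Set G)) (hxM : x ∈ M),
        r = QuotientGroup.mk' N ⟨x, hxM⟩ := by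
      intro r hr
      rw [hR] at hr
      obtain ⟨y, hy, rfl⟩ := hr
      exact ⟨y, Subgroup.mem_subgroupOf.1 hy, y.2, rfl⟩
    have hinj : ∀ x y : ↥M, (x : G) ∈ QF z → (y : G) ∈ QF z →
        QuotientGroup.mk' N x = QuotientGroup.mk' N y → (x : G) = y := by
      intro x y hx hy h
      obtain ⟨a, ha, hxa⟩ := hπ x y h
      have h1 : a = (x : G)⁻¹ * y := by rw [← hxa]; group
      have h2 : a = 1 := hAQ1 a ha (by rw [h1]; exact (QF z).mul_mem ((QF z).inv_mem hx) hy)
      rw [← hxa, h2, mul_one]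
    have hK1 : ∀ m u : ↥M, (u : G) ∈ centralizer (A : Set G) → (u : G) * u = 1 →
        QuotientGroup.mk' N m * QuotientGroup.mk' N u
          = QuotientGroup.mk' N u * QuotientGroup.mk' N m → (m : G) * u = u * m := by
      intro m u hu hu2 hc
      rw [← map_mul, ← map_mul] at hc
      obtain ⟨a, ha, h⟩ := hπ _ _ hc
      have h' : (m : G) * u * a = u * m := h
      have ha' : (m : G) * a⁻¹ * (m : G)⁻¹ ∈ A := hMA m m.2 _ (A.inv_mem ha)
      have h1 : (m : G) * u * (m : G)⁻¹ = u * ((m : G) * a⁻¹ * (m : G)⁻¹) := by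
        calc (m : G) * u * (m : G)⁻¹ = ((m : G) * u * a) * a⁻¹ * (m : G)⁻¹ := by group
          _ = u * m * a⁻¹ * (m : G)⁻¹ := by rw [h']
          _ = _ := by group
      have h2 := (mem_centralizer_iff.1 hu) _ ha'
      have h3 : ((m : G) * a⁻¹ * (m : G)⁻¹) * ((m : G) * a⁻¹ * (m : G)⁻¹) = 1 := by
        generalize (m : G) * a⁻¹ * (m : G)⁻¹ = b at h1 h2
        calc b * b = (u * u) * (b * b) := by rw [hu2, one_mul]
          _ = u * (u * b) * b := by group
          _ = u * (b * u) * b := by rw [h2]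
          _ = (u * b) * (u * b) := by group
          _ = ((m : G) * u * (m : G)⁻¹) * ((m : G) * u * (m : G)⁻¹) := by rw [h1]
          _ = (m : G) * (u * u) * (m : G)⁻¹ := by group
          _ = 1 := by rw [hu2]; group
      have h4 := hYA _ ha' h3
      rw [h4, mul_one] at h1
      calc (m : G) * u = ((m : G) * u * (m : G)⁻¹) * m := by group
        _ = u * m := by rw [h1]
    have hzR : z ∈ QF z ⊓ centralizer (A : Set G) := mem_inf.2 ⟨hE.mem, hzA⟩
    have hzM : z ∈ M := hRM hzR
    have hsM : s ∈ M := hRM hgR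
    have hpM : p ∈ M := hRM hp
    have hRE : IsExtraspecial 2 ↥R := by
      obtain ⟨c, hc⟩ := exists_pk hQ
      have hcz : (c : G) = z := by
        have h5 : (c : G) = 1 ∨ (c : G) = z := by
          apply hE.center _ c.2
          intro b hb
          exact (congrArg Subtype.val (hc.z_comm ⟨b, hb⟩)).symm
        rcases h5 with h5 | h5
        · exact absurd (Subtype.ext h5) hc.ne
        · exact h5
      have himg : ∀ (x : ↥M), ((x : G) = 1 ∨ (x : G) = z) →
          QuotientGroup.mk' N x = 1 ∨ QuotientGroup.mk' N x = QuotientGroup.mk' N ⟨z, hzM⟩ := by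
        intro x hx
        rcases hx with hx | hx
        · left
          have : x = 1 := Subtype.ext hx
          rw [this, map_one]
        · right
          exact congrArg _ (Subtype.ext hx)
      have himg' : ∀ (y : ↥R) (x : ↥M), (y : ↥M ⧸ N) = QuotientGroup.mk' N x →
          ((x : G) = 1 ∨ (x : G) = z) →
          y = 1 ∨ y = ⟨QuotientGroup.mk' N ⟨z, hzM⟩, hmemR z hzR hzM⟩ := by
        intro y x hy hx
        rcases himg x hx with h | h
        · left; exact Subtype.ext (hy.trans h)
        · right; exact Subtype.ext (hy.trans h)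
      have hPk : Pk ↥R ⟨QuotientGroup.mk' N ⟨z, hzM⟩, hmemR z hzR hzM⟩ := by
        refine ⟨?_, ?_, ?_, ?_, ?_⟩
        · intro h
          have h1 : QuotientGroup.mk' N ⟨z, hzM⟩ = QuotientGroup.mk' N 1 := by
            rw [map_one]; exact congrArg Subtype.val h
          exact hz1 (hinj _ _ hE.mem (one_mem _) h1)
        · apply Subtype.ext
          show QuotientGroup.mk' N ⟨z, hzM⟩ * QuotientGroup.mk' N ⟨z, hzM⟩ = 1
          rw [← map_mul]
          have : (⟨z, hzM⟩ * ⟨z, hzM⟩ : ↥M) = 1 := Subtype.ext hzz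
          rw [this, map_one]
        · intro y
          obtain ⟨x, hx1, hx2, hy⟩ := hexR y.1 y.2
          constructor
          · intro hyc
            rw [mem_center_iff] at hyc
            have h1 : ∀ r ∈ QF z ⊓ centralizer (A : Set G), r * x = x * r := by
              intro r hr
              have h2 : QuotientGroup.mk' N ⟨r, hRM hr⟩ * (y : ↥M ⧸ N)
                  = (y : ↥M ⧸ N) * QuotientGroup.mk' N ⟨r, hRM hr⟩ :=
                congrArg Subtype.val (hyc ⟨_, hmemR r hr (hRM hr)⟩)
              have h3 : QuotientGroup.mk' N (⟨r, hRM hr⟩ * ⟨x, hx2⟩)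
                  = QuotientGroup.mk' N (⟨x, hx2⟩ * ⟨r, hRM hr⟩) := by
                rw [map_mul, map_mul, ← hy]; exact h2
              exact hinj _ _ ((QF z).mul_mem (mem_inf.1 hr).1 (mem_inf.1 hx1).1)
                ((QF z).mul_mem (mem_inf.1 hx1).1 (mem_inf.1 hr).1) h3
            exact himg' y _ hy
              (center_fixed hE hQ2 A hAodd hAN (mem_inf.1 hx1).1 (mem_inf.1 hx1).2 h1)
          · rintro (h | h)
            · rw [h]; exact one_mem _
            · rw [h, mem_center_iff]
              intro r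
              obtain ⟨x', hx1', hx2', hr⟩ := hexR r.1 r.2
              apply Subtype.ext
              show (r : ↥M ⧸ N) * QuotientGroup.mk' N ⟨z, hzM⟩
                = QuotientGroup.mk' N ⟨z, hzM⟩ * (r : ↥M ⧸ N)
              rw [hr, ← map_mul, ← map_mul]
              exact congrArg _ (Subtype.ext (hE.cen x' (mem_inf.1 hx1').1))
        · intro y
          obtain ⟨x, hx1, hx2, hy⟩ := hexR y.1 y.2
          apply himg' (y * y) (⟨x, hx2⟩ * ⟨x, hx2⟩)
          · show (y : ↥M ⧸ N) * (y : ↥M ⧸ N) = _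
            rw [hy, map_mul]
          · rcases hc.sqm ⟨x, (mem_inf.1 hx1).1⟩ with h | h
            · left; exact congrArg Subtype.val h
            · right; exact (congrArg Subtype.val h).trans hcz
        · intro y y'
          obtain ⟨x, hx1, hx2, hy⟩ := hexR y.1 y.2
          obtain ⟨x', hx1', hx2', hy'⟩ := hexR y'.1 y'.2
          apply himg' ⁅y, y'⁆ ⁅(⟨x, hx2⟩ : ↥M), ⟨x', hx2'⟩⁆
          · show ⁅(y : ↥M ⧸ N), (y' : ↥M ⧸ N)⁆ = _
            rw [hy, hy', map_commutatorElement]
          · rcases hc.com ⟨x, (mem_inf.1 hx1).1⟩ ⟨x', (mem_inf.1 hx1').1⟩ with h | h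
            · left; exact congrArg Subtype.val h
            · right; exact (congrArg Subtype.val h).trans hcz
      apply pk_isExtraspecial hPk
      classical
      have := Fintype.ofFinite ↥R
      rw [Nat.card_eq_fintype_card, Fintype.two_lt_card_iff]
      refine ⟨1, ⟨_, hmemR z hzR hzM⟩, ⟨_, hmemR s hgR hsM⟩, ?_, ?_, ?_⟩
      · intro h
        have h1 : QuotientGroup.mk' N ⟨z, hzM⟩ = QuotientGroup.mk' N 1 := by
          rw [map_one]; exact (congrArg Subtype.val h).symm
        exact hz1 (hinj _ _ hE.mem (one_mem _) h1)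
      · intro h
        have h1 : QuotientGroup.mk' N ⟨s, hsM⟩ = QuotientGroup.mk' N 1 := by
          rw [map_one]; exact (congrArg Subtype.val h).symm
        exact hs1 (hinj _ _ hgQ (one_mem _) h1)
      · intro h
        have h1 : QuotientGroup.mk' N ⟨s, hsM⟩ = QuotientGroup.mk' N ⟨z, hzM⟩ :=
          (congrArg Subtype.val h).symm
        exact hsz (hinj _ _ hgQ hE.mem h1)
    apply large_of R (QuotientGroup.mk' N ⟨z, hzM⟩) (QuotientGroup.mk' N ⟨s, hsM⟩)
      (QuotientGroup.mk' N ⟨p, hpM⟩) hRE (hmemR z hzR hzM) _ (hmemR s hgR hsM)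
      (hmemR p hp hpM)
    · rw [← map_mul]
      have : (⟨z, hzM⟩ * ⟨z, hzM⟩ : ↥M) = 1 := Subtype.ext hzz
      rw [this, map_one]
    · rw [← map_mul]
      have : (⟨s, hsM⟩ * ⟨s, hsM⟩ : ↥M) = 1 := Subtype.ext hss
      rw [this, map_one]
    · rw [← map_inv, ← map_mul, ← map_mul, ← map_mul]
      exact congrArg _ (Subtype.ext hps)
    · -- `C(R) ≤ R`
      intro d hd
      obtain ⟨m, rfl⟩ := QuotientGroup.mk'_surjective N d
      have hmz : (m : G) * z = z * m := hK1 m ⟨z, hzM⟩ hzA hzz (hd _ (hmemR z hzR hzM))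
      have hmR : ∀ r ∈ QF z ⊓ centralizer (A : Set G), (m : G) * r = r * m := by
        intro r hr
        have h4 := hd _ (hmemR r hr (hRM hr))
        have h5 : QuotientGroup.mk' N (m * ⟨r, hRM hr⟩ * m⁻¹) = QuotientGroup.mk' N ⟨r, hRM hr⟩ := by
          rw [map_mul, map_mul, h4, map_inv]; group
        have h6 := hinj _ _ (conj_mem_QF (mem_CC.2 hmz) (mem_inf.1 hr).1) (mem_inf.1 hr).1 h5
        have h7 : (m : G) * r * (m : G)⁻¹ = r := h6
        calc (m : G) * r = ((m : G) * r * (m : G)⁻¹) * m := by group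
          _ = r * m := by rw [h7]
      obtain ⟨c, hc, a0, ha0, hm⟩ := hMdec m m.2
      have hcX : c ∈ centralizer ((A ⊔ (QF z ⊓ centralizer (A : Set G)) : Subgroup G) : Set G) := by
        rw [mem_centralizer_iff]
        intro h hh
        have h1 : A ⊔ (QF z ⊓ centralizer (A : Set G)) ≤ CC c := by
          apply sup_le
          · intro a ha
            rw [mem_CC]
            exact (mem_centralizer_iff.1 hc) a ha
          · intro r hr
            rw [mem_CC]
            have h2 := hmR r hr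
            have h3 := (mem_centralizer_iff.1 (mem_inf.1 hr).2) a0 ha0
            rw [hm] at h2
            have h4 : c * r * a0 = r * c * a0 := by
              calc c * r * a0 = c * (r * a0) := by group
                _ = c * (a0 * r) := by rw [h3]
                _ = c * a0 * r := by group
                _ = r * (c * a0) := h2
                _ = r * c * a0 := by group
            exact (mul_right_cancel h4).symm
        exact mem_CC.1 (h1 hh)
      rcases hX c hcX with h | h
      · rw [hπA m (by rw [hm]; exact A.mul_mem h ha0)]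
        exact one_mem _
      · have h1 : QuotientGroup.mk' N (m * ⟨z, hzM⟩) = 1 := by
          apply hπA
          show (m : G) * z ∈ A
          have h2 := (mem_centralizer_iff.1 hzA) a0 ha0
          have h3 : (m : G) * z = (c * z) * a0 := by
            rw [hm]
            calc c * a0 * z = c * (a0 * z) := by group
              _ = c * (z * a0) := by rw [h2]
              _ = _ := by group
          rw [h3]
          exact A.mul_mem h ha0
        rw [map_mul] at h1
        rw [eq_inv_of_mul_eq_one_left h1]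
        exact R.inv_mem (hmemR z hzR hzM)
    · -- `C(z)` normalises `R`
      intro d hd r hr
      obtain ⟨m, rfl⟩ := QuotientGroup.mk'_surjective N d
      obtain ⟨x, hx1, hx2, rfl⟩ := hexR r hr
      have hmz : (m : G) * z = z * m := hK1 m ⟨z, hzM⟩ hzA hzz hd
      rw [← map_inv, ← map_mul, ← map_mul]
      apply hmemR
      refine mem_inf.2 ⟨conj_mem_QF (mem_CC.2 hmz) (mem_inf.1 hx1).1, ?_⟩
      rw [mem_centralizer_iff]
      intro a ha
      have h1 : (m : G)⁻¹ * a * ((m : G)⁻¹)⁻¹ ∈ A := hMA _ (M.inv_mem m.2) a ha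
      have h2 := (mem_centralizer_iff.1 (mem_inf.1 hx1).2) _ h1
      show a * ((m : G) * x * (m : G)⁻¹) = (m : G) * x * (m : G)⁻¹ * a
      calc a * ((m : G) * x * (m : G)⁻¹)
          = m * (((m : G)⁻¹ * a * ((m : G)⁻¹)⁻¹) * x) * (m : G)⁻¹ := by group
        _ = m * (x * ((m : G)⁻¹ * a * ((m : G)⁻¹)⁻¹)) * (m : G)⁻¹ := by rw [h2]
        _ = _ := by group
    · -- commutators with `z` of elements centralising `s`
      intro d hd
      obtain ⟨c, rfl⟩ := QuotientGroup.mk'_surjective N d
      have hcs : (c : G) * s = s * c := hK1 c ⟨s, hsM⟩ hsA hss hd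
      have h1 : (c : G) * z * (c : G)⁻¹ * z⁻¹ ∈ QQ s :=
        (QQ s).mul_mem (conj_mem_QQ hcs hzQQ) ((QQ s).inv_mem hzQQ)
      have hQQ2 : IsPGroup 2 (QQ s) := (Cfsg.Agent.Lib.Helper28Fitting.pCore_isPGroup 2).map _
      obtain ⟨k, hk⟩ := hQQ2 ⟨_, h1⟩
      have hk' : ((c : G) * z * (c : G)⁻¹ * z⁻¹) ^ 2 ^ k = 1 := congrArg Subtype.val hk
      refine ⟨k, ?_⟩
      rw [← map_inv, ← map_inv, ← map_mul, ← map_mul, ← map_mul, ← map_pow]
      have : (c * ⟨z, hzM⟩ * c⁻¹ * ⟨z, hzM⟩⁻¹ : ↥M) ^ 2 ^ k = 1 := Subtype.ext hk'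
      rw [this, map_one]
    · -- `z` is central in `R`
      intro r hr
      obtain ⟨x, hx1, hx2, rfl⟩ := hexR r hr
      rw [← map_mul, ← map_mul]
      exact congrArg _ (Subtype.ext (hE.cen x (mem_inf.1 hx1).1))
  · apply Subgroup.mul_mem
    · exact Subgroup.inv_mem _ (Subgroup.mem_sup_right hq')
    · exact Subgroup.mem_sup_left hp
  · calc q'⁻¹ * p * s * (q'⁻¹ * p)⁻¹ = q'⁻¹ * (p * s * p⁻¹) * q' := by group
      _ = q'⁻¹ * (q' * z * q'⁻¹) * q' := by rw [hps, hq'z, hzs]
      _ = z := by group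

end Cfsg.Agent.S5428
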