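import Cfsg.Statements.S5429
import Cfsg.Agent.Lib.Helper93LargeCrit

set_option autoImplicit false
open Cfsg

namespace Cfsg.Agent.S5429

open Subgroup
open Cfsg.Agent.Lib.Helper36Extra Cfsg.Agent.Lib.Helper36GF2 Cfsg.Agent.Lib.Helper36Simple
open Cfsg.Agent.Lib.Helper36Large Cfsg.Agent.Lib.Helper94Extra
open Cfsg.Agent.Lib.Helper93Pk Cfsg.Agent.Lib.Helper93LargeCrit
open scoped commutatorElement

/-- in an extraspecial group: an element outside `⟨t, z⟩` is moved by the centraliser of `t` -/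
theorem exists_move_in_centralizer {G : Type*} [Group G] [Finite G] {Q : Subgroup G} {z : G}
    (hQ : IsExtraspecial 2 ↥Q) (hE : Ex Q z) {t x : G} (ht : t ∈ Q) (hx : x ∈ Q)
    (h1 : x ≠ 1) (h2 : x ≠ z) (h3 : x ≠ t) (h4 : x ≠ t * z) :
    ∃ p ∈ Q, p * t = t * p ∧ p * x * p⁻¹ = x * z := by
  obtain ⟨c, hc⟩ := exists_pk hQ
  have hcz : (c : G) = z := by
    have h5 : (c : G) = 1 ∨ (c : G) = z := by
      apply hE.center _ c.2
      intro b hb
      exact (congrArg Subtype.val (hc.z_comm ⟨b, hb⟩)).symm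
    rcases h5 with h5 | h5
    · exact absurd (Subtype.ext h5) hc.ne
    · exact h5
  by_contra hcon
  push Not at hcon
  have h5 : ∀ y : ↥Q, y * ⟨t, ht⟩ = ⟨t, ht⟩ * y → y * ⟨x, hx⟩ = ⟨x, hx⟩ * y := by
    intro y hy
    have hy' : (y : G) * t = t * y := congrArg Subtype.val hy
    have h6 := hcon y y.2 hy'
    rcases hE.comm y y.2 x hx with h7 | h7
    · exact Subtype.ext h7
    · exfalso
      apply h6
      rw [h7, mul_assoc x, hE.cen y y.2]; group
  rcases center_centralizer hc h5 with h6 | h6 | h6 | h6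
  · exact h1 (congrArg Subtype.val h6)
  · exact h2 ((congrArg Subtype.val h6).trans hcz)
  · exact h3 (congrArg Subtype.val h6)
  · apply h4
    have h7 : x = t * (c : G) := congrArg Subtype.val h6
    rw [h7, hcz]

/-- Let z be an involution of the finite group G with centralizer C whose generalized Fitting subgroup Q is extraspecial of width at least 3 (order 2^(2w+1), w ≥ 3); let g be an element of G with g z g⁻¹ in Q but outside the centre Z of Q, and t an involution lying in both Q and g Q g⁻¹ that is not conjugate to z; write P for the centralizer of t in Q and suppose that the elements of C acting trivially by conjugation on P modulo the subgroup generated by t and z are exactly the elements of Q. Then the image of P in the centralizer of t modulo the subgroup generated by t is a large extraspecial 2-subgroup there, and g z g⁻¹ is conjugate to z inside the subgroup generated by P and the centralizer of t in g Q g⁻¹. -/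
theorem result {G : Type*} [Group G] [Finite G] (z : G) (hz : orderOf z = 2) (Q : Subgroup G) (hQC : Q ≤ Subgroup.centralizer ({z} : Set G)) (hF : (Cfsg.generalizedFittingSubgroup ↥(Subgroup.centralizer ({z} : Set G))).map (Subgroup.centralizer ({z} : Set G)).subtype = Q) (hQ : Cfsg.IsExtraspecial 2 ↥Q) (w : ℕ) (hw : 3 ≤ w) (hcard : Nat.card ↥Q = 2 ^ (2 * w + 1)) (g : G) (hgQ : g * z * g⁻¹ ∈ Q) (hgZ : g * z * g⁻¹ ∉ ((Subgroup.center ↥Q).map Q.subtype)) (t : G) (ht : orderOf t = 2) (htQ : t ∈ Q ⊓ (Q).map (MulAut.conj g).toMonoidHom) (htz : ¬ IsConj z t) (P : Subgroup G) (hP : P = Q ⊓ Subgroup.centralizer ({t} : Set G)) (hCP : ∀ c ∈ Subgroup.centralizer ({z} : Set G), (∀ x ∈ P, ∃ y ∈ Subgroup.closure ({t, z} : Set G), c * x * c⁻¹ = x * y) ↔ c ∈ Q) [hn : ((Subgroup.zpowers t).subgroupOf (Subgroup.centralizer ({t} : Set G))).Normal] : Cfsg.IsLargeExtraspecial ((P.subgroupOf (Subgroup.centralizer ({t} : Set G))).map (QuotientGroup.mk' ((Subgroup.zpowers t).subgroupOf (Subgroup.centralizer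 ({t} : Set G))))) ∧ ∃ x ∈ P ⊔ ((Q).map (MulAut.conj g).toMonoidHom ⊓ Subgroup.centralizer ({t} : Set G)), x * (g * z * g⁻¹) * x⁻¹ = z := by
  have hQF : QF z = Q := hF
  subst hQF
  subst hP
  have hz1 : z ≠ 1 := by
    rintro rfl
    simp at hz
  have hzz : z * z = 1 := by rw [← pow_two, ← hz]; exact pow_orderOf_eq_one z
  have ht1 : t ≠ 1 := by
    rintro rfl
    simp at ht
  have htt : t * t = 1 := by rw [← pow_two, ← ht]; exact pow_orderOf_eq_one t
  have hQ2 : IsPGroup 2 (QF z) := IsPGroup.of_card hcard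
  obtain ⟨w', hw'⟩ := ex_of_isExtraspecial (QF z) hQ
  have hE : Ex (QF z) z := by
    have h2 : z = 1 ∨ z = w' := by
      apply hw'.center z (self_mem_QF z)
      intro b hb
      exact (mem_CC.mp (QF_le z hb)).symm
    rw [← h2.resolve_left hz1] at hw'
    exact hw'
  obtain ⟨s, hs⟩ : ∃ s, s = g * z * g⁻¹ := ⟨_, rfl⟩
  rw [← hs] at hgQ hgZ ⊢
  have hss : s * s = 1 := by
    rw [hs]
    calc g * z * g⁻¹ * (g * z * g⁻¹) = g * (z * z) * g⁻¹ := by group
      _ = 1 := by rw [hzz]; group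
  have hs1 : s ≠ 1 := by
    intro h
    apply hz1
    calc z = g⁻¹ * (g * z * g⁻¹) * g := by group
      _ = 1 := by rw [← hs, h]; group
  have hsz : s ≠ z := by
    intro h
    apply hgZ
    rw [h]
    refine ⟨⟨z, hE.mem⟩, ?_, rfl⟩
    rw [SetLike.mem_coe, mem_center_iff]
    intro r
    exact Subtype.ext (hE.cen r.1 r.2)
  obtain ⟨htQ1, htQ2⟩ := mem_inf.1 htQ
  obtain ⟨q0, hq0, hq0t⟩ := htQ2
  have hq0t' : g * q0 * g⁻¹ = t := hq0t
  have htz' : t ≠ z := fun h => htz (h ▸ IsConj.refl _)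
  have hnc : ∀ c d x : G, c * z * c⁻¹ = x → d * t * d⁻¹ = x → False := by
    intro c d x h1 h2
    apply htz
    rw [isConj_iff]
    refine ⟨d⁻¹ * c, ?_⟩
    calc d⁻¹ * c * z * (d⁻¹ * c)⁻¹ = d⁻¹ * (c * z * c⁻¹) * d := by group
      _ = d⁻¹ * (d * t * d⁻¹) * d := by rw [h1, h2]
      _ = t := by group
  obtain ⟨q1, hq1, hq1t⟩ := Ex.exists_conj hE htQ1 ht1 htz'
  have hst : s * t = t * s := by
    rw [hs, ← hq0t']
    calc g * z * g⁻¹ * (g * q0 * g⁻¹) = g * (z * q0) * g⁻¹ := by group
      _ = g * (q0 * z) * g⁻¹ := by rw [hE.cen q0 hq0]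
      _ = _ := by group
  have hq01 : q0 ≠ 1 := by
    rintro rfl
    apply ht1
    rw [← hq0t']; group
  have hq0z : q0 ≠ z := by
    rintro rfl
    exact hnc g 1 t hq0t' (by group)
  obtain ⟨q2, hq2, hq2t⟩ := Ex.exists_conj hE hq0 hq01 hq0z
  have hts : (g * q2 * g⁻¹) * t * (g * q2 * g⁻¹)⁻¹ = t * s := by
    rw [hs, ← hq0t']
    calc g * q2 * g⁻¹ * (g * q0 * g⁻¹) * (g * q2 * g⁻¹)⁻¹ = g * (q2 * q0 * q2⁻¹) * g⁻¹ := by group
      _ = g * (q0 * z) * g⁻¹ := by rw [hq2t]
      _ = _ := by group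
  have hst' : s ≠ t := fun h => hnc g 1 t (hs ▸ h) (by group)
  have hstz : s ≠ t * z := fun h => hnc g q1 (t * z) (hs ▸ h) hq1t
  obtain ⟨p, hp, hpt, hps⟩ := exists_move_in_centralizer hQ hE htQ1 hgQ hs1 hsz hst' hstz
  have hzQQ : z ∈ QQ s := by rw [hs]; exact mem_QQ_conj_of hz hQ2 hQ g (hs ▸ hgQ)
  have hz' : g⁻¹ * z * g ∈ QF z := by
    rw [← QQ_eq_QF hQ2, ← mem_QQ_conj (g := g), ← hs]
    have : g * (g⁻¹ * z * g) * g⁻¹ = z := by group
    rw [this]
    exact hzQQ
  have hzs : z * s = s * z := (hE.cen s hgQ).symm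
  obtain ⟨p', hp', hp't, hp's⟩ := exists_move_in_centralizer hQ hE hq0 hz'
    (by
      intro h
      apply hz1
      calc z = g * (g⁻¹ * z * g) * g⁻¹ := by group
        _ = 1 := by rw [h]; group)
    (by
      intro h
      apply hsz
      rw [hs]
      calc g * z * g⁻¹ = g * (g⁻¹ * z * g) * g⁻¹ := by rw [h]
        _ = z := by group)
    (by
      intro h
      apply htz'
      rw [← hq0t', ← h]; group)
    (by
      intro h
      apply hnc 1 _ _ _ hts
      rw [hs, ← hq0t']
      calc 1 * z * 1⁻¹ = g * (g⁻¹ * z * g) * g⁻¹ := by group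
        _ = g * (q0 * z) * g⁻¹ := by rw [h]
        _ = _ := by group)
  have hq't : (g * p' * g⁻¹) * t = t * (g * p' * g⁻¹) := by
    rw [← hq0t']
    calc g * p' * g⁻¹ * (g * q0 * g⁻¹) = g * (p' * q0) * g⁻¹ := by group
      _ = g * (q0 * p') * g⁻¹ := by rw [hp't]
      _ = _ := by group
  have hq'z : (g * p' * g⁻¹) * z * (g * p' * g⁻¹)⁻¹ = z * s := by
    rw [hs]
    calc g * p' * g⁻¹ * z * (g * p' * g⁻¹)⁻¹ = g * (p' * (g⁻¹ * z * g) * p'⁻¹) * g⁻¹ := by group
      _ = g * (g⁻¹ * z * g * z) * g⁻¹ := by rw [hp's]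
      _ = _ := by group
  refine ⟨?_, (g * p' * g⁻¹)⁻¹ * p, ?_, ?_⟩
  · revert hn hCP
    generalize hCt : Subgroup.centralizer ({t} : Set G) = Ct
    generalize hN' : (Subgroup.zpowers t).subgroupOf Ct = N
    intro hn hCP
    have hN := hN'.symm
    have hmemCt : ∀ x : G, x ∈ Ct ↔ x * t = t * x := fun x => by
      rw [← hCt]; exact Subgroup.mem_centralizer_singleton_iff
    have hπ : ∀ x y : ↥Ct, QuotientGroup.mk' N x = QuotientGroup.mk' N y →
        (x : G) = y ∨ (x : G) = y * t := by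
      intro x y h
      obtain ⟨n, hn1, hxn⟩ := (QuotientGroup.mk'_eq_mk' N).1 h
      have hn' : (n : G) ∈ Subgroup.zpowers t := by
        rw [hN] at hn1
        exact Subgroup.mem_subgroupOf.1 hn1
      have hxn' : (x : G) * n = y := congrArg Subtype.val hxn
      rcases (mem_zpowers_invol htt).1 hn' with h1 | h1
      · left; rw [← hxn', h1, mul_one]
      · right; rw [← hxn', h1, mul_assoc, htt, mul_one]
    have htCt : t ∈ Ct := (hmemCt t).2 rfl
    have hπt : QuotientGroup.mk' N ⟨t, htCt⟩ = 1 := by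
      rw [QuotientGroup.mk'_apply, QuotientGroup.eq_one_iff, hN]
      exact Subgroup.mem_subgroupOf.2 (Subgroup.mem_zpowers t)
    obtain ⟨R, hR⟩ : ∃ R, R = ((QF z ⊓ Ct).subgroupOf Ct).map (QuotientGroup.mk' N) := ⟨_, rfl⟩
    rw [← hR]
    have hmemR : ∀ (x : G) (_ : x ∈ QF z) (hxt : x ∈ Ct), QuotientGroup.mk' N ⟨x, hxt⟩ ∈ R := by
      intro x hx hxt
      rw [hR]
      exact ⟨⟨x, hxt⟩, Subgroup.mem_subgroupOf.2 (mem_inf.2 ⟨hx, hxt⟩), rfl⟩
    have hexR : ∀ r ∈ R, ∃ (x : G) (_ : x ∈ QF z) (hxt : x ∈ Ct),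
        r = QuotientGroup.mk' N ⟨x, hxt⟩ := by
      intro r hr
      rw [hR] at hr
      obtain ⟨y, hy, rfl⟩ := hr
      exact ⟨y, (mem_inf.1 (Subgroup.mem_subgroupOf.1 hy)).1, y.2, rfl⟩
    have hzCt : z ∈ Ct := (hmemCt z).2 (hE.cen t htQ1).symm
    have hsCt : s ∈ Ct := (hmemCt s).2 hst
    have hpCt : p ∈ Ct := (hmemCt p).2 hpt
    -- elements of `Ct` centralising `z` modulo `t`
    have hkeyz : ∀ c : ↥Ct, QuotientGroup.mk' N c * QuotientGroup.mk' N ⟨z, hzCt⟩
        = QuotientGroup.mk' N ⟨z, hzCt⟩ * QuotientGroup.mk' N c → (c : G) * z = z * c := by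
      intro c hc
      rw [← map_mul, ← map_mul] at hc
      rcases hπ _ _ hc with h1 | h1
      · exact h1
      · exfalso
        have h2 : (c : G) * z = z * c * t := h1
        have h3 : (c : G) * t = t * c := (hmemCt c).1 c.2
        apply hnc (c : G) q1 (t * z) _ hq1t
        calc (c : G) * z * (c : G)⁻¹ = z * c * t * (c : G)⁻¹ := by rw [h2]
          _ = z * (c * t) * (c : G)⁻¹ := by group
          _ = z * t := by rw [h3]; group
          _ = t * z := (hE.cen t htQ1).symm
    have hkeys : ∀ c : ↥Ct, QuotientGroup.mk' N c * QuotientGroup.mk' N ⟨s, hsCt⟩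
        = QuotientGroup.mk' N ⟨s, hsCt⟩ * QuotientGroup.mk' N c → (c : G) * s = s * c := by
      intro c hc
      rw [← map_mul, ← map_mul] at hc
      rcases hπ _ _ hc with h1 | h1
      · exact h1
      · exfalso
        have h2 : (c : G) * s = s * c * t := h1
        have h3 : (c : G) * t = t * c := (hmemCt c).1 c.2
        apply hnc ((c : G) * g) _ (t * s) _ hts
        calc (c : G) * g * z * ((c : G) * g)⁻¹ = c * (g * z * g⁻¹) * (c : G)⁻¹ := by group
          _ = c * s * (c : G)⁻¹ := by rw [hs]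
          _ = s * c * t * (c : G)⁻¹ := by rw [h2]
          _ = s * (c * t) * (c : G)⁻¹ := by group
          _ = s * t := by rw [h3]; group
          _ = t * s := hst
    have hRE : IsExtraspecial 2 ↥R := by
      obtain ⟨c, hc⟩ := exists_pk hQ
      have hcz : (c : G) = z := by
        have h5 : (c : G) = 1 ∨ (c : G) = z := by
          apply hE.center _ c.2
          intro b hb
          exact (congrArg Subtype.val (hc.z_comm ⟨b, hb⟩)).symm
        rcases h5 with h5 | h5
        · exact absurd (Subtype.ext h5) hc.ne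
        · exact h5
      have ha : (⟨t, htQ1⟩ : ↥(QF z)) ∉ Subgroup.center ↥(QF z) := by
        intro h
        rcases (hc.cen _).1 h with h1 | h1
        · exact ht1 (congrArg Subtype.val h1)
        · exact htz' ((congrArg Subtype.val h1).trans hcz)
      have hker_mem : ∀ x : ↥(chi hc ⟨t, htQ1⟩).ker, ((x : ↥(QF z)) : G) ∈ Ct := by
        intro x
        rw [hmemCt]
        exact congrArg Subtype.val ((mem_ker_chi hc _ _).1 x.2)
      let ι : ↥(chi hc ⟨t, htQ1⟩).ker →* ↥Ct :=
        { toFun := fun x => ⟨((x : ↥(QF z)) : G), hker_mem x⟩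
          map_one' := rfl
          map_mul' := fun _ _ => rfl }
      let f : ↥(chi hc ⟨t, htQ1⟩).ker →* ↥R :=
        ((QuotientGroup.mk' N).comp ι).codRestrict R (fun x => hmemR _ x.1.2 _)
      have hf : Function.Surjective f := by
        intro r
        obtain ⟨x, hx1, hx2, hr⟩ := hexR r.1 r.2
        refine ⟨⟨⟨x, hx1⟩, (mem_ker_chi hc _ _).2 (Subtype.ext ((hmemCt x).1 hx2))⟩, ?_⟩
        exact Subtype.ext hr.symm
      have hker : ∀ x, f x = 1 ↔ ((x : ↥(QF z)) = 1 ∨ (x : ↥(QF z)) = ⟨t, htQ1⟩) := by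
        intro x
        constructor
        · intro h
          have h1 : QuotientGroup.mk' N (ι x) = QuotientGroup.mk' N 1 := by
            rw [map_one]; exact congrArg Subtype.val h
          rcases hπ _ _ h1 with h2 | h2
          · left; exact Subtype.ext h2
          · right
            apply Subtype.ext
            have h3 : ((x : ↥(QF z)) : G) = 1 * t := h2
            rw [h3, one_mul]
        · rintro (h | h)
          · have : x = 1 := Subtype.ext h
            rw [this, map_one]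
          · apply Subtype.ext
            show QuotientGroup.mk' N (ι x) = 1
            have h0 : ((x : ↥(QF z)) : G) = t := congrArg Subtype.val h
            have : ι x = ⟨t, htCt⟩ := Subtype.ext h0
            rw [this, hπt]
      have hPk := pk_quot hc ha f hf hker
      apply pk_isExtraspecial hPk
      classical
      have := Fintype.ofFinite ↥R
      rw [Nat.card_eq_fintype_card, Fintype.two_lt_card_iff]
      refine ⟨1, ⟨_, hmemR z hE.mem hzCt⟩, ⟨_, hmemR s hgQ hsCt⟩, ?_, ?_, ?_⟩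
      · intro h
        have h1 : QuotientGroup.mk' N ⟨z, hzCt⟩ = QuotientGroup.mk' N 1 := by
          rw [map_one]; exact (congrArg Subtype.val h).symm
        rcases hπ _ _ h1 with h2 | h2
        · exact hz1 h2
        · apply htz'
          have h3 : z = 1 * t := h2
          rw [h3, one_mul]
      · intro h
        have h1 : QuotientGroup.mk' N ⟨s, hsCt⟩ = QuotientGroup.mk' N 1 := by
          rw [map_one]; exact (congrArg Subtype.val h).symm
        rcases hπ _ _ h1 with h2 | h2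
        · exact hs1 h2
        · apply hst'
          have h3 : s = 1 * t := h2
          rw [h3, one_mul]
      · intro h
        have h1 : QuotientGroup.mk' N ⟨s, hsCt⟩ = QuotientGroup.mk' N ⟨z, hzCt⟩ :=
          (congrArg Subtype.val h).symm
        rcases hπ _ _ h1 with h2 | h2
        · exact hsz h2
        · apply hstz
          have h3 : s = z * t := h2
          rw [h3]
          exact (hE.cen t htQ1).symm
    apply large_of R (QuotientGroup.mk' N ⟨z, hzCt⟩) (QuotientGroup.mk' N ⟨s, hsCt⟩)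
      (QuotientGroup.mk' N ⟨p, hpCt⟩) hRE (hmemR z hE.mem hzCt) _ (hmemR s hgQ hsCt)
      (hmemR p hp hpCt)
    · rw [← map_mul]
      have : (⟨z, hzCt⟩ * ⟨z, hzCt⟩ : ↥Ct) = 1 := Subtype.ext hzz
      rw [this, map_one]
    · rw [← map_mul]
      have : (⟨s, hsCt⟩ * ⟨s, hsCt⟩ : ↥Ct) = 1 := Subtype.ext hss
      rw [this, map_one]
    · rw [← map_inv, ← map_mul, ← map_mul, ← map_mul]
      exact congrArg _ (Subtype.ext hps)
    · -- `C(R) ≤ R`
      intro d hd
      obtain ⟨c, rfl⟩ := QuotientGroup.mk'_surjective N d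
      have hcz : (c : G) * z = z * c := hkeyz c (hd _ (hmemR z hE.mem hzCt))
      have h3 : (c : G) * t = t * c := (hmemCt c).1 c.2
      have hcQ : (c : G) ∈ QF z := by
        apply (hCP c (mem_CC.2 hcz)).1
        intro x hx
        obtain ⟨hx1, hx2⟩ := mem_inf.1 hx
        have h4 := hd _ (hmemR x hx1 hx2)
        rw [← map_mul, ← map_mul] at h4
        rcases hπ _ _ h4 with h5 | h5
        · refine ⟨1, Subgroup.one_mem _, ?_⟩
          have h6 : (c : G) * x = x * c := h5
          rw [h6]; group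
        · refine ⟨t, Subgroup.subset_closure (by simp), ?_⟩
          have h6 : (c : G) * x = x * c * t := h5
          rw [h6]
          calc x * c * t * (c : G)⁻¹ = x * (c * t) * (c : G)⁻¹ := by group
            _ = x * t := by rw [h3]; group
      exact hmemR c hcQ c.2
    · -- `C(z)` normalises `R`
      intro d hd r hr
      obtain ⟨c, rfl⟩ := QuotientGroup.mk'_surjective N d
      obtain ⟨x, hx1, hx2, rfl⟩ := hexR r hr
      have hcz : (c : G) * z = z * c := hkeyz c hd
      rw [← map_inv, ← map_mul, ← map_mul]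
      exact hmemR _ (conj_mem_QF (mem_CC.2 hcz) hx1) _
    · -- commutators with `z` of elements centralising `s`
      intro d hd
      obtain ⟨c, rfl⟩ := QuotientGroup.mk'_surjective N d
      have hcs : (c : G) * s = s * c := hkeys c hd
      have h1 : (c : G) * z * (c : G)⁻¹ * z⁻¹ ∈ QQ s :=
        (QQ s).mul_mem (conj_mem_QQ hcs hzQQ) ((QQ s).inv_mem hzQQ)
      have hQQ2 : IsPGroup 2 (QQ s) := (Cfsg.Agent.Lib.Helper28Fitting.pCore_isPGroup 2).map _
      obtain ⟨k, hk⟩ := hQQ2 ⟨_, h1⟩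
      have hk' : ((c : G) * z * (c : G)⁻¹ * z⁻¹) ^ 2 ^ k = 1 := congrArg Subtype.val hk
      refine ⟨k, ?_⟩
      rw [← map_inv, ← map_inv, ← map_mul, ← map_mul, ← map_mul, ← map_pow]
      have : (c * ⟨z, hzCt⟩ * c⁻¹ * ⟨z, hzCt⟩⁻¹ : ↥Ct) ^ 2 ^ k = 1 := Subtype.ext hk'
      rw [this, map_one]
    · -- `z` is central in `R`
      intro r hr
      obtain ⟨x, hx1, hx2, rfl⟩ := hexR r hr
      rw [← map_mul, ← map_mul]
      exact congrArg _ (Subtype.ext (hE.cen x hx1))
  · apply Subgroup.mul_mem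
    · apply Subgroup.inv_mem
      apply Subgroup.mem_sup_right
      refine mem_inf.2 ⟨⟨p', hp', rfl⟩, ?_⟩
      exact Subgroup.mem_centralizer_singleton_iff.2 hq't
    · apply Subgroup.mem_sup_left
      exact mem_inf.2 ⟨hp, Subgroup.mem_centralizer_singleton_iff.2 hpt⟩
  · calc (g * p' * g⁻¹)⁻¹ * p * s * ((g * p' * g⁻¹)⁻¹ * p)⁻¹
        = (g * p' * g⁻¹)⁻¹ * (p * s * p⁻¹) * (g * p' * g⁻¹) := by group
      _ = (g * p' * g⁻¹)⁻¹ * ((g * p' * g⁻¹) * z * (g * p' * g⁻¹)⁻¹) * (g * p' * g⁻¹) := by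
          rw [hps, hq'z, hzs]
      _ = z := by group

end Cfsg.Agent.S5429
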