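import Cfsg.Statements.S5430
import Cfsg.Agent.Lib.Helper92Four

set_option autoImplicit false
open Cfsg

namespace Cfsg.Agent.S5430

open Cfsg.Agent.Lib.Helper92Basic Cfsg.Agent.Lib.Helper92ES Cfsg.Agent.Lib.Helper92Pair
  Cfsg.Agent.Lib.Helper92Four

theorem pair_comm_mem {G : Type*} [Group G] {Q Qb : Subgroup G} {z b : G} (h : Pair Q Qb z b) {q c : G}
    (hq : q ∈ Q) (hcz : c * z = z * c) (hcb : c * b = b * c) :
    q * c * q⁻¹ * c⁻¹ ∈ Q ⊓ Subgroup.centralizer ({b} : Set G) := by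
  rw [Subgroup.mem_inf, Subgroup.mem_centralizer_singleton_iff]
  constructor
  · have : q * c * q⁻¹ * c⁻¹ = q * (c * q⁻¹ * c⁻¹) := by group
    rw [this]
    exact Q.mul_mem hq (h.hQ.norm c hcz _ (Q.inv_mem hq))
  · have hs : c * (q⁻¹ * b * q) * c⁻¹ = q⁻¹ * b * q := by
      have h1 := h.hQ.conj_cases (Q.inv_mem hq) h.bQ
      rw [inv_inv] at h1
      rcases h1 with e | e
      · rw [e, hcb]; group
      · rw [e]
        calc c * (b * z) * c⁻¹ = (c * b) * z * c⁻¹ := by group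
          _ = b * (c * z) * c⁻¹ := by rw [hcb]; group
          _ = b * z := by rw [hcz]; group
    have hcb' : c⁻¹ * b * c = b := by
      calc c⁻¹ * b * c = c⁻¹ * (b * c) := by group
        _ = b := by rw [← hcb]; group
    have : (q * c * q⁻¹ * c⁻¹) * b * (q * c * q⁻¹ * c⁻¹)⁻¹ = b := by
      calc (q * c * q⁻¹ * c⁻¹) * b * (q * c * q⁻¹ * c⁻¹)⁻¹
          = q * (c * (q⁻¹ * (c⁻¹ * b * c) * q) * c⁻¹) * q⁻¹ := by group
        _ = q * (q⁻¹ * b * q) * q⁻¹ := by rw [hcb', hs]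
        _ = b := by group
    calc (q * c * q⁻¹ * c⁻¹) * b
        = ((q * c * q⁻¹ * c⁻¹) * b * (q * c * q⁻¹ * c⁻¹)⁻¹) * (q * c * q⁻¹ * c⁻¹) := by group
      _ = b * (q * c * q⁻¹ * c⁻¹) := by rw [this]

/-- Let Q be a large extraspecial 2-subgroup of the finite group G (extraspecial; centralizer equal to its centre; normal in the centralizer of its centre; normalizing no non-trivial subgroup of odd order) with centre generated by z, an involution, of width w ≥ 2 (order 2^(2w+1)); let g be an element outside the centralizer H of z with g z g⁻¹ in Q; write V for the subgroup generated by z and g z g⁻¹, X for the subgroup generated by Q and g Q g⁻¹, R for the subgroup generated by the centralizer of z in g Q g⁻¹ and the centralizer of g z g⁻¹ in Q, and E for the intersection of Q and g Q g⁻¹. Then R is the centralizer of V in X and is the largest normal 2-subgroup of X, and X/R is isomorphic to the symmetric group of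 degree 3; moreover the normalizer of V is the product of X and the centralizer of V in H, X is normal in it, and modulo R it is the direct product of X/R and of the centralizer of V in H modulo R. -/
theorem result {G : Type*} [Group G] [Finite G] (Q : Subgroup G) (hQ : Cfsg.IsLargeExtraspecial Q) (z : G) (hz : ((Subgroup.center ↥Q).map Q.subtype) = Subgroup.zpowers z) (hz2 : orderOf z = 2) (w : ℕ) (hw : 2 ≤ w) (hcard : Nat.card ↥Q = 2 ^ (2 * w + 1)) (g : G) (hgH : g ∉ Subgroup.centralizer ({z} : Set G)) (hgQ : g * z * g⁻¹ ∈ Q) (V X R E : Subgroup G) (hV : V = Subgroup.closure ({z, g * z * g⁻¹} : Set G)) (hX : X = Q ⊔ (Q).map (MulAut.conj g).toMonoidHom) (hR : R = ((Q).map (MulAut.conj g).toMonoidHom ⊓ Subgroup.centralizer ({z} : Set G)) ⊔ (Q ⊓ Subgroup.centralizer ({g * z * g⁻¹} : Set G))) (hE : E = Q ⊓ (Q).map (MulAut.conj g).toMonoidHom) : R = X ⊓ Subgroup.centralizer (V : Set G) ∧ R = (Cfsg.pCore 2 ↥X).map X.subtype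 ∧ (∃ h : (R.subgroupOf X).Normal, Nonempty (↥X ⧸ R.subgroupOf X ≃* Equiv.Perm (Fin 3))) ∧ Subgroup.normalizer (V : Set G) = X ⊔ (Subgroup.centralizer ({z} : Set G) ⊓ Subgroup.centralizer (V : Set G)) ∧ (∀ y ∈ Subgroup.normalizer (V : Set G), ∀ x ∈ X, y * x * y⁻¹ ∈ X) ∧ R ≤ Subgroup.centralizer ({z} : Set G) ⊓ Subgroup.centralizer (V : Set G) ∧ (∀ x ∈ X, ∀ c ∈ Subgroup.centralizer ({z} : Set G) ⊓ Subgroup.centralizer (V : Set G), x * c * x⁻¹ * c⁻¹ ∈ R) ∧ X ⊓ (Subgroup.centralizer ({z} : Set G) ⊓ Subgroup.centralizer (V : Set G)) = R := by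
  obtain ⟨hL1, hL2, hL3, -⟩ := hQ
  obtain ⟨z', hES, hcen⟩ := exists_ES hL1 hL2 hL3
  have hz1 : z ≠ 1 := by
    intro h; rw [h, orderOf_one] at hz2; omega
  have hzz' : z = z' := by
    have : z ∈ cen Q := by
      change z ∈ (Subgroup.center ↥Q).map Q.subtype
      rw [hz]; exact Subgroup.mem_zpowers z
    rcases (hcen z).mp this with h | h
    · exact absurd h hz1
    · exact h
  subst hzz'
  have hbz : g * z * g⁻¹ ≠ z := by
    intro h
    apply hgH
    rw [Subgroup.mem_centralizer_singleton_iff]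
    calc g * z = (g * z * g⁻¹) * g := by group
      _ = z * g := by rw [h]
  have hcard8 : 8 < Nat.card Q := by
    rw [hcard]
    calc 8 < 2 ^ 5 := by norm_num
      _ ≤ 2 ^ (2 * w + 1) := Nat.pow_le_pow_right (by norm_num) (by omega)
  have hzQb := z_mem_conj hES g hgQ hbz hcard8
  have hb := hES.conj g
  set b := g * z * g⁻¹ with hbdef
  set Qb := Q.map (MulAut.conj g).toMonoidHom with hQb
  have hP : Pair Q Qb z b := ⟨hES, hb, hgQ, hzQb, hbz⟩
  have hzb : z * b = b * z := hP.zb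
  have memV : ∀ v, v ∈ V ↔ v = 1 ∨ v = z ∨ v = b ∨ v = b * z := by
    rw [hV]; exact mem_closure_pair z b hES.zz hb.zz hzb
  have memV' : ∀ v, v ∈ V ↔ v = 1 ∨ v = b ∨ v = z ∨ v = z * b := by
    intro v; rw [memV, hzb]; tauto
  set P := Q ⊓ Subgroup.centralizer ({b} : Set G) with hPdef
  set Pb := Qb ⊓ Subgroup.centralizer ({z} : Set G) with hPbdef
  have memP : ∀ x, x ∈ P ↔ x ∈ Q ∧ x * b = b * x := by
    intro x; rw [hPdef, Subgroup.mem_inf, Subgroup.mem_centralizer_singleton_iff]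
  have memPb : ∀ x, x ∈ Pb ↔ x ∈ Qb ∧ x * z = z * x := by
    intro x; rw [hPbdef, Subgroup.mem_inf, Subgroup.mem_centralizer_singleton_iff]
  have hPR : P ≤ R := by rw [hR]; exact le_sup_right
  have hPbR : Pb ≤ R := by rw [hR]; exact le_sup_left
  have hQX : Q ≤ X := by rw [hX]; exact le_sup_left
  have hQbX : Qb ≤ X := by rw [hX]; exact le_sup_right
  have hRX : R ≤ X := by
    rw [hR]
    exact sup_le (inf_le_left.trans hQbX) (inf_le_left.trans hQX)
  have hRz : ∀ r ∈ R, r * z = z * r := by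
    have : R ≤ Subgroup.centralizer ({z} : Set G) := by
      rw [hR]
      refine sup_le inf_le_right (fun x hx => ?_)
      rw [Subgroup.mem_centralizer_singleton_iff]
      exact hES.zc x ((memP x).mp hx).1
    intro r hr
    exact Subgroup.mem_centralizer_singleton_iff.mp (this hr)
  have hRb : ∀ r ∈ R, r * b = b * r := by
    have : R ≤ Subgroup.centralizer ({b} : Set G) := by
      rw [hR]
      refine sup_le (fun x hx => ?_) inf_le_right
      rw [Subgroup.mem_centralizer_singleton_iff]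
      exact hb.zc x ((memPb x).mp hx).1
    intro r hr
    exact Subgroup.mem_centralizer_singleton_iff.mp (this hr)
  have memCV := mem_centralizer_four V z b memV
  have hRCV : R ≤ Subgroup.centralizer (V : Set G) := fun r hr => (memCV r).mpr ⟨hRz r hr, hRb r hr⟩
  have hCVz : Subgroup.centralizer (V : Set G) ≤ Subgroup.centralizer ({z} : Set G) := fun c hc =>
    Subgroup.mem_centralizer_singleton_iff.mpr ((memCV c).mp hc).1
  have hinf : Subgroup.centralizer ({z} : Set G) ⊓ Subgroup.centralizer (V : Set G)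
      = Subgroup.centralizer (V : Set G) := inf_eq_right.mpr hCVz
  rw [hinf]
  -- commutators
  have L7 : ∀ q ∈ Q, ∀ c, c * z = z * c → c * b = b * c → q * c * q⁻¹ * c⁻¹ ∈ R :=
    fun q hq c hcz hcb => hPR (pair_comm_mem hP hq hcz hcb)
  have L7b : ∀ q ∈ Qb, ∀ c, c * z = z * c → c * b = b * c → q * c * q⁻¹ * c⁻¹ ∈ R :=
    fun q hq c hcz hcb => hPbR (pair_comm_mem hP.symm hq hcb hcz)
  have hXNR : X ≤ Subgroup.normalizer (R : Set G) := by
    rw [hX]
    apply sup_le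
    · rw [Subgroup.le_normalizer_iff]
      intro q hq r hr
      have : q * r * q⁻¹ = (q * r * q⁻¹ * r⁻¹) * r := by group
      rw [this]
      exact R.mul_mem (L7 q hq r (hRz r hr) (hRb r hr)) hr
    · rw [Subgroup.le_normalizer_iff]
      intro q hq r hr
      have : q * r * q⁻¹ = (q * r * q⁻¹ * r⁻¹) * r := by group
      rw [this]
      exact R.mul_mem (L7b q hq r (hRz r hr) (hRb r hr)) hr
  have hXNV : X ≤ Subgroup.normalizer (V : Set G) := by
    rw [hX]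
    exact sup_le (hP.conj_mem_four memV) (hP.symm.conj_mem_four memV')
  have g7 : ∀ x ∈ X, ∀ c ∈ Subgroup.centralizer (V : Set G), x * c * x⁻¹ * c⁻¹ ∈ R := by
    have : X ≤ commSub R (Subgroup.centralizer (V : Set G)) := by
      nth_rewrite 1 [hX]
      refine sup_le (fun q hq => ⟨hXNR (hQX hq), fun c hc => ?_⟩)
        (fun q hq => ⟨hXNR (hQbX hq), fun c hc => ?_⟩)
      · exact L7 q hq c ((memCV c).mp hc).1 ((memCV c).mp hc).2
      · exact L7b q hq c ((memCV c).mp hc).1 ((memCV c).mp hc).2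
    intro x hx
    exact (this hx).2
  obtain ⟨q₀, hq₀, hq₀b⟩ := hES.exists_conj hgQ hb.z1 hbz
  obtain ⟨y₀, hy₀, hy₀z'⟩ := hb.exists_conj hzQb hES.z1 hbz.symm
  have hy₀z : y₀ * z * y₀⁻¹ = b * z := by rw [hy₀z', hzb]
  have hq₀z : q₀ * z * q₀⁻¹ = z := by rw [hES.zc q₀ hq₀]; group
  have hy₀b : y₀ * b * y₀⁻¹ = b := by rw [hb.zc y₀ hy₀]; group
  have hRn : (R.subgroupOf X).Normal := (Subgroup.normal_subgroupOf_iff_le_normalizer hRX).mpr hXNR
  have hq3 : q₀ * (b * z) * q₀⁻¹ = b := by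
    calc q₀ * (b * z) * q₀⁻¹ = (q₀ * b * q₀⁻¹) * (q₀ * z * q₀⁻¹) := by group
      _ = b * (z * z) := by rw [hq₀z, hq₀b]; group
      _ = b := by rw [hES.zz, mul_one]
  have hy3 : y₀ * (b * z) * y₀⁻¹ = z := by
    calc y₀ * (b * z) * y₀⁻¹ = (y₀ * b * y₀⁻¹) * (y₀ * z * y₀⁻¹) := by group
      _ = (b * b) * z := by rw [hy₀z, hy₀b]; group
      _ = z := by rw [hb.zz, one_mul]
  have hq₀b' : q₀⁻¹ * b * q₀ = b * z := by
    calc q₀⁻¹ * b * q₀ = q₀⁻¹ * (q₀ * (b * z) * q₀⁻¹) * q₀ := by rw [hq3]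
      _ = b * z := by group
  have hy₀b' : y₀⁻¹ * b * y₀ = b := by
    calc y₀⁻¹ * b * y₀ = y₀⁻¹ * (y₀ * b * y₀⁻¹) * y₀ := by rw [hy₀b]
      _ = b := by group
  -- the braid relation modulo `R`
  have ht₁ : y₀ * q₀ * y₀⁻¹ ∈ Q.map (MulAut.conj y₀).toMonoidHom := conj_mem_map_conj y₀ hq₀
  have ht₂ : q₀ * y₀ * q₀⁻¹ ∈ Q.map (MulAut.conj y₀).toMonoidHom := by
    have e : Q.map (MulAut.conj (q₀ * g)).toMonoidHom = Q.map (MulAut.conj y₀).toMonoidHom := by
      apply ES.map_conj_eq hES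
      calc q₀ * g * z * (q₀ * g)⁻¹ = q₀ * (g * z * g⁻¹) * q₀⁻¹ := by group
        _ = y₀ * z * y₀⁻¹ := by rw [← hbdef, hq₀b, hy₀z]
    rw [← e, mem_map_conj_iff]
    have := (mem_map_conj_iff Q g y₀).mp hy₀
    have e2 : (q₀ * g)⁻¹ * (q₀ * y₀ * q₀⁻¹) * (q₀ * g) = g⁻¹ * y₀ * g := by group
    rw [e2]; exact this
  have hw : (q₀ * y₀ * q₀⁻¹)⁻¹ * (y₀ * q₀ * y₀⁻¹) ∈ R := by
    have h1 := Subgroup.mul_mem _ (Subgroup.inv_mem _ ht₂) ht₁
    rw [mem_map_conj_iff] at h1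
    have e1 : (y₀ * q₀ * y₀⁻¹) * b * (y₀ * q₀ * y₀⁻¹)⁻¹ = z := by
      calc (y₀ * q₀ * y₀⁻¹) * b * (y₀ * q₀ * y₀⁻¹)⁻¹
          = y₀ * (q₀ * (y₀⁻¹ * b * y₀) * q₀⁻¹) * y₀⁻¹ := by group
        _ = z := by rw [hy₀b', hq₀b, hy3]
    have e2 : (q₀ * y₀ * q₀⁻¹) * b * (q₀ * y₀ * q₀⁻¹)⁻¹ = z := by
      calc (q₀ * y₀ * q₀⁻¹) * b * (q₀ * y₀ * q₀⁻¹)⁻¹
          = q₀ * (y₀ * (q₀⁻¹ * b * q₀) * y₀⁻¹) * q₀⁻¹ := by group
        _ = z := by rw [hq₀b', hy3, hq₀z]
    have h3 : y₀⁻¹ * ((q₀ * y₀ * q₀⁻¹)⁻¹ * (y₀ * q₀ * y₀⁻¹)) * y₀ ∈ P := by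
      rw [memP]
      refine ⟨h1, ?_⟩
      calc y₀⁻¹ * ((q₀ * y₀ * q₀⁻¹)⁻¹ * (y₀ * q₀ * y₀⁻¹)) * y₀ * b
          = y₀⁻¹ * (q₀ * y₀ * q₀⁻¹)⁻¹ * ((y₀ * q₀ * y₀⁻¹) * (y₀ * b * y₀⁻¹) * (y₀ * q₀ * y₀⁻¹)⁻¹)
              * (y₀ * q₀ * y₀⁻¹) * y₀ := by group
        _ = y₀⁻¹ * (q₀ * y₀ * q₀⁻¹)⁻¹ * ((q₀ * y₀ * q₀⁻¹) * b * (q₀ * y₀ * q₀⁻¹)⁻¹)
              * (y₀ * q₀ * y₀⁻¹) * y₀ := by rw [hy₀b, e1, e2]
        _ = (y₀⁻¹ * b * y₀) * (y₀⁻¹ * ((q₀ * y₀ * q₀⁻¹)⁻¹ * (y₀ * q₀ * y₀⁻¹)) * y₀) := by group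
        _ = b * (y₀⁻¹ * ((q₀ * y₀ * q₀⁻¹)⁻¹ * (y₀ * q₀ * y₀⁻¹)) * y₀) := by rw [hy₀b']
    have := (Subgroup.mem_normalizer_iff.mp (hXNR (hQbX hy₀)) _).mp (hPR h3)
    have e3 : y₀ * (y₀⁻¹ * ((q₀ * y₀ * q₀⁻¹)⁻¹ * (y₀ * q₀ * y₀⁻¹)) * y₀) * y₀⁻¹
        = (q₀ * y₀ * q₀⁻¹)⁻¹ * (y₀ * q₀ * y₀⁻¹) := by group
    rwa [e3] at this
  -- the quotient `X / R`
  let π : X →* X ⧸ R.subgroupOf X := QuotientGroup.mk' (R.subgroupOf X)
  have πone : ∀ x : X, π x = 1 ↔ (x : G) ∈ R := by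
    intro x
    change (QuotientGroup.mk x : X ⧸ R.subgroupOf X) = 1 ↔ _
    rw [QuotientGroup.eq_one_iff, Subgroup.mem_subgroupOf]
  let qX : X := ⟨q₀, hQX hq₀⟩
  let yX : X := ⟨y₀, hQbX hy₀⟩
  have hzR : z ∈ R := hPR ((memP z).mpr ⟨hES.zQ, hzb⟩)
  have hbR : b ∈ R := hPR ((memP b).mpr ⟨hgQ, rfl⟩)
  have ha : π qX * π qX = 1 := by
    rw [← map_mul, πone]
    change q₀ * q₀ ∈ R
    rcases hES.sq q₀ hq₀ with h | h
    · rw [h]; exact R.one_mem
    · rw [h]; exact hzR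
  have hc : π yX * π yX = 1 := by
    rw [← map_mul, πone]
    change y₀ * y₀ ∈ R
    rcases hb.sq y₀ hy₀ with h | h
    · rw [h]; exact R.one_mem
    · rw [h]; exact hbR
  have hainv : (π qX)⁻¹ = π qX := inv_eq_of_mul_eq_one_left ha
  have hcinv : (π yX)⁻¹ = π yX := inv_eq_of_mul_eq_one_left hc
  have hbr : π qX * π yX * π qX = π yX * π qX * π yX := by
    have h1 : π ((qX * yX * qX⁻¹)⁻¹ * (yX * qX * yX⁻¹)) = 1 := by
      rw [πone]; exact hw
    rw [map_mul, map_inv, inv_mul_eq_one, map_mul, map_mul, map_mul, map_mul, map_inv, map_inv,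
      hainv, hcinv] at h1
    exact h1
  have hgen : ∀ d : X ⧸ R.subgroupOf X, d ∈ Subgroup.closure ({π qX, π yX} : Set (X ⧸ R.subgroupOf X)) := by
    set S := Subgroup.closure ({π qX, π yX} : Set (X ⧸ R.subgroupOf X)) with hS
    have haS : π qX ∈ S := Subgroup.subset_closure (by simp)
    have hcS : π yX ∈ S := Subgroup.subset_closure (by simp)
    have hle : X ≤ (S.comap π).map X.subtype := by
      nth_rewrite 1 [hX]
      apply sup_le
      · intro q hq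
        refine ⟨⟨q, hQX hq⟩, ?_, rfl⟩
        rw [SetLike.mem_coe, Subgroup.mem_comap]
        rcases ES.coset_cases hES hgQ hq₀ hq₀b hq with e | e
        · have : π ⟨q, hQX hq⟩ = 1 := by
            rw [πone]; exact hPR ((memP q).mpr ⟨hq, e⟩)
          rw [this]; exact S.one_mem
        · have h1 : π (qX⁻¹ * ⟨q, hQX hq⟩) = 1 := by
            rw [πone]; exact hPR ((memP _).mpr ⟨Q.mul_mem (Q.inv_mem hq₀) hq, e⟩)
          rw [map_mul, map_inv, inv_mul_eq_one] at h1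
          rw [← h1]; exact haS
      · intro q hq
        refine ⟨⟨q, hQbX hq⟩, ?_, rfl⟩
        rw [SetLike.mem_coe, Subgroup.mem_comap]
        rcases ES.coset_cases hb hzQb hy₀ hy₀z' hq with e | e
        · have : π ⟨q, hQbX hq⟩ = 1 := by
            rw [πone]; exact hPbR ((memPb q).mpr ⟨hq, e⟩)
          rw [this]; exact S.one_mem
        · have h1 : π (yX⁻¹ * ⟨q, hQbX hq⟩) = 1 := by
            rw [πone]; exact hPbR ((memPb _).mpr ⟨Qb.mul_mem (Qb.inv_mem hy₀) hq, e⟩)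
          rw [map_mul, map_inv, inv_mul_eq_one] at h1
          rw [← h1]; exact hcS
    intro d
    obtain ⟨x, rfl⟩ := QuotientGroup.mk'_surjective (R.subgroupOf X) d
    obtain ⟨x', hx', hxx'⟩ := hle x.2
    have : x' = x := Subtype.ext hxx'
    rw [this] at hx'
    exact hx'
  have hcardD : R.relIndex X ≤ 6 := by
    classical
    let l : List (X ⧸ R.subgroupOf X) :=
      [1, π qX, π yX, π qX * π yX, π yX * π qX, π qX * π yX * π qX]
    have hsub : (Set.univ : Set (X ⧸ R.subgroupOf X)) ⊆ (l.toFinset : Set (X ⧸ R.subgroupOf X)) := by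
      intro d _
      simp only [Finset.mem_coe, List.mem_toFinset, l, List.mem_cons, List.not_mem_nil, or_false]
      exact six_elements _ _ ha hc hbr d (hgen d)
    calc R.relIndex X = Nat.card (X ⧸ R.subgroupOf X) := rfl
      _ = (Set.univ : Set (X ⧸ R.subgroupOf X)).ncard := (Set.ncard_univ _).symm
      _ ≤ (l.toFinset : Set (X ⧸ R.subgroupOf X)).ncard :=
          Set.ncard_le_ncard hsub (Finset.finite_toSet _)
      _ = l.toFinset.card := Set.ncard_coe_finset _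
      _ ≤ l.length := List.toFinset_card_le l
      _ = 6 := rfl
  have h6 : (Subgroup.centralizer (V : Set G)).relIndex X = 6 :=
    relIndex_four_group' V z b q₀ y₀ memV hES.z1 hb.z1 hbz hES.zz hb.zz hq₀z hq₀b hy₀z hy₀b X hXNV
      (hQX hq₀) (hQbX hy₀)
  have g1 : R = X ⊓ Subgroup.centralizer (V : Set G) := by
    apply le_antisymm (le_inf hRX hRCV)
    have h1 := Subgroup.relIndex_mul_relIndex R (X ⊓ Subgroup.centralizer (V : Set G)) X
      (le_inf hRX hRCV) inf_le_left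
    rw [Subgroup.inf_relIndex_left, h6] at h1
    have h2 : R.relIndex (X ⊓ Subgroup.centralizer (V : Set G)) ≠ 0 := by
      intro h0
      rw [h0, zero_mul] at h1
      have : R.relIndex X ≠ 0 := Subgroup.FiniteIndex.index_ne_zero
      exact this h1.symm
    have h3 : R.relIndex (X ⊓ Subgroup.centralizer (V : Set G)) = 1 := by
      have : R.relIndex (X ⊓ Subgroup.centralizer (V : Set G)) * 6 ≤ 6 := h1 ▸ hcardD
      omega
    exact Subgroup.relIndex_eq_one.mp h3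
  obtain ⟨f, hfs, hfk⟩ := quotient_four_group V z b q₀ y₀ memV hES.z1 hb.z1 hbz hES.zz hb.zz hq₀z hq₀b
    hy₀z hy₀b X hXNV (hQX hq₀) (hQbX hy₀)
  have hker : f.ker = R.subgroupOf X := by
    rw [hfk, g1, Subgroup.inf_subgroupOf_left]
  have hR2 : IsPGroup 2 R := by
    have hQ2 : IsPGroup 2 Q := hL1.1.1
    have hQb2 : IsPGroup 2 Qb := hQ2.map _
    have hP2 : IsPGroup 2 P := hQ2.to_le inf_le_left
    have hPb2 : IsPGroup 2 Pb := hQb2.to_le inf_le_left
    rw [hR]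
    apply hPb2.to_sup_of_normal_left' hP2
    rw [Subgroup.le_normalizer_iff]
    intro p hp y hy
    rw [memP] at hp
    rw [memPb] at hy ⊢
    refine ⟨hb.norm p hp.2 y hy.1, ?_⟩
    have hpz := hES.zc p hp.1
    have hpz' : p⁻¹ * z = z * p⁻¹ := hES.zc _ (Q.inv_mem hp.1)
    calc p * y * p⁻¹ * z = p * y * (p⁻¹ * z) := by group
      _ = p * (y * z) * p⁻¹ := by rw [hpz']; group
      _ = (p * z) * y * p⁻¹ := by rw [hy.2]; group
      _ = z * (p * y * p⁻¹) := by rw [hpz]; group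
  have g2 : R = (Cfsg.pCore 2 ↥X).map X.subtype := by
    apply le_antisymm
    · intro r hr
      have h1 : R.subgroupOf X ≤ Cfsg.pCore 2 ↥X := le_pCore hRn hR2.comap_subtype
      exact ⟨⟨r, hRX hr⟩, h1 (Subgroup.mem_subgroupOf.mpr hr), rfl⟩
    · rintro _ ⟨o, ho, rfl⟩
      have hN : ((Cfsg.pCore 2 ↥X).map f).Normal := (pCore_normal 2 ↥X).map f hfs
      have hN2 : IsPGroup 2 ((Cfsg.pCore 2 ↥X).map f) := (pCore_isPGroup 2 ↥X).map f
      have hbot := normal_two_subgroup_perm_three _ hN hN2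
      have h1 : f o ∈ (Cfsg.pCore 2 ↥X).map f := ⟨o, ho, rfl⟩
      rw [hbot, Subgroup.mem_bot] at h1
      have h2 : o ∈ f.ker := h1
      rw [hker, Subgroup.mem_subgroupOf] at h2
      exact h2
  have g4 : Subgroup.normalizer (V : Set G) = X ⊔ Subgroup.centralizer (V : Set G) := by
    apply le_antisymm
    · exact normalizer_four_le V z b q₀ y₀ memV hES.z1 hb.z1 hbz hES.zz hb.zz hq₀z hq₀b hy₀z hy₀b X
        (hQX hq₀) (hQbX hy₀)
    · exact sup_le hXNV (Subgroup.centralizer_le_normalizer _)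
  have g5 : ∀ y ∈ Subgroup.normalizer (V : Set G), ∀ x ∈ X, y * x * y⁻¹ ∈ X := by
    rw [← Subgroup.le_normalizer_iff, g4]
    apply sup_le Subgroup.le_normalizer
    have h1 : Subgroup.centralizer (V : Set G) ≤ Subgroup.normalizer (Q : Set G) := by
      rw [Subgroup.le_normalizer_iff]
      intro c hc q hq
      exact hES.norm c ((memCV c).mp hc).1 q hq
    have h2 : Subgroup.centralizer (V : Set G) ≤ Subgroup.normalizer (Qb : Set G) := by
      rw [Subgroup.le_normalizer_iff]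
      intro c hc q hq
      exact hb.norm c ((memCV c).mp hc).2 q hq
    rw [hX]
    exact (le_inf h1 h2).trans (Subgroup.normalizer_inf_normalizer_le_normalizer_sup Q Qb)
  refine ⟨g1, g2, ⟨hRn, ⟨?_⟩⟩, g4, g5, hRCV, g7, g1.symm⟩
  exact (QuotientGroup.quotientMulEquivOfEq hker.symm).trans
    (QuotientGroup.quotientKerEquivOfSurjective f hfs)

end Cfsg.Agent.S5430
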