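import Cfsg.Statements.S5431
import Cfsg.Agent.Lib.Helper92Pair

set_option autoImplicit false
open Cfsg

namespace Cfsg.Agent.S5431

open Cfsg.Agent.Lib.Helper92Basic Cfsg.Agent.Lib.Helper92ES Cfsg.Agent.Lib.Helper92Pair
open scoped commutatorElement

/-- Let Q be a large extraspecial 2-subgroup of the finite group G (extraspecial; centralizer equal to its centre; normal in the centralizer of its centre; normalizing no non-trivial subgroup of odd order) with centre generated by z, an involution, of width w ≥ 2 (order 2^(2w+1)); let g be an element outside the centralizer H of z with g z g⁻¹ in Q; write V for the subgroup generated by z and g z g⁻¹, X for the subgroup generated by Q and g Q g⁻¹, R for the subgroup generated by the centralizer of z in g Q g⁻¹ and the centralizer of g z g⁻¹ in Q, and E for the intersection of Q and g Q g⁻¹. Then V is the centre of R, E lies in the second centre of R, R is nilpotent of class at most 3, E and R/E are elementary abelian, R/E is the direct product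 of the images of the centralizer of g z g⁻¹ in Q and of the centralizer of z in g Q g⁻¹ (R is their product and they meet in E), and the commutator subgroup of X and E lies in V. -/
theorem result {G : Type*} [Group G] [Finite G] (Q : Subgroup G) (hQ : Cfsg.IsLargeExtraspecial Q) (z : G) (hz : ((Subgroup.center ↥Q).map Q.subtype) = Subgroup.zpowers z) (hz2 : orderOf z = 2) (w : ℕ) (hw : 2 ≤ w) (hcard : Nat.card ↥Q = 2 ^ (2 * w + 1)) (g : G) (hgH : g ∉ Subgroup.centralizer ({z} : Set G)) (hgQ : g * z * g⁻¹ ∈ Q) (V X R E : Subgroup G) (hV : V = Subgroup.closure ({z, g * z * g⁻¹} : Set G)) (hX : X = Q ⊔ (Q).map (MulAut.conj g).toMonoidHom) (hR : R = ((Q).map (MulAut.conj g).toMonoidHom ⊓ Subgroup.centralizer ({z} : Set G)) ⊔ (Q ⊓ Subgroup.centralizer ({g * z * g⁻¹} : Set G))) (hE : E = Q ⊓ (Q).map (MulAut.conj g).toMonoidHom) : (Subgroup.center ↥R).map R.subtype = V ∧ E ≤ (Subgroup.upperCentralSeries ↥R 2).map R.subtype ∧ Subgroup.upperCentralSeries ↥R 3 = ⊤ ∧ Cfsg.IsElementaryAbelian 2 E ∧ (∀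 x ∈ R, ∀ y ∈ R, x * y * x⁻¹ * y⁻¹ ∈ E ∧ x ^ 2 ∈ E) ∧ ((Q).map (MulAut.conj g).toMonoidHom ⊓ Subgroup.centralizer ({z} : Set G)) ⊓ (Q ⊓ Subgroup.centralizer ({g * z * g⁻¹} : Set G)) = E ∧ ⁅X, E⁆ ≤ V := by
  obtain ⟨hL1, hL2, hL3, -⟩ := hQ
  obtain ⟨z', hES, hcen⟩ := exists_ES hL1 hL2 hL3
  have hz1 : z ≠ 1 := by
    intro h; rw [h, orderOf_one] at hz2; omega
  have hzz' : z = z' := by
    have : z ∈ cen Q := by
      change z ∈ (Subgroup.center ↥Q).map Q.subtype
      rw [hz]; exact Subgroup.mem_zpowers z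
    rcases (hcen z).mp this with h | h
    · exact absurd h hz1
    · exact h
  subst hzz'
  have hbz : g * z * g⁻¹ ≠ z := by
    intro h
    apply hgH
    rw [Subgroup.mem_centralizer_singleton_iff]
    calc g * z = (g * z * g⁻¹) * g := by group
      _ = z * g := by rw [h]
  have hcard8 : 8 < Nat.card Q := by
    rw [hcard]
    calc 8 < 2 ^ 5 := by norm_num
      _ ≤ 2 ^ (2 * w + 1) := Nat.pow_le_pow_right (by norm_num) (by omega)
  have hzQb := z_mem_conj hES g hgQ hbz hcard8
  have hb := hES.conj g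
  set b := g * z * g⁻¹ with hbdef
  set Qb := Q.map (MulAut.conj g).toMonoidHom with hQb
  have hP : Pair Q Qb z b := ⟨hES, hb, hgQ, hzQb, hbz⟩
  have hzb : z * b = b * z := hP.zb
  have memV : ∀ v, v ∈ V ↔ v = 1 ∨ v = z ∨ v = b ∨ v = b * z := by
    rw [hV]; exact mem_closure_pair z b hES.zz hb.zz hzb
  have memV' : ∀ v, v ∈ V ↔ v = 1 ∨ v = b ∨ v = z ∨ v = z * b := by
    intro v; rw [memV, hzb]; tauto
  have hzV : z ∈ V := (memV z).mpr (Or.inr (Or.inl rfl))
  have hbV : b ∈ V := (memV b).mpr (Or.inr (Or.inr (Or.inl rfl)))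
  set P := Q ⊓ Subgroup.centralizer ({b} : Set G) with hPdef
  set Pb := Qb ⊓ Subgroup.centralizer ({z} : Set G) with hPbdef
  have hzE : z ∈ E := by rw [hE]; exact ⟨hES.zQ, hzQb⟩
  have hbE : b ∈ E := by rw [hE]; exact ⟨hgQ, hb.zQ⟩
  have memP : ∀ x, x ∈ P ↔ x ∈ Q ∧ x * b = b * x := by
    intro x; rw [hPdef, Subgroup.mem_inf, Subgroup.mem_centralizer_singleton_iff]
  have memPb : ∀ x, x ∈ Pb ↔ x ∈ Qb ∧ x * z = z * x := by
    intro x; rw [hPbdef, Subgroup.mem_inf, Subgroup.mem_centralizer_singleton_iff]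
  have memE : ∀ x, x ∈ E ↔ x ∈ Q ∧ x ∈ Qb := by
    intro x; rw [hE, Subgroup.mem_inf]
  have hEP : E ≤ P := fun x hx => (memP x).mpr ⟨((memE x).mp hx).1, hb.zc x ((memE x).mp hx).2⟩
  have hPR : P ≤ R := by rw [hR]; exact le_sup_right
  have hPbR : Pb ≤ R := by rw [hR]; exact le_sup_left
  have hRX : R ≤ X := by
    rw [hR, hX]
    exact sup_le (inf_le_left.trans le_sup_right) (inf_le_left.trans le_sup_left)
  have hRz : ∀ r ∈ R, r * z = z * r := by
    have : R ≤ Subgroup.centralizer ({z} : Set G) := by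
      rw [hR]
      refine sup_le inf_le_right (fun x hx => ?_)
      rw [Subgroup.mem_centralizer_singleton_iff]
      exact hES.zc x ((memP x).mp hx).1
    intro r hr
    exact Subgroup.mem_centralizer_singleton_iff.mp (this hr)
  have hRb : ∀ r ∈ R, r * b = b * r := by
    have : R ≤ Subgroup.centralizer ({b} : Set G) := by
      rw [hR]
      refine sup_le (fun x hx => ?_) inf_le_right
      rw [Subgroup.mem_centralizer_singleton_iff]
      exact hb.zc x ((memPb x).mp hx).1
    intro r hr
    exact Subgroup.mem_centralizer_singleton_iff.mp (this hr)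
  -- goal 7
  have g7 : ∀ x ∈ X, ∀ e ∈ E, x * e * x⁻¹ * e⁻¹ ∈ V := by
    have : X ≤ commSub V E := by
      rw [hX]
      refine sup_le (fun q hq => ⟨hP.conj_mem_four memV hq, fun e he => ?_⟩)
        (fun q hq => ⟨hP.symm.conj_mem_four memV' hq, fun e he => ?_⟩)
      · rcases hES.comm q hq e ((memE e).mp he).1 with h | h
        · rw [h]; exact V.one_mem
        · rw [h]; exact hzV
      · rcases hb.comm q hq e ((memE e).mp he).2 with h | h
        · rw [h]; exact V.one_mem
        · rw [h]; exact hbV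
    intro x hx
    exact (this hx).2
  -- goal 5
  have g5 : ∀ x ∈ R, ∀ y ∈ R, x * y * x⁻¹ * y⁻¹ ∈ E ∧ x * x ∈ E := by
    rw [hR]
    apply elemAb_of_gens
    · rw [Subgroup.le_normalizer_iff]
      intro y hy e he
      rw [memPb] at hy
      rw [memE] at he ⊢
      exact ⟨hES.norm y hy.2 e he.1, Qb.mul_mem (Qb.mul_mem hy.1 he.2) (Qb.inv_mem hy.1)⟩
    · rw [Subgroup.le_normalizer_iff]
      intro y hy e he
      rw [memP] at hy
      rw [memE] at he ⊢
      exact ⟨Q.mul_mem (Q.mul_mem hy.1 he.1) (Q.inv_mem hy.1), hb.norm y hy.2 e he.2⟩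
    · intro x hx y hy
      rcases hb.comm x ((memPb x).mp hx).1 y ((memPb y).mp hy).1 with h | h
      · rw [h]; exact E.one_mem
      · rw [h]; exact hbE
    · intro x hx y hy
      rcases hES.comm x ((memP x).mp hx).1 y ((memP y).mp hy).1 with h | h
      · rw [h]; exact E.one_mem
      · rw [h]; exact hzE
    · intro x hx y hy
      rw [memPb] at hx
      rw [memP] at hy
      rw [memE]
      constructor
      · exact Q.mul_mem (hES.norm x hx.2 y hy.1) (Q.inv_mem hy.1)
      · have : x * y * x⁻¹ * y⁻¹ = x * (y * x⁻¹ * y⁻¹) := by group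
        rw [this]
        exact Qb.mul_mem hx.1 (hb.norm y hy.2 _ (Qb.inv_mem hx.1))
    · intro x hx
      rcases hb.sq x ((memPb x).mp hx).1 with h | h
      · rw [h]; exact E.one_mem
      · rw [h]; exact hbE
    · intro x hx
      rcases hES.sq x ((memP x).mp hx).1 with h | h
      · rw [h]; exact E.one_mem
      · rw [h]; exact hzE
  -- goal 1
  have g1 : (Subgroup.center ↥R).map R.subtype = V := by
    ext c
    change c ∈ cen R ↔ _
    rw [mem_cen_iff]
    constructor
    · rintro ⟨hcR, hc⟩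
      rw [memV]
      apply ES.cent_cent hES hgQ hb.z1 hbz hb.zz (hRz c hcR)
      intro p hp hpb
      exact (hc p (hPR ((memP p).mpr ⟨hp, hpb⟩))).symm
    · intro hv
      have hzR : z ∈ R := hPR (hEP hzE)
      have hbR : b ∈ R := hPR (hEP hbE)
      rcases (memV c).mp hv with rfl | rfl | rfl | rfl
      · exact ⟨R.one_mem, fun r _ => by simp⟩
      · exact ⟨hzR, hRz⟩
      · exact ⟨hbR, hRb⟩
      · refine ⟨R.mul_mem hbR hzR, fun r hr => ?_⟩
        calc r * (b * z) = (r * b) * z := by group
          _ = b * (r * z) := by rw [hRb r hr]; group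
          _ = b * z * r := by rw [hRz r hr]; group
  -- goal 2
  have g2 : E ≤ (Subgroup.upperCentralSeries ↥R 2).map R.subtype := by
    intro e he
    have heR : e ∈ R := hPR (hEP he)
    refine ⟨⟨e, heR⟩, ?_, rfl⟩
    rw [SetLike.mem_coe, Subgroup.mem_upperCentralSeries_succ_iff]
    intro y
    rw [Subgroup.upperCentralSeries_one]
    have h1 : e * (y : G) * e⁻¹ * (y : G)⁻¹ ∈ V := comm_symm_mem (g7 y (hRX y.2) e he)
    rw [← g1] at h1
    obtain ⟨c, hc, hce⟩ := h1
    have : ⁅(⟨e, heR⟩ : R), y⁆ = c := by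
      apply Subtype.ext
      rw [commutatorElement_def]
      exact hce.symm
    rw [this]; exact hc
  refine ⟨g1, g2, ?_, ?_, ?_, ?_, ?_⟩
  · rw [eq_top_iff]
    intro x _
    rw [Subgroup.mem_upperCentralSeries_succ_iff]
    intro y
    obtain ⟨c, hc, hce⟩ := g2 (g5 x x.2 y y.2).1
    have : ⁅x, y⁆ = c := by
      apply Subtype.ext
      rw [commutatorElement_def]
      exact hce.symm
    rw [this]; exact hc
  · constructor
    · refine ⟨⟨fun x y => ?_⟩⟩
      apply Subtype.ext
      change (x : G) * y = y * x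
      have hx := (memE _).mp x.2
      have hy := (memE _).mp y.2
      have h1 : (x : G) * y * (x : G)⁻¹ * (y : G)⁻¹ = 1 := by
        rcases hES.comm _ hx.1 _ hy.1 with h | h
        · exact h
        · rcases hb.comm _ hx.2 _ hy.2 with h' | h'
          · exact h'
          · exact absurd (h'.symm.trans h) hbz
      calc (x : G) * y = ((x : G) * y * (x : G)⁻¹ * (y : G)⁻¹) * (y * x) := by group
        _ = y * x := by rw [h1, one_mul]
    · intro a ha
      have ha' := (memE _).mp ha
      rw [pow_two]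
      rcases hES.sq _ ha'.1 with h | h
      · exact h
      · rcases hb.sq _ ha'.2 with h' | h'
        · exact h'
        · exact absurd (h'.symm.trans h) hbz
  · intro x hx y hy
    rw [pow_two]
    exact g5 x hx y hy
  · ext x
    rw [Subgroup.mem_inf, memP, memPb, memE]
    constructor
    · rintro ⟨h1, h2⟩; exact ⟨h2.1, h1.1⟩
    · rintro ⟨h1, h2⟩; exact ⟨⟨h2, hES.zc x h1⟩, ⟨h1, hb.zc x h2⟩⟩
  · rw [Subgroup.commutator_le]
    intro x hx e he
    rw [commutatorElement_def]
    exact g7 x hx e he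

end Cfsg.Agent.S5431
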