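import Cfsg.Statements.S5433
import Cfsg.Agent.Lib.Helper92Basic

set_option autoImplicit false
open Cfsg

namespace Cfsg.Agent.S5433

open Cfsg.Agent.Lib.Helper92Basic

/-- Let Q be a large extraspecial 2-subgroup of the finite group G (extraspecial; centralizer equal to its centre; normal in the centralizer of its centre; normalizing no non-trivial subgroup of odd order), and L a normal subgroup of G containing Q. Then G is the product of L and the normalizer of Q. -/
theorem result {G : Type*} [Group G] [Finite G] (Q : Subgroup G) (hQ : Cfsg.IsLargeExtraspecial Q) (L : Subgroup G) [L.Normal] (hQL : Q ≤ L) : L ⊔ Subgroup.normalizer (Q : Set G) = ⊤ := by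
  obtain ⟨hL1, hL2, hL3, -⟩ := hQ
  have : Fact (Nat.Prime 2) := ⟨Nat.prime_two⟩
  obtain ⟨z, hzZ, hz1, hzz, hzall⟩ := exists_gen hL1
  have hzQ : z ∈ Q := cen_le Q hzZ
  have hQ2 : IsPGroup 2 Q := hL1.1.1
  have hQL2 : IsPGroup 2 (Q.subgroupOf L) := hQ2.comap_subtype
  obtain ⟨T, hT⟩ := hQL2.exists_le_sylow
  have hfr := Sylow.normalizer_sup_eq_top T
  set T' : Subgroup G := (T : Subgroup L).map L.subtype with hT'
  have hQT : Q ≤ T' := by
    intro q hq
    exact ⟨⟨q, hQL hq⟩, hT (Subgroup.mem_subgroupOf.mpr hq), rfl⟩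
  have hT2 : IsPGroup 2 T' := T.isPGroup'.map _
  have hTnt : Nontrivial T' := ⟨⟨⟨z, hQT hzQ⟩, 1, fun h => hz1 (congrArg Subtype.val h)⟩⟩
  have hcall : ∀ c ∈ cen T', c = 1 ∨ c = z := by
    intro c hc
    apply hzall
    change c ∈ (Subgroup.center ↥Q).map Q.subtype
    rw [← hL2, Subgroup.mem_centralizer_iff]
    intro q hq
    exact (mem_cen_iff.mp hc).2 q (hQT hq)
  have hzT : z ∈ cen T' := by
    have hnt : Nontrivial (Subgroup.center T') := hT2.center_nontrivial
    obtain ⟨c, hc⟩ := exists_ne (1 : Subgroup.center T')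
    have hc' : ((c : T') : G) ∈ cen T' := ⟨c, c.2, rfl⟩
    rcases hcall _ hc' with h | h
    · exfalso
      apply hc
      apply Subtype.ext
      apply Subtype.ext
      exact h
    · rwa [h] at hc'
  have hle : Subgroup.normalizer (T' : Set G) ≤ Subgroup.normalizer (Q : Set G) := by
    refine le_trans ?_ hL3
    intro g hg
    have hg' : ∀ t ∈ T', g * t * g⁻¹ ∈ T' := fun t ht => (Subgroup.mem_normalizer_iff.mp hg t).mp ht
    have hg'' : ∀ t ∈ T', g⁻¹ * t * g ∈ T' := fun t ht => by
      have := (Subgroup.mem_normalizer_iff.mp (Subgroup.inv_mem _ hg) t).mp ht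
      simpa using this
    have h1 : g * z * g⁻¹ ∈ cen T' := by
      rw [mem_cen_iff]
      refine ⟨hg' z (cen_le T' hzT), fun t ht => ?_⟩
      have h2 := (mem_cen_iff.mp hzT).2 _ (hg'' t ht)
      calc t * (g * z * g⁻¹) = g * ((g⁻¹ * t * g) * z) * g⁻¹ := by group
        _ = g * (z * (g⁻¹ * t * g)) * g⁻¹ := by rw [h2]
        _ = g * z * g⁻¹ * t := by group
    have h3 : g * z * g⁻¹ = z := by
      rcases hcall _ h1 with h | h
      · exfalso
        apply hz1
        have : z = g⁻¹ * (g * z * g⁻¹) * g := by group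
        rw [this, h]; group
      · exact h
    rw [Subgroup.mem_centralizer_iff]
    intro c hc
    rcases hzall c hc with rfl | rfl
    · simp
    · calc c * g = (g * c * g⁻¹) * g := by rw [h3]
        _ = g * c := by group
  rw [sup_comm]
  exact top_le_iff.mp (hfr ▸ sup_le_sup_right hle L)

end Cfsg.Agent.S5433
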