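import Cfsg.Statements.S5434
import Cfsg.Agent.Lib.Helper92Sub
import Cfsg.Agent.Lib.Helper30SZ

set_option autoImplicit false
open Cfsg

namespace Cfsg.Agent.S5434

open Cfsg.Agent.Lib.Helper92Basic Cfsg.Agent.Lib.Helper92ES Cfsg.Agent.Lib.Helper92Sub

/-- Let Q be a large extraspecial 2-subgroup of the finite group G (extraspecial; centralizer equal to its centre; normal in the centralizer of its centre; normalizing no non-trivial subgroup of odd order), and A a non-trivial subgroup of odd order of the normalizer of Q. Then Q is the central product of the centralizer of A in Q and the commutator subgroup [Q, A] (they generate Q and commute elementwise), [Q, A] is extraspecial, and the centralizer of A in Q is either the centre of Q or extraspecial. -/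
theorem result {G : Type*} [Group G] [Finite G] (Q : Subgroup G) (hQ : Cfsg.IsLargeExtraspecial Q) (A : Subgroup G) (hA : A ≤ Subgroup.normalizer (Q : Set G)) (hAodd : Odd (Nat.card ↥A)) (hA1 : A ≠ ⊥) : (Q ⊓ Subgroup.centralizer (A : Set G)) ⊔ ⁅Q, A⁆ = Q ∧ (∀ x ∈ Q ⊓ Subgroup.centralizer (A : Set G), ∀ y ∈ ⁅Q, A⁆, x * y = y * x) ∧ Cfsg.IsExtraspecial 2 ↥⁅Q, A⁆ ∧ (Q ⊓ Subgroup.centralizer (A : Set G) = ((Subgroup.center ↥Q).map Q.subtype) ∨ Cfsg.IsExtraspecial 2 ↥(Q ⊓ Subgroup.centralizer (A : Set G))) := by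
  obtain ⟨hL1, hL2, hL3, hL4⟩ := hQ
  obtain ⟨z, hES, hcen⟩ := exists_ES hL1 hL2 hL3
  have hQ2 : IsPGroup 2 Q := hL1.1.1
  have : Fact (Nat.Prime 2) := ⟨Nat.prime_two⟩
  -- A centralizes z
  have hAz : ∀ a ∈ A, a * z = z * a := by
    intro a ha
    have hn := Subgroup.mem_normalizer_iff.mp (hA ha)
    have hn' := Subgroup.mem_normalizer_iff.mp (Subgroup.inv_mem _ (hA ha))
    have h1 : a * z * a⁻¹ = 1 ∨ a * z * a⁻¹ = z := by
      apply hES.cent
      intro q hq
      have h2 : a⁻¹ * q * a ∈ Q := by simpa using (hn' q).mp hq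
      have h3 := hES.zc _ h2
      calc q * (a * z * a⁻¹) = a * ((a⁻¹ * q * a) * z) * a⁻¹ := by group
        _ = a * (z * (a⁻¹ * q * a)) * a⁻¹ := by rw [h3]
        _ = a * z * a⁻¹ * q := by group
    rcases h1 with h1 | h1
    · exfalso; apply hES.z1
      have : z = a⁻¹ * (a * z * a⁻¹) * a := by group
      rw [this, h1]; group
    · calc a * z = (a * z * a⁻¹) * a := by group
        _ = z * a := by rw [h1]
  have hcop : (Nat.card A).Coprime (Nat.card Q) := by
    obtain ⟨n, hn⟩ := IsPGroup.iff_card.mp hQ2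
    rw [hn]
    apply Nat.Coprime.pow_right
    exact (Nat.coprime_two_right).mpr hAodd
  have hsolv : Group.IsSolvable A ∨ Group.IsSolvable Q := by
    right
    have := hQ2.isNilpotent
    infer_instance
  set C := Q ⊓ Subgroup.centralizer (A : Set G) with hC
  set D := ⁅Q, A⁆ with hD
  have hDQ : D ≤ Q := Cfsg.Agent.Lib.Helper30SZ.commutator_le_of_le_normalizer hA
  have hCQ : C ≤ Q := inf_le_left
  have hdec : ∀ k ∈ Q, ∃ x ∈ D, ∃ c ∈ C, k = x * c := fun k hk =>
    Cfsg.Agent.Lib.Helper30SZ.exists_commutator_mul_centralizer hA hcop hsolv hk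
  have hzC : z ∈ C := by
    refine Subgroup.mem_inf.mpr ⟨hES.zQ, ?_⟩
    rw [Subgroup.mem_centralizer_iff]
    intro a ha
    exact hAz a ha
  have h1 : C ⊔ D = Q := by
    apply le_antisymm (sup_le hCQ hDQ)
    intro k hk
    obtain ⟨x, hx, c, hc, rfl⟩ := hdec k hk
    exact Subgroup.mul_mem _ (Subgroup.mem_sup_right hx) (Subgroup.mem_sup_left hc)
  have h2 : ∀ x ∈ C, ∀ y ∈ D, x * y = y * x := by
    have h3 : ⁅⁅Q, A⁆, C⁆ = ⊥ := by
      apply Subgroup.commutator_commutator_eq_bot_of_rotate
      · have : ⁅A, C⁆ = ⊥ := by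
          rw [Subgroup.commutator_comm, Subgroup.commutator_eq_bot_iff_le_centralizer]
          exact inf_le_right
        rw [this]
        exact Subgroup.commutator_bot_left _
      · rw [Subgroup.commutator_eq_bot_iff_le_centralizer, Subgroup.commutator_le]
        intro c hc q hq
        rw [Subgroup.mem_centralizer_iff]
        intro a ha
        rw [commutatorElement_def]
        rcases hES.comm c (hCQ hc) q hq with h4 | h4
        · rw [h4]; simp
        · rw [h4]; exact hAz a ha
    rw [Subgroup.commutator_eq_bot_iff_le_centralizer] at h3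
    intro x hx y hy
    exact Subgroup.mem_centralizer_iff.mp (h3 hy) x hx
  have hcenD : ∀ c ∈ D, (∀ x ∈ D, x * c = c * x) → c = 1 ∨ c = z := by
    intro c hc hcx
    apply hES.cent
    intro q hq
    obtain ⟨x, hx, c', hc', rfl⟩ := hdec q hq
    rw [mul_assoc, h2 c' hc' c hc, ← mul_assoc, hcx x hx, mul_assoc]
  have hcenC : ∀ c ∈ C, (∀ x ∈ C, x * c = c * x) → c = 1 ∨ c = z := by
    intro c hc hcx
    apply hES.cent
    intro q hq
    obtain ⟨x, hx, c', hc', rfl⟩ := hdec q hq
    rw [mul_assoc, hcx c' hc', ← mul_assoc, ← h2 c hc x hx, mul_assoc]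
  refine ⟨h1, h2, ?_, ?_⟩
  · apply isExtraspecial_of_sub hES hQ2 hDQ hcenD
    by_contra hcon
    push Not at hcon
    apply hA1
    have hDC : D ≤ C := by
      intro d hd
      rcases hcenD d hd (fun x hx => hcon x hx d hd) with rfl | rfl
      · exact Subgroup.one_mem _
      · exact hzC
    have hQC : Q ≤ C := by
      rw [← h1]; exact sup_le le_rfl hDC
    have hAc : A ≤ Subgroup.centralizer (Q : Set G) := by
      rw [Subgroup.le_centralizer_iff]
      exact hQC.trans inf_le_right
    rw [eq_bot_iff]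
    intro a ha
    rw [Subgroup.mem_bot]
    have h5 := hAc ha
    rw [hL2] at h5
    rcases (hcen a).mp h5 with h6 | h6
    · exact h6
    · exfalso
      have h7 : orderOf (⟨a, ha⟩ : A) ∣ Nat.card A := orderOf_dvd_natCard _
      have h8 : orderOf (⟨a, ha⟩ : A) = 2 := by
        apply orderOf_eq_prime
        · apply Subtype.ext; simp [pow_two, h6, hES.zz]
        · intro h9; apply hES.z1; rw [← h6]; exact congrArg Subtype.val h9
      rw [h8] at h7
      exact (Nat.not_even_iff_odd.mpr hAodd) (even_iff_two_dvd.mpr h7)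
  · by_cases hab : ∃ x ∈ C, ∃ y ∈ C, x * y ≠ y * x
    · right
      exact isExtraspecial_of_sub hES hQ2 hCQ hcenC hab
    · left
      push Not at hab
      ext c
      change c ∈ C ↔ c ∈ cen Q
      rw [hcen]
      constructor
      · intro hc
        exact hcenC c hc (fun x hx => hab x hx c hc)
      · rintro (rfl | rfl)
        · exact Subgroup.one_mem _
        · exact hzC

end Cfsg.Agent.S5434
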