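import Cfsg.Statements.S5435
import Cfsg.Agent.Lib.Helper92Transfer
import Cfsg.Agent.Lib.Helper3PGroup
import Cfsg.Agent.S0206

set_option autoImplicit false
open Cfsg

namespace Cfsg.Agent.S5435

open Cfsg.Agent.Lib.Helper92Transfer Cfsg.Agent.Lib.Helper3PGroup

/-- A homomorphism to `ℤˣ` detecting an element outside the Frattini subgroup of a 2-group. -/
theorem exists_hom {P : Type*} [Group P] [Finite P] (hP : IsPGroup 2 P) (d : P)
    (hd : d ∉ frattini P) : ∃ φ : P →* ℤˣ, φ d ≠ 1 := by
  have : Fact (Nat.Prime 2) := ⟨Nat.prime_two⟩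
  rw [mem_frattini_iff] at hd
  push Not at hd
  obtain ⟨M, hM, hdM⟩ := hd
  have hidx := coatom_index hP hM
  have := coatom_normal hP hM
  have hcard : Nat.card (P ⧸ M) = 2 := hidx
  have hcard' : Nat.card ℤˣ = 2 := by simp
  let e := mulEquivOfPrimeCardEq hcard hcard'
  refine ⟨e.toMonoidHom.comp (QuotientGroup.mk' M), ?_⟩
  intro h
  apply hdM
  have h1 : e (QuotientGroup.mk' M d) = 1 := h
  rw [EmbeddingLike.map_eq_one_iff] at h1
  exact (QuotientGroup.eq_one_iff d).mp h1

theorem hom_trivial {L : Type*} [Group L] [IsSimpleGroup L] (hL : ¬ IsMulCommutative L)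
    (ψ : L →* ℤˣ) (x : L) : ψ x = 1 := by
  rcases ψ.normal_ker.eq_bot_or_eq_top with h | h
  · exfalso; apply hL
    have hinj := (MonoidHom.ker_eq_bot_iff ψ).mp h
    exact ⟨⟨fun a b => hinj (by rw [map_mul, map_mul, mul_comm])⟩⟩
  · have : x ∈ ψ.ker := by rw [h]; trivial
    exact this

/-- The group-theoretic core, with all hypotheses in elementwise form. -/
theorem core {L : Type*} [Group L] [Finite L] (P : Subgroup L) (z : L) (hz1 : z ≠ 1)
    (hzz : z * z = 1) (memP : ∀ x, x ∈ P ↔ x * z = z * x)
    (F1 : ∀ x ∈ P, x * x = 1 ∨ x * x = z)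
    (F2 : ∀ x ∈ P, ∀ y ∈ P, x * y = y * x ∨ x * y = z * (y * x))
    (u : L) (huP : u ∈ P) (huu : u * u = z) (hP2 : IsPGroup 2 P)
    (hT : ∀ d (hd : d ∈ P), d ≠ 1 → d ≠ z → ∃ φ : P →* ℤˣ, φ ⟨d, hd⟩ ≠ 1)
    (hV : ∀ (φ : P →* ℤˣ) (x : L), MonoidHom.transfer φ x = 1) :
    ∃ t ∈ P, t * t = 1 ∧ u * t = z * (t * u) ∧
      ∀ x ∈ P, x ∈ Subgroup.closure ({t, t * u} : Set L) := by
  have hzP : z ∈ P := (memP z).mpr rfl
  have hu1 : u ≠ 1 := by rintro rfl; apply hz1; rw [← huu, one_mul]
  have huz : u ≠ z := by rintro rfl; apply hz1; rw [← huu, hzz]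
  -- Step A
  have stepA : ∀ g : L, g⁻¹ * u * g ∈ P → g ∈ P := by
    intro g hg
    have h1 : (g⁻¹ * u * g) * (g⁻¹ * u * g) = g⁻¹ * z * g := by
      rw [← huu]; group
    rw [memP]
    rcases F1 _ hg with h2 | h2
    · exfalso; apply hz1
      rw [h1] at h2
      calc z = g * (g⁻¹ * z * g) * g⁻¹ := by group
        _ = 1 := by rw [h2]; group
    · rw [h1] at h2
      calc g * z = g * (g⁻¹ * z * g) := by rw [h2]
        _ = z * g := by group
  -- Step B
  have stepB : ∃ g : L, g⁻¹ * z * g ∈ P ∧ g ∉ P := by
    by_contra hcon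
    push Not at hcon
    obtain ⟨φ, hφ⟩ := hT u huP hu1 huz
    apply hφ
    rw [← transfer_eq_of_unique P φ u huP, hV]
    intro g m h
    obtain ⟨k, rfl | rfl⟩ := Nat.even_or_odd' m
    · have e1 : u ^ (2 * k) = z ^ k := by rw [pow_mul, pow_two, huu]
      obtain ⟨j, rfl | rfl⟩ := Nat.even_or_odd' k
      · right
        have e2 : (⟨g⁻¹ * u ^ (2 * (2 * j)) * g, h⟩ : P) = 1 := by
          apply Subtype.ext
          simp [e1, pow_mul, pow_two, hzz]
        rw [e2, map_one]
      · left
        apply hcon
        have e2 : u ^ (2 * (2 * j + 1)) = z := by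
          rw [e1, pow_succ, pow_mul, pow_two, hzz, one_pow, one_mul]
        rwa [e2] at h
    · left
      have e1 : (g⁻¹ * u ^ (2 * k + 1) * g) * (g⁻¹ * u ^ (2 * k + 1) * g) = g⁻¹ * z * g := by
        have e2 : u ^ (2 * k + 1) * u ^ (2 * k + 1) = z := by
          rw [← pow_add]
          have : 2 * k + 1 + (2 * k + 1) = 2 * (2 * k + 1) := by ring
          rw [this, pow_mul, pow_two, huu, pow_succ, pow_mul, pow_two, hzz, one_pow, one_mul]
        calc (g⁻¹ * u ^ (2 * k + 1) * g) * (g⁻¹ * u ^ (2 * k + 1) * g)
            = g⁻¹ * (u ^ (2 * k + 1) * u ^ (2 * k + 1)) * g := by group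
          _ = g⁻¹ * z * g := by rw [e2]
      apply hcon
      rcases F1 _ h with h2 | h2
      · rw [← e1, h2]; exact P.one_mem
      · rw [← e1, h2]; exact hzP
  obtain ⟨g, htP, hgP⟩ := stepB
  set t := g⁻¹ * z * g with ht
  have htt : t * t = 1 := by
    calc t * t = g⁻¹ * (z * z) * g := by rw [ht]; group
      _ = 1 := by rw [hzz]; group
  have htz : t ≠ z := by
    intro h
    apply hgP
    rw [memP]
    calc g * z = g * t := by rw [h]
      _ = z * g := by rw [ht]; group
  have ht1 : t ≠ 1 := by
    intro h
    apply hz1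
    calc z = g * t * g⁻¹ := by rw [ht]; group
      _ = 1 := by rw [h]; group
  -- squares in C(t)
  have F1' : ∀ x, x * t = t * x → x * x = 1 ∨ x * x = t := by
    intro x hx
    have h1 : g * x * g⁻¹ ∈ P := by
      rw [memP]
      calc g * x * g⁻¹ * z = g * (x * t) * g⁻¹ := by rw [ht]; group
        _ = g * (t * x) * g⁻¹ := by rw [hx]
        _ = z * (g * x * g⁻¹) := by rw [ht]; group
    rcases F1 _ h1 with h2 | h2
    · left
      calc x * x = g⁻¹ * ((g * x * g⁻¹) * (g * x * g⁻¹)) * g := by group
        _ = 1 := by rw [h2]; group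
    · right
      calc x * x = g⁻¹ * ((g * x * g⁻¹) * (g * x * g⁻¹)) * g := by group
        _ = t := by rw [h2]
  have hD2 : ∀ x ∈ P, x * t = t * x → x * x = 1 := by
    intro x hx hxt
    rcases F1 x hx with h1 | h1
    · exact h1
    · rcases F1' x hxt with h2 | h2
      · exact h2
      · exact absurd (h2.symm.trans h1) htz
  have hDab : ∀ x ∈ P, x * t = t * x → ∀ y ∈ P, y * t = t * y → x * y = y * x := by
    intro x hx hxt y hy hyt
    have h1 : (x * y) * (x * y) = 1 := by
      apply hD2 _ (P.mul_mem hx hy)
      rw [mul_assoc, hyt, ← mul_assoc, hxt, mul_assoc]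
    have h2 := hD2 x hx hxt
    have h3 := hD2 y hy hyt
    calc x * y = x * ((x * y) * (x * y)) * y := by rw [h1, mul_one]
      _ = (x * x) * (y * x) * (y * y) := by group
      _ = y * x := by rw [h2, h3, one_mul, mul_one]
  have hut : u * t = z * (t * u) := by
    rcases F2 u huP t htP with h | h
    · exfalso; apply hz1; rw [← huu]; exact hD2 u huP h
    · exact h
  have hzu : u * z = z * u := (memP u).mp huP
  have hzt : t * z = z * t := (memP t).mp htP
  have hdec : ∀ x ∈ P, x * t = t * x ∨ (u * x) * t = t * (u * x) := by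
    intro x hx
    rcases F2 x hx t htP with h | h
    · left; exact h
    · right
      calc u * x * t = u * (x * t) := by group
        _ = u * (z * (t * x)) := by rw [h]
        _ = (u * z) * t * x := by group
        _ = (z * u) * t * x := by rw [hzu]
        _ = z * (u * t) * x := by group
        _ = z * (z * (t * u)) * x := by rw [hut]
        _ = (z * z) * (t * (u * x)) := by group
        _ = t * (u * x) := by rw [hzz, one_mul]
  have hcen : ∀ d ∈ P, d * t = t * d → d * u = u * d → d = 1 ∨ d = z := by
    intro d hd hdt hdu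
    by_contra hcon
    push Not at hcon
    obtain ⟨φ, hφ⟩ := hT d hd hcon.1 hcon.2
    apply hφ
    rw [← transfer_central_involution P hP2 φ d hd (hD2 d hd hdt) ?_ ?_ ?_, hV]
    · intro x hx
      rcases hdec x hx with h | h
      · exact hDab x hx h d hd hdt
      · have h1 := hDab (u * x) (P.mul_mem huP hx) h d hd hdt
        have h2 : u * (x * d) = u * (d * x) := by
          calc u * (x * d) = u * x * d := by group
            _ = d * (u * x) := h1
            _ = (d * u) * x := by group
            _ = (u * d) * x := by rw [hdu]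
            _ = u * (d * x) := by group
        exact mul_left_cancel h2
    · intro g' hg'
      exact stepA g' (hg' u huP)
    · intro h
      rcases Int.units_eq_one_or (φ h) with h1 | h1
      · left; exact h1
      · right; rw [h1]
        rcases Int.units_eq_one_or (φ ⟨d, hd⟩) with h2 | h2
        · exact absurd h2 hφ
        · exact h2.symm
  have hDlist : ∀ d ∈ P, d * t = t * d → d = 1 ∨ d = z ∨ d = t ∨ d = z * t := by
    intro d hd hdt
    rcases F2 d hd u huP with h | h
    · rcases hcen d hd hdt h with h1 | h1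
      · left; exact h1
      · right; left; exact h1
    · have htu : t * u = z * (u * t) := by rw [hut, ← mul_assoc, hzz, one_mul]
      have h1 : (d * t) * u = u * (d * t) := by
        calc d * t * u = d * (t * u) := by group
          _ = d * (z * (u * t)) := by rw [htu]
          _ = (d * z) * u * t := by group
          _ = (z * d) * u * t := by rw [(memP d).mp hd]
          _ = z * (d * u) * t := by group
          _ = z * (z * (u * d)) * t := by rw [h]
          _ = (z * z) * (u * (d * t)) := by group
          _ = u * (d * t) := by rw [hzz, one_mul]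
      have h2 : (d * t) * t = t * (d * t) := by rw [← mul_assoc t d t, ← hdt]
      rcases hcen (d * t) (P.mul_mem hd htP) h2 h1 with h3 | h3
      · right; right; left
        calc d = d * (t * t) := by rw [htt, mul_one]
          _ = (d * t) * t := by group
          _ = t := by rw [h3, one_mul]
      · right; right; right
        calc d = d * (t * t) := by rw [htt, mul_one]
          _ = (d * t) * t := by group
          _ = z * t := by rw [h3]
  refine ⟨t, htP, htt, hut, ?_⟩
  set K := Subgroup.closure ({t, t * u} : Set L)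
  have htK : t ∈ K := Subgroup.subset_closure (by simp)
  have htuK : t * u ∈ K := Subgroup.subset_closure (by simp)
  have huK : u ∈ K := by
    have : u = t * (t * u) := by rw [← mul_assoc, htt, one_mul]
    rw [this]; exact K.mul_mem htK htuK
  have hzK : z ∈ K := by rw [← huu]; exact K.mul_mem huK huK
  have hDK : ∀ d ∈ P, d * t = t * d → d ∈ K := by
    intro d hd hdt
    rcases hDlist d hd hdt with h | h | h | h
    · rw [h]; exact K.one_mem
    · rw [h]; exact hzK
    · rw [h]; exact htK
    · rw [h]; exact K.mul_mem hzK htK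
  intro x hx
  rcases hdec x hx with h | h
  · exact hDK x hx h
  · have h1 := hDK _ (P.mul_mem huP hx) h
    have : x = u⁻¹ * (u * x) := by group
    rw [this]; exact K.mul_mem (K.inv_mem huK) h1

/-- Let L be a finite non-abelian simple group with an involution z whose centralizer R is a Sylow 2-subgroup of L whose Frattini subgroup is the subgroup generated by z. Then R is dihedral of order 8. -/
theorem result {L : Type*} [Group L] [Finite L] [IsSimpleGroup L] (hL : ¬ IsMulCommutative L) (z : L) (hz : orderOf z = 2) (R : Sylow 2 L) (hR : (R : Subgroup L) = Subgroup.centralizer ({z} : Set L)) (hΦ : (frattini ↥(R : Subgroup L)).map (R : Subgroup L).subtype = Subgroup.zpowers z) : Nonempty (↥(R : Subgroup L) ≃* DihedralGroup 4) := by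
  have : Fact (Nat.Prime 2) := ⟨Nat.prime_two⟩
  set P := (R : Subgroup L) with hPdef
  have hP2 : IsPGroup 2 P := R.2
  have hzz : z * z = 1 := by rw [← pow_two, ← hz]; exact pow_orderOf_eq_one z
  have hz1 : z ≠ 1 := by rintro rfl; simp at hz
  have memP : ∀ x, x ∈ P ↔ x * z = z * x := by
    intro x; rw [hR, Subgroup.mem_centralizer_singleton_iff]
  have mem_zp : ∀ x, x ∈ Subgroup.zpowers z ↔ x = 1 ∨ x = z := by
    intro x
    constructor
    · rintro ⟨n, rfl⟩
      obtain ⟨k, rfl | rfl⟩ := Int.even_or_odd' n
      · left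
        change z ^ (2 * k) = 1
        rw [zpow_mul, zpow_two, hzz, one_zpow]
      · right
        change z ^ (2 * k + 1) = z
        rw [zpow_add, zpow_mul, zpow_two, hzz, one_zpow, one_mul, zpow_one]
    · rintro (rfl | rfl)
      · exact Subgroup.one_mem _
      · exact Subgroup.mem_zpowers _
  have memΦ : ∀ x : P, x ∈ frattini P ↔ (x : L) = 1 ∨ (x : L) = z := by
    intro x
    rw [← mem_zp, ← hΦ]
    constructor
    · intro h; exact ⟨x, h, rfl⟩
    · rintro ⟨y, hy, hyx⟩
      have : y = x := Subtype.ext hyx
      rwa [← this]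
  have F1 : ∀ x ∈ P, x * x = 1 ∨ x * x = z := by
    intro x hx
    have h := pow_mem_frattini hP2 (⟨x, hx⟩ : P)
    rw [memΦ] at h
    simpa [pow_two] using h
  have F2 : ∀ x ∈ P, ∀ y ∈ P, x * y = y * x ∨ x * y = z * (y * x) := by
    intro x hx y hy
    have h := commutator_le_frattini hP2 (Subgroup.commutator_mem_commutator
      (Subgroup.mem_top (⟨x, hx⟩ : P)) (Subgroup.mem_top (⟨y, hy⟩ : P)))
    rw [memΦ] at h
    simp only [commutatorElement_def, Subgroup.coe_mul, Subgroup.coe_inv] at h
    have e : x * y = (x * y * x⁻¹ * y⁻¹) * (y * x) := by group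
    rcases h with h | h
    · left; rw [e, h, one_mul]
    · right; rw [e, h]
  have F3 : ∃ u ∈ P, u * u = z := by
    by_contra hcon
    push Not at hcon
    have hsq : ∀ x : P, x * x = 1 := by
      intro x
      rcases F1 x x.2 with h | h
      · exact Subtype.ext h
      · exact absurd h (hcon x x.2)
    have hcomm : ∀ x y : P, x * y = y * x := by
      intro x y
      calc x * y = x * ((x * y) * (x * y)) * y := by rw [hsq, mul_one]
        _ = (x * x) * (y * x) * (y * y) := by group
        _ = y * x := by rw [hsq, hsq, one_mul, mul_one]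
    have hle : frattini P ≤ ⊥ := by
      apply frattini_le_of_elementary (p := 2)
      · rw [commutator_eq_closure, Subgroup.closure_le]
        rintro _ ⟨a, b, rfl⟩
        rw [SetLike.mem_coe, Subgroup.mem_bot, commutatorElement_eq_one_iff_mul_comm]
        exact hcomm a b
      · intro x
        rw [Subgroup.mem_bot, pow_two]; exact hsq x
    have hzP : z ∈ P := (memP z).mpr rfl
    have h1 : (⟨z, hzP⟩ : P) ∈ frattini P := (memΦ _).mpr (Or.inr rfl)
    have h2 := hle h1
    rw [Subgroup.mem_bot] at h2
    exact hz1 (congrArg Subtype.val h2)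
  obtain ⟨u, huP, huu⟩ := F3
  have hT : ∀ d (hd : d ∈ P), d ≠ 1 → d ≠ z → ∃ φ : P →* ℤˣ, φ ⟨d, hd⟩ ≠ 1 := by
    intro d hd h1 h2
    apply exists_hom hP2
    rw [memΦ]
    push Not
    exact ⟨h1, h2⟩
  have hV : ∀ (φ : P →* ℤˣ) (x : L), MonoidHom.transfer φ x = 1 :=
    fun φ x => hom_trivial hL (MonoidHom.transfer φ) x
  obtain ⟨t, htP, htt, hut, hcl⟩ := core P z hz1 hzz memP F1 F2 u huP huu hP2 hT hV
  have hzu : u * z = z * u := (memP u).mp huP
  have hzt : t * z = z * t := (memP t).mp htP
  have ht1 : t ≠ 1 := by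
    rintro rfl
    apply hz1
    have : u = z * u := by simpa using hut
    calc z = (z * u) * u⁻¹ := by group
      _ = 1 := by rw [← this]; group
  have ht2 : orderOf t = 2 := orderOf_eq_prime (by rw [pow_two]; exact htt) ht1
  have htu2 : orderOf (t * u) = 2 := by
    apply orderOf_eq_prime
    · rw [pow_two]
      calc t * u * (t * u) = t * (u * t) * u := by group
        _ = t * (z * (t * u)) * u := by rw [hut]
        _ = (t * z) * t * (u * u) := by group
        _ = (z * t) * t * z := by rw [hzt, huu]
        _ = z * (t * t) * z := by group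
        _ = 1 := by rw [htt, mul_one, hzz]
    · intro h
      apply hz1
      have h1 : u = t := by
        calc u = (t * t) * u := by rw [htt, one_mul]
          _ = t * (t * u) := by group
          _ = t := by rw [h, mul_one]
      rw [← huu, h1, htt]
  have hne : t ≠ t * u := by
    intro h
    have : u = 1 := by simpa using h.symm
    apply hz1; rw [← huu, this, one_mul]
  obtain ⟨e⟩ := Cfsg.Agent.S0206.result t (t * u) ht2 htu2 hne
  have h4 : orderOf (t * (t * u)) = 4 := by
    rw [← mul_assoc, htt, one_mul]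
    have := orderOf_eq_prime_pow (x := u) (p := 2) (n := 1)
      (by rw [pow_one, pow_two, huu]; exact hz1)
      (by
        have : u ^ 2 ^ (1 + 1) = (u * u) * (u * u) := by
          have h44 : 2 ^ (1 + 1) = 2 + 2 := by norm_num
          rw [h44, pow_add, pow_two]
        rw [this, huu, hzz])
    simpa using this
  rw [h4] at e
  have hKP : Subgroup.closure ({t, t * u} : Set L) = P := by
    apply le_antisymm
    · rw [Subgroup.closure_le]
      rintro x (rfl | rfl)
      · exact htP
      · exact P.mul_mem htP huP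
    · exact hcl
  exact ⟨(MulEquiv.subgroupCongr hKP.symm).trans e⟩

end Cfsg.Agent.S5435
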