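import Cfsg.Statements.S5436
import Cfsg.Agent.Lib.Helper36Simple

set_option autoImplicit false
open Cfsg

namespace Cfsg.Agent.S5436

open Subgroup
open Cfsg.Agent.Lib.Helper36Extra Cfsg.Agent.Lib.Helper36GF2 Cfsg.Agent.Lib.Helper36Simple

theorem core {G : Type*} [Group G] [Finite G] (z : G) (hE : Ex (QF z) z) (hQ2 : IsPGroup 2 (QF z))
    (x : G) (hx : IsConj z x) (hxQ : x ∈ QF z) (hxz : x ≠ z)
    (hirr : ∀ W : Subgroup G, W ≤ QF z → CC z ≤ normalizer (W : Set G) →
      W = QF z ∨ W ≤ zpowers z)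
    (hmax : ∀ W : Subgroup G, QF z ≤ W → W ≤ CC z → CC z ≤ normalizer (W : Set G) →
      W = QF z ∨ W = CC z)
    (hwcl : closure {y : G | IsConj z y ∧ y ∈ CC z} ≠ QF z) : IsSimpleGroup G := by
  have hnt : Nontrivial G := ⟨⟨z, 1, hE.ne_one⟩⟩
  refine ⟨fun N hN => ?_⟩
  by_cases hN1 : N = ⊥
  · left; exact hN1
  right
  have hzN : z ∈ N := mem_of_normal_ne_bot hE hx hxQ hxz hN hN1
  have hconj : ∀ y, IsConj z y → y ∈ N := by
    intro y hy
    obtain ⟨g, rfl⟩ := isConj_iff.mp hy
    exact hN.conj_mem z hzN g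
  have hx1 : x ≠ 1 := by
    rintro rfl
    exact hE.ne_one (isConj_one_right.mp hx.symm)
  have hxzp : x ∉ zpowers z := by
    intro h
    classical
    have h2 : orderOf z = 2 := orderOf_eq_prime (by rw [pow_two]; exact hE.sq) hE.ne_one
    rw [mem_zpowers_iff_mem_range_orderOf, h2] at h
    simp only [Finset.mem_image, Finset.mem_range] at h
    obtain ⟨i, hi, rfl⟩ := h
    interval_cases i
    · exact hx1 (pow_zero z)
    · exact hxz (pow_one z)
  have hnorm : ∀ K : Subgroup G, CC z ≤ normalizer (K : Set G) →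
      CC z ≤ normalizer ((N ⊓ K : Subgroup G) : Set G) := by
    intro K hK
    refine le_trans ?_ inf_normalizer_le_normalizer_inf
    exact le_inf (by rw [normalizer_eq_top_iff.mpr hN]; exact le_top) hK
  -- `Q ≤ N`
  have hQN : QF z ≤ N := by
    rcases hirr (N ⊓ QF z) inf_le_right (hnorm _ (CC_le_normalizer_QF z)) with h | h
    · rw [← h]; exact inf_le_left
    · exact absurd (h (mem_inf.mpr ⟨hconj x hx, hxQ⟩)) hxzp
  apply eq_top_of_CC_le hE hQ2 hN
  rcases hmax (N ⊓ CC z) (le_inf hQN (QF_le z)) inf_le_right (hnorm _ le_normalizer) with h | h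
  · exfalso
    apply hwcl
    set W := closure {y : G | IsConj z y ∧ y ∈ CC z} with hW
    have hWQ : W ≤ QF z := by
      rw [← h, hW, closure_le]
      intro y hy
      exact mem_inf.mpr ⟨hconj y hy.1, hy.2⟩
    have hWn : CC z ≤ normalizer (W : Set G) := by
      intro c hc
      have key : ∀ d ∈ CC z, ∀ y ∈ W, d * y * d⁻¹ ∈ W := by
        intro d hd y hy
        have : W ≤ W.comap (MulAut.conj d).toMonoidHom := by
          rw [hW, closure_le]
          intro y hy
          change d * y * d⁻¹ ∈ Subgroup.closure _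
          apply Subgroup.subset_closure
          exact ⟨hy.1.trans (isConj_iff.mpr ⟨d, rfl⟩),
            (CC z).mul_mem ((CC z).mul_mem hd hy.2) ((CC z).inv_mem hd)⟩
        exact this hy
      rw [mem_normalizer_iff]
      intro y
      refine ⟨key c hc y, fun h => ?_⟩
      have := key c⁻¹ ((CC z).inv_mem hc) _ h
      simpa [mul_assoc] using this
    rcases hirr W hWQ hWn with h' | h'
    · exact h'
    · exact absurd (h' (Subgroup.subset_closure ⟨hx, QF_le z hxQ⟩)) hxzp
  · rw [← h]; exact inf_le_left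

/-- Let z be an involution of the finite group G with centralizer H whose generalized Fitting subgroup Q is extraspecial of width at least 2 (order 2^(2w+1), w ≥ 2); suppose some conjugate of z other than z lies in Q, H/Q is a non-abelian simple group, H acts irreducibly by conjugation on Q modulo the subgroup generated by z (the only H-invariant subgroups of Q containing z are that subgroup and Q), and Q is not the subgroup generated by the conjugates of z lying in H. Then G is simple. -/
theorem result {G : Type*} [Group G] [Finite G] (z : G) (hz : orderOf z = 2) (Q : Subgroup (Subgroup.centralizer ({z} : Set G))) [Q.Normal] (hF : Cfsg.generalizedFittingSubgroup ↥(Subgroup.centralizer ({z} : Set G)) = Q) (hQ : Cfsg.IsExtraspecial 2 ↥Q) (w : ℕ) (hw : 2 ≤ w) (hcard : Nat.card ↥Q = 2 ^ (2 * w + 1)) (hnwc : ∃ g : G, (∃ hq : g * z * g⁻¹ ∈ Subgroup.centralizer ({z} : Set G), (⟨g * z * g⁻¹, hq⟩ : Subgroup.centralizer ({z} : Set G)) ∈ Q) ∧ g * z * g⁻¹ ≠ z) (hsimp : IsSimpleGroup (↥(Subgroup.centralizer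 ({z} : Set G)) ⧸ Q)) (hna : ¬ IsMulCommutative (↥(Subgroup.centralizer ({z} : Set G)) ⧸ Q)) (hirr : ∀ W : Subgroup (Subgroup.centralizer ({z} : Set G)), W.Normal → W ≤ Q → (W = Q ∨ ∀ x ∈ W, (x : G) ∈ Subgroup.zpowers z)) (hwcl : Subgroup.closure {x : Subgroup.centralizer ({z} : Set G) | IsConj z (x : G)} ≠ Q) : IsSimpleGroup G := by
  have hz1 : z ≠ 1 := by
    rintro rfl
    simp at hz
  have hQF : QF z = Q.map (CC z).subtype := by rw [← hF]
  have hE : Ex (QF z) z := ex_QF hz1 (by rw [hF]; exact hQ)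
  have hQ2 : IsPGroup 2 (QF z) := by
    rw [hQF]
    exact (IsPGroup.of_card hcard).map _
  obtain ⟨g, ⟨hq, hgQ⟩, hgz⟩ := hnwc
  have hmemQ : ∀ y : CC z, (y : G) ∈ QF z → y ∈ Q := by
    intro y hy
    rw [hQF] at hy
    obtain ⟨q, hq, hqy⟩ := hy
    have : q = y := Subtype.ext hqy
    rwa [← this]
  refine core z hE hQ2 (g * z * g⁻¹) (isConj_iff.mpr ⟨g, rfl⟩) ?_ hgz ?_ ?_ ?_
  · rw [hQF]; exact ⟨_, hgQ, rfl⟩
  · intro W hWQ hWn
    have hWC : W ≤ CC z := hWQ.trans (QF_le z)
    rcases hirr (W.subgroupOf (CC z)) (normal_subgroupOf_of_le_normalizer hWn)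
      (fun y hy => hmemQ y (hWQ (mem_subgroupOf.mp hy))) with h | h
    · left
      rw [hQF, ← h, map_subgroupOf_eq_of_le hWC]
    · right
      intro y hy
      exact h ⟨y, hWC hy⟩ (mem_subgroupOf.mpr hy)
  · intro W hQW hWC hWn
    have hn : (W.subgroupOf (CC z)).Normal := normal_subgroupOf_of_le_normalizer hWn
    have hn2 : ((W.subgroupOf (CC z)).map (QuotientGroup.mk' Q)).Normal :=
      hn.map _ (QuotientGroup.mk'_surjective Q)
    have hQW' : Q ≤ W.subgroupOf (CC z) := by
      intro q hq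
      rw [mem_subgroupOf]
      apply hQW
      rw [hQF]
      exact ⟨q, hq, rfl⟩
    rcases hsimp.eq_bot_or_eq_top_of_normal _ hn2 with h | h
    · left
      apply le_antisymm _ hQW
      rw [(Subgroup.map_eq_bot_iff _), QuotientGroup.ker_mk'] at h
      rw [hQF, ← map_subgroupOf_eq_of_le hWC]
      exact map_mono h
    · right
      apply le_antisymm hWC
      have h2 := congrArg (comap (QuotientGroup.mk' Q)) h
      rw [comap_map_eq, QuotientGroup.ker_mk', comap_top, sup_of_le_left hQW'] at h2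
      exact subgroupOf_eq_top.mp h2
  · intro h
    apply hwcl
    apply map_injective (CC z).subtype_injective
    rw [← hQF, ← h, MonoidHom.map_closure]
    congr 1
    ext y
    constructor
    · rintro ⟨y', hy', rfl⟩
      exact ⟨hy', y'.2⟩
    · rintro ⟨h1, h2⟩
      exact ⟨⟨y, h2⟩, h1, rfl⟩

end Cfsg.Agent.S5436
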