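import Cfsg.Statements.S5437
-- import your own Cfsg.Agent.* helpers here

set_option autoImplicit false
open Cfsg

namespace Cfsg.Agent.S5437

theorem mem_map_conj_iff {G : Type*} [Group G] (H : Subgroup G) (g x : G) :
    x ∈ H.map (MulAut.conj g).toMonoidHom ↔ g⁻¹ * x * g ∈ H := by
  constructor
  · rintro ⟨y, hy, rfl⟩
    have : g⁻¹ * ((MulAut.conj g).toMonoidHom y) * g = y := by
      simp [MulAut.conj_apply, mul_assoc]
    rw [this]; exact hy
  · intro h
    refine ⟨g⁻¹ * x * g, h, ?_⟩
    simp [MulAut.conj_apply, mul_assoc]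

theorem smul_coset_eq_iff {G : Type*} [Group G] (H : Subgroup G) (g x : G) :
    x • (g : G ⧸ H) = (g : G ⧸ H) ↔ g⁻¹ * x * g ∈ H := by
  have h1 : x • (g : G ⧸ H) = ((x * g : G) : G ⧸ H) := rfl
  rw [h1, QuotientGroup.eq]
  have h2 : (x * g)⁻¹ * g = (g⁻¹ * x * g)⁻¹ := by group
  rw [h2, inv_mem_iff]

/-- Let I be a set of involutions of the finite group G closed under conjugation, and H a subgroup of G. The following are equivalent: (1) for every member x of I lying in H, the conjugates of x lying in H form a single H-class and the centralizer of x lies in H; (2) for every g outside H, no member of I lies in both H and g H g⁻¹; (3) every member of I lying in H fixes exactly one coset in the action of G on the cosets of H. -/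
theorem result {G : Type*} [Group G] [Finite G] (I : Set G) (hI : ∀ x ∈ I, orderOf x = 2) (hIc : ∀ g : G, ∀ x ∈ I, g * x * g⁻¹ ∈ I) (H : Subgroup G) : ((∀ x ∈ I, x ∈ H → (∀ g : G, g * x * g⁻¹ ∈ H → ∃ h ∈ H, h * x * h⁻¹ = g * x * g⁻¹) ∧ Subgroup.centralizer ({x} : Set G) ≤ H) ↔ (∀ g : G, g ∉ H → ∀ x ∈ I, ¬ (x ∈ H ∧ x ∈ (H : Subgroup G).map (MulAut.conj g).toMonoidHom))) ∧ ((∀ g : G, g ∉ H → ∀ x ∈ I, ¬ (x ∈ H ∧ x ∈ (H : Subgroup G).map (MulAut.conj g).toMonoidHom)) ↔ ∀ x ∈ I, x ∈ H → ∃! c : G ⧸ H, x • c = c) := by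
  simp only [mem_map_conj_iff]
  refine ⟨⟨?_, ?_⟩, ⟨?_, ?_⟩⟩
  · intro h1 g hg x hx ⟨hxH, hgx⟩
    obtain ⟨hfus, hcen⟩ := h1 x hx hxH
    have h2 : g⁻¹ * x * g⁻¹⁻¹ ∈ H := by simpa using hgx
    obtain ⟨h, hh, hhx⟩ := hfus g⁻¹ h2
    apply hg
    have h3 : g * h ∈ Subgroup.centralizer ({x} : Set G) := by
      rw [Subgroup.mem_centralizer_iff]
      intro y hy
      rw [Set.mem_singleton_iff] at hy
      subst hy
      have : y = g * (h * y * h⁻¹) * g⁻¹ := by rw [hhx]; group
      calc y * (g * h) = (g * (h * y * h⁻¹) * g⁻¹) * (g * h) := by rw [← this]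
        _ = g * h * y := by group
    have h4 := hcen h3
    have : g = (g * h) * h⁻¹ := by group
    rw [this]
    exact H.mul_mem h4 (H.inv_mem hh)
  · intro h2 x hx hxH
    refine ⟨fun g hg => ?_, fun c hc => ?_⟩
    · by_cases hgH : g ∈ H
      · exact ⟨g, hgH, rfl⟩
      · exfalso
        refine h2 g hgH (g * x * g⁻¹) (hIc g x hx) ⟨hg, ?_⟩
        have : g⁻¹ * (g * x * g⁻¹) * g = x := by group
        rw [this]; exact hxH
    · by_contra hcH
      refine h2 c hcH x hx ⟨hxH, ?_⟩
      have h3 : x * c = c * x := (Subgroup.mem_centralizer_iff.mp hc) x rfl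
      have : c⁻¹ * x * c = x := by
        calc c⁻¹ * x * c = c⁻¹ * (x * c) := by group
          _ = x := by rw [h3]; group
      rw [this]; exact hxH
  · intro h2 x hx hxH
    refine ⟨((1 : G) : G ⧸ H), ?_, ?_⟩
    · change x • ((1 : G) : G ⧸ H) = _
      rw [smul_coset_eq_iff]; simpa using hxH
    · intro c
      induction c using QuotientGroup.induction_on with
      | H g =>
        intro hc
        change x • (g : G ⧸ H) = _ at hc
        rw [smul_coset_eq_iff] at hc
        by_contra hne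
        have hgH : g ∉ H := by
          intro hgH
          apply hne
          rw [QuotientGroup.eq]
          simpa using hgH
        exact h2 g hgH x hx ⟨hxH, hc⟩
  · intro h3 g hg x hx ⟨hxH, hgx⟩
    obtain ⟨c, -, huniq⟩ := h3 x hx hxH
    have e1 := huniq ((1 : G) : G ⧸ H) (by
      change x • ((1 : G) : G ⧸ H) = _
      rw [smul_coset_eq_iff]; simpa using hxH)
    have e2 := huniq (g : G ⧸ H) (by
      change x • (g : G ⧸ H) = _
      rw [smul_coset_eq_iff]; exact hgx)
    apply hg
    have := e1.trans e2.symm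
    rw [QuotientGroup.eq] at this
    simpa using this

end Cfsg.Agent.S5437
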