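import Cfsg.Statements.S5438


set_option autoImplicit false
open Cfsg

namespace Cfsg.Agent.S5438

/-- Sylow: every `p`-element is conjugate into a given Sylow `p`-subgroup. -/
theorem exists_conj_mem {K : Type*} [Group K] [Finite K] (T : Sylow 2 K) (v : K)
    (hv : ∃ k : ℕ, orderOf v = 2 ^ k) : ∃ c : K, c * v * c⁻¹ ∈ T := by
  have : Fact (Nat.Prime 2) := ⟨Nat.prime_two⟩
  have hp : IsPGroup 2 (Subgroup.zpowers v) := by
    obtain ⟨k, hk⟩ := hv
    apply IsPGroup.of_card (n := k)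
    rw [Nat.card_zpowers, hk]
  obtain ⟨T', hT'⟩ := hp.exists_le_sylow
  obtain ⟨c, hc⟩ := MulAction.exists_smul_eq K T' T
  refine ⟨c, ?_⟩
  rw [← hc]
  change c * v * c⁻¹ ∈ ((c • T' : Sylow 2 K) : Subgroup K)
  rw [Sylow.coe_subgroup_smul, Subgroup.mem_pointwise_smul_iff_inv_smul_mem]
  simp only [MulAut.smul_def, ← map_inv, MulAut.conj_apply]
  have : c⁻¹ * (c * v * c⁻¹) * c⁻¹⁻¹ = v := by group
  rw [this]
  exact hT' (Subgroup.mem_zpowers v)

theorem orderOf_conj {K : Type*} [Group K] (g v : K) : orderOf (g * v * g⁻¹) = orderOf v := by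
  have := (MulAut.conj g).orderOf_eq v
  simpa [MulAut.conj_apply] using this

/-- Let z be a 2-central involution of the finite group G (an involution central in some Sylow 2-subgroup) and H a subgroup containing z such that the coset H is the only coset of H fixed by z (in the action of G on the cosets of H). Then H has odd index in G, and for every 2-element x of H the conjugates of x lying in H form a single H-class. -/
theorem result {G : Type*} [Group G] [Finite G] (z : G) (hz : Cfsg.IsTwoCentralInvolution z) (H : Subgroup G) (hzH : z ∈ H) (hfix : ∀ g : G, g⁻¹ * z * g ∈ H → g ∈ H) : Odd H.index ∧ ∀ x ∈ H, (∃ k : ℕ, orderOf x = 2 ^ k) → ∀ g : G, g * x * g⁻¹ ∈ H → ∃ h ∈ H, h * x * h⁻¹ = g * x * g⁻¹ := by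
  have : Fact (Nat.Prime 2) := ⟨Nat.prime_two⟩
  obtain ⟨hz2, P, hzP, hPz⟩ := hz
  have hfix' : ∀ k : G, k * z * k⁻¹ ∈ H → k ∈ H := by
    intro k hk
    have := hfix k⁻¹ (by simpa using hk)
    simpa using H.inv_mem this
  have hPH : (P : Subgroup G) ≤ H := by
    intro x hx
    apply hfix'
    have : x * z * x⁻¹ = z := by rw [hPz x hx]; group
    rw [this]; exact hzH
  have hA : ∀ T : Subgroup G, IsPGroup 2 T → ∀ h ∈ H, h * z * h⁻¹ ∈ T → T ≤ H := by
    intro T hT h hh hu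
    obtain ⟨P', hP'⟩ := hT.exists_le_sylow
    obtain ⟨k, hk⟩ := MulAction.exists_smul_eq G P P'
    have hmem : ∀ t ∈ T, k⁻¹ * t * k ∈ P := by
      intro t ht
      have h1 : t ∈ ((k • P : Sylow 2 G) : Subgroup G) := by rw [hk]; exact hP' ht
      rw [Sylow.coe_subgroup_smul, Subgroup.mem_pointwise_smul_iff_inv_smul_mem] at h1
      have h2 : k⁻¹ * t * k ∈ (P : Subgroup G) := by
        simpa [MulAut.smul_def, ← map_inv, MulAut.conj_apply] using h1
      exact h2
    have h1 := hPz _ (hmem _ hu)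
    have hw : k * z * k⁻¹ ∈ H := by
      have h2 : h⁻¹ * (k * z * k⁻¹) * h ∈ H := by
        apply hfix'
        have h3 : h⁻¹ * (k * z * k⁻¹) * h * z * (h⁻¹ * (k * z * k⁻¹) * h)⁻¹
            = h⁻¹ * k * (z * (k⁻¹ * (h * z * h⁻¹) * k)) * z⁻¹ * k⁻¹ * h := by group
        rw [h3, ← h1]
        have h4 : h⁻¹ * k * (k⁻¹ * (h * z * h⁻¹) * k * z) * z⁻¹ * k⁻¹ * h = z := by group
        rw [h4]; exact hzH
      have h5 : k * z * k⁻¹ = h * (h⁻¹ * (k * z * k⁻¹) * h) * h⁻¹ := by group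
      rw [h5]
      exact H.mul_mem (H.mul_mem hh h2) (H.inv_mem hh)
    have hkH : k ∈ H := hfix' k hw
    intro t ht
    have h6 : t = k * (k⁻¹ * t * k) * k⁻¹ := by group
    rw [h6]
    exact H.mul_mem (H.mul_mem hkH (hPH (hmem t ht))) (H.inv_mem hkH)
  -- every 2-element of H commutes with an H-conjugate of z
  have hB : ∀ x ∈ H, (∃ k : ℕ, orderOf x = 2 ^ k) → ∃ h ∈ H, x * (h * z * h⁻¹) = (h * z * h⁻¹) * x := by
    intro x hx hk
    obtain ⟨c, hc⟩ := exists_conj_mem (P.subtype hPH) (⟨x, hx⟩ : H)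
      (by simpa [Subgroup.orderOf_mk] using hk)
    have h1 : (c : G) * x * (c : G)⁻¹ ∈ P := by
      have h0 : c * ⟨x, hx⟩ * c⁻¹ ∈ ((P.subtype hPH : Sylow 2 H) : Subgroup H) := hc
      rw [Sylow.coe_subtype, Subgroup.mem_subgroupOf] at h0
      have h2 : (c : G) * x * (c : G)⁻¹ ∈ (P : Subgroup G) := by simpa using h0
      exact h2
    have h2 := hPz _ h1
    refine ⟨(c : G)⁻¹, H.inv_mem c.2, ?_⟩
    calc x * ((c : G)⁻¹ * z * (c : G)⁻¹⁻¹) = (c : G)⁻¹ * ((c : G) * x * (c : G)⁻¹ * z) * c := by group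
      _ = (c : G)⁻¹ * (z * ((c : G) * x * (c : G)⁻¹)) * c := by rw [h2]
      _ = _ := by group
  constructor
  · have h1 : H.index ∣ (P : Subgroup G).index := Subgroup.index_dvd_of_le hPH
    have h2 : ¬ 2 ∣ (P : Subgroup G).index := P.not_dvd_index
    rw [← Nat.not_even_iff_odd, even_iff_two_dvd]
    exact fun h3 => h2 (h3.trans h1)
  · intro x hx hk g hy
    obtain ⟨h, hh, hxu⟩ := hB x hx hk
    obtain ⟨h', hh', hyu⟩ := hB (g * x * g⁻¹) hy (by rw [orderOf_conj]; exact hk)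
    set C := Subgroup.centralizer ({x} : Set G) with hC
    have huC : h * z * h⁻¹ ∈ C := by
      rw [hC, Subgroup.mem_centralizer_singleton_iff]; exact hxu.symm
    have hvC : g⁻¹ * (h' * z * h'⁻¹) * g ∈ C := by
      rw [hC, Subgroup.mem_centralizer_singleton_iff]
      calc g⁻¹ * (h' * z * h'⁻¹) * g * x = g⁻¹ * ((h' * z * h'⁻¹) * (g * x * g⁻¹)) * g := by group
        _ = g⁻¹ * ((g * x * g⁻¹) * (h' * z * h'⁻¹)) * g := by rw [hyu]
        _ = _ := by group
    have hp : IsPGroup 2 (Subgroup.zpowers (⟨_, huC⟩ : C)) := by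
      apply IsPGroup.of_card (n := 1)
      rw [Nat.card_zpowers, Subgroup.orderOf_mk, orderOf_conj, hz2, pow_one]
    obtain ⟨T, hT⟩ := hp.exists_le_sylow
    obtain ⟨c, hc⟩ := exists_conj_mem T (⟨_, hvC⟩ : C)
      ⟨1, by rw [Subgroup.orderOf_mk]
             have := orderOf_conj g⁻¹ (h' * z * h'⁻¹)
             rw [inv_inv] at this
             rw [this, orderOf_conj, hz2, pow_one]⟩
    have hTH : (T : Subgroup C).map C.subtype ≤ H := by
      apply hA _ (T.2.map _) h hh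
      exact ⟨⟨_, huC⟩, hT (Subgroup.mem_zpowers _), rfl⟩
    have h1 : (c : G) * (g⁻¹ * (h' * z * h'⁻¹) * g) * (c : G)⁻¹ ∈ H := by
      apply hTH
      exact ⟨_, hc, by simp⟩
    have h2 : (c : G) * g⁻¹ * h' ∈ H := by
      apply hfix'
      have : (c : G) * g⁻¹ * h' * z * ((c : G) * g⁻¹ * h')⁻¹
          = (c : G) * (g⁻¹ * (h' * z * h'⁻¹) * g) * (c : G)⁻¹ := by group
      rw [this]; exact h1
    have h3 : g * (c : G)⁻¹ ∈ H := by
      have : g * (c : G)⁻¹ = h' * ((c : G) * g⁻¹ * h')⁻¹ := by group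
      rw [this]
      exact H.mul_mem hh' (H.inv_mem h2)
    refine ⟨_, h3, ?_⟩
    have h4 : (c : G) * x = x * c := Subgroup.mem_centralizer_singleton_iff.mp c.2
    calc g * (c : G)⁻¹ * x * (g * (c : G)⁻¹)⁻¹ = g * ((c : G)⁻¹ * (x * c)) * g⁻¹ := by group
      _ = g * ((c : G)⁻¹ * (c * x)) * g⁻¹ := by rw [h4]
      _ = _ := by group

end Cfsg.Agent.S5438
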