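import Cfsg.Statements.S5439
import Cfsg.Agent.Lib.Helper6Inv

set_option autoImplicit false
open Cfsg

namespace Cfsg.Agent.S5439

open Cfsg.Agent.Lib.Helper6Inv

theorem conj_cases {G : Type*} [Group G] {s t : G} (hs : orderOf s = 2) (ht : orderOf t = 2) (m : ℕ) :
    IsConj s (s * (s * t) ^ m) ∨ IsConj t (s * (s * t) ^ m) := by
  have hS := inv_left_inverts hs ht
  have hss := mul_self_of_orderOf_two hs
  have key : ∀ k : ℕ, ((s * t) ^ k)⁻¹ * s = s * (s * t) ^ k := by
    intro k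
    have h1 : s * (s * t) ^ k = ((s * t)⁻¹) ^ k * s := (hS.pow_right k)
    rw [h1, inv_pow]
  rcases Nat.even_or_odd' m with ⟨k, rfl | rfl⟩
  · left
    rw [isConj_iff]
    refine ⟨((s * t) ^ k)⁻¹, ?_⟩
    rw [key, inv_inv, mul_assoc, ← pow_add, two_mul]
  · right
    rw [isConj_iff]
    refine ⟨((s * t) ^ k)⁻¹, ?_⟩
    have h2 : t = s * (s * t) := by rw [← mul_assoc, hss, one_mul]
    calc ((s * t) ^ k)⁻¹ * t * ((s * t) ^ k)⁻¹⁻¹ = (((s * t) ^ k)⁻¹ * s) * (s * t) * (s * t) ^ k := by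
          rw [inv_inv, mul_assoc (((s * t) ^ k)⁻¹) s (s * t), ← h2]
      _ = s * ((s * t) ^ k * (s * t) * (s * t) ^ k) := by rw [key]; simp only [mul_assoc]
      _ = s * (s * t) ^ (2 * k + 1) := by
          congr 1
          rw [← pow_succ, ← pow_add]
          congr 1; omega

/-- Let I and J be two different conjugacy classes of involutions of the finite group G and H a subgroup such that every member of I ∪ J fixes exactly one coset in the action on the cosets of H, and such that for every a in I ∩ H and every b in (I ∪ J) ∩ H different from a and commuting with it, the centralizer of a b lies in H. Then H = G. -/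
theorem result {G : Type*} [Group G] [Finite G] (I J : Set G) (a₀ b₀ : G) (ha₀ : orderOf a₀ = 2) (hb₀ : orderOf b₀ = 2) (hI : I = {x | IsConj a₀ x}) (hJ : J = {x | IsConj b₀ x}) (hIJ : I ≠ J) (H : Subgroup G) (hfix : ∀ x ∈ I ∪ J, ∃! c : G ⧸ H, x • c = c) (hcent : ∀ a ∈ I, a ∈ H → ∀ b ∈ I ∪ J, b ∈ H → a ≠ b → a * b = b * a → Subgroup.centralizer ({a * b} : Set G) ≤ H) : H = ⊤ := by
  have hI' : ∀ x, x ∈ I ↔ IsConj a₀ x := by intro x; rw [hI]; rfl
  have hJ' : ∀ x, x ∈ J ↔ IsConj b₀ x := by intro x; rw [hJ]; rfl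
  have hord : ∀ {u v : G}, IsConj u v → orderOf v = orderOf u := by
    intro u v h
    obtain ⟨c, rfl⟩ := isConj_iff.mp h
    have := (MulAut.conj c).orderOf_eq u
    simpa [MulAut.conj_apply] using this
  have hfixH : ∀ x ∈ I ∪ J, x ∈ H → ∀ g : G, g * x = x * g → g ∈ H := by
    intro x hx hxH g hg
    obtain ⟨c, hc, huniq⟩ := hfix x hx
    have h1 : x • (QuotientGroup.mk 1 : G ⧸ H) = QuotientGroup.mk 1 := by
      rw [MulAction.Quotient.smul_mk, QuotientGroup.eq]
      simpa using H.inv_mem hxH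
    have h2 : x • (QuotientGroup.mk g : G ⧸ H) = QuotientGroup.mk g := by
      rw [MulAction.Quotient.smul_mk, QuotientGroup.eq]
      have : (x • g)⁻¹ * g = g⁻¹ * (g * x) * g⁻¹ * x⁻¹ * x⁻¹ * g := by
        rw [hg, smul_eq_mul]; group
      have h3 : (x • g)⁻¹ * g = x⁻¹ := by
        rw [smul_eq_mul, ← hg]; group
      rw [h3]; exact H.inv_mem hxH
    have h4 := (huniq _ h1).trans (huniq _ h2).symm
    rw [QuotientGroup.eq] at h4
    simpa using h4
  have claim' : ∀ a ∈ I, a ∈ H → ∀ b ∈ J, b ∈ H := by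
    intro a ha haH b hb
    have ha2 : orderOf a = 2 := by rw [hord ((hI' a).mp ha), ha₀]
    have hb2 : orderOf b = 2 := by rw [hord ((hJ' b).mp hb), hb₀]
    have hnc : ¬ IsConj a b := by
      intro hab
      apply hIJ
      ext x
      rw [hI', hJ']
      have h1 : IsConj a₀ b₀ := (((hI' a).mp ha).trans hab).trans ((hJ' b).mp hb).symm
      exact ⟨fun h => h1.symm.trans h, fun h => h1.trans h⟩
    rcases dihedral ha2 hb2 (orderOf_pos _) with ⟨_, h⟩ | ⟨_, z, hz2, hza, hzb, hz⟩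
    · exact absurd h hnc
    · have hazIJ : a * z ∈ I ∪ J := by
        rw [hz]
        rcases conj_cases ha2 hb2 (orderOf (a * b) / 2) with h | h
        · left; rw [hI']; exact ((hI' a).mp ha).trans h
        · right; rw [hJ']; exact ((hJ' b).mp hb).trans h
      have hazH : a * z ∈ H := by
        apply hfixH a (Or.inl ha) haH
        rw [mul_assoc, hza.eq]
      have hne : a ≠ a * z := by
        intro h
        have : z = 1 := by simpa using h.symm
        rw [this] at hz2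
        simp at hz2
      have hcomm : a * (a * z) = a * z * a := by rw [mul_assoc a z a, hza.eq]
      have h5 := hcent a ha haH (a * z) hazIJ hazH hne hcomm
      apply h5
      rw [← mul_assoc, mul_self_of_orderOf_two ha2, one_mul, Subgroup.mem_centralizer_singleton_iff]
      exact hzb.eq.symm
  have hconjI : ∀ a ∈ I, ∀ g : G, g * a * g⁻¹ ∈ I := by
    intro a ha g
    rw [hI'] at ha ⊢
    exact ha.trans (isConj_iff.mpr ⟨g, rfl⟩)
  have hconjJ : ∀ a ∈ J, ∀ g : G, g * a * g⁻¹ ∈ J := by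
    intro a ha g
    rw [hJ'] at ha ⊢
    exact ha.trans (isConj_iff.mpr ⟨g, rfl⟩)
  have claim : ∀ a ∈ I, ∀ b ∈ J, ∀ c : G ⧸ H, a • c = c → b • c = c := by
    intro a ha b hb c
    induction c using QuotientGroup.induction_on with
    | H g =>
      intro hc
      rw [MulAction.Quotient.smul_mk, QuotientGroup.eq] at hc ⊢
      have h1 : g⁻¹ * a * g⁻¹⁻¹ ∈ H := by
        have h2 := H.inv_mem hc
        have h3 : ((a • g)⁻¹ * g)⁻¹ = g⁻¹ * a * g⁻¹⁻¹ := by rw [smul_eq_mul]; group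
        rwa [h3] at h2
      have h4 := claim' _ (hconjI a ha g⁻¹) h1 _ (hconjJ b hb g⁻¹)
      have h5 : (b • g)⁻¹ * g = (g⁻¹ * b * g⁻¹⁻¹)⁻¹ := by rw [smul_eq_mul]; group
      rw [h5]; exact H.inv_mem h4
  have ha₀I : a₀ ∈ I := (hI' _).mpr (IsConj.refl _)
  have hb₀J : b₀ ∈ J := (hJ' _).mpr (IsConj.refl _)
  obtain ⟨c₀, hc₀, -⟩ := hfix a₀ (Or.inl ha₀I)
  have hall : ∀ g : G, g • c₀ = c₀ := by
    intro g
    have h1 := claim a₀ ha₀I _ (hconjJ b₀ hb₀J g) c₀ hc₀
    have h2 := claim a₀ ha₀I b₀ hb₀J c₀ hc₀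
    have h3 : (g * b₀ * g⁻¹) • (g • c₀) = g • c₀ := by
      rw [smul_smul]
      have : g * b₀ * g⁻¹ * g = g * b₀ := by group
      rw [this, mul_smul, h2]
    obtain ⟨c, _, huniq⟩ := hfix _ (Or.inr (hconjJ b₀ hb₀J g))
    exact (huniq _ h3).trans (huniq _ h1).symm
  rw [eq_top_iff]
  intro g _
  induction c₀ using QuotientGroup.induction_on with
  | H g₀ =>
    have h1 := hall (g₀ * g⁻¹ * g₀⁻¹)
    rw [MulAction.Quotient.smul_mk, QuotientGroup.eq] at h1
    have h2 : ((g₀ * g⁻¹ * g₀⁻¹) • g₀)⁻¹ * g₀ = g := by rw [smul_eq_mul]; group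
    rwa [h2] at h1

end Cfsg.Agent.S5439
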