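import Cfsg.Statements.S5459

set_option autoImplicit false
open Cfsg

namespace Cfsg.Agent.S5459

open Relation
open scoped commutatorElement

/-- edge relation on plain elements -/
def E {G : Type*} [Group G] (D : Set G) (u v : G) : Prop := u ∈ D ∧ v ∈ D ∧ Commute u v

theorem rtg_symm {G : Type*} [Group G] (D : Set G) (u v : G) (h : ReflTransGen (E D) u v) :
    ReflTransGen (E D) v u := by
  induction h with
  | refl => exact ReflTransGen.refl
  | tail _ hbc ih => exact ReflTransGen.head ⟨hbc.2.1, hbc.1, hbc.2.2.symm⟩ ih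

theorem reach_of_rtg {G : Type*} [Group G] (D : Set G) (u v : G) (hu : u ∈ D) (hv : v ∈ D)
    (h : ReflTransGen (E D) u v) : (Cfsg.commutingGraph D).Reachable ⟨u, hu⟩ ⟨v, hv⟩ := by
  induction h with
  | refl => exact SimpleGraph.Reachable.refl _
  | tail hab hbc ih =>
    rename_i b c
    have h1 := ih hbc.1
    refine h1.trans ?_
    by_cases hbc' : b = c
    · subst hbc'; exact SimpleGraph.Reachable.refl _
    · apply SimpleGraph.Adj.reachable
      rw [Cfsg.commutingGraph, SimpleGraph.fromRel_adj]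
      exact ⟨fun h => hbc' (congrArg Subtype.val h), Or.inl hbc.2.2⟩

theorem rtg_of_reach {G : Type*} [Group G] (D : Set G) (x y : D)
    (h : (Cfsg.commutingGraph D).Reachable x y) : ReflTransGen (E D) x.1 y.1 := by
  obtain ⟨w⟩ := h
  induction w with
  | nil => exact ReflTransGen.refl
  | cons hadj _ ih =>
    refine ReflTransGen.head ?_ ih
    rw [Cfsg.commutingGraph, SimpleGraph.fromRel_adj] at hadj
    refine ⟨Subtype.property _, Subtype.property _, ?_⟩
    rcases hadj.2 with h | h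
    · exact h
    · exact h.symm

theorem exists_root {G : Type*} [Group G] [Finite G] (Z : Subgroup G) (hZ : Odd (Nat.card Z))
    (j : ℕ) (z : G) (hz : z ∈ Z) : ∃ w ∈ Z, w ^ (2 ^ j) = z := by
  have h1 : Odd (orderOf z) := Odd.of_dvd_nat hZ (Subgroup.orderOf_dvd_natCard Z hz)
  have h2 : Nat.Coprime (2 ^ j) (orderOf z) := Nat.Coprime.pow_left j (Nat.coprime_two_left.mpr h1)
  obtain ⟨m, hm⟩ := exists_pow_eq_self_of_coprime h2
  refine ⟨z ^ m, Z.pow_mem hz m, ?_⟩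
  rw [← pow_mul, mul_comm, pow_mul, hm]

theorem result {G : Type*} [Group G] [Finite G] (L : Subgroup G) [L.Normal] (hL : Cfsg.IsQuasisimple ↥L) (d : G) (hd : orderOf d = 2) (hgen : L ⊔ Subgroup.zpowers d = ⊤) (hodd : Odd (Nat.card ↥(Subgroup.center ↥L))) (hinv : ∀ c ∈ (Subgroup.center ↥L).map L.subtype, d * c * d⁻¹ = c⁻¹) [hn : ((Subgroup.center ↥L).map L.subtype).Normal] (hconn : (Cfsg.commutingGraph (conjugatesOf (QuotientGroup.mk d : G ⧸ (Subgroup.center ↥L).map L.subtype))).Connected) : (Cfsg.commutingGraph (conjugatesOf d)).Connected := by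
  set Z := (Subgroup.center ↥L).map L.subtype with hZdef
  have hZodd : Odd (Nat.card Z) := by
    rw [hZdef, Subgroup.card_map_of_injective L.subtype_injective]
    exact hodd
  have hZL : Z ≤ L := by
    rintro _ ⟨x, -, rfl⟩
    exact x.2
  have hZc : ∀ w ∈ Z, ∀ l ∈ L, w * l = l * w := by
    rintro _ ⟨x, hx, rfl⟩ l hl
    have := Subgroup.mem_center_iff.mp hx ⟨l, hl⟩
    exact (congrArg Subtype.val this).symm
  set D := conjugatesOf d with hD
  have hmemD : ∀ u, u ∈ D ↔ ∃ g, g * d * g⁻¹ = u := by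
    intro u
    rw [hD]; change IsConj d u ↔ _; rw [isConj_iff]
  have hdD : d ∈ D := (hmemD d).mpr ⟨1, by simp⟩
  -- every member of D inverts Z
  have hDinv : ∀ a ∈ D, ∀ z ∈ Z, a * z * a⁻¹ = z⁻¹ := by
    intro a ha z hz
    obtain ⟨g, rfl⟩ := (hmemD a).mp ha
    have h1 : g⁻¹ * z * g⁻¹⁻¹ ∈ Z := hn.conj_mem z hz g⁻¹
    have h2 := hinv _ h1
    calc g * d * g⁻¹ * z * (g * d * g⁻¹)⁻¹ = g * (d * (g⁻¹ * z * g⁻¹⁻¹) * d⁻¹) * g⁻¹ := by group
      _ = z⁻¹ := by rw [h2]; group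
  -- conjugating by w in Z
  have hconjZ : ∀ b ∈ D, ∀ w ∈ Z, w * b * w⁻¹ = w * w * b := by
    intro b hb w hw
    have h1 := hDinv b hb w⁻¹ (Z.inv_mem hw)
    rw [inv_inv] at h1
    calc w * b * w⁻¹ = w * (b * w⁻¹ * b⁻¹) * b := by group
      _ = w * w * b := by rw [h1]
  have hconjD : ∀ (g : G), ∀ u ∈ D, g * u * g⁻¹ ∈ D := by
    intro g u hu
    obtain ⟨k, rfl⟩ := (hmemD u).mp hu
    exact (hmemD _).mpr ⟨g * k, by group⟩
  have hlift : ∀ (g u v : G), ReflTransGen (E D) u v →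
      ReflTransGen (E D) (g * u * g⁻¹) (g * v * g⁻¹) := by
    intro g u v h
    refine ReflTransGen.lift (fun x => g * x * g⁻¹) ?_ _ _ h
    intro a b hab
    refine ⟨hconjD g a hab.1, hconjD g b hab.2.1, ?_⟩
    have := hab.2.2.eq
    change g * a * g⁻¹ * (g * b * g⁻¹) = g * b * g⁻¹ * (g * a * g⁻¹)
    calc g * a * g⁻¹ * (g * b * g⁻¹) = g * (a * b) * g⁻¹ := by group
      _ = g * (b * a) * g⁻¹ := by rw [this]
      _ = g * b * g⁻¹ * (g * a * g⁻¹) := by group
  set Dbar := conjugatesOf (QuotientGroup.mk d : G ⧸ Z) with hDbar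
  -- lifting an edge
  have hedge : ∀ a ∈ D, ∀ cbar ∈ Dbar, Commute (QuotientGroup.mk a : G ⧸ Z) cbar →
      ∃ c ∈ D, (QuotientGroup.mk c : G ⧸ Z) = cbar ∧ Commute a c := by
    intro a ha cbar hc hcomm
    replace hc : IsConj (QuotientGroup.mk d : G ⧸ Z) cbar := hc
    rw [isConj_iff] at hc
    obtain ⟨gbar, hg⟩ := hc
    obtain ⟨g, rfl⟩ := QuotientGroup.mk_surjective gbar
    set b := g * d * g⁻¹ with hb
    have hbD : b ∈ D := (hmemD b).mpr ⟨g, rfl⟩
    have hπb : (QuotientGroup.mk b : G ⧸ Z) = cbar := by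
      rw [← hg, hb]; simp
    have hz : a * b * a⁻¹ * b⁻¹ ∈ Z := by
      rw [← QuotientGroup.eq_one_iff]
      rw [← hπb] at hcomm
      have := hcomm.eq
      simp only [QuotientGroup.mk_mul, QuotientGroup.mk_inv]
      rw [this]; group
    obtain ⟨w, hw, hw4⟩ := exists_root Z hZodd 2 _ hz
    refine ⟨w * b * w⁻¹, hconjD w b hbD, ?_, ?_⟩
    · rw [← hπb]
      have : (QuotientGroup.mk w : G ⧸ Z) = 1 := (QuotientGroup.eq_one_iff w).mpr hw
      simp [this]
    · rw [hconjZ b hbD w hw]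
      have h1 := hDinv a ha w hw
      have h2 : a * b * a⁻¹ = w ^ 4 * b := by
        have : (2 : ℕ) ^ 2 = 4 := by norm_num
        rw [this] at hw4
        rw [hw4]; group
      change a * (w * w * b) = w * w * b * a
      have h3 : a * (w * w * b) * a⁻¹ = w * w * b := by
        calc a * (w * w * b) * a⁻¹ = (a * w * a⁻¹) * (a * w * a⁻¹) * (a * b * a⁻¹) := by group
          _ = w⁻¹ * w⁻¹ * (w ^ 4 * b) := by rw [h1, h2]
          _ = w * w * b := by
            have : w⁻¹ * w⁻¹ * (w ^ 4 * b) = (w⁻¹ * w⁻¹ * w ^ 4) * b := by group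
            rw [this]
            congr 1
            have h4 : w ^ 4 = w * w * (w * w) := by
              simp only [pow_succ, pow_zero, one_mul, mul_assoc]
            rw [h4]
            simp only [mul_assoc, inv_mul_cancel_left]
      calc a * (w * w * b) = a * (w * w * b) * a⁻¹ * a := by group
        _ = w * w * b * a := by rw [h3]
  -- lifting a path
  have hpath : ∀ xbar ybar : G ⧸ Z, ReflTransGen (E Dbar) xbar ybar → ∀ a ∈ D,
      (QuotientGroup.mk a : G ⧸ Z) = xbar →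
      ∃ c ∈ D, (QuotientGroup.mk c : G ⧸ Z) = ybar ∧ ReflTransGen (E D) a c := by
    intro xbar ybar h a ha hax
    induction h with
    | refl => exact ⟨a, ha, hax, ReflTransGen.refl⟩
    | tail _ hbc ih =>
      obtain ⟨b, hbD, hπb, hab⟩ := ih
      obtain ⟨c, hcD, hπc, hcomm⟩ := hedge b hbD _ hbc.2.1 (by rw [hπb]; exact hbc.2.2)
      exact ⟨c, hcD, hπc, hab.tail ⟨hbD, hcD, hcomm⟩⟩
  -- the subgroup S
  let S : Subgroup G :=
    { carrier := {g | ReflTransGen (E D) d (g * d * g⁻¹)}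
      one_mem' := by
        change ReflTransGen (E D) d (1 * d * 1⁻¹)
        simp only [one_mul, inv_one, mul_one]
        exact ReflTransGen.refl
      mul_mem' := by
        intro g k hg hk
        change ReflTransGen (E D) d (g * k * d * (g * k)⁻¹)
        have h1 := hlift g _ _ hk
        have h2 : g * (k * d * k⁻¹) * g⁻¹ = g * k * d * (g * k)⁻¹ := by group
        rw [h2] at h1
        exact ReflTransGen.trans hg h1
      inv_mem' := by
        intro g hg
        change ReflTransGen (E D) d (g⁻¹ * d * g⁻¹⁻¹)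
        have h1 := hlift g⁻¹ _ _ hg
        have h2 : g⁻¹ * (g * d * g⁻¹) * g⁻¹⁻¹ = d := by group
        rw [h2] at h1
        exact rtg_symm D _ _ h1 }
  have hSmem : ∀ g, g ∈ S ↔ ReflTransGen (E D) d (g * d * g⁻¹) := fun g => Iff.rfl
  have hdec : ∀ g : G, ∃ w ∈ Z, ∃ s ∈ S, g = w * s := by
    intro g
    have hgD : g * d * g⁻¹ ∈ D := hconjD g d hdD
    have h1 : (QuotientGroup.mk d : G ⧸ Z) ∈ Dbar := mem_conjugatesOf_self
    have h2 : (QuotientGroup.mk (g * d * g⁻¹) : G ⧸ Z) ∈ Dbar := by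
      change IsConj _ _
      rw [isConj_iff]
      exact ⟨QuotientGroup.mk g, by simp⟩
    have h3 := rtg_of_reach Dbar ⟨_, h1⟩ ⟨_, h2⟩ (hconn.preconnected _ _)
    obtain ⟨c, hcD, hπc, hdc⟩ := hpath _ _ h3 d hdD rfl
    obtain ⟨s0, hs0⟩ := (hmemD c).mp hcD
    have hs0S : s0 ∈ S := by rw [hSmem, hs0]; exact hdc
    have hz : g * d * g⁻¹ * c⁻¹ ∈ Z := by
      rw [← QuotientGroup.eq_one_iff, QuotientGroup.mk_mul, QuotientGroup.mk_inv, hπc]
      group
    obtain ⟨w, hw, hw2⟩ := exists_root Z hZodd 1 _ hz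
    have h4 : w * c * w⁻¹ = g * d * g⁻¹ := by
      rw [hconjZ c hcD w hw, ← pow_two]
      rw [pow_one] at hw2
      rw [hw2]; group
    refine ⟨w, hw, s0 * ((w * s0)⁻¹ * g), S.mul_mem hs0S ?_, by group⟩
    rw [hSmem]
    have h5 : (w * s0)⁻¹ * g * d * ((w * s0)⁻¹ * g)⁻¹ = d := by
      calc (w * s0)⁻¹ * g * d * ((w * s0)⁻¹ * g)⁻¹ = (w * s0)⁻¹ * (g * d * g⁻¹) * (w * s0) := by group
        _ = (w * s0)⁻¹ * (w * (s0 * d * s0⁻¹) * w⁻¹) * (w * s0) := by rw [← h4, hs0]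
        _ = d := by group
    rw [h5]
  have hLS : L ≤ S := by
    have hperf : ⁅L, L⁆ = L := Subgroup.isPerfect_iff.mp hL.1
    rw [← hperf, Subgroup.commutator_le]
    intro x hx y hy
    obtain ⟨w1, hw1, s1, hs1, rfl⟩ := hdec x
    obtain ⟨w2, hw2, s2, hs2, rfl⟩ := hdec y
    have hs1L : s1 ∈ L := by
      have := L.mul_mem (L.inv_mem (hZL hw1)) hx
      simpa using this
    have hs2L : s2 ∈ L := by
      have := L.mul_mem (L.inv_mem (hZL hw2)) hy
      simpa using this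
    have h1 : ⁅w1 * s1, w2 * s2⁆ = ⁅s1, s2⁆ := by
      rw [commutatorElement_def, commutatorElement_def]
      have e1 := hZc w1 hw1 (s1 * (w2 * s2) * s1⁻¹) (L.mul_mem (L.mul_mem hs1L hy) (L.inv_mem hs1L))
      have e2 := hZc w2 hw2 s1 hs1L
      have e3 := hZc w2 hw2 (s1 * s2 * s1⁻¹ * s2⁻¹)
        (L.mul_mem (L.mul_mem (L.mul_mem hs1L hs2L) (L.inv_mem hs1L)) (L.inv_mem hs2L))
      calc w1 * s1 * (w2 * s2) * (w1 * s1)⁻¹ * (w2 * s2)⁻¹
          = (w1 * (s1 * (w2 * s2) * s1⁻¹)) * w1⁻¹ * (w2 * s2)⁻¹ := by group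
        _ = s1 * (w2 * s2) * s1⁻¹ * (w2 * s2)⁻¹ := by rw [e1]; group
        _ = (s1 * w2) * s2 * s1⁻¹ * s2⁻¹ * w2⁻¹ := by group
        _ = (w2 * (s1 * s2 * s1⁻¹ * s2⁻¹)) * w2⁻¹ := by rw [← e2]; group
        _ = s1 * s2 * s1⁻¹ * s2⁻¹ := by rw [e3]; group
    rw [h1]
    rw [commutatorElement_def]
    exact S.mul_mem (S.mul_mem (S.mul_mem hs1 hs2) (S.inv_mem hs1)) (S.inv_mem hs2)
  have hall : ∀ g : G, ReflTransGen (E D) d (g * d * g⁻¹) := by
    intro g
    obtain ⟨w, hw, s, hs, rfl⟩ := hdec g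
    exact (hSmem _).mp (S.mul_mem (hLS (hZL hw)) hs)
  have : Nonempty D := ⟨⟨d, hdD⟩⟩
  refine SimpleGraph.Connected.mk ?_
  intro u v
  obtain ⟨g, hg⟩ := (hmemD u.1).mp u.2
  obtain ⟨k, hk⟩ := (hmemD v.1).mp v.2
  have h1 : ReflTransGen (E D) u.1 v.1 := by
    rw [← hg, ← hk]
    exact (rtg_symm D _ _ (hall g)).trans (hall k)
  exact reach_of_rtg D u.1 v.1 u.2 v.2 h1

end Cfsg.Agent.S5459
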