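import Cfsg.Statements.S5541

set_option autoImplicit false
open Cfsg

namespace Cfsg.Agent.S5541

theorem result {H : Type*} [Group H] {U : Type*} [AddCommGroup U] [Module ℝ U] [FiniteDimensional ℝ U] (ρ : Representation ℝ H U) (hirr : ∀ W : Submodule ℝ U, (∀ g : H, W.map (ρ g) ≤ W) → W = ⊥ ∨ W = ⊤) (B : LinearMap.BilinForm ℝ U) (hB0 : B ≠ 0) (hBs : ∀ u v, B u v = B v u) (hBi : ∀ (g : H) (u v : U), B (ρ g u) (ρ g v) = B u v) : (∃ m : U →ₗ[ℝ] U →ₗ[ℝ] U, m ≠ 0 ∧ (∀ u v, m u v = m v u) ∧ (∀ (g : H) (u v : U), m (ρ g u) (ρ g v) = ρ g (m u v)) ∧ ∀ m' : U →ₗ[ℝ] U →ₗ[ℝ] U, (∀ (g : H) (u v : U), m' (ρ g u) (ρ g v) = ρ g (m' u v)) → ∃ c : ℝ, m' = c • m) ↔ (∃ t : U →ₗ[ℝ] U →ₗ[ℝ] U →ₗ[ℝ] ℝ, t ≠ 0 ∧ (∀ u v w, t u v w = t v u w ∧ t u v w = t u w v) ∧ (∀ (g : H) (u v w : U), t (ρ g u) (ρ g v) (ρ g w) = t u v w) ∧ ∀ t' : U →ₗ[ℝ] U →ₗ[ℝ] U →ₗ[ℝ] ℝ, (∀ (g : H) (u v w : U), t' (ρ g u) (ρ g v) (ρ g w) = t' u v w) → ∃ c : ℝ, t' = c •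 t) := by
  have hgg : ∀ (g : H) (w : U), ρ g (ρ g⁻¹ w) = w := by
    intro g w
    rw [← Module.End.mul_apply, ← map_mul, mul_inv_cancel, map_one, Module.End.one_apply]
  have hker : LinearMap.ker B = ⊥ := by
    have hinv : ∀ g : H, (LinearMap.ker B).map (ρ g) ≤ LinearMap.ker B := by
      intro g
      rintro _ ⟨u, hu, rfl⟩
      rw [SetLike.mem_coe, LinearMap.mem_ker] at hu
      rw [LinearMap.mem_ker]
      ext v
      rw [← hgg g v, hBi, hu]
      simp
    rcases hirr (LinearMap.ker B) hinv with h | h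
    · exact h
    · exact absurd (LinearMap.ker_eq_top.mp h) hB0
  have hinj : Function.Injective B := LinearMap.ker_eq_bot.mp hker
  let e : U ≃ₗ[ℝ] (U →ₗ[ℝ] ℝ) :=
    LinearMap.linearEquivOfInjective B hinj (Subspace.dual_finrank_eq).symm
  have he : ∀ u, e u = B u := fun u => rfl
  have hes : ∀ f : U →ₗ[ℝ] ℝ, B (e.symm f) = f := by
    intro f
    rw [← he, LinearEquiv.apply_symm_apply]
  -- the two transfers
  have hΦ : ∀ m : U →ₗ[ℝ] U →ₗ[ℝ] U, (∀ (g : H) (u v : U), m (ρ g u) (ρ g v) = ρ g (m u v)) →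
      ∀ (g : H) (u v w : U), (m.compr₂ B) (ρ g u) (ρ g v) (ρ g w) = (m.compr₂ B) u v w := by
    intro m hm g u v w
    rw [LinearMap.compr₂_apply, LinearMap.compr₂_apply, hm, hBi]
  have hΨ : ∀ t : U →ₗ[ℝ] U →ₗ[ℝ] U →ₗ[ℝ] ℝ,
      (∀ (g : H) (u v w : U), t (ρ g u) (ρ g v) (ρ g w) = t u v w) →
      ∀ (g : H) (u v : U), (t.compr₂ e.symm.toLinearMap) (ρ g u) (ρ g v)
        = ρ g ((t.compr₂ e.symm.toLinearMap) u v) := by
    intro t ht g u v
    apply hinj
    ext w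
    rw [LinearMap.compr₂_apply, LinearMap.compr₂_apply, LinearEquiv.coe_coe,
      hes]
    conv_rhs => rw [← hgg g w, hBi, hes]
    conv_lhs => rw [← hgg g w, ht]
  have hΦΨ : ∀ t : U →ₗ[ℝ] U →ₗ[ℝ] U →ₗ[ℝ] ℝ, (t.compr₂ e.symm.toLinearMap).compr₂ B = t := by
    intro t
    ext u v w
    rw [LinearMap.compr₂_apply, LinearMap.compr₂_apply, LinearEquiv.coe_coe, hes]
  have hΨΦ : ∀ m : U →ₗ[ℝ] U →ₗ[ℝ] U, (m.compr₂ B).compr₂ e.symm.toLinearMap = m := by
    intro m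
    ext u v
    apply hinj
    rw [LinearMap.compr₂_apply, LinearMap.compr₂_apply, LinearEquiv.coe_coe, hes]
  constructor
  · rintro ⟨m, hm0, hms, hmi, hmu⟩
    have hu : ∀ t' : U →ₗ[ℝ] U →ₗ[ℝ] U →ₗ[ℝ] ℝ,
        (∀ (g : H) (u v w : U), t' (ρ g u) (ρ g v) (ρ g w) = t' u v w) →
        ∃ c : ℝ, t' = c • (m.compr₂ B) := by
      intro t' ht'
      obtain ⟨c, hc⟩ := hmu _ (hΨ t' ht')
      refine ⟨c, ?_⟩
      rw [← hΦΨ t', hc]
      ext u v w
      simp
    have ht0 : m.compr₂ B ≠ 0 := by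
      intro h
      apply hm0
      rw [← hΨΦ m, h]
      ext u v
      simp
    have h1 : ∀ u v w, (m.compr₂ B) u v w = (m.compr₂ B) v u w := by
      intro u v w
      rw [LinearMap.compr₂_apply, LinearMap.compr₂_apply, hms]
    refine ⟨m.compr₂ B, ht0, ?_, hΦ m hmi, hu⟩
    set t := m.compr₂ B with ht
    obtain ⟨c, hc⟩ := hu (LinearMap.lflip.comp t) (by
      intro g u v w
      simp only [LinearMap.comp_apply]
      exact hΦ m hmi g u w v)
    have h2 : ∀ u v w, t u w v = c * t u v w := by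
      intro u v w
      have := congrArg (fun f => f u v w) hc
      simpa using this
    have h3 : ∀ u v w, t u v w = c * (c * (c * t u v w)) := by
      intro u v w
      calc t u v w = t v u w := h1 u v w
        _ = c * t v w u := h2 v w u
        _ = c * t w v u := by rw [h1 v w u]
        _ = c * (c * t w u v) := by rw [h2 w u v]
        _ = c * (c * t u w v) := by rw [h1 w u v]
        _ = c * (c * (c * t u v w)) := by rw [h2 u v w]
    have hc1 : c = 1 := by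
      obtain ⟨u, v, w, huvw⟩ : ∃ u v w, t u v w ≠ 0 := by
        by_contra hcon
        push Not at hcon
        apply ht0
        ext u v w
        simpa using hcon u v w
      have h4 := h3 u v w
      have h5 : (c - 1) * (c ^ 2 + c + 1) * t u v w = 0 := by
        ring_nf
        ring_nf at h4
        linarith
      have h6 : c ^ 2 + c + 1 ≠ 0 := by nlinarith [sq_nonneg (c + 1 / 2)]
      rcases mul_eq_zero.mp h5 with h7 | h7
      · rcases mul_eq_zero.mp h7 with h8 | h8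
        · linarith
        · exact absurd h8 h6
      · exact absurd h7 huvw
    intro u v w
    refine ⟨h1 u v w, ?_⟩
    rw [h2 u v w, hc1, one_mul]
  · rintro ⟨t, ht0, hts, hti, htu⟩
    refine ⟨t.compr₂ e.symm.toLinearMap, ?_, ?_, hΨ t hti, ?_⟩
    · intro h
      apply ht0
      rw [← hΦΨ t, h]
      ext u v w
      simp
    · intro u v
      rw [LinearMap.compr₂_apply, LinearMap.compr₂_apply]
      congr 1
      ext w
      exact (hts u v w).1
    · intro m' hm'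
      obtain ⟨c, hc⟩ := htu _ (hΦ m' hm')
      refine ⟨c, ?_⟩
      rw [← hΨΦ m', hc]
      ext u v
      simp

end Cfsg.Agent.S5541
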