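import Cfsg.Statements.S5543
import Cfsg.Agent.Lib.Helper93Majorana

set_option autoImplicit false
open Cfsg

namespace Cfsg.Agent.S5543

open Cfsg.Agent.Lib.Helper93Majorana

theorem exists_not_mem {G : Type*} [Group G] (X : Subgroup G) (h : 4 < Nat.card X) (s : Finset G)
    (hs : s.card ≤ 4) : ∃ z ∈ X, z ∉ s := by
  by_contra hcon
  push Not at hcon
  have hsub : (X : Set G) ⊆ ↑s := fun z hz => hcon z hz
  have h1 : Nat.card X = (X : Set G).ncard := Nat.card_coe_set_eq (X : Set G)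
  have h2 := Set.ncard_le_ncard hsub s.finite_toSet
  rw [Set.ncard_coe_finset] at h2
  omega

theorem result {V : Type*} [AddCommGroup V] [Module ℝ V] [FiniteDimensional ℝ V] (mul : V →ₗ[ℝ] V →ₗ[ℝ] V) (B : LinearMap.BilinForm ℝ V) (hV : Cfsg.Axial.IsMajoranaAmbient mul B) (X : Subgroup (V ≃ₗ[ℝ] V)) (hX : ∀ x ∈ X, x * x = 1) (ax : (V ≃ₗ[ℝ] V) → V) (hax : ∀ x ∈ X, x ≠ 1 → Cfsg.Axial.IsMajoranaPair mul B x (ax x)) (h1 : ∀ x ∈ X, x ≠ 1 → B (ax x) (ax x) = 1) (h2A : ∀ x ∈ X, ∀ y ∈ X, x ≠ 1 → y ≠ 1 → x ≠ y → mul (ax x) (ax y) = (1 / 8 : ℝ) • (ax x + ax y - ax (x * y))) : Nat.card ↥X ≤ 4 := by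
  classical
  by_contra hcard
  push Not at hcard
  obtain ⟨x, hx, hx1⟩ := exists_not_mem X hcard {1} (by simp)
  obtain ⟨y, hy, hy1⟩ := exists_not_mem X hcard {1, x} (le_trans (Finset.card_le_two) (by norm_num))
  obtain ⟨z, hz, hz1⟩ := exists_not_mem X hcard {1, x, y, x * y}
    (le_trans (Finset.card_le_four) (by norm_num))
  simp only [Finset.mem_singleton, Finset.mem_insert, not_or] at hx1 hy1 hz1
  obtain ⟨hy1, hyx⟩ := hy1
  obtain ⟨hz1, hzx, hzy, hzxy⟩ := hz1
  have hcomm : ∀ g ∈ X, ∀ k ∈ X, g * k = k * g := by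
    intro g hg k hk
    have h3 := hX (g * k) (X.mul_mem hg hk)
    have hgg := hX g hg
    have hkk := hX k hk
    calc g * k = g * ((g * k) * (g * k)) * k := by rw [h3, mul_one]
      _ = (g * g) * k * g * (k * k) := by group
      _ = k * g := by rw [hgg, hkk]; group
  have hcancel : ∀ g ∈ X, ∀ k, g * (g * k) = k := by
    intro g hg k
    rw [← mul_assoc, hX g hg, one_mul]
  -- eigenvector lemma
  have key : ∀ g ∈ X, ∀ k ∈ X, g ≠ 1 → k ≠ 1 → g ≠ k →
      mul (ax g) (ax k - ax (g * k)) = (1 / 4 : ℝ) • (ax k - ax (g * k)) := by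
    intro g hg k hk hg1 hk1 hgk
    have e1 := h2A g hg k hk hg1 hk1 hgk
    have hgk1 : g * k ≠ 1 := by
      intro h
      apply hgk
      have := hcancel g hg k
      rw [h, mul_one] at this
      exact this
    have hggk : g ≠ g * k := by
      intro h
      apply hk1
      have := hcancel g hg k
      rw [← h, hX g hg] at this
      exact this.symm
    have e2 := h2A g hg (g * k) (X.mul_mem hg hk) hg1 hgk1 hggk
    rw [hcancel g hg k] at e2
    rw [map_sub, e1, e2]
    module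
  have hxx := hX x hx
  have hyy := hX y hy
  have hzz := hX z hz
  have hxy := X.mul_mem hx hy
  have hxz := X.mul_mem hx hz
  have hyz := X.mul_mem hy hz
  have hxy1 : x * y ≠ 1 := by
    intro h; apply hyx
    have := hcancel x hx y
    rw [h, mul_one] at this; exact this.symm
  have hxz1 : x * z ≠ 1 := by
    intro h; apply hzx
    have := hcancel x hx z
    rw [h, mul_one] at this; exact this.symm
  have hyz1 : y * z ≠ 1 := by
    intro h; apply hzy
    have := hcancel y hy z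
    rw [h, mul_one] at this; exact this.symm
  have hu := key x hx y hy hx1 hy1 (Ne.symm hyx)
  have hv := key x hx z hz hx1 hz1 (Ne.symm hzx)
  have hxw : x ≠ y * z := by
    intro h; apply hzxy
    have := hcancel y hy z
    rw [← h, hcomm y hy x hx] at this; exact this.symm
  have hp := key x hx (y * z) hyz hx1 hyz1 hxw
  -- products
  have q1 := h2A y hy z hz hy1 hz1 (Ne.symm hzy)
  have hyxz : y ≠ x * z := by
    intro h; apply hzxy
    have := hcancel x hx z
    rw [← h] at this; exact this.symm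
  have q2 := h2A y hy (x * z) hxz hy1 hxz1 hyxz
  have q3 := h2A (x * y) hxy z hz hxy1 hz1 (Ne.symm hzxy)
  have hxyxz : x * y ≠ x * z := by
    intro h; exact hzy (mul_left_cancel h).symm
  have q4 := h2A (x * y) hxy (x * z) hxz hxy1 hxz1 hxyxz
  have i2 : y * (x * z) = x * (y * z) := by
    rw [← mul_assoc, hcomm y hy x hx, mul_assoc]
  have i3 : x * y * z = x * (y * z) := mul_assoc _ _ _
  have i4 : x * y * (x * z) = y * z := by
    rw [hcomm x hx y hy, mul_assoc, hcancel x hx z]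
  rw [i2] at q2
  rw [i3] at q3
  rw [i4] at q4
  have hprod : mul (ax y - ax (x * y)) (ax z - ax (x * z))
      = (-(1 / 4) : ℝ) • (ax (y * z) - ax (x * (y * z))) := by
    simp only [map_sub, LinearMap.sub_apply, q1, q2, q3, q4]
    module
  obtain ⟨p1, p0, e, hp1, hp0⟩ := fus44 (hax x hx hx1) hu hv
  set p := ax (y * z) - ax (x * (y * z)) with hpdef
  rw [hprod] at e
  -- p = 0
  have e2 : mul (ax x) ((-(1 / 4) : ℝ) • p) = mul (ax x) (p1 + p0) := by rw [e]
  rw [map_smul, hp, map_add, hp1, hp0, add_zero] at e2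
  -- e : -(1/4) p = p1 + p0 ; e2 : -(1/4) (1/4 p) = p1
  have e3 : mul (ax x) ((-(1 / 4) : ℝ) • (1 / 4 : ℝ) • p) = mul (ax x) p1 := by rw [e2]
  rw [map_smul, map_smul, hp, hp1, ← e2] at e3
  have hp00 : p = 0 := by
    have : ((3 / 64 : ℝ)) • p = 0 := by
      have h5 : (-(1 / 4) : ℝ) • (1 / 4 : ℝ) • (1 / 4 : ℝ) • p - (-(1 / 4) : ℝ) • (1 / 4 : ℝ) • p = 0 :=
        sub_eq_zero.mpr e3
      rw [← h5]; module
    rcases smul_eq_zero.mp this with h | h
    · norm_num at h
    · exact h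
  have hwt : ax (y * z) = ax (x * (y * z)) := sub_eq_zero.mp hp00
  have hxw' := X.mul_mem hx hyz
  have ht1 : x * (y * z) ≠ 1 := by
    intro h; apply hxw
    have := hcancel x hx (y * z)
    rw [h, mul_one] at this; exact this
  have htw : x * (y * z) ≠ y * z := by
    intro h; apply hx1
    exact mul_eq_right.mp h
  have q5 := h2A (x * (y * z)) hxw' (y * z) hyz ht1 hyz1 htw
  have i5 : x * (y * z) * (y * z) = x := by
    rw [mul_assoc, hX _ hyz, mul_one]
  rw [i5, ← hwt, idem (hax _ hyz hyz1)] at q5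
  have hax6 : ax x = (-6 : ℝ) • ax (y * z) := by
    linear_combination (norm := module) (8 : ℝ) • q5
  have n1 := h1 x hx hx1
  have n2 := h1 _ hyz hyz1
  rw [hax6] at n1
  simp only [map_smul, LinearMap.smul_apply, smul_eq_mul, n2] at n1
  norm_num at n1

end Cfsg.Agent.S5543
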