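import Cfsg.Statements.S5545
import Cfsg.Agent.Lib.Helper93Majorana

set_option autoImplicit false
open Cfsg

namespace Cfsg.Agent.S5545

open Cfsg.Agent.Lib.Helper93Majorana Cfsg.Axial

variable {V : Type*} [AddCommGroup V] [Module ℝ V] {mul : V →ₗ[ℝ] V →ₗ[ℝ] V}
  {B : LinearMap.BilinForm ℝ V} {μ : V ≃ₗ[ℝ] V} {a b : V}

theorem half (hV : IsMajoranaAmbient mul B) (h : IsMajoranaPair mul B μ a) (hn : B a a = 1)
    (hb : mul b b = b) (hfix : μ b = b) (l : ℝ) (hl : l = B a b) (s : V) (hs : s = mul a b) :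
    mul a s = (3 * l / 4) • a + (1 / 4 : ℝ) • s ∧
    (32 : ℝ) • mul s s = (56 * l) • mul a s + (8 : ℝ) • mul b s - (6 * l + 4) • s
      + (4 * l - 26 * l ^ 2) • a ∧
    B (s - l • a) (s - l • a) = (l - l ^ 2) / 4 := by
  obtain ⟨hcomm, hsymm, hpos, hassoc, hnorton⟩ := hV
  obtain ⟨b1, b0, b4, bt, hdec, e1, e0, e4, et⟩ := decomp h b
  have haa := idem h
  have hbt : bt = 0 := by
    have h1 : μ b = b1 + b0 + b4 - bt := by
      rw [hdec]
      simp only [map_add]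
      rw [mu_fix1 h e1, mu_fix0 h e0, mu_fix4 h e4, mu_negt h et]
      abel
    rw [hfix] at h1
    have h2 : (2 : ℝ) • bt = 0 := by
      have : b1 + b0 + b4 + bt = b1 + b0 + b4 - bt := by rw [← hdec, ← h1]
      linear_combination (norm := module) this
    rcases smul_eq_zero.mp h2 with h3 | h3
    · norm_num at h3
    · exact h3
  obtain ⟨c, hc⟩ := one_eigen h e1
  have hB0 : B a b0 = 0 := by
    have := hassoc a a b0
    rw [e0, haa, map_zero] at this
    exact this.symm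
  have hB4 : B a b4 = 0 := by
    have := hassoc a a b4
    rw [e4, haa, map_smul, smul_eq_mul] at this
    linarith
  have hcl : c = l := by
    rw [hl, hdec, hbt, hc]
    simp only [map_add, map_smul, smul_eq_mul, hn, hB0, hB4, map_zero]
    ring
  rw [hcl] at hc
  have hb' : b = l • a + b0 + b4 := by rw [hdec, hbt, hc, add_zero]
  have hs' : s = l • a + (1 / 4 : ℝ) • b4 := by
    rw [hs, hb']
    simp only [map_add, map_smul, haa, e0, e4, add_zero]
  have hb4 : b4 = (4 : ℝ) • s - (4 * l) • a := by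
    rw [hs']; module
  have hb0 : b0 = b + (3 * l) • a - (4 : ℝ) • s := by
    rw [hs', hb']
    module
  have has : mul a s = (3 * l / 4) • a + (1 / 4 : ℝ) • s := by
    rw [hs']
    simp only [map_add, map_smul, haa, e4]
    module
  have F00 := fus00 h e0 e0
  have F04 := fus04 h e0 e4
  obtain ⟨p1, p0, F44, hp1, hp0⟩ := fus44 h e4 e4
  have hexp : mul b b = (l ^ 2) • a + mul b0 b0 + mul b4 b4 + (l / 2) • b4
      + (2 : ℝ) • mul b0 b4 := by
    rw [hb']
    simp only [map_add, map_smul, LinearMap.add_apply, LinearMap.smul_apply, haa, e0, e4,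
      hcomm b0 a, hcomm b4 a, hcomm b4 b0]
    module
  have hsum : ((l ^ 2 - l) • a + p1) + (mul b0 b0 + p0 - b0)
      + ((l / 2 - 1) • b4 + (2 : ℝ) • mul b0 b4) = 0 := by
    have h1 : (l ^ 2) • a + mul b0 b0 + (p1 + p0) + (l / 2) • b4
      + (2 : ℝ) • mul b0 b4 = l • a + b0 + b4 := by
      rw [← F44, ← hexp, hb, ← hb']
    linear_combination (norm := module) h1
  have hL1 : ((l ^ 2 - l) • a + p1) + (1 / 4 : ℝ) • ((l / 2 - 1) • b4 + (2 : ℝ) • mul b0 b4) = 0 := by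
    have := congrArg (mul a) hsum
    simp only [map_add, map_sub, map_smul, haa, hp1, hp0, F00, e0, e4, F04, map_zero] at this
    linear_combination (norm := module) this
  have hL2 : ((l ^ 2 - l) • a + p1) + (1 / 16 : ℝ) • ((l / 2 - 1) • b4 + (2 : ℝ) • mul b0 b4) = 0 := by
    have := congrArg (mul a) hL1
    simp only [map_add, map_smul, haa, hp1, e4, F04, map_zero] at this
    linear_combination (norm := module) this
  have hY : (l / 2 - 1) • b4 + (2 : ℝ) • mul b0 b4 = 0 := by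
    linear_combination (norm := module) (16 / 3 : ℝ) • hL1 - (16 / 3 : ℝ) • hL2
  have hX : mul b0 b0 + mul b4 b4 = (l - l ^ 2) • a + b0 := by
    rw [hY, add_zero] at hsum
    rw [F44]
    linear_combination (norm := module) hsum
  refine ⟨has, ?_, ?_⟩
  · have hba : mul b a = s := by rw [hcomm, hs]
    have hab : mul a b = s := hs.symm
    have hX' := hX
    rw [hb0, hb4] at hX'
    simp only [map_add, map_sub, map_smul, LinearMap.add_apply, LinearMap.sub_apply,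
      LinearMap.smul_apply, haa, hb, hba, hab, hcomm s a, hcomm s b] at hX'
    linear_combination (norm := module) hX'
  · have h1 : B a (mul b0 b0) = 0 := by
      rw [hassoc, e0]; simp
    have h2 : B a (mul b4 b4) = (1 / 4 : ℝ) * B b4 b4 := by
      rw [hassoc, e4]; simp
    have h3 := congrArg (B a) hX
    simp only [map_add, map_smul, smul_eq_mul, h1, h2, hn, hB0] at h3
    have h4 : s - l • a = (1 / 4 : ℝ) • b4 := by rw [hs']; module
    rw [h4]
    simp only [map_smul, LinearMap.smul_apply, smul_eq_mul]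
    linarith

theorem result {V : Type*} [AddCommGroup V] [Module ℝ V] [FiniteDimensional ℝ V] (mul : V →ₗ[ℝ] V →ₗ[ℝ] V) (B : LinearMap.BilinForm ℝ V) (hV : Cfsg.Axial.IsMajoranaAmbient mul B) (μ₀ μ₁ : V ≃ₗ[ℝ] V) (a₀ a₁ : V) (h₀ : Cfsg.Axial.IsMajoranaPair mul B μ₀ a₀) (h₁ : Cfsg.Axial.IsMajoranaPair mul B μ₁ a₁) (hu₀ : ∀ a : V, Cfsg.Axial.IsMajoranaPair mul B μ₀ a → a = a₀) (hu₁ : ∀ a : V, Cfsg.Axial.IsMajoranaPair mul B μ₁ a → a = a₁) (hn₀ : B a₀ a₀ = 1) (hn₁ : B a₁ a₁ = 1) (hc : μ₀ * μ₁ = μ₁ * μ₀) (hne : a₀ ≠ a₁) : (B a₀ a₁ = 0 ∧ mul a₀ a₁ = 0) ∨ (B a₀ a₁ = 1 / 8 ∧ mul (a₀ + a₁ - (8 : ℝ) • mul a₀ a₁) (a₀ + a₁ - (8 : ℝ) • mul a₀ a₁) = a₀ + a₁ - (8 : ℝ) • mul a₀ a₁ ∧ mul a₀ (a₀ + a₁ - (8 : ℝ) • mul a₀ a₁) = (1 / 8 : ℝ) • (a₀ + (a₀ + a₁ - (8 : ℝ) • mul a₀ a₁) - a₁) ∧ mul a₁ (a₀ + a₁ - (8 : ℝ) • mul a₀ a₁) = (1 / 8 : ℝ) • (a₁ + (a₀ + a₁ - (8 : ℝ) • mul a₀ a₁) - a₀)) := by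
  have hcv : ∀ v, μ₀ (μ₁ v) = μ₁ (μ₀ v) := fun v => by
    have := congrArg (fun f : V ≃ₗ[ℝ] V => f v) hc
    simpa using this
  have hf0 : μ₁ a₀ = a₀ := hu₀ _ (pair_transport h₀ μ₁ (mu_mul h₁) hcv)
  have hf1 : μ₀ a₁ = a₁ := hu₁ _ (pair_transport h₁ μ₀ (mu_mul h₀) (fun v => (hcv v).symm))
  have hcomm := hV.1
  have hsymm := hV.2.1
  have hpos := hV.2.2.1
  obtain ⟨l, hl⟩ : ∃ l, l = B a₀ a₁ := ⟨_, rfl⟩
  obtain ⟨s, hs⟩ : ∃ s, s = mul a₀ a₁ := ⟨_, rfl⟩
  obtain ⟨A1, A2, A3⟩ := half hV h₀ hn₀ (idem h₁) hf1 l hl s hs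
  obtain ⟨B1, B2, B3⟩ := half hV h₁ hn₁ (idem h₀) hf0 l (by rw [hl, hsymm]) s (by rw [hs, hcomm])
  rw [← hl, ← hs]
  have haa := idem h₀
  have hbb := idem h₁
  have hab : mul a₀ a₁ = s := hs.symm
  have hba : mul a₁ a₀ = s := by rw [hcomm, hs]
  have hkey : (16 * l ^ 2 - 2 * l) • (a₀ - a₁) = 0 := by
    have h1 := A2
    rw [B2, A1, B1] at h1
    linear_combination (norm := module) -h1
  have hl2 : 16 * l ^ 2 - 2 * l = 0 := by
    rcases smul_eq_zero.mp hkey with h | h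
    · exact h
    · exact absurd (sub_eq_zero.mp h) hne
  have hl3 : l = 0 ∨ l = 1 / 8 := by
    have : l * (8 * l - 1) = 0 := by linarith
    rcases mul_eq_zero.mp this with h | h
    · left; exact h
    · right; linarith
  rcases hl3 with h0 | h8
  · left
    refine ⟨h0, ?_⟩
    rw [h0] at A3
    simp only [zero_smul, sub_zero] at A3
    by_contra hs0
    have := hpos s hs0
    rw [A3] at this
    norm_num at this
  · right
    refine ⟨h8, ?_, ?_, ?_⟩
    · rw [A1, B1, h8] at A2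
      simp only [map_add, map_sub, map_smul, LinearMap.add_apply, LinearMap.sub_apply,
        LinearMap.smul_apply, haa, hbb, hab, hba, hcomm s a₀, hcomm s a₁, A1, B1, h8]
      linear_combination (norm := module) (2 : ℝ) • A2
    · simp only [map_add, map_sub, map_smul, haa, hab, A1, h8]
      module
    · simp only [map_add, map_sub, map_smul, hbb, hba, B1, h8]
      module

end Cfsg.Agent.S5545
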