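import Cfsg.Statements.S5548
import Cfsg.Agent.Lib.Helper9Octad
import Cfsg.Agent.S0363

set_option autoImplicit false
open Cfsg

namespace Cfsg.Agent.S5548

open Finset
open scoped Pointwise
open Cfsg.Agent.Lib.Helper9Golay Cfsg.Agent.Lib.Helper9Golay2 Cfsg.Agent.Lib.Helper9M24
  Cfsg.Agent.Lib.Helper9Chain Cfsg.Agent.Lib.Helper9M24Data Cfsg.Agent.Lib.Helper9M24Order
  Cfsg.Agent.Lib.Helper9M24Trans Cfsg.Agent.Lib.Helper9Octad

abbrev Wd := GolayPt → ZMod 2

/-- the action of a permutation on words -/
def act (σ : Equiv.Perm GolayPt) (w : Wd) : Wd := fun p => w (σ.symm p)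

theorem act_apply (σ : Equiv.Perm GolayPt) (w : Wd) (p : GolayPt) : act σ w p = w (σ⁻¹ p) := rfl

theorem act_add (σ : Equiv.Perm GolayPt) (v w : Wd) : act σ (v + w) = act σ v + act σ w := rfl

theorem act_mul (σ τ : Equiv.Perm GolayPt) (w : Wd) : act (σ * τ) w = act σ (act τ w) := rfl

theorem act_one (w : Wd) : act 1 w = w := rfl

theorem inv_app (f : Equiv.Perm GolayPt) (x : GolayPt) : f⁻¹ (f x) = x := by simp

theorem app_inv (f : Equiv.Perm GolayPt) (x : GolayPt) : f (f⁻¹ x) = x := by simp

theorem support_act (σ : Equiv.Perm GolayPt) (w : Wd) : support₂ (act σ w) = σ • support₂ w :=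
  support_comp σ w

/-- indicator word of a finset -/
def ind (s : Finset GolayPt) : Wd := fun p => if p ∈ s then 1 else 0

theorem support_ind (s : Finset GolayPt) : support₂ (ind s) = s := by
  ext p; simp [support₂, ind]

theorem ind_support (w : Wd) : ind (support₂ w) = w :=
  support₂_injective (support_ind _)

theorem act_ind (σ : Equiv.Perm GolayPt) (s : Finset GolayPt) : act σ (ind s) = ind (σ • s) := by
  apply support₂_injective
  rw [support_act, support_ind, support_ind]

theorem ind_add (s t : Finset GolayPt) : ind s + ind t = ind (symmDiff s t) := by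
  funext p
  simp only [ind, Pi.add_apply, Finset.mem_symmDiff]
  by_cases h1 : p ∈ s <;> by_cases h2 : p ∈ t <;> simp [h1, h2]
  decide

theorem ind_mem_iff (s : Finset GolayPt) : ind s ∈ golayCode ↔ s ∈ Csup := by
  constructor
  · intro h; exact ⟨_, h, support_ind s⟩
  · rintro ⟨w, hw, rfl⟩
    rw [ind_support]; exact hw

theorem add_self' (w : Wd) : w + w = 0 := by
  funext p
  have key : ∀ a : ZMod 2, a + a = 0 := by decide
  exact key _

theorem two_trans {a b c d : GolayPt} (h : a ≠ b) (h' : c ≠ d) : ∃ g ∈ M24, g a = c ∧ g b = d := by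
  have := (MulAction.is_two_pretransitive_iff (G := M24) (α := GolayPt)).1
    (isMultiplyPretransitive_le (by norm_num)) h h'
  obtain ⟨⟨g, hg⟩, h1, h2⟩ := this
  exact ⟨g, hg, h1, h2⟩

/-- move one point of a 5-set, fixing the others -/
theorem move_one {T : Finset GolayPt} (hT : T.card = 5) {a b : GolayPt} (ha : a ∈ T) (hb : b ∉ T) :
    ∃ σ ∈ M24, σ a = b ∧ ∀ t ∈ T, t ≠ a → σ t = t := by
  classical
  let e := (Finset.equivFinOfCardEq hT).symm
  let x : Fin 5 ↪ GolayPt := e.toEmbedding.trans (Function.Embedding.subtype _)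
  have hxT : ∀ i, x i ∈ T := fun i => (e i).2
  let y : Fin 5 ↪ GolayPt := ⟨fun i => if x i = a then b else x i, by
    intro i j hij
    simp only at hij
    by_cases h1 : x i = a <;> by_cases h2 : x j = a
    · exact x.injective (h1.trans h2.symm)
    · rw [if_pos h1, if_neg h2] at hij
      exact absurd (hij ▸ hxT j) hb
    · rw [if_neg h1, if_pos h2] at hij
      exact absurd (hij ▸ hxT i) hb
    · rw [if_neg h1, if_neg h2] at hij
      exact x.injective hij⟩
  obtain ⟨σ, hσ, h⟩ := five_trans x y
  have hsurj : ∀ t ∈ T, ∃ i, x i = t := fun t ht => ⟨e.symm ⟨t, ht⟩, by simp [x]⟩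
  refine ⟨σ, hσ, ?_, ?_⟩
  · obtain ⟨i, hi⟩ := hsurj a ha
    have := h i
    rw [hi] at this
    rw [this]
    show (if x i = a then b else x i) = b
    rw [if_pos hi]
  · intro t ht hta
    obtain ⟨i, hi⟩ := hsurj t ht
    have := h i
    rw [hi] at this
    rw [this]
    show (if x i = a then b else x i) = t
    rw [if_neg (by rw [hi]; exact hta), hi]

theorem PS_trans {p : GolayPt} (hp : p ∉ fs O0) : ∃ g ∈ PS (fs O0), g p = pt 4 := by
  have key : ∀ i < 24, O0.testBit i = false → i ∈ cert6.map Prod.fst := by decide +kernel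
  have h1 : O0.testBit (idx p) = false := by
    rw [mem_fs] at hp
    simpa using hp
  obtain ⟨g, hg, h⟩ := level6 _ (key _ (idx_lt p) h1)
  rw [pt_idx] at h
  refine ⟨g, ?_, h⟩
  rw [PS_O0]
  exact ⟨K_le hg.1, hg.2⟩

theorem smul_compl (g : Equiv.Perm GolayPt) (s : Finset GolayPt) : g • sᶜ = (g • s)ᶜ := by
  ext p
  rw [mem_smul_iff, Finset.mem_compl, Finset.mem_compl, mem_smul_iff]

section
variable (W : Submodule (ZMod 2) Wd) (hW : ∀ σ ∈ M24, ∀ w ∈ W, act σ w ∈ W)
include hW

/-- a nonzero vector of `W` vanishing on the standard octad can be made invariant under the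
pointwise stabiliser of the octad -/
theorem exists_invariant (S : Finset (Equiv.Perm GolayPt)) (hS : ∀ g ∈ S, g ∈ PS (fs O0))
    {v : Wd} (hv : v ∈ W) (hv0 : v ≠ 0) (hvO : ∀ p ∈ fs O0, v p = 0) :
    ∃ v' ∈ W, v' ≠ 0 ∧ (∀ p ∈ fs O0, v' p = 0) ∧ ∀ g ∈ S, act g v' = v' := by
  classical
  induction S using Finset.induction_on with
  | empty => exact ⟨v, hv, hv0, hvO, by simp⟩
  | insert h S _ ih =>
    obtain ⟨v1, h1, h2, h3, h4⟩ := ih (fun g hg => hS g (Finset.mem_insert_of_mem hg))
    have hh := hS h (Finset.mem_insert_self _ _)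
    have hoct : fs O0 ∈ octads := fs_mem_octads (by decide +kernel : isOctad O0 = true)
    have hinv := (octad_PS hoct).2
    have hcomm : ∀ g ∈ S, g * h = h * g := by
      intro g hg
      have hg' := hS g (Finset.mem_insert_of_mem hg)
      have e1 := hinv g hg'
      have e2 := hinv h hh
      have e3 := hinv (g * h) ((PS (fs O0)).mul_mem hg' hh)
      calc g * h = g * (g * h * (g * h)) * h := by rw [e3, mul_one]
        _ = (g * g) * (h * g) * (h * h) := by group
        _ = h * g := by rw [e1, e2, one_mul, mul_one]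
    by_cases hc : v1 + act h v1 = 0
    · refine ⟨v1, h1, h2, h3, ?_⟩
      intro g hg
      rcases Finset.mem_insert.1 hg with rfl | hg
      · have : act g v1 = v1 + (v1 + act g v1) := by
          rw [← add_assoc, add_self', zero_add]
        rw [this, hc, add_zero]
      · exact h4 g hg
    · refine ⟨v1 + act h v1, W.add_mem h1 (hW h hh.1 _ h1), hc, ?_, ?_⟩
      · intro p hp
        have hfix : h⁻¹ p = p := by
          rw [Equiv.Perm.inv_eq_iff_eq]; exact ((mem_PS.1 hh).2 p hp).symm
        rw [Pi.add_apply, act_apply, hfix, h3 p hp, add_zero]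
      · intro g hg
        rcases Finset.mem_insert.1 hg with rfl | hg
        · rw [act_add, ← act_mul, hinv g hh, act_one, add_comm]
        · rw [act_add, ← act_mul, hcomm g hg, act_mul, h4 g hg]

/-- Claim A, first part: the complement of the standard octad lies in `W` -/
theorem compl_O0_mem {w : Wd} (hw : w ∈ W) (h0 : w ≠ 0) (h1 : w ≠ 1) : ind (fs O0)ᶜ ∈ W := by
  classical
  obtain ⟨a, ha⟩ : ∃ a, w a ≠ 0 := by
    by_contra hc
    push Not at hc
    exact h0 (funext hc)
  obtain ⟨b, hb⟩ : ∃ b, w b ≠ 1 := by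
    by_contra hc
    push Not at hc
    exact h1 (funext hc)
  have key : ∀ x : ZMod 2, x ≠ 0 → x = 1 := by decide
  have key' : ∀ x : ZMod 2, x ≠ 1 → x = 0 := by decide
  have ha' := key _ ha
  have hb' := key' _ hb
  have hab : a ≠ b := by
    rintro rfl
    rw [ha'] at hb'
    exact absurd hb' (by decide)
  obtain ⟨g0, hg0, e1, e2⟩ := two_trans hab (show pt 4 ≠ pt 6 by decide)
  set w1 := act g0 w with hw1
  have hw1W : w1 ∈ W := hW g0 hg0 w hw
  have w14 : w1 (pt 4) = 1 := by
    rw [hw1, act_apply, ← e1, inv_app, ha']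
  have w16 : w1 (pt 6) = 0 := by
    rw [hw1, act_apply, ← e2, inv_app, hb']
  obtain ⟨σ, hσ, hσ6⟩ := PS_trans (p := pt 6) (by rw [mem_fs]; decide +kernel)
  set v := w1 + act σ w1 with hv
  have hvW : v ∈ W := W.add_mem hw1W (hW σ hσ.1 _ hw1W)
  have hv4 : v (pt 4) = 1 := by
    rw [hv, Pi.add_apply, act_apply, ← hσ6, inv_app, w16, hσ6, w14, add_zero]
  have hv0 : v ≠ 0 := by
    intro h
    rw [h] at hv4
    exact absurd hv4 (by decide)
  have hvO : ∀ p ∈ fs O0, v p = 0 := by
    intro p hp
    have hfix : σ⁻¹ p = p := by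
      rw [Equiv.Perm.inv_eq_iff_eq]; exact ((mem_PS.1 hσ).2 p hp).symm
    rw [hv, Pi.add_apply, act_apply, hfix]
    have key2 : ∀ x : ZMod 2, x + x = 0 := by decide
    exact key2 _
  obtain ⟨v', h1', h2', h3', h4'⟩ := exists_invariant W hW
    (Finset.univ.filter (fun g => g ∈ PS (fs O0))) (fun g hg => (Finset.mem_filter.1 hg).2)
    hvW hv0 hvO
  have hinv : ∀ g ∈ PS (fs O0), ∀ p, v' (g p) = v' p := by
    intro g hg p
    have := congrFun (h4' g (Finset.mem_filter.2 ⟨Finset.mem_univ _, hg⟩)) (g p)
    rw [act_apply, inv_app] at this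
    exact this.symm
  obtain ⟨p, hp⟩ : ∃ p, v' p ≠ 0 := by
    by_contra hc
    push Not at hc
    exact h2' (funext hc)
  have hpO : p ∉ fs O0 := fun h => hp (h3' p h)
  obtain ⟨gp, hgp, hgp4⟩ := PS_trans hpO
  have hv'4 : v' (pt 4) = 1 := by
    rw [← hgp4, hinv gp hgp, key _ hp]
  have : v' = ind (fs O0)ᶜ := by
    funext q
    by_cases hq : q ∈ fs O0
    · rw [h3' q hq]; simp [ind, hq]
    · obtain ⟨gq, hgq, hgq4⟩ := PS_trans hq
      rw [← hinv gq hgq, hgq4, hv'4]; simp [ind, hq]
  rw [← this]; exact h1'

/-- Claim A -/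
theorem code_le {w : Wd} (hw : w ∈ W) (h0 : w ≠ 0) (h1 : w ≠ 1) : golayCode ≤ W := by
  have hO0 : fs O0 ∈ octads := fs_mem_octads (by decide +kernel : isOctad O0 = true)
  have hc := compl_O0_mem W hW hw h0 h1
  have hcompl : ∀ o ∈ octads, ind oᶜ ∈ W := by
    intro o ho
    obtain ⟨g, hg, rfl⟩ := octad_trans hO0 ho
    rw [← smul_compl, ← act_ind]
    exact hW g hg _ hc
  have h3 : ind (fs 15777) ∈ W := by
    have e1 := hcompl (fs 5279) (fs_mem_octads (by decide +kernel))
    have e2 := hcompl (fs 10558) (fs_mem_octads (by decide +kernel))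
    have e3 := W.add_mem e1 e2
    rw [ind_add] at e3
    have : symmDiff (fs 5279)ᶜ (fs 10558)ᶜ = fs 15777 := by
      have : (15777 : ℕ) = 5279 ^^^ 10558 := by decide
      rw [this, fs_xor]
      ext p
      simp only [Finset.mem_symmDiff, Finset.mem_compl]
      tauto
    rwa [this] at e3
  have hoct : ∀ o ∈ octads, ind o ∈ W := by
    intro o ho
    obtain ⟨g, hg, rfl⟩ := octad_trans (fs_mem_octads (by decide +kernel : isOctad 15777 = true)) ho
    rw [← act_ind]
    exact hW g hg _ h3
  rw [golayCode_eq, Submodule.span_le]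
  rintro _ ⟨b, hb, rfl⟩
  have := hoct (fs b) (fs_mem_octads (basis_octads b hb))
  rw [← support_toWord, ind_support] at this
  exact this

omit hW in
/-- reduce the weight of a word outside the code -/
theorem exists_small (hC : golayCode ≤ W) (n : ℕ) : ∀ w ∈ W, w ∉ golayCode → (support₂ w).card ≤ n →
    ∃ w' ∈ W, w' ∉ golayCode ∧ (support₂ w').card ≤ 4 := by
  induction n with
  | zero =>
    intro w hw hwC hn
    exact ⟨w, hw, hwC, by omega⟩
  | succ n ih =>
    intro w hw hwC hn
    by_cases h4 : (support₂ w).card ≤ 4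
    · exact ⟨w, hw, hwC, h4⟩
    · obtain ⟨T, hT, hTc⟩ := Finset.exists_subset_card_eq (show 5 ≤ (support₂ w).card by omega)
      obtain ⟨O, ⟨hO, hTO⟩, -⟩ := Cfsg.Agent.S0363.result.2 T hTc
      have hOC : ind O ∈ golayCode := (ind_mem_iff O).2 hO.1
      apply ih (w + ind O) (W.add_mem hw (hC hOC))
      · intro h
        apply hwC
        have := golayCode.add_mem h hOC
        rwa [add_assoc, add_self', add_zero] at this
      · have e1 : support₂ (w + ind O) = symmDiff (support₂ w) O := by
          conv_lhs => rw [← ind_support w]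
          rw [ind_add, support_ind]
        rw [e1]
        have e2 := card_inter_symmDiff (support₂ w) O
        have e3 : 5 ≤ (support₂ w ∩ O).card := by
          rw [← hTc]; exact Finset.card_le_card (Finset.subset_inter hT hTO)
        rw [hO.2] at e2
        omega

/-- Claim B -/
theorem pair_mem (hC : golayCode ≤ W) {w : Wd} (hw : w ∈ W) (hwC : w ∉ golayCode)
    {p q : GolayPt} (hpq : p ≠ q) : ind {p, q} ∈ W := by
  classical
  obtain ⟨w', hw', hw'C, h4⟩ := exists_small W hC _ w hw hwC le_rfl
  set s := support₂ w' with hs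
  have hcu : (Finset.univ : Finset GolayPt).card = 24 := by decide
  obtain ⟨a, ha⟩ : s.Nonempty := by
    rw [Finset.nonempty_iff_ne_empty]
    intro h
    apply hw'C
    rw [← ind_support w', ← hs, h]
    have : ind ∅ = 0 := by funext p; simp [ind]
    rw [this]; exact golayCode.zero_mem
  obtain ⟨T, hsT, -, hTc⟩ := Finset.exists_subsuperset_card_eq (s := s) (t := Finset.univ) (n := 5)
    (Finset.subset_univ _) (by omega) (by rw [hcu]; omega)
  obtain ⟨b, hb⟩ : ∃ b, b ∉ T := by
    by_contra hc
    push Not at hc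
    have : (Finset.univ : Finset GolayPt) ⊆ T := fun x _ => hc x
    have := Finset.card_le_card this
    omega
  obtain ⟨σ, hσ, hσa, hσT⟩ := move_one hTc (hsT ha) hb
  have hab : a ≠ b := fun h => hb (h ▸ hsT ha)
  have e1 : ind s + act σ (ind s) = ind {a, b} := by
    rw [act_ind, ind_add]
    congr 1
    ext x
    rw [Finset.mem_symmDiff, mem_smul_iff, Finset.mem_insert, Finset.mem_singleton]
    constructor
    · rintro (⟨h1, h2⟩ | ⟨h1, h2⟩)
      · left
        by_contra hxa
        apply h2
        have := hσT x (hsT h1) hxa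
        rw [Equiv.Perm.inv_eq_iff_eq.2 this.symm]; exact h1
      · right
        by_contra hxb
        apply h2
        by_cases hya : σ⁻¹ x = a
        · exact absurd (by rw [← hσa, ← hya]; simp) hxb
        · have := hσT _ (hsT h1) hya
          rw [app_inv] at this
          rw [this]; exact h1
    · rintro (rfl | rfl)
      · left
        refine ⟨ha, fun h => ?_⟩
        by_cases hya : σ⁻¹ x = x
        · have : σ x = x := by
            conv_lhs => rw [← hya]
            simp
          exact hab (by rw [← hσa, this])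
        · have := hσT _ (hsT h) hya
          rw [app_inv] at this
          exact hya this.symm
      · right
        refine ⟨?_, fun h => hb (hsT h)⟩
        rw [← hσa, inv_app]; exact ha
  have e2 : ind {a, b} ∈ W := by
    rw [← e1, hs, ind_support]
    exact W.add_mem hw' (hW σ hσ _ hw')
  obtain ⟨g, hg, g1, g2⟩ := two_trans hab hpq
  have e3 := hW g hg _ e2
  rw [act_ind] at e3
  have : g • ({a, b} : Finset GolayPt) = {p, q} := by
    ext x
    rw [mem_smul_iff, Finset.mem_insert, Finset.mem_singleton, Finset.mem_insert,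
      Finset.mem_singleton, Equiv.Perm.inv_eq_iff_eq, Equiv.Perm.inv_eq_iff_eq, g1, g2]
  rwa [this] at e3

theorem even_le (hC : golayCode ≤ W) {w : Wd} (hw : w ∈ W) (hwC : w ∉ golayCode)
    (x : Wd) (hx : ∑ p, x p = 0) : x ∈ W := by
  classical
  have hsingle : ∀ p : GolayPt, ind {p} + ind {(none : GolayPt)} ∈ W := by
    intro p
    by_cases hp : p = none
    · rw [hp, add_self']; exact W.zero_mem
    · have := pair_mem W hW hC hw hwC hp
      have e : ind {p} + ind {(none : GolayPt)} = ind {p, none} := by
        rw [ind_add]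
        congr 1
        ext y
        simp only [Finset.mem_symmDiff, Finset.mem_singleton, Finset.mem_insert]
        constructor
        · rintro (⟨h, -⟩ | ⟨h, -⟩)
          · left; exact h
          · right; exact h
        · rintro (h | h)
          · left; exact ⟨h, fun h' => hp (h.symm.trans h')⟩
          · right; exact ⟨h, fun h' => hp (h'.symm.trans h)⟩
      rwa [e]
  have hdecomp : x = ∑ p, x p • (ind {p} + ind {(none : GolayPt)}) := by
    simp only [smul_add, Finset.sum_add_distrib, ← Finset.sum_smul, hx, zero_smul, add_zero]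
    funext q
    rw [Finset.sum_apply]
    simp only [Pi.smul_apply, ind, Finset.mem_singleton, smul_eq_mul, mul_ite, mul_one, mul_zero]
    rw [Finset.sum_ite_eq]
    simp
  rw [hdecomp]
  exact W.sum_mem (fun p _ => W.smul_mem _ (hsingle p))

end

/-- For the automorphism group of the length-24 binary Golay code of the definitions (the Mathieu group of degree 24) acting on binary words of length 24 by permuting coordinates, the only invariant subspaces of the space of all words are: zero, the span of the all-ones word, the code itself, the even-weight words, and the whole space. (So the permutation module has a unique composition series.) -/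
theorem result (W : Submodule (ZMod 2) (Cfsg.GolayPt → ZMod 2)) (hW : ∀ σ ∈ Cfsg.M24, ∀ w ∈ W, (fun p => w (σ.symm p)) ∈ W) : W = ⊥ ∨ W = Submodule.span (ZMod 2) {fun _ => (1 : ZMod 2)} ∨ W = Cfsg.golayCode ∨ (W : Set (Cfsg.GolayPt → ZMod 2)) = {w | ∑ p, w p = 0} ∨ W = ⊤ := by
  have hW' : ∀ σ ∈ M24, ∀ w ∈ W, act σ w ∈ W := hW
  by_cases hsmall : ∀ w ∈ W, w = 0 ∨ w = 1
  · by_cases h1 : (1 : Wd) ∈ W
    · right; left
      apply le_antisymm
      · intro w hw
        rcases hsmall w hw with rfl | rfl
        · exact Submodule.zero_mem _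
        · exact Submodule.subset_span rfl
      · rw [Submodule.span_le]
        rintro _ rfl
        exact h1
    · left
      rw [eq_bot_iff]
      intro w hw
      rcases hsmall w hw with rfl | rfl
      · exact Submodule.zero_mem _
      · exact absurd hw h1
  · push Not at hsmall
    obtain ⟨w, hw, h0, h1⟩ := hsmall
    have hC := code_le W hW' hw h0 h1
    by_cases hle : W ≤ golayCode
    · right; right; left
      exact le_antisymm hle hC
    · obtain ⟨v, hv, hvC⟩ := SetLike.not_le_iff_exists.1 hle
      have hE := even_le W hW' hC hv hvC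
      right; right; right
      by_cases hodd : ∀ x ∈ W, ∑ p, x p = 0
      · left
        ext x
        exact ⟨fun h => hodd x h, fun h => hE x h⟩
      · right
        push Not at hodd
        obtain ⟨y, hy, hy1⟩ := hodd
        rw [eq_top_iff]
        intro x _
        by_cases hx : ∑ p, x p = 0
        · exact hE x hx
        · have key : ∀ a b : ZMod 2, a ≠ 0 → b ≠ 0 → a + b = 0 := by decide
          have : x + y ∈ W := hE _ (by
            simp only [Pi.add_apply, Finset.sum_add_distrib]
            exact key _ _ hx hy1)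
          have h2 := W.add_mem this hy
          rwa [add_assoc, add_self', add_zero] at h2

end Cfsg.Agent.S5548
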