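import Cfsg.Statements.S5550
import Cfsg.Agent.Lib.Helper9M12

set_option autoImplicit false
open Cfsg

namespace Cfsg.Agent.S5550

open Finset
open scoped Pointwise
open Cfsg.Agent.Lib.Helper9Golay Cfsg.Agent.Lib.Helper9Golay2 Cfsg.Agent.Lib.Helper9M24
  Cfsg.Agent.Lib.Helper9Chain Cfsg.Agent.Lib.Helper9M24Data Cfsg.Agent.Lib.Helper9M24Order
  Cfsg.Agent.Lib.Helper9M24Trans Cfsg.Agent.Lib.Helper9M12 Cfsg.Agent.Lib.Helper9M12Data

/-- the action of a permutation on words -/
def act (σ : Equiv.Perm GolayPt) (w : GolayPt → ZMod 2) : GolayPt → ZMod 2 := fun p => w (σ.symm p)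

theorem act_add (σ : Equiv.Perm GolayPt) (v w : GolayPt → ZMod 2) :
    act σ (v + w) = act σ v + act σ w := rfl

theorem act_sub (σ : Equiv.Perm GolayPt) (v w : GolayPt → ZMod 2) :
    act σ (v - w) = act σ v - act σ w := rfl

theorem act_mul (σ τ : Equiv.Perm GolayPt) (w : GolayPt → ZMod 2) :
    act (σ * τ) w = act σ (act τ w) := rfl

theorem act_one (w : GolayPt → ZMod 2) : act 1 w = w := rfl

theorem support_act (σ : Equiv.Perm GolayPt) (w : GolayPt → ZMod 2) :
    support₂ (act σ w) = σ • support₂ w := support_comp σ w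

theorem act_mem {σ : Equiv.Perm GolayPt} (hσ : σ ∈ M24) {w : GolayPt → ZMod 2}
    (hw : w ∈ golayCode) : act σ w ∈ golayCode := by
  obtain ⟨w', hw', hs⟩ := (mem_M24_iff σ).1 hσ _ ⟨w, hw, rfl⟩
  rw [← support_act] at hs
  rw [← support₂_injective hs]; exact hw'

theorem act_mem_iff {σ : Equiv.Perm GolayPt} (hσ : σ ∈ M24) {w : GolayPt → ZMod 2} :
    act σ w ∈ golayCode ↔ w ∈ golayCode := by
  refine ⟨fun h => ?_, act_mem hσ⟩
  have := act_mem (M24.inv_mem hσ) h
  rwa [← act_mul, inv_mul_cancel, act_one] at this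

theorem toWord_mk (w : GolayPt → ZMod 2) : toWord (mk (support₂ w)) = w := by
  apply support₂_injective
  rw [support_toWord, fs_mk]

theorem act_toWord (σ : Equiv.Perm GolayPt) (n : ℕ) :
    act σ (toWord n) = toWord (mapMask (tbl σ) n) := by
  apply support₂_injective
  rw [support_act, support_toWord, support_toWord, smul_fs]

theorem toWord_mem_iff {n : ℕ} (h : n < 2 ^ 24) : toWord n ∈ golayCode ↔ isCode n = true := by
  rw [← fs_mem_supports_iff h]
  constructor
  · intro hn; exact ⟨_, hn, support_toWord n⟩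
  · rintro ⟨w, hw, hs⟩
    rw [← support_toWord] at hs
    rw [← support₂_injective hs]; exact hw

theorem sub_eq_add' (v w : GolayPt → ZMod 2) : v - w = v + w := by
  funext p
  have key : ∀ a b : ZMod 2, a - b = a + b := by decide
  exact key _ _

/-- the property to be proved, for the support `s` of the codeword -/
def P (s : Finset GolayPt) : Prop :=
  ∀ w : GolayPt → ZMod 2, w ∉ golayCode → ∃ σ ∈ M24, σ • s = s ∧ act σ w - w ∉ golayCode

/-- the Boolean certificate -/
def check (U : ℕ) (L : List (List ℕ)) : Bool :=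
  L.all (fun l => mapMask l U == U) &&
    (List.range 4096).all (fun m => m == 0 || L.any (fun l => !isCode (mapMask l m ^^^ m)))

theorem reduce (n : ℕ) (h : n < 2 ^ 24) : n ^^^ code (n >>> 12) < 4096 := by
  have hk : n >>> 12 < 4096 := by
    rw [Nat.shiftRight_eq_div_pow]; omega
  have h1 : (n ^^^ code (n >>> 12)) >>> 12 = 0 := by
    rw [Nat.shiftRight_xor_distrib, code_shift _ hk, Nat.xor_self]
  rw [Nat.shiftRight_eq_div_pow] at h1
  have := (Nat.div_eq_zero_iff).1 h1
  omega

theorem P_of_check {U : ℕ} {L : List (List ℕ)} (hL : Sound K L) (hc : check U L = true) :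
    P (fs U) := by
  rw [check, Bool.and_eq_true, List.all_eq_true, List.all_eq_true] at hc
  obtain ⟨hc1, hc2⟩ := hc
  intro w hw
  set n := mk (support₂ w) with hn
  have hnlt : n < 2 ^ 24 := mk_lt _
  have hwn : w = toWord n := (toWord_mk w).symm
  set c := code (n >>> 12) with hcdef
  set m := n ^^^ c with hm
  have hmlt : m < 4096 := reduce n hnlt
  have hcC : toWord c ∈ golayCode := (mem_golayCode_iff _).2 ⟨c, code_mem _, rfl⟩
  have hwm : w = toWord m + toWord c := by
    rw [← toWord_xor, hm, Nat.xor_assoc, Nat.xor_self, Nat.xor_zero]; exact hwn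
  have hm0 : m ≠ 0 := by
    intro h0
    apply hw
    rw [hwm, h0, toWord_zero, zero_add]; exact hcC
  have h2 := hc2 m (List.mem_range.2 hmlt)
  rw [Bool.or_eq_true, List.any_eq_true] at h2
  rcases h2 with h2 | ⟨l, hl, h2⟩
  · exact absurd (by simpa using h2) hm0
  obtain ⟨σ, hσK, hσl⟩ := hL l hl
  have hσ : σ ∈ M24 := K_le hσK
  refine ⟨σ, hσ, ?_, ?_⟩
  · rw [smul_fs, hσl]
    have := hc1 l hl
    rw [beq_iff_eq] at this
    rw [this]
  · intro hmem
    have h3 : act σ (toWord m) - toWord m ∈ golayCode := by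
      have h4 : act σ (toWord m) - toWord m
          = (act σ w - w) - (act σ (toWord c) - toWord c) := by
        rw [hwm, act_add]; abel
      rw [h4]
      exact golayCode.sub_mem hmem (golayCode.sub_mem (act_mem hσ hcC) hcC)
    rw [sub_eq_add', act_toWord, ← toWord_xor, hσl] at h3
    have hlt : mapMask l m ^^^ m < 2 ^ 24 := by
      apply Nat.xor_lt_two_pow
      · rw [← hσl]; exact mapMask_lt _ _ (tblF_lt _)
      · omega
    rw [toWord_mem_iff hlt] at h3
    rw [h3] at h2
    simp at h2

theorem P_smul {s : Finset GolayPt} (hs : P s) {g : Equiv.Perm GolayPt} (hg : g ∈ M24) :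
    P (g • s) := by
  intro w hw
  have hw' : act g⁻¹ w ∉ golayCode := fun h => hw ((act_mem_iff (M24.inv_mem hg)).1 h)
  obtain ⟨σ, hσ, h1, h2⟩ := hs _ hw'
  refine ⟨g * σ * g⁻¹, M24.mul_mem (M24.mul_mem hg hσ) (M24.inv_mem hg), ?_, ?_⟩
  · rw [mul_smul, mul_smul, inv_smul_smul, h1]
  · intro h
    apply h2
    rw [← act_mem_iff hg, act_sub, ← act_mul, ← act_mul, ← act_mul, mul_inv_cancel, act_one]
    exact h

theorem P_compl {s : Finset GolayPt} (hs : P s) : P sᶜ := by
  intro w hw
  obtain ⟨σ, hσ, h1, h2⟩ := hs w hw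
  refine ⟨σ, hσ, ?_, h2⟩
  ext p
  rw [mem_smul_iff, Finset.mem_compl, Finset.mem_compl, ← mem_smul_iff, h1]

def progO : List (ℕ × ℕ) :=
  [(2, 2), (0, 1), (0, 2), (0, 5), (0, 0), (0, 0), (6, 8), (0, 0), (1, 0), (10, 11), (0, 12),
   (0, 12), (0, 12), (0, 15), (0, 0), (0, 0), (1, 0)]

def progD : List (ℕ × ℕ) :=
  [(0, 2), (0, 0), (1, 0), (5, 5), (0, 5), (0, 7), (0, 6), (0, 7), (0, 0), (0, 0), (1, 0), (11, 11),
   (0, 12), (0, 15), (0, 14), (0, 0), (1, 0), (1, 1), (1, 0)]

theorem base_sound : Sound K [de, ga, al, idl] := by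
  intro l hl
  simp only [List.mem_cons, List.not_mem_nil, or_false] at hl
  rcases hl with rfl | rfl | rfl | rfl
  · exact ⟨_, Subgroup.subset_closure (by simp), tbl_de⟩
  · exact ⟨_, Subgroup.subset_closure (by simp), tbl_ga⟩
  · exact ⟨_, Subgroup.subset_closure (by simp), tbl_al⟩
  · exact ⟨1, K.one_mem, tbl_one⟩

theorem checkE : check 0 [de, ga, al, idl] = true := by decide +kernel
theorem checkO : check O0 (runSLP progO [de, ga, al, idl] |>.filter (fun l => mapMask l O0 == O0)) = true := by
  decide +kernel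
theorem checkD : check d1 (runSLP progD [de, ga, al, idl] |>.filter (fun l => mapMask l d1 == d1)) = true := by
  decide +kernel

theorem Sound.filter {L : List (List ℕ)} (h : Sound K L) (p : List ℕ → Bool) :
    Sound K (L.filter p) := fun l hl => h l (List.mem_of_mem_filter hl)

theorem P_empty : P ∅ := by
  have := P_of_check base_sound checkE
  rwa [fs_zero] at this

theorem P_O0 : P (fs O0) := P_of_check (Sound.filter (runSLP_sound _ _ base_sound) _) checkO

theorem P_d1 : P (fs d1) := P_of_check (Sound.filter (runSLP_sound _ _ base_sound) _) checkD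

theorem P_octad {s : Finset GolayPt} (hs : s ∈ octads) : P s := by
  obtain ⟨g, hg, rfl⟩ := octad_trans (fs_mem_octads (by decide +kernel : isOctad O0 = true)) hs
  exact P_smul P_O0 hg

theorem P_all {s : Finset GolayPt} (hs : s ∈ Csup) : P s := by
  have hcu : (Finset.univ : Finset GolayPt).card = 24 := by decide
  rcases card_of_mem_supports hs with h | h | h | h | h
  · rw [Finset.card_eq_zero] at h
    rw [h]; exact P_empty
  · exact P_octad ⟨hs, h⟩
  · obtain ⟨⟨g, hg⟩, rfl⟩ := dodecad_trans d1_mem (⟨hs, h⟩ : s ∈ dodecads)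
    exact P_smul P_d1 hg
  · have h1 : sᶜ ∈ octads := by
      refine ⟨?_, by rw [Finset.card_compl, h]; decide⟩
      have hu : (Finset.univ : Finset GolayPt) ∈ Csup :=
        ⟨1, Submodule.subset_span (Or.inr rfl), by ext i; simp [support₂]⟩
      have := symmDiff_mem_supports hu hs
      have h2 : symmDiff Finset.univ s = sᶜ := by
        ext i; simp [Finset.mem_symmDiff]
      rwa [h2] at this
    have := P_compl (P_octad h1)
    rwa [compl_compl] at this
  · have h1 : s = (∅ : Finset GolayPt)ᶜ := by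
      rw [Finset.compl_empty]
      exact Finset.eq_univ_of_card s (by rw [h]; decide)
    rw [h1]; exact P_compl P_empty

/-- Let u be a word of the length-24 binary Golay code of the definitions (possibly zero or all-ones) and w any binary word of length 24 outside the code. Then some automorphism of the code (a coordinate permutation preserving it) fixes u but moves w to a word not congruent to w modulo the code: the stabilizer of a codeword fixes no non-zero element of the quotient of the space of all words by the code. -/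
theorem result (u : (Cfsg.GolayPt → ZMod 2)) (hu : u ∈ Cfsg.golayCode) (w : (Cfsg.GolayPt → ZMod 2)) (hw : w ∉ Cfsg.golayCode) : ∃ σ ∈ Cfsg.M24, (fun p => u (σ.symm p)) = u ∧ (fun p => w (σ.symm p)) - w ∉ Cfsg.golayCode := by
  obtain ⟨σ, hσ, h1, h2⟩ := P_all (⟨u, hu, rfl⟩ : support₂ u ∈ Csup) w hw
  refine ⟨σ, hσ, ?_, h2⟩
  apply support₂_injective
  rw [← h1]
  exact support_act σ u

end Cfsg.Agent.S5550
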