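import Cfsg.Statements.S5551
import Cfsg.Agent.S0391

set_option autoImplicit false
open Cfsg

namespace Cfsg.Agent.S5551

theorem par (v w : Cfsg.GolayPt → ℤ) :
    Cfsg.sqNorm (v + w) + Cfsg.sqNorm (v - w) = 2 * Cfsg.sqNorm v + 2 * Cfsg.sqNorm w := by
  simp only [Cfsg.sqNorm, Pi.add_apply, Pi.sub_apply, Finset.mul_sum, ← Finset.sum_add_distrib]
  apply Finset.sum_congr rfl
  intros
  ring

theorem sq_two (z : Cfsg.GolayPt → ℤ) : Cfsg.sqNorm (2 • z) = 4 * Cfsg.sqNorm z := by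
  simp only [Cfsg.sqNorm, Pi.smul_apply, Finset.mul_sum]
  apply Finset.sum_congr rfl
  intros
  ring

theorem sq_neg (z : Cfsg.GolayPt → ℤ) : Cfsg.sqNorm (-z) = Cfsg.sqNorm z := by
  simp only [Cfsg.sqNorm, Pi.neg_apply]
  apply Finset.sum_congr rfl
  intros
  ring

theorem result (v w : Cfsg.GolayPt → ℤ) (hv : v ∈ Cfsg.leechLattice) (hw : w ∈ Cfsg.leechLattice) (hv0 : v ≠ 0) (hw0 : w ≠ 0) (hvn : Cfsg.sqNorm v ≤ 64) (hwn : Cfsg.sqNorm w ≤ 64) (hc : ∃ z ∈ Cfsg.leechLattice, v - w = 2 • z) : Cfsg.sqNorm v = Cfsg.sqNorm w ∧ (Cfsg.sqNorm v < 64 → w = v ∨ w = -v) := by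
  obtain ⟨z, hz, hzv⟩ := hc
  by_cases h1 : w = v
  · subst h1
    exact ⟨rfl, fun _ => Or.inl rfl⟩
  by_cases h2 : w = -v
  · subst h2
    exact ⟨(sq_neg v).symm, fun _ => Or.inr rfl⟩
  have hz0 : z ≠ 0 := by
    rintro rfl
    apply h1
    rw [smul_zero] at hzv
    exact (sub_eq_zero.mp hzv).symm
  have hzw : v + w = 2 • (z + w) := by
    rw [smul_add, ← hzv, two_smul]
    abel
  have hzw0 : z + w ≠ 0 := by
    intro h
    apply h2
    rw [h, smul_zero] at hzw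
    exact (eq_neg_of_add_eq_zero_right hzw)
  have n1 := Cfsg.Agent.S0391.result z hz hz0
  have n2 := Cfsg.Agent.S0391.result (z + w) (Cfsg.leechLattice.add_mem hz hw) hzw0
  have hp := par v w
  rw [hzv, hzw, sq_two, sq_two] at hp
  constructor
  · omega
  · intro h
    omega

end Cfsg.Agent.S5551
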