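import Cfsg.Statements.S5594
import Cfsg.Prelude.Def_Spor_Mathieu
import Cfsg.Agent.Lib.Helper94Leech
import Cfsg.Agent.Lib.Helper9M24Order
import Cfsg.Agent.S0432
import Cfsg.Agent.S0433

set_option autoImplicit false
open Cfsg

namespace Cfsg.Agent.S5594

/-- build an element of `Co0` from an additive norm-preserving map with an inverse -/
def mkCo0 (F F' : (GolayPt → ℤ) → (GolayPt → ℤ))
    (hF : ∀ x ∈ leechLattice, F x ∈ leechLattice) (hF' : ∀ x ∈ leechLattice, F' x ∈ leechLattice)
    (h1 : ∀ x, F' (F x) = x) (h2 : ∀ x, F (F' x) = x) (hadd : ∀ x y, F (x + y) = F x + F y)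
    (hn : ∀ x, sqNorm (F x) = sqNorm x) : ↥Co0 :=
  ⟨{ toFun := fun v => ⟨F v, hF v v.2⟩
     invFun := fun v => ⟨F' v, hF' v v.2⟩
     left_inv := fun v => Subtype.ext (h1 v)
     right_inv := fun v => Subtype.ext (h2 v) },
   ⟨fun v w => Subtype.ext (hadd v w), fun v => hn v⟩⟩

theorem mkCo0_smul (F F' hF hF' h1 h2 hadd hn) (v : ↥leechLattice) :
    ((mkCo0 F F' hF hF' h1 h2 hadd hn • v : ↥leechLattice) : GolayPt → ℤ) = F v := rfl

/-- the twisted coordinate map -/
def tw (x : GolayPt → ℤ) : GolayPt → ℤ :=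
  fun i => if i ∈ Spor.squareDodecad then -x (projInv i) else x (projInv i)

theorem swap_dodecad : ∀ i : GolayPt, i ∈ Spor.squareDodecad ↔ ¬ projInv i ∈ Spor.squareDodecad := by
  decide +kernel

theorem projInv_invol : ∀ i : GolayPt, projInv (projInv i) = i := by decide +kernel

theorem tw_tw (x : GolayPt → ℤ) : tw (tw x) = -x := by
  funext i
  have h := swap_dodecad i
  simp only [tw, projInv_invol, Pi.neg_apply]
  by_cases hi : i ∈ Spor.squareDodecad
  · have h' : ¬ projInv i ∈ Spor.squareDodecad := h.mp hi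
    simp [hi, h']
  · have h' : projInv i ∈ Spor.squareDodecad := by
      by_contra hc; exact hi (h.mpr hc)
    simp [hi, h']

theorem tw_add (x y : GolayPt → ℤ) : tw (x + y) = tw x + tw y := by
  funext i
  simp only [tw, Pi.add_apply]
  split_ifs <;> ring

theorem tw_neg (x : GolayPt → ℤ) : tw (-x) = -tw x := by
  funext i
  simp only [tw, Pi.neg_apply]
  split_ifs <;> ring

theorem tw_norm (x : GolayPt → ℤ) : sqNorm (tw x) = sqNorm x := by
  simp only [sqNorm]
  rw [← Equiv.sum_comp projInv (fun i => x i ^ 2)]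
  apply Finset.sum_congr rfl
  intro i _
  simp only [tw]
  split_ifs <;> ring

theorem projInv_mem : projInv ∈ M24 :=
  Cfsg.Agent.Lib.Helper9M24Order.K_le (Subgroup.subset_closure (by simp))

theorem dodecad_mem : Spor.squareDodecad ∈ supports (golayCode : Set (GolayPt → ZMod 2)) :=
  ⟨qrWord 0, Submodule.subset_span (Or.inl ⟨0, rfl⟩), rfl⟩

theorem tw_mem (x : GolayPt → ℤ) (hx : x ∈ leechLattice) : tw x ∈ leechLattice :=
  Cfsg.Agent.S0433.result _ dodecad_mem _ (Cfsg.Agent.S0432.result projInv projInv_mem x hx)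

/-- negation -/
def negC : ↥Co0 :=
  mkCo0 (fun x => -x) (fun x => -x) (fun _ hx => leechLattice.neg_mem hx)
    (fun _ hx => leechLattice.neg_mem hx) (fun x => neg_neg x) (fun x => neg_neg x)
    (fun x y => neg_add x y) (fun x => by simp [sqNorm])

/-- an element squaring to negation -/
def twC : ↥Co0 :=
  mkCo0 tw (fun x => -tw x) tw_mem (fun x hx => leechLattice.neg_mem (tw_mem x hx))
    (fun x => by rw [tw_tw, neg_neg]) (fun x => by rw [tw_neg, tw_tw, neg_neg]) tw_add tw_norm

theorem ext_Co0 {a b : ↥Co0} (h : ∀ v : ↥leechLattice,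
    ((a • v : ↥leechLattice) : GolayPt → ℤ) = ((b • v : ↥leechLattice) : GolayPt → ℤ)) : a = b := by
  apply Subtype.ext
  apply Equiv.ext
  intro v
  exact Subtype.ext (h v)

theorem twC_sq : twC * twC = negC := by
  apply ext_Co0
  intro v
  rw [mul_smul]
  show tw (tw v) = -v
  exact tw_tw v

theorem negC_sq : negC * negC = 1 := by
  apply ext_Co0
  intro v
  rw [mul_smul]
  show - - (v : GolayPt → ℤ) = v
  exact neg_neg _

theorem negC_comm (a : ↥Co0) : negC * a = a * negC := by
  apply ext_Co0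
  intro v
  rw [mul_smul, mul_smul]
  show -((a • v : ↥leechLattice) : GolayPt → ℤ) = ((a • (negC • v) : ↥leechLattice) : GolayPt → ℤ)
  have hv : negC • v = -v := Subtype.ext rfl
  rw [hv]
  have hadd := a.2.1 v (-v)
  have hzero : (a : Equiv.Perm leechLattice) 0 = 0 := by
    have := a.2.1 0 0
    rw [add_zero] at this
    exact left_eq_add.mp this
  rw [add_neg_cancel, hzero] at hadd
  have : (a : Equiv.Perm leechLattice) (-v) = -((a : Equiv.Perm leechLattice) v) :=
    eq_neg_of_add_eq_zero_right hadd.symm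
  show -(((a : Equiv.Perm leechLattice) v : ↥leechLattice) : GolayPt → ℤ) =
    (((a : Equiv.Perm leechLattice) (-v) : ↥leechLattice) : GolayPt → ℤ)
  rw [this]; rfl

theorem two_mem : (fun _ => 2 : GolayPt → ℤ) ∈ leechLattice := by
  rw [Cfsg.Agent.Lib.Helper94Leech.mem_leechLattice_iff,
    Cfsg.Agent.Lib.Helper94Leech.mem_leechSet_iff]
  refine ⟨0, fun i => rfl, by decide +kernel, fun k => ?_⟩
  by_cases hk : k % 4 = 2
  · have : Cfsg.Agent.Lib.Helper94Leech.cls (fun _ => 2) k = Finset.univ := by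
      ext i; simp [Cfsg.Agent.Lib.Helper94Leech.mem_cls, hk]
    rw [this]; exact Cfsg.Agent.Lib.Helper94Leech.univ_mem
  · have : Cfsg.Agent.Lib.Helper94Leech.cls (fun _ => 2) k = ∅ := by
      ext i
      simp only [Cfsg.Agent.Lib.Helper94Leech.mem_cls, Finset.notMem_empty, iff_false]
      intro h; exact hk h.symm
    rw [this]; exact Cfsg.Agent.Lib.Helper94Leech.empty_mem

theorem mul_zpow_self_aux (j : ℤ) : (1 : ↥Co0) = negC ^ j * negC ^ j := by
  rw [← zpow_add, ← two_mul, zpow_mul, zpow_two, negC_sq, one_zpow]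

theorem negC_ne_one : negC ≠ 1 := by
  intro h
  have h1 : ((negC • (⟨_, two_mem⟩ : ↥leechLattice) : ↥leechLattice) : GolayPt → ℤ) =
      (((1 : ↥Co0) • (⟨_, two_mem⟩ : ↥leechLattice) : ↥leechLattice) : GolayPt → ℤ) := by rw [h]
  rw [one_smul] at h1
  have h2 := congrFun h1 none
  change (-2 : ℤ) = 2 at h2
  omega

/-- The automorphism group of the Leech lattice contains the negation map, and the subgroup of order 2 it generates has no complement: the automorphism group is a non-split extension of its quotient by that subgroup (it is not the direct product of a group of order 2 with the first Conway group). -/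
theorem result :
    ∃ n : ↥Cfsg.Co0, (∀ v : ↥Cfsg.leechLattice, ((n • v : ↥Cfsg.leechLattice) : Cfsg.GolayPt → ℤ) = -(v : Cfsg.GolayPt → ℤ)) ∧
    ∀ K : Subgroup ↥Cfsg.Co0, ¬ (Subgroup.zpowers n).IsComplement' K := by
  refine ⟨negC, fun v => rfl, fun K hK => ?_⟩
  obtain ⟨⟨⟨h, hh⟩, ⟨k, hk⟩⟩, hhk⟩ := hK.2 twC
  simp only at hhk
  have hcomm : h * k = k * h := by
    obtain ⟨j, rfl⟩ := Subgroup.mem_zpowers_iff.mp hh
    exact (Commute.zpow_left (negC_comm k) j).eq
  have hh2 : h * h = 1 := by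
    obtain ⟨j, rfl⟩ := Subgroup.mem_zpowers_iff.mp hh
    rw [← mul_zpow_self_aux j]
  have hkk : k * k = negC := by
    rw [← twC_sq, ← hhk]
    calc k * k = (h * h) * (k * k) := by rw [hh2, one_mul]
      _ = h * (h * k) * k := by group
      _ = h * (k * h) * k := by rw [hcomm]
      _ = h * k * (h * k) := by group
  have hmem : negC ∈ Subgroup.zpowers negC ⊓ K :=
    ⟨Subgroup.mem_zpowers _, hkk ▸ K.mul_mem hk hk⟩
  rw [hK.disjoint.eq_bot] at hmem
  exact negC_ne_one (Subgroup.mem_bot.mp hmem)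

end Cfsg.Agent.S5594
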