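import Cfsg.Statements.S5599
import Cfsg.Agent.Lib.Helper94M24C

set_option autoImplicit false
open scoped Pointwise
open Cfsg

namespace Cfsg.Agent.S5599

open Cfsg Cfsg.Agent.Lib.Helper33Golay Cfsg.Agent.Lib.Helper94M24A Cfsg.Agent.Lib.Helper94M24B
  Cfsg.Agent.Lib.Helper94M24C

theorem mem_M22 {x : Equiv.Perm GolayPt} :
    x ∈ Spor.M22 ↔ x ∈ M24 ∧ x none = none ∧ x (some 0) = some 0 := by
  simp [Spor.M22, Spor.M23, Subgroup.mem_inf, MulAction.mem_stabilizer_iff, and_assoc]

theorem mem_pair {x : Equiv.Perm GolayPt} :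
    x ∈ MulAction.stabilizer (Equiv.Perm GolayPt) ({none, some 0} : Finset GolayPt) ↔
      (x none = none ∧ x (some 0) = some 0) ∨ (x none = some 0 ∧ x (some 0) = none) := by
  rw [MulAction.mem_stabilizer_iff]
  constructor
  · intro h
    have h1 : x none ∈ ({none, some 0} : Finset GolayPt) := by
      rw [← h]; exact Finset.smul_mem_smul_finset (a := x) (by simp)
    have h2 : x (some 0) ∈ ({none, some 0} : Finset GolayPt) := by
      rw [← h]; exact Finset.smul_mem_smul_finset (a := x) (by simp)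
    have hne : x none ≠ x (some 0) := fun e => by simpa using x.injective e
    simp only [Finset.mem_insert, Finset.mem_singleton] at h1 h2
    rcases h1 with h1 | h1 <;> rcases h2 with h2 | h2
    · exact absurd (h1.trans h2.symm) hne
    · exact Or.inl ⟨h1, h2⟩
    · exact Or.inr ⟨h1, h2⟩
    · exact absurd (h1.trans h2.symm) hne
  · rintro (⟨h1, h2⟩ | ⟨h1, h2⟩)
    · rw [Finset.smul_finset_insert, Finset.smul_finset_singleton]
      simp [h1, h2]
    · rw [Finset.smul_finset_insert, Finset.smul_finset_singleton]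
      simp [h1, h2, Finset.pair_comm]

/-- the transposition of the points 23 and 0 -/
def sw : ℕ := 29435622565346244453937714881988663

theorem sw_valid : validPerm sw = true := by decide +kernel

theorem sw_not : toPerm sw ∉ M24 := by
  intro h
  have h1 : (13938692 : ℕ) ∈ octL := by decide +kernel
  have h2 := smul_mem_octads h (dec_mem_octads h1)
  rw [smul_dec sw_valid, dec_mem_octads_iff (app_lt sw_valid _)] at h2
  revert h2
  decide +kernel

theorem none_eq : (none : GolayPt) = pt 23 := rfl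
theorem zero_eq : (some 0 : GolayPt) = pt 0 := rfl

theorem sw_imgs : r24.all (fun i => Nat.beq (img sw i) (if i = 23 then 0 else if i = 0 then 23 else i)) = true := by
  decide +kernel

theorem eq_sw {c : Equiv.Perm GolayPt} (h1 : c none = some 0) (h2 : c (some 0) = none)
    (h3 : ∀ p, p ≠ none → p ≠ some 0 → c p = p) : c = toPerm sw := by
  ext p
  rw [toPerm_apply sw_valid]
  have := Nat.eq_of_beq_eq_true (List.all_eq_true.1 sw_imgs (idx p) (mem_r24.2 (idx_lt p)))
  rw [this]
  by_cases hp : p = none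
  · subst hp; rw [h1]; rfl
  · by_cases hp0 : p = some 0
    · subst hp0; rw [h2]; rfl
    · have e1 : idx p ≠ 23 := fun e => hp (by rw [← pt_idx p, e]; rfl)
      have e2 : idx p ≠ 0 := fun e => hp0 (by rw [← pt_idx p, e]; rfl)
      rw [if_neg e1, if_neg e2, pt_idx, h3 p hp hp0]

theorem exists_other (a b c d : GolayPt) : ∃ q : GolayPt, q ≠ a ∧ q ≠ b ∧ q ≠ c ∧ q ≠ d := by
  have : ({a, b, c, d} : Finset GolayPt).card < (Finset.univ : Finset GolayPt).card := by
    have h1 : ({a, b, c, d} : Finset GolayPt).card ≤ 4 := Finset.card_le_four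
    have h2 : (Finset.univ : Finset GolayPt).card = 24 := by
      rw [Finset.card_univ, Fintype.card_option, ZMod.card]
    omega
  obtain ⟨q, _, hq⟩ := Finset.exists_mem_notMem_of_card_lt_card this
  simp only [Finset.mem_insert, Finset.mem_singleton, not_or] at hq
  exact ⟨q, hq.1, hq.2.1, hq.2.2.1, hq.2.2.2⟩



/-- In the automorphism group of the length-24 code, the two-point Mathieu group (permutations of the code's group fixing the extra point and the residue 0) has index 2 in the setwise stabiliser of that pair of points, and an element of the code's group interchanging the two points normalises the two-point group and induces on it, by conjugation, an automorphism that is not inner. -/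
theorem result (g : Equiv.Perm Cfsg.GolayPt) (hg : g ∈ Cfsg.M24) (h₁ : g none = some 0) (h₂ : g (some 0) = none) : Cfsg.Spor.M22.relIndex (Cfsg.M24 ⊓ MulAction.stabilizer (Equiv.Perm Cfsg.GolayPt) ({none, some 0} : Finset Cfsg.GolayPt)) = 2 ∧ (∀ x ∈ Cfsg.Spor.M22, g * x * g⁻¹ ∈ Cfsg.Spor.M22) ∧ ¬ ∃ h ∈ Cfsg.Spor.M22, ∀ x ∈ Cfsg.Spor.M22, g * x * g⁻¹ = h * x * h⁻¹ := by
  have hginv1 : g⁻¹ none = some 0 := by rw [Equiv.Perm.inv_eq_iff_eq, h₂]
  have hginv2 : g⁻¹ (some 0) = none := by rw [Equiv.Perm.inv_eq_iff_eq, h₁]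
  refine ⟨?_, ?_, ?_⟩
  · rw [Subgroup.relIndex, Subgroup.index_eq_two_iff]
    refine ⟨⟨g, hg, mem_pair.2 (Or.inr ⟨h₁, h₂⟩)⟩, ?_⟩
    rintro ⟨b, hb1, hb2⟩
    simp only [Subgroup.mem_subgroupOf, Subgroup.coe_mul, mem_M22]
    rcases mem_pair.1 hb2 with ⟨e1, e2⟩ | ⟨e1, e2⟩
    · right
      refine ⟨⟨hb1, e1, e2⟩, ?_⟩
      rintro ⟨_, h, _⟩
      rw [Equiv.Perm.mul_apply, h₁, e2] at h
      exact absurd h (by simp)
    · left
      refine ⟨⟨M24.mul_mem hb1 hg, ?_, ?_⟩, ?_⟩
      · rw [Equiv.Perm.mul_apply, h₁, e2]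
      · rw [Equiv.Perm.mul_apply, h₂, e1]
      · rintro ⟨_, h, _⟩
        rw [e1] at h
        exact absurd h (by simp)
  · intro x hx
    obtain ⟨hx1, hx2, hx3⟩ := mem_M22.1 hx
    refine mem_M22.2 ⟨M24.mul_mem (M24.mul_mem hg hx1) (M24.inv_mem hg), ?_, ?_⟩
    · simp only [Equiv.Perm.mul_apply, hginv1, hx3, h₂]
    · simp only [Equiv.Perm.mul_apply, hginv2, hx2, h₁]
  · rintro ⟨h, hh, hconj⟩
    obtain ⟨hh1, hh2, hh3⟩ := mem_M22.1 hh
    set c := h⁻¹ * g with hc
    have hcM : c ∈ M24 := M24.mul_mem (M24.inv_mem hh1) hg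
    have hcomm : ∀ x ∈ Spor.M22, c * x = x * c := by
      intro x hx
      have := hconj x hx
      have e : g * x = h * x * h⁻¹ * g := by
        rw [← this]; group
      rw [hc, mul_assoc, e]; group
    have c1 : c none = some 0 := by
      rw [hc, Equiv.Perm.mul_apply, h₁, Equiv.Perm.inv_eq_iff_eq, hh3]
    have c2 : c (some 0) = none := by
      rw [hc, Equiv.Perm.mul_apply, h₂, Equiv.Perm.inv_eq_iff_eq, hh2]
    have c3 : ∀ p, p ≠ none → p ≠ some 0 → c p = p := by
      intro p hp hp0
      by_contra hne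
      have q1 : c p ≠ none := fun e => hp0 (c.injective (e.trans c2.symm))
      have q2 : c p ≠ some 0 := fun e => hp (c.injective (e.trans c1.symm))
      obtain ⟨q', r1, r2, r3, r4⟩ := exists_other none (some 0) p (c p)
      obtain ⟨x, hx, x0, x1, x2, x3, _⟩ := exists_map5 none (some 0) p (c p) q' none (some 0) p q' (c p)
        (by
          simp only [List.nodup_cons, List.mem_cons, List.not_mem_nil, or_false, not_or,
            not_false_eq_true, List.nodup_nil, and_true]
          exact ⟨⟨by simp, hp.symm, q1.symm, r1.symm⟩, ⟨hp0.symm, q2.symm, r2.symm⟩,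
            ⟨fun e => hne e.symm, r3.symm⟩, r4.symm⟩)
        (by
          simp only [List.nodup_cons, List.mem_cons, List.not_mem_nil, or_false, not_or,
            not_false_eq_true, List.nodup_nil, and_true]
          exact ⟨⟨by simp, hp.symm, r1.symm, q1.symm⟩, ⟨hp0.symm, r2.symm, q2.symm⟩,
            ⟨r3.symm, fun e => hne e.symm⟩, r4⟩)
      have hxM : x ∈ Spor.M22 := mem_M22.2 ⟨hx, x0, x1⟩
      have := congrArg (fun f : Equiv.Perm GolayPt => f p) (hcomm x hxM)
      simp only [Equiv.Perm.mul_apply, x2, x3] at this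
      exact r4 this.symm
    exact sw_not (eq_sw c1 c2 c3 ▸ hcM)

end Cfsg.Agent.S5599
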