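import Cfsg.Statements.S5600
import Cfsg.Agent.Lib.Helper94M24E

set_option autoImplicit false
open scoped Pointwise
open Cfsg

namespace Cfsg.Agent.S5600

open Cfsg Cfsg.Agent.Lib.Helper33Golay Cfsg.Agent.Lib.Helper94M24A Cfsg.Agent.Lib.Helper94M24B
  Cfsg.Agent.Lib.Helper94M24C Cfsg.Agent.Lib.Helper94M24D Cfsg.Agent.Lib.Helper94M24E

/-- the standard six points, the last one with index `x` -/
def Estd (x : ℕ) : Finset GolayPt := {pt 23, pt 0, pt 1, pt 2, pt 3, pt x}

theorem Estd5 : Estd 5 = dec 8388655 := by decide +kernel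
theorem Estd4 : Estd 4 = dec 8388639 := by decide +kernel

theorem L5_trans : r24.all (fun x => [23, 0, 1, 2, 3].elem x ||
    L5.any (fun P => Nat.beq (img P x) 5 || Nat.beq (img P x) 4)) = true := by decide +kernel

/-- six distinct points can be moved to the standard ones -/
theorem std6 (a0 a1 a2 a3 a4 a5 : GolayPt) (h : [a0, a1, a2, a3, a4, a5].Nodup) :
    ∃ k ∈ M24, k a0 = pt 23 ∧ k a1 = pt 0 ∧ k a2 = pt 1 ∧ k a3 = pt 2 ∧ k a4 = pt 3 ∧
      (k a5 = pt 5 ∨ k a5 = pt 4) := by
  have h5 : [a0, a1, a2, a3, a4].Nodup := by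
    have : [a0, a1, a2, a3, a4, a5] = [a0, a1, a2, a3, a4] ++ [a5] := rfl
    rw [this] at h
    exact (List.nodup_append.1 h).1
  obtain ⟨k, hk, k0, k1, k2, k3, k4⟩ := exists_std5 a0 a1 a2 a3 a4 h5
  simp only [List.nodup_cons, List.mem_cons, List.not_mem_nil, or_false, not_or] at h
  have hx := List.all_eq_true.1 L5_trans (idx (k a5)) (mem_r24.2 (idx_lt _))
  rw [Bool.or_eq_true] at hx
  rcases hx with hx | hx
  · exfalso
    simp only [List.elem_eq_mem, decide_eq_true_eq, List.mem_cons, List.not_mem_nil, or_false] at hx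
    have key : ∀ (a : GolayPt) (j : ℕ), k a = pt j → idx (k a5) = j → a = a5 := by
      intro a j h1 h2
      apply k.injective
      rw [h1, ← h2, pt_idx]
    rcases hx with e | e | e | e | e
    · exact h.1.2.2.2.2 (key a0 23 k0 e)
    · exact h.2.1.2.2.2 (key a1 0 k1 e)
    · exact h.2.2.1.2.2 (key a2 1 k2 e)
    · exact h.2.2.2.1.2 (key a3 2 k3 e)
    · exact h.2.2.2.2.1 (key a4 3 k4 e)
  · rw [List.any_eq_true] at hx
    obtain ⟨P, hP, hP'⟩ := hx
    have hv := L5_valid hP
    have hf := List.all_eq_true.1 L5_ok P hP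
    simp only [Bool.and_eq_true, fixesL, List.all_eq_true] at hf
    have fx : ∀ j ∈ [23, 0, 1, 2, 3], toPerm P (pt j) = pt j := by
      intro j hj
      rw [toPerm_pt hv (by simp only [List.mem_cons, List.not_mem_nil, or_false] at hj; omega),
        Nat.eq_of_beq_eq_true (hf.2 j hj)]
    refine ⟨toPerm P * k, M24.mul_mem (toPerm_mem_M24 (L5_inM24 hP)) hk, ?_, ?_, ?_, ?_, ?_, ?_⟩
    · rw [Equiv.Perm.mul_apply, k0, fx 23 (by simp)]
    · rw [Equiv.Perm.mul_apply, k1, fx 0 (by simp)]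
    · rw [Equiv.Perm.mul_apply, k2, fx 1 (by simp)]
    · rw [Equiv.Perm.mul_apply, k3, fx 2 (by simp)]
    · rw [Equiv.Perm.mul_apply, k4, fx 3 (by simp)]
    · rw [Equiv.Perm.mul_apply, toPerm_apply hv]
      rw [Bool.or_eq_true] at hP'
      rcases hP' with e | e
      · left; rw [Nat.eq_of_beq_eq_true e]
      · right; rw [Nat.eq_of_beq_eq_true e]

/-- contained in an octad -/
def Special (E : Finset GolayPt) : Prop := ∃ o ∈ octads, E ⊆ o

theorem special_smul {k : Equiv.Perm GolayPt} (hk : k ∈ M24) (E : Finset GolayPt) :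
    Special (k • E) ↔ Special E := by
  constructor
  · rintro ⟨o, ho, h⟩
    refine ⟨k⁻¹ • o, smul_mem_octads (M24.inv_mem hk) ho, ?_⟩
    rw [← Finset.smul_finset_subset_smul_finset_iff (a := k), smul_inv_smul]
    exact h
  · rintro ⟨o, ho, h⟩
    exact ⟨k • o, smul_mem_octads hk ho, Finset.smul_finset_subset_smul_finset h⟩

theorem special5 : Special (Estd 5) := by
  refine ⟨dec 8536111, dec_mem_octads (by decide +kernel), ?_⟩
  rw [Estd5, dec_subset_iff (by norm_num)]
  decide +kernel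

theorem not_special4 : ¬ Special (Estd 4) := by
  rintro ⟨o, ho, h⟩
  have h1 : o = dec 8536111 := by
    apply octads_eq_of_inter ho (dec_mem_octads (by decide +kernel))
    have h2 : dec 8388623 ⊆ o ∩ dec 8536111 := by
      apply Finset.subset_inter
      · refine subset_trans ?_ h
        rw [Estd4, dec_subset_iff (by norm_num)]
        decide +kernel
      · rw [dec_subset_iff (by norm_num)]
        decide +kernel
    have h3 := Finset.card_le_card h2
    rw [card_dec] at h3
    have : pop 8388623 = 5 := by decide +kernel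
    omega
  rw [h1, Estd4, dec_subset_iff (by norm_num)] at h
  revert h
  decide +kernel

theorem smul_six (k : Equiv.Perm GolayPt) (a0 a1 a2 a3 a4 a5 : GolayPt) :
    k • ({a0, a1, a2, a3, a4, a5} : Finset GolayPt) = {k a0, k a1, k a2, k a3, k a4, k a5} := by
  simp only [Finset.smul_finset_insert, Finset.smul_finset_singleton, Equiv.Perm.smul_def]

/-- enumeration of a set of six points -/
theorem exists_six (E : Finset GolayPt) (hE : E.card = 6) :
    ∃ a0 a1 a2 a3 a4 a5 : GolayPt, [a0, a1, a2, a3, a4, a5].Nodup ∧ E = {a0, a1, a2, a3, a4, a5} := by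
  have hl : E.toList.length = 6 := by rw [Finset.length_toList, hE]
  have hn := E.nodup_toList
  have hm : ∀ p, p ∈ E.toList ↔ p ∈ E := fun p => Finset.mem_toList
  rcases hL : E.toList with _ | ⟨a0, _ | ⟨a1, _ | ⟨a2, _ | ⟨a3, _ | ⟨a4, _ | ⟨a5, _ | ⟨a6, t⟩⟩⟩⟩⟩⟩⟩ <;>
    rw [hL] at hl <;> simp only [List.length_cons, List.length_nil] at hl <;> try omega
  refine ⟨a0, a1, a2, a3, a4, a5, hL ▸ hn, ?_⟩
  ext p
  rw [← hm p, hL]
  simp

/-- normal form of a set of six points -/
theorem normal_form (E : Finset GolayPt) (hE : E.card = 6) :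
    ∃ k ∈ M24, (Special E ∧ k • E = Estd 5) ∨ (¬ Special E ∧ k • E = Estd 4) := by
  obtain ⟨a0, a1, a2, a3, a4, a5, hn, rfl⟩ := exists_six E hE
  obtain ⟨k, hk, k0, k1, k2, k3, k4, k5 | k5⟩ := std6 a0 a1 a2 a3 a4 a5 hn
  · have e : k • ({a0, a1, a2, a3, a4, a5} : Finset GolayPt) = Estd 5 := by
      rw [smul_six, k0, k1, k2, k3, k4, k5]; rfl
    exact ⟨k, hk, Or.inl ⟨by rw [← special_smul hk, e]; exact special5, e⟩⟩
  · have e : k • ({a0, a1, a2, a3, a4, a5} : Finset GolayPt) = Estd 4 := by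
      rw [smul_six, k0, k1, k2, k3, k4, k5]; rfl
    exact ⟨k, hk, Or.inr ⟨by rw [← special_smul hk, e]; exact not_special4, e⟩⟩

/-- transitivity on ordered sextuples enumerating the same set -/
theorem six_trans (a0 a1 a2 a3 a4 a5 b0 b1 b2 b3 b4 b5 : GolayPt) (ha : [a0, a1, a2, a3, a4, a5].Nodup)
    (hb : [b0, b1, b2, b3, b4, b5].Nodup)
    (hab : ({a0, a1, a2, a3, a4, a5} : Finset GolayPt) = {b0, b1, b2, b3, b4, b5}) :
    ∃ g ∈ M24, g a0 = b0 ∧ g a1 = b1 ∧ g a2 = b2 ∧ g a3 = b3 ∧ g a4 = b4 ∧ g a5 = b5 := by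
  obtain ⟨k, hk, k0, k1, k2, k3, k4, k5⟩ := std6 a0 a1 a2 a3 a4 a5 ha
  obtain ⟨l, hl, l0, l1, l2, l3, l4, l5⟩ := std6 b0 b1 b2 b3 b4 b5 hb
  have hsame : k a5 = l b5 := by
    rcases k5 with k5 | k5 <;> rcases l5 with l5 | l5
    · rw [k5, l5]
    · exfalso
      have e1 : k • ({a0, a1, a2, a3, a4, a5} : Finset GolayPt) = Estd 5 := by
        rw [smul_six, k0, k1, k2, k3, k4, k5]; rfl
      have e2 : l • ({b0, b1, b2, b3, b4, b5} : Finset GolayPt) = Estd 4 := by
        rw [smul_six, l0, l1, l2, l3, l4, l5]; rfl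
      have s1 := (special_smul hk _).1 (e1 ▸ special5)
      rw [hab] at s1
      exact not_special4 (e2 ▸ (special_smul hl _).2 s1)
    · exfalso
      have e1 : k • ({a0, a1, a2, a3, a4, a5} : Finset GolayPt) = Estd 4 := by
        rw [smul_six, k0, k1, k2, k3, k4, k5]; rfl
      have e2 : l • ({b0, b1, b2, b3, b4, b5} : Finset GolayPt) = Estd 5 := by
        rw [smul_six, l0, l1, l2, l3, l4, l5]; rfl
      have s1 := (special_smul hl _).1 (e2 ▸ special5)
      rw [← hab] at s1
      exact not_special4 (e1 ▸ (special_smul hk _).2 s1)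
    · rw [k5, l5]
  refine ⟨l⁻¹ * k, M24.mul_mem (M24.inv_mem hl) hk, ?_, ?_, ?_, ?_, ?_, ?_⟩ <;>
    rw [Equiv.Perm.mul_apply, Equiv.Perm.inv_eq_iff_eq] <;> simp [*]

/-! ### counting -/

theorem card_conj {k : Equiv.Perm GolayPt} (hk : k ∈ M24) (Q Q' : Equiv.Perm GolayPt → Prop)
    (h : ∀ g, Q g ↔ Q' (k * g * k⁻¹)) :
    Nat.card {g : Equiv.Perm GolayPt // g ∈ M24 ∧ Q g} = Nat.card {g : Equiv.Perm GolayPt // g ∈ M24 ∧ Q' g} := by
  apply Nat.card_congr
  refine Equiv.subtypeEquiv (MulAut.conj k).toEquiv (fun g => ?_)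
  show _ ↔ k * g * k⁻¹ ∈ M24 ∧ Q' (k * g * k⁻¹)
  rw [← h g]
  constructor
  · rintro ⟨h1, h2⟩; exact ⟨M24.mul_mem (M24.mul_mem hk h1) (M24.inv_mem hk), h2⟩
  · rintro ⟨h1, h2⟩
    refine ⟨?_, h2⟩
    have := M24.mul_mem (M24.mul_mem (M24.inv_mem hk) h1) hk
    simpa [mul_assoc] using this

theorem fix_conj (k g : Equiv.Perm GolayPt) (E : Finset GolayPt) :
    (∀ p ∈ E, g p = p) ↔ ∀ p ∈ k • E, (k * g * k⁻¹) p = p := by
  constructor
  · intro h p hp
    obtain ⟨q, hq, rfl⟩ := Finset.mem_smul_finset.1 hp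
    simp [h q hq]
  · intro h p hp
    have := h (k p) (Finset.smul_mem_smul_finset (a := k) hp)
    simpa using this

theorem stab_conj (k g : Equiv.Perm GolayPt) (E : Finset GolayPt) :
    g • E = E ↔ (k * g * k⁻¹) • (k • E) = k • E := by
  rw [smul_smul]
  have e : k * g * k⁻¹ * k = k * g := by group
  rw [e, mul_smul]
  exact ⟨fun h => by rw [h], fun h => MulAction.injective k h⟩

theorem card_fix (x n : ℕ) (hx : x < 24)
    (hlen : (L5.filter (fun P => Nat.beq (img P x) x)).length = n) :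
    Nat.card {g : Equiv.Perm GolayPt // g ∈ M24 ∧ ∀ p ∈ Estd x, g p = p} = n := by
  rw [card_of_list (fun g => ∀ p ∈ Estd x, g p = p) (L5.filter (fun P => Nat.beq (img P x) x))
    (L5_nodup.filter _), hlen]
  · intro c hc
    have := List.all_eq_true.1 L5_ok c (List.mem_filter.1 hc).1
    simp only [Bool.and_eq_true] at this
    exact this.1.2
  · intro c hc
    obtain ⟨hc1, hc2⟩ := List.mem_filter.1 hc
    have hv := L5_valid hc1
    have hf := List.all_eq_true.1 L5_ok c hc1
    simp only [Bool.and_eq_true, fixesL, List.all_eq_true] at hf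
    refine ⟨toPerm_mem_M24 (L5_inM24 hc1), ?_⟩
    intro p hp
    simp only [Estd, Finset.mem_insert, Finset.mem_singleton] at hp
    rcases hp with rfl | rfl | rfl | rfl | rfl | rfl
    · rw [toPerm_pt hv (by norm_num), Nat.eq_of_beq_eq_true (hf.2 23 (by simp))]
    · rw [toPerm_pt hv (by norm_num), Nat.eq_of_beq_eq_true (hf.2 0 (by simp))]
    · rw [toPerm_pt hv (by norm_num), Nat.eq_of_beq_eq_true (hf.2 1 (by simp))]
    · rw [toPerm_pt hv (by norm_num), Nat.eq_of_beq_eq_true (hf.2 2 (by simp))]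
    · rw [toPerm_pt hv (by norm_num), Nat.eq_of_beq_eq_true (hf.2 3 (by simp))]
    · rw [toPerm_pt hv hx, Nat.eq_of_beq_eq_true hc2]
  · intro g hg hQ
    obtain ⟨P, hP, e⟩ := mem_L5 hg (hQ _ (by simp [Estd])) (hQ _ (by simp [Estd])) (hQ _ (by simp [Estd]))
      (hQ _ (by simp [Estd])) (hQ _ (by simp [Estd]))
    refine ⟨P, List.mem_filter.2 ⟨hP, ?_⟩, e⟩
    have h1 := hQ (pt x) (by simp [Estd])
    rw [e, toPerm_pt (L5_valid hP) hx] at h1
    rw [pt_injOn (img_lt (L5_valid hP) hx) hx h1]; exact Nat.beq_refl _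

/-- the setwise stabiliser of the standard non-special set -/
def St4 : List ℕ := search (okLv (fun l R => okStab 8388639 l R) (fun R => Nat.beq (app R 8388639) 8388639))

theorem St4_ok : St4.length = 2160 ∧ nodupB St4 = true := by decide +kernel

theorem card_stab4 : Nat.card {g : Equiv.Perm GolayPt // g ∈ M24 ∧ g • Estd 4 = Estd 4} = 2160 := by
  rw [card_of_list (fun g => g • Estd 4 = Estd 4) St4 (nodup_of_nodupB St4_ok.2), St4_ok.1]
  · intro c hc; exact (lv_fin hc).2.1
  · intro c hc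
    obtain ⟨h1, _, h3⟩ := lv_fin hc
    exact ⟨h1.2, by rw [Estd4, smul_dec h1.1, Nat.eq_of_beq_eq_true h3]⟩
  · intro g hg hQ
    rw [Estd4] at hQ
    apply lv_sound _ _ hg
    · intro l R hl hR ha
      exact okStab_sound hQ hl hR ha
    · intro R hR e
      rw [← e, smul_dec hR.1] at hQ
      rw [dec_injOn (app_lt hR.1 _) (by norm_num) hQ]; exact Nat.beq_refl _



/-- Although the group of the length-24 code is only 5-transitive on the 24 points, it induces the full symmetric group on every 6-element subset: every permutation of a 6-set E is the restriction of an element of the group mapping E to itself. The pointwise stabiliser of E has order 16 when E lies in an octad and order 3 otherwise; in the latter case the setwise stabiliser of E has order 2160. -/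
theorem result (E : Finset Cfsg.GolayPt) (hE : E.card = 6) : (∀ σ : Equiv.Perm ↥E, ∃ g ∈ Cfsg.M24, ∀ p : ↥E, g p = σ p) ∧ ((∃ o ∈ Cfsg.octads, E ⊆ o) → Nat.card {g : Equiv.Perm Cfsg.GolayPt // g ∈ Cfsg.M24 ∧ ∀ p ∈ E, g p = p} = 16) ∧ ((¬ ∃ o ∈ Cfsg.octads, E ⊆ o) → Nat.card {g : Equiv.Perm Cfsg.GolayPt // g ∈ Cfsg.M24 ∧ ∀ p ∈ E, g p = p} = 3 ∧ Nat.card ↥(MulAction.stabilizer Cfsg.M24 E) = 2160) := by
  refine ⟨?_, ?_, ?_⟩
  · intro σ
    obtain ⟨a0, a1, a2, a3, a4, a5, hn, rfl⟩ := exists_six E hE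
    have m0 : a0 ∈ ({a0, a1, a2, a3, a4, a5} : Finset GolayPt) := by simp
    have m1 : a1 ∈ ({a0, a1, a2, a3, a4, a5} : Finset GolayPt) := by simp
    have m2 : a2 ∈ ({a0, a1, a2, a3, a4, a5} : Finset GolayPt) := by simp
    have m3 : a3 ∈ ({a0, a1, a2, a3, a4, a5} : Finset GolayPt) := by simp
    have m4 : a4 ∈ ({a0, a1, a2, a3, a4, a5} : Finset GolayPt) := by simp
    have m5 : a5 ∈ ({a0, a1, a2, a3, a4, a5} : Finset GolayPt) := by simp
    let f : GolayPt → GolayPt := fun p =>
      if h : p ∈ ({a0, a1, a2, a3, a4, a5} : Finset GolayPt) then (σ ⟨p, h⟩ : GolayPt) else p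
    have hf : ∀ p (h : p ∈ ({a0, a1, a2, a3, a4, a5} : Finset GolayPt)), f p = σ ⟨p, h⟩ := by
      intro p h; simp only [f, dif_pos h]
    have hinj : Set.InjOn f (({a0, a1, a2, a3, a4, a5} : Finset GolayPt) : Set GolayPt) := by
      intro p hp q hq hpq
      rw [hf p hp, hf q hq] at hpq
      have := σ.injective (Subtype.ext hpq)
      exact congrArg Subtype.val this
    have hb : ([a0, a1, a2, a3, a4, a5].map f).Nodup := by
      rw [List.nodup_map_iff_inj_on hn]
      intro p hp q hq hpq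
      exact hinj (by simpa using hp) (by simpa using hq) hpq
    have himg : ({a0, a1, a2, a3, a4, a5} : Finset GolayPt) = {f a0, f a1, f a2, f a3, f a4, f a5} := by
      symm
      apply Finset.eq_of_subset_of_card_le
      · intro p hp
        simp only [Finset.mem_insert, Finset.mem_singleton] at hp
        rcases hp with rfl | rfl | rfl | rfl | rfl | rfl
        · rw [hf a0 m0]; exact (σ _).2
        · rw [hf a1 m1]; exact (σ _).2
        · rw [hf a2 m2]; exact (σ _).2
        · rw [hf a3 m3]; exact (σ _).2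
        · rw [hf a4 m4]; exact (σ _).2
        · rw [hf a5 m5]; exact (σ _).2
      · rw [hE]
        have : ({f a0, f a1, f a2, f a3, f a4, f a5} : Finset GolayPt) =
            ([a0, a1, a2, a3, a4, a5].map f).toFinset := by
          ext p; simp
        rw [this, List.toFinset_card_of_nodup hb]; simp
    obtain ⟨g, hg, g0, g1, g2, g3, g4, g5⟩ := six_trans a0 a1 a2 a3 a4 a5 (f a0) (f a1) (f a2) (f a3)
      (f a4) (f a5) hn hb himg
    refine ⟨g, hg, ?_⟩
    rintro ⟨p, hp⟩
    rw [← hf p hp]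
    have hp' := hp
    simp only [Finset.mem_insert, Finset.mem_singleton] at hp'
    rcases hp' with rfl | rfl | rfl | rfl | rfl | rfl <;> assumption
  · intro hs
    obtain ⟨k, hk, ⟨_, e⟩ | ⟨h, _⟩⟩ := normal_form E hE
    · rw [card_conj hk _ (fun g => ∀ p ∈ Estd 5, g p = p) (fun g => by rw [← e]; exact fix_conj k g E)]
      exact card_fix 5 16 (by norm_num) (by decide +kernel)
    · exact absurd hs h
  · intro hs
    obtain ⟨k, hk, ⟨h, _⟩ | ⟨_, e⟩⟩ := normal_form E hE
    · exact absurd h hs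
    · constructor
      · rw [card_conj hk _ (fun g => ∀ p ∈ Estd 4, g p = p) (fun g => by rw [← e]; exact fix_conj k g E)]
        exact card_fix 4 3 (by norm_num) (by decide +kernel)
      · rw [← card_stab4, ← card_conj hk (fun g => g • E = E) (fun g => g • Estd 4 = Estd 4)
          (fun g => by rw [← e]; exact stab_conj k g E)]
        apply Nat.card_congr
        exact
          { toFun := fun x => ⟨x.1.1, x.1.2, x.2⟩
            invFun := fun x => ⟨⟨x.1, x.2.1⟩, x.2.2⟩
            left_inv := fun x => rfl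
            right_inv := fun x => rfl }

end Cfsg.Agent.S5600
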