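import Cfsg.Statements.S5601
import Cfsg.Agent.Lib.Helper94M24D

set_option autoImplicit false
open scoped Pointwise
open Cfsg

namespace Cfsg.Agent.S5601

open Cfsg Cfsg.Agent.Lib.Helper33Golay Cfsg.Agent.Lib.Helper94M24A Cfsg.Agent.Lib.Helper94M24B
  Cfsg.Agent.Lib.Helper94M24C Cfsg.Agent.Lib.Helper94M24D

/-- the common fixed points of a subgroup -/
def fixS (X : Subgroup ↥M24) : Set GolayPt :=
  {p : GolayPt | ∀ x ∈ X, ((x : ↥M24) : Equiv.Perm GolayPt) p = p}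

theorem exists_gen (X : Subgroup ↥M24) (hX : Nat.card X = 3) :
    ∃ x : ↥M24, x ^ 3 = 1 ∧ x ≠ 1 ∧ X = Subgroup.zpowers x := by
  have hne : X ≠ ⊥ := by
    intro h
    rw [h, Subgroup.card_bot] at hX
    omega
  obtain ⟨x, hx, hx1⟩ : ∃ x : ↥M24, x ∈ X ∧ x ≠ 1 := by
    obtain ⟨a, h⟩ := Subgroup.ne_bot_iff_exists_ne_one.1 hne
    exact ⟨(a : ↥M24), a.2, fun e => h (Subtype.ext e)⟩
  have h3 : x ^ 3 = 1 := by
    have := pow_card_eq_one' (G := X) (x := ⟨x, hx⟩)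
    rw [hX] at this
    exact congrArg Subtype.val this
  refine ⟨x, h3, hx1, ?_⟩
  have ho : orderOf x = 3 := orderOf_eq_prime h3 hx1
  symm
  apply Subgroup.eq_of_le_of_card_ge ((Subgroup.zpowers_le).2 hx)
  rw [Nat.card_zpowers, ho, hX]

theorem fixS_zpowers (x : ↥M24) :
    fixS (Subgroup.zpowers x) = ↑(Finset.univ.filter fun p => (x : Equiv.Perm GolayPt) p = p) := by
  ext p
  simp only [fixS, Set.mem_ofPred_eq, Finset.coe_filter, Finset.mem_univ, true_and]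
  constructor
  · intro h; exact h x (Subgroup.mem_zpowers x)
  · rintro h y ⟨n, rfl⟩
    simp only [Subgroup.coe_zpow]
    exact Equiv.Perm.zpow_apply_eq_self_of_apply_eq_self h n

theorem ncard_fixS (x : ↥M24) :
    (fixS (Subgroup.zpowers x)).ncard = (Finset.univ.filter fun p => (x : Equiv.Perm GolayPt) p = p).card := by
  rw [fixS_zpowers, Set.ncard_coe_finset]

theorem coe_pow3 {x : ↥M24} (h : x ^ 3 = 1) : (x : Equiv.Perm GolayPt) ^ 3 = 1 := by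
  have := congrArg Subtype.val h
  simpa using this

theorem coe_ne {x : ↥M24} (h : x ≠ 1) : (x : Equiv.Perm GolayPt) ≠ 1 := fun e => h (Subtype.ext e)

/-- the two cases -/
theorem cases3 (x : ↥M24) (h3 : x ^ 3 = 1) (hne : x ≠ 1) :
    ((fixS (Subgroup.zpowers x)).ncard = 6 ∧ ∃ k : ↥M24, k * x * k⁻¹ = ⟨toPerm g3A, toPerm_mem_M24 g3A_in⟩) ∨
    ((fixS (Subgroup.zpowers x)).ncard = 0 ∧ ∃ k : ↥M24, k * x * k⁻¹ = ⟨toPerm g3B, toPerm_mem_M24 g3B_in⟩) := by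
  by_cases hf : ∃ p, (x : Equiv.Perm GolayPt) p = p
  · left
    obtain ⟨k, hk, e⟩ := class3F x.2 (coe_pow3 h3) (coe_ne hne) hf
    refine ⟨?_, ⟨k, hk⟩, Subtype.ext e⟩
    rw [ncard_fixS, ← card_fixed_conj _ k, e, card_fixed (inM24_valid g3A_in), cnt_g3A]
  · right
    push Not at hf
    obtain ⟨k, hk, e⟩ := class3B x.2 (coe_pow3 h3) hf
    refine ⟨?_, ⟨k, hk⟩, Subtype.ext e⟩
    rw [ncard_fixS, ← card_fixed_conj _ k, e, card_fixed (inM24_valid g3B_in), cnt_g3B]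

theorem conj_zpowers (k x : ↥M24) :
    MulAut.conj k • Subgroup.zpowers x = Subgroup.zpowers (k * x * k⁻¹) := by
  have h : MulAut.conj k • Subgroup.zpowers x =
      (Subgroup.zpowers x).map (MulAut.conj k).toMonoidHom := rfl
  rw [h, MonoidHom.map_zpowers]
  rfl

theorem conj_of_same {x y r k l : ↥M24} (hk : k * x * k⁻¹ = r) (hl : l * y * l⁻¹ = r) :
    (l⁻¹ * k) * x * (l⁻¹ * k)⁻¹ = y := by
  have : y = l⁻¹ * r * l := by rw [← hl]; group
  rw [this, ← hk]; group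

theorem card_rep {P : ℕ} (hP : inM24 P = true) (h3 : isPow3 P = true) (hne : cntFix P ≠ 24) :
    Nat.card (Subgroup.zpowers (⟨toPerm P, toPerm_mem_M24 hP⟩ : ↥M24)) = 3 ∧
      (⟨toPerm P, toPerm_mem_M24 hP⟩ : ↥M24) ^ 3 = 1 ∧ (⟨toPerm P, toPerm_mem_M24 hP⟩ : ↥M24) ≠ 1 := by
  have hv := inM24_valid hP
  have e3 : (⟨toPerm P, toPerm_mem_M24 hP⟩ : ↥M24) ^ 3 = 1 :=
    Subtype.ext (by simpa using (isPow3_iff hv).1 h3)
  have e1 : (⟨toPerm P, toPerm_mem_M24 hP⟩ : ↥M24) ≠ 1 := by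
    intro e
    have e' : toPerm P = 1 := congrArg Subtype.val e
    apply hne
    rw [← card_fixed hv, e']
    simp [Fintype.card_option, ZMod.card]
  exact ⟨by rw [Nat.card_zpowers, orderOf_eq_prime e3 e1], e3, e1⟩



/-- The group of the length-24 code has exactly two conjugacy classes of subgroups of order 3: a subgroup of order 3 fixes either exactly 6 of the 24 points or none of them, both cases occur, and two subgroups of order 3 with the same number of fixed points are conjugate. -/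
theorem result : (∀ X : Subgroup ↥Cfsg.M24, Nat.card X = 3 → {p : Cfsg.GolayPt | ∀ x ∈ X, ((x : ↥Cfsg.M24) : Equiv.Perm Cfsg.GolayPt) p = p}.ncard = 6 ∨ {p : Cfsg.GolayPt | ∀ x ∈ X, ((x : ↥Cfsg.M24) : Equiv.Perm Cfsg.GolayPt) p = p}.ncard = 0) ∧ (∃ X : Subgroup ↥Cfsg.M24, Nat.card X = 3 ∧ {p : Cfsg.GolayPt | ∀ x ∈ X, ((x : ↥Cfsg.M24) : Equiv.Perm Cfsg.GolayPt) p = p}.ncard = 6) ∧ (∃ X : Subgroup ↥Cfsg.M24, Nat.card X = 3 ∧ {p : Cfsg.GolayPt | ∀ x ∈ X, ((x : ↥Cfsg.M24) : Equiv.Perm Cfsg.GolayPt) p = p}.ncard = 0) ∧ ∀ X Y : Subgroup ↥Cfsg.M24, Nat.card X = 3 → Nat.card Y = 3 → {p : Cfsg.GolayPt | ∀ x ∈ X, ((x : ↥Cfsg.M24) : Equiv.Perm Cfsg.GolayPt) p = p}.ncard = {p : Cfsg.GolayPt | ∀ x ∈ Y, ((x : ↥Cfsg.M24) : Equiv.Perm Cfsg.GolayPt) p = p}.ncard → ∃ k : ↥Cfsg.M24, MulAut.conj k • X = Y := by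
  have hA := card_rep g3A_in (by decide +kernel) (by rw [cnt_g3A]; norm_num)
  have hB := card_rep g3B_in (by decide +kernel) (by rw [cnt_g3B]; norm_num)
  refine ⟨?_, ?_, ?_, ?_⟩
  · intro X hX
    obtain ⟨x, h3, hne, rfl⟩ := exists_gen X hX
    rcases cases3 x h3 hne with h | h
    · exact Or.inl h.1
    · exact Or.inr h.1
  · refine ⟨_, hA.1, ?_⟩
    show (fixS _).ncard = 6
    rw [ncard_fixS]
    show (Finset.univ.filter fun p => toPerm g3A p = p).card = 6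
    rw [card_fixed (inM24_valid g3A_in), cnt_g3A]
  · refine ⟨_, hB.1, ?_⟩
    show (fixS _).ncard = 0
    rw [ncard_fixS]
    show (Finset.univ.filter fun p => toPerm g3B p = p).card = 0
    rw [card_fixed (inM24_valid g3B_in), cnt_g3B]
  · intro X Y hX hY hXY
    obtain ⟨x, h3, hne, rfl⟩ := exists_gen X hX
    obtain ⟨y, h3', hne', rfl⟩ := exists_gen Y hY
    change (fixS _).ncard = (fixS _).ncard at hXY
    rcases cases3 x h3 hne with ⟨h1, k, hk⟩ | ⟨h1, k, hk⟩ <;>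
      rcases cases3 y h3' hne' with ⟨h2, l, hl⟩ | ⟨h2, l, hl⟩
    · exact ⟨l⁻¹ * k, by rw [conj_zpowers, conj_of_same hk hl]⟩
    · omega
    · omega
    · exact ⟨l⁻¹ * k, by rw [conj_zpowers, conj_of_same hk hl]⟩

end Cfsg.Agent.S5601
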