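import Cfsg.Statements.S5602
import Cfsg.Agent.Lib.Helper94Fixed

set_option autoImplicit false
open scoped Pointwise
open Cfsg

namespace Cfsg.Agent.S5602

open Cfsg Cfsg.Agent.Lib.Helper33Golay Cfsg.Agent.Lib.Helper94M24A Cfsg.Agent.Lib.Helper94M24B
  Cfsg.Agent.Lib.Helper94M24C Cfsg.Agent.Lib.Helper94M24D Cfsg.Agent.Lib.Helper94Fixed



/-- An element of order 3 of the group of the length-24 code having exactly 6 fixed points maps to themselves exactly 21 octads, exactly 15 trios, exactly 16 sextets and exactly 20 dodecads. -/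
theorem result (g : Equiv.Perm Cfsg.GolayPt) (hg : g ∈ Cfsg.M24) (h₃ : orderOf g = 3) (h₆ : (Finset.univ.filter fun p => g p = p).card = 6) : {o : Finset Cfsg.GolayPt | o ∈ Cfsg.octads ∧ g • o = o}.ncard = 21 ∧ {T : Finset (Finset Cfsg.GolayPt) | T ∈ Cfsg.trios ∧ g • T = T}.ncard = 15 ∧ {S : Finset (Finset Cfsg.GolayPt) | S ∈ Cfsg.sextets ∧ g • S = S}.ncard = 16 ∧ {d : Finset Cfsg.GolayPt | d ∈ Cfsg.dodecads ∧ g • d = d}.ncard = 20 := by
  have g3 : g ^ 3 = 1 := h₃ ▸ pow_orderOf_eq_one g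
  have gne : g ≠ 1 := fun e => by rw [e, orderOf_one] at h₃; omega
  have hf : ∃ p, g p = p := by
    have : (Finset.univ.filter fun p => g p = p).Nonempty := by
      rw [← Finset.card_pos, h₆]; norm_num
    obtain ⟨p, hp⟩ := this
    exact ⟨p, by simpa using hp⟩
  obtain ⟨k, hk, e⟩ := class3F hg g3 gne hf
  obtain ⟨c1, c2, c3, c4⟩ := counts g3A_in hk e
  rw [c1, c2, c3, c4]
  exact cnt3A

end Cfsg.Agent.S5602
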