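import Cfsg.Statements.S5603
import Cfsg.Agent.Lib.Helper94Fixed

set_option autoImplicit false
open scoped Pointwise
open Cfsg

namespace Cfsg.Agent.S5603

open Cfsg Cfsg.Agent.Lib.Helper33Golay Cfsg.Agent.Lib.Helper94M24A Cfsg.Agent.Lib.Helper94M24B
  Cfsg.Agent.Lib.Helper94M24C Cfsg.Agent.Lib.Helper94M24D Cfsg.Agent.Lib.Helper94Fixed



/-- A fixed-point-free element of order 3 of the group of the length-24 code maps to themselves exactly 7 sextets and exactly 15 trios. -/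
theorem result (g : Equiv.Perm Cfsg.GolayPt) (hg : g ∈ Cfsg.M24) (h₃ : orderOf g = 3) (h₀ : ∀ p, g p ≠ p) : {S : Finset (Finset Cfsg.GolayPt) | S ∈ Cfsg.sextets ∧ g • S = S}.ncard = 7 ∧ {T : Finset (Finset Cfsg.GolayPt) | T ∈ Cfsg.trios ∧ g • T = T}.ncard = 15 := by
  have g3 : g ^ 3 = 1 := h₃ ▸ pow_orderOf_eq_one g
  obtain ⟨k, hk, e⟩ := class3B hg g3 h₀
  obtain ⟨_, c2, c3, _⟩ := counts g3B_in hk e
  rw [c2, c3]
  exact ⟨cnt3B.2.2.1, cnt3B.2.1⟩

end Cfsg.Agent.S5603
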