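import Cfsg.Statements.S5604
import Cfsg.Agent.Lib.Helper94M24E
import Cfsg.Agent.Lib.Helper10Trio

set_option autoImplicit false
open scoped Pointwise
open Cfsg

namespace Cfsg.Agent.S5604

open Cfsg Cfsg.Agent.Lib.Helper33Golay Cfsg.Agent.Lib.Helper94M24A Cfsg.Agent.Lib.Helper94M24B
  Cfsg.Agent.Lib.Helper94M24C Cfsg.Agent.Lib.Helper94M24D Cfsg.Agent.Lib.Helper94M24E
  Cfsg.Agent.Lib.Helper10Trio

def s7 : ℕ := 5663489578210010945694498206288961
def pw2 : ℕ := 57954631780487655956984020071826530
def pw3 : ℕ := 111112608079384812348041678307441187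
def pw4 : ℕ := 139802433021914922705865605329739217
def pw5 : ℕ := 732303195115854665262052666508346094
def pw6 : ℕ := 606702194913101391654213034008708119

theorem pw_in : [s7, pw2, pw3, pw4, pw5, pw6].all inM24 = true := by decide +kernel

theorem pw_ok : mulP s7 s7 = pw2 ∧ mulP s7 pw2 = pw3 ∧ mulP s7 pw3 = pw4 ∧ mulP s7 pw4 = pw5 ∧
    mulP s7 pw5 = pw6 ∧ mulP s7 pw6 = idP := by decide +kernel

noncomputable abbrev G : Equiv.Perm GolayPt := toPerm s7

theorem in_of {P : ℕ} (h : P ∈ [s7, pw2, pw3, pw4, pw5, pw6]) : inM24 P = true :=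
  List.all_eq_true.1 pw_in P h

theorem v1 : validPerm s7 = true := inM24_valid (in_of (by simp))
theorem v2 : validPerm pw2 = true := inM24_valid (in_of (by simp))
theorem v3 : validPerm pw3 = true := inM24_valid (in_of (by simp))
theorem v4 : validPerm pw4 = true := inM24_valid (in_of (by simp))
theorem v5 : validPerm pw5 = true := inM24_valid (in_of (by simp))
theorem v6 : validPerm pw6 = true := inM24_valid (in_of (by simp))

theorem G2 : toPerm pw2 = G ^ 2 := by rw [← pw_ok.1, toPerm_mulP v1 v1, pow_two]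
theorem G3 : toPerm pw3 = G ^ 3 := by rw [← pw_ok.2.1, toPerm_mulP v1 v2, G2, pow_succ' G 2]
theorem G4 : toPerm pw4 = G ^ 4 := by rw [← pw_ok.2.2.1, toPerm_mulP v1 v3, G3, pow_succ' G 3]
theorem G5 : toPerm pw5 = G ^ 5 := by rw [← pw_ok.2.2.2.1, toPerm_mulP v1 v4, G4, pow_succ' G 4]
theorem G6 : toPerm pw6 = G ^ 6 := by rw [← pw_ok.2.2.2.2.1, toPerm_mulP v1 v5, G5, pow_succ' G 5]
theorem G7 : G ^ 7 = 1 := by
  rw [pow_succ' G 6, ← G6, ← toPerm_mulP v1 v6, pw_ok.2.2.2.2.2, toPerm_idP]

theorem G_ne : G ≠ 1 := by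
  intro e
  have := (toPerm_eq_one_iff v1).1 e
  revert this
  decide +kernel

theorem G_inv : G⁻¹ = toPerm pw6 := by
  rw [G6, inv_eq_iff_mul_eq_one, ← pow_succ' G 6, G7]

/-- `R ^ 7 = 1` -/
def isPow7 (R : ℕ) : Bool :=
  Nat.beq (mulP (mulP (mulP (mulP R R) (mulP R R)) (mulP R R)) R) idP

theorem isPow7_of {R : ℕ} (hR : validPerm R = true) (h : toPerm R ^ 7 = 1) : isPow7 R = true := by
  unfold isPow7
  have w2 := valid_mulP hR hR
  have w4 := valid_mulP w2 w2
  have w6 := valid_mulP w4 w2
  have e : toPerm (mulP (mulP (mulP (mulP R R) (mulP R R)) (mulP R R)) R) = toPerm idP := by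
    rw [toPerm_mulP w6 hR, toPerm_mulP w4 w2, toPerm_mulP w2 w2, toPerm_mulP hR hR, toPerm_idP, ← h]
    simp only [pow_succ, pow_zero, one_mul, mul_assoc]
  rw [toPerm_injOn (normP_mulP w6 hR) normP_idP e]; exact Nat.beq_refl _

def C7a : List (ℕ × ℕ) := [(13893909511240263754881787875200065, 972606645568131968584696805283956768), (28988935646908548941592623437745217, 975728708050008715525885598301784096), (20004254051986914690309580871863361, 969836898326968551397880902883313696), (17495608181065864749045225959361601, 964862721552653238424309835408443424), (11246132810844009819411152252341313, 983271302155371035984055114495264800), (27598660907007277733160536588323905, 966320096358733541442380578386184224), (15844747036600220001708861812804673, 967365292857695660364575527991871520), (8298219996035718065459074119666753, 961029066359601346093702817927759904), (20214483273025177701648087360408641, 966039336168793943308839874394687520), (23988520514824015749225147323059265, 972679049849814778609582601333213216),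 (12194976484672883659518627459566657, 961409415667826064667231448532617248), (15952375787409175082607756137925697, 970452748381697609285226999098476576), (10003493310771123100341277735455809, 976531636853126291160407323722221600), (28858482531270983553936244572884033, 979037747421335847153138073498388512), (27916527776219117510754140829453377, 971828115858035635643548061566863392), (21626939432449095396571663615593537, 984559288045672395699075860841728032), (16488783756089512994629202070768705, 981818691054096003685363657089320992), (14466924375493451398472786921425985, 963721886883755259286232606933354528), (29071200128141403312273323535666241, 979121071158219704299181131031480352), (5663489578210010945694498206288961, 984818244535754528103549039458486304), (25480620653505454915866410993880129, 980224387687010295957922729495201824), (27896684719369333042262522661997633, 968708902336673183175954409307867168), (26746763449188315142021667417001025, 976448692869377735270425038196672544), (20338986500447249140105892972760129,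 971592882964418941354553515258775584)]
def C7b : List (ℕ × ℕ) := [(29429033004218522244815687254182977, 61767954344216201053583197454514912), (8326766658895803500613855644650561, 59197626875504127725283936793311968), (9759154893309751776970966210612289, 54982413817520725790218447110060768), (5989023361288815337814165657128001, 70399517266989698878741375203457760), (10798348618377404094574795718560833, 47000071215867577691587457914026720), (19986198467811212897138757412752449, 53728917821246698256649065366862560), (26413135019942209255246394070043713, 63170999690110143998647681956756192), (23739747788019217853377101856672833, 67829818663770674070892480765147872), (26214638994276361891478894922894401, 55432157297337282400638330109213408), (29298746237155054986850648050830401, 61542386709773537040655560127068896), (16243168131327227734387638690843713, 53400508309842036128994145051654880), (25080965685750551170155184839396417, 68177242712682697906393518702115552), (10575045511773199280323441420864577,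 63131836108298097476367300410522336), (9720676235099772837224420645211201, 47115531281498277776927178984307424), (12559135328925885531021300054035521, 59033484585528172288367846790576864), (17336765616481856487196109896617025, 70527848206164699849215408073128672), (10682672560497224499426596081929281, 56725208003126554035046458814151392), (9438260563583757837996157622062145, 69633837653034552005718048057637600), (29389929728375045353329577263926337, 65442000614017694403225148244671200), (26866843294111176929677919797152833, 49701674725536172372134757704186592), (27715025338156813233981105722920001, 57291875062116175831698055133444832), (15141348828070723788242276964666433, 66837520531253302507257256735193824), (13655896277250042432647277545294913, 52595432597705873056906564955847392), (21203215604956275722738609107274817, 51038330575769896237398194695748320)]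

theorem chk7 : (search (okImg 0 1 2 3 isPow7)).all (fun c => certOK s7 C7a c || certOK pw6 C7b c) = true := by
  decide +kernel

theorem fix_of_pow {g : Equiv.Perm GolayPt} (h7 : g ^ 7 = 1) {p : GolayPt} (d m : ℕ) (hdm : d * m % 7 = 1)
    (h : (g ^ d) p = p) : g p = p := by
  have h1 : ((g ^ d) ^ m) p = p := Equiv.Perm.pow_apply_eq_self_of_apply_eq_self h m
  have h2 : (g ^ d) ^ m = g := by
    rw [← pow_mul, ← Nat.div_add_mod (d * m) 7, hdm, pow_add, pow_mul, h7, one_pow, one_mul, pow_one]
  rwa [h2] at h1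

/-- an element of order 7 is conjugate to `s7` or to its inverse -/
theorem class7 {g : Equiv.Perm GolayPt} (hg : g ∈ M24) (h7 : g ^ 7 = 1) (hne : g ≠ 1) :
    ∃ k ∈ M24, k * g * k⁻¹ = G ∨ k * g * k⁻¹ = G⁻¹ := by
  obtain ⟨p, hp⟩ : ∃ p, g p ≠ p := by
    by_contra hcon
    push Not at hcon
    exact hne (Equiv.ext hcon)
  have n1 : ∀ q, g q = q → g p = p → False := fun _ _ h => hp h
  have d1 : (g ^ 1) p ≠ p := fun h => hp (fix_of_pow h7 1 1 (by norm_num) h)
  have d2 : (g ^ 2) p ≠ p := fun h => hp (fix_of_pow h7 2 4 (by norm_num) h)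
  have d3 : (g ^ 3) p ≠ p := fun h => hp (fix_of_pow h7 3 5 (by norm_num) h)
  have d4 : (g ^ 4) p ≠ p := fun h => hp (fix_of_pow h7 4 2 (by norm_num) h)
  have key : ∀ i j : ℕ, (g ^ (i + j)) p = (g ^ i) p → (g ^ j) p = p := by
    intro i j h
    rw [pow_add, Equiv.Perm.mul_apply] at h
    exact (g ^ i).injective h
  obtain ⟨k, hk, k0, k1, k2, k3, k4⟩ := exists_std5 p ((g ^ 1) p) ((g ^ 2) p) ((g ^ 3) p) ((g ^ 4) p) (by
    simp only [List.nodup_cons, List.mem_cons, List.not_mem_nil, or_false, not_or,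
      not_false_eq_true, List.nodup_nil, and_true]
    refine ⟨⟨d1.symm, d2.symm, d3.symm, d4.symm⟩, ⟨fun h => d1 (key 1 1 h.symm), fun h => d2 (key 1 2 h.symm),
      fun h => d3 (key 1 3 h.symm)⟩, ⟨fun h => d1 (key 2 1 h.symm), fun h => d2 (key 2 2 h.symm)⟩,
      fun h => d1 (key 3 1 h.symm)⟩)
  have st : ∀ i : ℕ, g ((g ^ i) p) = (g ^ (i + 1)) p := by
    intro i; rw [pow_succ' g i, Equiv.Perm.mul_apply]
  have hM : k * g * k⁻¹ ∈ M24 := M24.mul_mem (M24.mul_mem hk hg) (M24.inv_mem hk)
  obtain ⟨c', hc', e'⟩ := pat_sound isPow7 (v23 := 0) (v0 := 1)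
    (v1 := 2) (v2 := 3) (by norm_num) (by norm_num) (by norm_num) (by norm_num) hM
    (conj_apply k g k0 k1 (by simp)) (conj_apply k g k1 k2 (st 1)) (conj_apply k g k2 k3 (st 2))
    (conj_apply k g k3 k4 (st 3))
    (by
      intro R hR h
      exact isPow7_of hR.1 (h ▸ conj_pow_eq_one h7))
  have hchk := List.all_eq_true.1 chk7 c' hc'
  rw [Bool.or_eq_true] at hchk
  rcases hchk with hchk | hchk
  · obtain ⟨l, hl, hl'⟩ := conj_of_certOK v1 (search_good _ hc').1.1 hchk
    rw [← e'] at hl'
    exact ⟨l * k, M24.mul_mem hl hk, Or.inl (conj_conj hl')⟩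
  · obtain ⟨l, hl, hl'⟩ := conj_of_certOK v6 (search_good _ hc').1.1 hchk
    rw [← e'] at hl'
    exact ⟨l * k, M24.mul_mem hl hk, Or.inr (by rw [G_inv]; exact conj_conj hl')⟩

/-- the elements `n` with `n * s7 = P * n` -/
def NL (P : ℕ) : List ℕ := search (okLv (fun l R => okRel s7 P l R) (fun R => relB s7 P R))

def Nall : List ℕ := NL s7 ++ (NL pw2 ++ (NL pw3 ++ (NL pw4 ++ (NL pw5 ++ NL pw6))))

def Tc : ℕ := 2402701777519073634240
def c1 : ℕ := 8210869360952587038295972367600705
def c2 : ℕ := 196112463732071374847764382624657068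

theorem Nall_ok : Nall.length = 126 ∧ nodupB Nall = true ∧ (NL s7).length = 42 ∧
    Nall.all (fun n => Nat.beq (actT n Tc) Tc) = true := by decide +kernel

theorem Tc_mem : Tc ∈ trioL := mem_trioL_iff.2 (validT_iff.1 (by decide +kernel))

theorem c12_ok : inM24 c1 = true ∧ inM24 c2 = true ∧ relB s7 s7 c1 = true ∧ relB s7 s7 c2 = true ∧
    eqP (mulP c1 c2) (mulP c2 c1) = false := by decide +kernel

theorem mem_NL {P : ℕ} (hP : validPerm P = true) {n : Equiv.Perm GolayPt} (hn : n ∈ M24)
    (h : n * G = toPerm P * n) : ∃ c ∈ NL P, n = toPerm c := by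
  apply lv_sound _ _ hn
  · intro l R hl hR ha
    exact okRel_sound v1 hP h hl hR ha
  · intro R hR e
    exact (relB_iff v1 hP hR.1).2 (e ▸ h)

theorem NL_spec {P c : ℕ} (hP : validPerm P = true) (hc : c ∈ NL P) :
    Good c ∧ normP c = true ∧ toPerm c * G = toPerm P * toPerm c := by
  obtain ⟨h1, h2, h3⟩ := lv_fin hc
  exact ⟨h1, h2, (relB_iff v1 hP h1.1).1 h3⟩

/-- normalising condition -/
def QN (g n : Equiv.Perm GolayPt) : Prop := ∃ j : ℕ, n * g * n⁻¹ = g ^ j

theorem Nall_spec {c : ℕ} (hc : c ∈ Nall) : Good c ∧ normP c = true ∧ QN G (toPerm c) := by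
  simp only [Nall, List.mem_append] at hc
  rcases hc with h | h | h | h | h | h
  · obtain ⟨a, b, e⟩ := NL_spec v1 h
    exact ⟨a, b, 1, by rw [e, mul_inv_cancel_right, pow_one]⟩
  · obtain ⟨a, b, e⟩ := NL_spec v2 h
    exact ⟨a, b, 2, by rw [e, mul_inv_cancel_right, G2]⟩
  · obtain ⟨a, b, e⟩ := NL_spec v3 h
    exact ⟨a, b, 3, by rw [e, mul_inv_cancel_right, G3]⟩
  · obtain ⟨a, b, e⟩ := NL_spec v4 h
    exact ⟨a, b, 4, by rw [e, mul_inv_cancel_right, G4]⟩
  · obtain ⟨a, b, e⟩ := NL_spec v5 h
    exact ⟨a, b, 5, by rw [e, mul_inv_cancel_right, G5]⟩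
  · obtain ⟨a, b, e⟩ := NL_spec v6 h
    exact ⟨a, b, 6, by rw [e, mul_inv_cancel_right, G6]⟩

theorem mem_Nall {n : Equiv.Perm GolayPt} (hn : n ∈ M24) (h : QN G n) : ∃ c ∈ Nall, n = toPerm c := by
  obtain ⟨j, hj⟩ := h
  have hj' : n * G = G ^ (j % 7) * n := by
    have e : G ^ j = G ^ (j % 7) := by
      conv_lhs => rw [← Nat.div_add_mod j 7, pow_add, pow_mul, G7, one_pow, one_mul]
    rw [← e, ← hj]; group
  have hlt : j % 7 < 7 := Nat.mod_lt _ (by norm_num)
  simp only [Nall, List.mem_append]
  generalize j % 7 = r at hj' hlt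
  interval_cases r
  · exfalso
    rw [pow_zero, one_mul] at hj'
    exact G_ne (mul_eq_left.1 hj')
  · obtain ⟨c, hc, e⟩ := mem_NL v1 hn (by rw [hj', pow_one])
    exact ⟨c, Or.inl hc, e⟩
  · obtain ⟨c, hc, e⟩ := mem_NL v2 hn (by rw [hj', G2])
    exact ⟨c, Or.inr (Or.inl hc), e⟩
  · obtain ⟨c, hc, e⟩ := mem_NL v3 hn (by rw [hj', G3])
    exact ⟨c, Or.inr (Or.inr (Or.inl hc)), e⟩
  · obtain ⟨c, hc, e⟩ := mem_NL v4 hn (by rw [hj', G4])
    exact ⟨c, Or.inr (Or.inr (Or.inr (Or.inl hc))), e⟩
  · obtain ⟨c, hc, e⟩ := mem_NL v5 hn (by rw [hj', G5])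
    exact ⟨c, Or.inr (Or.inr (Or.inr (Or.inr (Or.inl hc)))), e⟩
  · obtain ⟨c, hc, e⟩ := mem_NL v6 hn (by rw [hj', G6])
    exact ⟨c, Or.inr (Or.inr (Or.inr (Or.inr (Or.inr hc)))), e⟩

theorem card_N0 : Nat.card {n : Equiv.Perm GolayPt // n ∈ M24 ∧ QN G n} = 126 := by
  rw [card_of_list (QN G) Nall (nodup_of_nodupB Nall_ok.2.1) (fun c hc => (Nall_spec hc).2.1)
    (fun c hc => ⟨(Nall_spec hc).1.2, (Nall_spec hc).2.2⟩) (fun g hg hQ => mem_Nall hg hQ), Nall_ok.1]

theorem card_C0 : Nat.card {n : Equiv.Perm GolayPt // n ∈ M24 ∧ n * G = G * n} = 42 := by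
  have hnd : (NL s7).Nodup := by
    have := nodup_of_nodupB Nall_ok.2.1
    exact (List.nodup_append.1 this).1
  rw [card_of_list (fun n => n * G = G * n) (NL s7) hnd (fun c hc => (NL_spec v1 hc).2.1)
    (fun c hc => ⟨(NL_spec v1 hc).1.2, (NL_spec v1 hc).2.2⟩) (fun g hg hQ => mem_NL v1 hg hQ),
    Nall_ok.2.2.1]

theorem fix_T0 {n : Equiv.Perm GolayPt} (hn : n ∈ M24) (h : QN G n) : n • trioOf Tc = trioOf Tc := by
  obtain ⟨c, hc, rfl⟩ := mem_Nall hn h
  rw [smul_trioOf (Nall_spec hc).1.1, Nat.eq_of_beq_eq_true (List.all_eq_true.1 Nall_ok.2.2.2 c hc)]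

/-! ### translation to subgroups of the group of the code -/

theorem exists_gen (X : Subgroup ↥M24) (hX : Nat.card X = 7) :
    ∃ x : ↥M24, x ^ 7 = 1 ∧ x ≠ 1 ∧ X = Subgroup.zpowers x := by
  have hne : X ≠ ⊥ := by
    intro h
    rw [h, Subgroup.card_bot] at hX
    omega
  obtain ⟨x, hx, hx1⟩ : ∃ x : ↥M24, x ∈ X ∧ x ≠ 1 := by
    obtain ⟨a, h⟩ := Subgroup.ne_bot_iff_exists_ne_one.1 hne
    exact ⟨(a : ↥M24), a.2, fun e => h (Subtype.ext e)⟩
  have h3 : x ^ 7 = 1 := by
    have := pow_card_eq_one' (G := X) (x := ⟨x, hx⟩)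
    rw [hX] at this
    exact congrArg Subtype.val this
  refine ⟨x, h3, hx1, ?_⟩
  have : Fact (Nat.Prime 7) := ⟨by norm_num⟩
  have ho : orderOf x = 7 := orderOf_eq_prime h3 hx1
  symm
  apply Subgroup.eq_of_le_of_card_ge ((Subgroup.zpowers_le).2 hx)
  rw [Nat.card_zpowers, ho, hX]

theorem mem_norm_iff (y n : ↥M24) :
    n ∈ Subgroup.normalizer ((Subgroup.zpowers y : Subgroup ↥M24) : Set ↥M24) ↔
      QN (y : Equiv.Perm GolayPt) (n : Equiv.Perm GolayPt) := by
  constructor
  · intro h
    have h1 := (Subgroup.mem_normalizer_iff.1 h y).1 (Subgroup.mem_zpowers y)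
    rw [← mem_powers_iff_mem_zpowers] at h1
    obtain ⟨j, hj⟩ := h1
    exact ⟨j, by
      have := congrArg Subtype.val hj
      simpa using this.symm⟩
  · rintro ⟨j, hj⟩
    have hj' : n * y * n⁻¹ = y ^ j := Subtype.ext (by simpa using hj)
    apply Subgroup.mem_normalizer_fintype
    rintro m ⟨i, rfl⟩
    show n * y ^ i * n⁻¹ ∈ Subgroup.zpowers y
    rw [← conj_zpow, hj']
    exact Subgroup.zpow_mem _ (Subgroup.pow_mem _ (Subgroup.mem_zpowers y) j) i

theorem mem_cent_iff (y c : ↥M24) :
    c ∈ Subgroup.centralizer ((Subgroup.zpowers y : Subgroup ↥M24) : Set ↥M24) ↔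
      (c : Equiv.Perm GolayPt) * y = y * c := by
  rw [Subgroup.mem_centralizer_iff]
  constructor
  · intro h
    have := h y (Subgroup.mem_zpowers y)
    exact (congrArg Subtype.val this).symm
  · intro h
    have h' : Commute c y := Subtype.ext h
    rintro m ⟨i, rfl⟩
    exact (h'.zpow_right i).eq.symm

theorem QN_conj {g n k : Equiv.Perm GolayPt} : QN (k * g * k⁻¹) (k * n * k⁻¹) ↔ QN g n := by
  constructor
  · rintro ⟨j, hj⟩
    refine ⟨j, ?_⟩
    rw [conj_pow] at hj
    have h1 : k * (n * g * n⁻¹) * k⁻¹ = k * g ^ j * k⁻¹ := by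
      rw [← hj]; group
    exact mul_left_cancel (mul_right_cancel h1)
  · rintro ⟨j, hj⟩
    refine ⟨j, ?_⟩
    rw [conj_pow, ← hj]; group

theorem comm_conj {c t k : Equiv.Perm GolayPt} : (k * c * k⁻¹) * (k * t * k⁻¹) = (k * t * k⁻¹) * (k * c * k⁻¹) ↔
    c * t = t * c := by
  constructor
  · intro h
    have h1 : k * (c * t) * k⁻¹ = k * (t * c) * k⁻¹ := by
      calc k * (c * t) * k⁻¹ = (k * c * k⁻¹) * (k * t * k⁻¹) := by group
        _ = (k * t * k⁻¹) * (k * c * k⁻¹) := h
        _ = k * (t * c) * k⁻¹ := by group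
    exact mul_left_cancel (mul_right_cancel h1)
  · intro h
    calc (k * c * k⁻¹) * (k * t * k⁻¹) = k * (c * t) * k⁻¹ := by group
      _ = k * (t * c) * k⁻¹ := by rw [h]
      _ = (k * t * k⁻¹) * (k * c * k⁻¹) := by group

theorem conjM {k : Equiv.Perm GolayPt} (hk : k ∈ M24) (c : Equiv.Perm GolayPt) :
    k * c * k⁻¹ ∈ M24 ↔ c ∈ M24 := by
  constructor
  · intro h
    have := M24.mul_mem (M24.mul_mem (M24.inv_mem hk) h) hk
    simpa [mul_assoc] using this
  · intro h; exact M24.mul_mem (M24.mul_mem hk h) (M24.inv_mem hk)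

/-- the statement for a generator conjugate to `s7` -/
theorem main (y : ↥M24) (k : Equiv.Perm GolayPt) (hk : k ∈ M24) (e : k * (y : Equiv.Perm GolayPt) * k⁻¹ = G) :
    Nat.card ↥(Subgroup.normalizer ((Subgroup.zpowers y : Subgroup ↥M24) : Set ↥M24)) = 126 ∧
    Nat.card ↥(Subgroup.centralizer ((Subgroup.zpowers y : Subgroup ↥M24) : Set ↥M24)) = 42 ∧
    (∃ a ∈ Subgroup.centralizer ((Subgroup.zpowers y : Subgroup ↥M24) : Set ↥M24),
      ∃ b ∈ Subgroup.centralizer ((Subgroup.zpowers y : Subgroup ↥M24) : Set ↥M24), a * b ≠ b * a) ∧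
    ∃ T ∈ trios, ∀ n ∈ Subgroup.normalizer ((Subgroup.zpowers y : Subgroup ↥M24) : Set ↥M24),
      ((n : ↥M24) : Equiv.Perm GolayPt) • T = T := by
  refine ⟨?_, ?_, ?_, ?_⟩
  · rw [← card_N0]
    apply Nat.card_congr
    exact
      { toFun := fun n => ⟨k * (n.1 : Equiv.Perm GolayPt) * k⁻¹, (conjM hk _).2 n.1.2, by
          rw [← e]; exact QN_conj.2 ((mem_norm_iff y n.1).1 n.2)⟩
        invFun := fun n => ⟨⟨k⁻¹ * n.1 * k, M24.mul_mem (M24.mul_mem (M24.inv_mem hk) n.2.1) hk⟩, by
          rw [mem_norm_iff]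
          apply (QN_conj (k := k)).1
          rw [e]
          have : k * (k⁻¹ * n.1 * k) * k⁻¹ = n.1 := by group
          show QN G (k * (k⁻¹ * n.1 * k) * k⁻¹)
          rw [this]; exact n.2.2⟩
        left_inv := fun n => by
          apply Subtype.ext; apply Subtype.ext
          show k⁻¹ * (k * (n.1 : Equiv.Perm GolayPt) * k⁻¹) * k = n.1
          group
        right_inv := fun n => by
          apply Subtype.ext
          show k * (k⁻¹ * n.1 * k) * k⁻¹ = n.1
          group }
  · rw [← card_C0]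
    apply Nat.card_congr
    exact
      { toFun := fun n => ⟨k * (n.1 : Equiv.Perm GolayPt) * k⁻¹, (conjM hk _).2 n.1.2, by
          rw [← e]; exact comm_conj.2 ((mem_cent_iff y n.1).1 n.2)⟩
        invFun := fun n => ⟨⟨k⁻¹ * n.1 * k, M24.mul_mem (M24.mul_mem (M24.inv_mem hk) n.2.1) hk⟩, by
          rw [mem_cent_iff]
          apply (comm_conj (k := k)).1
          rw [e]
          have : k * (k⁻¹ * n.1 * k) * k⁻¹ = n.1 := by group
          show (k * (k⁻¹ * n.1 * k) * k⁻¹) * G = G * (k * (k⁻¹ * n.1 * k) * k⁻¹)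
          rw [this]; exact n.2.2⟩
        left_inv := fun n => by
          apply Subtype.ext; apply Subtype.ext
          show k⁻¹ * (k * (n.1 : Equiv.Perm GolayPt) * k⁻¹) * k = n.1
          group
        right_inv := fun n => by
          apply Subtype.ext
          show k * (k⁻¹ * n.1 * k) * k⁻¹ = n.1
          group }
  · obtain ⟨i1, i2, r1, r2, hne⟩ := c12_ok
    have w1 := inM24_valid i1
    have w2 := inM24_valid i2
    have mk : ∀ P, ∀ hP : inM24 P = true, relB s7 s7 P = true →
        (⟨k⁻¹ * toPerm P * k, M24.mul_mem (M24.mul_mem (M24.inv_mem hk) (toPerm_mem_M24 hP)) hk⟩ : ↥M24) ∈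
          Subgroup.centralizer ((Subgroup.zpowers y : Subgroup ↥M24) : Set ↥M24) := by
      intro P hP hr
      rw [mem_cent_iff]
      apply (comm_conj (k := k)).1
      rw [e]
      have : k * (k⁻¹ * toPerm P * k) * k⁻¹ = toPerm P := by group
      show (k * (k⁻¹ * toPerm P * k) * k⁻¹) * G = G * (k * (k⁻¹ * toPerm P * k) * k⁻¹)
      rw [this]; exact (relB_iff v1 v1 (inM24_valid hP)).1 hr
    refine ⟨_, mk c1 i1 r1, _, mk c2 i2 r2, ?_⟩
    intro h
    have h' : (k⁻¹ * toPerm c1 * k) * (k⁻¹ * toPerm c2 * k) = (k⁻¹ * toPerm c2 * k) * (k⁻¹ * toPerm c1 * k) :=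
      congrArg Subtype.val h
    have h2 : toPerm c1 * toPerm c2 = toPerm c2 * toPerm c1 := by
      have h3 : k⁻¹ * (toPerm c1 * toPerm c2) * k = k⁻¹ * (toPerm c2 * toPerm c1) * k := by
        calc k⁻¹ * (toPerm c1 * toPerm c2) * k = (k⁻¹ * toPerm c1 * k) * (k⁻¹ * toPerm c2 * k) := by group
          _ = (k⁻¹ * toPerm c2 * k) * (k⁻¹ * toPerm c1 * k) := h'
          _ = k⁻¹ * (toPerm c2 * toPerm c1) * k := by group
      exact mul_left_cancel (mul_right_cancel h3)
    rw [← toPerm_mulP w1 w2, ← toPerm_mulP w2 w1, toPerm_eq_iff (valid_mulP w1 w2) (valid_mulP w2 w1),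
      hne] at h2
    exact absurd h2 (by simp)
  · refine ⟨k⁻¹ • trioOf Tc, smul_mem_trios (M24.inv_mem hk) (trioOf_mem (valid_of_mem Tc_mem)), ?_⟩
    intro n hn
    have h1 : QN G (k * (n : Equiv.Perm GolayPt) * k⁻¹) := by
      rw [← e]; exact QN_conj.2 ((mem_norm_iff y n).1 hn)
    have h2 := fix_T0 ((conjM hk _).2 n.2) h1
    rw [smul_smul]
    have e2 : (n : Equiv.Perm GolayPt) * k⁻¹ = k⁻¹ * (k * (n : Equiv.Perm GolayPt) * k⁻¹) := by group
    rw [e2, mul_smul, h2]



/-- For a subgroup S of order 7 of the group of the length-24 code (a Sylow 7-subgroup): the normaliser of S has order 126, the centraliser of S has order 42 and is non-abelian, and the whole normaliser leaves some trio invariant. (These are the orders of a Frobenius group of order 21 times a symmetric group of degree 3; the isomorphism type itself is not asserted here.) -/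
theorem result (S : Subgroup ↥Cfsg.M24) (hS : Nat.card S = 7) : Nat.card ↥(Subgroup.normalizer (S : Set ↥Cfsg.M24)) = 126 ∧ Nat.card ↥(Subgroup.centralizer (S : Set ↥Cfsg.M24)) = 42 ∧ (∃ x ∈ Subgroup.centralizer (S : Set ↥Cfsg.M24), ∃ y ∈ Subgroup.centralizer (S : Set ↥Cfsg.M24), x * y ≠ y * x) ∧ ∃ T ∈ Cfsg.trios, ∀ n ∈ Subgroup.normalizer (S : Set ↥Cfsg.M24), ((n : ↥Cfsg.M24) : Equiv.Perm Cfsg.GolayPt) • T = T := by
  obtain ⟨x, h7, hne, rfl⟩ := exists_gen S hS
  have h7' : (x : Equiv.Perm GolayPt) ^ 7 = 1 := by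
    have := congrArg Subtype.val h7
    simpa using this
  have hne' : (x : Equiv.Perm GolayPt) ≠ 1 := fun e => hne (Subtype.ext e)
  obtain ⟨k, hk, e | e⟩ := class7 x.2 h7' hne'
  · exact main x k hk e
  · have := main x⁻¹ k hk (by
      have : k * ((x⁻¹ : ↥M24) : Equiv.Perm GolayPt) * k⁻¹ = (k * (x : Equiv.Perm GolayPt) * k⁻¹)⁻¹ := by
        simp only [InvMemClass.coe_inv]; group
      rw [this, e, inv_inv])
    rwa [Subgroup.zpowers_inv] at this

end Cfsg.Agent.S5604
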