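import Cfsg.Statements.S5605
import Cfsg.Agent.Lib.Helper94Fixed

set_option autoImplicit false
open scoped Pointwise
open Cfsg

namespace Cfsg.Agent.S5605

open Cfsg Cfsg.Agent.Lib.Helper33Golay Cfsg.Agent.Lib.Helper94M24A Cfsg.Agent.Lib.Helper94M24B
  Cfsg.Agent.Lib.Helper94M24C Cfsg.Agent.Lib.Helper94M24D Cfsg.Agent.Lib.Helper94Fixed



/-- An involution of the group of the length-24 code with exactly 8 fixed points maps to themselves exactly 71 octads, exactly 99 trios and exactly 91 sextets. -/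
theorem result (g : Equiv.Perm Cfsg.GolayPt) (hg : g ∈ Cfsg.M24) (h₂ : orderOf g = 2) (h₈ : (Finset.univ.filter fun p => g p = p).card = 8) : {o : Finset Cfsg.GolayPt | o ∈ Cfsg.octads ∧ g • o = o}.ncard = 71 ∧ {T : Finset (Finset Cfsg.GolayPt) | T ∈ Cfsg.trios ∧ g • T = T}.ncard = 99 ∧ {S : Finset (Finset Cfsg.GolayPt) | S ∈ Cfsg.sextets ∧ g • S = S}.ncard = 91 := by
  have g2 : g ^ 2 = 1 := h₂ ▸ pow_orderOf_eq_one g
  have gne : g ≠ 1 := fun e => by rw [e, orderOf_one] at h₂; omega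
  have hf : ∃ p, g p = p := by
    have : (Finset.univ.filter fun p => g p = p).Nonempty := by
      rw [← Finset.card_pos, h₈]; norm_num
    obtain ⟨p, hp⟩ := this
    exact ⟨p, by simpa using hp⟩
  obtain ⟨k, hk, e⟩ := class2F hg g2 gne hf
  obtain ⟨c1, c2, c3, _⟩ := counts t2A_in hk e
  rw [c1, c2, c3]
  exact ⟨cnt2A.1, cnt2A.2.1, cnt2A.2.2.1⟩

end Cfsg.Agent.S5605
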