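import Cfsg.Statements.S5606
import Cfsg.Agent.Lib.Helper94Fixed

set_option autoImplicit false
open scoped Pointwise
open Cfsg

namespace Cfsg.Agent.S5606

open Cfsg Cfsg.Agent.Lib.Helper33Golay Cfsg.Agent.Lib.Helper94M24A Cfsg.Agent.Lib.Helper94M24B
  Cfsg.Agent.Lib.Helper94M24C Cfsg.Agent.Lib.Helper94M24D Cfsg.Agent.Lib.Helper94Fixed



/-- A fixed-point-free involution of the group of the length-24 code maps to themselves exactly 15 octads, exactly 75 trios and exactly 51 sextets. -/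
theorem result (g : Equiv.Perm Cfsg.GolayPt) (hg : g ∈ Cfsg.M24) (h₂ : orderOf g = 2) (h₀ : ∀ p, g p ≠ p) : {o : Finset Cfsg.GolayPt | o ∈ Cfsg.octads ∧ g • o = o}.ncard = 15 ∧ {T : Finset (Finset Cfsg.GolayPt) | T ∈ Cfsg.trios ∧ g • T = T}.ncard = 75 ∧ {S : Finset (Finset Cfsg.GolayPt) | S ∈ Cfsg.sextets ∧ g • S = S}.ncard = 51 := by
  have g2 : g ^ 2 = 1 := h₂ ▸ pow_orderOf_eq_one g
  obtain ⟨k, hk, e⟩ := class2B hg g2 h₀
  obtain ⟨c1, c2, c3, _⟩ := counts t2B_in hk e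
  rw [c1, c2, c3]
  exact ⟨cnt2B.1, cnt2B.2.1, cnt2B.2.2.1⟩

end Cfsg.Agent.S5606
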