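import Cfsg.Statements.S5607
import Cfsg.Agent.Lib.Helper94M24E
import Cfsg.Agent.Lib.Helper33Sextet

set_option autoImplicit false
open scoped Pointwise
open Cfsg

namespace Cfsg.Agent.S5607

open Cfsg Cfsg.Agent.Lib.Helper33Golay Cfsg.Agent.Lib.Helper94M24A Cfsg.Agent.Lib.Helper94M24B
  Cfsg.Agent.Lib.Helper94M24C Cfsg.Agent.Lib.Helper94M24D Cfsg.Agent.Lib.Helper94M24E
  Cfsg.Agent.Lib.Helper33Sets Cfsg.Agent.Lib.Helper33Sextet

/-- elements commuting with `t2B`, the `x`-th one moving the point 23 to `x` -/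
def W : List ℕ := [13524192199983079413396058521307191, 57992744716573326943018137275554818, 96524470318495512354940089332620289, 136650727326066278840902737588127781, 187492639660057741458667694946966540, 218914645743932732553402088631044131, 270310745346191740899778476924787727, 309408537508566021219403510566968340, 352088770947667870286763332916861968, 396648714806754287041854837684919315, 417345175754274547790074462664383509, 473191447432004614690516903707040790, 500636241310246507106460992187849732, 567642622974839244306527120187874322, 610350476018072830694293691168775185, 636747556736992272829365596375538694, 674446649982030826423892416819223560, 731001321779335031739719306908326926, 755935964445900906477276676472593421, 802309199553091194134225444992670729, 841898161773457223684377835243658247, 893608170023025604373679100341246986, 936284935957358531208407938177981451, 984818244535754528103549039458486304]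

theorem W_ok : r24.all (fun x => inM24 (W.getD x 0) && relB t2B t2B (W.getD x 0) &&
    Nat.beq (img (W.getD x 0) 23) x) = true := by decide +kernel

/-- the elements commuting with `t2B` and fixing the point 23 -/
def C23 : List ℕ :=
  search (okLv (fun l R => okRel t2B t2B l R && okFix [23] l R)
    (fun R => relB t2B t2B R && Nat.beq (img R 23) 23))

theorem C23_len : C23.length = 320 := by decide +kernel

theorem C23_nodup : nodupB C23 = true := by decide +kernel

/-- a tetrad of the sextet fixed by the centraliser -/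
def t0 : ℕ := 147462

theorem t0_isK : isK 4 t0 = true := by decide +kernel

theorem fixS : (t2B :: (C23 ++ W)).all (fun c => Nat.beq (syn (app c t0)) (syn t0)) = true := by
  decide +kernel

theorem good_smul_sexOf {c : ℕ} (hc : Good c) {t : ℕ} (ht : isK 4 t = true) :
    toPerm c • sexOf (syn t) = sexOf (syn (app c t)) := by
  have h1 := (isK_iff.1 ht).1
  have := smul_sexOf hc.2 (t := dec t) (by rw [card_dec]; exact (isK_iff.1 ht).2)
  rwa [enc_dec h1, enc_smul hc.1, enc_dec h1] at this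

noncomputable abbrev T : Equiv.Perm GolayPt := toPerm t2B

theorem hvT : validPerm t2B = true := inM24_valid t2B_in

theorem W_spec {x : ℕ} (hx : x < 24) : ∃ w ∈ W, Good w ∧ toPerm w * T = T * toPerm w ∧
    toPerm w (pt 23) = pt x := by
  have := List.all_eq_true.1 W_ok x (mem_r24.2 hx)
  simp only [Bool.and_eq_true] at this
  obtain ⟨⟨h1, h2⟩, h3⟩ := this
  have hv := inM24_valid h1
  refine ⟨W.getD x 0, ?_, Good.of_inM24 h1, (relB_iff hvT hvT hv).1 h2, ?_⟩
  · rw [List.getD_eq_getElem _ _ (by simpa [W] using hx)]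
    exact List.getElem_mem _
  · rw [toPerm_pt hv (by norm_num), Nat.eq_of_beq_eq_true h3]

theorem mem_C23 {c : Equiv.Perm GolayPt} (hc : c ∈ M24) (h1 : c * T = T * c) (h2 : c (pt 23) = pt 23) :
    ∃ P ∈ C23, c = toPerm P := by
  apply lv_sound _ _ hc
  · intro l R hl hR ha
    rw [Bool.and_eq_true]
    refine ⟨okRel_sound hvT hvT h1 hl hR ha, okFix_sound ?_ hl hR ha⟩
    intro j hj
    rw [List.mem_singleton.1 hj, h2]
  · intro R hR h
    rw [Bool.and_eq_true]
    refine ⟨(relB_iff hvT hvT hR.1).2 (h ▸ h1), ?_⟩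
    have := h ▸ h2
    rw [toPerm_pt hR.1 (by norm_num)] at this
    rw [pt_injOn (img_lt hR.1 (by norm_num)) (by norm_num) this]; rfl

theorem C23_spec {P : ℕ} (hP : P ∈ C23) : Good P ∧ normP P = true ∧ toPerm P * T = T * toPerm P ∧
    toPerm P (pt 23) = pt 23 := by
  obtain ⟨h1, h2, h3⟩ := lv_fin hP
  rw [Bool.and_eq_true] at h3
  refine ⟨h1, h2, (relB_iff hvT hvT h1.1).1 h3.1, ?_⟩
  rw [toPerm_pt h1.1 (by norm_num), Nat.eq_of_beq_eq_true h3.2]

/-- decomposition of the centraliser -/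
theorem decomp {c : Equiv.Perm GolayPt} (hc : c ∈ M24) (h1 : c * T = T * c) :
    ∃ w ∈ W, ∃ P ∈ C23, c = toPerm w * toPerm P := by
  obtain ⟨w, hw, gw, cw, ew⟩ := W_spec (idx_lt (c (pt 23)))
  rw [pt_idx] at ew
  have hm : (toPerm w)⁻¹ * c ∈ M24 := M24.mul_mem (M24.inv_mem gw.2) hc
  have hcomm : (toPerm w)⁻¹ * c * T = T * ((toPerm w)⁻¹ * c) := by
    have e : (toPerm w)⁻¹ * T = T * (toPerm w)⁻¹ := by
      rw [inv_mul_eq_iff_eq_mul, ← mul_assoc, cw, mul_assoc, mul_inv_cancel, mul_one]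
    rw [mul_assoc, h1, ← mul_assoc, e, mul_assoc]
  have hfix : ((toPerm w)⁻¹ * c) (pt 23) = pt 23 := by
    rw [Equiv.Perm.mul_apply, ← ew]; simp
  obtain ⟨P, hP, e⟩ := mem_C23 hm hcomm hfix
  exact ⟨w, hw, P, hP, by rw [← e, mul_inv_cancel_left]⟩

theorem W_good {w : ℕ} (hw : w ∈ W) : Good w := by
  have : W.all inM24 = true := by decide +kernel
  exact Good.of_inM24 (List.all_eq_true.1 this w hw)

theorem fix_of_mem {c : ℕ} (hc : c ∈ t2B :: (C23 ++ W)) (hg : Good c) :
    toPerm c • sexOf (syn t0) = sexOf (syn t0) := by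
  rw [good_smul_sexOf hg t0_isK, Nat.eq_of_beq_eq_true (List.all_eq_true.1 fixS c hc)]

/-- the centraliser as a subgroup -/
def Cn : Subgroup (Equiv.Perm GolayPt) := M24 ⊓ Subgroup.centralizer {T}

theorem mem_Cn {c : Equiv.Perm GolayPt} : c ∈ Cn ↔ c ∈ M24 ∧ c * T = T * c := by
  rw [Cn, Subgroup.mem_inf, Subgroup.mem_centralizer_singleton_iff]

theorem trans_T (p q : GolayPt) : ∃ c ∈ M24, c * T = T * c ∧ c p = q := by
  obtain ⟨w, _, gw, cw, ew⟩ := W_spec (idx_lt p)
  obtain ⟨v, _, gv, cv, ev⟩ := W_spec (idx_lt q)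
  rw [pt_idx] at ew ev
  have hw : toPerm w ∈ Cn := mem_Cn.2 ⟨gw.2, cw⟩
  have hv : toPerm v ∈ Cn := mem_Cn.2 ⟨gv.2, cv⟩
  have := mem_Cn.1 (Cn.mul_mem hv (Cn.inv_mem hw))
  refine ⟨_, this.1, this.2, ?_⟩
  rw [Equiv.Perm.mul_apply, ← ew]; simp [ev]

theorem card_stab : Nat.card {c : Equiv.Perm GolayPt // c ∈ M24 ∧ (c * T = T * c ∧ c (pt 23) = pt 23)} = 320 := by
  rw [card_of_list (fun c => c * T = T * c ∧ c (pt 23) = pt 23) C23 (nodup_of_nodupB C23_nodup)
    (fun c hc => (C23_spec hc).2.1) (fun c hc => ⟨(C23_spec hc).1.2, (C23_spec hc).2.2⟩)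
    (fun g hg hQ => mem_C23 hg hQ.1 hQ.2), C23_len]

theorem card_Cn : Nat.card Cn = 7680 := by
  have h1 : (MulAction.orbit Cn (pt 23)).ncard = 24 := by
    have : MulAction.orbit Cn (pt 23) = Set.univ := by
      ext q
      simp only [Set.mem_univ, iff_true]
      obtain ⟨c, hc, h1, h2⟩ := trans_T (pt 23) q
      exact ⟨⟨c, mem_Cn.2 ⟨hc, h1⟩⟩, h2⟩
    rw [this, Set.ncard_univ, Nat.card_eq_fintype_card, Fintype.card_option, ZMod.card]
  have h3 := Subgroup.index_mul_card (MulAction.stabilizer Cn (pt 23))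
  rw [MulAction.index_stabilizer, h1] at h3
  have h4 : Nat.card (MulAction.stabilizer Cn (pt 23)) = 320 := by
    rw [← card_stab]
    apply Nat.card_congr
    exact
      { toFun := fun x => ⟨x.1.1, (mem_Cn.1 x.1.2).1, (mem_Cn.1 x.1.2).2, x.2⟩
        invFun := fun x => ⟨⟨x.1, mem_Cn.2 ⟨x.2.1, x.2.2.1⟩⟩, x.2.2.2⟩
        left_inv := fun x => rfl
        right_inv := fun x => rfl }
  rw [h4] at h3
  omega

theorem comm_conj {c t k : Equiv.Perm GolayPt} : (k * c * k⁻¹) * (k * t * k⁻¹) = (k * t * k⁻¹) * (k * c * k⁻¹) ↔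
    c * t = t * c := by
  constructor
  · intro h
    have h1 : k * (c * t) * k⁻¹ = k * (t * c) * k⁻¹ := by
      calc k * (c * t) * k⁻¹ = (k * c * k⁻¹) * (k * t * k⁻¹) := by group
        _ = (k * t * k⁻¹) * (k * c * k⁻¹) := h
        _ = k * (t * c) * k⁻¹ := by group
    exact mul_left_cancel (mul_right_cancel h1)
  · intro h
    calc (k * c * k⁻¹) * (k * t * k⁻¹) = k * (c * t) * k⁻¹ := by group
      _ = k * (t * c) * k⁻¹ := by rw [h]
      _ = (k * t * k⁻¹) * (k * c * k⁻¹) := by group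



/-- For a fixed-point-free involution t of the group of the length-24 code: its centraliser in that group has order 7680, is transitive on the 24 points, and is contained, together with t, in the stabiliser of some sextet. -/
theorem result (t : Equiv.Perm Cfsg.GolayPt) (ht : t ∈ Cfsg.M24) (h₂ : orderOf t = 2) (h₀ : ∀ p, t p ≠ p) : Nat.card {c : Equiv.Perm Cfsg.GolayPt // c ∈ Cfsg.M24 ∧ c * t = t * c} = 7680 ∧ (∀ p q : Cfsg.GolayPt, ∃ c ∈ Cfsg.M24, c * t = t * c ∧ c p = q) ∧ ∃ S ∈ Cfsg.sextets, t • S = S ∧ ∀ c ∈ Cfsg.M24, c * t = t * c → c • S = S := by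
  have t2 : t ^ 2 = 1 := h₂ ▸ pow_orderOf_eq_one t
  obtain ⟨k, hk, e⟩ := class2B ht t2 h₀
  change k * t * k⁻¹ = T at e
  have hconjM : ∀ c, k * c * k⁻¹ ∈ M24 ↔ c ∈ M24 := by
    intro c
    constructor
    · intro h
      have := M24.mul_mem (M24.mul_mem (M24.inv_mem hk) h) hk
      simpa [mul_assoc] using this
    · intro h; exact M24.mul_mem (M24.mul_mem hk h) (M24.inv_mem hk)
  have hcomm : ∀ c, (k * c * k⁻¹) * T = T * (k * c * k⁻¹) ↔ c * t = t * c := by
    intro c
    rw [← e]; exact comm_conj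
  refine ⟨?_, ?_, ?_⟩
  · rw [← card_Cn]
    apply Nat.card_congr
    exact Equiv.subtypeEquiv (MulAut.conj k).toEquiv (fun c => by
      show _ ↔ k * c * k⁻¹ ∈ Cn
      rw [mem_Cn, hconjM, hcomm])
  · intro p q
    obtain ⟨c, hc, h1, h2⟩ := trans_T (k p) (k q)
    refine ⟨k⁻¹ * c * k, M24.mul_mem (M24.mul_mem (M24.inv_mem hk) hc) hk, ?_, ?_⟩
    · rw [← hcomm]
      have : k * (k⁻¹ * c * k) * k⁻¹ = c := by group
      rw [this, h1]
    · simp [h2]
  · have hS0 : sexOf (syn t0) ∈ sextets := sexOf_mem_sextets (isSyn_syn t0_isK).1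
    refine ⟨k⁻¹ • sexOf (syn t0), smul_mem_sextets (M24.inv_mem hk) hS0, ?_, ?_⟩
    · have h1 : T • sexOf (syn t0) = sexOf (syn t0) :=
        fix_of_mem (by simp) (Good.of_inM24 t2B_in)
      have h2 : t = k⁻¹ * T * k := by rw [← e]; group
      rw [h2, smul_smul]
      have : k⁻¹ * T * k * k⁻¹ = k⁻¹ * T := by group
      rw [this, mul_smul, h1]
    · intro c hc hct
      obtain ⟨w, hw, P, hP, e'⟩ := decomp ((hconjM c).2 hc) ((hcomm c).2 hct)
      have h1 : (k * c * k⁻¹) • sexOf (syn t0) = sexOf (syn t0) := by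
        rw [e', mul_smul, fix_of_mem (by simp [hP]) (C23_spec hP).1, fix_of_mem (by simp [hw]) (W_good hw)]
      have h2 : c = k⁻¹ * (k * c * k⁻¹) * k := by group
      rw [h2, smul_smul]
      have : k⁻¹ * (k * c * k⁻¹) * k * k⁻¹ = k⁻¹ * (k * c * k⁻¹) := by group
      rw [this, mul_smul, h1]

end Cfsg.Agent.S5607
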