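import Cfsg.Statements.S5608
import Cfsg.Agent.Lib.Helper94M24E

set_option autoImplicit false
open scoped Pointwise
open Cfsg

namespace Cfsg.Agent.S5608

open Cfsg Cfsg.Agent.Lib.Helper33Golay Cfsg.Agent.Lib.Helper94M24A Cfsg.Agent.Lib.Helper94M24B
  Cfsg.Agent.Lib.Helper94M24C Cfsg.Agent.Lib.Helper94M24D Cfsg.Agent.Lib.Helper94M24E

/-- the involutions (and the identity) commuting with `t` -/
def invCent (t : ℕ) : List ℕ :=
  search (okLv (fun l R => okRel t t l R && okInv l R) (fun R => relB t t R && invB R))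

theorem chkA : (invCent g3A).all (fun c => Nat.beq c idP || Nat.beq (cntFix c) 8) = true := by
  decide +kernel

theorem chkB : (invCent g3B).all (fun c => Nat.beq c idP || Nat.beq (cntFix c) 0) = true := by
  decide +kernel

theorem mem_invCent {t : ℕ} (ht : validPerm t = true) {s : Equiv.Perm GolayPt} (hs : s ∈ M24)
    (h2 : s ^ 2 = 1) (hc : s * toPerm t = toPerm t * s) : ∃ c ∈ invCent t, s = toPerm c := by
  apply lv_sound _ _ hs
  · intro l R hl hR ha
    rw [Bool.and_eq_true]
    exact ⟨okRel_sound ht ht hc hl hR ha, okInv_sound h2 hl hR ha⟩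
  · intro R hR h
    rw [Bool.and_eq_true]
    exact ⟨(relB_iff ht ht hR.1).2 (h ▸ hc), (invB_iff hR.1).2 (h ▸ h2)⟩

theorem key {t n : ℕ} (ht : validPerm t = true)
    (hchk : (invCent t).all (fun c => Nat.beq c idP || Nat.beq (cntFix c) n) = true)
    {x s k : Equiv.Perm GolayPt} (hs : s ∈ M24) (hk : k ∈ M24) (h2 : s ^ 2 = 1) (hne : s ≠ 1)
    (hc : Commute x s) (e : k * x * k⁻¹ = toPerm t) :
    (Finset.univ.filter fun p => s p = p).card = n := by
  have hs' : k * s * k⁻¹ ∈ M24 := M24.mul_mem (M24.mul_mem hk hs) (M24.inv_mem hk)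
  have hc' : (k * s * k⁻¹) * toPerm t = toPerm t * (k * s * k⁻¹) := by
    rw [← e]
    have : s * x = x * s := hc.eq.symm
    calc k * s * k⁻¹ * (k * x * k⁻¹) = k * (s * x) * k⁻¹ := by group
      _ = k * (x * s) * k⁻¹ := by rw [this]
      _ = k * x * k⁻¹ * (k * s * k⁻¹) := by group
  obtain ⟨c, hcm, ec⟩ := mem_invCent ht hs' (conj_pow_eq_one h2) hc'
  have h1 := List.all_eq_true.1 hchk c hcm
  rw [Bool.or_eq_true] at h1
  rcases h1 with h1 | h1
  · exfalso
    rw [Nat.eq_of_beq_eq_true h1, toPerm_idP] at ec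
    apply hne
    have : k * s = k := by
      have := congrArg (fun y => y * k) ec
      simpa using this
    exact mul_eq_left.1 this
  · rw [← card_fixed_conj s k, ec, card_fixed (lv_fin hcm).1.1]
    exact Nat.eq_of_beq_eq_true h1



/-- If an element of order 3 and an involution of the group of the length-24 code commute, then either the element of order 3 has exactly 6 fixed points and the involution exactly 8, or both are fixed-point-free. -/
theorem result (x s : Equiv.Perm Cfsg.GolayPt) (hx : x ∈ Cfsg.M24) (hs : s ∈ Cfsg.M24) (h₃ : orderOf x = 3) (h₂ : orderOf s = 2) (hc : Commute x s) : ((Finset.univ.filter fun p => x p = p).card = 6 ∧ (Finset.univ.filter fun p => s p = p).card = 8) ∨ ((Finset.univ.filter fun p => x p = p).card = 0 ∧ (Finset.univ.filter fun p => s p = p).card = 0) := by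
  have x3 : x ^ 3 = 1 := h₃ ▸ pow_orderOf_eq_one x
  have xne : x ≠ 1 := fun e => by rw [e, orderOf_one] at h₃; omega
  have s2 : s ^ 2 = 1 := h₂ ▸ pow_orderOf_eq_one s
  have sne : s ≠ 1 := fun e => by rw [e, orderOf_one] at h₂; omega
  by_cases hf : ∃ p, x p = p
  · left
    obtain ⟨k, hk, e⟩ := class3F hx x3 xne hf
    refine ⟨?_, key (inM24_valid g3A_in) chkA hs hk s2 sne hc e⟩
    rw [← card_fixed_conj x k, e, card_fixed (inM24_valid g3A_in), cnt_g3A]
  · right
    push Not at hf
    obtain ⟨k, hk, e⟩ := class3B hx x3 hf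
    refine ⟨?_, key (inM24_valid g3B_in) chkB hs hk s2 sne hc e⟩
    rw [← card_fixed_conj x k, e, card_fixed (inM24_valid g3B_in), cnt_g3B]

end Cfsg.Agent.S5608
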