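import Cfsg.Statements.S5609
import Cfsg.Agent.Lib.Helper33Transport

set_option autoImplicit false
open scoped Pointwise
open Cfsg

namespace Cfsg.Agent.S5609

open MulAction Cfsg.Agent.Lib.Helper33Golay Cfsg.Agent.Lib.Helper33Transport
  Cfsg.Agent.Lib.Helper33Trans

def o0 : ℕ := 13062145

def L30 : List ℕ := octL.filter (fun m => Nat.beq (Nat.land o0 m) 0)

def chkOne (m : ℕ) : Bool :=
  (Nat.beq (pop (Nat.land o0 m)) 0 || Nat.beq (pop (Nat.land o0 m)) 2 ||
      Nat.beq (pop (Nat.land o0 m)) 4 || Nat.beq m o0) &&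
    (!(Nat.beq (pop (Nat.land o0 m)) 4) || L30.any (fun x => Nat.beq (Nat.land x m) 0)) &&
    (!(Nat.beq (pop (Nat.land o0 m)) 2) || (L30.all (fun x => !(Nat.beq (Nat.land x m) 0)) &&
      L30.any (fun x => Nat.beq (pop (Nat.land x m)) 4)))

set_option maxRecDepth 100000 in
theorem chk : octL.all chkOne = true := by decide +kernel

def Facts (o o' : Finset GolayPt) : Prop :=
  ((o ∩ o').card = 0 ∨ (o ∩ o').card = 2 ∨ (o ∩ o').card = 4 ∨ o' = o) ∧
  ((o ∩ o').card = 4 → ∃ o'' ∈ octads, Disjoint o o'' ∧ Disjoint o'' o') ∧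
  ((o ∩ o').card = 2 → (∀ o'' ∈ octads, Disjoint o o'' → ¬ Disjoint o'' o') ∧
    ∃ o1 ∈ octads, Disjoint o o1 ∧ (o1 ∩ o').card = 4)

theorem beq_iff {a b : ℕ} : Nat.beq a b = true ↔ a = b :=
  ⟨Nat.eq_of_beq_eq_true, fun h => h ▸ Nat.beq_refl a⟩

theorem nbeq_iff {a b : ℕ} : (!(Nat.beq a b)) = true ↔ a ≠ b := by
  rw [Bool.not_eq_true', ← Bool.not_eq_true, beq_iff]

theorem mem_L30 {x : ℕ} : x ∈ L30 ↔ x ∈ octL ∧ o0 &&& x = 0 := by
  unfold L30
  rw [List.mem_filter, beq_iff, land_eq]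

theorem facts_base (m : ℕ) (hm : m ∈ octL) : Facts (dec o0) (dec m) := by
  have h := List.all_eq_true.1 chk m hm
  unfold chkOne at h
  simp only [Bool.and_eq_true, Bool.or_eq_true, beq_iff, nbeq_iff,
    List.any_eq_true, List.all_eq_true, land_eq] at h
  obtain ⟨⟨h1, h2⟩, h3⟩ := h
  have hc : (dec o0 ∩ dec m).card = pop (o0 &&& m) := by rw [← dec_and, card_dec]
  have ho0 : o0 < 2 ^ 24 := by decide
  refine ⟨?_, ?_, ?_⟩
  · rw [hc]
    rcases h1 with ((h1 | h1) | h1) | h1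
    · exact Or.inl h1
    · exact Or.inr (Or.inl h1)
    · exact Or.inr (Or.inr (Or.inl h1))
    · exact Or.inr (Or.inr (Or.inr (by rw [h1])))
  · rw [hc]
    intro h4
    rcases h2 with h2 | ⟨x, hx, hxm⟩
    · exact absurd h4 h2
    · obtain ⟨hx1, hx2⟩ := mem_L30.1 hx
      exact ⟨dec x, dec_mem_octads hx1, (dec_disjoint_iff ho0).2 hx2,
        (dec_disjoint_iff (octL_lt hx1)).2 hxm⟩
  · rw [hc]
    intro h4
    rcases h3 with h3 | ⟨h3, x, hx, hxm⟩
    · exact absurd h4 h3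
    · refine ⟨?_, ?_⟩
      · intro o'' ho'' hd hd'
        have hx1 := (mem_octads_iff o'').1 ho''
        rw [← dec_enc o''] at hd hd'
        exact h3 (enc o'') (mem_L30.2 ⟨hx1, (dec_disjoint_iff ho0).1 hd⟩)
          ((dec_disjoint_iff (octL_lt hx1)).1 hd')
      · obtain ⟨hx1, hx2⟩ := mem_L30.1 hx
        exact ⟨dec x, dec_mem_octads hx1, (dec_disjoint_iff ho0).2 hx2, by
          rw [← dec_and, card_dec]; exact hxm⟩

theorem facts (o o' : Finset GolayPt) (ho : o ∈ octads) (ho' : o' ∈ octads) : Facts o o' := by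
  obtain ⟨g, hgM, hg⟩ := octad_trans ho (dec_mem_octads (m := o0) (by decide +kernel))
  have hb : Facts (g • o) (g • o') := by
    rw [hg]
    have := facts_base (enc (g • o')) ((mem_octads_iff _).1 (smul_mem_octads hgM ho'))
    rwa [dec_enc] at this
  obtain ⟨h1, h2, h3⟩ := hb
  rw [card_inter_smul] at h1 h2 h3
  refine ⟨?_, ?_, ?_⟩
  · rcases h1 with h1 | h1 | h1 | h1
    · exact Or.inl h1
    · exact Or.inr (Or.inl h1)
    · exact Or.inr (Or.inr (Or.inl h1))
    · exact Or.inr (Or.inr (Or.inr (MulAction.injective g h1)))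
  · intro h4
    obtain ⟨x, hx, hx1, hx2⟩ := h2 h4
    refine ⟨g⁻¹ • x, smul_mem_octads (M24.inv_mem hgM) hx, ?_, ?_⟩
    · rw [← disjoint_smul g, smul_inv_smul]; exact hx1
    · rw [← disjoint_smul g, smul_inv_smul]; exact hx2
  · intro h4
    obtain ⟨h5, x, hx, hx1, hx2⟩ := h3 h4
    refine ⟨?_, g⁻¹ • x, smul_mem_octads (M24.inv_mem hgM) hx, ?_, ?_⟩
    · intro o'' ho'' hd hd'
      exact h5 (g • o'') (smul_mem_octads hgM ho'') ((disjoint_smul g _ _).2 hd)
        ((disjoint_smul g _ _).2 hd')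
    · rw [← disjoint_smul g, smul_inv_smul]; exact hx1
    · rw [← card_inter_smul g, smul_inv_smul]; exact hx2

theorem adj_iff (a b : octads) : (blockGraph octads).Adj a b ↔ Disjoint (a : Finset GolayPt) b := by
  unfold blockGraph
  rw [SimpleGraph.fromRel_adj]
  constructor
  · rintro ⟨_, h | h⟩
    · exact h
    · exact h.symm
  · intro h
    refine ⟨?_, Or.inl h⟩
    rintro rfl
    have h1 : (a : Finset GolayPt) = ∅ := by simpa using h
    have h2 := a.2.2
    rw [h1] at h2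
    simp at h2

theorem disj_iff (a b : Finset GolayPt) : Disjoint a b ↔ (a ∩ b).card = 0 := by
  rw [Finset.card_eq_zero, Finset.disjoint_iff_inter_eq_empty]

theorem reach (a b : octads) : (blockGraph octads).Reachable a b := by
  obtain ⟨h1, h2, h3⟩ := facts a b a.2 b.2
  have r4 : ∀ a b : octads, ((a : Finset GolayPt) ∩ b).card = 4 →
      (blockGraph octads).Reachable a b := by
    intro a b h
    obtain ⟨x, hx, hx1, hx2⟩ := (facts a b a.2 b.2).2.1 h
    exact (((adj_iff a ⟨x, hx⟩).2 hx1).reachable).trans (((adj_iff ⟨x, hx⟩ b).2 hx2).reachable)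
  rcases h1 with h | h | h | h
  · exact ((adj_iff a b).2 ((disj_iff _ _).2 h)).reachable
  · obtain ⟨_, x, hx, hx1, hx2⟩ := h3 h
    exact (((adj_iff a ⟨x, hx⟩).2 hx1).reachable).trans (r4 ⟨x, hx⟩ b hx2)
  · exact r4 a b h
  · rw [Subtype.ext h]

theorem conn : (blockGraph octads).Connected := by
  have : Nonempty octads := ⟨⟨dec o0, dec_mem_octads (by decide +kernel)⟩⟩
  exact ⟨reach⟩

theorem dist4 (a b : octads) (h : ((a : Finset GolayPt) ∩ b).card = 4) :
    (blockGraph octads).dist a b = 2 := by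
  have h1 : (blockGraph octads).edist a b = 2 := by
    rw [SimpleGraph.edist_eq_two_iff]
    refine ⟨?_, ?_, ?_⟩
    · rintro rfl
      rw [Finset.inter_self, a.2.2] at h
      omega
    · rw [adj_iff, disj_iff, h]; omega
    · obtain ⟨x, hx, hx1, hx2⟩ := (facts a b a.2 b.2).2.1 h
      refine ⟨⟨x, hx⟩, ?_⟩
      rw [SimpleGraph.mem_commonNeighbors]
      exact ⟨(adj_iff _ _).2 hx1, (adj_iff _ _).2 hx2.symm⟩
  have h2 := (reach a b).coe_dist_eq_edist
  rw [h1] at h2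
  exact_mod_cast h2

theorem dist2 (a b : octads) (h : ((a : Finset GolayPt) ∩ b).card = 2) :
    (blockGraph octads).dist a b = 3 := by
  obtain ⟨h5, x, hx, hx1, hx2⟩ := (facts a b a.2 b.2).2.2 h
  have h1 : 2 < (blockGraph octads).edist a b := by
    rw [SimpleGraph.two_lt_edist_iff]
    refine ⟨?_, ?_, ?_⟩
    · rintro rfl
      rw [Finset.inter_self, a.2.2] at h
      omega
    · rw [adj_iff, disj_iff, h]; omega
    · rw [Set.eq_empty_iff_forall_notMem]
      intro y hy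
      rw [SimpleGraph.mem_commonNeighbors] at hy
      exact h5 y y.2 ((adj_iff _ _).1 hy.1) ((adj_iff _ _).1 hy.2).symm
  have h2 := (reach a b).coe_dist_eq_edist
  rw [← h2] at h1
  have h3 : 2 < (blockGraph octads).dist a b := by exact_mod_cast h1
  have h4 := conn.dist_triangle (u := a) (v := ⟨x, hx⟩) (w := b)
  rw [dist4 ⟨x, hx⟩ b hx2, SimpleGraph.dist_eq_one_iff_adj.2 ((adj_iff a ⟨x, hx⟩).2 hx1)] at h4
  omega

/-- In the graph on the 759 octads of the length-24 code in which two octads are adjacent when they are disjoint, the graph is connected (of diameter 3) and two distinct octads are at distance 1, 2 or 3 exactly when they meet in 0, 4 or 2 points respectively. -/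
theorem result (o o' : Finset Cfsg.GolayPt) (ho : o ∈ Cfsg.octads) (ho' : o' ∈ Cfsg.octads) (hne : o ≠ o') : (Cfsg.blockGraph Cfsg.octads).Connected ∧ ((Cfsg.blockGraph Cfsg.octads).dist ⟨o, ho⟩ ⟨o', ho'⟩ = 1 ↔ (o ∩ o').card = 0) ∧ ((Cfsg.blockGraph Cfsg.octads).dist ⟨o, ho⟩ ⟨o', ho'⟩ = 2 ↔ (o ∩ o').card = 4) ∧ ((Cfsg.blockGraph Cfsg.octads).dist ⟨o, ho⟩ ⟨o', ho'⟩ = 3 ↔ (o ∩ o').card = 2) := by
  refine ⟨conn, ?_⟩
  obtain ⟨h1, -, -⟩ := facts o o' ho ho'
  rcases h1 with h | h | h | h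
  · have hd : (blockGraph octads).dist ⟨o, ho⟩ ⟨o', ho'⟩ = 1 :=
      SimpleGraph.dist_eq_one_iff_adj.2 ((adj_iff _ _).2 ((disj_iff _ _).2 h))
    rw [hd, h]; omega
  · have hd := dist2 ⟨o, ho⟩ ⟨o', ho'⟩ h
    rw [hd, h]; omega
  · have hd := dist4 ⟨o, ho⟩ ⟨o', ho'⟩ h
    rw [hd, h]; omega
  · exact absurd h.symm hne

end Cfsg.Agent.S5609
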