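import Cfsg.Statements.S5613
import Cfsg.Agent.S1556
import Cfsg.Agent.S0364
import Cfsg.Agent.Lib.Helper33Transport
import Cfsg.Agent.Lib.Helper33Max

set_option autoImplicit false
open scoped Pointwise
open Cfsg

namespace Cfsg.Agent.S5613

open MulAction Cfsg.Agent.Lib.Helper33Golay Cfsg.Agent.Lib.Helper33Transport
  Cfsg.Agent.Lib.Helper33Max

theorem orbit_eq_octads (o : Finset GolayPt) (ho : o ∈ octads) : orbit M24 o = octads := by
  ext U
  constructor
  · rintro ⟨g, rfl⟩
    exact smul_mem_octads g.2 ho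
  · intro hU
    obtain ⟨g, hg⟩ := Cfsg.Agent.S0367.result o U ho hU
    exact ⟨g, hg⟩

theorem card_stab (o : Finset GolayPt) (ho : o ∈ octads) :
    Nat.card (stabilizer M24 o) = 322560 := by
  have h1 := (stabilizer M24 o).card_mul_index
  rw [index_stabilizer, orbit_eq_octads o ho, octads_ncard, Cfsg.Agent.S0364.result] at h1
  omega

def o0 : ℕ := 13062145

set_option maxRecDepth 100000 in
theorem cnt0 : (octL.filter (fun m => Nat.beq (pop (Nat.land o0 m)) 0)).length = 30 := by
  decide +kernel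

set_option maxRecDepth 100000 in
theorem cnt4 : (octL.filter (fun m => Nat.beq (pop (Nat.land o0 m)) 4)).length = 280 := by
  decide +kernel

set_option maxRecDepth 100000 in
theorem cnt2 : (octL.filter (fun m => Nat.beq (pop (Nat.land o0 m)) 2)).length = 448 := by
  decide +kernel

theorem count_base (k : ℕ) : {U : Finset GolayPt | U ∈ octads ∧ (dec o0 ∩ U).card = k}.ncard =
    (octL.filter (fun m => Nat.beq (pop (Nat.land o0 m)) k)).length := by
  apply ncard_filter _ octL octL_nodup (fun _ h => octL_lt h)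
  intro s
  rw [Set.mem_setOf_eq, mem_octads_iff, card_eq_pop, enc_inter, enc_dec (by decide)]
  simp [land_eq]

theorem count (o : Finset GolayPt) (ho : o ∈ octads) (k : ℕ) :
    {U : Finset GolayPt | U ∈ octads ∧ (o ∩ U).card = k}.ncard =
    (octL.filter (fun m => Nat.beq (pop (Nat.land o0 m)) k)).length := by
  obtain ⟨g, hg⟩ := Cfsg.Agent.S0367.result o (dec o0) ho (dec_mem_octads (by decide +kernel))
  obtain ⟨g, hgM⟩ := g
  replace hg : g • o = dec o0 := hg
  rw [← count_base]
  symm
  apply ncard_transport g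
  intro U
  rw [smul_mem_octads_iff hgM, ← hg, card_inter_smul]

theorem orbit_stab (o o' : Finset GolayPt) (ho : o ∈ octads) (ho' : o' ∈ octads) :
    orbit (stabilizer M24 o) o' =
      {U : Finset GolayPt | U ∈ octads ∧ (o ∩ U).card = (o ∩ o').card} := by
  ext U
  constructor
  · rintro ⟨g, rfl⟩
    obtain ⟨⟨g, hgM⟩, hg⟩ := g
    have hg' : g • o = o := hg
    refine ⟨smul_mem_octads hgM ho', ?_⟩
    show (o ∩ g • o').card = _
    conv_lhs => rw [← hg']
    exact card_inter_smul g o o'
  · rintro ⟨hU, hc⟩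
    obtain ⟨g, hgM, hgo, hgU⟩ := Cfsg.Agent.S1556.result o o' U ho ho' hU hc.symm
    exact ⟨⟨⟨g, hgM⟩, hgo⟩, hgU⟩

theorem key (o o' : Finset GolayPt) (ho : o ∈ octads) (ho' : o' ∈ octads) :
    Nat.card ↥(stabilizer M24 o ⊓ stabilizer M24 o') *
      (octL.filter (fun m => Nat.beq (pop (Nat.land o0 m)) (o ∩ o').card)).length = 322560 := by
  rw [← count o ho, ← orbit_stab o o' ho ho', ncard_orbit_subgroup, ← card_stab o ho,
    ← Subgroup.inf_relIndex_left, ← Subgroup.relIndex_bot_left, ← Subgroup.relIndex_bot_left]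
  exact Subgroup.relIndex_mul_relIndex _ _ _ bot_le inf_le_left

/-- In the group of the length-24 code, the joint stabiliser of two octads has order 10752, 1152 or 720 according as the octads meet in 0, 4 or 2 points. -/
theorem result (o o' : Finset Cfsg.GolayPt) (ho : o ∈ Cfsg.octads) (ho' : o' ∈ Cfsg.octads) : ((o ∩ o').card = 0 → Nat.card ↥(MulAction.stabilizer Cfsg.M24 o ⊓ MulAction.stabilizer Cfsg.M24 o') = 10752) ∧ ((o ∩ o').card = 4 → Nat.card ↥(MulAction.stabilizer Cfsg.M24 o ⊓ MulAction.stabilizer Cfsg.M24 o') = 1152) ∧ ((o ∩ o').card = 2 → Nat.card ↥(MulAction.stabilizer Cfsg.M24 o ⊓ MulAction.stabilizer Cfsg.M24 o') = 720) := by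
  have h := key o o' ho ho'
  refine ⟨fun hc => ?_, fun hc => ?_, fun hc => ?_⟩
  · rw [hc, cnt0] at h; omega
  · rw [hc, cnt4] at h; omega
  · rw [hc, cnt2] at h; omega

end Cfsg.Agent.S5613
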