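import Cfsg.Statements.S5614
import Cfsg.Agent.Lib.Helper94Iso
import Cfsg.Agent.S5613

set_option autoImplicit false
open scoped Pointwise
open Cfsg

namespace Cfsg.Agent.S5614

open Cfsg Cfsg.Agent.Lib.Helper33Golay Cfsg.Agent.Lib.Helper94M24A Cfsg.Agent.Lib.Helper94M24B
  Cfsg.Agent.Lib.Helper94M24C Cfsg.Agent.Lib.Helper94M24D Cfsg.Agent.Lib.Helper94M24E
  Cfsg.Agent.Lib.Helper94Iso

theorem chk : L5.all (fun P => Nat.beq P idP || !(Nat.beq (app P 2019456) 2019456) ||
    !(Nat.beq (img P 5) 5)) = true := by decide +kernel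

theorem std_pair {o o' : Finset GolayPt} (ho : o ∈ octads) (ho' : o' ∈ octads) (h₂ : (o ∩ o').card = 2) :
    ∃ k ∈ M24, k • o = dec 8536111 ∧ k • o' = dec 2019456 := by
  have hO : dec 8536111 ∈ octads := dec_mem_octads (by decide +kernel)
  have hO1 : dec 2019456 ∈ octads := dec_mem_octads (by decide +kernel)
  obtain ⟨k1, hk1, e1⟩ := Cfsg.Agent.Lib.Helper9M24Trans.octad_trans ho hO
  obtain ⟨g, hg, g1, g2⟩ := Cfsg.Agent.S1556.result (dec 8536111) (k1 • o') (dec 2019456) hO
    (smul_mem_octads hk1 ho') hO1 (by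
      rw [← e1, ← Finset.smul_finset_inter, Finset.card_smul_finset, h₂, e1, ← dec_and, card_dec]
      decide +kernel)
  exact ⟨g * k1, M24.mul_mem hg hk1, by rw [mul_smul, e1, g1], by rw [mul_smul, g2]⟩

theorem faithful0 {h : Equiv.Perm GolayPt} (hh : h ∈ M24) (h1 : h • dec 2019456 = dec 2019456)
    (hfix : ∀ p ∈ dec 8536111 \ dec 2019456, h p = p) : h = 1 := by
  have hm : ∀ i, i ∈ [23, 0, 1, 2, 3, 5] → pt i ∈ dec 8536111 \ dec 2019456 := by
    decide +kernel
  obtain ⟨P, hP, e⟩ := mem_L5 hh (hfix _ (hm 23 (by simp))) (hfix _ (hm 0 (by simp)))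
    (hfix _ (hm 1 (by simp))) (hfix _ (hm 2 (by simp))) (hfix _ (hm 3 (by simp)))
  have hv := L5_valid hP
  have c := List.all_eq_true.1 chk P hP
  simp only [Bool.or_eq_true, Bool.not_eq_true'] at c
  rcases c with (c | c) | c
  · rw [e, Nat.eq_of_beq_eq_true c, toPerm_idP]
  · exfalso
    rw [e, smul_dec hv] at h1
    rw [dec_injOn (app_lt hv _) (by norm_num) h1] at c
    simp at c
  · exfalso
    have h5 := hfix _ (hm 5 (by simp))
    rw [e, toPerm_pt hv (by norm_num)] at h5
    rw [pt_injOn (img_lt hv (by norm_num)) (by norm_num) h5] at c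
    simp at c



/-- In the group of the length-24 code, the joint stabiliser of two octads meeting in exactly two points is isomorphic to the symmetric group of degree 6. -/
theorem result (o o' : Finset Cfsg.GolayPt) (ho : o ∈ Cfsg.octads) (ho' : o' ∈ Cfsg.octads) (h₂ : (o ∩ o').card = 2) : Nonempty (↥(MulAction.stabilizer Cfsg.M24 o ⊓ MulAction.stabilizer Cfsg.M24 o') ≃* Equiv.Perm (Fin 6)) := by
  have hmem : ∀ h ∈ MulAction.stabilizer M24 o ⊓ MulAction.stabilizer M24 o',
      ((h : ↥M24) : Equiv.Perm GolayPt) • o = o ∧ ((h : ↥M24) : Equiv.Perm GolayPt) • o' = o' := by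
    intro h hh
    exact ⟨hh.1, hh.2⟩
  apply iso_perm_of_faithful _ (o \ o') 6
  · have := Finset.card_sdiff_add_card_inter o o'
    rw [h₂, ho.2] at this
    omega
  · rw [((Cfsg.Agent.S5613.result o o' ho ho').2.2 h₂)]; rfl
  · intro h hh
    rw [Finset.smul_finset_sdiff, (hmem h hh).1, (hmem h hh).2]
  · intro h hh hfix
    obtain ⟨k, hk, e1, e2⟩ := std_pair ho ho' h₂
    have h1 : k * (h : Equiv.Perm GolayPt) * k⁻¹ = 1 := by
      apply faithful0 (M24.mul_mem (M24.mul_mem hk h.2) (M24.inv_mem hk))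
      · rw [← e2, smul_smul]
        have e : k * (h : Equiv.Perm GolayPt) * k⁻¹ * k = k * h := by group
        rw [e, mul_smul, (hmem h hh).2]
      · intro p hp
        rw [← e1, ← e2, ← Finset.smul_finset_sdiff] at hp
        obtain ⟨q, hq, rfl⟩ := Finset.mem_smul_finset.1 hp
        simp [hfix q hq]
    apply Subtype.ext
    have h2 : (h : Equiv.Perm GolayPt) = k⁻¹ * (k * (h : Equiv.Perm GolayPt) * k⁻¹) * k := by group
    rw [h2, h1]; simp

end Cfsg.Agent.S5614
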