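import Cfsg.Statements.S5615
import Cfsg.Agent.Lib.Helper94M24C
import Cfsg.Agent.Lib.Helper10Trio
import Cfsg.Agent.Lib.Helper33Trans

set_option autoImplicit false
open scoped Pointwise
open Cfsg

namespace Cfsg.Agent.S5615

open Cfsg Cfsg.Agent.Lib.Helper33Golay Cfsg.Agent.Lib.Helper94M24A Cfsg.Agent.Lib.Helper94M24B
  Cfsg.Agent.Lib.Helper94M24C Cfsg.Agent.Lib.Helper10Orb Cfsg.Agent.Lib.Helper10Fam
  Cfsg.Agent.Lib.Helper10Trio

def O0 : ℕ := 8536111
def TL : List ℕ := [2402701715425661395200, 2402701721035962091200, 2402701725787000943760, 2402701729228343284560, 2402701734698252245440, 2402701737841094376960, 2402701741902791019600, 2402701747266131110800, 2402701751256155490960, 2402701756604463197520, 2402701760514225381120, 2402701763702164666560, 2402701769227371328080, 2402701772649386317200, 2402701777519073634240]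
def W1 : List ℕ := [984818244535754528103549039458486304, 27680045943732789894314611851379813, 967893250747586322613956212101811232, 963925782373322093920472302595019825, 104755133009165237224595719277993120, 61513207255257439308720988045738722, 54849596274449236035802940031747522, 965004461955287457251444702759157797, 726503678729673183953649321832978146, 21552849834815769782281429649513573, 966430800385742202115792216991498309, 603046278140571934012665106625827842, 608158078790958190879056725210598949, 92337757561523528719951511609771191, 17225554911754505984688672261398053]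
def W2 : List ℕ := [984818244535754528103549039458486304, 719481259649734951473131632421017024, 224823355174104049182030759499368494, 718387124875418087399526986279883886, 89144335837267256079843010134382033, 610720571776253247180499593301431840, 55071164679474553342811809820410018, 965257075472481513593781923775300718, 227574586191375232710987254139553326, 102928449253573827207923751729201603, 134331254276634163023417602989406949, 19763559776485851666649626725551265, 142396870658873640759874763216828417, 982939172881146061518967929536842784]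

def c1 : ℕ := TL.getD 0 0
def c2 : ℕ := TL.getD 1 0

def hasO (c : ℕ) : Bool := Nat.beq (t0 c) O0 || Nat.beq (t1 c) O0 || Nat.beq (t2 c) O0

/-- `R` fixes all the points of the mask `m` -/
def fixesM (m R : ℕ) : Bool := r24.all (fun i => Nat.beq (bit m i) 0 || Nat.beq (img R i) i)

/-- the member of the trio through the point 4 -/
def sel (c : ℕ) : ℕ := if Nat.beq (bit (t0 c) 4) 1 then t0 c else t1 c

theorem TL_eq : trioL.filter hasO = TL := by decide +kernel

theorem cnt15 : ((List.range 3795).filter (fun i => true && hasO (trioCode i))).length = 15 := by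
  decide +kernel

theorem W_ok : W1.all (fun P => inM24 P && Nat.beq (app P O0) O0) = true ∧
    W2.all (fun P => inM24 P && Nat.beq (app P O0) O0 && Nat.beq (actT P c1) c1) = true := by
  decide +kernel

theorem chk2 : TL.all (fun a => TL.all (fun b => Nat.beq a b || W1.any (fun P1 =>
    Nat.beq (actT P1 a) c1 && W2.any (fun P2 => Nat.beq (actT P2 (actT P1 b)) c2)))) = true := by
  decide +kernel

theorem chkK : L5.all (fun P => !(fixesM O0 P) ||
    (Nat.beq (app P O0) O0 && TL.all (fun c => Nat.beq (actT P c) c))) = true := by decide +kernel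

theorem chkReg : r24.all (fun j => Nat.beq (bit O0 j) 1 ||
    L5.any (fun P => fixesM O0 P && Nat.beq (img P j) 4)) = true := by decide +kernel

theorem chkSel : TL.all (fun c => (trioList c).all (fun u => Nat.beq (bit u 4) 0 || Nat.beq u (sel c)) &&
    (trioList c).elem (sel c) && Nat.beq (bit (sel c) 4) 1) = true := by decide +kernel

theorem chkSep : r24.all (fun j => r24.all (fun i => Nat.beq (bit O0 j) 1 || Nat.beq (bit O0 i) 1 ||
    Nat.beq i j || TL.any (fun c => !(Nat.beq (bit (sel c) j) (bit (sel c) i))))) = true := by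
  decide +kernel

theorem fixesM_of {m R : ℕ} (hR : validPerm R = true) (h : ∀ p ∈ dec m, toPerm R p = p) :
    fixesM m R = true := by
  simp only [fixesM, List.all_eq_true, mem_r24, Bool.or_eq_true]
  intro i hi
  by_cases hb : m.testBit i = true
  · right
    have := h (pt i) (by rw [mem_dec, idx_pt hi]; exact hb)
    rw [toPerm_pt hR hi] at this
    rw [pt_injOn (img_lt hR hi) hi this]; exact Nat.beq_refl _
  · left
    rw [bit_eq]
    simp only [Bool.not_eq_true] at hb
    rw [hb]; rfl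

theorem of_fixesM {m R : ℕ} (hR : validPerm R = true) (h : fixesM m R = true) :
    ∀ p ∈ dec m, toPerm R p = p := by
  intro p hp
  simp only [fixesM, List.all_eq_true, mem_r24, Bool.or_eq_true] at h
  rw [mem_dec] at hp
  rcases h (idx p) (idx_lt p) with h1 | h1
  · rw [bit_eq, hp] at h1
    exact absurd h1 (by decide)
  · apply idx_injective
    rw [idx_toPerm hR, Nat.eq_of_beq_eq_true h1]

theorem bit_one_iff {m : ℕ} {p : GolayPt} : Nat.beq (bit m (idx p)) 1 = true ↔ p ∈ dec m := by
  rw [mem_dec, bit_eq]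
  cases h : m.testBit (idx p) <;> simp

theorem bit_zero_iff {m : ℕ} {p : GolayPt} : Nat.beq (bit m (idx p)) 0 = true ↔ p ∉ dec m := by
  rw [mem_dec, bit_eq]
  cases h : m.testBit (idx p) <;> simp

theorem mem_trioOf {c : ℕ} {x : Finset GolayPt} : x ∈ trioOf c ↔ ∃ u ∈ trioList c, dec u = x :=
  mem_setOf

theorem hasO_iff {c : ℕ} (hc : c ∈ trioL) : dec O0 ∈ trioOf c ↔ hasO c = true := by
  have hv := valid_of_mem hc
  rw [mem_trioOf]
  simp only [hasO, Bool.or_eq_true, trioList, List.mem_cons, List.not_mem_nil, or_false]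
  constructor
  · rintro ⟨u, hu, e⟩
    have hlt : u < 2 ^ 24 := hv.lt u (by simpa [trioList] using hu)
    have := dec_injOn hlt (by norm_num [O0]) e
    subst this
    rcases hu with h | h | h
    · left; left; rw [← h]; exact Nat.beq_refl _
    · left; right; rw [← h]; exact Nat.beq_refl _
    · right; rw [← h]; exact Nat.beq_refl _
  · rintro ((h | h) | h)
    · exact ⟨_, Or.inl rfl, by rw [Nat.eq_of_beq_eq_true h]⟩
    · exact ⟨_, Or.inr (Or.inl rfl), by rw [Nat.eq_of_beq_eq_true h]⟩
    · exact ⟨_, Or.inr (Or.inr rfl), by rw [Nat.eq_of_beq_eq_true h]⟩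

theorem mem_TL {c : ℕ} : c ∈ TL ↔ c ∈ trioL ∧ hasO c = true := by
  rw [← TL_eq, List.mem_filter]

/-- the trios through the standard octad are coded by `TL` -/
theorem code_of {T : Finset (Finset GolayPt)} (hT : T ∈ trios) (hO : dec O0 ∈ T) :
    ∃ c ∈ TL, T = trioOf c := by
  obtain ⟨c, hc, rfl⟩ := mem_trios_iff.1 hT
  exact ⟨c, mem_TL.2 ⟨hc, (hasO_iff hc).1 hO⟩, rfl⟩

theorem count0 : {T : Finset (Finset GolayPt) | T ∈ trios ∧ dec O0 ∈ T}.ncard = 15 := by
  rw [ncard_class trioC (fun T => dec O0 ∈ T) (fun i => hasO (trioCode i))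
    (fun i hi _ => hasO_iff (trioCode_mem hi)), cnt15]

theorem to_std {T₁ T₂ : Finset (Finset GolayPt)} (h1 : T₁ ∈ trios) (h2 : T₂ ∈ trios)
    (o1 : dec O0 ∈ T₁) (o2 : dec O0 ∈ T₂) (hne : T₁ ≠ T₂) :
    ∃ g ∈ M24, g • dec O0 = dec O0 ∧ g • T₁ = trioOf c1 ∧ g • T₂ = trioOf c2 := by
  obtain ⟨a, ha, rfl⟩ := code_of h1 o1
  obtain ⟨b, hb, rfl⟩ := code_of h2 o2
  have c := List.all_eq_true.1 (List.all_eq_true.1 chk2 a ha) b hb
  rw [Bool.or_eq_true] at c
  rcases c with c | c
  · exact absurd (by rw [Nat.eq_of_beq_eq_true c]) hne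
  · simp only [List.any_eq_true, Bool.and_eq_true] at c
    obtain ⟨P1, hP1, e1, P2, hP2, e2⟩ := c
    have w1 := List.all_eq_true.1 W_ok.1 P1 hP1
    have w2 := List.all_eq_true.1 W_ok.2 P2 hP2
    simp only [Bool.and_eq_true] at w1 w2
    obtain ⟨m1, s1⟩ := w1
    obtain ⟨⟨m2, s2⟩, f2⟩ := w2
    refine ⟨toPerm P2 * toPerm P1, M24.mul_mem (toPerm_mem_M24 m2) (toPerm_mem_M24 m1), ?_, ?_, ?_⟩
    · rw [mul_smul, smul_dec (inM24_valid m1), Nat.eq_of_beq_eq_true s1, smul_dec (inM24_valid m2),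
        Nat.eq_of_beq_eq_true s2]
    · rw [mul_smul, toPerm_smul_trioOf m1, Nat.eq_of_beq_eq_true e1, toPerm_smul_trioOf m2,
        Nat.eq_of_beq_eq_true f2]
    · rw [mul_smul, toPerm_smul_trioOf m1, toPerm_smul_trioOf m2, Nat.eq_of_beq_eq_true e2]

theorem two_trans0 (T₁ T₂ T₁' T₂' : Finset (Finset GolayPt)) (h1 : T₁ ∈ trios) (h2 : T₂ ∈ trios)
    (h1' : T₁' ∈ trios) (h2' : T₂' ∈ trios)
    (o1 : dec O0 ∈ T₁) (o2 : dec O0 ∈ T₂) (o1' : dec O0 ∈ T₁') (o2' : dec O0 ∈ T₂')
    (hne : T₁ ≠ T₂) (hne' : T₁' ≠ T₂') :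
    ∃ g ∈ M24, g • dec O0 = dec O0 ∧ g • T₁ = T₁' ∧ g • T₂ = T₂' := by
  obtain ⟨g, hg, g0, g1, g2⟩ := to_std h1 h2 o1 o2 hne
  obtain ⟨k, hk, k0, k1, k2⟩ := to_std h1' h2' o1' o2' hne'
  refine ⟨k⁻¹ * g, M24.mul_mem (M24.inv_mem hk) hg, ?_, ?_, ?_⟩
  · rw [mul_smul, g0, inv_smul_eq_iff, k0]
  · rw [mul_smul, g1, inv_smul_eq_iff, k1]
  · rw [mul_smul, g2, inv_smul_eq_iff, k2]

/-- elements fixing the standard octad pointwise -/
theorem ptwise {g : Equiv.Perm GolayPt} (hg : g ∈ M24) (h : ∀ p ∈ dec O0, g p = p) :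
    ∃ P ∈ L5, g = toPerm P ∧ fixesM O0 P = true := by
  have hm : ∀ j, j < 24 → O0.testBit j = true → g (pt j) = pt j := by
    intro j hj hb
    exact h _ (by rw [mem_dec, idx_pt hj]; exact hb)
  obtain ⟨P, hP, rfl⟩ := mem_L5 hg (hm 23 (by norm_num) (by decide +kernel))
    (hm 0 (by norm_num) (by decide +kernel)) (hm 1 (by norm_num) (by decide +kernel))
    (hm 2 (by norm_num) (by decide +kernel)) (hm 3 (by norm_num) (by decide +kernel))
  exact ⟨P, hP, rfl, fixesM_of (L5_valid hP) h⟩

theorem fix_trios {P : ℕ} (hP : P ∈ L5) (hf : fixesM O0 P = true) :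
    toPerm P • dec O0 = dec O0 ∧ ∀ T ∈ trios, dec O0 ∈ T → toPerm P • T = T := by
  have c := List.all_eq_true.1 chkK P hP
  rw [hf] at c
  simp only [Bool.not_true, Bool.false_or, Bool.and_eq_true, List.all_eq_true] at c
  refine ⟨by rw [smul_dec (L5_valid hP), Nat.eq_of_beq_eq_true c.1], ?_⟩
  intro T hT hO
  obtain ⟨a, ha, rfl⟩ := code_of hT hO
  rw [toPerm_smul_trioOf (L5_inM24 hP), Nat.eq_of_beq_eq_true (c.2 a ha)]

theorem not_mem_of_stab {g : Equiv.Perm GolayPt} {X : Finset GolayPt} (h : g • X = X) {p : GolayPt} :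
    g p ∈ X ↔ p ∈ X := by
  conv_lhs => rw [← h]
  exact Finset.smul_mem_smul_finset_iff (a := g) (b := p) (s := X)

/-- an element fixing the octad, all the trios through it and the point 4 is trivial -/
theorem trivial_of_fix4 {g : Equiv.Perm GolayPt} (hg : g ∈ M24) (h0 : g • dec O0 = dec O0)
    (hT : ∀ T ∈ trios, dec O0 ∈ T → g • T = T) (h4 : g (pt 4) = pt 4) : g = 1 := by
  -- the octads through 4 are fixed
  have hsel : ∀ c ∈ TL, g • dec (sel c) = dec (sel c) := by
    intro c hc
    have hcL := (mem_TL.1 hc).1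
    have hfix := hT (trioOf c) (trioOf_mem (valid_of_mem hcL)) ((hasO_iff hcL).2 (mem_TL.1 hc).2)
    have k := List.all_eq_true.1 chkSel c hc
    simp only [Bool.and_eq_true, List.all_eq_true, Bool.or_eq_true, List.elem_eq_mem,
      decide_eq_true_eq] at k
    obtain ⟨⟨k1, k2⟩, k3⟩ := k
    have hm : dec (sel c) ∈ trioOf c := mem_trioOf.2 ⟨_, k2, rfl⟩
    have hm' : g • dec (sel c) ∈ g • trioOf c := Finset.smul_mem_smul_finset hm
    rw [hfix] at hm'
    obtain ⟨u, hu, e⟩ := mem_trioOf.1 hm'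
    have i4 : idx (pt 4) = 4 := idx_pt (by norm_num)
    have h4m : pt 4 ∈ dec (sel c) := by
      rw [← bit_one_iff, i4]; exact k3
    have h4u : pt 4 ∈ dec u := by
      rw [e, ← h4]
      exact Finset.smul_mem_smul_finset (a := g) h4m
    rcases k1 u hu with k | k
    · rw [← i4, bit_zero_iff] at k
      exact absurd h4u k
    · rw [← e, Nat.eq_of_beq_eq_true k]
  have hfixp : ∀ p, p ∉ dec O0 → g p = p := by
    intro p hp
    have hgp : g p ∉ dec O0 := fun h => hp (not_mem_of_stab h0 |>.1 h)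
    have k := List.all_eq_true.1 (List.all_eq_true.1 chkSep (idx p) (mem_r24.2 (idx_lt p))) (idx (g p))
      (mem_r24.2 (idx_lt _))
    simp only [Bool.or_eq_true, List.any_eq_true] at k
    rcases k with ((k | k) | k) | ⟨c, hc, k⟩
    · exact absurd (bit_one_iff.1 k) hp
    · exact absurd (bit_one_iff.1 k) hgp
    · exact idx_injective (Nat.eq_of_beq_eq_true k)
    · exfalso
      have hiff : g p ∈ dec (sel c) ↔ p ∈ dec (sel c) := not_mem_of_stab (hsel c hc)
      rw [mem_dec, mem_dec] at hiff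
      have : bit (sel c) (idx p) = bit (sel c) (idx (g p)) := by
        rw [bit_eq, bit_eq]
        congr 1
        exact (Bool.eq_iff_iff.2 hiff).symm
      rw [this, Nat.beq_refl] at k
      exact absurd k (by decide)
  apply eq_one_of_nine hg
  have hsub : dec (O0 ^^^ 16777215) ⊆ Finset.univ.filter fun p => g p = p := by
    intro p hp
    rw [dec_compl, Finset.mem_compl] at hp
    exact Finset.mem_filter.2 ⟨Finset.mem_univ _, hfixp p hp⟩
  refine le_trans ?_ (Finset.card_le_card hsub)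
  rw [card_dec]
  decide +kernel

theorem kernel0 {g : Equiv.Perm GolayPt} (hg : g ∈ M24) (h0 : g • dec O0 = dec O0) :
    (∀ T ∈ trios, dec O0 ∈ T → g • T = T) ↔ ∀ p ∈ dec O0, g p = p := by
  constructor
  · intro hT
    have h4 : pt 4 ∉ dec O0 := by
      rw [← bit_zero_iff, idx_pt (by norm_num)]; decide +kernel
    have hg4 : g (pt 4) ∉ dec O0 := fun h => h4 (not_mem_of_stab h0 |>.1 h)
    have k := List.all_eq_true.1 chkReg (idx (g (pt 4))) (mem_r24.2 (idx_lt _))
    simp only [Bool.or_eq_true, List.any_eq_true, Bool.and_eq_true] at k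
    rcases k with k | ⟨P, hP, hf, k⟩
    · exact absurd (bit_one_iff.1 k) hg4
    · obtain ⟨f0, fT⟩ := fix_trios hP hf
      have hv := L5_valid hP
      have h1 : toPerm P * g = 1 := by
        apply trivial_of_fix4 (M24.mul_mem (toPerm_mem_M24 (L5_inM24 hP)) hg)
        · rw [mul_smul, h0, f0]
        · intro T hT' hO
          rw [mul_smul, hT T hT' hO, fT T hT' hO]
        · rw [Equiv.Perm.mul_apply]
          apply idx_injective
          rw [idx_toPerm hv, Nat.eq_of_beq_eq_true k, idx_pt (by norm_num)]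
      intro p hp
      have h2 := of_fixesM hv hf p hp
      have h3 : (toPerm P * g) p = p := by rw [h1]; rfl
      rw [Equiv.Perm.mul_apply] at h3
      exact (toPerm P).injective (h3.trans h2.symm)
  · intro h
    obtain ⟨P, hP, rfl, hf⟩ := ptwise hg h
    exact (fix_trios hP hf).2

/-- the statement for one octad -/
def Pr (o : Finset GolayPt) : Prop :=
  {T : Finset (Finset GolayPt) | T ∈ trios ∧ o ∈ T}.ncard = 15 ∧
  (∀ T₁ T₂ T₁' T₂' : Finset (Finset GolayPt), T₁ ∈ trios → T₂ ∈ trios → T₁' ∈ trios → T₂' ∈ trios →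
    o ∈ T₁ → o ∈ T₂ → o ∈ T₁' → o ∈ T₂' → T₁ ≠ T₂ → T₁' ≠ T₂' →
    ∃ g ∈ M24, g • o = o ∧ g • T₁ = T₁' ∧ g • T₂ = T₂') ∧
  ∀ g ∈ M24, g • o = o → ((∀ T ∈ trios, o ∈ T → g • T = T) ↔ ∀ p ∈ o, g p = p)

theorem Pr0 : Pr (dec O0) := ⟨count0, two_trans0, fun _ hg h0 => kernel0 hg h0⟩

theorem mem_trios_smul {k : Equiv.Perm GolayPt} (hk : k ∈ M24) {T : Finset (Finset GolayPt)} :
    k • T ∈ trios ↔ T ∈ trios := by
  constructor
  · intro h
    have := smul_mem_trios (M24.inv_mem hk) h
    rwa [inv_smul_smul] at this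
  · exact smul_mem_trios hk

theorem transport {o : Finset GolayPt} {k : Equiv.Perm GolayPt} (hk : k ∈ M24) (h : Pr (k • o)) :
    Pr o := by
  obtain ⟨p1, p2, p3⟩ := h
  have hmem : ∀ T : Finset (Finset GolayPt), k • o ∈ k • T ↔ o ∈ T := fun T =>
    Finset.smul_mem_smul_finset_iff (a := k) (b := o) (s := T)
  refine ⟨?_, ?_, ?_⟩
  · rw [← p1]
    symm
    apply Cfsg.Agent.Lib.Helper33Transport.ncard_transport k
    intro T
    rw [mem_trios_smul hk, hmem]
  · intro T₁ T₂ T₁' T₂' h1 h2 h1' h2' o1 o2 o1' o2' hne hne'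
    obtain ⟨g, hg, g0, g1, g2⟩ := p2 (k • T₁) (k • T₂) (k • T₁') (k • T₂')
      ((mem_trios_smul hk).2 h1) ((mem_trios_smul hk).2 h2) ((mem_trios_smul hk).2 h1')
      ((mem_trios_smul hk).2 h2') ((hmem _).2 o1) ((hmem _).2 o2) ((hmem _).2 o1') ((hmem _).2 o2')
      (fun e => hne (MulAction.injective k e)) (fun e => hne' (MulAction.injective k e))
    refine ⟨k⁻¹ * g * k, M24.mul_mem (M24.mul_mem (M24.inv_mem hk) hg) hk, ?_, ?_, ?_⟩
    · rw [mul_smul, mul_smul, g0, inv_smul_smul]
    · rw [mul_smul, mul_smul, g1, inv_smul_smul]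
    · rw [mul_smul, mul_smul, g2, inv_smul_smul]
  · intro g hg g0
    have hM : k * g * k⁻¹ ∈ M24 := M24.mul_mem (M24.mul_mem hk hg) (M24.inv_mem hk)
    have hs : ∀ {α : Type} [MulAction (Equiv.Perm GolayPt) α] (x : α),
        (k * g * k⁻¹) • (k • x) = k • (g • x) := by
      intro α _ x
      rw [mul_smul, mul_smul, inv_smul_smul]
    have q := p3 (k * g * k⁻¹) hM (by rw [hs, g0])
    constructor
    · intro hT p hp
      have := q.1 (fun T hT' hO => by
        have e : T = k • (k⁻¹ • T) := (smul_inv_smul k T).symm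
        rw [e] at hT' hO ⊢
        rw [hs, hT _ ((mem_trios_smul hk).1 hT') ((hmem _).1 hO)]) (k p)
        (Finset.smul_mem_smul_finset (a := k) hp)
      simpa using this
    · intro hp T hT hO
      have := q.2 (fun p hp' => by
        obtain ⟨x, hx, rfl⟩ := Finset.mem_smul_finset.1 hp'
        show (k * g * k⁻¹) (k x) = k x
        simp [hp x hx]) (k • T) ((mem_trios_smul hk).2 hT) ((hmem _).2 hO)
      rw [hs] at this
      exact MulAction.injective k this


/-- An octad of the length-24 code lies in exactly 15 trios; the stabiliser of the octad in the code's group acts doubly transitively on these 15 trios, and the kernel of this action is the pointwise stabiliser of the octad. -/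
theorem result (o : Finset Cfsg.GolayPt) (ho : o ∈ Cfsg.octads) : {T : Finset (Finset Cfsg.GolayPt) | T ∈ Cfsg.trios ∧ o ∈ T}.ncard = 15 ∧ (∀ T₁ T₂ T₁' T₂' : Finset (Finset Cfsg.GolayPt), T₁ ∈ Cfsg.trios → T₂ ∈ Cfsg.trios → T₁' ∈ Cfsg.trios → T₂' ∈ Cfsg.trios → o ∈ T₁ → o ∈ T₂ → o ∈ T₁' → o ∈ T₂' → T₁ ≠ T₂ → T₁' ≠ T₂' → ∃ g ∈ Cfsg.M24, g • o = o ∧ g • T₁ = T₁' ∧ g • T₂ = T₂') ∧ ∀ g ∈ Cfsg.M24, g • o = o → ((∀ T ∈ Cfsg.trios, o ∈ T → g • T = T) ↔ ∀ p ∈ o, g p = p) := by
  obtain ⟨k, hk, e⟩ := Cfsg.Agent.Lib.Helper33Trans.octad_trans ho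
    (dec_mem_octads (m := O0) (by decide +kernel))
  exact transport hk (e ▸ Pr0)

end Cfsg.Agent.S5615
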