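import Cfsg.Statements.S5618
import Cfsg.Agent.Lib.Helper94Iso
import Cfsg.Agent.S5600

set_option autoImplicit false
open scoped Pointwise
open Cfsg

namespace Cfsg.Agent.S5618

open Cfsg Cfsg.Agent.Lib.Helper33Golay Cfsg.Agent.Lib.Helper94M24A Cfsg.Agent.Lib.Helper94M24B
  Cfsg.Agent.Lib.Helper94M24C Cfsg.Agent.Lib.Helper94M24D Cfsg.Agent.Lib.Helper94M24E
  Cfsg.Agent.Lib.Helper94Iso

/-- masks of the standard octad, hexad, dodecad -/
def O0 : ℕ := 8536111
def C0 : ℕ := 8388655
def d0 : ℕ := 10260655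

theorem chkT : dodL.all (fun d => !(Nat.beq (Nat.land d O0) C0) ||
    L5.any (fun P => Nat.beq (app P C0) C0 && Nat.beq (app P d) d0)) = true := by decide +kernel

/-- every pair (dodecad, hexad on it) can be moved to the standard one -/
theorem std_dC {d C : Finset GolayPt} (hd : d ∈ dodecads) (hC : C ∈ hexadsOn d) :
    ∃ k ∈ M24, k • d = dec d0 ∧ k • C = dec C0 := by
  obtain ⟨h6, o, ho, hoC⟩ := hC
  have hsp : Cfsg.Agent.S5600.Special C := ⟨o, ho, by rw [← hoC]; exact Finset.inter_subset_left⟩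
  obtain ⟨k, hk, ⟨_, e⟩ | ⟨h, _⟩⟩ := Cfsg.Agent.S5600.normal_form C h6
  swap
  · exact absurd hsp h
  rw [Cfsg.Agent.S5600.Estd5] at e
  have hko : k • o = dec O0 := by
    apply octads_eq_of_inter (smul_mem_octads hk ho) (dec_mem_octads (by decide +kernel))
    have h2 : dec C0 ⊆ k • o ∩ dec O0 := by
      apply Finset.subset_inter
      · show dec 8388655 ⊆ _
        rw [← e, ← hoC]
        exact Finset.smul_finset_subset_smul_finset Finset.inter_subset_left
      · rw [dec_subset_iff (by norm_num [C0])]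
        decide +kernel
    have h3 := Finset.card_le_card h2
    rw [card_dec] at h3
    have : pop C0 = 6 := by decide +kernel
    omega
  have hkd := smul_mem_dodecads hk hd
  have hmem := (mem_dodecads_iff _).1 hkd
  have hand : Nat.land (enc (k • d)) O0 = C0 := by
    have h1 : k • d ∩ dec O0 = dec C0 := by
      rw [← hko, ← Finset.smul_finset_inter, Finset.inter_comm, hoC]; exact e
    have h2 := congrArg enc h1
    rw [enc_inter, enc_dec (by norm_num [O0]), enc_dec (by norm_num [C0])] at h2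
    exact h2
  have c := List.all_eq_true.1 chkT _ hmem
  rw [hand] at c
  simp only [Nat.beq_refl, Bool.not_true, Bool.false_or, List.any_eq_true, Bool.and_eq_true] at c
  obtain ⟨P, hP, c1, c2⟩ := c
  have hv := L5_valid hP
  refine ⟨toPerm P * k, M24.mul_mem (toPerm_mem_M24 (L5_inM24 hP)) hk, ?_, ?_⟩
  · rw [mul_smul, ← dec_enc (k • d), smul_dec hv, Nat.eq_of_beq_eq_true c2]
  · rw [mul_smul, e]
    show toPerm P • dec C0 = dec C0
    rw [smul_dec hv, Nat.eq_of_beq_eq_true c1]

/-- the joint stabiliser of the standard pair -/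
def St : List ℕ := search (okLv (fun l R => okStab C0 l R)
  (fun R => Nat.beq (app R C0) C0 && Nat.beq (app R d0) d0))

/-- `R` fixes all the points of the mask `m` -/
def fixesM (m R : ℕ) : Bool := r24.all (fun i => Nat.beq (bit m i) 0 || Nat.beq (img R i) i)

theorem St_ok : St.length = 720 ∧ nodupB St = true ∧
    St.all (fun c => Nat.beq c idP || !(fixesM C0 c)) = true ∧
    St.all (fun c => Nat.beq c idP || !(fixesM (Nat.xor d0 C0) c)) = true := by decide +kernel

theorem mem_St {g : Equiv.Perm GolayPt} (hg : g ∈ M24) (h1 : g • dec d0 = dec d0) (h2 : g • dec C0 = dec C0) :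
    ∃ c ∈ St, g = toPerm c := by
  apply lv_sound _ _ hg
  · intro l R hl hR ha
    exact okStab_sound h2 hl hR ha
  · intro R hR e
    rw [← e, smul_dec hR.1] at h1 h2
    rw [dec_injOn (app_lt hR.1 _) (by norm_num [d0]) h1, dec_injOn (app_lt hR.1 _) (by norm_num [C0]) h2]
    simp

theorem card_St : Nat.card {g : Equiv.Perm GolayPt // g ∈ M24 ∧ (g • dec d0 = dec d0 ∧ g • dec C0 = dec C0)} = 720 := by
  rw [card_of_list (fun g => g • dec d0 = dec d0 ∧ g • dec C0 = dec C0) St (nodup_of_nodupB St_ok.2.1),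
    St_ok.1]
  · intro c hc; exact (lv_fin hc).2.1
  · intro c hc
    obtain ⟨h1, _, h3⟩ := lv_fin hc
    rw [Bool.and_eq_true] at h3
    exact ⟨h1.2, by rw [smul_dec h1.1, Nat.eq_of_beq_eq_true h3.2],
      by rw [smul_dec h1.1, Nat.eq_of_beq_eq_true h3.1]⟩
  · intro g hg hQ
    exact mem_St hg hQ.1 hQ.2

theorem fixesM_of {m R : ℕ} (hR : validPerm R = true) (h : ∀ p ∈ dec m, toPerm R p = p) :
    fixesM m R = true := by
  simp only [fixesM, List.all_eq_true, mem_r24, Bool.or_eq_true]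
  intro i hi
  by_cases hb : m.testBit i = true
  · right
    have := h (pt i) (by rw [mem_dec, idx_pt hi]; exact hb)
    rw [toPerm_pt hR hi] at this
    rw [pt_injOn (img_lt hR hi) hi this]; exact Nat.beq_refl _
  · left
    rw [bit_eq]
    simp only [Bool.not_eq_true] at hb
    rw [hb]; rfl

theorem faithful0 {m : ℕ} (hchk : St.all (fun c => Nat.beq c idP || !(fixesM m c)) = true)
    {g : Equiv.Perm GolayPt} (hg : g ∈ M24) (h1 : g • dec d0 = dec d0) (h2 : g • dec C0 = dec C0)
    (hfix : ∀ p ∈ dec m, g p = p) : g = 1 := by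
  obtain ⟨c, hc, rfl⟩ := mem_St hg h1 h2
  have := List.all_eq_true.1 hchk c hc
  rw [Bool.or_eq_true] at this
  rcases this with h | h
  · rw [Nat.eq_of_beq_eq_true h, toPerm_idP]
  · rw [fixesM_of (lv_fin hc).1.1 hfix] at h
    simp at h

theorem conj_smul {k g : Equiv.Perm GolayPt} {X X' : Finset GolayPt} (e : k • X = X') (h : g • X = X) :
    (k * g * k⁻¹) • X' = X' := by
  rw [← e, smul_smul]
  have e' : k * g * k⁻¹ * k = k * g := by group
  rw [e', mul_smul, h]

theorem eq_one_of_conj {k g : Equiv.Perm GolayPt} (h : k * g * k⁻¹ = 1) : g = 1 := by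
  have h2 : g = k⁻¹ * (k * g * k⁻¹) * k := by group
  rw [h2, h]; simp



/-- For a dodecad d of the length-24 code and a hexad C on it (a 6-point intersection of d with an octad): the joint stabiliser of d and C in the code's group is isomorphic to the symmetric group of degree 6, and it acts faithfully both on the six points of C and on the six points of d outside C. -/
theorem result (d : Finset Cfsg.GolayPt) (hd : d ∈ Cfsg.dodecads) (C : Finset Cfsg.GolayPt) (hC : C ∈ Cfsg.hexadsOn d) : Nonempty (↥(MulAction.stabilizer Cfsg.M24 d ⊓ MulAction.stabilizer Cfsg.M24 C) ≃* Equiv.Perm (Fin 6)) ∧ (∀ g ∈ MulAction.stabilizer Cfsg.M24 d ⊓ MulAction.stabilizer Cfsg.M24 C, (∀ p ∈ C, ((g : ↥Cfsg.M24) : Equiv.Perm Cfsg.GolayPt) p = p) → g = 1) ∧ ∀ g ∈ MulAction.stabilizer Cfsg.M24 d ⊓ MulAction.stabilizer Cfsg.M24 C, (∀ p ∈ d \ C, ((g : ↥Cfsg.M24) : Equiv.Perm Cfsg.GolayPt) p = p) → g = 1 := by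
  obtain ⟨k, hk, e1, e2⟩ := std_dC hd hC
  have hmem : ∀ h ∈ MulAction.stabilizer M24 d ⊓ MulAction.stabilizer M24 C,
      ((h : ↥M24) : Equiv.Perm GolayPt) • d = d ∧ ((h : ↥M24) : Equiv.Perm GolayPt) • C = C := by
    intro h hh
    exact ⟨hh.1, hh.2⟩
  have hconjM : ∀ g ∈ M24, k * g * k⁻¹ ∈ M24 := fun g hg => M24.mul_mem (M24.mul_mem hk hg) (M24.inv_mem hk)
  have f1 : ∀ g ∈ MulAction.stabilizer M24 d ⊓ MulAction.stabilizer M24 C,
      (∀ p ∈ C, ((g : ↥M24) : Equiv.Perm GolayPt) p = p) → g = 1 := by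
    intro g hg hfix
    apply Subtype.ext
    apply eq_one_of_conj (k := k)
    apply faithful0 St_ok.2.2.1 (hconjM _ g.2) (conj_smul e1 (hmem g hg).1) (conj_smul e2 (hmem g hg).2)
    intro p hp
    rw [← e2] at hp
    obtain ⟨q, hq, rfl⟩ := Finset.mem_smul_finset.1 hp
    simp [hfix q hq]
  refine ⟨?_, f1, ?_⟩
  · apply iso_perm_of_faithful _ C 6 hC.1 _ (fun h hh => (hmem h hh).2) f1
    have : Nat.factorial 6 = 720 := rfl
    rw [this, ← card_St, ← Cfsg.Agent.S5600.card_conj hk (fun g => g • d = d ∧ g • C = C)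
      (fun g => g • dec d0 = dec d0 ∧ g • dec C0 = dec C0)
      (fun g => by rw [← e1, ← e2, ← Cfsg.Agent.S5600.stab_conj, ← Cfsg.Agent.S5600.stab_conj])]
    apply Nat.card_congr
    exact
      { toFun := fun x => ⟨x.1.1, x.1.2, x.2.1, x.2.2⟩
        invFun := fun x => ⟨⟨x.1, x.2.1⟩, x.2.2.1, x.2.2.2⟩
        left_inv := fun x => rfl
        right_inv := fun x => rfl }
  · intro g hg hfix
    apply Subtype.ext
    apply eq_one_of_conj (k := k)
    apply faithful0 St_ok.2.2.2 (hconjM _ g.2) (conj_smul e1 (hmem g hg).1) (conj_smul e2 (hmem g hg).2)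
    intro p hp
    have hsd : dec (Nat.xor d0 C0) = k • (d \ C) := by
      rw [Finset.smul_finset_sdiff, e1, e2]
      have : Nat.xor d0 C0 = d0 &&& (C0 ^^^ 16777215) := by decide +kernel
      rw [this, dec_sdiff]
    rw [hsd] at hp
    obtain ⟨q, hq, rfl⟩ := Finset.mem_smul_finset.1 hp
    simp [hfix q hq]

end Cfsg.Agent.S5618
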