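import Cfsg.Statements.S5619
import Cfsg.Agent.Lib.Helper94Dod
import Cfsg.Agent.Lib.Helper41Dic

set_option autoImplicit false
open scoped Pointwise
open Cfsg

namespace Cfsg.Agent.S5619

open Cfsg Cfsg.Agent.Lib.Helper33Golay Cfsg.Agent.Lib.Helper94M24A Cfsg.Agent.Lib.Helper94M24B
  Cfsg.Agent.Lib.Helper94M24C Cfsg.Agent.Lib.Helper94M24D Cfsg.Agent.Lib.Helper94M24E
  Cfsg.Agent.Lib.Helper94Dod

theorem f3 : (72:ℕ).factorization 3 = 2 := by
  have h : (72:ℕ) = 3 ^ 2 * 8 := by norm_num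
  rw [h, Nat.factorization_mul (by norm_num) (by norm_num), Nat.factorization_pow]
  have h3 : (Nat.factorization 3) 3 = 1 := Nat.Prime.factorization_self Nat.prime_three
  have h8 : (Nat.factorization 8) 3 = 0 := Nat.factorization_eq_zero_of_not_dvd (by norm_num)
  simp [h3, h8]

theorem f2 : (72:ℕ).factorization 2 = 3 := by
  have h : (72:ℕ) = 2 ^ 3 * 9 := by norm_num
  rw [h, Nat.factorization_mul (by norm_num) (by norm_num), Nat.factorization_pow]
  have h3 : (Nat.factorization 2) 2 = 1 := Nat.Prime.factorization_self Nat.prime_two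
  have h8 : (Nat.factorization 9) 2 = 0 := Nat.factorization_eq_zero_of_not_dvd (by norm_num)
  simp [h3, h8]

/-- the abstract structure statement -/
theorem abstract_m9 (G : Type) [Group G] [Finite G] (hcard : Nat.card G = 72)
    (hT : {x : G | x ^ 9 = 1}.ncard ≤ 9) (h3 : ∀ x : G, x ^ 9 = 1 → x ^ 3 = 1)
    (c y : G) (hc : orderOf c = 2 * 2) (hy : y ^ 2 = c ^ 2) (hyc : y * c * y⁻¹ = c⁻¹)
    (hyn : y ∉ Subgroup.zpowers c) :
    (∀ Q : Sylow 3 G, (Q : Subgroup G).Normal ∧ Nat.card ↥Q = 9 ∧ ∀ x ∈ (Q : Subgroup G), x ^ 3 = 1) ∧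
    ∀ P : Sylow 2 G, Nonempty (↥P ≃* QuaternionGroup 2) := by
  constructor
  · intro Q
    have hQ : Nat.card ↥Q = 9 := by
      have := Q.card_eq_multiplicity
      rw [hcard, f3] at this
      exact this.trans (by norm_num)
    have hsub : ((Q : Subgroup G) : Set G) ⊆ {x : G | x ^ 9 = 1} := by
      intro x hx
      have := pow_card_eq_one' (G := ↥Q) (x := ⟨x, hx⟩)
      rw [hQ] at this
      exact congrArg Subtype.val this
    have heq : ((Q : Subgroup G) : Set G) = {x : G | x ^ 9 = 1} := by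
      apply Set.eq_of_subset_of_ncard_le hsub _ (Set.toFinite _)
      have : ((Q : Subgroup G) : Set G).ncard = 9 := by
        rw [← hQ]; rfl
      rw [this]; exact hT
    have hmem : ∀ x, x ∈ (Q : Subgroup G) ↔ x ^ 9 = 1 := by
      intro x
      have : x ∈ ((Q : Subgroup G) : Set G) ↔ x ∈ {x : G | x ^ 9 = 1} := by rw [heq]
      exact this
    refine ⟨⟨fun x hx g => ?_⟩, hQ, fun x hx => h3 x ((hmem x).1 hx)⟩
    rw [hmem, conj_pow, (hmem x).1 hx]; simp
  · intro P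
    have hinj := Cfsg.Agent.Lib.Helper41Dic.quatHom_injective 2 c y hc hy hyc hyn
    set f := Cfsg.Agent.Lib.Helper41Dic.quatHom 2 c y (hc ▸ pow_orderOf_eq_one c) hy hyc with hf
    have e1 : QuaternionGroup 2 ≃* ↥f.range := MonoidHom.ofInjective hinj
    have hcr : Nat.card ↥f.range = 2 ^ (Nat.card G).factorization 2 := by
      rw [← Nat.card_congr e1.toEquiv, hcard, f2, Cfsg.Agent.Lib.Helper41Dic.card_quaternion]
      norm_num
    exact ⟨(Sylow.equiv P (Sylow.ofCard f.range hcr)).trans e1.symm⟩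

/-- the stabiliser of the standard dodecad and of the points 23, 0, 1 -/
def St : List ℕ := search (okLv (fun l R => okFix [23, 0, 1] l R && okStab d0 l R)
  (fun R => Nat.beq (app R d0) d0 && fixesL [23, 0, 1] R))

def pow3 (R : ℕ) : ℕ := mulP R (mulP R R)
def pow9 (R : ℕ) : ℕ := pow3 (pow3 R)

def c0 : ℕ := 974297736089239669581392726270806048
def y0 : ℕ := 963346641302244241982471832828512288

theorem St_ok : St.length = 72 ∧ nodupB St = true ∧
    (St.filter (fun c => Nat.beq (pow9 c) idP)).length = 9 ∧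
    St.all (fun c => !(Nat.beq (pow9 c) idP) || Nat.beq (pow3 c) idP) = true ∧
    St.elem c0 = true ∧ St.elem y0 = true := by decide +kernel

theorem cy_okB : (Nat.beq (mulP (mulP c0 c0) (mulP c0 c0)) idP && !(Nat.beq (mulP c0 c0) idP) &&
    Nat.beq (mulP y0 y0) (mulP c0 c0) &&
    Nat.beq (mulP (mulP y0 c0) (mulP y0 (mulP y0 y0))) (mulP c0 (mulP c0 c0)) &&
    Nat.beq (mulP y0 (mulP y0 (mulP y0 y0))) idP &&
    !(Nat.beq y0 idP) && !(Nat.beq y0 c0) && !(Nat.beq y0 (mulP c0 c0)) &&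
    !(Nat.beq y0 (mulP c0 (mulP c0 c0)))) = true := by decide +kernel

theorem ne_of_nbeq {a b : ℕ} (h : (!(Nat.beq a b)) = true) : a ≠ b := by
  intro e
  rw [e, Nat.beq_refl] at h
  exact Bool.noConfusion h

theorem cy_ok : mulP (mulP c0 c0) (mulP c0 c0) = idP ∧ mulP c0 c0 ≠ idP ∧ mulP y0 y0 = mulP c0 c0 ∧
    mulP (mulP y0 c0) (mulP y0 (mulP y0 y0)) = mulP c0 (mulP c0 c0) ∧
    mulP y0 (mulP y0 (mulP y0 y0)) = idP ∧
    y0 ≠ idP ∧ y0 ≠ c0 ∧ y0 ≠ mulP c0 c0 ∧ y0 ≠ mulP c0 (mulP c0 c0) := by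
  have h := cy_okB
  simp only [Bool.and_eq_true] at h
  obtain ⟨⟨⟨⟨⟨⟨⟨⟨h1, h2⟩, h3⟩, h4⟩, h5⟩, h6⟩, h7⟩, h8⟩, h9⟩ := h
  exact ⟨Nat.eq_of_beq_eq_true h1, ne_of_nbeq h2, Nat.eq_of_beq_eq_true h3, Nat.eq_of_beq_eq_true h4,
    Nat.eq_of_beq_eq_true h5, ne_of_nbeq h6, ne_of_nbeq h7, ne_of_nbeq h8, ne_of_nbeq h9⟩

theorem toPerm_pow3 {R : ℕ} (hR : validPerm R = true) : toPerm (pow3 R) = toPerm R ^ 3 := by
  unfold pow3
  rw [toPerm_mulP hR (valid_mulP hR hR), toPerm_mulP hR hR, pow_succ' _ 2, pow_two]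

theorem valid_pow3 {R : ℕ} (hR : validPerm R = true) : validPerm (pow3 R) = true := by
  unfold pow3
  exact valid_mulP hR (valid_mulP hR hR)

theorem toPerm_pow9 {R : ℕ} (hR : validPerm R = true) : toPerm (pow9 R) = toPerm R ^ 9 := by
  unfold pow9
  rw [toPerm_pow3 (valid_pow3 hR), toPerm_pow3 hR, ← pow_mul]

theorem norm_pow3 {R : ℕ} (hR : validPerm R = true) : normP (pow3 R) = true := by
  unfold pow3
  exact normP_mulP hR (valid_mulP hR hR)

theorem norm_pow9 {R : ℕ} (hR : validPerm R = true) : normP (pow9 R) = true := by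
  unfold pow9
  exact norm_pow3 (valid_pow3 hR)

theorem pow3_iff {R : ℕ} (hR : validPerm R = true) : pow3 R = idP ↔ toPerm R ^ 3 = 1 := by
  rw [← toPerm_pow3 hR, ← toPerm_idP]
  exact ⟨fun h => by rw [h], fun h => toPerm_injOn (norm_pow3 hR) normP_idP h⟩

theorem pow9_iff {R : ℕ} (hR : validPerm R = true) : pow9 R = idP ↔ toPerm R ^ 9 = 1 := by
  rw [← toPerm_pow9 hR, ← toPerm_idP]
  exact ⟨fun h => by rw [h], fun h => toPerm_injOn (norm_pow9 hR) normP_idP h⟩

/-- membership in the standard group -/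
def Q0 (g : Equiv.Perm GolayPt) : Prop :=
  g • dec d0 = dec d0 ∧ g (pt 23) = pt 23 ∧ g (pt 0) = pt 0 ∧ g (pt 1) = pt 1

theorem mem_St {g : Equiv.Perm GolayPt} (hg : g ∈ M24) (h : Q0 g) : ∃ c ∈ St, g = toPerm c := by
  obtain ⟨h1, h23, h0, h1'⟩ := h
  have hF : ∀ j ∈ [23, 0, 1], g (pt j) = pt j := by
    intro j hj
    simp only [List.mem_cons, List.not_mem_nil, or_false] at hj
    rcases hj with rfl | rfl | rfl <;> assumption
  apply lv_sound _ _ hg
  · intro l R hl hR ha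
    rw [Bool.and_eq_true]
    exact ⟨okFix_sound hF hl hR ha, okStab_sound h1 hl hR ha⟩
  · intro R hR e
    rw [Bool.and_eq_true]
    constructor
    · rw [← e, smul_dec hR.1] at h1
      rw [dec_injOn (app_lt hR.1 _) (by norm_num [d0]) h1]; exact Nat.beq_refl _
    · simp only [fixesL, List.all_eq_true]
      intro j hj
      have hj24 : j < 24 := by
        simp only [List.mem_cons, List.not_mem_nil, or_false] at hj; omega
      have := hF j hj
      rw [← e, toPerm_pt hR.1 hj24] at this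
      rw [pt_injOn (img_lt hR.1 hj24) hj24 this]; exact Nat.beq_refl _

theorem St_spec {c : ℕ} (hc : c ∈ St) : Good c ∧ normP c = true ∧ Q0 (toPerm c) := by
  obtain ⟨h1, h2, h3⟩ := lv_fin hc
  rw [Bool.and_eq_true] at h3
  have hf := h3.2
  simp only [fixesL, List.all_eq_true] at hf
  refine ⟨h1, h2, by rw [smul_dec h1.1, Nat.eq_of_beq_eq_true h3.1], ?_, ?_, ?_⟩
  · rw [toPerm_pt h1.1 (by norm_num), Nat.eq_of_beq_eq_true (hf 23 (by simp))]
  · rw [toPerm_pt h1.1 (by norm_num), Nat.eq_of_beq_eq_true (hf 0 (by simp))]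
  · rw [toPerm_pt h1.1 (by norm_num), Nat.eq_of_beq_eq_true (hf 1 (by simp))]

theorem card_Q0 : Nat.card {g : Equiv.Perm GolayPt // g ∈ M24 ∧ Q0 g} = 72 := by
  rw [card_of_list Q0 St (nodup_of_nodupB St_ok.2.1) (fun c hc => (St_spec hc).2.1)
    (fun c hc => ⟨(St_spec hc).1.2, (St_spec hc).2.2⟩) (fun g hg hQ => mem_St hg hQ), St_ok.1]

/-- the structure statement for a group with an injective homomorphism onto the standard group -/
theorem of_model (G : Type) [Group G] [Finite G] (ψ : G →* Equiv.Perm GolayPt)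
    (hinj : Function.Injective ψ) (h1 : ∀ x, ψ x ∈ M24 ∧ Q0 (ψ x))
    (h2 : ∀ g ∈ M24, Q0 g → ∃ x, ψ x = g) :
    (∀ Q : Sylow 3 G, (Q : Subgroup G).Normal ∧ Nat.card ↥Q = 9 ∧ ∀ x ∈ (Q : Subgroup G), x ^ 3 = 1) ∧
    ∀ P : Sylow 2 G, Nonempty (↥P ≃* QuaternionGroup 2) := by
  have hcard : Nat.card G = 72 := by
    rw [← card_Q0]
    apply Nat.card_congr
    apply Equiv.ofBijective (fun x => (⟨ψ x, h1 x⟩ : {g : Equiv.Perm GolayPt // g ∈ M24 ∧ Q0 g}))
    constructor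
    · intro a b hab
      exact hinj (congrArg Subtype.val hab)
    · rintro ⟨g, hg, hQ⟩
      obtain ⟨x, hx⟩ := h2 g hg hQ
      exact ⟨x, Subtype.ext hx⟩
  have hpow : ∀ (x : G) (n : ℕ), x ^ n = 1 ↔ ψ x ^ n = 1 := by
    intro x n
    rw [← map_pow]
    exact ⟨fun h => by rw [h, map_one], fun h => hinj (by rw [h, map_one])⟩
  have hT : {x : G | x ^ 9 = 1}.ncard ≤ 9 := by
    classical
    rw [← Set.ncard_image_of_injective _ hinj]
    have hsub : ψ '' {x : G | x ^ 9 = 1} ⊆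
        (((St.filter (fun c => Nat.beq (pow9 c) idP)).map toPerm).toFinset : Set (Equiv.Perm GolayPt)) := by
      rintro _ ⟨x, hx, rfl⟩
      obtain ⟨c, hc, e⟩ := mem_St (h1 x).1 (h1 x).2
      simp only [List.coe_toFinset, List.mem_map, List.mem_filter, Set.mem_ofPred_eq]
      refine ⟨c, ⟨hc, ?_⟩, e.symm⟩
      have h9 : toPerm c ^ 9 = 1 := by rw [← e]; exact (hpow x 9).1 hx
      rw [(pow9_iff (St_spec hc).1.1).2 h9]; exact Nat.beq_refl _
    refine le_trans (Set.ncard_le_ncard hsub (Finset.finite_toSet _)) ?_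
    rw [Set.ncard_coe_finset]
    refine le_trans (List.toFinset_card_le _) ?_
    rw [List.length_map, St_ok.2.2.1]
  have h3 : ∀ x : G, x ^ 9 = 1 → x ^ 3 = 1 := by
    intro x hx
    obtain ⟨c, hc, e⟩ := mem_St (h1 x).1 (h1 x).2
    have hv := (St_spec hc).1.1
    have h9 : toPerm c ^ 9 = 1 := by rw [← e]; exact (hpow x 9).1 hx
    have := List.all_eq_true.1 St_ok.2.2.2.1 c hc
    rw [(pow9_iff hv).2 h9] at this
    simp only [Nat.beq_refl, Bool.not_true, Bool.false_or] at this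
    rw [hpow, e]
    exact (pow3_iff hv).1 (Nat.eq_of_beq_eq_true this)
  have hc0 : c0 ∈ St := by simpa using St_ok.2.2.2.2.1
  have hy0 : y0 ∈ St := by simpa using St_ok.2.2.2.2.2
  have vc := (St_spec hc0).1.1
  have vy := (St_spec hy0).1.1
  obtain ⟨c, hc⟩ := h2 _ (St_spec hc0).1.2 (St_spec hc0).2.2
  obtain ⟨y, hy⟩ := h2 _ (St_spec hy0).1.2 (St_spec hy0).2.2
  obtain ⟨r1, r2, r3, r4, r5, n0, n1, n2, n3⟩ := cy_ok
  have vcc := valid_mulP vc vc
  have vyy := valid_mulP vy vy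
  have C4 : toPerm c0 ^ 4 = 1 := by
    have : toPerm c0 ^ 4 = (toPerm c0 * toPerm c0) * (toPerm c0 * toPerm c0) := by
      simp only [pow_succ, pow_zero, one_mul, mul_assoc]
    rw [this, ← toPerm_mulP vc vc, ← toPerm_mulP vcc vcc, r1, toPerm_idP]
  have C2 : toPerm c0 ^ 2 ≠ 1 := by
    intro h
    rw [pow_two, ← toPerm_mulP vc vc, ← toPerm_idP] at h
    exact r2 (toPerm_injOn (normP_mulP vc vc) normP_idP h)
  have Y4 : toPerm y0 * (toPerm y0 * (toPerm y0 * toPerm y0)) = 1 := by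
    rw [← toPerm_mulP vy vy, ← toPerm_mulP vy vyy, ← toPerm_mulP vy (valid_mulP vy vyy), r5, toPerm_idP]
  have Yinv : (toPerm y0)⁻¹ = toPerm y0 * (toPerm y0 * toPerm y0) := inv_eq_of_mul_eq_one_right Y4
  have Cinv : (toPerm c0)⁻¹ = toPerm c0 * (toPerm c0 * toPerm c0) := by
    apply inv_eq_of_mul_eq_one_right
    rw [← C4]; simp only [pow_succ, pow_zero, one_mul, mul_assoc]
  apply abstract_m9 G hcard hT h3 c y
  · have h4 : c ^ 2 ^ 2 = 1 := by
      rw [hpow, hc]; exact C4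
    have h2' : ¬ c ^ 2 ^ 1 = 1 := by
      rw [hpow, hc]; exact C2
    exact orderOf_eq_prime_pow h2' h4
  · apply hinj
    rw [map_pow, map_pow, hc, hy, pow_two, pow_two, ← toPerm_mulP vy vy, ← toPerm_mulP vc vc, r3]
  · apply hinj
    rw [map_mul, map_mul, map_inv, map_inv, hc, hy, Yinv, Cinv, ← toPerm_mulP vy vy, ← toPerm_mulP vy vyy,
      ← toPerm_mulP vy vc, ← toPerm_mulP (valid_mulP vy vc) (valid_mulP vy vyy), r4,
      toPerm_mulP vc vcc, toPerm_mulP vc vc]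
  · intro hmem
    rw [← mem_powers_iff_mem_zpowers] at hmem
    obtain ⟨j, hj⟩ := hmem
    have hj' : toPerm c0 ^ (j % 4) = toPerm y0 := by
      have e : toPerm c0 ^ j = toPerm c0 ^ (j % 4) := by
        conv_lhs => rw [← Nat.div_add_mod j 4, pow_add, pow_mul, C4, one_pow, one_mul]
      rw [← e, ← hc, ← hy, ← map_pow]
      exact congrArg ψ hj
    have hlt : j % 4 < 4 := Nat.mod_lt _ (by norm_num)
    have ny := (St_spec hy0).2.1
    generalize j % 4 = r at hj' hlt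
    interval_cases r
    · rw [pow_zero, ← toPerm_idP] at hj'
      exact n0 (toPerm_injOn ny normP_idP hj'.symm)
    · rw [pow_one] at hj'
      exact n1 (toPerm_injOn ny (St_spec hc0).2.1 hj'.symm)
    · rw [pow_two, ← toPerm_mulP vc vc] at hj'
      exact n2 (toPerm_injOn ny (normP_mulP vc vc) hj'.symm)
    · rw [pow_succ' _ 2, pow_two, ← toPerm_mulP vc vc, ← toPerm_mulP vc vcc] at hj'
      exact n3 (toPerm_injOn ny (normP_mulP vc vcc) hj'.symm)



/-- In the group of the length-24 code, the subgroup fixing a dodecad setwise and three of its points individually (a group of order 72) has a normal Sylow 3-subgroup that is elementary abelian of order 9, and its Sylow 2-subgroups are quaternion of order 8. -/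
theorem result (d : Finset Cfsg.GolayPt) (hd : d ∈ Cfsg.dodecads) (p q r : Cfsg.GolayPt) (hp : p ∈ d) (hq : q ∈ d) (hr : r ∈ d) (hpq : p ≠ q) (hpr : p ≠ r) (hqr : q ≠ r) : (∀ Q : Sylow 3 ↥(MulAction.stabilizer Cfsg.M24 d ⊓ MulAction.stabilizer Cfsg.M24 p ⊓ MulAction.stabilizer Cfsg.M24 q ⊓ MulAction.stabilizer Cfsg.M24 r), (Q : Subgroup ↥(MulAction.stabilizer Cfsg.M24 d ⊓ MulAction.stabilizer Cfsg.M24 p ⊓ MulAction.stabilizer Cfsg.M24 q ⊓ MulAction.stabilizer Cfsg.M24 r)).Normal ∧ Nat.card ↥Q = 9 ∧ ∀ x ∈ (Q : Subgroup ↥(MulAction.stabilizer Cfsg.M24 d ⊓ MulAction.stabilizer Cfsg.M24 p ⊓ MulAction.stabilizer Cfsg.M24 q ⊓ MulAction.stabilizer Cfsg.M24 r)), x ^ 3 = 1) ∧ ∀ P : Sylow 2 ↥(MulAction.stabilizer Cfsg.M24 d ⊓ MulAction.stabilizer Cfsg.M24 p ⊓ MulAction.stabilizer Cfsg.M24 q ⊓ MulAction.stabilizer Cfsg.M24 r), Nonempty (↥P ≃* QuaternionGroup 2) := by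
  -- two more points of the dodecad
  have hcd : d.card = 12 := hd.2
  obtain ⟨s, hs, hs'⟩ : ∃ s ∈ d, s ∉ ({p, q, r} : Finset GolayPt) := by
    apply Finset.exists_mem_notMem_of_card_lt_card
    exact lt_of_le_of_lt Finset.card_le_three (by rw [hcd]; norm_num)
  obtain ⟨t, ht, ht'⟩ : ∃ t ∈ d, t ∉ ({p, q, r, s} : Finset GolayPt) := by
    apply Finset.exists_mem_notMem_of_card_lt_card
    exact lt_of_le_of_lt Finset.card_le_four (by rw [hcd]; norm_num)
  simp only [Finset.mem_insert, Finset.mem_singleton, not_or] at hs' ht'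
  obtain ⟨k, hk, kd, k0, k1, k2, _, _⟩ := std_d5 hd p q r s t (by
    simp only [List.nodup_cons, List.mem_cons, List.not_mem_nil, or_false, not_or,
      not_false_eq_true, List.nodup_nil, and_true]
    exact ⟨⟨hpq, hpr, Ne.symm hs'.1, Ne.symm ht'.1⟩, ⟨hqr, Ne.symm hs'.2.1, Ne.symm ht'.2.1⟩,
      ⟨Ne.symm hs'.2.2, Ne.symm ht'.2.2.1⟩, Ne.symm ht'.2.2.2⟩) hp hq hr hs ht
  set H := MulAction.stabilizer M24 d ⊓ MulAction.stabilizer M24 p ⊓ MulAction.stabilizer M24 q ⊓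
    MulAction.stabilizer M24 r with hH
  have hmem : ∀ x : ↥M24, x ∈ H ↔ ((x : Equiv.Perm GolayPt) • d = d ∧ (x : Equiv.Perm GolayPt) p = p ∧
      (x : Equiv.Perm GolayPt) q = q ∧ (x : Equiv.Perm GolayPt) r = r) := by
    intro x
    rw [hH]
    simp only [Subgroup.mem_inf, MulAction.mem_stabilizer_iff, and_assoc]
    rfl
  let ψ : ↥H →* Equiv.Perm GolayPt :=
    (MulAut.conj k).toMonoidHom.comp (M24.subtype.comp H.subtype)
  have hψ : ∀ x : ↥H, ψ x = k * ((x : ↥M24) : Equiv.Perm GolayPt) * k⁻¹ := fun x => rfl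
  apply of_model ↥H ψ
  · intro a b hab
    rw [hψ, hψ] at hab
    apply Subtype.ext; apply Subtype.ext
    exact mul_left_cancel (mul_right_cancel hab)
  · intro x
    obtain ⟨x1, x2, x3, x4⟩ := (hmem x.1).1 x.2
    rw [hψ]
    refine ⟨M24.mul_mem (M24.mul_mem hk x.1.2) (M24.inv_mem hk), ?_, conj_apply k _ k0 k0 x2,
      conj_apply k _ k1 k1 x3, conj_apply k _ k2 k2 x4⟩
    rw [← kd, smul_smul]
    have e' : k * ((x : ↥M24) : Equiv.Perm GolayPt) * k⁻¹ * k = k * ((x : ↥M24) : Equiv.Perm GolayPt) := by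
      group
    rw [e', mul_smul, x1]
  · intro g hg hQ
    obtain ⟨g1, g2, g3, g4⟩ := hQ
    have hm : k⁻¹ * g * k ∈ M24 := M24.mul_mem (M24.mul_mem (M24.inv_mem hk) hg) hk
    refine ⟨⟨⟨k⁻¹ * g * k, hm⟩, (hmem _).2 ⟨?_, ?_, ?_, ?_⟩⟩, ?_⟩
    · show (k⁻¹ * g * k) • d = d
      rw [mul_smul, mul_smul, kd, g1, ← kd, inv_smul_smul]
    · show (k⁻¹ * g * k) p = p
      rw [Equiv.Perm.mul_apply, Equiv.Perm.mul_apply, k0, g2, ← k0]; exact Equiv.symm_apply_apply k _
    · show (k⁻¹ * g * k) q = q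
      rw [Equiv.Perm.mul_apply, Equiv.Perm.mul_apply, k1, g3, ← k1]; exact Equiv.symm_apply_apply k _
    · show (k⁻¹ * g * k) r = r
      rw [Equiv.Perm.mul_apply, Equiv.Perm.mul_apply, k2, g4, ← k2]; exact Equiv.symm_apply_apply k _
    · rw [hψ]
      show k * (k⁻¹ * g * k) * k⁻¹ = g
      group

end Cfsg.Agent.S5619
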