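import Cfsg.Statements.S5620
import Cfsg.Agent.Lib.Helper94M24A

set_option autoImplicit false
open scoped Pointwise
open Cfsg

namespace Cfsg.Agent.S5620

open Cfsg Cfsg.Agent.Lib.Helper33Golay Cfsg.Agent.Lib.Helper94M24A

def gP : ℕ := 1795248432537898728475572672376535
def xP : ℕ := 984527474803418371437178226706815250

theorem sq_eq : Spor.squareDodecad = dec 340831 := by
  unfold Spor.squareDodecad
  have : qrWord 0 = vec 340831 := by
    funext p
    exact qrWord_eq 0 p
  rw [this, support₂_vec]

theorem pt23 : pt 23 = (none : GolayPt) := by simp [pt]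

theorem pt0 : pt 0 = (some 0 : GolayPt) := by simp [pt]

theorem chk : (inM24 gP && Nat.beq (app gP 340831) (Nat.xor 340831 16777215) && Nat.beq (img gP 0) 23 &&
    inM24 xP && Nat.beq (app xP 340831) 340831 && Nat.beq (img xP 23) 23 &&
    (List.range 24).all (fun j => !(Nat.testBit 340831 j) || !(Nat.beq (img xP j) j))) = true := by
  decide +kernel

theorem stab_compl (y : Equiv.Perm GolayPt) (D : Finset GolayPt) :
    y • (Finset.univ \ D) = Finset.univ \ D ↔ y • D = D := by
  rw [Finset.smul_finset_sdiff, Finset.smul_finset_univ, ← Finset.compl_eq_univ_sdiff,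
    ← Finset.compl_eq_univ_sdiff, compl_inj_iff]

theorem conj_eq {g : Equiv.Perm GolayPt} (hg : g ∈ M24)
    (hD : g • Spor.squareDodecad = Finset.univ \ Spor.squareDodecad) (h0 : g (some 0) = none) :
    MulAut.conj g • Spor.M11 =
      Spor.M12 ⊓ MulAction.stabilizer (Equiv.Perm GolayPt) (none : GolayPt) := by
  ext y
  rw [Subgroup.mem_pointwise_smul_iff_inv_smul_mem, MulAut.smul_def, MulAut.conj_inv_apply]
  unfold Spor.M11 Spor.M12
  simp only [Subgroup.mem_inf]
  have e1 : g⁻¹ * y * g ∈ M24 ↔ y ∈ M24 := by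
    rw [Subgroup.mul_mem_cancel_right _ hg, Subgroup.mul_mem_cancel_left _ (M24.inv_mem hg)]
  have e2 : (g⁻¹ * y * g) • Spor.squareDodecad = Spor.squareDodecad ↔
      y • Spor.squareDodecad = Spor.squareDodecad := by
    rw [mul_smul, mul_smul, inv_smul_eq_iff, hD, stab_compl]
  have e3 : (g⁻¹ * y * g) • (some 0 : GolayPt) = some 0 ↔ y • (none : GolayPt) = none := by
    rw [mul_smul, mul_smul, inv_smul_eq_iff]
    show y • (g (some 0)) = g (some 0) ↔ _
    rw [h0]
  exact and_congr (and_congr e1 e2) e3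


/-- Inside the stabiliser of the dodecad of squares (a Mathieu group of degree 12), the stabiliser of the residue 0 (a point of the dodecad) and the stabiliser of the extra point (a point outside the dodecad) are isomorphic but not conjugate; conjugation by a suitable element of the code's group that maps the dodecad of squares onto its complement carries the first onto the second. -/
theorem result : Nonempty (↥(Cfsg.Spor.M12 ⊓ MulAction.stabilizer (Equiv.Perm Cfsg.GolayPt) (none : Cfsg.GolayPt)) ≃* ↥Cfsg.Spor.M11) ∧ (¬ ∃ k ∈ Cfsg.Spor.M12, MulAut.conj k • Cfsg.Spor.M11 = Cfsg.Spor.M12 ⊓ MulAction.stabilizer (Equiv.Perm Cfsg.GolayPt) (none : Cfsg.GolayPt)) ∧ ∃ g ∈ Cfsg.M24, g • Cfsg.Spor.squareDodecad = Finset.univ \ Cfsg.Spor.squareDodecad ∧ MulAut.conj g • Cfsg.Spor.M11 = Cfsg.Spor.M12 ⊓ MulAction.stabilizer (Equiv.Perm Cfsg.GolayPt) (none : Cfsg.GolayPt) := by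
  have c := chk
  simp only [Bool.and_eq_true] at c
  obtain ⟨⟨⟨⟨⟨⟨c1, c2⟩, c3⟩, c4⟩, c5⟩, c6⟩, c7⟩ := c
  have vg := inM24_valid c1
  have vx := inM24_valid c4
  have hg : toPerm gP ∈ M24 := toPerm_mem_M24 c1
  have hD : toPerm gP • Spor.squareDodecad = Finset.univ \ Spor.squareDodecad := by
    rw [sq_eq, smul_dec vg, Nat.eq_of_beq_eq_true c2, ← Finset.compl_eq_univ_sdiff]
    exact dec_compl _
  have h0 : toPerm gP (some 0) = none := by
    rw [← pt0, toPerm_pt vg (by norm_num), Nat.eq_of_beq_eq_true c3, pt23]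
  have hconj := conj_eq hg hD h0
  refine ⟨?_, ?_, toPerm gP, hg, hD, hconj⟩
  · rw [← hconj]
    exact ⟨(Subgroup.equivSMul (MulAut.conj (toPerm gP)) Spor.M11).symm⟩
  · rintro ⟨k, hk, e⟩
    have hx : toPerm xP ∈ Spor.M12 ⊓ MulAction.stabilizer (Equiv.Perm GolayPt) (none : GolayPt) := by
      unfold Spor.M12
      simp only [Subgroup.mem_inf, MulAction.mem_stabilizer_iff]
      refine ⟨⟨toPerm_mem_M24 c4, ?_⟩, ?_⟩
      · rw [sq_eq, smul_dec vx, Nat.eq_of_beq_eq_true c5]
      · show toPerm xP none = none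
        rw [← pt23, toPerm_pt vx (by norm_num), Nat.eq_of_beq_eq_true c6]
    rw [← e, Subgroup.mem_pointwise_smul_iff_inv_smul_mem, MulAut.smul_def, MulAut.conj_inv_apply] at hx
    have hfix : (k⁻¹ * toPerm xP * k) (some 0) = some 0 := hx.2
    have hfix' : toPerm xP (k (some 0)) = k (some 0) := by
      have := congrArg k hfix
      simpa using this
    have hmem : k (some 0) ∈ dec 340831 := by
      have hk2 : k • Spor.squareDodecad = Spor.squareDodecad := hk.2
      rw [← sq_eq, ← hk2]
      apply Finset.smul_mem_smul_finset (a := k)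
      rw [sq_eq, ← pt0]
      decide +kernel
    set p := k (some 0) with hp
    have hb : Nat.testBit 340831 (idx p) = true := by
      simpa [dec] using hmem
    have c8 := List.all_eq_true.1 c7 (idx p) (List.mem_range.2 (idx_lt p))
    rw [hb] at c8
    have h9 : img xP (idx p) = idx p := by
      rw [← idx_toPerm vx, hfix']
    rw [h9, Nat.beq_refl] at c8
    simp at c8

end Cfsg.Agent.S5620
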