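import Cfsg.Statements.S5625
import Cfsg.Agent.Lib.Helper8Steiner

set_option autoImplicit false
open Cfsg

namespace Cfsg.Agent.S5625

open Cfsg.Agent.Lib.Helper8Steiner in
theorem count {α : Type*} [Fintype α] [DecidableEq α] (hα : Fintype.card α = 24) (B : Set (Finset α))
    (hB : Cfsg.IsSteinerSystem 5 8 B) (Y : Finset α) (hY : Y.card = 3) (j : ℕ) (hj : j ≤ 3) :
    (({b : Finset α | b ∈ B ∧ (b ∩ Y).card = j}.ncard : ℕ) : ℤ) =
      (Nat.choose 3 j : ℤ) * tri lam24 j (3 - j) := by
  classical
  have hlam : ∀ I : Finset α, I ⊆ Y → (nb B I : ℤ) = lam24 I.card := by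
    intro I hI
    have hc : I.card ≤ 3 := hY ▸ Finset.card_le_card hI
    interval_cases h : I.card
    · rw [nb24_0 hα hB I h]; rfl
    · rw [nb24_1 hα hB I h]; rfl
    · rw [nb24_2 hα hB I h]; rfl
    · rw [nb24_3 hα hB I h]; rfl
  have hset : {b : Finset α | b ∈ B ∧ (b ∩ Y).card = j} =
      ((Finset.univ.filter fun b : Finset α => b ∈ B ∧ (b ∩ Y).card = j : Finset _) : Set _) := by
    ext b; simp
  rw [hset, Set.ncard_coe_finset]
  rw [Finset.card_eq_sum_card_fiberwise (f := fun b => b ∩ Y) (t := Finset.powersetCard j Y)]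
  · have hterm : ∀ I ∈ Finset.powersetCard j Y,
        (((Finset.univ.filter fun b : Finset α => b ∈ B ∧ (b ∩ Y).card = j).filter
          fun b => b ∩ Y = I).card : ℤ) = tri lam24 j (3 - j) := by
      intro I hI
      rw [Finset.mem_powersetCard] at hI
      have h1 := mu_eq_tri lam24 hlam (3 - j) I (Y \ I) hI.1 Finset.sdiff_subset
        Finset.disjoint_sdiff (by rw [Finset.card_sdiff_of_subset hI.1, hY, hI.2])
      rw [hI.2] at h1
      rw [← h1]
      unfold mu
      congr 2
      ext b
      simp only [Finset.mem_filter, Finset.mem_univ, true_and]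
      constructor
      · rintro ⟨⟨hb, _⟩, hbI⟩
        refine ⟨hb, ?_, ?_⟩
        · rw [← hbI]; exact Finset.inter_subset_left
        · rw [Finset.disjoint_left]
          intro x hx hx'
          rw [Finset.mem_sdiff] at hx'
          apply hx'.2
          rw [← hbI]
          exact Finset.mem_inter.mpr ⟨hx, hx'.1⟩
      · rintro ⟨hb, hIb, hd⟩
        have hbI : b ∩ Y = I := by
          ext x
          rw [Finset.mem_inter]
          constructor
          · rintro ⟨hxb, hxY⟩
            by_contra hxI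
            exact (Finset.disjoint_left.mp hd) hxb (Finset.mem_sdiff.mpr ⟨hxY, hxI⟩)
          · intro hxI
            exact ⟨hIb hxI, hI.1 hxI⟩
        exact ⟨⟨hb, by rw [hbI, hI.2]⟩, hbI⟩
    rw [Nat.cast_sum, Finset.sum_congr rfl hterm, Finset.sum_const, Finset.card_powersetCard, hY]
    simp
  · intro b hb
    simp only [Finset.coe_filter, Finset.mem_univ, true_and, Set.mem_ofPred_eq] at hb
    exact Finset.mem_coe.mpr (Finset.mem_powersetCard.mpr ⟨Finset.inter_subset_right, hb.2⟩)

/-- In any Steiner system S(5, 8, 24) and for any set Y of three points, the blocks meeting Y in exactly 3, 2, 1 and 0 points number 21, 168, 360 and 210 respectively (so there are 759 blocks in all). -/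
theorem result (α : Type*) [Fintype α] [DecidableEq α] (hα : Fintype.card α = 24) (B : Set (Finset α)) (hB : Cfsg.IsSteinerSystem 5 8 B) (Y : Finset α) (hY : Y.card = 3) : {b : Finset α | b ∈ B ∧ (b ∩ Y).card = 3}.ncard = 21 ∧ {b : Finset α | b ∈ B ∧ (b ∩ Y).card = 2}.ncard = 168 ∧ {b : Finset α | b ∈ B ∧ (b ∩ Y).card = 1}.ncard = 360 ∧ {b : Finset α | b ∈ B ∧ (b ∩ Y).card = 0}.ncard = 210 := by
  have h3 := count hα B hB Y hY 3 (by norm_num)
  have h2 := count hα B hB Y hY 2 (by norm_num)
  have h1 := count hα B hB Y hY 1 (by norm_num)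
  have h0 := count hα B hB Y hY 0 (by norm_num)
  simp only [Cfsg.Agent.Lib.Helper8Steiner.tri, Cfsg.Agent.Lib.Helper8Steiner.lam24, Nat.choose,
    Nat.sub_self, Nat.reduceSub, Nat.reduceAdd] at h0 h1 h2 h3
  norm_num [-Finset.card_eq_zero] at h0 h1 h2 h3
  exact ⟨by exact_mod_cast h3, by exact_mod_cast h2, by exact_mod_cast h1, by exact_mod_cast h0⟩

end Cfsg.Agent.S5625
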