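import Cfsg.Statements.S5630
import Cfsg.Agent.Lib.Helper98AschMainAux
import Cfsg.Agent.Lib.Helper7AschC6

set_option autoImplicit false
open Cfsg

namespace Cfsg.Agent.S5630

/-- Subgroup structure of the finite linear groups in dimension at least 3. Let F be a finite field, n ≥ 3, and let H be a subgroup of SL_n(F) (the kernel of the determinant inside GL_n(F)) whose product with the scalar matrices of determinant one is not all of SL_n(F), i.e. H does not cover PSL_n(F). Then either H is contained in a member of one of the eight geometric classes of subgroups of GL_n(F) (reducible, imprimitive, extension field, tensor product, subfield, symplectic-type normaliser, tensor wreath, similarity group of a form, with the conditions built into InLinearClass), or H is in the residual class: modulo scalars it is almost simple, and the perfect preimage of its socle acts absolutely irreducibly, is realisable over no proper subfield, and fixes no non-degenerate quadratic, symplectic or unitary form. (Dimension 2, where the linear and symplectic groups coincide, is left to the classical list of subgroups of PSL_2.) -/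
theorem result {F : Type*} [Field F] [Fintype F] (n : ℕ) (hn : 3 ≤ n) (H : Subgroup (Matrix.GeneralLinearGroup (Fin n) F)) (hH : H ≤ Cfsg.Geo.specialLinear (Fin n) F) (hproper : H ⊔ (Cfsg.Geo.scalars (Fin n) F ⊓ Cfsg.Geo.specialLinear (Fin n) F) ≠ Cfsg.Geo.specialLinear (Fin n) F) : (∃ M : Subgroup (Matrix.GeneralLinearGroup (Fin n) F), Cfsg.Geo.InLinearClass n F M ∧ H ≤ M) ∨ Cfsg.Geo.InLinearResidualClass H := by
  rcases Cfsg.Agent.Lib.Helper98AschMainAux.main_aux (n := n) (F := F) (by omega)
    (fun h1 h2 h3 h4 h5 => Cfsg.Agent.Lib.Helper7AschC6.c6_alt hn h1 h2 h3 h4 h5) H with h | h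
  · exact Or.inl (Cfsg.Agent.Lib.Helper98AschMainAux.geomAlt_imp hn h)
  · exact Or.inr h

end Cfsg.Agent.S5630
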