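import Cfsg.Statements.S5632
import Cfsg.Agent.Lib.Helper95Basic

set_option autoImplicit false
open Cfsg

namespace Cfsg.Agent.S5632

open Cfsg.Agent.Lib.Helper95Basic

/-- For a finite field F and subspaces 0 < W < U of F^n with dim W + dim U = n, the elements of SL_n(F) stabilising both W and U form a subgroup that is not maximal in SL_n(F): some subgroup lies strictly between it and SL_n(F). -/
theorem result {F : Type*} [Field F] [Fintype F] (n : ℕ) (W U : Submodule F (Fin n → F)) (hW0 : W ≠ ⊥) (hWU : W < U) (hdim : Module.finrank F W + Module.finrank F U = n) : ∃ K : Subgroup (Matrix.GeneralLinearGroup (Fin n) F), Cfsg.Geo.subspaceStabilizer W ⊓ Cfsg.Geo.subspaceStabilizer U ⊓ Cfsg.Geo.specialLinear (Fin n) F < K ∧ K < Cfsg.Geo.specialLinear (Fin n) F := by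
  obtain ⟨w, hwW, hw0⟩ := Submodule.exists_mem_ne_zero_of_ne_bot hW0
  obtain ⟨u, huU, huW⟩ := SetLike.exists_of_lt hWU
  have hU1 : U ≠ ⊤ := by
    rintro rfl
    have h1 : Module.finrank F (⊤ : Submodule F (Fin n → F)) = n := by simp
    have h2 : 0 < Module.finrank F W := Module.finrank_pos_iff_exists_ne_zero.2 ⟨⟨w, hwW⟩, by
      intro h
      exact hw0 (congrArg Subtype.val h)⟩
    omega
  obtain ⟨x, hxU⟩ : ∃ x, x ∉ U := by
    by_contra hcon
    push Not at hcon
    exact hU1 (eq_top_iff.2 fun y _ => hcon y)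
  have hxW : x ∉ W := fun h => hxU (hWU.le h)
  have hu' : u ∉ W ⊔ Submodule.span F {x} := by
    intro h
    obtain ⟨a, ha, b, hb, hab⟩ := Submodule.mem_sup.1 h
    obtain ⟨c, rfl⟩ := Submodule.mem_span_singleton.1 hb
    by_cases hc : c = 0
    · subst hc
      apply huW
      rw [← hab]
      simpa using ha
    · apply hxU
      have h1 : c • x ∈ U := by
        have : c • x = u - a := by rw [← hab]; abel
        rw [this]
        exact U.sub_mem huU (hWU.le ha)
      exact (U.smul_mem_iff hc).1 h1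
  have hw' : w ∉ Submodule.span F {x} := by
    intro h
    obtain ⟨c, rfl⟩ := Submodule.mem_span_singleton.1 h
    have hc : c ≠ 0 := by
      rintro rfl
      simp at hw0
    exact hxW ((W.smul_mem_iff hc).1 hwW)
  obtain ⟨ℓ, hℓu, hℓW⟩ := Submodule.exists_le_ker_of_notMem hu'
  obtain ⟨ℓ', hℓw, hℓx⟩ := Submodule.exists_le_ker_of_notMem hw'
  have hℓx0 : ℓ x = 0 := LinearMap.mem_ker.1 (hℓW (Submodule.mem_sup_right (Submodule.mem_span_singleton_self x)))
  have hℓ'x0 : ℓ' x = 0 := LinearMap.mem_ker.1 (hℓx (Submodule.mem_span_singleton_self x))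
  refine ⟨Cfsg.Geo.subspaceStabilizer W ⊓ Cfsg.Geo.specialLinear (Fin n) F, ?_, ?_⟩
  · refine lt_of_le_of_ne ?_ ?_
    · intro g hg
      exact ⟨hg.1.1, hg.2⟩
    · intro heq
      have h1 : tv x ℓ hℓx0 ∈ Cfsg.Geo.subspaceStabilizer W ⊓ Cfsg.Geo.specialLinear (Fin n) F := by
        refine ⟨mem_subspaceStabilizer_of_le _ _ ?_, tv_mem_specialLinear _ _ _⟩
        intro v hv
        rw [tv_mulVec]
        have : ℓ v = 0 := LinearMap.mem_ker.1 (hℓW (Submodule.mem_sup_left hv))
        rw [this]
        simpa using hv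
      rw [← heq] at h1
      have h2 := (mem_subspaceStabilizer_iff U _).1 h1.1.2 u
      rw [tv_mulVec] at h2
      have h3 := h2.1 huU
      have h4 : ℓ u • x ∈ U := by
        have := U.sub_mem h3 huU
        simpa using this
      exact hxU ((U.smul_mem_iff hℓu).1 h4)
  · refine lt_of_le_of_ne inf_le_right ?_
    intro heq
    have h1 : tv x ℓ' hℓ'x0 ∈ Cfsg.Geo.specialLinear (Fin n) F := tv_mem_specialLinear _ _ _
    rw [← heq] at h1
    have h2 := (mem_subspaceStabilizer_iff W _).1 h1.1 w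
    rw [tv_mulVec] at h2
    have h3 := h2.1 hwW
    have h4 : ℓ' w • x ∈ W := by
      have := W.sub_mem h3 hwW
      simpa using this
    exact hxW ((W.smul_mem_iff hℓw).1 h4)

end Cfsg.Agent.S5632
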