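import Cfsg.Statements.S5633
import Cfsg.Agent.Lib.Helper95Basic
-- import your own Cfsg.Agent.* helpers here

set_option autoImplicit false
open Cfsg

namespace Cfsg.Agent.S5633

open Cfsg.Agent.Lib.Helper95Basic

/-- For a finite field F and complementary non-zero subspaces W ⊕ U = F^n with dim W < dim U, the elements of SL_n(F) stabilising both W and U form a subgroup that is not maximal in SL_n(F): some subgroup lies strictly between it and SL_n(F). -/
theorem result {F : Type*} [Field F] [Fintype F] (n : ℕ) (W U : Submodule F (Fin n → F)) (hW0 : W ≠ ⊥) (hWU : W ⊓ U = ⊥) (hWU' : W ⊔ U = ⊤) (hdim : Module.finrank F W < Module.finrank F U) : ∃ K : Subgroup (Matrix.GeneralLinearGroup (Fin n) F), Cfsg.Geo.subspaceStabilizer W ⊓ Cfsg.Geo.subspaceStabilizer U ⊓ Cfsg.Geo.specialLinear (Fin n) F < K ∧ K < Cfsg.Geo.specialLinear (Fin n) F := by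
  have hU0 : U ≠ ⊥ := by
    rintro rfl
    simp at hdim
  obtain ⟨w, hwW, hw0⟩ := Submodule.exists_mem_ne_zero_of_ne_bot hW0
  obtain ⟨u, huU, hu0⟩ := Submodule.exists_mem_ne_zero_of_ne_bot hU0
  have hdisj : ∀ x, x ∈ W → x ∈ U → x = 0 := by
    intro x hx hx'
    have : x ∈ W ⊓ U := ⟨hx, hx'⟩
    rw [hWU] at this
    simpa using this
  have huW : u ∉ W := fun h => hu0 (hdisj u h huU)
  have hwU : w ∉ U := fun h => hw0 (hdisj w hwW h)
  obtain ⟨ℓ, hℓu, hℓW⟩ := Submodule.exists_le_ker_of_notMem huW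
  obtain ⟨ℓ', hℓw, hℓU⟩ := Submodule.exists_le_ker_of_notMem hwU
  refine ⟨Cfsg.Geo.subspaceStabilizer W ⊓ Cfsg.Geo.specialLinear (Fin n) F, ?_, ?_⟩
  · refine lt_of_le_of_ne ?_ ?_
    · intro g hg
      exact ⟨hg.1.1, hg.2⟩
    · intro heq
      have h1 : tv w ℓ (LinearMap.mem_ker.1 (hℓW hwW)) ∈ Cfsg.Geo.subspaceStabilizer W ⊓ Cfsg.Geo.specialLinear (Fin n) F := by
        refine ⟨mem_subspaceStabilizer_of_le _ _ ?_, tv_mem_specialLinear _ _ _⟩
        intro v hv
        rw [tv_mulVec]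
        exact W.add_mem hv (W.smul_mem _ hwW)
      rw [← heq] at h1
      have h2 := (mem_subspaceStabilizer_iff U _).1 h1.1.2 u
      rw [tv_mulVec] at h2
      have h3 := h2.1 huU
      have h4 : ℓ u • w ∈ U := by
        have := U.sub_mem h3 huU
        simpa using this
      exact hwU ((U.smul_mem_iff hℓu).1 h4)
  · refine lt_of_le_of_ne inf_le_right ?_
    intro heq
    have h1 : tv u ℓ' (LinearMap.mem_ker.1 (hℓU huU)) ∈ Cfsg.Geo.specialLinear (Fin n) F := tv_mem_specialLinear _ _ _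
    rw [← heq] at h1
    have h2 := (mem_subspaceStabilizer_iff W _).1 h1.1 w
    rw [tv_mulVec] at h2
    have h3 := h2.1 hwW
    have h4 : ℓ' w • u ∈ W := by
      have := W.sub_mem h3 hwW
      simpa using this
    exact huW ((W.smul_mem_iff hℓw).1 h4)

end Cfsg.Agent.S5633
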