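import Cfsg.Statements.S5635
import Mathlib
import Cfsg.Agent.Lib.Helper95Basic
import Cfsg.Agent.Lib.Helper96Decomp

set_option autoImplicit false
open Cfsg

namespace Cfsg.Agent.S5635


open Matrix Module Cfsg.Geo Cfsg.Agent.Lib.Helper95Basic Cfsg.Agent.Lib.Helper96Decomp

variable {F : Type*} [Field F] {n t m : ℕ}

/-- the span of the members other than the `i`-th. -/
def Cc (D : Fin t → Submodule F (Fin n → F)) (i : Fin t) : Submodule F (Fin n → F) :=
  ⨆ j, ⨆ (_ : j ≠ i), D j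

open Classical in
/-- the block weight, in `F`. -/
noncomputable def N (D : Fin t → Submodule F (Fin n → F)) (x : Fin n → F) : F :=
  ∑ i, if x ∈ Cc D i then 0 else 1

/-- the stabiliser of the weight function. -/
def KK (D : Fin t → Submodule F (Fin n → F)) : Subgroup (GL (Fin n) F) where
  carrier := {g | ∀ x, N D ((g : Matrix (Fin n) (Fin n) F) *ᵥ x) = N D x}
  mul_mem' {a b} ha hb := by
    intro x
    rw [mul_mulVec, ha, hb]
  one_mem' := by intro x; simp
  inv_mem' {a} ha := by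
    intro x
    have := ha (((a⁻¹ : GL (Fin n) F) : Matrix (Fin n) (Fin n) F) *ᵥ x)
    rw [mulVec_inv_mulVec] at this
    exact this.symm

lemma stab_le (D : Fin t → Submodule F (Fin n → F)) : decompositionStabilizer D ≤ KK D := by
  classical
  rintro g ⟨σ, hσ⟩ x
  have hC : ∀ i, (Cc D i).map (Matrix.toLin' (g : Matrix (Fin n) (Fin n) F)) = Cc D (σ i) := by
    intro i
    unfold Cc
    rw [Submodule.map_iSup, ← Equiv.iSup_comp (g := fun j => ⨆ (_ : j ≠ σ i), D j) σ]
    refine iSup_congr fun j => ?_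
    rw [Submodule.map_iSup]
    simp only [hσ, σ.injective.ne_iff]
  have hmem : ∀ i, (g : Matrix (Fin n) (Fin n) F) *ᵥ x ∈ Cc D (σ i) ↔ x ∈ Cc D i := by
    intro i
    rw [← hC]
    constructor
    · rintro ⟨y, hy, hyx⟩
      have : y = x := by
        have h1 := congrArg (fun z => ((g⁻¹ : GL (Fin n) F) : Matrix (Fin n) (Fin n) F) *ᵥ z) hyx
        simpa [Matrix.toLin'_apply, inv_mulVec_mulVec] using h1
      exact this ▸ hy
    · intro hx
      exact ⟨x, hx, by simp [Matrix.toLin'_apply]⟩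
  unfold N
  rw [← Equiv.sum_comp σ]
  simp only [hmem]

/-- data: an adapted basis. -/
structure Adapted (D : Fin t → Submodule F (Fin n → F))
    (b : Basis (Σ _ : Fin t, Fin m) F (Fin n → F)) : Prop where
  mem : ∀ i k, b ⟨i, k⟩ ∈ D i
  repr_ne : ∀ i j k x, x ∈ D i → i ≠ j → b.repr x ⟨j, k⟩ = 0

lemma exists_adapted {D : Fin t → Submodule F (Fin n → F)} (hD : IsMDecomposition m D) :
    ∃ b : Basis (Σ _ : Fin t, Fin m) F (Fin n → F), Adapted D b := by
  classical
  have hI := DirectSum.isInternal_submodule_of_iSupIndep_of_iSup_eq_top hD.indep hD.iSup_eq_top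
  let v : ∀ i, Basis (Fin m) F (D i) := fun i => Module.finBasisOfFinrankEq F (D i) (hD.finrank_eq i)
  refine ⟨hI.collectedBasis v, ⟨fun i k => hI.collectedBasis_mem v ⟨i, k⟩, ?_⟩⟩
  intro i j k x hx hij
  exact hI.collectedBasis_repr_of_mem_ne v hij hx

lemma Adapted.mem_Cc_iff {D : Fin t → Submodule F (Fin n → F)}
    {b : Basis (Σ _ : Fin t, Fin m) F (Fin n → F)} (h : Adapted D b) (i : Fin t) (x : Fin n → F) :
    x ∈ Cc D i ↔ ∀ k, b.repr x ⟨i, k⟩ = 0 := by
  constructor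
  · intro hx k
    have hle : Cc D i ≤ LinearMap.ker (b.coord ⟨i, k⟩) := by
      unfold Cc
      refine iSup_le fun j => iSup_le fun hj => ?_
      intro y hy
      rw [LinearMap.mem_ker, Basis.coord_apply]
      exact h.repr_ne j i k y hy hj
    have := hle hx
    rwa [LinearMap.mem_ker, Basis.coord_apply] at this
  · intro hx
    rw [← b.sum_repr x]
    refine Submodule.sum_mem _ fun a _ => ?_
    obtain ⟨j, k⟩ := a
    by_cases hj : j = i
    · subst hj
      rw [hx k, zero_smul]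
      exact Submodule.zero_mem _
    · refine Submodule.smul_mem _ _ ?_
      unfold Cc
      exact Submodule.mem_iSup_of_mem j (Submodule.mem_iSup_of_mem hj (h.mem j k))

open Classical in
lemma Adapted.N_eq {D : Fin t → Submodule F (Fin n → F)}
    {b : Basis (Σ _ : Fin t, Fin m) F (Fin n → F)} (h : Adapted D b) (x : Fin n → F) :
    N D x = ∑ i, if (∀ k, b.repr x ⟨i, k⟩ = 0) then 0 else 1 := by
  unfold N
  simp only [h.mem_Cc_iff]

/-- an element of the stabiliser cannot send a member's vector to a vector with two nonzero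
blocks. -/
lemma Adapted.not_mem_stab {D : Fin t → Submodule F (Fin n → F)}
    {b : Basis (Σ _ : Fin t, Fin m) F (Fin n → F)} (h : Adapted D b) (g : GL (Fin n) F)
    (i : Fin t) (y : Fin n → F) (hy : y ∈ D i) (j₁ j₂ : Fin t) (k₁ k₂ : Fin m) (hj : j₁ ≠ j₂)
    (h1 : b.repr ((g : Matrix (Fin n) (Fin n) F) *ᵥ y) ⟨j₁, k₁⟩ ≠ 0)
    (h2 : b.repr ((g : Matrix (Fin n) (Fin n) F) *ᵥ y) ⟨j₂, k₂⟩ ≠ 0) :
    g ∉ decompositionStabilizer D := by
  intro hg
  obtain ⟨σ, hσ⟩ := exists_perm_of_mem_stab hg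
  have hgy := (hσ i y).1 hy
  by_cases hc : σ i = j₁
  · exact h2 (h.repr_ne (σ i) j₂ k₂ _ hgy (hc ▸ hj))
  · exact h1 (h.repr_ne (σ i) j₁ k₁ _ hgy hc)

/-! ### algebra -/

lemma sum_ind (r : ℕ) (hr : r ≤ t) : ∑ i : Fin t, (if i.val < r then (1 : F) else 0) = r := by
  rw [Finset.sum_boole, Fin.card_filter_val_lt, min_eq_right hr]

lemma alg2 (X c : Fin t → F) (s : F) (hκ : ∑ i, c i = 0) :
    ∑ i, (X i + s * c i) ^ 1 = ∑ i, X i ^ 1 := by
  simp only [pow_one, Finset.sum_add_distrib, ← Finset.mul_sum, hκ, mul_zero, add_zero]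

lemma alg3 (X c : Fin t → F) (s : F) (hs : s = ∑ i, c i * X i) (hc : ∀ i, c i * c i = c i)
    (hκ : 2 + ∑ i, c i = 0) :
    ∑ i, (X i + s * c i) ^ 2 = ∑ i, X i ^ 2 := by
  have h1 : ∀ i, (X i + s * c i) ^ 2 = X i ^ 2 + 2 * s * (c i * X i) + s ^ 2 * c i := by
    intro i
    linear_combination s ^ 2 * hc i
  simp only [h1, Finset.sum_add_distrib, ← Finset.mul_sum, ← hs]
  linear_combination s ^ 2 * hκ

lemma alg4 (X c : Fin t → F) (s : F) (hs : s = ∑ i, c i * X i) (hc : ∀ i, c i * c i = c i)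
    (h2 : (2 : F) = 0) (hκ : ∑ i, c i = 0) :
    ∑ i, (X i + s * c i) ^ 3 = ∑ i, X i ^ 3 := by
  haveI : CharP F 2 := CharTwo.of_one_ne_zero_of_two_eq_zero one_ne_zero h2
  have h1 : ∀ i, (X i + s * c i) ^ 3
      = X i ^ 3 + 3 * s * (c i * X i) ^ 2 + 3 * s ^ 2 * (c i * X i) + s ^ 3 * c i := by
    intro i
    linear_combination (3 * s * X i ^ 2 * (-1) + 3 * s ^ 2 * X i + s ^ 3 * (c i + 1)) * hc i
  have h3 : ∑ i, (c i * X i) ^ 2 = s ^ 2 := by
    rw [hs, sum_pow_char 2]
  simp only [h1, Finset.sum_add_distrib, ← Finset.mul_sum, ← hs, h3, hκ]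
  linear_combination 3 * s ^ 3 * h2

lemma algC (A B c : Fin t → F) (s : F) (hs : s = ∑ i, c i * B i) (hss : s * s = s)
    (hκ : 1 + ∑ i, c i = 0) :
    ∑ i, ((A i + s * c i) + (A i + s * c i) * B i + B i) = ∑ i, (A i + A i * B i + B i) := by
  have h1 : ∀ i, ((A i + s * c i) + (A i + s * c i) * B i + B i)
      = (A i + A i * B i + B i) + s * c i + s * (c i * B i) := by
    intro i; ring
  simp only [h1, Finset.sum_add_distrib, ← Finset.mul_sum, ← hs]
  linear_combination s * hκ + hss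

/-! ### witnesses -/

lemma finish (D : Fin t → Submodule F (Fin n → F)) (g τ : GL (Fin n) F)
    (hg1 : g ∈ KK D) (hg2 : g ∈ specialLinear (Fin n) F) (hg3 : g ∉ decompositionStabilizer D)
    (hτ1 : τ ∈ specialLinear (Fin n) F) (hτ2 : τ ∉ KK D) :
    ∃ K : Subgroup (GL (Fin n) F), decompositionStabilizer D ⊓ specialLinear (Fin n) F < K ∧
      K < specialLinear (Fin n) F := by
  refine ⟨KK D ⊓ specialLinear (Fin n) F, ?_, ?_⟩
  · refine lt_of_le_of_ne (inf_le_inf_right _ (stab_le D)) fun heq => ?_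
    have : g ∈ decompositionStabilizer D ⊓ specialLinear (Fin n) F := by
      rw [heq]; exact ⟨hg1, hg2⟩
    exact hg3 this.1
  · refine lt_of_le_of_ne inf_le_right fun heq => ?_
    have : τ ∈ KK D ⊓ specialLinear (Fin n) F := by rw [heq]; exact hτ1
    exact hτ2 this.1

section wit

variable {D : Fin t → Submodule F (Fin n → F)} (b : Basis (Σ _ : Fin t, Fin m) F (Fin n → F))

/-- the centre vector. -/
noncomputable def av (c : Fin t → F) (k₀ : Fin m) : Fin n → F := ∑ i, c i • b ⟨i, k₀⟩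

/-- the functional. -/
noncomputable def sv (c : Fin t → F) (k₁ : Fin m) : Dual F (Fin n → F) :=
  ∑ i, c i • b.coord ⟨i, k₁⟩

lemma repr_av (c : Fin t → F) (k₀ : Fin m) (j : Fin t) (k : Fin m) :
    b.repr (av b c k₀) ⟨j, k⟩ = if k = k₀ then c j else 0 := by
  classical
  unfold av
  rw [map_sum, Finsupp.finset_sum_apply]
  simp only [map_smul, Basis.repr_self, Finsupp.smul_apply, smul_eq_mul, Finsupp.single_apply]
  split_ifs with hk
  · subst hk
    rw [Finset.sum_eq_single j]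
    · simp
    · intro i _ hij
      rw [if_neg, mul_zero]
      intro h
      exact hij (by simpa using congrArg Sigma.fst h)
    · intro h; exact absurd (Finset.mem_univ j) h
  · refine Finset.sum_eq_zero fun i _ => ?_
    rw [if_neg, mul_zero]
    intro h
    apply hk
    have := (Sigma.mk.inj_iff.1 h).2
    exact (eq_of_heq this).symm

lemma sv_apply (c : Fin t → F) (k₁ : Fin m) (x : Fin n → F) :
    sv b c k₁ x = ∑ i, c i * b.repr x ⟨i, k₁⟩ := by
  unfold sv
  simp [LinearMap.sum_apply, Basis.coord_apply]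

lemma repr_G (c : Fin t → F) (k₀ k₁ : Fin m) (x : Fin n → F) (j : Fin t) (k : Fin m) :
    b.repr (x + sv b c k₁ x • av b c k₀) ⟨j, k⟩
      = b.repr x ⟨j, k⟩ + sv b c k₁ x * (if k = k₀ then c j else 0) := by
  rw [map_add, map_smul, Finsupp.add_apply, Finsupp.smul_apply, repr_av, smul_eq_mul]

lemma repr_basis (i j : Fin t) (k l : Fin m) :
    b.repr (b ⟨i, k⟩) ⟨j, l⟩ = if i = j ∧ k = l then 1 else 0 := by
  classical
  rw [Basis.repr_self, Finsupp.single_apply]
  congr 1
  simp [Sigma.mk.inj_iff]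

lemma tau_not_mem (h : Adapted D b) (i₀ i₁ : Fin t) (hi : i₀ ≠ i₁) (k : Fin m)
    (h0 : b.coord ⟨i₁, k⟩ (b ⟨i₀, k⟩) = 0) :
    tv (b ⟨i₀, k⟩) (b.coord ⟨i₁, k⟩) h0 ∉ KK D := by
  classical
  intro hmem
  have h1 := hmem (b ⟨i₁, k⟩)
  rw [tv_mulVec, h.N_eq, h.N_eq] at h1
  have e1 : ∀ i, (if (∀ l, b.repr (b ⟨i₁, k⟩) ⟨i, l⟩ = 0) then (0 : F) else 1)
      = if i = i₁ then 1 else 0 := by
    intro i
    by_cases hii : i = i₁
    · subst hii
      rw [if_neg, if_pos rfl]
      intro hl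
      have := hl k
      rw [repr_basis] at this
      simp at this
    · rw [if_pos, if_neg hii]
      intro l
      rw [repr_basis, if_neg]
      rintro ⟨h2, -⟩
      exact hii h2.symm
  have e2 : ∀ i, (if (∀ l, b.repr (b ⟨i₁, k⟩ + (b.coord ⟨i₁, k⟩) (b ⟨i₁, k⟩) • b ⟨i₀, k⟩) ⟨i, l⟩ = 0)
      then (0 : F) else 1) = (if i = i₁ then 1 else 0) + (if i = i₀ then 1 else 0) := by
    intro i
    have hc : (b.coord ⟨i₁, k⟩) (b ⟨i₁, k⟩) = 1 := by simp [Basis.coord_apply]
    rw [hc, one_smul]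
    simp only [map_add, Finsupp.add_apply, repr_basis]
    by_cases hii : i = i₁
    · subst hii
      rw [if_neg, if_pos rfl, if_neg (Ne.symm hi), add_zero]
      intro hl
      have := hl k
      simp [hi] at this
    · by_cases hi0 : i = i₀
      · subst hi0
        rw [if_neg, if_neg hii, if_pos rfl, zero_add]
        intro hl
        have := hl k
        simp [Ne.symm hi] at this
      · rw [if_pos, if_neg hii, if_neg hi0, add_zero]
        intro l
        rw [if_neg, if_neg, add_zero]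
        · rintro ⟨h2, -⟩; exact hi0 h2.symm
        · rintro ⟨h2, -⟩; exact hii h2.symm
  simp only [e1, e2, Finset.sum_add_distrib, Finset.sum_ite_eq', Finset.mem_univ, if_true] at h1
  exact one_ne_zero (by linear_combination h1)

end wit

lemma sv_basis (b : Basis (Σ _ : Fin t, Fin m) F (Fin n → F)) (c : Fin t → F) (k₁ : Fin m)
    (i : Fin t) (k : Fin m) : sv b c k₁ (b ⟨i, k⟩) = if k = k₁ then c i else 0 := by
  classical
  rw [sv_apply]
  simp only [repr_basis]
  split_ifs with hk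
  · subst hk
    rw [Finset.sum_eq_single i]
    · simp
    · intro j _ hj
      rw [if_neg, mul_zero]
      rintro ⟨h, -⟩; exact hj h.symm
    · intro h; exact absurd (Finset.mem_univ i) h
  · refine Finset.sum_eq_zero fun j _ => ?_
    rw [if_neg, mul_zero]
    rintro ⟨-, h⟩; exact hk h

lemma rf_invol (a : Fin n → F) (ℓ : Dual F (Fin n → F)) (h : 2 + ℓ a = 0) :
    Function.Involutive (LinearMap.transvection ℓ a) := by
  intro x
  rw [LinearMap.transvection.apply, LinearMap.transvection.apply, map_add, map_smul, smul_eq_mul]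
  have : x + ℓ x • a + (ℓ x + ℓ x * ℓ a) • a = x + (ℓ x * (2 + ℓ a)) • a := by
    rw [add_assoc, ← add_smul]; congr 2; ring
  rw [this, h, mul_zero, zero_smul, add_zero]

/-- a reflection-like involution. -/
noncomputable def rf (a : Fin n → F) (ℓ : Dual F (Fin n → F)) (h : 2 + ℓ a = 0) : GL (Fin n) F :=
  mkGL (LinearEquiv.ofInvolutive (LinearMap.transvection ℓ a) (rf_invol a ℓ h))

lemma rf_mulVec (a : Fin n → F) (ℓ : Dual F (Fin n → F)) (h : 2 + ℓ a = 0) (x : Fin n → F) :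
    ((rf a ℓ h : GL (Fin n) F) : Matrix (Fin n) (Fin n) F) *ᵥ x = x + ℓ x • a := by
  rw [rf, mkGL_mulVec]
  rfl

lemma rf_det (a : Fin n → F) (ℓ : Dual F (Fin n → F)) (h : 2 + ℓ a = 0) :
    ((rf a ℓ h : GL (Fin n) F) : Matrix (Fin n) (Fin n) F).det = 1 + ℓ a := by
  rw [rf, det_mkGL]
  have : ((LinearEquiv.ofInvolutive (LinearMap.transvection ℓ a) (rf_invol a ℓ h) :
      (Fin n → F) ≃ₗ[F] (Fin n → F)) :
      (Fin n → F) →ₗ[F] (Fin n → F)) = LinearMap.transvection ℓ a := by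
    ext1 x; rfl
  rw [this, LinearMap.transvection.det]

section one

variable [Fintype F] {D : Fin t → Submodule F (Fin n → F)}
  (b : Basis (Σ _ : Fin t, Fin 1) F (Fin n → F))

lemma N_one (h : Adapted D b) (x : Fin n → F) :
    N D x = ∑ i, (b.repr x ⟨i, 0⟩) ^ (Fintype.card F - 1) := by
  classical
  rw [h.N_eq]
  refine Finset.sum_congr rfl fun i _ => ?_
  by_cases hx : b.repr x ⟨i, 0⟩ = 0
  · rw [if_pos (by intro k; rw [Fin.fin_one_eq_zero k]; exact hx), hx, zero_pow]
    have := Fintype.one_lt_card (α := F)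
    omega
  · rw [if_neg (fun hk => hx (hk 0)), FiniteField.pow_card_sub_one_eq_one _ hx]

lemma N_G_one (h : Adapted D b) (c : Fin t → F) (hc : ∀ i, c i * c i = c i)
    (hcase : (Fintype.card F = 2 ∧ ∑ i, c i = 0) ∨ (Fintype.card F = 3 ∧ 2 + ∑ i, c i = 0) ∨
      (Fintype.card F = 4 ∧ (2 : F) = 0 ∧ ∑ i, c i = 0)) (x : Fin n → F) :
    N D (x + sv b c 0 x • av b c 0) = N D x := by
  rw [N_one b h, N_one b h]
  simp only [repr_G, if_true]
  rcases hcase with ⟨hq, hκ⟩ | ⟨hq, hκ⟩ | ⟨hq, h2, hκ⟩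
  · rw [hq]; exact alg2 _ c _ hκ
  · rw [hq]; exact alg3 _ c _ (sv_apply b c 0 x) hc hκ
  · rw [hq]; exact alg4 _ c _ (sv_apply b c 0 x) hc h2 hκ

end one

lemma sv_av_same (b : Basis (Σ _ : Fin t, Fin m) F (Fin n → F)) (c : Fin t → F)
    (hc : ∀ i, c i * c i = c i) (k : Fin m) : sv b c k (av b c k) = ∑ i, c i := by
  rw [sv_apply]
  simp only [repr_av, if_true, hc]

lemma sv_av_ne (b : Basis (Σ _ : Fin t, Fin m) F (Fin n → F)) (c : Fin t → F)
    (k₀ k₁ : Fin m) (hk : k₁ ≠ k₀) : sv b c k₁ (av b c k₀) = 0 := by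
  rw [sv_apply]
  simp only [repr_av, if_neg hk, mul_zero, Finset.sum_const_zero]

/-- the image of a basis vector has two nonzero blocks. -/
lemma G_not_stab {D : Fin t → Submodule F (Fin n → F)}
    (b : Basis (Σ _ : Fin t, Fin m) F (Fin n → F)) (h : Adapted D b) (c : Fin t → F)
    (k₀ k₁ : Fin m) (g : GL (Fin n) F) (i₀ j₁ j₂ : Fin t) (h01 : i₀ ≠ j₁) (h02 : i₀ ≠ j₂)
    (h12 : j₁ ≠ j₂) (c0 : c i₀ = 1) (c1 : c j₁ = 1) (c2 : c j₂ = 1)
    (hg : (g : Matrix (Fin n) (Fin n) F) *ᵥ (b ⟨i₀, k₁⟩)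
      = b ⟨i₀, k₁⟩ + sv b c k₁ (b ⟨i₀, k₁⟩) • av b c k₀) :
    g ∉ decompositionStabilizer D := by
  refine h.not_mem_stab g i₀ (b ⟨i₀, k₁⟩) (h.mem i₀ k₁) j₁ j₂ k₀ k₀ h12 ?_ ?_
  · rw [hg, repr_G, repr_basis, sv_basis, if_neg (fun hh => h01 hh.1), if_pos rfl, if_pos rfl, c0, c1]
    simp
  · rw [hg, repr_G, repr_basis, sv_basis, if_neg (fun hh => h02 hh.1), if_pos rfl, if_pos rfl, c0, c2]
    simp

section two

variable {D : Fin t → Submodule F (Fin n → F)}
  (b : Basis (Σ _ : Fin t, Fin 2) F (Fin n → F))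

lemma N_two (h : Adapted D b) (two : ∀ z : F, z = 0 ∨ z = 1) (h2 : (2 : F) = 0) (x : Fin n → F) :
    N D x = ∑ i, (b.repr x ⟨i, 0⟩ + b.repr x ⟨i, 0⟩ * b.repr x ⟨i, 1⟩ + b.repr x ⟨i, 1⟩) := by
  classical
  rw [h.N_eq]
  refine Finset.sum_congr rfl fun i _ => ?_
  simp only [Fin.forall_fin_two]
  rcases two (b.repr x ⟨i, 0⟩) with h0 | h0 <;> rcases two (b.repr x ⟨i, 1⟩) with h1 | h1 <;>
    simp [h0, h1]
  linear_combination h2

lemma N_G_two (h : Adapted D b) (two : ∀ z : F, z = 0 ∨ z = 1) (h2 : (2 : F) = 0) (c : Fin t → F)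
    (hκ : 1 + ∑ i, c i = 0) (x : Fin n → F) :
    N D (x + sv b c 1 x • av b c 0) = N D x := by
  rw [N_two b h two h2, N_two b h two h2]
  simp only [repr_G, if_true]
  have h10 : ¬ ((1 : Fin 2) = 0) := by decide
  simp only [if_neg h10, mul_zero, add_zero]
  refine algC _ _ c _ (sv_apply b c 1 x) ?_ hκ
  rcases two (sv b c 1 x) with h0 | h0 <;> simp [h0]

end two

/-- For a finite field F with q elements and n ≥ 13, let D be a decomposition of F^n into t ≥ 2 independent subspaces of equal dimension m spanning F^n, where m = 1 and q ≤ 4, or m = 2 and q = 2. Then the elements of SL_n(F) permuting the members of D form a subgroup that is not maximal: some subgroup lies strictly between it and SL_n(F). -/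
theorem result {F : Type*} [Field F] [Fintype F] (n : ℕ) (hn : 13 ≤ n) {t : ℕ} (m : ℕ) (D : Fin t → Submodule F (Fin n → F)) (hD : Cfsg.Geo.IsMDecomposition m D) (h : (m = 1 ∧ Fintype.card F ≤ 4) ∨ (m = 2 ∧ Fintype.card F = 2)) : ∃ K : Subgroup (Matrix.GeneralLinearGroup (Fin n) F), Cfsg.Geo.decompositionStabilizer D ⊓ Cfsg.Geo.specialLinear (Fin n) F < K ∧ K < Cfsg.Geo.specialLinear (Fin n) F := by
  classical
  obtain ⟨b, hb⟩ := exists_adapted hD
  have hnt := card_le_mul hD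
  rw [Fintype.card_fin] at hnt
  have hcast := Nat.cast_card_eq_zero F
  rcases h with ⟨rfl, hq⟩ | ⟨rfl, hq⟩
  · have ht : 13 ≤ t := by omega
    let i₀ : Fin t := ⟨0, by omega⟩
    let j₁ : Fin t := ⟨1, by omega⟩
    let j₂ : Fin t := ⟨2, by omega⟩
    let i₄ : Fin t := ⟨4, by omega⟩
    have h01 : i₀ ≠ j₁ := by simp [i₀, j₁, Fin.ext_iff]
    have h02 : i₀ ≠ j₂ := by simp [i₀, j₂, Fin.ext_iff]
    have h12 : j₁ ≠ j₂ := by simp [j₁, j₂, Fin.ext_iff]
    have hτ0 : b.coord ⟨j₁, 0⟩ (b ⟨i₀, 0⟩) = 0 := by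
      rw [Basis.coord_apply, repr_basis, if_neg (fun hh => h01 hh.1)]
    let c : Fin t → F := fun i => if i.val < 4 then 1 else 0
    have hc : ∀ i, c i * c i = c i := by
      intro i; simp only [c]; split_ifs <;> simp
    have hκ : ∑ i, c i = 4 := by
      have := sum_ind (F := F) (t := t) 4 (by omega)
      simpa [c] using this
    have c0 : c i₀ = 1 := by simp [c, i₀]
    have c1 : c j₁ = 1 := by simp [c, j₁]
    have c2 : c j₂ = 1 := by simp [c, j₂]
    have hq2 : 2 ≤ Fintype.card F := Fintype.one_lt_card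
    have hchar2 : ((2 : F) = 0) → ((Fintype.card F = 2 ∨ Fintype.card F = 4)) →
        ∃ K : Subgroup (Matrix.GeneralLinearGroup (Fin n) F),
          Cfsg.Geo.decompositionStabilizer D ⊓ Cfsg.Geo.specialLinear (Fin n) F < K ∧
          K < Cfsg.Geo.specialLinear (Fin n) F := by
      intro h2 hq'
      have hκ0 : ∑ i, c i = 0 := by rw [hκ]; linear_combination 2 * h2
      have h0 : sv b c 0 (av b c 0) = 0 := by rw [sv_av_same b c hc, hκ0]
      refine finish D (tv (av b c 0) (sv b c 0) h0) (tv (b ⟨i₀, 0⟩) (b.coord ⟨j₁, 0⟩) hτ0) ?_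
        (tv_mem_specialLinear _ _ _) ?_ (tv_mem_specialLinear _ _ _) (tau_not_mem b hb i₀ j₁ h01 0 hτ0)
      · intro x
        rw [tv_mulVec]
        refine N_G_one b hb c hc ?_ x
        rcases hq' with hq' | hq'
        · exact Or.inl ⟨hq', hκ0⟩
        · exact Or.inr (Or.inr ⟨hq', h2, hκ0⟩)
      · exact G_not_stab b hb c 0 0 _ i₀ j₁ j₂ h01 h02 h12 c0 c1 c2 (tv_mulVec _ _ _ _)
    have hq3 : Fintype.card F = 2 ∨ Fintype.card F = 3 ∨ Fintype.card F = 4 := by omega
    rcases hq3 with hq' | hq' | hq'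
    · refine hchar2 ?_ (Or.inl hq')
      rw [hq'] at hcast; exact_mod_cast hcast
    · have h3 : (3 : F) = 0 := by rw [hq'] at hcast; exact_mod_cast hcast
      let c' : Fin t → F := fun i => if i = i₄ then 1 else 0
      have hc' : ∀ i, c' i * c' i = c' i := by
        intro i; simp only [c']; split_ifs <;> simp
      have hκ' : ∑ i, c' i = 1 := by simp [c']
      have e1 : 2 + sv b c 0 (av b c 0) = 0 := by
        rw [sv_av_same b c hc, hκ]; linear_combination 2 * h3
      have e2 : 2 + sv b c' 0 (av b c' 0) = 0 := by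
        rw [sv_av_same b c' hc', hκ']; linear_combination h3
      refine finish D (rf (av b c 0) (sv b c 0) e1 * rf (av b c' 0) (sv b c' 0) e2)
        (tv (b ⟨i₀, 0⟩) (b.coord ⟨j₁, 0⟩) hτ0) ?_ ?_ ?_
        (tv_mem_specialLinear _ _ _) (tau_not_mem b hb i₀ j₁ h01 0 hτ0)
      · refine (KK D).mul_mem ?_ ?_
        · intro x
          rw [rf_mulVec]
          exact N_G_one b hb c hc (Or.inr (Or.inl ⟨hq', by rw [hκ]; linear_combination 2 * h3⟩)) x
        · intro x
          rw [rf_mulVec]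
          exact N_G_one b hb c' hc' (Or.inr (Or.inl ⟨hq', by rw [hκ']; linear_combination h3⟩)) x
      · rw [mem_specialLinear_iff, Units.val_mul, Matrix.det_mul, rf_det, rf_det,
          sv_av_same b c hc, sv_av_same b c' hc', hκ, hκ']
        linear_combination 3 * h3
      · refine G_not_stab b hb c 0 0 _ i₀ j₁ j₂ h01 h02 h12 c0 c1 c2 ?_
        rw [mul_mulVec, rf_mulVec, rf_mulVec]
        have : sv b c' 0 (b ⟨i₀, 0⟩) = 0 := by
          rw [sv_basis, if_pos rfl]
          simp [c', i₀, i₄, Fin.ext_iff]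
        rw [this, zero_smul, add_zero]
    · refine hchar2 ?_ (Or.inr hq')
      rw [hq'] at hcast
      have h4 : (2 : F) * 2 = 0 := by
        have : ((4 : ℕ) : F) = 0 := hcast
        push_cast at this
        linear_combination this
      exact mul_self_eq_zero.1 h4
  · have ht : 7 ≤ t := by omega
    have h2 : (2 : F) = 0 := by rw [hq] at hcast; exact_mod_cast hcast
    have two : ∀ z : F, z = 0 ∨ z = 1 := by
      intro z
      by_contra hz
      push Not at hz
      have h3 : ({0, 1, z} : Finset F).card = 3 := by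
        rw [Finset.card_insert_of_notMem, Finset.card_insert_of_notMem, Finset.card_singleton]
        · simpa using hz.2.symm
        · simp only [Finset.mem_insert, Finset.mem_singleton]
          push Not
          exact ⟨zero_ne_one, hz.1.symm⟩
      have := Finset.card_le_univ ({0, 1, z} : Finset F)
      omega
    let i₀ : Fin t := ⟨0, by omega⟩
    let j₁ : Fin t := ⟨1, by omega⟩
    let j₂ : Fin t := ⟨2, by omega⟩
    have h01 : i₀ ≠ j₁ := by simp [i₀, j₁, Fin.ext_iff]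
    have h02 : i₀ ≠ j₂ := by simp [i₀, j₂, Fin.ext_iff]
    have h12 : j₁ ≠ j₂ := by simp [j₁, j₂, Fin.ext_iff]
    have hτ0 : b.coord ⟨j₁, 0⟩ (b ⟨i₀, 0⟩) = 0 := by
      rw [Basis.coord_apply, repr_basis, if_neg (fun hh => h01 hh.1)]
    let c : Fin t → F := fun i => if i.val < 3 then 1 else 0
    have hκ : ∑ i, c i = 3 := by
      have := sum_ind (F := F) (t := t) 3 (by omega)
      simpa [c] using this
    have c0 : c i₀ = 1 := by simp [c, i₀]
    have c1 : c j₁ = 1 := by simp [c, j₁]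
    have c2 : c j₂ = 1 := by simp [c, j₂]
    have h0 : sv b c 1 (av b c 0) = 0 := sv_av_ne b c 0 1 (by decide)
    refine finish D (tv (av b c 0) (sv b c 1) h0) (tv (b ⟨i₀, 0⟩) (b.coord ⟨j₁, 0⟩) hτ0) ?_
      (tv_mem_specialLinear _ _ _) ?_ (tv_mem_specialLinear _ _ _) (tau_not_mem b hb i₀ j₁ h01 0 hτ0)
    · intro x
      rw [tv_mulVec]
      exact N_G_two b hb two h2 c (by rw [hκ]; linear_combination 2 * h2) x
    · exact G_not_stab b hb c 0 1 _ i₀ j₁ j₂ h01 h02 h12 c0 c1 c2 (tv_mulVec _ _ _ _)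

end Cfsg.Agent.S5635
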