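import Cfsg.Statements.S5638
import Mathlib

set_option autoImplicit false
open Cfsg

namespace Cfsg.Agent.S5638


open Matrix Cfsg.Geo
open scoped Kronecker

variable {F : Type*} [Field F] [Fintype F]

lemma two_eq_zero (hq : Fintype.card F = 2) : (2 : F) = 0 := by
  have h := Nat.cast_card_eq_zero F
  rw [hq] at h
  exact_mod_cast h

/-- the element of order three. -/
def om (hq : Fintype.card F = 2) : GL (Fin 2) F :=
  ⟨!![0, 1; 1, 1], !![1, 1; 1, 0],
    by
      have h2 := two_eq_zero hq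
      refine Matrix.ext fun i j => ?_
      fin_cases i <;> fin_cases j <;> simp [Matrix.mul_apply, Fin.sum_univ_two] <;>
        linear_combination h2,
    by
      have h2 := two_eq_zero hq
      refine Matrix.ext fun i j => ?_
      fin_cases i <;> fin_cases j <;> simp [Matrix.mul_apply, Fin.sum_univ_two] <;>
        linear_combination h2⟩

lemma om_coe (hq : Fintype.card F = 2) : ((om hq : GL (Fin 2) F) : Matrix (Fin 2) (Fin 2) F) = !![0, 1; 1, 1] := rfl

lemma om_pow (hq : Fintype.card F = 2) : (om hq : GL (Fin 2) F) ^ 3 = 1 := by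
  have h2 := two_eq_zero hq
  apply Units.ext
  rw [Units.val_pow_eq_pow_val, om_coe]
  refine Matrix.ext fun i j => ?_
  fin_cases i <;> fin_cases j <;> simp [pow_succ, Matrix.mul_apply, Fin.sum_univ_two] <;>
    linear_combination h2

lemma om_ne (hq : Fintype.card F = 2) : (om hq : GL (Fin 2) F) ≠ 1 := by
  intro h
  have h1 := congrArg (fun g : GL (Fin 2) F => (g : Matrix (Fin 2) (Fin 2) F) 0 1) h
  simp [om_coe] at h1

lemma om_normal (hq : Fintype.card F = 2) : (Subgroup.zpowers (om hq : GL (Fin 2) F)).Normal := by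
  apply Subgroup.normal_of_index_eq_two
  have h3 : orderOf (om hq : GL (Fin 2) F) = 3 := by
    haveI : Fact (Nat.Prime 3) := ⟨by norm_num⟩
    exact orderOf_eq_prime (om_pow hq) (om_ne hq)
  have hc : Nat.card (GL (Fin 2) F) = 6 := by
    rw [Matrix.card_GL_field, hq]
    simp [Fin.prod_univ_two]
  have h := Subgroup.card_mul_index (Subgroup.zpowers (om hq : GL (Fin 2) F))
  rw [Nat.card_zpowers, h3, hc] at h
  omega

/-- block diagonal embedding. -/
def bd (n₂ : ℕ) : (Fin n₂ → GL (Fin 2) F) →* GL (Fin 2 × Fin n₂) F :=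
  (Units.map (Matrix.blockDiagonalRingHom (Fin 2) (Fin n₂) F).toMonoidHom).comp
    (MulEquiv.piUnits (M := fun _ : Fin n₂ => Matrix (Fin 2) (Fin 2) F)).symm.toMonoidHom

lemma bd_coe (n₂ : ℕ) (c : Fin n₂ → GL (Fin 2) F) :
    ((bd n₂ c : GL (Fin 2 × Fin n₂) F) : Matrix (Fin 2 × Fin n₂) (Fin 2 × Fin n₂) F)
      = Matrix.blockDiagonal (fun k => (c k : Matrix (Fin 2) (Fin 2) F)) := rfl

lemma bd_const_coe (n₂ : ℕ) (y : GL (Fin 2) F) :
    ((bd n₂ (fun _ => y) : GL (Fin 2 × Fin n₂) F) : Matrix (Fin 2 × Fin n₂) (Fin 2 × Fin n₂) F)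
      = (y : Matrix (Fin 2) (Fin 2) F) ⊗ₖ (1 : Matrix (Fin n₂) (Fin n₂) F) := by
  rw [bd_coe, Matrix.kronecker_one]

/-- diagonal embedding as a hom. -/
def psi (n₂ : ℕ) : GL (Fin 2) F →* GL (Fin 2 × Fin n₂) F :=
  (bd n₂).comp (Pi.constMonoidHom (Fin n₂) (GL (Fin 2) F))

lemma psi_coe (n₂ : ℕ) (y : GL (Fin 2) F) :
    ((psi n₂ y : GL (Fin 2 × Fin n₂) F) : Matrix (Fin 2 × Fin n₂) (Fin 2 × Fin n₂) F)
      = (y : Matrix (Fin 2) (Fin 2) F) ⊗ₖ (1 : Matrix (Fin n₂) (Fin n₂) F) :=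
  bd_const_coe n₂ y

/-- the subgroup generated by `ω ⊗ 1`. -/
def Z (hq : Fintype.card F = 2) (n₂ : ℕ) : Subgroup (GL (Fin 2 × Fin n₂) F) :=
  (Subgroup.zpowers (om hq : GL (Fin 2) F)).map (psi n₂)

lemma le_normalizer_of_conj {G : Type*} [Group G] (H Z : Subgroup G)
    (h : ∀ g ∈ H, ∀ x ∈ Z, g * x * g⁻¹ ∈ Z) : H ≤ Subgroup.normalizer (Z : Set G) := by
  intro g hg
  rw [Subgroup.mem_normalizer_iff]
  intro x
  refine ⟨h g hg x, fun hx => ?_⟩
  have := h g⁻¹ (H.inv_mem hg) _ hx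
  simpa [mul_assoc] using this

lemma kron_le (hq : Fintype.card F = 2) (n₂ : ℕ) :
    kroneckerSubgroup 2 n₂ F ≤ Subgroup.normalizer (Z hq n₂ : Set (GL (Fin 2 × Fin n₂) F)) := by
  apply le_normalizer_of_conj
  rintro g ⟨a, b, hg⟩ x ⟨y, hy, rfl⟩
  refine ⟨a * y * a⁻¹, (om_normal hq).conj_mem y hy a, ?_⟩
  rw [eq_mul_inv_iff_mul_eq]
  apply Units.ext
  rw [Units.val_mul, Units.val_mul, psi_coe, psi_coe, hg, ← Matrix.mul_kronecker_mul,
    ← Matrix.mul_kronecker_mul, ← Units.val_mul, ← Units.val_mul]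
  simp

lemma Z_block (hq : Fintype.card F = 2) (n₂ : ℕ) (x : GL (Fin 2 × Fin n₂) F) (hx : x ∈ Z hq n₂)
    (i j : Fin 2) (k l : Fin n₂) (hkl : k ≠ l) :
    (x : Matrix (Fin 2 × Fin n₂) (Fin 2 × Fin n₂) F) (i, k) (j, l) = 0 := by
  obtain ⟨y, -, rfl⟩ := hx
  rw [psi_coe, Matrix.kronecker_apply, Matrix.one_apply_ne hkl, mul_zero]


lemma kron_lt (hq : Fintype.card F = 2) (n₂ : ℕ) (h2 : 2 ≤ n₂) :
    kroneckerSubgroup 2 n₂ F < Subgroup.normalizer (Z hq n₂ : Set (GL (Fin 2 × Fin n₂) F)) := by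
  refine lt_of_le_of_ne (kron_le hq n₂) fun heq => ?_
  let k0 : Fin n₂ := ⟨0, by omega⟩
  let k1 : Fin n₂ := ⟨1, by omega⟩
  have h01 : k1 ≠ k0 := by simp [k0, k1, Fin.ext_iff]
  let g : GL (Fin 2 × Fin n₂) F := bd n₂ (Pi.mulSingle k0 (om hq))
  have hg : g ∈ Subgroup.normalizer (Z hq n₂ : Set (GL (Fin 2 × Fin n₂) F)) := by
    have hc : ∀ x ∈ Z hq n₂, g * x * g⁻¹ = x := by
      rintro x ⟨y, hy, rfl⟩
      rw [mul_inv_eq_iff_eq_mul]
      change bd n₂ _ * bd n₂ _ = bd n₂ _ * bd n₂ _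
      rw [← map_mul, ← map_mul]
      congr 1
      funext k
      obtain ⟨z, rfl⟩ := Subgroup.mem_zpowers_iff.1 hy
      by_cases hk : k = k0
      · subst hk
        simp only [Pi.mul_apply, Pi.mulSingle_eq_same, Pi.constMonoidHom_apply, Function.const_apply]
        exact ((Commute.refl (om hq)).zpow_right z).eq
      · simp [Pi.mulSingle_eq_of_ne hk]
    rw [Subgroup.mem_normalizer_iff]
    intro x
    constructor
    · intro hx
      have := hc x hx
      rwa [this]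
    · intro hx
      have h1 := hc _ hx
      have h2 : g * x * g⁻¹ = x := by
        have : g * (g * x * g⁻¹) * g⁻¹ = g * x * g⁻¹ := h1
        have h3 := congrArg (fun t => g⁻¹ * t * g) this
        simpa [mul_assoc] using h3
      rwa [h2] at hx
  rw [← heq] at hg
  obtain ⟨a, b, hab⟩ := hg
  have e1 := congrFun (congrFun hab (0, k1)) (0, k1)
  have e2 := congrFun (congrFun hab (0, k1)) (1, k1)
  have e3 := congrFun (congrFun hab (0, k0)) (1, k0)
  simp only [g, bd_coe, Matrix.blockDiagonal_apply', Matrix.kronecker_apply, if_true,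
    Pi.mulSingle_eq_same, Pi.mulSingle_eq_of_ne h01, om_coe] at e1 e2 e3
  simp at e1 e2 e3
  rcases e2 with e2 | e2
  · rw [e2] at e3; simp at e3
  · rw [e2] at e1; simp at e1

lemma norm_lt (hq : Fintype.card F = 2) (n₂ : ℕ) (h2 : 2 ≤ n₂) :
    Subgroup.normalizer (Z hq n₂ : Set (GL (Fin 2 × Fin n₂) F)) < ⊤ := by
  refine lt_top_iff_ne_top.2 fun heq => ?_
  let k0 : Fin n₂ := ⟨0, by omega⟩
  let k1 : Fin n₂ := ⟨1, by omega⟩
  have h01 : k0 ≠ k1 := by simp [k0, k1, Fin.ext_iff]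
  have hne : ((0 : Fin 2), k0) ≠ ((0 : Fin 2), k1) := by
    intro h; exact h01 (Prod.ext_iff.1 h).2
  let E : Matrix (Fin 2 × Fin n₂) (Fin 2 × Fin n₂) F := Matrix.single (0, k0) (0, k1) 1
  have hEE : E * E = 0 := by
    simp only [E]
    rw [Matrix.single_mul_single_of_ne _ _ _ _ hne.symm]
  let t : GL (Fin 2 × Fin n₂) F := ⟨1 + E, 1 - E, by
      rw [add_mul, mul_sub, mul_sub, hEE]; simp, by
      rw [sub_mul, mul_add, mul_add, hEE]; simp⟩
  have ht : t ∈ Subgroup.normalizer (Z hq n₂ : Set (GL (Fin 2 × Fin n₂) F)) := by rw [heq]; trivial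
  have hW : psi n₂ (om hq) ∈ Z hq n₂ := ⟨om hq, Subgroup.mem_zpowers _, rfl⟩
  have hX := (Subgroup.mem_normalizer_iff.1 ht _).1 hW
  set X := t * psi n₂ (om hq) * t⁻¹ with hXdef
  have h1 : t * psi n₂ (om hq) = X * t := by rw [hXdef]; group
  have h2' := congrArg (fun u : GL (Fin 2 × Fin n₂) F =>
    (u : Matrix (Fin 2 × Fin n₂) (Fin 2 × Fin n₂) F) (0, k0) (1, k1)) h1
  have hXb := Z_block hq n₂ X hX 0 1 k0 k1 h01
  have hWb := Z_block hq n₂ _ hW 0 1 k0 k1 h01
  simp only [Units.val_mul] at h2'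
  have htc : (t : Matrix (Fin 2 × Fin n₂) (Fin 2 × Fin n₂) F) = 1 + E := rfl
  rw [htc] at h2'
  rw [add_mul, mul_add, one_mul, mul_one, Matrix.add_apply, Matrix.add_apply, hXb, hWb] at h2'
  simp only [E] at h2'
  rw [Matrix.single_mul_apply_same, Matrix.mul_single_apply_of_ne, psi_coe, Matrix.kronecker_apply,
    om_coe] at h2'
  · simp at h2'
  · intro h; simpa using (Prod.ext_iff.1 h).1

/-- Over the field with 2 elements, for n = 2 n₂ ≥ 13, the stabiliser in SL_n of a tensor decomposition with factors of dimensions 2 and n₂ (the conjugate by any P of the Kronecker-product subgroup transported along any bijection Fin n ≃ Fin 2 × Fin n₂, intersected with SL_n) is not a maximal subgroup: some subgroup lies strictly between it and SL_n. -/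
theorem result {F : Type*} [Field F] [Fintype F] (n : ℕ) (hn : 13 ≤ n) (hq : Fintype.card F = 2) (n₂ : ℕ) (e : Fin n ≃ Fin 2 × Fin n₂) (P : Matrix.GeneralLinearGroup (Fin n) F) : ∃ K : Subgroup (Matrix.GeneralLinearGroup (Fin n) F), Cfsg.Geo.tensorProductSubgroup 2 n₂ e P ⊓ Cfsg.Geo.specialLinear (Fin n) F < K ∧ K < Cfsg.Geo.specialLinear (Fin n) F := by
  have hcard : n = 2 * n₂ := by
    have := Fintype.card_congr e
    simpa using this
  have h2 : 2 ≤ n₂ := by omega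
  classical
  have hsl : Cfsg.Geo.specialLinear (Fin n) F = ⊤ := by
    have hsub : Subsingleton Fˣ := by
      rw [← Fintype.card_le_one_iff_subsingleton, Fintype.card_units, hq]
    rw [Cfsg.Geo.specialLinear, MonoidHom.ker_eq_top_iff]
    ext g
    exact congrArg Units.val (Subsingleton.elim _ _)
  rw [hsl, inf_top_eq]
  let Φ : Matrix.GeneralLinearGroup (Fin 2 × Fin n₂) F ≃* Matrix.GeneralLinearGroup (Fin n) F :=
    (Cfsg.Geo.glReindex e.symm).trans (MulAut.conj P)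
  have hΦ : ∀ H : Subgroup (Matrix.GeneralLinearGroup (Fin 2 × Fin n₂) F),
      (H.map (Cfsg.Geo.glReindex e.symm).toMonoidHom).map (MulAut.conj P).toMonoidHom
        = H.map Φ.toMonoidHom := by
    intro H
    rw [Subgroup.map_map]
    rfl
  refine ⟨(Subgroup.normalizer (Z hq n₂ : Set (GL (Fin 2 × Fin n₂) F))).map Φ.toMonoidHom, ?_, ?_⟩
  · rw [Cfsg.Geo.tensorProductSubgroup, hΦ]
    exact (Subgroup.map_lt_map_iff_of_injective Φ.injective).2 (kron_lt hq n₂ h2)
  · have htop : (⊤ : Subgroup (Matrix.GeneralLinearGroup (Fin n) F))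
        = (⊤ : Subgroup (Matrix.GeneralLinearGroup (Fin 2 × Fin n₂) F)).map Φ.toMonoidHom := by
      rw [Subgroup.map_top_of_surjective _ Φ.surjective]
    rw [htop]
    exact (Subgroup.map_lt_map_iff_of_injective Φ.injective).2 (norm_lt hq n₂ h2)

end Cfsg.Agent.S5638
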