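import Cfsg.Statements.S5642
import Cfsg.Agent.Lib.Helper95Form
import Cfsg.Agent.Lib.Helper95SL
import Cfsg.Agent.Lib.Helper95SpSL
-- import your own Cfsg.Agent.* helpers here

set_option autoImplicit false
open Cfsg

namespace Cfsg.Agent.S5642

open Cfsg.Agent.Lib.Helper95Basic Cfsg.Agent.Lib.Helper95Sp Cfsg.Agent.Lib.Helper95Form
  Cfsg.Agent.Lib.Helper95SL Cfsg.Agent.Lib.Helper95SpSL

/-- For a finite field F and n ≥ 13, let f be a non-degenerate symplectic form on F^n (so n is even). Then the elements of SL_n(F) that are similarities of f (f(gu, gv) = c f(u, v) for a non-zero scalar c depending on g) form a maximal subgroup of SL_n(F). -/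
theorem result {F : Type*} [Field F] [Fintype F] (n : ℕ) (hn : 13 ≤ n) (f : (Fin n → F) → (Fin n → F) → F) (hf : Cfsg.Geo.IsSymplecticForm f) : Cfsg.Geo.IsMaximalIn (Cfsg.Geo.specialLinear (Fin n) F) (Cfsg.Geo.similarityGroup f ⊓ Cfsg.Geo.specialLinear (Fin n) F) := by
  classical
  have hnt : Nontrivial (Fin n) := Fin.nontrivial_iff_two_le.2 (by omega)
  set B := toBilin f hf.bilinear with hBdef
  have hB : B.Nondegenerate := toBilin_nondegenerate f hf.bilinear hf.nondegenerate
  have hA : B.IsAlt := toBilin_isAlt f hf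
  have hstvH : ∀ v c, mkGL (stv B hA v c) ∈
      Cfsg.Geo.similarityGroup f ⊓ Cfsg.Geo.specialLinear (Fin n) F := by
    intro v c
    refine ⟨⟨1, fun x y => ?_⟩, mkGL_stv_mem_specialLinear B hA v c⟩
    rw [mkGL_mulVec, mkGL_mulVec, Units.val_one, one_mul]
    exact stv_isometry hA v c x y
  constructor
  · refine lt_of_le_of_ne inf_le_right ?_
    intro heq
    -- a transvection that is not a similarity
    obtain ⟨a, ha⟩ : ∃ a : Fin n → F, a ≠ 0 := exists_ne 0
    obtain ⟨x, hx⟩ := (hf.nondegenerate a ha).1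
    have hlt : Submodule.span F ((({a, x} : Finset (Fin n → F)) : Set (Fin n → F))) < ⊤ := by
      rw [lt_top_iff_ne_top]
      intro htop
      have h1 := finrank_span_finset_le_card (R := F) ({a, x} : Finset (Fin n → F))
      rw [Set.finrank, htop, finrank_top, Module.finrank_fin_fun] at h1
      have h2 : ({a, x} : Finset (Fin n → F)).card ≤ 2 := Finset.card_le_two
      omega
    obtain ⟨ℓ, hℓ0, hℓ⟩ := Submodule.exists_le_ker_of_lt_top _ hlt
    have hℓa : ℓ a = 0 := LinearMap.mem_ker.1 (hℓ (Submodule.subset_span (by simp)))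
    have hℓx : ℓ x = 0 := LinearMap.mem_ker.1 (hℓ (Submodule.subset_span (by simp)))
    obtain ⟨y, hy⟩ : ∃ y, ℓ y ≠ 0 := by
      by_contra hcon
      push Not at hcon
      exact hℓ0 (LinearMap.ext hcon)
    have hmem : tv a ℓ hℓa ∈ Cfsg.Geo.specialLinear (Fin n) F := tv_mem_specialLinear _ _ _
    rw [← heq] at hmem
    obtain ⟨c, hc⟩ := hmem.1
    have h1 := hc x a
    have h2 := hc x y
    simp only [tv_mulVec, hℓa, hℓx, zero_smul, add_zero] at h1 h2
    have hc1 : (c : F) = 1 := by
      have : (1 - (c : F)) * f x a = 0 := by rw [sub_mul, one_mul, ← h1, sub_self]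
      rcases mul_eq_zero.1 this with h | h
      · exact (sub_eq_zero.1 h).symm
      · exact absurd h hx
    rw [hc1, one_mul, hf.bilinear.add_right, hf.bilinear.smul_right] at h2
    have h3 : ℓ y * f x a = 0 := by
      have := h2
      rw [add_eq_left] at this
      exact this
    rcases mul_eq_zero.1 h3 with h | h
    · exact hy h
    · exact hx h
  · intro M hHM hMS
    by_cases hMH : M ≤ Cfsg.Geo.similarityGroup f ⊓ Cfsg.Geo.specialLinear (Fin n) F
    · exact Or.inl (le_antisymm hMH hHM)
    · right
      refine le_antisymm hMS ?_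
      obtain ⟨g, hgM, hgH⟩ := SetLike.not_le_iff_exists.1 hMH
      have hgS : g ∉ Cfsg.Geo.similarityGroup f := fun h => hgH ⟨h, hMS hgM⟩
      have hall := all_tv_mem (M := pull M) hB hA (fun v c => (mem_pull M _).2 (hHM (hstvH v c)))
        (glEquiv (Fin n) F g) ((glEquiv_mem_pull M g).2 hgM) (by
          rintro ⟨c, hc⟩
          apply hgS
          have hc0 : c ≠ 0 := by
            rintro rfl
            obtain ⟨a, ha⟩ : ∃ a : Fin n → F, a ≠ 0 := exists_ne 0
            obtain ⟨x, hx⟩ := (hf.nondegenerate a ha).1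
            apply hx
            have := hc ((glEquiv (Fin n) F g).symm x) ((glEquiv (Fin n) F g).symm a)
            rw [LinearEquiv.apply_symm_apply, LinearEquiv.apply_symm_apply, zero_mul] at this
            exact this
          exact ⟨Units.mk0 c hc0, fun u v => hc u v⟩)
      exact specialLinear_le_of_tv M (fun a ℓ h => hall a ℓ h)

end Cfsg.Agent.S5642
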