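import Cfsg.Statements.S5643
import Cfsg.Agent.Lib.Helper95Form
import Cfsg.Agent.Lib.Helper95SL
import Cfsg.Agent.Lib.Helper95Herm
-- import your own Cfsg.Agent.* helpers here

set_option autoImplicit false
open Cfsg

namespace Cfsg.Agent.S5643

open Module Cfsg.Agent.Lib.Helper95Basic Cfsg.Agent.Lib.Helper95Sp Cfsg.Agent.Lib.Helper95Form
  Cfsg.Agent.Lib.Helper95SL Cfsg.Agent.Lib.Helper95SpSL Cfsg.Agent.Lib.Helper95Herm

section abstract

variable {K V : Type*} [Field K] [AddCommGroup V] [Module K V]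
variable {σ : K →+* K} {f : V → V → K}

/-- every vector is a sum of two isotropic vectors, inside the kernel of `fl u` -/
lemma exists_split [Finite K] [FiniteDimensional K V] (h : Herm σ f) (hdim : 11 ≤ finrank K V)
    (b u : V) (hbu : f b u = 0) :
    ∃ a1 a2, f a1 a1 = 0 ∧ f a2 a2 = 0 ∧ f a1 u = 0 ∧ f a2 u = 0 ∧ b = a1 + a2 := by
  by_cases hbb : f b b = 0
  · exact ⟨b, 0, hbb, h.zero_left 0, hbu, h.zero_left u, by simp⟩
  · have hb : b ∉ Submodule.span K (({u} : Finset V) : Set V) := by
      intro hmem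
      rw [Finset.coe_singleton, Submodule.mem_span_singleton] at hmem
      obtain ⟨c, rfl⟩ := hmem
      apply hbb
      rw [h.smul_right, hbu, mul_zero]
    obtain ⟨a, haS, hab, -, haa⟩ := h.exists_iso {u} b b (by simp; omega) hb hb 0 (map_zero σ)
    obtain ⟨t, ht⟩ := h.trace_surj (f b b) (h.self_fix b)
    have hau : f a u = 0 := haS u (by simp)
    refine ⟨(t / f a b) • a, b - (t / f a b) • a, ?_, ?_, ?_, ?_, by abel⟩
    · rw [h.smul_left, h.smul_right, haa]; ring
    · rw [h.sub_left, h.sub_right, h.sub_right, h.smul_left, h.smul_left, h.smul_right, h.smul_right,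
        haa, h.herm b a, ← map_mul]
      have : t / f a b * f a b = t := by field_simp
      rw [this]
      linear_combination -ht
    · rw [h.smul_left, hau, mul_zero]
    · rw [h.sub_left, h.smul_left, hau, hbu]; ring

/-- an automorphism preserving orthogonality to isotropic vectors is a similarity -/
lemma similarity_of_ortho_iso [Finite K] [FiniteDimensional K V] (h : Herm σ f)
    (hdim : 11 ≤ finrank K V) (g : V ≃ₗ[K] V)
    (hg : ∀ x y, f y y = 0 → f x y = 0 → f (g x) (g y) = 0) :
    ∃ c : K, ∀ x y, f (g x) (g y) = c * f x y := by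
  have h1 : ∀ y, f y y = 0 → ∃ c : K, ∀ x, f (g x) (g y) = c * f x y := by
    intro y hy
    obtain ⟨c, hc⟩ := dual_smul_of_ker_le (h.fl y) (h.fl (g y) ∘ₗ (g : V →ₗ[K] V))
      (fun x hx => hg x y hy hx)
    exact ⟨c, fun x => by simpa using congrArg (fun φ : Dual K V => φ x) hc⟩
  choose! lam hlam using h1
  have h2 : ∀ y1 y2, f y1 y1 = 0 → f y2 y2 = 0 → f y1 y2 ≠ 0 → lam y2 = σ (lam y1) := by
    intro y1 y2 hy1 hy2 h12
    have e1 := hlam y2 hy2 y1
    have e2 := hlam y1 hy1 y2
    rw [h.herm (g y1) (g y2), e2, map_mul, ← h.herm y1 y2] at e1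
    exact (mul_right_cancel₀ h12 e1).symm
  have hempty : ∀ y : V, y ≠ 0 → y ∉ Submodule.span K ((∅ : Finset V) : Set V) := by
    intro y hy
    simpa using hy
  have h3 : ∀ y1 y2, y1 ≠ 0 → y2 ≠ 0 → f y1 y1 = 0 → f y2 y2 = 0 → lam y1 = lam y2 := by
    intro y1 y2 h10 h20 hy1 hy2
    obtain ⟨y3, -, h31, h32, h33⟩ := h.exists_iso ∅ y1 y2 (by simp; omega) (hempty y1 h10)
      (hempty y2 h20) 0 (map_zero σ)
    rw [h2 y3 y1 h33 hy1 h31, h2 y3 y2 h33 hy2 h32]
  have hnt : Nontrivial V := Module.nontrivial_of_finrank_pos (R := K) (by omega)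
  obtain ⟨a, ha⟩ : ∃ a : V, a ≠ 0 := exists_ne 0
  obtain ⟨e0, -, he0a, -, he0⟩ := h.exists_iso ∅ a a (by simp; omega) (hempty a ha) (hempty a ha) 0
    (map_zero σ)
  have he00 : e0 ≠ 0 := by
    rintro rfl
    exact he0a (h.zero_left a)
  have h4 : ∀ y, f y y = 0 → ∀ x, f (g x) (g y) = lam e0 * f x y := by
    intro y hy x
    by_cases hy0 : y = 0
    · subst hy0
      rw [map_zero, h.zero_right, h.zero_right, mul_zero]
    · rw [hlam y hy, h3 y e0 hy0 he00 hy he0]
  refine ⟨lam e0, fun x y => ?_⟩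
  obtain ⟨a1, a2, h11, h22, -, -, rfl⟩ := exists_split h hdim y 0 (h.zero_right y)
  rw [map_add, h.add_right, h.add_right, h4 a1 h11, h4 a2 h22]
  ring

variable {M : Subgroup (V ≃ₗ[K] V)}

/-- Claim A: an isotropic centre with one "wrong" family of transvections has all of them. -/
lemma claimA [Finite K] [FiniteDimensional K V] (h : Herm σ f) (hdim : 11 ≤ finrank K V)
    (hM : ∀ v z (hv : f v v = 0), z + σ z = 0 → h.utv v z hv ∈ M)
    (v u1 : V) (hv : f v v = 0) (hvu : f v u1 = 0) (hu1 : u1 ∉ Submodule.span K {v})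
    (hP : ∀ k : K, σ k = k → P M v (k • h.fl u1)) : v ∈ Cen M := by
  classical
  obtain ⟨z0, hz0, hz0'⟩ := h.exists_z
  have hσz0 : σ z0 = - z0 := by linear_combination hz0'
  -- step 1
  have s1 : ∀ v', f v' v' = 0 → f v v' = 0 → ∀ k, σ k = k →
      P M v ((k * f v' u1 * z0) • h.fl v') := by
    intro v' hv' hvv' k hk
    have := P_comm (h.P_utv v' z0 hv' (hM v' z0 hv' hz0')) (hP k hk) (by simp [hvv'])
    simpa [smul_smul] using this
  have s2 : ∀ v' v'', f v' v' = 0 → f v v' = 0 → f v'' v'' = 0 → f v v'' = 0 → ∀ k, σ k = k →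
      P M v ((k * f v' u1 * z0 * f v'' v' * z0) • h.fl v'') := by
    intro v' v'' hv' hvv' hv'' hvv'' k hk
    have := P_comm (h.P_utv v'' z0 hv'' (hM v'' z0 hv'' hz0')) (s1 v' hv' hvv' k hk) (by simp [hvv''])
    simpa [smul_smul] using this
  -- step 3
  have s3 : ∀ v'', f v'' v'' = 0 → f v v'' = 0 → v'' ∉ Submodule.span K {v, u1} → ∀ β : K,
      P M v (β • h.fl v'') := by
    intro v'' hv'' hvv'' hnot β
    set γ := β / (z0 * z0) with hγ
    have hu : u1 ∉ Submodule.span K ((({v, v'' - γ • u1} : Finset V)) : Set V) := by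
      intro hmem
      rw [Finset.coe_pair, Submodule.mem_span_pair] at hmem
      obtain ⟨a, b, hab⟩ := hmem
      by_cases hb : b = 0
      · apply hu1
        rw [Submodule.mem_span_singleton]
        exact ⟨a, by rw [← hab, hb]; simp⟩
      · apply hnot
        rw [Submodule.mem_span_pair]
        refine ⟨-(b⁻¹ * a), b⁻¹ + γ, ?_⟩
        have : v'' = b⁻¹ • (b • (v'' - γ • u1)) + γ • u1 := by
          rw [smul_smul, inv_mul_cancel₀ hb, one_smul]; abel
        rw [this]
        have h2 : b • (v'' - γ • u1) = u1 - a • v := by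
          rw [eq_sub_iff_add_eq, add_comm]; exact hab
        rw [h2]
        module
    obtain ⟨v', hv'S, hv'u, -, hv'⟩ := h.exists_iso {v, v'' - γ • u1} u1 u1 (by
      have := Finset.card_le_two (a := v) (b := v'' - γ • u1)
      omega) hu hu 0 (map_zero σ)
    have hv'v : f v' v = 0 := hv'S v (by simp)
    have hv'2 : f v' (v'' - γ • u1) = 0 := hv'S _ (by simp)
    rw [h.sub_right, h.smul_right, sub_eq_zero] at hv'2
    have hv''v' : f v'' v' = γ * σ (f v' u1) := by
      rw [h.herm, hv'2, map_mul, h.invol]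
    set N := f v' u1 * σ (f v' u1) with hN
    have hσne : σ (f v' u1) ≠ 0 := by
      intro h0
      apply hv'u
      have := congrArg σ h0
      rwa [h.invol, map_zero] at this
    have hN0 : N ≠ 0 := mul_ne_zero hv'u hσne
    have hNfix : σ N⁻¹ = N⁻¹ := by
      rw [map_inv₀, hN, map_mul, h.invol, mul_comm]
    have := s2 v' v'' hv' (h.swap_zero hv'v) hv'' hvv'' N⁻¹ hNfix
    have hcoef : N⁻¹ * f v' u1 * z0 * f v'' v' * z0 = β := by
      rw [hv''v', hγ, hN]
      field_simp
    rwa [hcoef] at this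
  -- step 4
  let Y : Submodule K V :=
    { carrier := {u | ∀ β : K, P M v (β • h.fl u)}
      add_mem' := by
        intro a b ha hb β
        rw [h.fl_add, smul_add]
        exact P_add (ha β) (hb β)
      zero_mem' := by
        intro β
        rw [h.fl_zero, smul_zero]
        exact P_zero_right v
      smul_mem' := by
        intro c a ha β
        rw [h.fl_smul, smul_smul]
        exact ha _ }
  have hY : ∀ u, f u v = 0 → u ∈ Y := by
    by_contra hcon
    push Not at hcon
    obtain ⟨u, huv, huY⟩ := hcon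
    obtain ⟨ℓ1, hℓ1u, hℓ1⟩ := Submodule.exists_le_ker_of_notMem huY
    obtain ⟨a1, ha1⟩ := h.fl_surjective ℓ1
    obtain ⟨a2, ha2S, ha2⟩ := h.exists_perp {v, u1} (by
      have := Finset.card_le_two (a := v) (b := u1)
      omega) 1 (map_one σ)
    have ha1v : a1 ∉ Submodule.span K ((({v} : Finset V)) : Set V) := by
      intro hmem
      rw [Finset.coe_singleton, Submodule.mem_span_singleton] at hmem
      obtain ⟨c, rfl⟩ := hmem
      apply hℓ1u
      rw [← ha1, h.fl_apply, h.smul_right, huv, mul_zero]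
    have ha2v : a2 ∉ Submodule.span K ((({v} : Finset V)) : Set V) := by
      intro hmem
      rw [Finset.coe_singleton, Submodule.mem_span_singleton] at hmem
      obtain ⟨c, rfl⟩ := hmem
      rw [h.smul_left, h.smul_right, hv] at ha2
      simp at ha2
    obtain ⟨x, hxS, hx1, hx2, hxx⟩ := h.exists_iso {v} a1 a2 (by simp; omega) ha1v ha2v 0
      (map_zero σ)
    have hxv : f x v = 0 := hxS v (by simp)
    have hxY : x ∈ Y := by
      apply s3 x hxx (h.swap_zero hxv)
      intro hmem
      rw [Submodule.mem_span_pair] at hmem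
      obtain ⟨a, b, rfl⟩ := hmem
      apply hx2
      rw [h.add_left, h.smul_left, h.smul_left, h.swap_zero (ha2S v (by simp)),
        h.swap_zero (ha2S u1 (by simp))]
      ring
    apply hx1
    have := LinearMap.mem_ker.1 (hℓ1 hxY)
    rwa [← ha1] at this
  intro ℓ hℓ
  obtain ⟨u, rfl⟩ := h.fl_surjective ℓ
  have := hY u (h.swap_zero hℓ) 1
  rwa [one_smul] at this

/-- one isotropic centre gives all transvections -/
lemma all_of_one [Finite K] [FiniteDimensional K V] (h : Herm σ f) (hdim : 11 ≤ finrank K V)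
    (hM : ∀ v z (hv : f v v = 0), z + σ z = 0 → h.utv v z hv ∈ M)
    (v : V) (hv0 : v ≠ 0) (hv : f v v = 0) (hvC : v ∈ Cen M) : ∀ a, a ∈ Cen M := by
  classical
  obtain ⟨z0, hz0, hz0'⟩ := h.exists_z
  have hσz0 : σ z0 = - z0 := by linear_combination hz0'
  have s1 : ∀ v y, f v v = 0 → v ∈ Cen M → f y y = 0 → f y v ≠ 0 → y ∈ Cen M := by
    intro v y hv hvC hy hyv
    set lam := z0 / f y v with hlam
    have hlam0 : lam ≠ 0 := div_ne_zero hz0 hyv
    have hy'v : f (lam • y) v = z0 := by
      rw [h.smul_left, hlam]; field_simp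
    have hvy' : f v (lam • y) = - z0 := by rw [h.herm, hy'v, hσz0]
    have hy'y' : f (lam • y) (lam • y) = 0 := by rw [h.smul_left, h.smul_right, hy]; ring
    have haa : f (lam • y - v) (lam • y - v) = 0 := by
      rw [h.sub_left, h.sub_right, h.sub_right, hy'y', hy'v, hvy', hv]; ring
    have hz : (-z0⁻¹) + σ (-z0⁻¹) = 0 := by
      rw [map_neg, map_inv₀, hσz0]
      field_simp
      ring
    have h1 := Cen_map hvC _ (hM (lam • y - v) (-z0⁻¹) haa hz)
    have h2 : h.utv (lam • y - v) (-z0⁻¹) haa v = lam • y := by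
      rw [h.utv_apply, h.sub_right, hvy', hv]
      have : -z0⁻¹ * (-z0 - 0) = 1 := by field_simp; ring
      rw [this]
      module
    rw [h2] at h1
    have h3 := Cen_smul h1 lam⁻¹
    rwa [smul_smul, inv_mul_cancel₀ hlam0, one_smul] at h3
  have hempty : ∀ y : V, y ≠ 0 → y ∉ Submodule.span K ((∅ : Finset V) : Set V) := by
    intro y hy
    simpa using hy
  have s2 : ∀ y, f y y = 0 → y ∈ Cen M := by
    intro y hy
    by_cases hy0 : y = 0
    · subst hy0
      intro ℓ _
      exact P_zero ℓ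
    · obtain ⟨y3, -, h31, h32, h33⟩ := h.exists_iso ∅ v y (by simp; omega) (hempty v hv0)
        (hempty y hy0) 0 (map_zero σ)
      exact s1 y3 y h33 (s1 v y3 hv hvC h33 h31) hy (h.swap_ne h32)
  intro b ℓ hℓ
  obtain ⟨u, rfl⟩ := h.fl_surjective ℓ
  obtain ⟨a1, a2, h11, h22, h1u, h2u, rfl⟩ := exists_split h hdim b u hℓ
  exact P_add_left (s2 a1 h11 _ h1u) (s2 a2 h22 _ h2u)

/-- A subgroup containing all unitary transvections and some non-similarity contains all
transvections. -/
theorem all_tv_mem_herm [Finite K] [FiniteDimensional K V] (h : Herm σ f)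
    (hdim : 11 ≤ finrank K V)
    (hM : ∀ v z (hv : f v v = 0), z + σ z = 0 → h.utv v z hv ∈ M)
    (g : V ≃ₗ[K] V) (hgM : g ∈ M) (hg : ¬ ∃ c : K, ∀ x y, f (g x) (g y) = c * f x y) :
    ∀ a, a ∈ Cen M := by
  classical
  obtain ⟨z0, hz0, hz0'⟩ := h.exists_z
  obtain ⟨x0, y0, hy0, hxy, hgxy⟩ : ∃ x0 y0, f y0 y0 = 0 ∧ f x0 y0 = 0 ∧ f (g x0) (g y0) ≠ 0 := by
    by_contra hcon
    push Not at hcon
    exact hg (similarity_of_ortho_iso h hdim g (fun x y hy hxy => hcon x y hy hxy))
  set w := g y0 with hw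
  obtain ⟨u0, hu0⟩ := h.fl_surjective (h.fl y0 ∘ₗ ((g⁻¹ : V ≃ₗ[K] V) : V →ₗ[K] V))
  have hginv : ∀ x, g⁻¹ (g x) = x := fun x => g.symm_apply_apply x
  have hu0' : ∀ x, f (g x) u0 = f x y0 := by
    intro x
    have := congrArg (fun φ : Dual K V => φ (g x)) hu0
    simpa [hginv] using this
  have hPw : ∀ z, z + σ z = 0 → P M w (z • h.fl u0) := by
    intro z hz
    have h1 := P_conj g hgM (h.P_utv y0 z hy0 (hM y0 z hy0 hz))
    rw [hu0]
    exact h1
  have hwu0 : w ∉ Submodule.span K ((({u0} : Finset V)) : Set V) := by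
    intro hmem
    rw [Finset.coe_singleton, Submodule.mem_span_singleton] at hmem
    obtain ⟨c, hc⟩ := hmem
    apply hgxy
    rw [← hc, h.smul_right, hu0', hxy, mul_zero]
  obtain ⟨v, hvS, hvw, -, hvv⟩ := h.exists_iso {u0} w w (by simp; omega) hwu0 hwu0 0 (map_zero σ)
  have hvu0 : f v u0 = 0 := hvS u0 (by simp)
  have hwv : f w v ≠ 0 := h.swap_ne hvw
  have hv0 : v ≠ 0 := by
    rintro rfl
    exact hvw (h.zero_left w)
  have hwu : f w u0 = 0 := by rw [hw, hu0', hy0]
  set α := z0 * f w v * z0 with hα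
  have hα0 : α ≠ 0 := mul_ne_zero (mul_ne_zero hz0 hwv) hz0
  have hσα0 : σ α ≠ 0 := by
    intro h0
    apply hα0
    have := congrArg σ h0
    rwa [h.invol, map_zero] at this
  have hu00 : u0 ≠ 0 := by
    rintro rfl
    obtain ⟨x, hx⟩ := h.nondeg y0 (by
      intro hy00
      apply hgxy
      rw [hw, hy00, map_zero, h.zero_right])
    apply hx
    rw [← hu0', h.zero_right]
  refine all_of_one h hdim hM v hv0 hvv (claimA h hdim hM v (σ α • u0) hvv ?_ ?_ ?_)
  · rw [h.smul_right, hvu0, mul_zero]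
  · intro hmem
    rw [Submodule.mem_span_singleton] at hmem
    obtain ⟨c, hc⟩ := hmem
    have h1 : f w (c • v) = 0 := by rw [hc, h.smul_right, hwu, mul_zero]
    rw [h.smul_right] at h1
    rcases mul_eq_zero.1 h1 with h2 | h2
    · have hc0 : c = 0 := by
        have := congrArg σ h2
        rwa [h.invol, map_zero] at this
      rw [hc0, zero_smul] at hc
      exact (smul_ne_zero hσα0 hu00) hc.symm
    · exact hwv h2
  · intro k hk
    have hz : k * z0 + σ (k * z0) = 0 := by
      rw [map_mul, hk]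
      linear_combination k * hz0'
    have := P_comm (hPw (k * z0) hz) (h.P_utv v z0 hvv (hM v z0 hvv hz0')) (by simp [hvu0])
    rw [h.fl_smul, h.invol]
    have hcoef : ((z0 • h.fl v) w) • ((k * z0) • h.fl u0) = k • α • h.fl u0 := by
      rw [smul_smul, smul_smul, hα]
      congr 1
      simp
      ring
    rwa [hcoef] at this

end abstract

/-- For a finite field F and n ≥ 13, let σ be a field automorphism of F of order two and f a non-degenerate unitary form on F^n with respect to σ. Then the elements of SL_n(F) that are similarities of f form a maximal subgroup of SL_n(F). -/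
theorem result {F : Type*} [Field F] [Fintype F] (n : ℕ) (hn : 13 ≤ n) (σ : F ≃+* F) (f : (Fin n → F) → (Fin n → F) → F) (hf : Cfsg.Geo.IsUnitaryForm σ f) : Cfsg.Geo.IsMaximalIn (Cfsg.Geo.specialLinear (Fin n) F) (Cfsg.Geo.similarityGroup f ⊓ Cfsg.Geo.specialLinear (Fin n) F) := by
  classical
  have hnt : Nontrivial (Fin n) := Fin.nontrivial_iff_two_le.2 (by omega)
  have h : Herm (σ : F →+* F) f :=
    { ne_id := by
        intro h0
        apply hf.ne_refl
        ext a
        exact congrArg (fun φ : F →+* F => φ a) h0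
      invol := hf.involutive
      add_left := hf.add_left
      smul_left := hf.smul_left
      herm := hf.herm
      nondeg := fun v hv => (hf.nondegenerate v hv).1 }
  have hdim : 11 ≤ finrank F (Fin n → F) := by rw [Module.finrank_fin_fun]; omega
  have hutvH : ∀ v z (hv : f v v = 0), z + (σ : F →+* F) z = 0 → mkGL (h.utv v z hv) ∈
      Cfsg.Geo.similarityGroup f ⊓ Cfsg.Geo.specialLinear (Fin n) F := by
    intro v z hv hz
    refine ⟨⟨1, fun x y => ?_⟩, ?_⟩
    · rw [mkGL_mulVec, mkGL_mulVec, Units.val_one, one_mul]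
      exact h.utv_isometry v z hv hz x y
    · show mkGL (h.utv v z hv) ∈ Cfsg.Geo.specialLinear (Fin n) F
      rw [mem_specialLinear_iff, det_mkGL]
      exact h.utv_det v z hv
  constructor
  · refine lt_of_le_of_ne inf_le_right ?_
    intro heq
    -- a transvection that is not a similarity
    obtain ⟨a, ha⟩ : ∃ a : Fin n → F, a ≠ 0 := exists_ne 0
    obtain ⟨x, hx⟩ := (hf.nondegenerate a ha).1
    have hlt : Submodule.span F ((({a, x} : Finset (Fin n → F)) : Set (Fin n → F))) < ⊤ := by
      rw [lt_top_iff_ne_top]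
      intro htop
      have h1 := finrank_span_finset_le_card (R := F) ({a, x} : Finset (Fin n → F))
      rw [Set.finrank, htop, finrank_top, Module.finrank_fin_fun] at h1
      have h2 : ({a, x} : Finset (Fin n → F)).card ≤ 2 := Finset.card_le_two
      omega
    obtain ⟨ℓ, hℓ0, hℓ⟩ := Submodule.exists_le_ker_of_lt_top _ hlt
    have hℓa : ℓ a = 0 := LinearMap.mem_ker.1 (hℓ (Submodule.subset_span (by simp)))
    have hℓx : ℓ x = 0 := LinearMap.mem_ker.1 (hℓ (Submodule.subset_span (by simp)))
    obtain ⟨y, hy⟩ : ∃ y, ℓ y ≠ 0 := by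
      by_contra hcon
      push Not at hcon
      exact hℓ0 (LinearMap.ext hcon)
    have hmem : tv a ℓ hℓa ∈ Cfsg.Geo.specialLinear (Fin n) F := tv_mem_specialLinear _ _ _
    rw [← heq] at hmem
    obtain ⟨c, hc⟩ := hmem.1
    have h1 := hc x a
    have h2 := hc y a
    simp only [tv_mulVec, hℓa, hℓx, zero_smul, add_zero] at h1 h2
    have hc1 : (c : F) = 1 := by
      have : (1 - (c : F)) * f x a = 0 := by rw [sub_mul, one_mul, ← h1, sub_self]
      rcases mul_eq_zero.1 this with h | h
      · exact (sub_eq_zero.1 h).symm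
      · exact absurd h hx
    have h4 := hc y x
    simp only [tv_mulVec, hℓx, zero_smul, add_zero] at h4
    rw [hc1, one_mul, h.add_left, h.smul_left] at h4
    have h3 : ℓ y * f a x = 0 := by
      have := h4
      rw [add_eq_left] at this
      exact this
    rcases mul_eq_zero.1 h3 with h' | h'
    · exact hy h'
    · exact hx (h.swap_zero h')
  · intro M hHM hMS
    by_cases hMH : M ≤ Cfsg.Geo.similarityGroup f ⊓ Cfsg.Geo.specialLinear (Fin n) F
    · exact Or.inl (le_antisymm hMH hHM)
    · right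
      refine le_antisymm hMS ?_
      obtain ⟨g, hgM, hgH⟩ := SetLike.not_le_iff_exists.1 hMH
      have hgS : g ∉ Cfsg.Geo.similarityGroup f := fun h => hgH ⟨h, hMS hgM⟩
      have hall := all_tv_mem_herm (M := pull M) h hdim
        (fun v z hv hz => (mem_pull M _).2 (hHM (hutvH v z hv hz)))
        (glEquiv (Fin n) F g) ((glEquiv_mem_pull M g).2 hgM) (by
          rintro ⟨c, hc⟩
          apply hgS
          have hc0 : c ≠ 0 := by
            rintro rfl
            obtain ⟨a, ha⟩ : ∃ a : Fin n → F, a ≠ 0 := exists_ne 0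
            obtain ⟨x, hx⟩ := (hf.nondegenerate a ha).1
            apply hx
            have := hc ((glEquiv (Fin n) F g).symm x) ((glEquiv (Fin n) F g).symm a)
            rw [LinearEquiv.apply_symm_apply, LinearEquiv.apply_symm_apply, zero_mul] at this
            exact this
          exact ⟨Units.mk0 c hc0, fun u v => hc u v⟩)
      exact specialLinear_le_of_tv M (fun a ℓ h => (hall a ℓ h).2)

end Cfsg.Agent.S5643
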