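import Cfsg.Statements.S5644
import Cfsg.Agent.Lib.Helper95Form
import Cfsg.Agent.Lib.Helper95SL
import Cfsg.Agent.Lib.Helper95Quad
-- import your own Cfsg.Agent.* helpers here

set_option autoImplicit false
open Cfsg

namespace Cfsg.Agent.S5644

open Module Cfsg.Agent.Lib.Helper95Basic Cfsg.Agent.Lib.Helper95Sp Cfsg.Agent.Lib.Helper95Form
  Cfsg.Agent.Lib.Helper95SL Cfsg.Agent.Lib.Helper95SpSL Cfsg.Agent.Lib.Helper95Herm
  Cfsg.Agent.Lib.Helper95Quad

section abstract

variable {K V : Type*} [Field K] [AddCommGroup V] [Module K V]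
variable {B : LinearMap.BilinForm K V} {Q : V → K}

lemma not_mem_span_empty (y : V) (hy : y ≠ 0) : y ∉ Submodule.span K ((∅ : Finset V) : Set V) := by
  simpa using hy

/-- every vector orthogonal to `a` is a sum of two vectors of norm `β` orthogonal to `a` -/
lemma exists_split [Finite K] [FiniteDimensional K V] (h : QF B Q) (hB : B.Nondegenerate)
    (h2 : (2 : K) ≠ 0) (hdim : 13 ≤ finrank K V) (a y : V) (hya : B y a = 0) (β : K) :
    ∃ c1 c2, Q c1 = β ∧ Q c2 = β ∧ B c1 a = 0 ∧ B c2 a = 0 ∧ y = c1 + c2 := by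
  by_cases hy : y ∈ Submodule.span K (({a} : Finset V) : Set V)
  · rw [Finset.coe_singleton, Submodule.mem_span_singleton] at hy
    obtain ⟨l, rfl⟩ := hy
    obtain ⟨c1, hc1, hQ1⟩ := h.exists_perp hB {a} (by simp; omega) β
    have hc1a : B c1 a = 0 := hc1 a (by simp)
    have h3 : l * Q a = 0 := by
      rw [map_smul, LinearMap.smul_apply, h.self, smul_eq_mul] at hya
      have : 2 * (l * Q a) = 0 := by linear_combination hya
      rcases mul_eq_zero.1 this with h4 | h4
      · exact absurd h4 h2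
      · exact h4
    refine ⟨c1, l • a - c1, hQ1, ?_, hc1a, ?_, by abel⟩
    · rw [h.sub, h.smul, hQ1, map_smul, LinearMap.smul_apply, h.symm a c1, hc1a]
      simp only [smul_eq_mul, mul_zero, sub_zero]
      linear_combination l * h3
    · rw [map_sub, LinearMap.sub_apply, hya, hc1a, sub_zero]
  · obtain ⟨c1, hc1, hc1y, hQ1⟩ := h.exists_val hB {a} y (by simp; omega) hy (Q y) β
    have hc1a : B c1 a = 0 := hc1 a (by simp)
    refine ⟨c1, y - c1, hQ1, ?_, hc1a, ?_, by abel⟩
    · rw [h.sub, hQ1, h.symm, hc1y]; ring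
    · rw [map_sub, LinearMap.sub_apply, hya, hc1a, sub_zero]

/-- an automorphism preserving orthogonality to singular vectors is a similarity -/
lemma similarity_of_ortho_sing [Finite K] [FiniteDimensional K V] (h : QF B Q)
    (hB : B.Nondegenerate) (h2 : (2 : K) ≠ 0) (hdim : 13 ≤ finrank K V) (g : V ≃ₗ[K] V)
    (hg : ∀ x y, Q y = 0 → B y x = 0 → B (g y) (g x) = 0) :
    ∃ c : K, ∀ x, Q (g x) = c * Q x := by
  have h1 : ∀ y, Q y = 0 → ∃ c : K, ∀ x, B (g y) (g x) = c * B y x := by
    intro y hy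
    obtain ⟨c, hc⟩ := dual_smul_of_ker_le (B y) (B (g y) ∘ₗ (g : V →ₗ[K] V))
      (fun x hx => hg x y hy hx)
    exact ⟨c, fun x => by simpa using congrArg (fun φ : Dual K V => φ x) hc⟩
  choose! lam hlam using h1
  have h3 : ∀ y1 y2, Q y1 = 0 → Q y2 = 0 → B y1 y2 ≠ 0 → lam y1 = lam y2 := by
    intro y1 y2 hy1 hy2 h12
    have e1 := hlam y2 hy2 y1
    have e2 := hlam y1 hy1 y2
    rw [h.symm (g y2) (g y1), e2, h.symm y2 y1] at e1
    exact mul_right_cancel₀ h12 e1
  have h4 : ∀ y1 y2, y1 ≠ 0 → y2 ≠ 0 → Q y1 = 0 → Q y2 = 0 → lam y1 = lam y2 := by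
    intro y1 y2 h10 h20 hy1 hy2
    obtain ⟨y3, -, h31, h32, h33⟩ := h.exists_iso hB ∅ y1 y2 (by simp; omega)
      (not_mem_span_empty y1 h10) (not_mem_span_empty y2 h20) 0
    rw [← h3 y3 y1 h33 hy1 h31, ← h3 y3 y2 h33 hy2 h32]
  obtain ⟨e0, -, he0, he0'⟩ := h.exists_sing hB ∅ (by simp; omega)
  have he00 : e0 ≠ 0 := by
    rintro rfl
    exact he0' (Submodule.zero_mem _)
  have h5 : ∀ y, Q y = 0 → ∀ x, B (g y) (g x) = lam e0 * B y x := by
    intro y hy x
    by_cases hy0 : y = 0
    · subst hy0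
      simp
    · rw [hlam y hy, h4 y e0 hy0 he00 hy he0]
  have h6 : ∀ y x, B (g y) (g x) = lam e0 * B y x := by
    intro y x
    obtain ⟨a1, a2, h11, h22, -, -, rfl⟩ := exists_split h hB h2 hdim 0 y (by simp) 0
    rw [map_add, map_add, map_add, LinearMap.add_apply, LinearMap.add_apply, h5 a1 h11, h5 a2 h22]
    ring
  refine ⟨lam e0, fun x => ?_⟩
  have h7 := h6 x x
  rw [h.self, h.self] at h7
  have : 2 * (Q (g x) - lam e0 * Q x) = 0 := by linear_combination h7
  rcases mul_eq_zero.1 this with h8 | h8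
  · exact absurd h8 h2
  · linear_combination h8

variable {M : Subgroup (V ≃ₗ[K] V)}

lemma P_isom (h : QF B Q) (e : V ≃ₗ[K] V) (he : e ∈ M) (heQ : ∀ v, Q (e v) = Q v) {a u : V}
    (hP : P M a (B u)) : P M (e a) (B (e u)) := by
  have h1 := P_conj e he hP
  have h2 : B u ∘ₗ ((e⁻¹ : V ≃ₗ[K] V) : V →ₗ[K] V) = B (e u) := by
    ext x
    have h4 : e (e⁻¹ x) = x := e.apply_symm_apply x
    have h3 := h.isoB e heQ u (e⁻¹ x)
    rw [h4] at h3
    simpa using h3.symm
  rwa [h2] at h1

/-- one transvection with singular centre gives all transvections -/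
lemma spread [Finite K] [FiniteDimensional K V] (h : QF B Q) (hB : B.Nondegenerate)
    (h2 : (2 : K) ≠ 0) (hdim : 13 ≤ finrank K V)
    (hM : ∀ e : V ≃ₗ[K] V, (∀ v, Q (e v) = Q v) → LinearMap.det (e : V →ₗ[K] V) = 1 → e ∈ M)
    (a0 u0 : V) (ha0 : a0 ≠ 0) (hQa0 : Q a0 = 0) (hu0 : u0 ∉ Submodule.span K {a0})
    (hP : P M a0 (B u0)) : ∀ a, a ∈ Cen M := by
  classical
  have hau0 : B u0 a0 = 0 := P_app_zero hP
  -- 2a
  have s1 : ∀ a u, a ≠ 0 → Q a = 0 → Q u = Q u0 → B u a = 0 → u ∉ Submodule.span K {a} →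
      P M a (B u) := by
    intro a u ha hQa hQu hua hu
    obtain ⟨g1, hg1Q, hg1d, -, hg1⟩ := h.move hB ∅ a0 a (by simp; omega)
      (not_mem_span_empty a0 ha0) (not_mem_span_empty a ha) (by rw [hQa, hQa0]) (by simp)
    obtain ⟨g2, hg2Q, hg2d, hg2a, hg2⟩ := h.move hB {a} (g1 u0) u (by simp; omega)
      (by
        rw [Finset.coe_singleton]
        intro hmem
        apply hu0
        rw [Submodule.mem_span_singleton] at hmem ⊢
        obtain ⟨c, hc⟩ := hmem
        refine ⟨c, g1.injective ?_⟩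
        rw [map_smul, hg1, hc])
      (by rwa [Finset.coe_singleton]) (by rw [hQu, hg1Q])
      (by
        intro z hz
        rw [Finset.mem_singleton] at hz
        subst hz
        rw [h.symm, hua, ← hg1, h.isoB g1 hg1Q, h.symm, hau0])
    have h3 := P_isom h g2 (hM g2 hg2Q hg2d) hg2Q (P_isom h g1 (hM g1 hg1Q hg1d) hg1Q hP)
    rwa [hg1, hg2, hg2a a (by simp)] at h3
  -- 2c
  have s2 : ∀ u, u ≠ 0 → Q u = Q u0 → ∀ a, B u a = 0 → P M a (B u) := by
    intro u hu hQu a hua
    have key : ∀ s, Q s = 0 → B u s = 0 → s ∉ Submodule.span K {u} → P M s (B u) := by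
      intro s hs hus hsu
      have hs0 : s ≠ 0 := by
        rintro rfl
        exact hsu (Submodule.zero_mem _)
      refine s1 s u hs0 hs hQu hus ?_
      intro hmem
      rw [Submodule.mem_span_singleton] at hmem
      obtain ⟨c, hc⟩ := hmem
      have hc0 : c ≠ 0 := by
        rintro rfl
        rw [zero_smul] at hc
        exact hu hc.symm
      apply hsu
      rw [Submodule.mem_span_singleton]
      exact ⟨c⁻¹, by rw [← hc, smul_smul, inv_mul_cancel₀ hc0, one_smul]⟩
    by_cases hQa : Q a = 0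
    · by_cases hau : a ∈ Submodule.span K {u}
      · obtain ⟨s, hsU, hQs, hsu⟩ := h.exists_sing hB {u} (by simp; omega)
        rw [Finset.coe_singleton] at hsu
        have hsu' : B s u = 0 := hsU u (by simp)
        rw [Submodule.mem_span_singleton] at hau
        obtain ⟨c, rfl⟩ := hau
        have e : c • u = s + (c • u - s) := by abel
        rw [e]
        refine P_add_left (key s hQs (by rw [h.symm, hsu']) hsu) (key _ ?_ ?_ ?_)
        · rw [h.sub, hQa, hQs, map_smul, LinearMap.smul_apply, h.symm, hsu']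
          simp
        · rw [map_sub, hua, h.symm, hsu', sub_zero]
        · intro hmem
          apply hsu
          have := Submodule.sub_mem _ (Submodule.smul_mem _ c (Submodule.mem_span_singleton_self u)) hmem
          simpa using this
      · exact key a hQa hua hau
    · have hau : a ∉ Submodule.span K (({u} : Finset V) : Set V) := by
        rw [Finset.coe_singleton]
        intro hmem
        rw [Submodule.mem_span_singleton] at hmem
        obtain ⟨c, rfl⟩ := hmem
        apply hQa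
        have h3 : B (c • u) (c • u) = 0 := by
          rw [map_smul B, LinearMap.smul_apply, hua, smul_zero]
        rw [h.self] at h3
        rcases mul_eq_zero.1 h3 with h4 | h4
        · exact absurd h4 h2
        · exact h4
      obtain ⟨s, hsU, hsa, hQs⟩ := h.exists_val hB {u} a (by simp; omega) hau (Q a) 0
      have hsu' : B s u = 0 := hsU u (by simp)
      have e : a = s + (a - s) := by abel
      rw [e]
      refine P_add_left (key s hQs (by rw [h.symm, hsu']) ?_) (key _ ?_ ?_ ?_)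
      · intro hmem
        rw [Submodule.mem_span_singleton] at hmem
        obtain ⟨c, rfl⟩ := hmem
        apply hQa
        rw [← hsa, map_smul, LinearMap.smul_apply, hua, smul_zero]
      · rw [h.sub, hQs, h.symm, hsa]; ring
      · rw [map_sub, hua, h.symm, hsu', sub_zero]
      · intro hmem
        rw [Submodule.mem_span_singleton] at hmem
        obtain ⟨c, hc⟩ := hmem
        apply hQa
        have h3 : B (a - s) a = 0 := by
          rw [← hc, map_smul, LinearMap.smul_apply, hua, smul_zero]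
        rw [map_sub, LinearMap.sub_apply, h.self, hsa] at h3
        linear_combination h3
  -- 2d
  intro a ℓ hℓ
  set u := (LinearMap.BilinForm.toDual B hB).symm ℓ with hu
  have hu' : B u = ℓ := by
    ext x
    exact LinearMap.BilinForm.apply_toDual_symm_apply ℓ x
  rw [← hu'] at hℓ ⊢
  obtain ⟨c1, c2, hQ1, hQ2, h1a, h2a, hsum⟩ := exists_split h hB h2 hdim a u hℓ (Q u0)
  have key : ∀ c, Q c = Q u0 → B c a = 0 → P M a (B c) := by
    intro c hQc hca
    by_cases hc : c = 0
    · subst hc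
      rw [map_zero]
      exact P_zero_right a
    · exact s2 c hc hQc a hca
  rw [hsum, map_add]
  exact P_add (key c1 hQ1 h1a) (key c2 hQ2 h2a)

/-- extracting a transvection from an element fixing a singular vector -/
lemma stage2 [FiniteDimensional K V] (h : QF B Q)
    (hM : ∀ e : V ≃ₗ[K] V, (∀ v, Q (e v) = Q v) → LinearMap.det (e : V →ₗ[K] V) = 1 → e ∈ M)
    (τ τ' : V ≃ₗ[K] V) (hτ : τ ∈ M) (hτ' : τ' ∈ M) (hinv : ∀ x, τ (τ' x) = x)
    (u2 v2 c ê : V) (hu2 : Q u2 = 0) (hv2 : Q v2 = 0) (huv : B u2 v2 = 0)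
    (hτu : τ u2 = u2) (hτv : τ v2 = v2 + c) (huc : B u2 c = 0)
    (h1 : ∀ x, B u2 (τ' x) = B u2 x) (h2 : ∀ x, B v2 (τ' x) = B v2 x - B ê x) :
    P M u2 (B (ê + c + (B v2 c + Q c) • u2)) := by
  have hτ'u : τ' u2 = u2 := τ.injective (by rw [hinv, hτu])
  have hêu : B ê u2 = 0 := by
    have := h2 u2
    rw [hτ'u] at this
    linear_combination this
  have huu : B u2 u2 = 0 := by rw [h.self, hu2, mul_zero]
  have hvv : B v2 v2 = 0 := by rw [h.self, hv2, mul_zero]
  have hvu : B v2 u2 = 0 := by rw [h.symm, huv]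
  have hcu : B c u2 = 0 := by rw [h.symm, huc]
  have hcv : B c v2 = B v2 c := h.symm _ _
  have hE : ∀ w (hw : B u2 w = 0), h.eich u2 w hu2 hw ∈ M := fun w hw =>
    hM _ (h.eich_Q u2 w hu2 hw) (h.eich_det u2 w hu2 hw)
  refine P_of_eq (h.eich u2 (-c) hu2 (by simp [huc]) * h.eich u2 (-v2) hu2 (by simp [huv]) * τ *
    h.eich u2 v2 hu2 huv * τ') (M.mul_mem (M.mul_mem (M.mul_mem (M.mul_mem (hE _ _) (hE _ _)) hτ)
      (hE _ _)) hτ') ?_ (fun x => ?_)
  · simp [hêu, hcu, huu]
  · have e3 : τ (h.eich u2 v2 hu2 huv (τ' x)) =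
        x + B u2 x • (v2 + c) - (B v2 x - B ê x) • u2 := by
      rw [h.eich_apply, map_sub, map_sub, map_add, map_smul, map_smul, map_smul, hinv, hτu, hτv,
        h1, h2, hv2]
      module
    simp only [LinearEquiv.mul_apply]
    rw [e3]
    simp only [h.eich_apply, map_add, map_sub, map_smul, map_neg, LinearMap.neg_apply,
      LinearMap.add_apply, LinearMap.smul_apply, smul_eq_mul, huu, hvv, hvu, hcu, hcv, huv, huc,
      h.neg, hv2, h.self c]
    module

/-- A subgroup containing all isometries of determinant one and some non-similarity contains all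
transvections. -/
theorem all_tv_mem_quad [Finite K] [FiniteDimensional K V] (h : QF B Q) (hB : B.Nondegenerate)
    (h2 : (2 : K) ≠ 0) (hdim : 13 ≤ finrank K V)
    (hM : ∀ e : V ≃ₗ[K] V, (∀ v, Q (e v) = Q v) → LinearMap.det (e : V →ₗ[K] V) = 1 → e ∈ M)
    (g : V ≃ₗ[K] V) (hgM : g ∈ M) (hg : ¬ ∃ c : K, ∀ x, Q (g x) = c * Q x) :
    ∀ a, a ∈ Cen M := by
  classical
  obtain ⟨x0, u, hQu, hux0, hgne⟩ : ∃ x0 u, Q u = 0 ∧ B u x0 = 0 ∧ B (g u) (g x0) ≠ 0 := by
    by_contra hcon
    push Not at hcon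
    exact hg (similarity_of_ortho_sing h hB h2 hdim g (fun x y hy hyx => hcon x y hy hyx))
  have rep : ∀ ℓ : Dual K V, ∃ m, ∀ x, B m x = ℓ x := fun ℓ =>
    ⟨(LinearMap.BilinForm.toDual B hB).symm ℓ, fun x =>
      LinearMap.BilinForm.apply_toDual_symm_apply ℓ x⟩
  have hginv : ∀ x, g⁻¹ (g x) = x := fun x => g.symm_apply_apply x
  have hginv' : ∀ x, g (g⁻¹ x) = x := fun x => g.apply_symm_apply x
  obtain ⟨p, hp⟩ : ∃ p, p = g u := ⟨_, rfl⟩
  obtain ⟨ph, hph⟩ := rep (B u ∘ₗ ((g⁻¹ : V ≃ₗ[K] V) : V →ₗ[K] V))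
  have hph' : ∀ x, B ph x = B u (g⁻¹ x) := fun x => by rw [hph]; rfl
  have hphg : ∀ x, B ph (g x) = B u x := fun x => by rw [hph', hginv]
  have hu0 : u ≠ 0 := by
    rintro rfl
    apply hgne
    simp
  have hphp : ph ∉ Submodule.span K {p} := by
    intro hmem
    rw [Submodule.mem_span_singleton] at hmem
    obtain ⟨c, hc⟩ := hmem
    have h3 : B ph (g x0) = 0 := by rw [hphg, hux0]
    rw [← hc, map_smul, LinearMap.smul_apply, smul_eq_mul, hp] at h3
    rcases mul_eq_zero.1 h3 with h4 | h4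
    · apply hu0
      apply hB.1 u
      intro x
      rw [← hphg, ← hc, h4]
      simp
    · exact hgne h4
  obtain ⟨y0, hy0p, hy0ph⟩ := h.exists_perp_ne hB {p} ph hphp
  have hy0p' : B y0 p = 0 := h.mem_orth _ _ hy0p p (by simp)
  obtain ⟨m0, hm0⟩ := rep (B y0 ∘ₗ (g : V →ₗ[K] V))
  have hm0' : ∀ x, B m0 x = B y0 (g x) := fun x => by rw [hm0]; rfl
  obtain ⟨v, hvU, hQv, hvspan⟩ := h.exists_sing hB {u, m0} (by
    have := Finset.card_le_two (a := u) (b := m0)
    omega)
  have hvu : B v u = 0 := hvU u (by simp)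
  have huv : B u v = 0 := by rw [h.symm, hvu]
  have hvm0 : B v m0 = 0 := hvU m0 (by simp)
  obtain ⟨r, hr⟩ : ∃ r, r = g v := ⟨_, rfl⟩
  obtain ⟨rh, hrh⟩ := rep (B v ∘ₗ ((g⁻¹ : V ≃ₗ[K] V) : V →ₗ[K] V))
  have hrh' : ∀ x, B rh x = B v (g⁻¹ x) := fun x => by rw [hrh]; rfl
  have hrhg : ∀ x, B rh (g x) = B v x := fun x => by rw [hrh', hginv]
  have e1 : B ph p = 0 := by rw [hp, hphg, h.self, hQu, mul_zero]
  have e2 : B ph r = 0 := by rw [hr, hphg, huv]
  have e3 : B rh p = 0 := by rw [hp, hrhg, hvu]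
  have e4 : B rh r = 0 := by rw [hr, hrhg, h.self, hQv, mul_zero]
  have hy0r : B y0 r = 0 := by rw [hr, ← hm0', h.symm, hvm0]
  have hrp : r ∉ Submodule.span K {p} := by
    intro hmem
    rw [Submodule.mem_span_singleton] at hmem
    obtain ⟨c, hc⟩ := hmem
    apply hvspan
    have : v = c • u := g.injective (by rw [map_smul, ← hp, ← hr, hc])
    rw [this]
    exact Submodule.smul_mem _ _ (Submodule.subset_span (by simp))
  -- the conjugated Siegel element
  set τ : V ≃ₗ[K] V := g * h.eich u v hQu huv * g⁻¹ with hτdef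
  have hτM : τ ∈ M := M.mul_mem (M.mul_mem hgM (hM _ (h.eich_Q u v hQu huv) (h.eich_det u v hQu huv)))
    (M.inv_mem hgM)
  have hτ : ∀ x, τ x = x + B ph x • r - B rh x • p := by
    intro x
    rw [hτdef, LinearEquiv.mul_apply, LinearEquiv.mul_apply, h.eich_apply, hQv, map_sub, map_sub,
      map_add, map_smul, map_smul, map_smul, hginv', ← hp, ← hr, ← hph', ← hrh']
    module
  have hτinv : ∀ x, τ⁻¹ x = x - B ph x • r + B rh x • p := by
    intro x
    apply τ.injective
    have : τ (τ⁻¹ x) = x := τ.apply_symm_apply x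
    rw [this, hτ]
    simp only [map_add, map_sub, map_smul, smul_eq_mul, e1, e2, e3, e4]
    module
  obtain ⟨u2, hu2U, hQu2, hu2span⟩ := h.exists_sing hB {p, r, ph, rh} (by
    have := Finset.card_le_four (a := p) (b := r) (c := ph) (d := rh)
    omega)
  have f1 : B u2 p = 0 := hu2U p (by simp)
  have f2 : B u2 r = 0 := hu2U r (by simp)
  have f3 : B u2 ph = 0 := hu2U ph (by simp)
  have f4 : B u2 rh = 0 := hu2U rh (by simp)
  have hspanU : ∀ a b c d : K, a • p + b • r + c • ph + d • rh ∈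
      Submodule.span K ((({p, r, ph, rh} : Finset V)) : Set V) := by
    intro a b c d
    refine Submodule.add_mem _ (Submodule.add_mem _ (Submodule.add_mem _ ?_ ?_) ?_) ?_ <;>
    exact Submodule.smul_mem _ _ (Submodule.subset_span (by simp))
  have hu20 : u2 ≠ 0 := by
    rintro rfl
    exact hu2span (Submodule.zero_mem _)
  obtain ⟨k, hkp, hkr⟩ := h.exists_perp_ne hB {p} r hrp
  have hkp' : B k p = 0 := h.mem_orth _ _ hkp p (by simp)
  set m := (- B k rh) • p + B k ph • r + B k r • ph + (- B k p) • rh with hm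
  have hmy : ∀ y, B m y = B k (B y r • ph - B y p • rh + B ph y • r - B rh y • p) := by
    intro y
    rw [hm]
    simp only [map_add, map_sub, map_smul, map_neg, LinearMap.add_apply, LinearMap.smul_apply,
      LinearMap.neg_apply, smul_eq_mul, h.symm y r, h.symm y p]
    ring
  have hmy0 : B m y0 ≠ 0 := by
    rw [hmy, hy0r, hy0p']
    simp only [zero_smul, sub_zero, zero_add, map_sub, map_smul, smul_eq_mul, hkp', mul_zero]
    exact mul_ne_zero (by rw [h.symm]; exact hy0ph) hkr
  have hnot : ∀ d ∈ Submodule.span K ((({p, r, ph, rh} : Finset V)) : Set V), d ≠ 0 →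
      d ∉ Submodule.span K {u2} := by
    intro d hd hd0 hmem
    rw [Submodule.mem_span_singleton] at hmem
    obtain ⟨c, hc⟩ := hmem
    have hc0 : c ≠ 0 := by
      rintro rfl
      rw [zero_smul] at hc
      exact hd0 hc.symm
    apply hu2span
    have : u2 = c⁻¹ • d := by rw [← hc, smul_smul, inv_mul_cancel₀ hc0, one_smul]
    rw [this]
    exact Submodule.smul_mem _ _ hd
  have hm0ne : m ≠ 0 := by
    intro h0
    apply hmy0
    rw [h0]
    simp
  obtain ⟨v2, hv2S, hv2m, hQv2⟩ := h.exists_val hB {u2} m (by simp; omega)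
    (by rw [Finset.coe_singleton]; exact hnot m (hspanU _ _ _ _) hm0ne) 1 0
  have hv2u2 : B v2 u2 = 0 := hv2S u2 (by simp)
  have hu2v2 : B u2 v2 = 0 := by rw [h.symm, hv2u2]
  have hP := stage2 h hM τ τ⁻¹ hτM (M.inv_mem hτM) (fun x => τ.apply_symm_apply x) u2 v2
    (B ph v2 • r - B rh v2 • p) (B v2 r • ph - B v2 p • rh) hQu2 hQv2 hu2v2
    (by rw [hτ, h.symm ph, f3, h.symm rh, f4]; simp)
    (by rw [hτ]; module)
    (by simp [f1, f2])
    (fun x => by rw [hτinv]; simp [f1, f2])
    (fun x => by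
      rw [hτinv]
      simp only [map_add, map_sub, map_smul, LinearMap.sub_apply, LinearMap.smul_apply, smul_eq_mul]
      ring)
  refine spread h hB h2 hdim hM u2 _ hu20 hQu2 ?_ hP
  intro hmem
  set d := B v2 r • ph - B v2 p • rh + (B ph v2 • r - B rh v2 • p) with hd
  have hd1 : d ∈ Submodule.span K ((({p, r, ph, rh} : Finset V)) : Set V) := by
    have := hspanU (- B rh v2) (B ph v2) (B v2 r) (- B v2 p)
    have e : d = (- B rh v2) • p + B ph v2 • r + B v2 r • ph + (- B v2 p) • rh := by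
      rw [hd]; module
    rw [e]
    exact this
  have hd0 : d ≠ 0 := by
    intro h0
    have h3 := hmy v2
    rw [h.symm, hv2m] at h3
    have e : B v2 r • ph - B v2 p • rh + B ph v2 • r - B rh v2 • p = d := by
      rw [hd]; module
    rw [e, h0, map_zero] at h3
    exact one_ne_zero h3
  apply hnot d hd1 hd0
  have := Submodule.sub_mem _ hmem (Submodule.smul_mem _
    (B v2 (B ph v2 • r - B rh v2 • p) + Q (B ph v2 • r - B rh v2 • p))
    (Submodule.mem_span_singleton_self u2))
  simpa using this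

end abstract

/-- For a finite field F of odd order and n ≥ 13, let Q be a non-degenerate quadratic form on F^n (its polar form is non-degenerate). Then the elements of SL_n(F) that are similarities of Q (Q(gv) = c Q(v) for a non-zero scalar c depending on g) form a maximal subgroup of SL_n(F). -/
theorem result {F : Type*} [Field F] [Fintype F] (n : ℕ) (hn : 13 ≤ n) (hodd : Odd (Fintype.card F)) (Q : (Fin n → F) → F) (hQ : Cfsg.Geo.IsNondegenerateQuadraticForm Q) : Cfsg.Geo.IsMaximalIn (Cfsg.Geo.specialLinear (Fin n) F) (Cfsg.Geo.quadSimilarityGroup Q ⊓ Cfsg.Geo.specialLinear (Fin n) F) := by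
  classical
  have hnt : Nontrivial (Fin n) := Fin.nontrivial_iff_two_le.2 (by omega)
  set B := toBilin (QuadraticMap.polar Q) hQ.polar_bilinear with hBdef
  have hB : B.Nondegenerate := toBilin_nondegenerate _ hQ.polar_bilinear hQ.nondegenerate
  have h : QF B Q :=
    { smul := hQ.smul
      add := fun x y => by rw [hBdef, toBilin_apply, QuadraticMap.polar]; ring }
  have h2 : (2 : F) ≠ 0 := by
    intro h0
    have : CharP F 2 := CharTwo.of_one_ne_zero_of_two_eq_zero one_ne_zero h0
    have hc : ringChar F = 2 := ringChar.eq F 2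
    have h3 := FiniteField.even_card_iff_char_two.1 hc
    have h4 := Nat.odd_iff.1 hodd
    omega
  have hdim : 13 ≤ finrank F (Fin n → F) := by rw [Module.finrank_fin_fun]; omega
  have hH : ∀ e : (Fin n → F) ≃ₗ[F] (Fin n → F), (∀ v, Q (e v) = Q v) →
      LinearMap.det (e : (Fin n → F) →ₗ[F] (Fin n → F)) = 1 → mkGL e ∈
      Cfsg.Geo.quadSimilarityGroup Q ⊓ Cfsg.Geo.specialLinear (Fin n) F := by
    intro e he hd
    refine ⟨⟨1, fun x => ?_⟩, ?_⟩
    · rw [mkGL_mulVec, Units.val_one, one_mul]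
      exact he x
    · show mkGL e ∈ Cfsg.Geo.specialLinear (Fin n) F
      rw [mem_specialLinear_iff, det_mkGL]
      exact hd
  constructor
  · refine lt_of_le_of_ne inf_le_right ?_
    intro heq
    obtain ⟨a, -, hQa, ha⟩ := h.exists_sing hB ∅ (by simp; omega)
    have ha0 : a ≠ 0 := by
      rintro rfl
      exact ha (Submodule.zero_mem _)
    have hℓa : B a a = 0 := by rw [h.self, hQa, mul_zero]
    obtain ⟨y, hy⟩ : ∃ y, B a y ≠ 0 := by
      by_contra hcon
      push Not at hcon
      exact ha0 (hB.1 a hcon)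
    obtain ⟨x1, hx1, hQx1⟩ := h.exists_ns hB {a} (by simp; omega)
    have hax1 : B a x1 = 0 := by rw [h.symm]; exact hx1 a (by simp)
    have hmem : tv a (B a) hℓa ∈ Cfsg.Geo.specialLinear (Fin n) F := tv_mem_specialLinear _ _ _
    rw [← heq] at hmem
    obtain ⟨c, hc⟩ := hmem.1
    have h3 := hc x1
    have h4 := hc y
    simp only [tv_mulVec, hax1, zero_smul, add_zero] at h3 h4
    have hc1 : (c : F) = 1 := by
      have : (1 - (c : F)) * Q x1 = 0 := by rw [sub_mul, one_mul, ← h3, sub_self]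
      rcases mul_eq_zero.1 this with h | h
      · exact (sub_eq_zero.1 h).symm
      · exact absurd h hQx1
    rw [hc1, one_mul, h.add, h.smul, hQa, map_smul, smul_eq_mul, h.symm y a] at h4
    have h5 : B a y * B a y = 0 := by linear_combination h4
    rcases mul_eq_zero.1 h5 with h' | h' <;> exact hy h'
  · intro M hHM hMS
    by_cases hMH : M ≤ Cfsg.Geo.quadSimilarityGroup Q ⊓ Cfsg.Geo.specialLinear (Fin n) F
    · exact Or.inl (le_antisymm hMH hHM)
    · right
      refine le_antisymm hMS ?_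
      obtain ⟨g, hgM, hgH⟩ := SetLike.not_le_iff_exists.1 hMH
      have hgS : g ∉ Cfsg.Geo.quadSimilarityGroup Q := fun h => hgH ⟨h, hMS hgM⟩
      have hall := all_tv_mem_quad (M := pull M) h hB h2 hdim
        (fun e he hd => (mem_pull M _).2 (hHM (hH e he hd)))
        (glEquiv (Fin n) F g) ((glEquiv_mem_pull M g).2 hgM) (by
          rintro ⟨c, hc⟩
          apply hgS
          have hc0 : c ≠ 0 := by
            rintro rfl
            obtain ⟨x1, -, hQx1⟩ := h.exists_ns hB ∅ (by simp; omega)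
            apply hQx1
            have := hc ((glEquiv (Fin n) F g).symm x1)
            rw [LinearEquiv.apply_symm_apply, zero_mul] at this
            exact this
          exact ⟨Units.mk0 c hc0, fun u => hc u⟩)
      exact specialLinear_le_of_tv M (fun a ℓ h => (hall a ℓ h).2)

end Cfsg.Agent.S5644
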