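import Cfsg.Statements.S5646
import Cfsg.Agent.Lib.Helper95SpStd
-- import your own Cfsg.Agent.* helpers here

set_option autoImplicit false
open Cfsg

namespace Cfsg.Agent.S5646

open Module Cfsg.Agent.Lib.Helper95Basic Cfsg.Agent.Lib.Helper95Sp Cfsg.Agent.Lib.Helper95Form
  Cfsg.Agent.Lib.Helper95Cen Cfsg.Agent.Lib.Helper95SpStd

section abstract

variable {K V : Type*} [Field K] [AddCommGroup V] [Module K V]
variable {B : LinearMap.BilinForm K V}

lemma le_or_le_of_union (S W W' : Submodule K V) (h : ∀ s ∈ S, s ∈ W ∨ s ∈ W') :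
    S ≤ W ∨ S ≤ W' := by
  by_contra hcon
  push Not at hcon
  obtain ⟨h1, h2⟩ := hcon
  obtain ⟨a, haS, haW⟩ := SetLike.not_le_iff_exists.1 h1
  obtain ⟨b, hbS, hbW⟩ := SetLike.not_le_iff_exists.1 h2
  have ha' : a ∈ W' := (h a haS).resolve_left haW
  have hb' : b ∈ W := (h b hbS).resolve_right hbW
  rcases h (a + b) (S.add_mem haS hbS) with h3 | h3
  · exact haW (by simpa using W.sub_mem h3 hb')
  · exact hbW (by simpa using W'.sub_mem h3 ha')

theorem cen_univ [FiniteDimensional K V] (hB : B.Nondegenerate) (hA : B.IsAlt)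
    (W : Submodule K V) (hW : nd B W) (hdim : 2 * finrank K W < finrank K V)
    (M : Subgroup (V ≃ₗ[K] V))
    (hM : ∀ e : V ≃ₗ[K] V, (∀ u v, B (e u) (e v) = B u v) → (∀ x ∈ W, e x ∈ W) → e ∈ M)
    (hMiso : ∀ e ∈ M, ∀ u v, B (e u) (e v) = B u v)
    (g : V ≃ₗ[K] V) (hgM : g ∈ M) (hg : ¬ ∀ x ∈ W, g x ∈ W) : ∀ v, v ∈ cen hA M := by
  set Wp := B.orthogonal W with hWp
  have hfr : finrank K Wp = finrank K V - finrank K W := LinearMap.BilinForm.finrank_orthogonal hB W
  have hWc : ∀ x ∈ W, x ∈ cen hA M := by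
    intro x hx c
    refine hM _ (stv_isometry hA x c) ?_
    intro y hy
    rw [stv_apply]
    exact W.add_mem hy (W.smul_mem _ hx)
  have hWpc : ∀ r ∈ Wp, r ∈ cen hA M := by
    intro r hr c
    refine hM _ (stv_isometry hA r c) ?_
    intro y hy
    rw [stv_fix hA r c y (hr y hy)]
    exact hy
  have hsup : W ⊔ Wp = ⊤ :=
    (LinearMap.BilinForm.isCompl_orthogonal_of_restrict_nondegenerate hA.isRefl
      (nd_restrict hA hW)).sup_eq_top
  have hWpnd : nd B Wp := by
    intro r hr h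
    apply hB.1 r
    intro v
    obtain ⟨x, hx, r', hr', rfl⟩ := nd_decomp hA hW v
    rw [map_add, alt_zero hA (hr x hx), zero_add]
    exact h r' (fun y hy => alt_zero hA (hr' y hy))
  have hkey : ∃ x ∈ W, x ≠ 0 ∧ ∃ y ∈ Wp, y ≠ 0 ∧ x + y ∈ cen hA M := by
    by_contra hcon
    push Not at hcon
    have hcen : ∀ v ∈ cen hA M, v ∈ W ∨ v ∈ Wp := by
      intro v hv
      have hv' : v ∈ W ⊔ Wp := hsup ▸ Submodule.mem_top
      obtain ⟨x, hx, y, hy, rfl⟩ := Submodule.mem_sup.1 hv'
      by_cases hx0 : x = 0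
      · right; simpa [hx0] using hy
      · by_cases hy0 : y = 0
        · left; simpa [hy0] using hx
        · exact absurd hv (hcon x hx hx0 y hy hy0)
    have h1 : W.map (g : V →ₗ[K] V) ≤ W ∨ W.map (g : V →ₗ[K] V) ≤ Wp := by
      apply le_or_le_of_union
      rintro _ ⟨w, hw, rfl⟩
      exact hcen _ (cen_map g hgM (hMiso g hgM) (hWc w hw))
    have h2 : Wp.map (g : V →ₗ[K] V) ≤ W ∨ Wp.map (g : V →ₗ[K] V) ≤ Wp := by
      apply le_or_le_of_union
      rintro _ ⟨w, hw, rfl⟩
      exact hcen _ (cen_map g hgM (hMiso g hgM) (hWpc w hw))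
    rcases h1 with h1 | h1
    · exact hg fun x hx => h1 ⟨x, hx, rfl⟩
    rcases h2 with h2 | h2
    · have h3 := Submodule.finrank_mono h2
      rw [LinearEquiv.finrank_map_eq] at h3
      omega
    · have h3 : (⊤ : Submodule K V).map (g : V →ₗ[K] V) ≤ Wp := by
        rw [← hsup, Submodule.map_sup]
        exact sup_le h1 h2
      have h4 := Submodule.finrank_mono h3
      rw [LinearEquiv.finrank_map_eq, finrank_top] at h4
      have h5 : finrank K W = 0 := by omega
      have h6 : W = ⊥ := Submodule.finrank_eq_zero.1 h5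
      apply hg
      intro x hx
      rw [h6] at hx ⊢
      simp only [Submodule.mem_bot] at hx ⊢
      rw [hx, map_zero]
  obtain ⟨x, hx, hx0, y, hy, hy0, hxy⟩ := hkey
  intro v
  exact cen_merge hWc hWpc hW hWpnd (fun a ha b hb => hb a ha) hx hx0 hy hy0 hxy v
    (hsup ▸ Submodule.mem_top)

theorem exists_not_stab [FiniteDimensional K V] (hB : B.Nondegenerate) (hA : B.IsAlt)
    (W : Submodule K V) (hW : nd B W) (hW0 : W ≠ ⊥) (hdim : 2 * finrank K W < finrank K V) :
    ∃ e : V ≃ₗ[K] V, (∀ u v, B (e u) (e v) = B u v) ∧ ¬ ∀ x ∈ W, e x ∈ W := by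
  have hfr : finrank K (B.orthogonal W) = finrank K V - finrank K W :=
    LinearMap.BilinForm.finrank_orthogonal hB W
  have hWp0 : B.orthogonal W ≠ ⊥ := by
    intro h
    rw [h, finrank_bot] at hfr
    omega
  obtain ⟨x1, hx1, hx10⟩ := Submodule.exists_mem_ne_zero_of_ne_bot hW0
  obtain ⟨x2, hx2, hx20⟩ := Submodule.exists_mem_ne_zero_of_ne_bot hWp0
  obtain ⟨w, hw, hwx⟩ := nd_exists' hA hW hx1 hx10
  refine ⟨stv B hA (x1 + x2) 1, stv_isometry hA _ _, fun h => ?_⟩
  have h1 := h w hw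
  rw [stv_apply, map_add, hx2 w hw, add_zero, one_mul, smul_add] at h1
  have h2 : B w x1 • x2 ∈ W := by
    have := W.sub_mem (W.sub_mem h1 hw) (W.smul_mem (B w x1) hx1)
    simpa [add_sub_assoc] using this
  have h3 : x2 ∈ W := (W.smul_mem_iff hwx).1 h2
  exact hx20 (hW x2 h3 fun y hy => alt_zero hA (hx2 y hy))

end abstract

/-- For a finite field F and m ≥ 7, in the symplectic group Sp_2m(F) of the standard alternating form on F^(2m), the stabiliser of any non-zero subspace W on which the form is non-degenerate and with dim W < m is a maximal subgroup. -/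
theorem result {F : Type*} [Field F] [Fintype F] (m : ℕ) (hm : 7 ≤ m) (W : Submodule F (Fin m ⊕ Fin m → F)) (hW0 : W ≠ ⊥) (hW : Cfsg.Geo.IsNondegenerateOn (Cfsg.sympForm m F) W) (hdim : Module.finrank F W < m) : Cfsg.Geo.IsMaximalIn (Cfsg.spGL m F) (Cfsg.Geo.subspaceStabilizer W ⊓ Cfsg.spGL m F) := by
  have hnd : nd (stdB F m) W := by
    intro x hx h
    by_contra hx0
    obtain ⟨y, hy, hxy⟩ := (hW x hx hx0).2
    exact hxy (h y hy)
  have hfin : finrank F (Fin m ⊕ Fin m → F) = 2 * m := by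
    rw [Module.finrank_fintype_fun_eq_card, Fintype.card_sum, Fintype.card_fin]
    ring
  have hdim' : 2 * finrank F W < finrank F (Fin m ⊕ Fin m → F) := by omega
  apply sp_maximal
  · obtain ⟨e, he, hne⟩ := exists_not_stab (stdB_nondegenerate m) (stdB_isAlt m) W hnd hW0 hdim'
    refine ⟨e, he, fun h => hne fun x hx => ?_⟩
    have := ((mem_subspaceStabilizer_iff W _).1 h x).1 hx
    rwa [mkGL_mulVec] at this
  · intro M hM hMiso g hgM hgX
    refine cen_univ (stdB_nondegenerate m) (stdB_isAlt m) W hnd hdim' M ?_ hMiso g hgM ?_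
    · intro e he heW
      refine hM e he (mem_subspaceStabilizer_of_le W _ ?_)
      intro v hv
      rw [mkGL_mulVec]
      exact heW v hv
    · intro h
      apply hgX
      refine mem_subspaceStabilizer_of_le W _ ?_
      intro v hv
      rw [mkGL_mulVec]
      exact h v hv

end Cfsg.Agent.S5646
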