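import Cfsg.Statements.S5647
import Cfsg.Agent.Lib.Helper95SpStd
import Cfsg.Agent.Lib.Helper95Swap
-- import your own Cfsg.Agent.* helpers here

set_option autoImplicit false
open Cfsg

namespace Cfsg.Agent.S5647

open Module Cfsg.Agent.Lib.Helper95Basic Cfsg.Agent.Lib.Helper95Sp Cfsg.Agent.Lib.Helper95Form
  Cfsg.Agent.Lib.Helper95Cen Cfsg.Agent.Lib.Helper95SpStd Cfsg.Agent.Lib.Helper95Swap

section abstract

variable {K V : Type*} [Field K] [AddCommGroup V] [Module K V]
variable {B : LinearMap.BilinForm K V} {t : ℕ}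

/-- an orthogonal decomposition into nondegenerate subspaces of equal dimension -/
structure DD (B : LinearMap.BilinForm K V) (D : Fin t → Submodule K V) (k : ℕ) : Prop where
  two_le : 2 ≤ t
  pos : 0 < k
  fr : ∀ i, finrank K (D i) = k
  sup : iSup D = ⊤
  nd : ∀ i, nd B (D i)
  orth : ∀ i j, i ≠ j → ∀ u ∈ D i, ∀ v ∈ D j, B u v = 0
  ex : ∀ i, ∀ x ∈ D i, x ≠ 0 → ∃ x' ∈ D i, x' ≠ 0 ∧ x + x' ≠ 0 ∧ B x x' = 0

/-- `e` permutes the members of `D` -/
def InH (D : Fin t → Submodule K V) (e : V ≃ₗ[K] V) : Prop :=
  ∃ σ : Equiv.Perm (Fin t), ∀ i, (D i).map (e : V →ₗ[K] V) = D (σ i)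

variable {D : Fin t → Submodule K V} {k : ℕ}

lemma DD.eq_zero (h : DD B D k) (hB : B.Nondegenerate) {z : V} (hz : ∀ l, ∀ y ∈ D l, B z y = 0) :
    z = 0 := by
  have h1 : iSup D ≤ LinearMap.ker (B z) := iSup_le fun l y hy => hz l y hy
  rw [h.sup] at h1
  exact hB.1 z fun y => h1 Submodule.mem_top

lemma DD.aux (h : DD B D k) {j j' j'' : Fin t} (hjj' : j ≠ j') {a b : V} (ha : a ∈ D j)
    (hb : b ∈ D j') (hab : a + b ∈ D j'') : j'' = j ∨ a = 0 := by
  by_contra hcon
  push Not at hcon
  apply hcon.2
  apply h.nd j a ha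
  intro y hy
  have h1 : B (a + b) y = 0 := h.orth j'' j hcon.1 _ hab y hy
  have h2 : B b y = 0 := h.orth j' j hjj'.symm _ hb y hy
  rw [map_add, LinearMap.add_apply, h2, add_zero] at h1
  exact h1

lemma DD.le_of_union (h : DD B D k) (S : Submodule K V) (hS : ∀ s ∈ S, ∃ l, s ∈ D l) :
    ∃ l, S ≤ D l := by
  by_cases hS0 : S = ⊥
  · exact ⟨⟨0, by have := h.two_le; omega⟩, by rw [hS0]; exact bot_le⟩
  · obtain ⟨s, hs, hs0⟩ := Submodule.exists_mem_ne_zero_of_ne_bot hS0
    obtain ⟨j, hj⟩ := hS s hs
    refine ⟨j, fun s' hs' => ?_⟩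
    obtain ⟨j', hj'⟩ := hS s' hs'
    by_cases hjj' : j = j'
    · rw [hjj']; exact hj'
    · obtain ⟨j'', hj''⟩ := hS (s + s') (S.add_mem hs hs')
      have h1 : j'' = j := (h.aux hjj' hj hj' hj'').resolve_right hs0
      have h2 : j'' = j' ∨ s' = 0 := h.aux (Ne.symm hjj') hj' hj (by rwa [add_comm])
      rcases h2 with h2 | h2
      · exact absurd (h1.symm.trans h2) hjj'
      · rw [h2]; exact (D j).zero_mem

lemma DD.map_eq [FiniteDimensional K V] (h : DD B D k) (e : V ≃ₗ[K] V) {i j : Fin t}
    (he : ∀ y ∈ D i, e y ∈ D j) : (D i).map (e : V →ₗ[K] V) = D j := by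
  apply Submodule.eq_of_le_of_finrank_eq
  · rintro _ ⟨y, hy, rfl⟩
    exact he y hy
  · rw [LinearEquiv.finrank_map_eq, h.fr, h.fr]

lemma DD.ne_bot (h : DD B D k) (i : Fin t) : D i ≠ ⊥ := by
  intro h0
  have := h.fr i
  rw [h0, finrank_bot] at this
  have := h.pos
  omega

lemma DD.inj (h : DD B D k) {i j : Fin t} (hij : D i = D j) : i = j := by
  by_contra hne
  obtain ⟨x, hx, hx0⟩ := Submodule.exists_mem_ne_zero_of_ne_bot (h.ne_bot i)
  exact hx0 (h.nd i x hx fun y hy => h.orth i j hne x hx y (hij ▸ hy))

theorem cen_univ [FiniteDimensional K V] (h : DD B D k) (hB : B.Nondegenerate) (hA : B.IsAlt)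
    (M : Subgroup (V ≃ₗ[K] V))
    (hM : ∀ e : V ≃ₗ[K] V, (∀ u v, B (e u) (e v) = B u v) → InH D e → e ∈ M)
    (hMiso : ∀ e ∈ M, ∀ u v, B (e u) (e v) = B u v)
    (g : V ≃ₗ[K] V) (hgM : g ∈ M) (hg : ¬ InH D g) : ∀ v, v ∈ cen hA M := by
  -- (S1)
  have hDc : ∀ i, ∀ x ∈ D i, x ∈ cen hA M := by
    intro i x hx c
    refine hM _ (stv_isometry hA x c) ⟨1, fun j => ?_⟩
    apply h.map_eq
    intro y hy
    by_cases hij : j = i
    · subst hij
      rw [stv_apply]
      exact (D j).add_mem hy ((D j).smul_mem _ hx)
    · rw [stv_fix hA x c y (h.orth j i hij y hy x hx)]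
      exact hy
  -- (S2)
  obtain ⟨x, hxc, hxD⟩ : ∃ x ∈ cen hA M, ∀ l, x ∉ D l := by
    by_contra hcon
    push Not at hcon
    apply hg
    have h1 : ∀ i, ∃ l, (D i).map (g : V →ₗ[K] V) ≤ D l := by
      intro i
      apply h.le_of_union
      rintro _ ⟨y, hy, rfl⟩
      exact hcon _ (cen_map g hgM (hMiso g hgM) (hDc i y hy))
    choose σ hσ using h1
    have hσ' : ∀ i, (D i).map (g : V →ₗ[K] V) = D (σ i) := fun i =>
      h.map_eq g fun y hy => hσ i ⟨y, hy, rfl⟩
    have hinj : Function.Injective σ := by
      intro i j hij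
      apply h.inj
      have h2 : (D i).map (g : V →ₗ[K] V) = (D j).map (g : V →ₗ[K] V) := by
        rw [hσ', hσ', hij]
      exact Submodule.map_injective_of_injective g.injective h2
    exact ⟨Equiv.ofBijective σ (Finite.injective_iff_bijective.1 hinj), hσ'⟩
  -- (S3)
  obtain ⟨i, j, hij, hPij⟩ : ∃ i j, i ≠ j ∧ ∀ z ∈ D i ⊔ D j, z ∈ cen hA M := by
    choose p hp r hr hx using fun l => nd_decomp hA (h.nd l) x
    obtain ⟨i, j, hij, hpi, hpj⟩ : ∃ i j, i ≠ j ∧ p i ≠ 0 ∧ p j ≠ 0 := by
      by_contra hcon
      push Not at hcon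
      by_cases hall : ∀ l, p l = 0
      · have hx0 : x = 0 := by
          apply h.eq_zero hB
          intro l y hy
          rw [hx l, hall l, zero_add]
          exact hr l y hy
        exact hxD ⟨0, by have := h.two_le; omega⟩ (hx0 ▸ Submodule.zero_mem _)
      · push Not at hall
        obtain ⟨i, hi⟩ := hall
        have hri : r i = 0 := by
          apply h.eq_zero hB
          intro l y hy
          by_cases hl : l = i
          · subst hl; exact hr l y hy
          · have h1 : p l = 0 := hcon i l (Ne.symm hl) hi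
            have h2 : B x y = 0 := by
              rw [hx l, h1, zero_add]
              exact hr l y hy
            have h3 : B (p i) y = 0 := h.orth i l (Ne.symm hl) _ (hp i) y hy
            have h4 : r i = x - p i := by
              have := hx i
              rw [this]; abel
            rw [h4, map_sub, LinearMap.sub_apply, h2, h3, sub_zero]
        apply hxD i
        rw [hx i, hri, add_zero]
        exact hp i
    refine ⟨i, j, hij, ?_⟩
    set a := p i with ha
    set b := p j with hb
    set q := x - a - b with hq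
    have hqi : ∀ y ∈ D i, B q y = 0 := by
      intro y hy
      have h1 : q = r i - b := by
        rw [hq]
        have := hx i
        rw [this]; abel
      rw [h1, map_sub, LinearMap.sub_apply, hr i y hy, h.orth j i hij.symm b (hp j) y hy, sub_zero]
    have hqj : ∀ y ∈ D j, B q y = 0 := by
      intro y hy
      have h1 : q = r j - a := by
        rw [hq]
        have := hx j
        rw [this]; abel
      rw [h1, map_sub, LinearMap.sub_apply, hr j y hy, h.orth i j hij a (hp i) y hy, sub_zero]
    have hxabq : x = a + b + q := by rw [hq]; abel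
    obtain ⟨a', ha', haa'⟩ := nd_exists (h.nd i) (hp i) hpi
    obtain ⟨b', hb', hb'0, hbb', hBbb'⟩ := h.ex j b (hp j) hpj
    have ha'0 : a' ≠ 0 := by
      rintro rfl
      simp at haa'
    -- x' = a' + b' - q
    have h1 : -a + (-b - q) ∈ cen hA M := by
      have := cen_neg hxc
      rw [hxabq] at this
      have h2 : -(a + b + q) = -a + (-b - q) := by abel
      rwa [h2] at this
    have h2 : a' + (-b - q) ∈ cen hA M := by
      refine cen_replace (hDc i) (h.nd i) ((D i).neg_mem (hp i)) (neg_ne_zero.2 hpi) ha' ha'0 ?_ h1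
      intro y hy
      rw [map_sub, map_neg, LinearMap.sub_apply, LinearMap.neg_apply, hqi y hy,
        h.orth j i hij.symm b (hp j) y hy]
      simp
    have h3 : -b + (a' - q) ∈ cen hA M := by
      have h4 : a' + (-b - q) = -b + (a' - q) := by abel
      rwa [h4] at h2
    have h4 : b' + (a' - q) ∈ cen hA M := by
      refine cen_replace (hDc j) (h.nd j) ((D j).neg_mem (hp j)) (neg_ne_zero.2 hpj) hb' hb'0 ?_ h3
      intro y hy
      rw [map_sub, LinearMap.sub_apply, hqj y hy, h.orth i j hij a' ha' y hy]
      simp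
    have h5 : x + (b' + (a' - q)) ∈ cen hA M := by
      refine cen_add hxc h4 ?_
      rw [hxabq]
      have e1 : B a b' = 0 := h.orth i j hij a (hp i) b' hb'
      have e2 : B a q = 0 := alt_zero hA (hqi a (hp i))
      have e3 : B b a' = 0 := h.orth j i hij.symm b (hp j) a' ha'
      have e4 : B b q = 0 := alt_zero hA (hqj b (hp j))
      have e5 : B q a' = 0 := hqi a' ha'
      have e6 : B q b' = 0 := hqj b' hb'
      simp only [map_add, map_sub, LinearMap.add_apply, e1, e2, e3, e4, e5, e6, hBbb', hA q]
      simpa using haa'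
    have h6 : x + (b' + (a' - q)) = (a + a') + (b + b') := by rw [hxabq]; abel
    rw [h6] at h5
    have h7 : a + a' ≠ 0 := by
      intro h0
      apply haa'
      have : B a (a + a') = 0 := by rw [h0, map_zero]
      rwa [map_add, hA a, zero_add] at this
    exact cen_merge (hDc i) (hDc j) (h.nd i) (h.nd j) (h.orth i j hij)
      ((D i).add_mem (hp i) ha') h7 ((D j).add_mem (hp j) hb') hbb' h5
  -- (S4), (S5)
  have hstep : ∀ i j l, i ≠ j → l ≠ i → l ≠ j → (∀ z ∈ D i ⊔ D j, z ∈ cen hA M) →
      ∀ z ∈ D i ⊔ D l, z ∈ cen hA M := by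
    intro i j l hij hli hlj hP z hz
    obtain ⟨s, hsiso, hsX, hsY, hsz⟩ := exists_swap hA k (D j) (D l) (h.fr j) (h.fr l) (h.nd j)
      (h.nd l) (h.orth j l hlj.symm)
    have hsfix : ∀ i', i' ≠ j → i' ≠ l → ∀ y ∈ D i', s y = y := by
      intro i' h1 h2 y hy
      exact hsz y (fun x hx => h.orth i' j h1 y hy x hx) (fun x hx => h.orth i' l h2 y hy x hx)
    have hsM : s ∈ M := by
      refine hM s hsiso ⟨Equiv.swap j l, fun i' => ?_⟩
      apply h.map_eq
      intro y hy
      by_cases h1 : i' = j
      · subst h1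
        rw [Equiv.swap_apply_left]
        exact hsX y hy
      · by_cases h2 : i' = l
        · subst h2
          rw [Equiv.swap_apply_right]
          exact hsY y hy
        · rw [Equiv.swap_apply_of_ne_of_ne h1 h2, hsfix i' h1 h2 y hy]
          exact hy
    obtain ⟨a, ha, b, hb, rfl⟩ := Submodule.mem_sup.1 hz
    have hmap : (D j).map (s : V →ₗ[K] V) = D l := h.map_eq s hsX
    rw [← hmap] at hb
    obtain ⟨b', hb', rfl⟩ := hb
    have h1 : a + b' ∈ cen hA M := hP _ (Submodule.add_mem_sup ha hb')
    have h2 := cen_map s hsM hsiso h1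
    rw [map_add, hsfix i hij hli.symm a ha] at h2
    exact h2
  have hsymm : ∀ i j, (∀ z ∈ D i ⊔ D j, z ∈ cen hA M) → ∀ z ∈ D j ⊔ D i, z ∈ cen hA M := by
    intro i j hP z hz
    rw [sup_comm] at hz
    exact hP z hz
  have hall : ∀ a b, a ≠ b → ∀ z ∈ D a ⊔ D b, z ∈ cen hA M := by
    intro a b hab
    -- first get P i a or a = i
    have h1 : ∀ c, c ≠ i → ∀ z ∈ D i ⊔ D c, z ∈ cen hA M := by
      intro c hc
      by_cases hcj : c = j
      · subst hcj; exact hPij
      · exact hstep i j c hij hc hcj hPij
    by_cases hai : a = i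
    · subst hai
      exact h1 b hab.symm
    · by_cases hbi : b = i
      · subst hbi
        exact hsymm _ _ (h1 a hai)
      · exact hstep a i b hai hab.symm hbi (hsymm _ _ (h1 a hai))
  -- (S6)
  have hfin : ∀ S : Finset (Fin t), nd B (⨆ i ∈ S, D i) ∧ (∀ z ∈ ⨆ i ∈ S, D i, z ∈ cen hA M) ∧
      (∀ l, l ∉ S → ∀ z ∈ ⨆ i ∈ S, D i, ∀ y ∈ D l, B z y = 0) := by
    intro S
    induction S using Finset.induction_on with
    | empty =>
      refine ⟨?_, ?_, ?_⟩
      · intro x hx _
        simpa using hx
      · intro z hz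
        have : z = 0 := by simpa using hz
        rw [this]
        exact zero_mem_cen
      · intro l _ z hz y _
        have : z = 0 := by simpa using hz
        rw [this]
        simp
    | insert j S hjS ih =>
      obtain ⟨ih1, ih2, ih3⟩ := ih
      rw [Finset.iSup_insert]
      have horth : ∀ x ∈ D j, ∀ y ∈ ⨆ i ∈ S, D i, B x y = 0 := fun x hx y hy =>
        alt_zero hA (ih3 j hjS y hy x hx)
      refine ⟨nd_sup hA (h.nd j) ih1 horth, ?_, ?_⟩
      · by_cases hS : S = ∅
        · subst hS
          intro z hz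
          have : z ∈ D j := by simpa using hz
          exact hDc j z this
        · obtain ⟨i, hi⟩ := Finset.nonempty_iff_ne_empty.2 hS
          have hij : i ≠ j := fun h0 => hjS (h0 ▸ hi)
          obtain ⟨x, hx, hx0⟩ := Submodule.exists_mem_ne_zero_of_ne_bot (h.ne_bot j)
          obtain ⟨y, hy, hy0⟩ := Submodule.exists_mem_ne_zero_of_ne_bot (h.ne_bot i)
          have hyS : y ∈ ⨆ i ∈ S, D i := by
            have : D i ≤ ⨆ i ∈ S, D i := le_iSup₂_of_le i hi le_rfl
            exact this hy
          exact cen_merge (hDc j) ih2 (h.nd j) ih1 horth hx hx0 hyS hy0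
            (hall j i hij.symm _ (Submodule.add_mem_sup hx hy))
      · intro l hl z hz y hy
        obtain ⟨z1, hz1, z2, hz2, rfl⟩ := Submodule.mem_sup.1 hz
        have hlj : l ≠ j := fun h0 => hl (h0 ▸ Finset.mem_insert_self _ _)
        have hlS : l ∉ S := fun h0 => hl (Finset.mem_insert_of_mem h0)
        rw [map_add, LinearMap.add_apply, h.orth j l hlj.symm z1 hz1 y hy, ih3 l hlS z2 hz2 y hy,
          add_zero]
  intro v
  apply (hfin Finset.univ).2.1
  have : (⨆ i ∈ (Finset.univ : Finset (Fin t)), D i) = ⊤ := by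
    rw [← h.sup]
    simp
  rw [this]
  exact Submodule.mem_top

theorem exists_not_InH (h : DD B D k) (hA : B.IsAlt) :
    ∃ e : V ≃ₗ[K] V, (∀ u v, B (e u) (e v) = B u v) ∧ ¬ InH D e := by
  have ht := h.two_le
  set i0 : Fin t := ⟨0, by omega⟩ with hi0
  set i1 : Fin t := ⟨1, by omega⟩ with hi1
  have h01 : i0 ≠ i1 := by
    intro h0
    have := congrArg Fin.val h0
    simp [hi0, hi1] at this
  obtain ⟨a, ha, ha0⟩ := Submodule.exists_mem_ne_zero_of_ne_bot (h.ne_bot i0)
  obtain ⟨b, hb, hb0⟩ := Submodule.exists_mem_ne_zero_of_ne_bot (h.ne_bot i1)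
  obtain ⟨w, hw, hwa⟩ := nd_exists' hA (h.nd i0) ha ha0
  refine ⟨stv B hA (a + b) 1, stv_isometry hA _ _, ?_⟩
  rintro ⟨σ, hσ⟩
  have h1 : stv B hA (a + b) 1 w ∈ D (σ i0) := by
    rw [← hσ i0]
    exact ⟨w, hw, rfl⟩
  rw [stv_apply, map_add, h.orth i0 i1 h01 w hw b hb, add_zero, one_mul, smul_add, ← add_assoc] at h1
  have h2 := h.aux h01 ((D i0).add_mem hw ((D i0).smul_mem (B w a) ha)) ((D i1).smul_mem (B w a) hb) h1
  have h3 := h.aux h01.symm ((D i1).smul_mem (B w a) hb) ((D i0).add_mem hw ((D i0).smul_mem (B w a) ha))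
    (by rwa [add_comm])
  have h4 : w + B w a • a ≠ 0 := by
    intro h0
    apply hwa
    have : B (w + B w a • a) a = 0 := by rw [h0]; simp
    simpa [hA a] using this
  have h5 : B w a • b ≠ 0 := smul_ne_zero hwa hb0
  exact h01 ((h2.resolve_right h4).symm.trans (h3.resolve_right h5))

end abstract

lemma toLin'_mkGL {ι : Type} [Fintype ι] [DecidableEq ι] {F : Type*} [Field F]
    (e : (ι → F) ≃ₗ[F] (ι → F)) :
    Matrix.toLin' ((mkGL e : Matrix.GeneralLinearGroup ι F) : Matrix ι ι F) = (e : (ι → F) →ₗ[F] (ι → F)) := by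
  apply LinearMap.ext
  intro x
  simp

/-- For a finite field F with q elements and m ≥ 7, let D be a decomposition of F^(2m) into t ≥ 2 pairwise orthogonal subspaces of equal dimension k on each of which the standard alternating form is non-degenerate, spanning F^(2m). Unless k = 2 and q = 2, the elements of Sp_2m(F) permuting the members of D form a maximal subgroup of Sp_2m(F). -/
theorem result {F : Type*} [Field F] [Fintype F] (m : ℕ) (hm : 7 ≤ m) {t : ℕ} (k : ℕ) (D : Fin t → Submodule F (Fin m ⊕ Fin m → F)) (hD : Cfsg.Geo.IsNondegenerateMDecomposition (Cfsg.sympForm m F) k D) (hex : ¬ (k = 2 ∧ Fintype.card F = 2)) : Cfsg.Geo.IsMaximalIn (Cfsg.spGL m F) (Cfsg.Geo.decompositionStabilizer D ⊓ Cfsg.spGL m F) := by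
  have hA := stdB_isAlt (F := F) m
  have hndD : ∀ i, nd (stdB F m) (D i) := by
    intro i x hx h
    by_contra hx0
    obtain ⟨y, hy, hxy⟩ := (hD.nondegenerate i x hx hx0).2
    exact hxy (h y hy)
  have hdd : DD (stdB F m) D k :=
    { two_le := hD.decomp.two_le
      pos := hD.decomp.pos
      fr := hD.decomp.finrank_eq
      sup := hD.decomp.iSup_eq_top
      nd := hndD
      orth := fun i j hij u hu v hv => hD.orthogonal i j hij u hu v hv
      ex := by
        intro i x hx hx0
        by_cases hl : ∃ l : F, l ≠ 0 ∧ l ≠ -1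
        · obtain ⟨l, hl0, hl1⟩ := hl
          refine ⟨l • x, (D i).smul_mem l hx, smul_ne_zero hl0 hx0, ?_, ?_⟩
          · have : x + l • x = (1 + l) • x := by module
            rw [this]
            refine smul_ne_zero ?_ hx0
            intro h0
            apply hl1
            linear_combination h0
          · rw [map_smul, hA x, smul_zero]
        · push Not at hl
          have hcard : Fintype.card F = 2 := by
            classical
            have h1 : (Finset.univ : Finset F) ⊆ {0, -1} := by
              intro l _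
              by_cases hl0 : l = 0
              · simp [hl0]
              · simp [hl l hl0]
            have h2 := Finset.card_le_card h1
            have h3 : ({0, -1} : Finset F).card ≤ 2 := Finset.card_le_two
            have h4 : 1 < Fintype.card F := Fintype.one_lt_card
            rw [Finset.card_univ] at h2
            omega
          have hk2 : k ≠ 2 := fun h0 => hex ⟨h0, hcard⟩
          obtain ⟨y, hy, hxy⟩ := nd_exists (hndD i) hx hx0
          classical
          have hnle : ¬ D i ≤ Submodule.span F (({x, y} : Finset (Fin m ⊕ Fin m → F)) : Set _) := by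
            intro hle
            have h1 := Submodule.finrank_mono hle
            have h2 := finrank_span_finset_le_card (R := F) ({x, y} : Finset (Fin m ⊕ Fin m → F))
            rw [Set.finrank] at h2
            have h3 : ({x, y} : Finset (Fin m ⊕ Fin m → F)).card ≤ 2 := Finset.card_le_two
            rw [hD.decomp.finrank_eq] at h1
            -- k ≥ 2 since x, y independent
            have h4 : 2 ≤ k := by
              have hli : LinearIndependent F ![x, y] := by
                rw [LinearIndependent.pair_iff]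
                intro s t hst
                have e1 : stdB F m x (s • x + t • y) = 0 := by rw [hst, map_zero]
                have e2 : stdB F m (s • x + t • y) y = 0 := by
                  rw [hst, map_zero, LinearMap.zero_apply]
                rw [map_add, map_smul, map_smul, hA x, smul_zero, zero_add, smul_eq_mul] at e1
                rw [map_add, map_smul, map_smul, LinearMap.add_apply, LinearMap.smul_apply,
                  LinearMap.smul_apply, hA y, smul_zero, add_zero, smul_eq_mul] at e2
                exact ⟨(mul_eq_zero.1 e2).resolve_right hxy, (mul_eq_zero.1 e1).resolve_right hxy⟩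
              have hsp : Submodule.span F (Set.range ![x, y]) ≤ D i := by
                rw [Submodule.span_le]
                rintro _ ⟨a, rfl⟩
                fin_cases a
                · exact hx
                · exact hy
              have h5 := Submodule.finrank_mono hsp
              rw [finrank_span_eq_card hli, hD.decomp.finrank_eq] at h5
              simpa using h5
            omega
          obtain ⟨z, hz, hzs⟩ := SetLike.not_le_iff_exists.1 hnle
          set c := stdB F m x z / stdB F m x y with hc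
          have hx' : z - c • y ∉ Submodule.span F {x} := by
            intro h0
            apply hzs
            obtain ⟨d, hd⟩ := Submodule.mem_span_singleton.1 h0
            have : z = d • x + c • y := by rw [hd]; abel
            rw [this]
            refine Submodule.add_mem _ (Submodule.smul_mem _ _ (Submodule.subset_span (by simp)))
              (Submodule.smul_mem _ _ (Submodule.subset_span (by simp)))
          refine ⟨z - c • y, (D i).sub_mem hz ((D i).smul_mem _ hy), ?_, ?_, ?_⟩
          · intro h0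
            exact hx' (h0 ▸ Submodule.zero_mem _)
          · intro h0
            apply hx'
            have : z - c • y = (-1 : F) • x := by
              rw [neg_one_smul]
              exact eq_neg_of_add_eq_zero_right h0
            rw [this]
            exact Submodule.smul_mem _ _ (Submodule.mem_span_singleton_self x)
          · rw [map_sub, map_smul, smul_eq_mul, hc]
            field_simp
            ring }
  have hInH : ∀ e : (Fin m ⊕ Fin m → F) ≃ₗ[F] (Fin m ⊕ Fin m → F),
      mkGL e ∈ Cfsg.Geo.decompositionStabilizer D ↔ InH D e := by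
    intro e
    constructor
    · rintro ⟨σ, hσ⟩
      refine ⟨σ, fun i => ?_⟩
      rw [← hσ i, toLin'_mkGL]
    · rintro ⟨σ, hσ⟩
      refine ⟨σ, fun i => ?_⟩
      rw [← hσ i, toLin'_mkGL]
  apply sp_maximal
  · obtain ⟨e, he, hne⟩ := exists_not_InH hdd hA
    exact ⟨e, he, fun h => hne ((hInH e).1 h)⟩
  · intro M hM hMiso g hgM hgX
    exact cen_univ hdd (stdB_nondegenerate m) hA M (fun e he heH => hM e he ((hInH e).2 heH)) hMiso g hgM
      (fun h => hgX ((hInH g).2 h))

end Cfsg.Agent.S5647
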