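import Cfsg.Statements.S5653
import Cfsg.Agent.Lib.Helper95SUStd
import Cfsg.Agent.Lib.Helper95CU
-- import your own Cfsg.Agent.* helpers here

set_option autoImplicit false
open Cfsg

namespace Cfsg.Agent.S5653

open Module Cfsg.Agent.Lib.Helper95Basic Cfsg.Agent.Lib.Helper95Form
  Cfsg.Agent.Lib.Helper95Herm Cfsg.Agent.Lib.Helper95SU Cfsg.Agent.Lib.Helper95SUStd
  Cfsg.Agent.Lib.Helper95CU

section abstract

variable {K V : Type*} [Field K] [AddCommGroup V] [Module K V]
variable {σ : K →+* K} {f : V → V → K}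

lemma not_mem_span_empty (y : V) (hy : y ≠ 0) : y ∉ Submodule.span K ((∅ : Finset V) : Set V) := by
  simpa using hy

theorem CU_univ [Finite K] [FiniteDimensional K V] (h : Herm σ f) (hdim : 7 ≤ finrank K V)
    (W : Submodule K V) (hW : ∀ u ∈ W, ∀ v ∈ W, f u v = 0)
    (M : Subgroup (V ≃ₗ[K] V))
    (hM : ∀ e : V ≃ₗ[K] V, (∀ u v, f (e u) (e v) = f u v) →
      LinearMap.det (e : V →ₗ[K] V) = 1 → (∀ x ∈ W, e x ∈ W) → e ∈ M)
    (hMiso : ∀ e ∈ M, ∀ u v, f (e u) (e v) = f u v)
    (g : V ≃ₗ[K] V) (hgM : g ∈ M) (hg : ¬ ∀ x ∈ W, g x ∈ W) :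
    ∀ v, f v v = 0 → v ∈ CU h M := by
  classical
  -- Step 1
  have s1 : ∀ r, f r r = 0 → (∀ w ∈ W, f w r = 0) → r ∈ CU h M := by
    intro r hr hrW
    refine ⟨hr, fun z hz => hM _ (h.utv_isometry r z hr hz) (h.utv_det r z hr) ?_⟩
    intro w hw
    rw [h.utv_apply, hrW w hw]
    simpa using hw
  -- Step 2
  obtain ⟨x0, hx0, a0, ha0, hxa0⟩ : ∃ x0 ∈ CU h M, ∃ a ∈ W, f x0 a ≠ 0 := by
    by_contra hcon
    push Not at hcon
    apply hg
    intro w hw
    by_contra hgw
    have hw' : w ∈ CU h M := s1 w (hW w hw w hw) (fun w' hw' => hW w' hw' w hw)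
    have hgw' : g w ∈ CU h M := CU_map h hw' g hgM (hMiso g hgM)
    have hgwiso : f (g w) (g w) = 0 := CU_iso h hgw'
    have hgwW : ∀ a ∈ W, f (g w) a = 0 := hcon _ hgw'
    obtain ⟨x, hx, hxy⟩ := h.exists_perp_ne (W : Set V) (g w) (by rwa [Submodule.span_eq])
    obtain ⟨t, ht⟩ := h.trace_surj (- f x x) (by rw [map_neg, h.self_fix])
    have hyx : f (g w) x ≠ 0 := h.swap_ne hxy
    set y' := x + (t / f (g w) x) • g w with hy'
    have hy'iso : f y' y' = 0 := by
      rw [hy', h.add_left, h.add_right, h.add_right, h.smul_left, h.smul_left, h.smul_right,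
        h.smul_right, hgwiso, h.herm x (g w), ← map_mul]
      have : t / f (g w) x * f (g w) x = t := by field_simp
      rw [this]
      linear_combination ht
    have hy'W : ∀ w' ∈ W, f w' y' = 0 := by
      intro w' hw'
      apply h.swap_zero
      rw [hy', h.add_left, h.smul_left, hx w' hw', hgwW w' hw']
      ring
    have hy'C : y' ∈ CU h M := s1 y' hy'iso hy'W
    have h3 : g⁻¹ y' ∈ CU h M := CU_map h hy'C _ (M.inv_mem hgM) (hMiso _ (M.inv_mem hgM))
    have h4 := hcon _ h3 w hw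
    have h5 : g (g⁻¹ y') = y' := g.apply_symm_apply y'
    rw [← hMiso g hgM, h5, hy', h.add_left, h.smul_left, hgwiso] at h4
    apply hxy
    linear_combination h4
  -- Step 3
  have s3 : ∀ a ∈ W, ∀ x x', x ∈ CU h M → f x a ≠ 0 → f x' x' = 0 → f x' a ≠ 0 → x' ∈ CU h M := by
    intro a ha x x' hx hxa hx' hx'a
    have haa : f a a = 0 := hW a ha a ha
    have hx1 : (f x a)⁻¹ • x ∈ CU h M := CU_smul h hx _
    obtain ⟨hab, hc, hmove⟩ := sieg_move h a ((f x a)⁻¹ • x) ((f x' a)⁻¹ • x') haa (CU_iso h hx1)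
      (by rw [h.smul_left, h.smul_right, hx']; ring)
      (by rw [h.smul_left, inv_mul_cancel₀ hxa]) (by rw [h.smul_left, inv_mul_cancel₀ hx'a])
    have hS : sieg h a ((f x' a)⁻¹ • x' - (f x a)⁻¹ • x) (f ((f x a)⁻¹ • x) ((f x' a)⁻¹ • x')) haa hab
        ∈ M := by
      refine hM _ (sieg_isometry h _ _ _ haa hab hc) (sieg_det h _ _ _ haa hab) ?_
      intro w hw
      rw [sieg_apply, hW w hw a ha]
      simp only [zero_smul, add_zero, mul_zero]
      exact W.sub_mem hw (W.smul_mem _ ha)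
    have := CU_map h hx1 _ hS (hMiso _ hS)
    rw [hmove] at this
    exact CU_of_smul h (inv_ne_zero hx'a) this
  intro v hv
  by_cases hvW : ∀ w ∈ W, f w v = 0
  · exact s1 v hv hvW
  · push Not at hvW
    obtain ⟨a', ha', hva'⟩ := hvW
    have hva : f v a' ≠ 0 := h.swap_ne hva'
    by_cases hva0 : f v a0 = 0
    · have h1 : f v (a0 + a') ≠ 0 := by rw [h.add_right, hva0, zero_add]; exact hva
      have ha00 : a0 ≠ 0 := by
        rintro rfl
        exact hxa0 (h.zero_right _)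
      have ha'' : a0 + a' ≠ 0 := by
        intro h0
        rw [h0] at h1
        exact h1 (h.zero_right _)
      obtain ⟨x', -, hx'1, hx'2, hx'⟩ := h.exists_iso ∅ a0 (a0 + a') (by simp; omega)
        (not_mem_span_empty _ ha00) (not_mem_span_empty _ ha'') 0 (map_zero σ)
      exact s3 (a0 + a') (W.add_mem ha0 ha') x' v (s3 a0 ha0 x0 x' hx0 hxa0 hx' hx'1) hx'2 hv h1
    · exact s3 a0 ha0 x0 v hx0 hxa0 hv hva0

theorem exists_not_stab [Finite K] [FiniteDimensional K V] (h : Herm σ f) (hdim : 7 ≤ finrank K V)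
    (W : Submodule K V) (hW : ∀ u ∈ W, ∀ v ∈ W, f u v = 0) (hW0 : W ≠ ⊥) :
    ∃ e : V ≃ₗ[K] V, (∀ u v, f (e u) (e v) = f u v) ∧ LinearMap.det (e : V →ₗ[K] V) = 1 ∧
      ¬ ∀ x ∈ W, e x ∈ W := by
  obtain ⟨w, hw, hw0⟩ := Submodule.exists_mem_ne_zero_of_ne_bot hW0
  obtain ⟨z0, hz0, hz0'⟩ := h.exists_z
  obtain ⟨x, -, hxw, -, hxx⟩ := h.exists_iso ∅ w w (by simp; omega)
    (not_mem_span_empty _ hw0) (not_mem_span_empty _ hw0) 0 (map_zero σ)
  refine ⟨h.utv x z0 hxx, h.utv_isometry x z0 hxx hz0', h.utv_det x z0 hxx, fun hall => ?_⟩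
  have h1 := hall w hw
  rw [h.utv_apply] at h1
  have h2 : (z0 * f w x) • x ∈ W := by
    have := W.sub_mem h1 hw
    simpa using this
  have h3 : z0 * f w x ≠ 0 := mul_ne_zero hz0 (h.swap_ne hxw)
  exact hxw (hW x ((W.smul_mem_iff h3).1 h2) w hw)

end abstract

/-- Let F be the field with q² elements and n ≥ 13, and let SU_n(q) be the group of matrices of determinant one preserving the standard unitary form Σ u_i v_i^q on F^n (the intersection of the unitary group GU_n with the kernel of the determinant). The elements of SU_n(q) stabilising a non-zero subspace on which the form vanishes identically form a maximal subgroup of SU_n(q). -/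
theorem result {F : Type*} [Field F] [Fintype F] (n q : ℕ) (hF : Fintype.card F = q ^ 2) (hn : 13 ≤ n) (W : Submodule F (Fin n → F)) (hW0 : W ≠ ⊥) (hW : Cfsg.Geo.IsTotallySingularFor (Cfsg.hermForm n F q) W) : Cfsg.Geo.IsMaximalIn (Cfsg.GU n F q ⊓ Cfsg.Geo.specialLinear (Fin n) F) (Cfsg.Geo.subspaceStabilizer W ⊓ (Cfsg.GU n F q ⊓ Cfsg.Geo.specialLinear (Fin n) F)) := by
  have h := herm_std hF n
  have hdim : 7 ≤ finrank F (Fin n → F) := by rw [Module.finrank_fin_fun]; omega
  apply su_maximal hF n (by omega)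
  · obtain ⟨e, he, hd, hne⟩ := exists_not_stab h hdim W hW hW0
    refine ⟨e, he, hd, fun hmem => hne fun x hx => ?_⟩
    have := ((mem_subspaceStabilizer_iff W _).1 hmem x).1 hx
    rwa [mkGL_mulVec] at this
  · intro M hM hMiso g hgM hgX v z hv hz
    have := CU_univ h hdim W hW M ?_ hMiso g hgM ?_ v hv
    · exact this.2 z hz
    · intro e he hd heW
      refine hM e he hd (mem_subspaceStabilizer_of_le W _ ?_)
      intro v hv
      rw [mkGL_mulVec]
      exact heW v hv
    · intro hall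
      apply hgX
      refine mem_subspaceStabilizer_of_le W _ ?_
      intro v hv
      rw [mkGL_mulVec]
      exact hall v hv

end Cfsg.Agent.S5653
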