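import Cfsg.Statements.S5654
import Cfsg.Agent.Lib.Helper95SUStd
import Cfsg.Agent.Lib.Helper95CU
import Cfsg.Agent.Lib.Helper95SUNd
-- import your own Cfsg.Agent.* helpers here

set_option autoImplicit false
open Cfsg

namespace Cfsg.Agent.S5654

open Module Cfsg.Agent.Lib.Helper95Basic Cfsg.Agent.Lib.Helper95Form
  Cfsg.Agent.Lib.Helper95Herm Cfsg.Agent.Lib.Helper95SU Cfsg.Agent.Lib.Helper95SUStd
  Cfsg.Agent.Lib.Helper95CU Cfsg.Agent.Lib.Helper95SUNd

/-- Let F be the field with q² elements and n ≥ 13. In SU_n(q) (determinant-one isometries of the standard unitary form on F^n) the stabiliser of a non-zero subspace W on which the form is non-degenerate and with 2 dim W < n is a maximal subgroup. -/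
theorem result {F : Type*} [Field F] [Fintype F] (n q : ℕ) (hF : Fintype.card F = q ^ 2) (hn : 13 ≤ n) (W : Submodule F (Fin n → F)) (hW0 : W ≠ ⊥) (hW : Cfsg.Geo.IsNondegenerateOn (Cfsg.hermForm n F q) W) (hdim : 2 * Module.finrank F W < n) : Cfsg.Geo.IsMaximalIn (Cfsg.GU n F q ⊓ Cfsg.Geo.specialLinear (Fin n) F) (Cfsg.Geo.subspaceStabilizer W ⊓ (Cfsg.GU n F q ⊓ Cfsg.Geo.specialLinear (Fin n) F)) := by
  have hdim' := hdim
  have h := herm_std hF n
  have hdim : 13 ≤ finrank F (Fin n → F) := by rw [Module.finrank_fin_fun]; omega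
  have hWnd : ∀ v ∈ W, v ≠ 0 → ∃ x ∈ W, Cfsg.hermForm n F q x v ≠ 0 := fun v hv hv0 => (hW v hv hv0).1
  have hlt : 2 * finrank F W < finrank F (Fin n → F) := by rw [Module.finrank_fin_fun]; exact hdim'
  apply su_maximal hF n (by omega)
  · obtain ⟨e, he, hd, hne⟩ := exists_not_stab_nd h hdim W hWnd hlt hW0
    refine ⟨e, he, hd, fun hmem => hne fun x hx => ?_⟩
    have := ((mem_subspaceStabilizer_iff W _).1 hmem x).1 hx
    rwa [mkGL_mulVec] at this
  · intro M hM hMiso g hgM hgX v z hv hz
    have := CU_univ_nd h hdim W hWnd hlt ?_ hMiso g hgM ?_ v hv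
    · exact this.2 z hz
    · intro e he hd heW
      refine hM e he hd (mem_subspaceStabilizer_of_le W _ ?_)
      intro v hv
      rw [mkGL_mulVec]
      exact heW v hv
    · intro hall
      apply hgX
      refine mem_subspaceStabilizer_of_le W _ ?_
      intro v hv
      rw [mkGL_mulVec]
      exact hall v hv

end Cfsg.Agent.S5654
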