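import Cfsg.Statements.S5656
import Cfsg.Agent.Lib.Helper96Unit
import Cfsg.Agent.Lib.Helper96UnitStd
import Cfsg.Agent.Lib.Helper96Decomp

set_option autoImplicit false
open Cfsg

namespace Cfsg.Agent.S5656

open Module Cfsg.Agent.Lib.Helper95Basic Cfsg.Agent.Lib.Helper95Form Cfsg.Agent.Lib.Helper95Herm
  Cfsg.Agent.Lib.Helper18Herm Cfsg.Agent.Lib.Helper96Unit Cfsg.Agent.Lib.Helper96UnitStd
  Cfsg.Agent.Lib.Helper96Decomp

section abstract

variable {K V : Type*} [Field K] [AddCommGroup V] [Module K V]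
variable {σ : K →+* K} {f : V → V → K}

lemma mem_pair [FiniteDimensional K V] (W : Submodule K V) (hW : finrank K W = 2) (a b : V)
    (ha : a ∈ W) (hb : b ∈ W) (hli : LinearIndependent K ![a, b]) (y : V) (hy : y ∈ W) :
    ∃ α β : K, y = α • a + β • b := by
  have hspan : Submodule.span K (Set.range ![a, b]) = W := by
    apply Submodule.eq_of_le_of_finrank_eq
    · rw [Submodule.span_le]
      rintro _ ⟨i, rfl⟩
      fin_cases i
      · exact ha
      · exact hb
    · rw [finrank_span_eq_card hli, hW]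
      simp
  rw [← hspan] at hy
  have h2 : Set.range ![a, b] = {a, b} := by
    ext z
    simp only [Set.mem_range, Set.mem_insert_iff, Set.mem_singleton_iff]
    constructor
    · rintro ⟨i, rfl⟩
      fin_cases i
      · left; rfl
      · right; rfl
    · rintro (rfl | rfl)
      · exact ⟨0, rfl⟩
      · exact ⟨1, rfl⟩
  rw [h2, Submodule.mem_span_pair] at hy
  obtain ⟨α, β, h⟩ := hy
  exact ⟨α, β, h.symm⟩

lemma eq_one_of_fix (two : (2 : K) = 0) (norm : ∀ a : K, a ≠ 0 → a * σ a = 1) (a : K)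
    (ha : a ≠ 0) (hfix : σ a = a) : a = 1 := by
  have h1 := norm a ha
  rw [hfix] at h1
  have h2 : (a - 1) * (a - 1) = 0 := by linear_combination h1 - a * two + two
  rcases mul_eq_zero.1 h2 with h3 | h3 <;> exact sub_eq_zero.1 h3

lemma exists_onb [FiniteDimensional K V] (h : Herm σ f) (two : (2 : K) = 0)
    (norm : ∀ a : K, a ≠ 0 → a * σ a = 1) (W : Submodule K V) (hW : finrank K W = 2)
    (hnd : ∀ w ∈ W, w ≠ 0 → ∃ x ∈ W, f x w ≠ 0) :
    ∃ u ∈ W, ∃ u' ∈ W, f u u = 1 ∧ f u' u' = 1 ∧ f u u' = 0 ∧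
      ∀ y ∈ W, y = f y u • u + f y u' • u' := by
  obtain ⟨u, huW, hu0⟩ : ∃ u ∈ W, f u u ≠ 0 := by
    by_contra hcon
    push Not at hcon
    have h1 := h.polar W hcon
    obtain ⟨e, heW, he0⟩ : ∃ e ∈ W, e ≠ 0 := by
      by_contra hcon
      push Not at hcon
      have : W = ⊥ := (Submodule.eq_bot_iff W).2 hcon
      rw [this, finrank_bot] at hW
      omega
    obtain ⟨x, hx, hxe⟩ := hnd e heW he0
    exact hxe (h1 x hx e heW)
  have huu : f u u = 1 := eq_one_of_fix two norm _ hu0 (h.self_fix u)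
  obtain ⟨x, hxW, hx⟩ : ∃ x ∈ W, x ∉ Submodule.span K {u} := by
    by_contra hcon
    push Not at hcon
    have h1 : W ≤ Submodule.span K {u} := hcon
    have h2 := Submodule.finrank_mono h1
    have h3 := finrank_span_le_card (R := K) ({u} : Set V)
    simp only [Set.toFinset_singleton, Finset.card_singleton] at h3
    omega
  obtain ⟨u', hu'W, hu'0, hu'u⟩ : ∃ u' ∈ W, u' ≠ 0 ∧ f u' u = 0 := by
    refine ⟨x - f x u • u, W.sub_mem hxW (W.smul_mem _ huW), ?_, ?_⟩
    · intro h0
      apply hx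
      rw [sub_eq_zero.1 h0]
      exact Submodule.smul_mem _ _ (Submodule.mem_span_singleton_self u)
    · rw [h.sub_left, h.smul_left, huu]
      ring
  have huu' : f u u' = 0 := h.swap_zero hu'u
  have hli : LinearIndependent K ![u, u'] := by
    rw [LinearIndependent.pair_iff]
    intro a b hab
    have h3 := congrArg (fun z => f z u) hab
    simp only [h.add_left, h.smul_left, huu, hu'u, h.zero_left] at h3
    have ha : a = 0 := by simpa using h3
    refine ⟨ha, ?_⟩
    rw [ha, zero_smul, zero_add] at hab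
    exact (smul_eq_zero.1 hab).resolve_right hu'0
  have hpair := mem_pair W hW u u' huW hu'W hli
  have hu'u'0 : f u' u' ≠ 0 := by
    intro h0
    obtain ⟨y, hyW, hy⟩ := hnd u' hu'W hu'0
    obtain ⟨α, β, rfl⟩ := hpair y hyW
    apply hy
    rw [h.add_left, h.smul_left, h.smul_left, huu', h0]
    ring
  have hu'u' : f u' u' = 1 := eq_one_of_fix two norm _ hu'u'0 (h.self_fix u')
  refine ⟨u, huW, u', hu'W, huu, hu'u', huu', ?_⟩
  intro y hy
  obtain ⟨α, β, rfl⟩ := hpair y hy
  simp only [h.add_left, h.smul_left, huu, hu'u, huu', hu'u']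
  module

/-- nonzero multiples of members of a family -/
def SB {J : Type*} (b : J → V) : Set V := {v | ∃ j, ∃ c : K, c ≠ 0 ∧ v = c • b j}

lemma ut_invol (h : Herm σ f) (two : (2 : K) = 0) {w : V} (hw : f w w = 0) (x : V) :
    ut h w 1 (ut h w 1 x) = x := by
  rw [ut_apply h hw, ut_apply h hw, h.add_left, h.smul_left, hw]
  have : (2 : K) • (f x w • w) = 0 := by rw [two, zero_smul]
  linear_combination (norm := module) this

lemma swap_mem {J : Type*} [DecidableEq J] (h : Herm σ f) (two : (2 : K) = 0) (b : J → V)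
    (hb : ∀ j k, f (b j) (b k) = if j = k then 1 else 0) (j0 j1 : J) (h01 : j0 ≠ j1)
    (hw : f (b j0 + b j1) (b j0 + b j1) = 0) (v : V)
    (hv : v ∈ SB (K := K) b) : ut h (b j0 + b j1) 1 v ∈ SB (K := K) b := by
  obtain ⟨j, c, hc, rfl⟩ := hv
  rw [map_smul, ut_apply h hw, h.add_right, hb, hb]
  by_cases hj0 : j = j0
  · subst hj0
    refine ⟨j1, c, hc, ?_⟩
    rw [if_pos rfl, if_neg h01]
    have : (2 : K) • (c • b j) = 0 := by rw [two, zero_smul]
    linear_combination (norm := module) this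
  · by_cases hj1 : j = j1
    · subst hj1
      refine ⟨j0, c, hc, ?_⟩
      rw [if_pos rfl, if_neg hj0]
      have : (2 : K) • (c • b j) = 0 := by rw [two, zero_smul]
      linear_combination (norm := module) this
    · refine ⟨j, c, hc, ?_⟩
      rw [if_neg hj0, if_neg hj1]
      module

variable {t : ℕ}

structure UDat (h : Herm σ f) (D : Fin t → Submodule K V) (u u' : Fin t → V) : Prop where
  two : (2 : K) = 0
  norm : ∀ a : K, a ≠ 0 → a * σ a = 1
  hu : ∀ i, u i ∈ D i
  hu' : ∀ i, u' i ∈ D i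
  huu : ∀ i, f (u i) (u i) = 1
  hu'u' : ∀ i, f (u' i) (u' i) = 1
  huu' : ∀ i, f (u i) (u' i) = 0
  hexp : ∀ i, ∀ y ∈ D i, y = f y (u i) • u i + f y (u' i) • u' i
  orth : ∀ i j, i ≠ j → ∀ x ∈ D i, ∀ y ∈ D j, f x y = 0

/-- the anisotropic vectors lying in a member of the decomposition -/
def SS (f : V → V → K) (D : Fin t → Submodule K V) : Set V := {v | f v v ≠ 0 ∧ ∃ i, v ∈ D i}

variable {h : Herm σ f} {D : Fin t → Submodule K V} {u u' : Fin t → V}

lemma UDat.onb (d : UDat h D u u') (j k : Fin t ⊕ Fin t) :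
    f (Sum.elim u u' j) (Sum.elim u u' k) = if j = k then 1 else 0 := by
  rcases j with j | j <;> rcases k with k | k
  · simp only [Sum.elim_inl, Sum.inl.injEq]
    by_cases hjk : j = k
    · subst hjk
      rw [if_pos rfl, d.huu]
    · rw [if_neg hjk, d.orth j k hjk _ (d.hu j) _ (d.hu k)]
  · simp only [Sum.elim_inl, Sum.elim_inr, reduceCtorEq, if_false]
    by_cases hjk : j = k
    · subst hjk
      exact d.huu' j
    · exact d.orth j k hjk _ (d.hu j) _ (d.hu' k)
  · simp only [Sum.elim_inl, Sum.elim_inr, reduceCtorEq, if_false]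
    by_cases hjk : j = k
    · subst hjk
      exact h.swap_zero (d.huu' j)
    · exact d.orth j k hjk _ (d.hu' j) _ (d.hu k)
  · simp only [Sum.elim_inr, Sum.inr.injEq]
    by_cases hjk : j = k
    · subst hjk
      rw [if_pos rfl, d.hu'u']
    · rw [if_neg hjk, d.orth j k hjk _ (d.hu' j) _ (d.hu' k)]

lemma UDat.SS_eq (d : UDat h D u u') : SS f D = SB (K := K) (Sum.elim u u') := by
  ext v
  constructor
  · rintro ⟨hv, i, hi⟩
    have hexp := d.hexp i v hi
    have hvv : f v v = f v (u i) * σ (f v (u i)) + f v (u' i) * σ (f v (u' i)) := by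
      conv_lhs => rw [hexp]
      simp only [h.add_left, h.add_right, h.smul_left, h.smul_right, d.huu, d.hu'u', d.huu',
        h.swap_zero (d.huu' i)]
      ring
    by_cases hα : f v (u i) = 0
    · by_cases hβ : f v (u' i) = 0
      · exfalso
        apply hv
        rw [hvv, hα, hβ]
        simp
      · refine ⟨Sum.inr i, f v (u' i), hβ, ?_⟩
        rw [hα, zero_smul, zero_add] at hexp
        exact hexp
    · by_cases hβ : f v (u' i) = 0
      · refine ⟨Sum.inl i, f v (u i), hα, ?_⟩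
        rw [hβ, zero_smul, add_zero] at hexp
        exact hexp
      · exfalso
        apply hv
        rw [hvv, d.norm _ hα, d.norm _ hβ]
        linear_combination d.two
  · rintro ⟨j, c, hc, rfl⟩
    refine ⟨?_, ?_⟩
    · rw [h.smul_left, h.smul_right, d.onb, if_pos rfl, mul_one, d.norm c hc]
      exact one_ne_zero
    · rcases j with j | j
      · exact ⟨j, (D j).smul_mem _ (d.hu j)⟩
      · exact ⟨j, (D j).smul_mem _ (d.hu' j)⟩

lemma UDat.iso2 (d : UDat h D u u') (i0 i1 : Fin t) (h01 : i0 ≠ i1) :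
    f (u i0 + u i1) (u i0 + u i1) = 0 := by
  simp only [h.add_left, h.add_right, d.huu, d.orth i0 i1 h01 _ (d.hu i0) _ (d.hu i1),
    d.orth i1 i0 (Ne.symm h01) _ (d.hu i1) _ (d.hu i0)]
  linear_combination d.two

/-- the swap of two unit vectors stabilises the frame -/
lemma UDat.swap_iff (d : UDat h D u u') (i0 i1 : Fin t) (h01 : i0 ≠ i1) (v : V) :
    v ∈ SS f D ↔ ut h (u i0 + u i1) 1 v ∈ SS f D := by
  have hw := d.iso2 i0 i1 h01
  have key : ∀ v, v ∈ SS f D → ut h (u i0 + u i1) 1 v ∈ SS f D := by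
    intro v hv
    rw [d.SS_eq] at hv ⊢
    exact swap_mem h d.two (Sum.elim u u') d.onb (Sum.inl i0) (Sum.inl i1)
      (by simpa using h01) hw v hv
  refine ⟨key v, fun hv => ?_⟩
  have := key _ hv
  rwa [ut_invol h d.two hw] at this

/-- ... but it does not permute the members -/
lemma UDat.swap_not (d : UDat h D u u') (i0 i1 : Fin t) (h01 : i0 ≠ i1) (j : Fin t)
    (h1 : ut h (u i0 + u i1) 1 (u i0) ∈ D j) (h2 : ut h (u i0 + u i1) 1 (u' i0) ∈ D j) : False := by
  have hw := d.iso2 i0 i1 h01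
  rw [ut_apply h hw, h.add_right, d.huu, d.orth i0 i1 h01 _ (d.hu i0) _ (d.hu i1)] at h1
  rw [ut_apply h hw, h.add_right, h.swap_zero (d.huu' i0),
    d.orth i0 i1 h01 _ (d.hu' i0) _ (d.hu i1)] at h2
  have h3 : u i0 + ((1 : K) * (1 + 0)) • (u i0 + u i1) = u i1 := by
    have : (2 : K) • u i0 = 0 := by rw [d.two, zero_smul]
    linear_combination (norm := module) this
  have h4 : u' i0 + ((1 : K) * (0 + 0)) • (u i0 + u i1) = u' i0 := by module
  rw [h3] at h1
  rw [h4] at h2
  have hj1 : j = i1 := by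
    by_contra hne
    have := d.orth j i1 hne _ h1 _ (d.hu i1)
    rw [d.huu] at this
    exact one_ne_zero this
  have hj0 : j = i0 := by
    by_contra hne
    have := d.orth j i0 hne _ h2 _ (d.hu' i0)
    rw [d.hu'u'] at this
    exact one_ne_zero this
  exact h01 (hj0.symm.trans hj1)

lemma UDat.iso4 (d : UDat h D u u') (i0 i1 : Fin t) (h01 : i0 ≠ i1) :
    f (u i0 + u' i0 + u i1 + u' i1) (u i0 + u' i0 + u i1 + u' i1) = 0 := by
  simp only [h.add_left, h.add_right, d.huu, d.hu'u', d.huu', h.swap_zero (d.huu' _),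
    d.orth i0 i1 h01 _ (d.hu i0) _ (d.hu i1), d.orth i0 i1 h01 _ (d.hu i0) _ (d.hu' i1),
    d.orth i0 i1 h01 _ (d.hu' i0) _ (d.hu i1), d.orth i0 i1 h01 _ (d.hu' i0) _ (d.hu' i1),
    d.orth i1 i0 (Ne.symm h01) _ (d.hu i1) _ (d.hu i0),
    d.orth i1 i0 (Ne.symm h01) _ (d.hu i1) _ (d.hu' i0),
    d.orth i1 i0 (Ne.symm h01) _ (d.hu' i1) _ (d.hu i0),
    d.orth i1 i0 (Ne.symm h01) _ (d.hu' i1) _ (d.hu' i0)]
  linear_combination 2 * d.two

/-- a transvection not stabilising the frame -/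
lemma UDat.four_not (d : UDat h D u u') (i0 i1 : Fin t) (h01 : i0 ≠ i1) :
    ut h (u i0 + u' i0 + u i1 + u' i1) 1 (u i0) ∉ SS f D := by
  rintro ⟨-, j, hj⟩
  have hw := d.iso4 i0 i1 h01
  rw [ut_apply h hw] at hj
  have h0 : f (u i0) (u i0 + u' i0 + u i1 + u' i1) = 1 := by
    simp only [h.add_right, d.huu, d.huu', d.orth i0 i1 h01 _ (d.hu i0) _ (d.hu i1),
      d.orth i0 i1 h01 _ (d.hu i0) _ (d.hu' i1)]
    ring
  rw [h0, mul_one, one_smul] at hj
  have hj1 : j = i1 := by
    by_contra hne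
    have := d.orth j i1 hne _ hj _ (d.hu i1)
    simp only [h.add_left, d.huu, h.swap_zero (d.huu' _),
      d.orth i0 i1 h01 _ (d.hu i0) _ (d.hu i1), d.orth i0 i1 h01 _ (d.hu' i0) _ (d.hu i1)] at this
    simp at this
  have hj0 : j = i0 := by
    by_contra hne
    have := d.orth j i0 hne _ hj _ (d.hu' i0)
    simp only [h.add_left, d.hu'u', d.huu', d.orth i1 i0 (Ne.symm h01) _ (d.hu i1) _ (d.hu' i0),
      d.orth i1 i0 (Ne.symm h01) _ (d.hu' i1) _ (d.hu' i0)] at this
    simp at this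
  exact h01 (hj0.symm.trans hj1)

end abstract

/-- Let F be the field with 4 elements (q = 2) and n ≥ 13. Let D be a decomposition of F^n into t pairwise orthogonal 2-dimensional subspaces, each non-degenerate for the standard unitary form Σ u_i v_i². Then the elements of SU_n(2) permuting the members of D form a subgroup that is not maximal: some subgroup lies strictly between it and SU_n(2). -/
theorem result {F : Type*} [Field F] [Fintype F] (n : ℕ) (hF : Fintype.card F = 4) (hn : 13 ≤ n) {t : ℕ} (D : Fin t → Submodule F (Fin n → F)) (hD : Cfsg.Geo.IsNondegenerateMDecomposition (Cfsg.hermForm n F 2) 2 D) : ∃ K : Subgroup (Matrix.GeneralLinearGroup (Fin n) F), Cfsg.Geo.decompositionStabilizer D ⊓ (Cfsg.GU n F 2 ⊓ Cfsg.Geo.specialLinear (Fin n) F) < K ∧ K < (Cfsg.GU n F 2 ⊓ Cfsg.Geo.specialLinear (Fin n) F) := by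
  classical
  have hF' : Fintype.card F = 2 ^ 2 := by rw [hF]; norm_num
  have hchar : ringChar F = 2 := by
    rw [FiniteField.even_card_iff_char_two, hF]
  haveI : CharP F 2 := hchar ▸ ringChar.charP F
  have two : (2 : F) = 0 := CharTwo.two_eq_zero
  have h := hermStd hF' n
  have norm : ∀ a : F, a ≠ 0 → a * sig hF' a = 1 := by
    intro a ha
    have := FiniteField.pow_card_sub_one_eq_one a ha
    rw [hF] at this
    rw [sig_apply]
    linear_combination this
  have hex : ∀ i, ∃ u ∈ D i, ∃ u' ∈ D i, Cfsg.hermForm n F 2 u u = 1 ∧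
      Cfsg.hermForm n F 2 u' u' = 1 ∧ Cfsg.hermForm n F 2 u u' = 0 ∧
      ∀ y ∈ D i, y = Cfsg.hermForm n F 2 y u • u + Cfsg.hermForm n F 2 y u' • u' := fun i =>
    exists_onb h two norm (D i) (hD.decomp.finrank_eq i)
      (fun w hw hw0 => (hD.nondegenerate i w hw hw0).1)
  choose u hu u' hu' huu hu'u' huu' hexp using hex
  have d : UDat h D u u' :=
    { two := two
      norm := norm
      hu := hu
      hu' := hu'
      huu := huu
      hu'u' := hu'u'
      huu' := huu'
      hexp := hexp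
      orth := fun i j hij x hx y hy => hD.orthogonal i j hij x hx y hy }
  have ht := hD.decomp.two_le
  set i0 : Fin t := ⟨0, by omega⟩ with hi0
  set i1 : Fin t := ⟨1, by omega⟩ with hi1
  have h01 : i0 ≠ i1 := by simp [hi0, hi1]
  have h11 : (1 : F) + sig hF' 1 = 0 := by
    rw [map_one]
    linear_combination two
  refine ⟨Cfsg.stabilizing (Cfsg.glToMat (Fin n) F) (SS (Cfsg.hermForm n F 2) D) ⊓
    (Cfsg.GU n F 2 ⊓ Cfsg.Geo.specialLinear (Fin n) F), ?_, ?_⟩
  · rw [lt_iff_le_not_ge]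
    constructor
    · rintro g ⟨hg1, hg2⟩
      refine ⟨?_, hg2⟩
      obtain ⟨σ, hσ⟩ := exists_perm_of_mem_stab hg1
      have hg3 : ∀ x y, Cfsg.hermForm n F 2 ((g : Matrix (Fin n) (Fin n) F).mulVec x)
          ((g : Matrix (Fin n) (Fin n) F).mulVec y) = Cfsg.hermForm n F 2 x y := hg2.1
      intro v
      show v ∈ SS (Cfsg.hermForm n F 2) D ↔
        (g : Matrix (Fin n) (Fin n) F).mulVec v ∈ SS (Cfsg.hermForm n F 2) D
      constructor
      · rintro ⟨hv, i, hi⟩
        exact ⟨by rwa [hg3], σ i, (hσ i v).1 hi⟩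
      · rintro ⟨hv, i, hi⟩
        refine ⟨by rwa [hg3] at hv, σ.symm i, ?_⟩
        rw [hσ, Equiv.apply_symm_apply]
        exact hi
    · intro hle
      have hmem : mkGL (ut h (u i0 + u i1) 1) ∈
          Cfsg.stabilizing (Cfsg.glToMat (Fin n) F) (SS (Cfsg.hermForm n F 2) D) ⊓
            (Cfsg.GU n F 2 ⊓ Cfsg.Geo.specialLinear (Fin n) F) := by
        refine ⟨?_, (mkGL_mem_SU_iff n _).2 ⟨ut_isometry h _ _ h11, ut_det h _ _⟩⟩
        intro v
        show v ∈ SS (Cfsg.hermForm n F 2) D ↔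
          ((mkGL (ut h (u i0 + u i1) 1) : GL (Fin n) F) : Matrix (Fin n) (Fin n) F).mulVec v ∈
            SS (Cfsg.hermForm n F 2) D
        rw [mkGL_mulVec]
        exact d.swap_iff i0 i1 h01 v
      obtain ⟨σ, hσ⟩ := exists_perm_of_mem_stab (hle hmem).1
      have h1 := (hσ i0 (u i0)).1 (hu i0)
      have h2 := (hσ i0 (u' i0)).1 (hu' i0)
      rw [mkGL_mulVec] at h1 h2
      exact d.swap_not i0 i1 h01 _ h1 h2
  · refine lt_of_le_of_ne inf_le_right ?_
    intro heq
    have hmem : mkGL (ut h (u i0 + u' i0 + u i1 + u' i1) 1) ∈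
        Cfsg.GU n F 2 ⊓ Cfsg.Geo.specialLinear (Fin n) F :=
      (mkGL_mem_SU_iff n _).2 ⟨ut_isometry h _ _ h11, ut_det h _ _⟩
    rw [← heq] at hmem
    have h1 : u i0 ∈ SS (Cfsg.hermForm n F 2) D ↔
        ((mkGL (ut h (u i0 + u' i0 + u i1 + u' i1) 1) : GL (Fin n) F) :
          Matrix (Fin n) (Fin n) F).mulVec (u i0) ∈ SS (Cfsg.hermForm n F 2) D := hmem.1 (u i0)
    rw [mkGL_mulVec] at h1
    refine d.four_not i0 i1 h01 (h1.1 ⟨?_, i0, hu i0⟩)
    rw [huu]
    exact one_ne_zero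

end Cfsg.Agent.S5656
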