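import Cfsg.Statements.S5657
import Cfsg.Agent.Lib.Helper96Unit
import Cfsg.Agent.Lib.Helper96UnitStd
import Cfsg.Agent.S5649

set_option autoImplicit false
open Cfsg

namespace Cfsg.Agent.S5657

open Module Cfsg.Agent.Lib.Helper95Basic Cfsg.Agent.Lib.Helper95Form Cfsg.Agent.Lib.Helper95Herm
  Cfsg.Agent.Lib.Helper18Herm Cfsg.Agent.Lib.Helper96Lagr Cfsg.Agent.Lib.Helper96Unit
  Cfsg.Agent.Lib.Helper96UnitStd Cfsg.Agent.S5649

/-- Let F be the field with q² elements and n = 2k ≥ 13. Let D be a decomposition of F^n into two complementary subspaces of dimension k on each of which the standard unitary form vanishes identically. Then the elements of SU_n(q) preserving or interchanging the two subspaces form a maximal subgroup of SU_n(q). -/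
theorem result {F : Type*} [Field F] [Fintype F] (n q : ℕ) (hF : Fintype.card F = q ^ 2) (hn : 13 ≤ n) (k : ℕ) (hk : 2 * k = n) (D : Fin 2 → Submodule F (Fin n → F)) (hD : Cfsg.Geo.IsMDecomposition k D) (hts : ∀ i, Cfsg.Geo.IsTotallySingularFor (Cfsg.hermForm n F q) (D i)) : Cfsg.Geo.IsMaximalIn (Cfsg.GU n F q ⊓ Cfsg.Geo.specialLinear (Fin n) F) (Cfsg.Geo.decompositionStabilizer D ⊓ (Cfsg.GU n F q ⊓ Cfsg.Geo.specialLinear (Fin n) F)) := by
  have h := hermStd hF n
  have hcompl : IsCompl (D 0) (D 1) := by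
    constructor
    · exact hD.indep.pairwiseDisjoint (by decide)
    · rw [codisjoint_iff, eq_top_iff, ← hD.iSup_eq_top]
      refine iSup_le fun i => ?_
      fin_cases i
      · exact le_sup_left
      · exact le_sup_right
  have mk : ∀ M : Subgroup ((Fin n → F) ≃ₗ[F] (Fin n → F)),
      (∀ e, (∀ u v, Cfsg.hermForm n F q (e u) (e v) = Cfsg.hermForm n F q u v) →
        LinearEquiv.det e = 1 → mkGL e ∈ Cfsg.Geo.decompositionStabilizer D → e ∈ M) →
      (∀ e ∈ M, (∀ u v, Cfsg.hermForm n F q (e u) (e v) = Cfsg.hermForm n F q u v) ∧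
        LinearEquiv.det e = 1) →
      USetup h (D 0) (D 1) M := by
    intro M hM hMiso
    exact
      { isoA := hts 0
        isoA' := hts 1
        compl := hcompl
        hM := fun e he hd hh => hM e he hd (mem_stab_of_inH D hD.finrank_eq e hh)
        hMiso := fun e he => (hMiso e he).1
        dimA := by rw [hD.finrank_eq]; omega
        dimA' := by rw [hD.finrank_eq]; omega
        dimEq := by rw [hD.finrank_eq, hD.finrank_eq] }
  apply su_maximal
  · have S := mk (suGroup h) (fun e he hd _ => ⟨he, hd⟩) (fun e he => he)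
    obtain ⟨e, he, hd, hne⟩ := S.exists_not_inH
    exact ⟨e, he, hd, fun hmem => hne (inH_of_mem_stab D e hmem)⟩
  · intro M hM hMiso g hgM hgX e he hd
    exact (mk M hM hMiso).mem_of_not_inH hgM
      (fun hh => hgX (mem_stab_of_inH D hD.finrank_eq g hh)) e he hd

end Cfsg.Agent.S5657
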