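import Cfsg.Statements.S5660
import Cfsg.Agent.Lib.Helper95SUStd
import Cfsg.Agent.Lib.Helper95CU
import Cfsg.Agent.Lib.Helper95Subfield
-- import your own Cfsg.Agent.* helpers here

set_option autoImplicit false
open Cfsg

namespace Cfsg.Agent.S5660

open Matrix Module Cfsg.Agent.Lib.Helper95Basic Cfsg.Agent.Lib.Helper95Form
  Cfsg.Agent.Lib.Helper95Herm Cfsg.Agent.Lib.Helper95SU Cfsg.Agent.Lib.Helper95SUStd
  Cfsg.Agent.Lib.Helper95CU Cfsg.Agent.Lib.Helper95Subfield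

section abstract

variable {K V : Type*} [Field K] [AddCommGroup V] [Module K V]
variable {σ : K →+* K} {f : V → V → K}

/-- a rational structure over the fixed field -/
structure Rat (h : Herm σ f) (V0 : AddSubgroup V) (θ : K) : Prop where
  θ_ne : σ θ ≠ θ
  smul_mem : ∀ c, σ c = c → ∀ v ∈ V0, c • v ∈ V0
  dec : ∀ x, ∃ v1 ∈ V0, ∃ v2 ∈ V0, x = v1 + θ • v2
  uniq : ∀ v1 ∈ V0, ∀ v2 ∈ V0, v1 + θ • v2 = 0 → v1 = 0 ∧ v2 = 0

variable {h : Herm σ f} {V0 : AddSubgroup V} {θ : K}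

lemma field_dec (h : Herm σ f) (hθ : σ θ ≠ θ) (c : K) :
    ∃ c0 c1, σ c0 = c0 ∧ σ c1 = c1 ∧ c = c0 + c1 * θ := by
  have h1 : θ - σ θ ≠ 0 := sub_ne_zero.2 (Ne.symm hθ)
  have h2 : σ θ - θ ≠ 0 := sub_ne_zero.2 hθ
  have e1 : σ ((c - σ c) / (θ - σ θ)) = (c - σ c) / (θ - σ θ) := by
    rw [map_div₀, map_sub, map_sub, h.invol, h.invol]
    field_simp
    ring
  refine ⟨c - (c - σ c) / (θ - σ θ) * θ, (c - σ c) / (θ - σ θ), ?_, e1, by ring⟩
  rw [map_sub, map_mul, e1]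
  field_simp
  ring

lemma field_uniq (hθ : σ θ ≠ θ) (b1 b2 : K) (h1 : σ b1 = b1) (h2 : σ b2 = b2)
    (h0 : b1 + b2 * θ = 0) : b1 = 0 ∧ b2 = 0 := by
  have hb2 : b2 = 0 := by
    by_contra hne
    apply hθ
    have : θ = - b1 / b2 := by
      field_simp
      linear_combination h0
    rw [this, map_div₀, map_neg, h1, h2]
  refine ⟨?_, hb2⟩
  rw [hb2] at h0
  simpa using h0

/-- a scalar carrying a non-zero rational vector to a rational vector is rational -/
lemma Rat.scalar_fix (R : Rat h V0 θ) (c : K) (v : V) (hv : v ∈ V0) (hv0 : v ≠ 0)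
    (hcv : c • v ∈ V0) : σ c = c := by
  obtain ⟨c0, c1, h0, h1, rfl⟩ := field_dec h R.θ_ne c
  have h2 := R.uniq (c0 • v - (c0 + c1 * θ) • v) (V0.sub_mem (R.smul_mem c0 h0 v hv) hcv) (c1 • v)
    (R.smul_mem c1 h1 v hv) (by module)
  have h3 : c1 = 0 := by
    rcases smul_eq_zero.1 h2.2 with h4 | h4
    · exact h4
    · exact absurd h4 hv0
  rw [h3]
  simpa using h0

/-- a linear automorphism mapping rational vectors to multiples of rational vectors maps the
rational structure to a multiple of itself -/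
lemma Rat.exists_scalar (R : Rat h V0 θ) [Nontrivial V] (g : V ≃ₗ[K] V)
    (hg : ∀ v ∈ V0, ∃ c : K, ∃ w ∈ V0, g v = c • w) :
    ∃ l : K, l ≠ 0 ∧ ∀ v ∈ V0, ∃ w ∈ V0, g v = l • w := by
  obtain ⟨v1, hv1, hv10⟩ : ∃ v1 ∈ V0, v1 ≠ 0 := by
    obtain ⟨x, hx⟩ := exists_ne (0 : V)
    obtain ⟨a, ha, b, hb, rfl⟩ := R.dec x
    by_cases ha0 : a = 0
    · refine ⟨b, hb, ?_⟩
      rintro rfl
      apply hx
      simp [ha0]
    · exact ⟨a, ha, ha0⟩
  obtain ⟨l, w1, hw1, hgv1⟩ := hg v1 hv1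
  have hgv10 : g v1 ≠ 0 := fun h0 => hv10 (g.map_eq_zero_iff.1 h0)
  have hl : l ≠ 0 := by
    rintro rfl
    apply hgv10
    rw [hgv1, zero_smul]
  have hw10 : w1 ≠ 0 := by
    rintro rfl
    apply hgv10
    rw [hgv1, smul_zero]
  refine ⟨l, hl, fun v hv => ?_⟩
  by_cases hv0 : v = 0
  · exact ⟨0, V0.zero_mem, by simp [hv0]⟩
  obtain ⟨c, w, hw, hgv⟩ := hg v hv
  have hgv0 : g v ≠ 0 := fun h0 => hv0 (g.map_eq_zero_iff.1 h0)
  have hw0 : w ≠ 0 := by
    rintro rfl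
    apply hgv0
    rw [hgv, smul_zero]
  obtain ⟨μ, w', hw', hgs⟩ := hg (v + v1) (V0.add_mem hv hv1)
  rw [map_add, hgv, hgv1] at hgs
  obtain ⟨r0, r1, hr0, hr1, hr⟩ := field_dec h R.θ_ne (c / l)
  obtain ⟨m0, m1, hm0, hm1, hm⟩ := field_dec h R.θ_ne (μ / l)
  have hc : c = l * (r0 + r1 * θ) := by rw [← hr]; field_simp
  have hμ : μ = l * (m0 + m1 * θ) := by rw [← hm]; field_simp
  by_cases hr10 : r1 = 0
  · refine ⟨r0 • w, R.smul_mem r0 hr0 w hw, ?_⟩
    rw [hgv, hc, hr10, smul_smul]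
    congr 1
    ring
  · have h3 : (r0 • w + w1 - m0 • w') + θ • (r1 • w - m1 • w') = 0 := by
      have h4 : l • ((r0 • w + w1 - m0 • w') + θ • (r1 • w - m1 • w')) = 0 := by
        have : l • ((r0 • w + w1 - m0 • w') + θ • (r1 • w - m1 • w')) =
            (l * (r0 + r1 * θ)) • w + l • w1 - (l * (m0 + m1 * θ)) • w' := by module
        rw [this, ← hc, ← hμ, hgs, sub_self]
      rcases smul_eq_zero.1 h4 with h5 | h5
      · exact absurd h5 hl
      · exact h5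
    obtain ⟨h5, h6⟩ := R.uniq _ (V0.sub_mem (V0.add_mem (R.smul_mem r0 hr0 w hw) hw1)
      (R.smul_mem m0 hm0 w' hw')) _ (V0.sub_mem (R.smul_mem r1 hr1 w hw) (R.smul_mem m1 hm1 w' hw')) h3
    have hm10 : m1 ≠ 0 := by
      rintro rfl
      rw [zero_smul, sub_zero] at h6
      rcases smul_eq_zero.1 h6 with h7 | h7
      · exact hr10 h7
      · exact hw0 h7
    have hw'eq : w' = (r1 / m1) • w := by
      have : m1 • w' = r1 • w := (sub_eq_zero.1 h6).symm
      rw [div_eq_inv_mul, ← smul_smul, ← this, smul_smul, inv_mul_cancel₀ hm10, one_smul]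
    set κ := m0 * (r1 / m1) - r0 with hκ
    have hw1eq : w1 = κ • w := by
      have : w1 = m0 • w' - r0 • w := by
        have := sub_eq_zero.1 h5
        rw [← this]; abel
      rw [this, hw'eq, hκ]
      module
    have hκ0 : κ ≠ 0 := by
      intro h0
      apply hw10
      rw [hw1eq, h0, zero_smul]
    have hveq : v = (c * κ⁻¹ / l) • v1 := by
      apply g.injective
      rw [map_smul, hgv1, hgv, hw1eq, smul_smul, smul_smul]
      congr 1
      field_simp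
    have hfix := R.scalar_fix (c * κ⁻¹ / l) v1 hv1 hv10 (by rw [← hveq]; exact hv)
    refine ⟨(c * κ⁻¹ / l) • w1, R.smul_mem _ hfix w1 hw1, ?_⟩
    conv_lhs => rw [hveq]
    rw [map_smul, hgv1, smul_smul, smul_smul, mul_comm]

section sp

variable {ζ : K} {M : Subgroup (V ≃ₗ[K] V)}

lemma anti_of_rat (h : Herm σ f) (hζ0 : ζ ≠ 0) (hζ : ζ + σ ζ = 0) (a : K)
    (ha : σ (ζ * a) = ζ * a) : a + σ a = 0 := by
  rw [map_mul] at ha
  have h1 : σ ζ = - ζ := by linear_combination hζ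
  rw [h1] at ha
  have : ζ * (a + σ a) = 0 := by linear_combination -ha
  rcases mul_eq_zero.1 this with h2 | h2
  · exact absurd h2 hζ0
  · exact h2

lemma fix_of_anti_mul (z a : K) (hz : z + σ z = 0) (ha : a + σ a = 0) : σ (z * a) = z * a := by
  have h1 : σ z = - z := by linear_combination hz
  have h2 : σ a = - a := by linear_combination ha
  rw [map_mul, h1, h2]; ring

theorem CU_univ [Finite K] [FiniteDimensional K V] (R : Rat h V0 θ)
    (hanti : ∀ u ∈ V0, ∀ v ∈ V0, f u v + σ (f u v) = 0) (halt : ∀ u ∈ V0, f u u = 0)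
    (hM : ∀ e : V ≃ₗ[K] V, (∀ u v, f (e u) (e v) = f u v) →
      LinearMap.det (e : V →ₗ[K] V) = 1 → (∀ x ∈ V0, e x ∈ V0) → e ∈ M)
    (hMiso : ∀ e ∈ M, ∀ u v, f (e u) (e v) = f u v)
    (g : V ≃ₗ[K] V) (hgM : g ∈ M) (v0 : V) (hv0 : v0 ∈ V0)
    (hg : ¬ ∃ c : K, ∃ w ∈ V0, g v0 = c • w) :
    ∀ v, f v v = 0 → v ∈ CU h M := by
  classical
  obtain ⟨z0, hz0, hz0'⟩ := h.exists_z
  have hutv : ∀ v ∈ V0, ∀ (hv : f v v = 0) z, z + σ z = 0 → ∀ x ∈ V0, h.utv v z hv x ∈ V0 := by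
    intro v hv hvv z hz x hx
    rw [h.utv_apply]
    exact V0.add_mem hx (R.smul_mem _ (fix_of_anti_mul z _ hz (hanti x hx v hv)) v hv)
  have hutvM : ∀ v ∈ V0, ∀ (hv : f v v = 0) z, z + σ z = 0 → h.utv v z hv ∈ M :=
    fun v hv hvv z hz => hM _ (h.utv_isometry v z hvv hz) (h.utv_det v z hvv) (hutv v hv hvv z hz)
  have hV0C : ∀ v ∈ V0, v ∈ CU h M := fun v hv => ⟨halt v hv, fun z hz => hutvM v hv _ z hz⟩
  -- splitting orthogonality
  have hsplit : ∀ x1 ∈ V0, ∀ x2 ∈ V0, ∀ u ∈ V0, f (x1 + θ • x2) u = 0 → f x1 u = 0 ∧ f x2 u = 0 := by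
    intro x1 hx1 x2 hx2 u hu h0
    rw [h.add_left, h.smul_left] at h0
    have h1 := field_uniq R.θ_ne (z0 * f x1 u) (z0 * f x2 u)
      (fix_of_anti_mul z0 _ hz0' (hanti x1 hx1 u hu)) (fix_of_anti_mul z0 _ hz0' (hanti x2 hx2 u hu))
      (by linear_combination z0 * h0)
    exact ⟨(mul_eq_zero.1 h1.1).resolve_left hz0, (mul_eq_zero.1 h1.2).resolve_left hz0⟩
  have hex : ∀ u ∈ V0, ∀ v, v ∉ Submodule.span K {u} → ∃ x ∈ V0, f x u = 0 ∧ f x v ≠ 0 := by
    intro u hu v hv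
    obtain ⟨x, hx, hxv⟩ := h.exists_perp_ne {u} v hv
    obtain ⟨x1, hx1, x2, hx2, rfl⟩ := R.dec x
    obtain ⟨h1, h2⟩ := hsplit x1 hx1 x2 hx2 u hu (hx u (by simp))
    by_cases h3 : f x1 v = 0
    · refine ⟨x2, hx2, h2, ?_⟩
      intro h4
      apply hxv
      rw [h.add_left, h.smul_left, h3, h4]
      ring
    · exact ⟨x1, hx1, h1, h3⟩
  -- single move
  have single : ∀ u v v', v ∈ V0 → v' ∈ V0 → f v u = 0 → f v' u = 0 → f v v' ≠ 0 →
      ∃ e ∈ M, (∀ x ∈ V0, e x ∈ V0) ∧ e u = u ∧ e v = v' := by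
    intro u v v' hv hv' hvu hv'u hvv'
    have ha : v' - v ∈ V0 := V0.sub_mem hv' hv
    have hc : (f v v')⁻¹ + σ (f v v')⁻¹ = 0 := by
      have h1 := hanti v hv v' hv'
      have h2 : σ (f v v') = - f v v' := by linear_combination h1
      rw [map_inv₀, h2]
      field_simp
      ring
    refine ⟨h.utv (v' - v) (f v v')⁻¹ (halt _ ha), hutvM _ ha _ _ hc, hutv _ ha _ _ hc, ?_, ?_⟩
    · rw [h.utv_apply, h.sub_right, h.swap_zero hvu, h.swap_zero hv'u]
      simp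
    · rw [h.utv_apply, h.sub_right, halt v hv, sub_zero, inv_mul_cancel₀ hvv', one_smul]
      abel
  have move : ∀ u ∈ V0, ∀ v ∈ V0, ∀ v' ∈ V0, f v u = 0 → f v' u = 0 →
      v ∉ Submodule.span K {u} → v' ∉ Submodule.span K {u} →
      ∃ e ∈ M, (∀ x ∈ V0, e x ∈ V0) ∧ e u = u ∧ e v = v' := by
    intro u hu v hv v' hv' hvu hv'u hvs hv's
    by_cases hvv' : f v v' = 0
    · obtain ⟨x, hx, hxu, hxv⟩ := hex u hu v hvs
      obtain ⟨x', hx', hx'u, hx'v'⟩ := hex u hu v' hv's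
      obtain ⟨z, hz, hzu, hzv, hzv'⟩ : ∃ z ∈ V0, f z u = 0 ∧ f z v ≠ 0 ∧ f z v' ≠ 0 := by
        by_cases h1 : f x v' = 0
        · by_cases h2 : f x' v = 0
          · refine ⟨x + x', V0.add_mem hx hx', ?_, ?_, ?_⟩
            · rw [h.add_left, hxu, hx'u, add_zero]
            · rw [h.add_left, h2, add_zero]; exact hxv
            · rw [h.add_left, h1, zero_add]; exact hx'v'
          · exact ⟨x', hx', hx'u, h2, hx'v'⟩
        · exact ⟨x, hx, hxu, hxv, h1⟩
      obtain ⟨e1, he1, he1V, he1u, he1v⟩ := single u v z hv hz hvu hzu (h.swap_ne hzv)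
      obtain ⟨e2, he2, he2V, he2u, he2v⟩ := single u z v' hz hv' hzu hv'u hzv'
      exact ⟨e2 * e1, M.mul_mem he2 he1, fun x hx => he2V _ (he1V x hx),
        by rw [LinearEquiv.mul_apply, he1u, he2u], by rw [LinearEquiv.mul_apply, he1v, he2v]⟩
    · exact single u v v' hv hv' hvu hv'u hvv'
  -- structure of irrational isotropic vectors
  have hstr : ∀ v1 ∈ V0, ∀ v2 ∈ V0, f (v1 + θ • v2) (v1 + θ • v2) = 0 →
      (¬ ∃ c : K, ∃ w ∈ V0, v1 + θ • v2 = c • w) →
      v1 ≠ 0 ∧ f v2 v1 = 0 ∧ v2 ∉ Submodule.span K {v1} := by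
    intro v1 hv1 v2 hv2 hiso hirr
    refine ⟨?_, ?_, ?_⟩
    · rintro rfl
      exact hirr ⟨θ, v2, hv2, by simp⟩
    · rw [h.add_left, h.add_right, h.add_right, h.smul_left, h.smul_left, h.smul_right, h.smul_right,
        halt v1 hv1, halt v2 hv2] at hiso
      have h1 := hanti v2 hv2 v1 hv1
      rw [← h.herm v1 v2] at h1
      have h2 : (θ - σ θ) * f v2 v1 = 0 := by linear_combination hiso - σ θ * h1
      rcases mul_eq_zero.1 h2 with h3 | h3
      · exact absurd (sub_eq_zero.1 h3).symm R.θ_ne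
      · exact h3
    · intro hmem
      obtain ⟨c, hc⟩ := Submodule.mem_span_singleton.1 hmem
      exact hirr ⟨1 + θ * c, v1, hv1, by rw [← hc]; module⟩
  obtain ⟨v1, hv1, v2, hv2, hy⟩ := R.dec (g v0)
  have hyC : g v0 ∈ CU h M := CU_map h (hV0C v0 hv0) g hgM (hMiso g hgM)
  rw [hy] at hg hyC
  obtain ⟨hv10, hv21, hv2s⟩ := hstr v1 hv1 v2 hv2 (CU_iso h hyC) hg
  intro y' hy'
  by_cases hrat : ∃ c : K, ∃ w ∈ V0, y' = c • w
  · obtain ⟨c, w, hw, rfl⟩ := hrat
    exact CU_smul h (hV0C w hw) c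
  · obtain ⟨w1, hw1, w2, hw2, rfl⟩ := R.dec y'
    obtain ⟨hw10, hw21, hw2s⟩ := hstr w1 hw1 w2 hw2 hy' hrat
    obtain ⟨e1, he1, he1V, -, he1v⟩ := move 0 V0.zero_mem v1 hv1 w1 hw1 (h.zero_right _)
      (h.zero_right _) (by simpa using hv10) (by simpa using hw10)
    obtain ⟨e2, he2, he2V, he2u, he2v⟩ := move w1 hw1 (e1 v2) (he1V v2 hv2) w2 hw2
      (by rw [← he1v, hMiso e1 he1, hv21]) hw21 (by
        intro hmem
        apply hv2s
        obtain ⟨c, hc⟩ := Submodule.mem_span_singleton.1 hmem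
        rw [Submodule.mem_span_singleton]
        refine ⟨c, e1.injective ?_⟩
        rw [map_smul, he1v, hc]) hw2s
    have := CU_map h hyC (e2 * e1) (M.mul_mem he2 he1) (hMiso _ (M.mul_mem he2 he1))
    rwa [LinearEquiv.mul_apply, map_add, map_add, map_smul, map_smul, he1v, he2u, he2v] at this

theorem exists_not_rat [Finite K] [FiniteDimensional K V] (R : Rat h V0 θ)
    (hdim : 7 ≤ finrank K V)
    (hanti : ∀ u ∈ V0, ∀ v ∈ V0, f u v + σ (f u v) = 0) (halt : ∀ u ∈ V0, f u u = 0) :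
    ∃ e : V ≃ₗ[K] V, (∀ u v, f (e u) (e v) = f u v) ∧ LinearMap.det (e : V →ₗ[K] V) = 1 ∧
      ¬ ∃ l : K, l ≠ 0 ∧ ∀ v ∈ V0, ∃ w ∈ V0, e v = l • w := by
  classical
  obtain ⟨z0, hz0, hz0'⟩ := h.exists_z
  have hnt : Nontrivial V := Module.nontrivial_of_finrank_pos (R := K) (by omega)
  have hsplit : ∀ x1 ∈ V0, ∀ x2 ∈ V0, ∀ u ∈ V0, f (x1 + θ • x2) u = 0 → f x1 u = 0 ∧ f x2 u = 0 := by
    intro x1 hx1 x2 hx2 u hu h0
    rw [h.add_left, h.smul_left] at h0
    have h1 := field_uniq R.θ_ne (z0 * f x1 u) (z0 * f x2 u)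
      (fix_of_anti_mul z0 _ hz0' (hanti x1 hx1 u hu)) (fix_of_anti_mul z0 _ hz0' (hanti x2 hx2 u hu))
      (by linear_combination z0 * h0)
    exact ⟨(mul_eq_zero.1 h1.1).resolve_left hz0, (mul_eq_zero.1 h1.2).resolve_left hz0⟩
  have hex : ∀ u ∈ V0, ∀ v, v ∉ Submodule.span K {u} → ∃ x ∈ V0, f x u = 0 ∧ f x v ≠ 0 := by
    intro u hu v hv
    obtain ⟨x, hx, hxv⟩ := h.exists_perp_ne {u} v hv
    obtain ⟨x1, hx1, x2, hx2, rfl⟩ := R.dec x
    obtain ⟨h1, h2⟩ := hsplit x1 hx1 x2 hx2 u hu (hx u (by simp))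
    by_cases h3 : f x1 v = 0
    · refine ⟨x2, hx2, h2, ?_⟩
      intro h4
      apply hxv
      rw [h.add_left, h.smul_left, h3, h4]
      ring
    · exact ⟨x1, hx1, h1, h3⟩
  obtain ⟨v1, hv1, hv10⟩ : ∃ v1 ∈ V0, v1 ≠ 0 := by
    obtain ⟨x, hx⟩ := exists_ne (0 : V)
    obtain ⟨a, ha, b, hb, rfl⟩ := R.dec x
    by_cases ha0 : a = 0
    · refine ⟨b, hb, ?_⟩
      rintro rfl
      apply hx
      simp [ha0]
    · exact ⟨a, ha, ha0⟩
  obtain ⟨t, ht, htt⟩ := h.exists_perp {v1} (by simp; omega) 1 (map_one σ)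
  have htv1 : f t v1 = 0 := ht v1 (by simp)
  have hts : t ∉ Submodule.span K {v1} := by
    intro hmem
    obtain ⟨c, rfl⟩ := Submodule.mem_span_singleton.1 hmem
    rw [h.smul_left, h.smul_right, halt v1 hv1] at htt
    simp at htt
  obtain ⟨v2, hv2, hv21, hv2t⟩ := hex v1 hv1 t hts
  have hv12 : f v1 v2 = 0 := h.swap_zero hv21
  set y := v1 + θ • v2 with hy
  have hyy : f y y = 0 := by
    rw [hy, h.add_left, h.add_right, h.add_right, h.smul_left, h.smul_left, h.smul_right,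
      h.smul_right, halt v1 hv1, halt v2 hv2, hv12, hv21]
    ring
  have hv1y : f v1 y = 0 := by
    rw [hy, h.add_right, h.smul_right, halt v1 hv1, hv12]; ring
  have hy0 : y ≠ 0 := by
    intro h0
    exact hv10 (R.uniq v1 hv1 v2 hv2 h0).1
  refine ⟨h.utv y z0 hyy, h.utv_isometry y z0 hyy hz0', h.utv_det y z0 hyy, ?_⟩
  rintro ⟨l, hl, hall⟩
  obtain ⟨w, hw, hw1⟩ := hall v1 hv1
  rw [h.utv_apply, hv1y, mul_zero, zero_smul, add_zero] at hw1
  have hlfix : σ l⁻¹ = l⁻¹ := R.scalar_fix l⁻¹ v1 hv1 hv10 (by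
    rw [hw1, smul_smul, inv_mul_cancel₀ hl, one_smul]; exact hw)
  have hlfix' : σ l = l := by
    have := congrArg (fun a => a⁻¹) hlfix
    simpa [map_inv₀] using this
  obtain ⟨x, hx, hxy⟩ : ∃ x ∈ V0, f x y ≠ 0 := by
    obtain ⟨x, hx⟩ := h.nondeg y hy0
    obtain ⟨x1, hx1, x2, hx2, rfl⟩ := R.dec x
    by_cases h3 : f x1 y = 0
    · refine ⟨x2, hx2, ?_⟩
      intro h4
      apply hx
      rw [h.add_left, h.smul_left, h3, h4]
      ring
    · exact ⟨x1, hx1, h3⟩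
  obtain ⟨w', hw', hw'1⟩ := hall x hx
  rw [h.utv_apply] at hw'1
  set c := z0 * f x y with hc
  have hc0 : c ≠ 0 := mul_ne_zero hz0 hxy
  have hcy : c • y ∈ V0 := by
    have : c • y = l • w' - x := by rw [← hw'1]; abel
    rw [this]
    exact V0.sub_mem (R.smul_mem l hlfix' w' hw') hx
  -- then v2 is a multiple of v1
  obtain ⟨c0, c1, hc0', hc1', hcc⟩ := field_dec h R.θ_ne c
  obtain ⟨d0, d1, hd0, hd1, hdd⟩ := field_dec h R.θ_ne (c * θ)
  have h5 := R.uniq (c0 • v1 + d0 • v2 - c • y) (V0.sub_mem (V0.add_mem (R.smul_mem c0 hc0' v1 hv1)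
    (R.smul_mem d0 hd0 v2 hv2)) hcy) (c1 • v1 + d1 • v2)
    (V0.add_mem (R.smul_mem c1 hc1' v1 hv1) (R.smul_mem d1 hd1 v2 hv2)) (by
      have e1 : c • y = c • v1 + (c * θ) • v2 := by rw [hy]; module
      rw [e1, hdd]
      conv_lhs => rw [hcc]
      module)
  -- apply f . t
  have h6 : f (c1 • v1 + d1 • v2) t = 0 := by rw [h5.2, h.zero_left]
  rw [h.add_left, h.smul_left, h.smul_left, h.swap_zero htv1, mul_zero, zero_add] at h6
  have hd10 : d1 = 0 := (mul_eq_zero.1 h6).resolve_right hv2t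
  have hc10 : c1 = 0 := by
    have h7 := h5.2
    rw [hd10, zero_smul, add_zero] at h7
    exact (smul_eq_zero.1 h7).resolve_right hv10
  -- c = c0 rational, c θ = d0 rational: θ rational
  apply R.θ_ne
  have hc00 : c0 ≠ 0 := by
    intro h0
    apply hc0
    rw [hcc, h0, hc10]; ring
  have : θ = d0 / c0 := by
    rw [hc10] at hcc
    rw [hd10] at hdd
    field_simp
    rw [hcc] at hdd
    linear_combination hdd
  rw [this, map_div₀, hd0, hc0']

end sp

end abstract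

/-- Let F be the field with q² elements, n ≥ 13 even, and F₀ the subfield with q elements. Let ζ be a non-zero element with ζ + ζ^q = 0 and P an invertible matrix such that ζ times the standard unitary form takes values in F₀ on the F₀-span of the columns of P and the form vanishes on every pair (u, u) of that span (so ζ times the form restricts to a non-degenerate alternating form there). Then the elements of SU_n(q) lying in the subfield group of P form a maximal subgroup of SU_n(q). -/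
theorem result {F : Type*} [Field F] [Fintype F] (n q : ℕ) (hF : Fintype.card F = q ^ 2) (hn : 13 ≤ n) (heven : Even n) (F₀ : Subfield F) (hcard : Fintype.card F = Nat.card F₀ ^ 2) (ζ : F) (hζ0 : ζ ≠ 0) (hζ : ζ + ζ ^ q = 0) (P : Matrix.GeneralLinearGroup (Fin n) F) (hP : Cfsg.Geo.IsFormRationalStructure (Cfsg.hermForm n F q) F₀ ζ P) (halt : ∀ u : Fin n → F, (∀ i, u i ∈ F₀) → Cfsg.hermForm n F q (Matrix.mulVec (P : Matrix (Fin n) (Fin n) F) u) (Matrix.mulVec (P : Matrix (Fin n) (Fin n) F) u) = 0) : Cfsg.Geo.IsMaximalIn (Cfsg.GU n F q ⊓ Cfsg.Geo.specialLinear (Fin n) F) (Cfsg.Geo.subfieldSubgroup F₀ P ⊓ (Cfsg.GU n F q ⊓ Cfsg.Geo.specialLinear (Fin n) F)) := by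
  classical
  have h := herm_std hF n
  have hq := Cfsg.Agent.Lib.Helper7Herm.two_le_q hF
  have hc0 : Nat.card F₀ = q := by
    have h1 : Nat.card F₀ ^ 2 = q ^ 2 := by rw [← hcard, hF]
    exact Nat.pow_left_injective (n := 2) (by norm_num) h1
  have hmem : ∀ x : F, x ∈ F₀ ↔ sig hF x = x := by
    intro x
    rw [sig_apply]
    constructor
    · intro hx
      have h1 := FiniteField.pow_card (⟨x, hx⟩ : F₀)
      rw [← Nat.card_eq_fintype_card, hc0] at h1
      exact congrArg Subtype.val h1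
    · intro hx
      have h2 : (Polynomial.X ^ q - Polynomial.X : Polynomial F) ≠ 0 :=
        FiniteField.X_pow_card_sub_X_ne_zero F (by omega)
      have h3 : (Finset.univ.filter (· ∈ F₀)) ⊆
          (Polynomial.X ^ q - Polynomial.X : Polynomial F).roots.toFinset := by
        intro y hy
        have hy' : y ∈ F₀ := by simpa using hy
        have h1 := FiniteField.pow_card (⟨y, hy'⟩ : F₀)
        rw [← Nat.card_eq_fintype_card, hc0] at h1
        have h1' : y ^ q = y := congrArg Subtype.val h1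
        rw [Multiset.mem_toFinset, Polynomial.mem_roots h2]
        simp [h1']
      have h4 := (Multiset.toFinset_card_le _).trans
        (Polynomial.card_roots' (Polynomial.X ^ q - Polynomial.X : Polynomial F))
      rw [FiniteField.X_pow_card_sub_X_natDegree_eq F (by omega)] at h4
      have h5 : (Finset.univ.filter (· ∈ F₀)).card = q := by
        rw [← hc0, Nat.card_eq_fintype_card, Fintype.card_subtype]
      have h6 := Finset.eq_of_subset_of_card_le h3 (by rw [h5]; exact h4)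
      have hxR : x ∈ (Polynomial.X ^ q - Polynomial.X : Polynomial F).roots.toFinset := by
        rw [Multiset.mem_toFinset, Polynomial.mem_roots h2]
        simp [hx]
      rw [← h6] at hxR
      simpa using hxR
  obtain ⟨θ, hθ⟩ : ∃ θ, sig hF θ ≠ θ := by
    by_contra hcon
    push Not at hcon
    exact h.ne_id (RingHom.ext hcon)
  have R : Rat h (ratV F₀ P) θ := by
    refine ⟨hθ, fun c hc v hv => smul_mem_ratV hv ((hmem c).2 hc), ?_, ?_⟩
    · intro x
      have hd := fun i => field_dec h hθ ((((P⁻¹ : Matrix.GeneralLinearGroup (Fin n) F) :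
        Matrix (Fin n) (Fin n) F) *ᵥ x) i)
      choose c0 c1 h0 h1 h2 using hd
      refine ⟨_, ⟨c0, fun i => (hmem _).2 (h0 i), rfl⟩, _, ⟨c1, fun i => (hmem _).2 (h1 i), rfl⟩, ?_⟩
      rw [← Matrix.mulVec_smul, ← Matrix.mulVec_add]
      have h3 : c0 + θ • c1 = ((P⁻¹ : Matrix.GeneralLinearGroup (Fin n) F) :
        Matrix (Fin n) (Fin n) F) *ᵥ x := by
        funext i
        rw [h2 i]
        simp [mul_comm]
      rw [h3, ← mul_mulVec, mul_inv_cancel]
      simp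
    · rintro _ ⟨u1, hu1, rfl⟩ _ ⟨u2, hu2, rfl⟩ h0
      rw [← Matrix.mulVec_smul, ← Matrix.mulVec_add] at h0
      have h1 : u1 + θ • u2 = 0 := by
        have := congrArg (fun y => ((P⁻¹ : Matrix.GeneralLinearGroup (Fin n) F) :
          Matrix (Fin n) (Fin n) F) *ᵥ y) h0
        simpa [inv_mulVec_mulVec] using this
      have h2 : ∀ i, u1 i = 0 ∧ u2 i = 0 := by
        intro i
        apply field_uniq hθ (u1 i) (u2 i) ((hmem _).1 (hu1 i)) ((hmem _).1 (hu2 i))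
        have := congrFun h1 i
        simpa [mul_comm] using this
      have e1 : u1 = 0 := funext fun i => (h2 i).1
      have e2 : u2 = 0 := funext fun i => (h2 i).2
      simp [e1, e2]
  have hζ' : ζ + sig hF ζ = 0 := by rw [sig_apply]; exact hζ
  have hanti : ∀ u ∈ ratV F₀ P, ∀ v ∈ ratV F₀ P,
      Cfsg.hermForm n F q u v + sig hF (Cfsg.hermForm n F q u v) = 0 := by
    rintro _ ⟨u, hu, rfl⟩ _ ⟨v, hv, rfl⟩
    exact anti_of_rat h hζ0 hζ' _ ((hmem _).1 (hP u v hu hv))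
  have halt' : ∀ u ∈ ratV F₀ P, Cfsg.hermForm n F q u u = 0 := by
    rintro _ ⟨u, hu, rfl⟩
    exact halt u hu
  have hnt : Nontrivial (Fin n → F) :=
    Module.nontrivial_of_finrank_pos (R := F) (by rw [Module.finrank_fin_fun]; omega)
  apply su_maximal hF n (by omega)
  · obtain ⟨e, he, hd, hne⟩ := exists_not_rat R (by rw [Module.finrank_fin_fun]; omega) hanti halt'
    refine ⟨e, he, hd, fun hmemX => hne ?_⟩
    obtain ⟨l, hl, hlv⟩ := exists_of_mem_subfieldSubgroup hmemX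
    refine ⟨l, hl, fun v hv => ?_⟩
    obtain ⟨w, hw, hgw⟩ := hlv v hv
    rw [mkGL_mulVec] at hgw
    exact ⟨w, hw, hgw⟩
  · intro M hM hMiso g hgM hgX v z hv hz
    have hM' : ∀ e : (Fin n → F) ≃ₗ[F] (Fin n → F),
        (∀ u v, Cfsg.hermForm n F q (e u) (e v) = Cfsg.hermForm n F q u v) →
        LinearMap.det (e : (Fin n → F) →ₗ[F] (Fin n → F)) = 1 →
        (∀ x ∈ ratV F₀ P, e x ∈ ratV F₀ P) → e ∈ M := by
      intro e he hd hx
      refine hM e he hd (mem_subfieldSubgroup_of _ 1 one_ne_zero fun v hv => ⟨e v, hx v hv, ?_⟩)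
      rw [mkGL_mulVec, one_smul]
    obtain ⟨v0, hv0, hgv0⟩ : ∃ v0 ∈ ratV F₀ P, ¬ ∃ c : F, ∃ w ∈ ratV F₀ P, g v0 = c • w := by
      by_contra hcon
      push Not at hcon
      apply hgX
      obtain ⟨l, hl, hlv⟩ := R.exists_scalar g (fun v hv => by
        by_contra hc2
        push Not at hc2
        obtain ⟨c, w, hw, hgw⟩ := hcon v hv
        exact hc2 c w hw hgw)
      refine mem_subfieldSubgroup_of _ l hl fun v hv => ?_
      obtain ⟨w, hw, hgw⟩ := hlv v hv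
      exact ⟨w, hw, by rw [mkGL_mulVec]; exact hgw⟩
    exact (CU_univ R hanti halt' hM' hMiso g hgM v0 hv0 hgv0 v hv).2 z hz

end Cfsg.Agent.S5660
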