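import Cfsg.Statements.S5662
import Cfsg.Agent.Lib.Helper96SpMain
import Cfsg.Agent.Lib.Helper95SpStd

set_option autoImplicit false
open Cfsg

namespace Cfsg.Agent.S5662

open Cfsg.Geo Cfsg.Agent.Lib.Helper96SpDefs in
/-- the number of members of a decomposition -/
theorem decomp_card' {ι : Type} [Fintype ι] [DecidableEq ι] {F : Type*} [Field F] {t m : ℕ}
    (D : Fin t → Submodule F (ι → F)) (hD : IsMDecomposition m D) : Fintype.card ι = t * m := by
  classical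
  have hint : DirectSum.IsInternal D :=
    DirectSum.isInternal_submodule_of_iSupIndep_of_iSup_eq_top hD.indep hD.iSup_eq_top
  have e := LinearEquiv.ofBijective (DirectSum.coeLinearMap D) hint
  have h1 := e.finrank_eq
  rw [Module.finrank_directSum, Module.finrank_fintype_fun_eq_card] at h1
  rw [← h1]
  simp [hD.finrank_eq]

open Cfsg.Geo Cfsg.Agent.Lib.Helper96SpDefs in
/-- the explicit alternatives give members of the classes -/
theorem spAlt_imp {F : Type*} [Field F] [Fintype F] (m : ℕ)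
    {H : Subgroup (Matrix.GeneralLinearGroup (Fin m ⊕ Fin m) F)} (hH : H ≤ Cfsg.spGL m F)
    (h : SpAlt (sympForm m F) H) :
    ∃ M : Subgroup (Matrix.GeneralLinearGroup (Fin m ⊕ Fin m) F), InSymplecticClass m F M ∧ H ≤ M := by
  rcases h with ⟨W, h0, h1, h⟩ | ⟨W, h0, h1, h2, h⟩ | ⟨t, k, D, hD, h⟩ | ⟨ho, k, D, hD, hts, h⟩ |
    ⟨F₀, r, P, ζ, hr, hc, hζ, hrat, h⟩ | ⟨R, p, k, h1, h2, h3, h4, h5, h6, h7, h8, h9, _, h, _, _⟩ |
    ⟨ho, Q, hQ, hpol, h⟩ | ⟨r, K, hr, hK, hsa, hz, h⟩ | ⟨ho, K, hK, hac, hnsa, h⟩ |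
    ⟨ho, n₁, n₂, e, P, f₁, f₂, h3, hf₁, hf₂, hst, h⟩ | ⟨ho, k, t, e, P, f₁, hot, h3, hns, hf₁, hst, h⟩
  · exact ⟨_, Or.inl (Or.inl ⟨W, h0, h1, rfl⟩), le_inf h hH⟩
  · refine ⟨_, Or.inl (Or.inr (Or.inl ⟨W, h0, h1, ?_, rfl⟩)), le_inf h hH⟩
    simp only [Fintype.card_sum, Fintype.card_fin] at h2
    omega
  · exact ⟨_, Or.inl (Or.inr (Or.inr (Or.inl ⟨t, k, D, hD, rfl⟩))), le_inf h hH⟩
  · have hk : k = m := by
      have := decomp_card' D hD
      simp only [Fintype.card_sum, Fintype.card_fin] at this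
      omega
    subst hk
    exact ⟨_, Or.inl (Or.inr (Or.inr (Or.inr (Or.inl ⟨D, ho, hD, hts, rfl⟩)))), le_inf h hH⟩
  · exact ⟨_, Or.inl (Or.inr (Or.inr (Or.inr (Or.inr (Or.inl ⟨F₀, r, P, ζ, hr, hc, hζ, hrat, rfl⟩))))),
      le_inf h hH⟩
  · exact ⟨_, Or.inl (Or.inr (Or.inr (Or.inr (Or.inr (Or.inr (Or.inl
      ⟨R, p, k, h1, h2, h3, h4, h5, h6, h7, h8, h9, rfl⟩)))))), le_inf h hH⟩
  · exact ⟨_, Or.inl (Or.inr (Or.inr (Or.inr (Or.inr (Or.inr (Or.inr ⟨Q, ho, hQ, hpol, rfl⟩)))))),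
      le_inf h hH⟩
  · exact ⟨_, Or.inr (Or.inl ⟨r, K, hr, hK, hsa, hz, rfl⟩), le_inf h hH⟩
  · exact ⟨_, Or.inr (Or.inr (Or.inl ⟨K, ho, hK, hac, hnsa, rfl⟩)), le_inf h hH⟩
  · exact ⟨_, Or.inr (Or.inr (Or.inr (Or.inl ⟨n₁, n₂, e, P, f₁, f₂, ho, h3, hf₁, hf₂, hst, rfl⟩))),
      le_inf h hH⟩
  · exact ⟨_, Or.inr (Or.inr (Or.inr (Or.inr ⟨k, t, e, P, f₁, ho, hot, h3, hns, hf₁, hst, rfl⟩))),
      le_inf h hH⟩

/-- Subgroup structure of the finite symplectic groups. Let F be a finite field and m ≥ 2 with (m, |F|) ≠ (2, 2), and let Sp_2m(F) be the group of invertible matrices preserving the standard alternating form on F^(2m). Let H be a subgroup of Sp_2m(F) whose product with the scalar matrices ±1 is not all of Sp_2m(F) (H does not cover PSp_2m(F)). Then either H is contained in a member of one of the eight geometric classes of subgroups of Sp_2m(F) (with the conditions built into InSymplecticClass), or H is in the residual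 class: modulo scalars it is almost simple, and the perfect preimage of its socle acts absolutely irreducibly, is realisable over no proper subfield, and fixes no non-degenerate quadratic form and no non-degenerate unitary form on F^(2m). -/
theorem result {F : Type*} [Field F] [Fintype F] (m : ℕ) (hm : 2 ≤ m) (hex : ¬ (m = 2 ∧ Fintype.card F = 2)) (H : Subgroup (Matrix.GeneralLinearGroup (Fin m ⊕ Fin m) F)) (hH : H ≤ Cfsg.spGL m F) (hproper : H ⊔ (Cfsg.Geo.scalars (Fin m ⊕ Fin m) F ⊓ Cfsg.spGL m F) ≠ Cfsg.spGL m F) : (∃ M : Subgroup (Matrix.GeneralLinearGroup (Fin m ⊕ Fin m) F), Cfsg.Geo.InSymplecticClass m F M ∧ H ≤ M) ∨ Cfsg.Geo.InSymplecticResidualClass H := by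
  have : Nonempty (Fin m ⊕ Fin m) := ⟨Sum.inl ⟨0, by omega⟩⟩
  have hfix : Cfsg.Geo.FixesForm (Cfsg.Geo.matrixSet H) (sympForm m F) := by
    rintro _ ⟨h, hh, rfl⟩ u v
    exact (Cfsg.Agent.Lib.Helper95SpStd.mem_spGL_iff m h).1 (hH hh) u v
  rcases Cfsg.Agent.Lib.Helper96SpMain.sp_main (Cfsg.Agent.Lib.Helper95SpStd.sympForm_isSymplectic m) hfix with
    h | h
  · exact Or.inl (spAlt_imp m hH h)
  · exact Or.inr h

end Cfsg.Agent.S5662
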