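import Cfsg.Statements.S5700
import Cfsg.Agent.Lib.Helper95OrthCS
-- import your own Cfsg.Agent.* helpers here

set_option autoImplicit false
open Cfsg

namespace Cfsg.Agent.S5700

open Matrix Module Cfsg.Agent.Lib.Helper95OrthSub Cfsg.Agent.Lib.Helper95OrthGeo
  Cfsg.Agent.Lib.Helper95OrthCS
  Cfsg.Agent.Lib.Helper49Bridge Cfsg.Agent.Lib.Helper49Orth Cfsg.Agent.Lib.Helper49Eich
  Cfsg.Agent.Lib.Helper49EichGen
  Cfsg.Agent.Lib.Helper49Trans Cfsg.Agent.Lib.Helper49Fam Cfsg.Agent.Lib.Helper49Geo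
  Cfsg.Agent.Lib.Helper18Hyp

section aux

variable {F : Type*} [Field F] [Fintype F]
variable {ι : Type} [Fintype ι] [DecidableEq ι] (Q : QuadraticForm F (ι → F))

local notation "𝐁" => QuadraticMap.polar (DFunLike.coe Q)

/-- extraction of a complex structure from the field subalgebra -/
theorem exists_CS [Nonempty ι] (hQ : (QuadraticMap.polarBilin Q).Nondegenerate)
    (K : Subalgebra F (Matrix ι ι F)) (hK : Cfsg.Geo.IsFieldSubalgebra 2 K)
    (hac : Cfsg.Geo.IsAdjointClosedFor (QuadraticMap.polar ⇑Q) K)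
    (hnsa : ¬ Cfsg.Geo.IsSelfAdjointFor (QuadraticMap.polar ⇑Q) K)
    (hsc : ∀ k ∈ K, ∃ c : F, ∀ v : (ι → F), Q (Matrix.mulVec k v) = c * Q v) :
    ∃ k ∈ K, ∃ τ N : F, CS Q (Matrix.mulVecLin k) τ N ∧
      (∀ x ∈ K, ∃ a b : F, x = a • (1 : Matrix ι ι F) + b • k) ∧
      (∀ c : F, k ≠ c • (1 : Matrix ι ι F)) := by
  classical
  unfold Cfsg.Geo.IsSelfAdjointFor at hnsa
  push Not at hnsa
  obtain ⟨k, hk, u₀, v₀, hne⟩ := hnsa
  have hns : ∀ c : F, k ≠ c • (1 : Matrix ι ι F) := by
    rintro c rfl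
    apply hne
    rw [Matrix.smul_mulVec, Matrix.smul_mulVec, Matrix.one_mulVec, Matrix.one_mulVec,
      QuadraticMap.polar_smul_left, QuadraticMap.polar_smul_right]
  have hspan : ∀ x ∈ K, ∃ a b : F, x = a • (1 : Matrix ι ι F) + b • k := by
    have hli : LinearIndependent F ![(⟨1, K.one_mem⟩ : K), ⟨k, hk⟩] := by
      rw [LinearIndependent.pair_iff]
      intro a b hab
      have hab' : a • (1 : Matrix ι ι F) + b • k = 0 := congrArg Subtype.val hab
      by_cases hb : b = 0
      · subst hb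
        rw [zero_smul, add_zero] at hab'
        rcases smul_eq_zero.1 hab' with h | h
        · exact ⟨h, rfl⟩
        · exact absurd h one_ne_zero
      · exfalso
        apply hns (-a / b)
        have : b • k = (-a) • (1 : Matrix ι ι F) := by
          rw [neg_smul]
          exact eq_neg_of_add_eq_zero_right hab'
        rw [div_eq_inv_mul, ← smul_smul, ← this, smul_smul, inv_mul_cancel₀ hb, one_smul]
    have htop := hli.span_eq_top_of_card_eq_finrank (by simp [hK.finrank_eq])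
    intro x hx
    have h1 : (⟨x, hx⟩ : K) ∈ Submodule.span F (Set.range ![(⟨1, K.one_mem⟩ : K), ⟨k, hk⟩]) := by
      rw [htop]; exact Submodule.mem_top
    have h2 : Set.range ![(⟨1, K.one_mem⟩ : K), ⟨k, hk⟩] = {⟨1, K.one_mem⟩, ⟨k, hk⟩} := by
      simp [Matrix.range_cons, Set.pair_comm]
    rw [h2] at h1
    obtain ⟨a, b, e⟩ := Submodule.mem_span_pair.1 h1
    exact ⟨a, b, (congrArg Subtype.val e).symm⟩
  obtain ⟨k', hk', hadj⟩ := hac k hk
  -- the adjoint of k' is k
  have hadj' : ∀ u v, 𝐁 (k' *ᵥ u) v = 𝐁 u (k *ᵥ v) := by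
    intro u v
    rw [QuadraticMap.polar_comm, ← hadj, QuadraticMap.polar_comm]
  -- self-adjoint elements of K are scalars
  obtain ⟨τ, b, hτ⟩ := hspan (k + k') (K.add_mem hk hk')
  have hb : b = 0 := by
    by_contra hb
    apply hne
    have e1 : ∀ u v, 𝐁 ((k + k') *ᵥ u) v = 𝐁 u ((k + k') *ᵥ v) := by
      intro u v
      rw [Matrix.add_mulVec, Matrix.add_mulVec, QuadraticMap.polar_add_left,
        QuadraticMap.polar_add_right, hadj, hadj']
      ring
    have e2 := e1 u₀ v₀
    rw [hτ, Matrix.add_mulVec, Matrix.add_mulVec, Matrix.smul_mulVec, Matrix.smul_mulVec,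
      Matrix.smul_mulVec, Matrix.smul_mulVec, Matrix.one_mulVec, Matrix.one_mulVec,
      QuadraticMap.polar_add_left, QuadraticMap.polar_add_right, QuadraticMap.polar_smul_left,
      QuadraticMap.polar_smul_left, QuadraticMap.polar_smul_right,
      QuadraticMap.polar_smul_right] at e2
    have e3 := add_left_cancel e2
    simp only [smul_eq_mul] at e3
    exact mul_left_cancel₀ hb e3
  rw [hb, zero_smul, add_zero] at hτ
  have hk'eq : ∀ v, k' *ᵥ v = τ • v - k *ᵥ v := by
    intro v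
    have : (k + k') *ᵥ v = τ • v := by rw [hτ, Matrix.smul_mulVec, Matrix.one_mulVec]
    rw [Matrix.add_mulVec] at this
    rw [← this, add_sub_cancel_left]
  obtain ⟨N, hN⟩ := hsc k hk
  have hadj2 : ∀ u v, 𝐁 (k *ᵥ u) v = τ * 𝐁 u v - 𝐁 u (k *ᵥ v) := by
    intro u v
    rw [hadj, hk'eq, QuadraticMap.polar_sub_right, QuadraticMap.polar_smul_right, smul_eq_mul]
  have hpn : ∀ u v, 𝐁 (k *ᵥ u) (k *ᵥ v) = N * 𝐁 u v := by
    intro u v
    unfold QuadraticMap.polar
    rw [← Matrix.mulVec_add, hN, hN, hN]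
    ring
  have hsq : ∀ v, k *ᵥ (k *ᵥ v) = τ • (k *ᵥ v) - N • v := by
    intro v
    rw [← sub_eq_zero]
    apply hQ.2
    intro u
    rw [QuadraticMap.polarBilin_apply_apply, QuadraticMap.polar_sub_right,
      QuadraticMap.polar_sub_right, QuadraticMap.polar_smul_right, QuadraticMap.polar_smul_right]
    have e1 := hadj2 u (k *ᵥ v)
    rw [hpn] at e1
    simp only [smul_eq_mul]
    linear_combination e1
  obtain ⟨c₁, hc₁⟩ := hsc (1 + k) (K.add_mem K.one_mem hk)
  have hself0 : ∀ v, 𝐁 v (k *ᵥ v) = (c₁ - 1 - N) * Q v := by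
    intro v
    have := hc₁ v
    rw [Matrix.add_mulVec, Matrix.one_mulVec, Q_add, hN] at this
    linear_combination this
  have hκ : c₁ - 1 - N = τ := by
    obtain ⟨x, hx⟩ : ∃ x : ι → F, x ≠ 0 := exists_ne 0
    obtain ⟨y, hxy⟩ := Cfsg.Agent.Lib.Helper49CharTwoA.exists_polar_ne_zero Q hQ hx
    have e1 := hself0 (x + y)
    rw [Matrix.mulVec_add, QuadraticMap.polar_add_left, QuadraticMap.polar_add_right,
      QuadraticMap.polar_add_right, hself0, hself0, Q_add] at e1
    have e2 := hadj2 x y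
    rw [QuadraticMap.polar_comm ⇑Q (k *ᵥ x) y] at e2
    have e3 : (c₁ - 1 - N - τ) * 𝐁 x y = 0 := by linear_combination -e1 + e2
    rcases mul_eq_zero.1 e3 with h | h
    · linear_combination h
    · exact absurd h hxy
  refine ⟨k, hk, τ, N, ⟨hsq, hadj2, hN, ?_, ?_⟩, hspan, hns⟩
  · intro v
    rw [Matrix.mulVecLin_apply, hself0, hκ]
  · intro c v hv
    rw [Matrix.mulVecLin_apply] at hv
    have h1 : k - c • (1 : Matrix ι ι F) ≠ 0 := fun h => hns c (sub_eq_zero.1 h)
    obtain ⟨y, hy, hxy⟩ := hK.inv _ (K.sub_mem hk (K.smul_mem K.one_mem c)) h1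
    rw [hK.comm _ (K.sub_mem hk (K.smul_mem K.one_mem c)) _ hy] at hxy
    have h2 : (y * (k - c • (1 : Matrix ι ι F))) *ᵥ v = v := by rw [hxy, Matrix.one_mulVec]
    rw [← Matrix.mulVec_mulVec, Matrix.sub_mulVec, Matrix.smul_mulVec, Matrix.one_mulVec, hv,
      sub_self, Matrix.mulVec_zero] at h2
    exact h2.symm

omit [Fintype F] in
theorem mem_normalizer_iff (K : Subalgebra F (Matrix ι ι F)) {k : Matrix ι ι F} (hk : k ∈ K)
    (hspan : ∀ x ∈ K, ∃ a b : F, x = a • (1 : Matrix ι ι F) + b • k)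
    (hns : ∀ c : F, k ≠ c • (1 : Matrix ι ι F)) (G : Matrix.GeneralLinearGroup ι F) :
    G ∈ Cfsg.Geo.subalgebraNormalizer K ↔
      ∃ a b : F, (G : Matrix ι ι F) * k = (a • (1 : Matrix ι ι F) + b • k) * (G : Matrix ι ι F) := by
  have e1 : (G : Matrix ι ι F) * ((G⁻¹ : Matrix.GeneralLinearGroup ι F) : Matrix ι ι F) = 1 := by
    rw [← Units.val_mul, mul_inv_cancel, Units.val_one]
  have e2 : ((G⁻¹ : Matrix.GeneralLinearGroup ι F) : Matrix ι ι F) * (G : Matrix ι ι F) = 1 := by
    rw [← Units.val_mul, inv_mul_cancel, Units.val_one]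
  constructor
  · intro h
    obtain ⟨a, b, hab⟩ := hspan _ ((h k).1 hk)
    refine ⟨a, b, ?_⟩
    rw [← hab, mul_assoc, e2, mul_one]
  · rintro ⟨a, b, hab⟩
    have h1 : (G : Matrix ι ι F) * k * ((G⁻¹ : Matrix.GeneralLinearGroup ι F) : Matrix ι ι F)
        = a • (1 : Matrix ι ι F) + b • k := by
      rw [hab, mul_assoc, e1, mul_one]
    have h2 : k = a • (1 : Matrix ι ι F) +
        b • (((G⁻¹ : Matrix.GeneralLinearGroup ι F) : Matrix ι ι F) * k * (G : Matrix ι ι F)) := by
      have : ((G⁻¹ : Matrix.GeneralLinearGroup ι F) : Matrix ι ι F) * ((G : Matrix ι ι F) * k)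
          = k := by rw [← mul_assoc, e2, one_mul]
      rw [hab] at this
      rw [← mul_assoc, mul_add, add_mul, Matrix.mul_smul, Matrix.mul_smul, mul_one,
        Matrix.smul_mul, Matrix.smul_mul, e2] at this
      exact this.symm
    have hb : b ≠ 0 := by
      rintro rfl
      rw [zero_smul, add_zero] at h2
      exact hns a h2
    have h3 : ((G⁻¹ : Matrix.GeneralLinearGroup ι F) : Matrix ι ι F) * k * (G : Matrix ι ι F) ∈ K := by
      have : ((G⁻¹ : Matrix.GeneralLinearGroup ι F) : Matrix ι ι F) * k * (G : Matrix ι ι F)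
          = b⁻¹ • (k - a • (1 : Matrix ι ι F)) := by
        nth_rewrite 2 [h2]
        rw [add_sub_cancel_left, smul_smul, inv_mul_cancel₀ hb, one_smul]
      rw [this]
      exact K.smul_mem (K.sub_mem hk (K.smul_mem K.one_mem a)) _
    intro x
    constructor
    · intro hx
      obtain ⟨a', b', rfl⟩ := hspan x hx
      rw [mul_add, add_mul, Matrix.mul_smul, Matrix.mul_smul, mul_one, Matrix.smul_mul,
        Matrix.smul_mul, e1, h1]
      exact K.add_mem (K.smul_mem K.one_mem _)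
        (K.smul_mem (K.add_mem (K.smul_mem K.one_mem _) (K.smul_mem hk _)) _)
    · intro hx
      obtain ⟨a', b', hab'⟩ := hspan _ hx
      have : x = ((G⁻¹ : Matrix.GeneralLinearGroup ι F) : Matrix ι ι F) *
          ((G : Matrix ι ι F) * x * ((G⁻¹ : Matrix.GeneralLinearGroup ι F) : Matrix ι ι F)) *
          (G : Matrix ι ι F) := by
        rw [mul_assoc, mul_assoc, e2, mul_one, ← mul_assoc, e2, one_mul]
      rw [this, hab', mul_add, add_mul, Matrix.mul_smul, Matrix.mul_smul, mul_one, Matrix.smul_mul,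
        Matrix.smul_mul, e2]
      exact K.add_mem (K.smul_mem K.one_mem _) (K.smul_mem h3 _)

end aux

/-- Let F be a finite field with q elements, n ≥ 13 even, Q a non-degenerate quadratic form on F^n (of either type), and Ω the commutator subgroup of the isometry group of Q, viewed inside GL_n(F). Let K be a subfield of the algebra of n × n matrices over F containing the scalars, of degree 2 over F, closed under adjoints for the polar form of Q but not consisting of self-adjoint elements, and such that every k in K rescales Q (Q(k v) = c Q(v) for a constant c depending on k). Then the elements of Ω normalising K form a maximal subgroup of Ω. -/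
theorem result {F : Type*} [Field F] [Fintype F] {n : ℕ} (hn : 13 ≤ n) (heven : Even n) (Q : (Fin n → F) → F) (hQ : Cfsg.Geo.IsNondegenerateQuadraticForm Q) (K : Subalgebra F (Matrix (Fin n) (Fin n) F)) (hK : Cfsg.Geo.IsFieldSubalgebra 2 K) (hac : Cfsg.Geo.IsAdjointClosedFor (QuadraticMap.polar Q) K) (hnsa : ¬ Cfsg.Geo.IsSelfAdjointFor (QuadraticMap.polar Q) K) (hsc : ∀ k ∈ K, ∃ c : F, ∀ v : (Fin n → F), Q (Matrix.mulVec k v) = c * Q v) : Cfsg.Geo.IsMaximalIn (Cfsg.Geo.omegaGL Q) (Cfsg.Geo.subalgebraNormalizer K ⊓ Cfsg.Geo.omegaGL Q) := by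
  classical
  set Q' := toQF hQ with hQ'
  have hnd := toQF_nondegenerate hQ
  have hcard : Fintype.card (Fin n) = n := Fintype.card_fin n
  haveI : Nonempty (Fin n) := ⟨⟨0, by omega⟩⟩
  obtain ⟨k, hk, τ, N, hCS, hspan, hns⟩ := exists_CS Q' hnd K hK hac hnsa hsc
  have hiff : ∀ g : ↥(Cfsg.isometryGroup F ⇑Q'),
      (g : Matrix.GeneralLinearGroup (Fin n) F) ∈ Cfsg.Geo.subalgebraNormalizer K ↔
      ∃ a b : F, ∀ v, ((g : Matrix.GeneralLinearGroup (Fin n) F) : Matrix (Fin n) (Fin n) F) *ᵥ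
          (Matrix.mulVecLin k v)
        = a • (((g : Matrix.GeneralLinearGroup (Fin n) F) : Matrix (Fin n) (Fin n) F) *ᵥ v) +
          b • Matrix.mulVecLin k
            (((g : Matrix.GeneralLinearGroup (Fin n) F) : Matrix (Fin n) (Fin n) F) *ᵥ v) := by
    intro g
    rw [mem_normalizer_iff K hk hspan hns]
    constructor
    · rintro ⟨a, b, hab⟩
      refine ⟨a, b, fun v => ?_⟩
      rw [Matrix.mulVecLin_apply, Matrix.mulVecLin_apply, Matrix.mulVec_mulVec, hab,
        ← Matrix.mulVec_mulVec, Matrix.add_mulVec, Matrix.smul_mulVec, Matrix.smul_mulVec,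
        Matrix.one_mulVec]
    · rintro ⟨a, b, hab⟩
      refine ⟨a, b, ?_⟩
      apply Matrix.mulVec_injective
      funext v
      have := hab v
      rw [Matrix.mulVecLin_apply, Matrix.mulVecLin_apply] at this
      rw [← Matrix.mulVec_mulVec, this, ← Matrix.mulVec_mulVec, Matrix.add_mulVec,
        Matrix.smul_mulVec, Matrix.smul_mulVec, Matrix.one_mulVec]
  refine isMaximalIn_omegaGL Q' _
    ((Cfsg.Geo.subalgebraNormalizer K).comap (Cfsg.isometryGroup F ⇑Q').subtype)
    (fun g => Iff.rfl) ?_ ?_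
  · intro hle
    obtain ⟨g, hg, hnot⟩ := hCS.exists_not_norm hnd (by omega)
    exact hnot ((hiff g).1 (hle hg))
  · intro M hM1 hM2
    obtain ⟨g, hgM, hg⟩ := SetLike.not_le_iff_exists.1 hM2
    have hS₁ : ∀ e, Q' e = 0 → SG Q' M e (Matrix.mulVecLin k e) := by
      intro e hQe
      refine ⟨hQe, hCS.self_zero hQe, fun c => hM1 ⟨?_, ?_⟩⟩
      · apply (hiff _).2
        refine ⟨0, 1, fun v => ?_⟩
        rw [hCS.E_comm hQe c v, zero_smul, zero_add, one_smul]
      · exact E_mem_Omega Q' hnd (by omega) hQe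
          (by rw [QuadraticMap.polar_smul_right, hCS.self_zero hQe, smul_zero])
    have hS₂ : ∀ e, Q' e = 0 → SG Q' M e (conjL g (Matrix.mulVecLin k) e) := by
      intro e hQe
      have h1 := SG_map Q' (hS₁ (((g⁻¹ : ↥(Cfsg.isometryGroup F ⇑Q')) :
        Matrix.GeneralLinearGroup (Fin n) F).1 *ᵥ e) (by rw [iso_apply (Q := ⇑Q')]; exact hQe)) hgM
      rw [mulVec_inv_mulVec] at h1
      exact h1
    refine cs_main hnd (by omega) hCS (hCS.conj g) hS₁ hS₂ ?_
    rintro ⟨a, b, hab⟩
    apply hg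
    apply (hiff g).2
    refine ⟨a, b, fun v => ?_⟩
    have := hab (((g : Matrix.GeneralLinearGroup (Fin n) F) : Matrix (Fin n) (Fin n) F) *ᵥ v)
    rw [conjL_apply, inv_mulVec_mulVec] at this
    exact this

end Cfsg.Agent.S5700
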