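import Cfsg.Statements.S5665
import Cfsg.Agent.Lib.Helper95SpU
import Cfsg.Agent.Lib.Helper95SpStd
import Cfsg.Agent.S5700
-- import your own Cfsg.Agent.* helpers here

set_option autoImplicit false
open Cfsg

namespace Cfsg.Agent.S5665

open Matrix Module Cfsg.Agent.Lib.Helper95Basic Cfsg.Agent.Lib.Helper95Sp
  Cfsg.Agent.Lib.Helper95Cen Cfsg.Agent.Lib.Helper95SpStd Cfsg.Agent.Lib.Helper95SpU
  Cfsg.Agent.Lib.Helper95OrthCS

section aux

variable {F : Type*} [Field F]
variable {ι : Type} [Fintype ι] [DecidableEq ι]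

/-- extraction of the skew-adjoint generator -/
theorem exists_US [Nonempty ι] (B : LinearMap.BilinForm F (ι → F)) (hA : B.IsAlt)
    (_hB : B.Nondegenerate) (h2 : (2 : F) ≠ 0)
    (K : Subalgebra F (Matrix ι ι F)) (hK : Cfsg.Geo.IsFieldSubalgebra 2 K)
    (hac : Cfsg.Geo.IsAdjointClosedFor (fun u v => B u v) K)
    (hnsa : ¬ Cfsg.Geo.IsSelfAdjointFor (fun u v => B u v) K) :
    ∃ k ∈ K, ∃ d : F, US B (Matrix.mulVecLin k) d ∧
      (∀ x ∈ K, ∃ a b : F, x = a • (1 : Matrix ι ι F) + b • k) ∧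
      (∀ c : F, k ≠ c • (1 : Matrix ι ι F)) := by
  classical
  unfold Cfsg.Geo.IsSelfAdjointFor at hnsa
  push Not at hnsa
  obtain ⟨k, hk, u₀, v₀, hne⟩ := hnsa
  have hns : ∀ c : F, k ≠ c • (1 : Matrix ι ι F) := by
    rintro c rfl
    apply hne
    rw [Matrix.smul_mulVec, Matrix.smul_mulVec, Matrix.one_mulVec, Matrix.one_mulVec,
      map_smul, map_smul, LinearMap.smul_apply]
  have hspan : ∀ x ∈ K, ∃ a b : F, x = a • (1 : Matrix ι ι F) + b • k := by
    have hli : LinearIndependent F ![(⟨1, K.one_mem⟩ : K), ⟨k, hk⟩] := by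
      rw [LinearIndependent.pair_iff]
      intro a b hab
      have hab' : a • (1 : Matrix ι ι F) + b • k = 0 := congrArg Subtype.val hab
      by_cases hb : b = 0
      · subst hb
        rw [zero_smul, add_zero] at hab'
        rcases smul_eq_zero.1 hab' with h | h
        · exact ⟨h, rfl⟩
        · exact absurd h one_ne_zero
      · exfalso
        apply hns (-a / b)
        have : b • k = (-a) • (1 : Matrix ι ι F) := by
          rw [neg_smul]
          exact eq_neg_of_add_eq_zero_right hab'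
        rw [div_eq_inv_mul, ← smul_smul, ← this, smul_smul, inv_mul_cancel₀ hb, one_smul]
    have htop := hli.span_eq_top_of_card_eq_finrank (by simp [hK.finrank_eq])
    intro x hx
    have h1 : (⟨x, hx⟩ : K) ∈ Submodule.span F (Set.range ![(⟨1, K.one_mem⟩ : K), ⟨k, hk⟩]) := by
      rw [htop]; exact Submodule.mem_top
    have h2 : Set.range ![(⟨1, K.one_mem⟩ : K), ⟨k, hk⟩] = {⟨1, K.one_mem⟩, ⟨k, hk⟩} := by
      simp [Matrix.range_cons, Set.pair_comm]
    rw [h2] at h1
    obtain ⟨a, b, e⟩ := Submodule.mem_span_pair.1 h1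
    exact ⟨a, b, (congrArg Subtype.val e).symm⟩
  -- self-adjoint elements of K are scalars
  have hsa : ∀ x ∈ K, (∀ u v, B (x *ᵥ u) v = B u (x *ᵥ v)) → ∃ c : F, x = c • (1 : Matrix ι ι F) := by
    intro x hx hxs
    obtain ⟨a, b, hab⟩ := hspan x hx
    have hb : b = 0 := by
      by_contra hb
      apply hne
      have e2 := hxs u₀ v₀
      rw [hab, Matrix.add_mulVec, Matrix.add_mulVec, Matrix.smul_mulVec, Matrix.smul_mulVec,
        Matrix.smul_mulVec, Matrix.smul_mulVec, Matrix.one_mulVec, Matrix.one_mulVec] at e2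
      simp only [map_add, map_smul, LinearMap.add_apply, LinearMap.smul_apply, smul_eq_mul] at e2
      exact mul_left_cancel₀ hb (add_left_cancel e2)
    exact ⟨a, by rw [hab, hb, zero_smul, add_zero]⟩
  obtain ⟨k', hk', hadj⟩ := hac k hk
  have hadj' : ∀ u v, B (k' *ᵥ u) v = B u (k *ᵥ v) := by
    intro u v
    have := hadj v u
    simp only at this
    rw [alt_swap hA, ← this, alt_swap hA u]
  obtain ⟨τ, hτ⟩ := hsa (k + k') (K.add_mem hk hk') (by
    intro u v
    have := hadj u v
    simp only at this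
    rw [Matrix.add_mulVec, Matrix.add_mulVec, map_add, map_add, LinearMap.add_apply, this, hadj']
    ring)
  have hk'eq : ∀ v, k' *ᵥ v = τ • v - k *ᵥ v := by
    intro v
    have : (k + k') *ᵥ v = τ • v := by rw [hτ, Matrix.smul_mulVec, Matrix.one_mulVec]
    rw [Matrix.add_mulVec] at this
    rw [← this, add_sub_cancel_left]
  set D : Matrix ι ι F := k - (τ / 2) • (1 : Matrix ι ι F) with hD
  have hDK : D ∈ K := K.sub_mem hk (K.smul_mem K.one_mem _)
  have hDv : ∀ v, D *ᵥ v = k *ᵥ v - (τ / 2) • v := by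
    intro v
    rw [hD, Matrix.sub_mulVec, Matrix.smul_mulVec, Matrix.one_mulVec]
  have hDadj : ∀ u v, B (D *ᵥ u) v = - B u (D *ᵥ v) := by
    intro u v
    have := hadj u v
    simp only at this
    rw [hDv, hDv, map_sub, LinearMap.sub_apply, this, hk'eq]
    simp only [map_sub, map_smul, LinearMap.smul_apply, smul_eq_mul]
    field_simp
    ring
  obtain ⟨d, hd⟩ := hsa (D * D) (K.mul_mem hDK hDK) (by
    intro u v
    rw [← Matrix.mulVec_mulVec, ← Matrix.mulVec_mulVec, hDadj, hDadj, neg_neg])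
  have hDns : ∀ c : F, D ≠ c • (1 : Matrix ι ι F) := by
    intro c hc
    apply hns (c + τ / 2)
    rw [add_smul, ← hc, hD, sub_add_cancel]
  refine ⟨D, hDK, d, ⟨?_, ?_, ?_⟩, ?_, hDns⟩
  · intro v
    rw [Matrix.mulVecLin_apply, Matrix.mulVecLin_apply, Matrix.mulVec_mulVec, hd,
      Matrix.smul_mulVec, Matrix.one_mulVec]
  · intro u v
    rw [Matrix.mulVecLin_apply, Matrix.mulVecLin_apply]
    exact hDadj u v
  · intro c v hv
    rw [Matrix.mulVecLin_apply] at hv
    have h1 : D - c • (1 : Matrix ι ι F) ≠ 0 := fun h => hDns c (sub_eq_zero.1 h)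
    obtain ⟨y, hy, hxy⟩ := hK.inv _ (K.sub_mem hDK (K.smul_mem K.one_mem c)) h1
    rw [hK.comm _ (K.sub_mem hDK (K.smul_mem K.one_mem c)) _ hy] at hxy
    have h2 : (y * (D - c • (1 : Matrix ι ι F))) *ᵥ v = v := by rw [hxy, Matrix.one_mulVec]
    rw [← Matrix.mulVec_mulVec, Matrix.sub_mulVec, Matrix.smul_mulVec, Matrix.one_mulVec, hv,
      sub_self, Matrix.mulVec_zero] at h2
    exact h2.symm
  · intro x hx
    obtain ⟨a, b, hab⟩ := hspan x hx
    refine ⟨a + b * (τ / 2), b, ?_⟩
    rw [hab, hD, smul_sub, smul_smul, add_smul]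
    abel

end aux

/-- For a finite field F of odd order and m ≥ 7, let K be a subfield of the algebra of 2m × 2m matrices over F containing the scalars, of degree 2 over F, that is closed under adjoints for the standard alternating form on F^(2m) but whose elements are not all self-adjoint (so the adjoint map induces the automorphism of order two of K). Then the elements of Sp_2m(F) normalising K form a maximal subgroup of Sp_2m(F). -/
theorem result {F : Type*} [Field F] [Fintype F] (m : ℕ) (hm : 7 ≤ m) (hodd : Odd (Fintype.card F)) (K : Subalgebra F (Matrix (Fin m ⊕ Fin m) (Fin m ⊕ Fin m) F)) (hK : Cfsg.Geo.IsFieldSubalgebra 2 K) (hac : Cfsg.Geo.IsAdjointClosedFor (Cfsg.sympForm m F) K) (hnsa : ¬ Cfsg.Geo.IsSelfAdjointFor (Cfsg.sympForm m F) K) : Cfsg.Geo.IsMaximalIn (Cfsg.spGL m F) (Cfsg.Geo.subalgebraNormalizer K ⊓ Cfsg.spGL m F) := by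
  classical
  have h2 : (2 : F) ≠ 0 := Cfsg.Agent.Lib.Helper49Forms.two_ne_zero_of_odd rfl hodd
  have : Nonempty (Fin m ⊕ Fin m) := ⟨Sum.inl ⟨0, by omega⟩⟩
  have hcard : Fintype.card (Fin m ⊕ Fin m) = 2 * m := by
    simp only [Fintype.card_sum, Fintype.card_fin]
    omega
  have hA := stdB_isAlt (F := F) m
  have hB := stdB_nondegenerate (F := F) m
  obtain ⟨D, hDK, d, hUS, hspan, hns⟩ := exists_US (stdB F m) hA hB h2 K hK hac hnsa
  have hd := hUS.d_ne
  have hiff : ∀ e : (Fin m ⊕ Fin m → F) ≃ₗ[F] (Fin m ⊕ Fin m → F),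
      mkGL e ∈ Cfsg.Geo.subalgebraNormalizer K ↔
      ∃ a b : F, ∀ v, e (Matrix.mulVecLin D v) = a • e v + b • Matrix.mulVecLin D (e v) := by
    intro e
    rw [Cfsg.Agent.S5700.mem_normalizer_iff K hDK hspan hns]
    constructor
    · rintro ⟨a, b, hab⟩
      refine ⟨a, b, fun v => ?_⟩
      rw [Matrix.mulVecLin_apply, Matrix.mulVecLin_apply, ← mkGL_mulVec e, ← mkGL_mulVec e,
        Matrix.mulVec_mulVec, hab,
        ← Matrix.mulVec_mulVec, Matrix.add_mulVec, Matrix.smul_mulVec, Matrix.smul_mulVec,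
        Matrix.one_mulVec]
    · rintro ⟨a, b, hab⟩
      refine ⟨a, b, ?_⟩
      apply Matrix.mulVec_injective
      funext v
      have := hab v
      rw [Matrix.mulVecLin_apply, Matrix.mulVecLin_apply] at this
      rw [← Matrix.mulVec_mulVec, mkGL_mulVec, this, ← Matrix.mulVec_mulVec, Matrix.add_mulVec,
        Matrix.smul_mulVec, Matrix.smul_mulVec, Matrix.one_mulVec, mkGL_mulVec]
  refine sp_maximal m _ ?_ ?_
  · obtain ⟨v, hv⟩ : ∃ v : Fin m ⊕ Fin m → F, v ≠ 0 := exists_ne 0
    refine ⟨stv (stdB F m) hA v 1, stv_isometry hA v 1, ?_⟩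
    intro hmem
    obtain ⟨a, b, hab⟩ := (hiff _).1 hmem
    obtain ⟨y, -, hT, hy0⟩ := hUS.exists_sing_notMem hA hB h2 {v, Matrix.mulVecLin D v} ∅ (by
      have := Finset.card_le_two (a := v) (b := Matrix.mulVecLin D v)
      simp only [Finset.card_empty]
      omega)
    have hy0' : y ≠ 0 := by
      rintro rfl
      exact hy0 (Submodule.zero_mem _)
    have e1 : stdB F m v (Matrix.mulVecLin D y) = 0 := hT v (by simp)
    have e2 : stdB F m v y = 0 := by
      have := hT (Matrix.mulVecLin D v) (by simp)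
      rw [hUS.dd] at this
      simpa [hd] using this
    have e3 : stdB F m y v = 0 := alt_zero hA e2
    have e4 : stdB F m (Matrix.mulVecLin D y) v = 0 := alt_zero hA e1
    have h3 := hab y
    rw [stv_apply, stv_apply, e3, e4] at h3
    simp only [mul_zero, zero_smul, add_zero] at h3
    have hb : b = 1 := by
      by_contra hb
      have hb' : 1 - b ≠ 0 := fun h => hb (sub_eq_zero.1 h).symm
      apply hy0'
      apply hUS.noeig (a / (1 - b)) y
      have : (1 - b) • Matrix.mulVecLin D y = a • y := by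
        rw [sub_smul, one_smul]
        nth_rewrite 1 [h3]
        rw [add_sub_cancel_right]
      rw [div_eq_inv_mul, ← smul_smul, ← this, smul_smul, inv_mul_cancel₀ hb', one_smul]
    subst hb
    have ha : a = 0 := by
      rw [one_smul] at h3
      have : a • y = 0 := by
        have h4 := sub_eq_zero.2 h3
        rw [← neg_eq_zero, ← h4]
        abel
      exact (smul_eq_zero.1 this).resolve_right hy0'
    subst ha
    obtain ⟨x, hx⟩ : ∃ x, stdB F m x v ≠ 0 := by
      by_contra hcon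
      push Not at hcon
      exact hv (hB.2 v hcon)
    have h5 := hab x
    rw [stv_apply, stv_apply, zero_smul, zero_add, one_smul, map_add, map_smul] at h5
    have h6 := add_left_cancel h5
    rw [one_mul, one_mul] at h6
    apply hv
    apply hUS.noeig (stdB F m (Matrix.mulVecLin D x) v / stdB F m x v) v
    rw [div_eq_inv_mul, ← smul_smul, h6, smul_smul, inv_mul_cancel₀ hx, one_smul]
  · intro M hM1 hM2 g hgM hgX
    have hU : ∀ y, stdB F m y (Matrix.mulVecLin D y) = 0 →
        ∀ c, ut hA (Matrix.mulVecLin D) d y c ∈ M := by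
      intro y hy c
      apply hM1 _ (ut_isometry hA _ _)
      apply (hiff _).2
      exact ⟨0, 1, fun v => by rw [zero_smul, zero_add, one_smul, ut_comm hUS hA hy]⟩
    have hgg : ∀ x, g (g⁻¹ x) = x := fun x => g.apply_symm_apply x
    have hgg' : ∀ x, g⁻¹ (g x) = x := fun x => g.symm_apply_apply x
    have hginv : ∀ x y, stdB F m (g⁻¹ x) (g⁻¹ y) = stdB F m x y := by
      intro x y
      rw [← hM2 g hgM, hgg, hgg]
    set δ₂ : (Fin m ⊕ Fin m → F) →ₗ[F] (Fin m ⊕ Fin m → F) :=
      (g : (Fin m ⊕ Fin m → F) →ₗ[F] (Fin m ⊕ Fin m → F)) ∘ₗ Matrix.mulVecLin D ∘ₗ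
        ((g⁻¹ : (Fin m ⊕ Fin m → F) ≃ₗ[F] (Fin m ⊕ Fin m → F)) :
          (Fin m ⊕ Fin m → F) →ₗ[F] (Fin m ⊕ Fin m → F)) with hδ₂
    have hδ₂a : ∀ v, δ₂ v = g (Matrix.mulVecLin D (g⁻¹ v)) := fun v => rfl
    have hne : ¬ ∃ a b : F, ∀ v, δ₂ v = a • v + b • Matrix.mulVecLin D v := by
      rintro ⟨a, b, hab⟩
      apply hgX
      apply (hiff g).2
      refine ⟨a, b, fun v => ?_⟩
      have := hab (g v)
      rw [hδ₂a, hgg'] at this
      exact this
    obtain ⟨u, hu, hgood⟩ := exists_good (qs_nondeg hUS hA hB h2) (by omega) (hUS.cs hA) hne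
    rw [qs_apply] at hu
    refine us_main hUS hB h2 (by omega) hU (w := g⁻¹ u) (w' := g⁻¹ (Matrix.mulVecLin D u)) ?_ ?_
    · intro hmem
      obtain ⟨a, b, hab⟩ := Submodule.mem_span_pair.1 hmem
      have h3 := congrArg g hab
      rw [map_add, map_smul, map_smul, hgg, hgg, ← hδ₂a] at h3
      by_cases hb : b = 0
      · subst hb
        rw [zero_smul, add_zero] at h3
        have hu0 := hUS.noeig a u h3.symm
        apply hgood
        rw [hu0, map_zero δ₂]
        exact Submodule.zero_mem _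
      · apply hgood
        have : δ₂ u = b⁻¹ • (Matrix.mulVecLin D u - a • u) := by
          rw [← h3, add_sub_cancel_left, smul_smul, inv_mul_cancel₀ hb, one_smul]
        rw [this]
        exact Submodule.smul_mem _ _ (Submodule.sub_mem _ (Submodule.subset_span (by simp))
          (Submodule.smul_mem _ _ (Submodule.subset_span (by simp))))
    · intro ε
      refine ⟨-(d * ε), ?_⟩
      have h1 := M.mul_mem (M.mul_mem (M.inv_mem hgM) (hU u hu ε)) (M.inv_mem (M.inv_mem hgM))
      have h3 : g⁻¹ * ut hA (Matrix.mulVecLin D) d u ε * g⁻¹⁻¹ =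
          (g⁻¹ * stv (stdB F m) hA u (-(d * ε)) * g⁻¹⁻¹) *
            (g⁻¹ * stv (stdB F m) hA (Matrix.mulVecLin D u) ε * g⁻¹⁻¹) := by
        unfold ut
        group
      rw [h3, conj_stv hA g⁻¹ hginv, conj_stv hA g⁻¹ hginv] at h1
      exact h1

end Cfsg.Agent.S5665
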