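import Cfsg.Statements.S5673
import Cfsg.Agent.Lib.Helper58OMain
import Cfsg.Agent.Lib.Helper97OStd

set_option autoImplicit false
open Cfsg

namespace Cfsg.Agent.S5673

open Cfsg.Geo Cfsg.Agent.Lib.Helper58ODefs Cfsg.Agent.Lib.Helper58OMain Cfsg.Agent.Lib.Helper97OBase
  Cfsg.Agent.Lib.Helper97OStd

/-- Subgroup structure of the odd-dimensional orthogonal groups. Let F be a finite field of odd order and m ≥ 3, let Q be the standard quadratic form x₀² + Σ x_i y_i on F^(2m+1), and let Ω be the commutator subgroup of its isometry group, viewed inside GL_(2m+1)(F). Let H be a subgroup of Ω whose product with the scalar matrices in Ω is not all of Ω. Then either H is contained in a member of one of the geometric classes of subgroups of the isometry group (with the conditions built into InOrthogonalOddClass), or H is in the residual class: modulo scalars it is almost simple, and the perfect preimage of its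 socle acts absolutely irreducibly, is realisable over no proper subfield, and fixes no non-degenerate unitary form. -/
theorem result {F : Type*} [Field F] [Fintype F] (hodd : Odd (Fintype.card F)) (m : ℕ) (hm : 3 ≤ m) (H : Subgroup (Matrix.GeneralLinearGroup (Unit ⊕ (Fin m ⊕ Fin m)) F)) (hH : H ≤ Cfsg.Geo.omegaGL (Cfsg.quadFormOdd m F)) (hproper : H ⊔ (Cfsg.Geo.scalars (Unit ⊕ (Fin m ⊕ Fin m)) F ⊓ Cfsg.Geo.omegaGL (Cfsg.quadFormOdd m F)) ≠ Cfsg.Geo.omegaGL (Cfsg.quadFormOdd m F)) : (∃ M : Subgroup (Matrix.GeneralLinearGroup (Unit ⊕ (Fin m ⊕ Fin m)) F), Cfsg.Geo.InOrthogonalOddClass m F M ∧ H ≤ M) ∨ Cfsg.Geo.InOrthogonalResidualClass H := by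
  have h2 : (2 : F) ≠ 0 := two_ne_zero_of_odd hodd
  have hQ := nondeg_odd (m := m) h2
  have hcard : Fintype.card (Unit ⊕ (Fin m ⊕ Fin m)) = 2 * m + 1 := card_odd
  have hHI : H ≤ isometryGroup F (quadFormOdd m F) := hH.trans omega_le_iso
  rcases o_main_odd (by rw [hcard]; exact ⟨m, rfl⟩) (by omega) hQ hodd std_odd hHI (hH.trans omega_le_SL)
    with h | h
  swap
  · exact Or.inr h
  left
  rcases h with ⟨W, h0, hW, hle⟩ | ⟨W, h0, h1, hW, hle⟩ | ⟨t, k, D, hk, hD, hle⟩ | ⟨hp, t, D, hD, hle⟩ |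
    ⟨r, K, hr, hne, hK, hsa, hle⟩ | ⟨n₁, n₂, e, P, f₁, f₂, h1, h2, hf₁, hf₂, hstr, hle⟩ |
    ⟨F₀, r, P, hr, hc, hP, hle⟩ | ⟨k, t, e, P, f₁, hk, ht, h33, hf₁, hstr, hle⟩
  · exact ⟨_, Or.inl ⟨W, h0, hW, rfl⟩, le_inf hle hHI⟩
  · exact ⟨_, Or.inr (Or.inl ⟨W, h0, h1, hW, rfl⟩), le_inf hle hHI⟩
  · exact ⟨_, Or.inr (Or.inr (Or.inl ⟨t, k, D, hk, hD, rfl⟩)), le_inf hle hHI⟩
  · exact ⟨_, Or.inr (Or.inr (Or.inr (Or.inl ⟨t, D, hp, hD, rfl⟩))), le_inf hle hHI⟩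
  · exact ⟨_, Or.inr (Or.inr (Or.inr (Or.inr (Or.inl ⟨r, K, hr, by rw [← hcard]; exact hne, hK, hsa, rfl⟩)))),
      le_inf hle hHI⟩
  · exact ⟨_, Or.inr (Or.inr (Or.inr (Or.inr (Or.inr (Or.inl
      ⟨n₁, n₂, e, P, f₁, f₂, h1, h2, hf₁, hf₂, hstr, rfl⟩))))), le_inf hle hHI⟩
  · exact ⟨_, Or.inr (Or.inr (Or.inr (Or.inr (Or.inr (Or.inr (Or.inl ⟨F₀, r, P, hr, hc, hP, rfl⟩)))))),
      le_inf hle hHI⟩
  · exact ⟨_, Or.inr (Or.inr (Or.inr (Or.inr (Or.inr (Or.inr (Or.inr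
      ⟨k, t, e, P, f₁, hk, ht, h33, hf₁, hstr, rfl⟩)))))), le_inf hle hHI⟩

end Cfsg.Agent.S5673
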