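import Cfsg.Statements.S5674
import Cfsg.Agent.Lib.Helper49Par
import Cfsg.Agent.Lib.Helper49Bridge
import Cfsg.Agent.Lib.Helper49Forms
import Cfsg.Agent.Lib.Helper49OddForm

set_option autoImplicit false
open Cfsg

namespace Cfsg.Agent.S5674

/-- Let F be a finite field of odd order, m ≥ 6, Q the standard quadratic form x₀² + Σ x_i y_i on F^(2m+1) and Ω the commutator subgroup of its isometry group inside GL_(2m+1)(F). The elements of Ω stabilising a non-zero subspace on which Q vanishes form a maximal subgroup of Ω. -/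
theorem result {F : Type*} [Field F] [Fintype F] (hodd : Odd (Fintype.card F)) (m : ℕ) (hm : 6 ≤ m) (W : Submodule F (Unit ⊕ (Fin m ⊕ Fin m) → F)) (hW0 : W ≠ ⊥) (hW : Cfsg.Geo.IsTotallySingularQuad (Cfsg.quadFormOdd m F) W) : Cfsg.Geo.IsMaximalIn (Cfsg.Geo.omegaGL (Cfsg.quadFormOdd m F)) (Cfsg.Geo.subspaceStabilizer W ⊓ Cfsg.Geo.omegaGL (Cfsg.quadFormOdd m F)) := by
  have h2 : (2 : F) ≠ 0 := Cfsg.Agent.Lib.Helper49Forms.two_ne_zero_of_odd rfl hodd
  have hnd := Cfsg.Agent.Lib.Helper49OddForm.QOdd_nondegenerate h2 m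
  have hcard : Fintype.card (Unit ⊕ (Fin m ⊕ Fin m)) = 2 * m + 1 := by
    simp only [Fintype.card_sum, Fintype.card_fin, Fintype.card_unit]
    omega
  revert hW
  rw [← Cfsg.Agent.Lib.Helper49Forms.coe_QOdd m]
  intro hW
  apply Cfsg.Agent.Lib.Helper49Bridge.isMaximalIn_omegaGL (Cfsg.Agent.Lib.Helper49Forms.QOdd m F) _
    (Cfsg.Agent.Lib.Helper49Trans.stab (Cfsg.Agent.Lib.Helper49Forms.QOdd m F) W)
    (Cfsg.Agent.Lib.Helper49Bridge.coe_mem_subspaceStabilizer_iff _ W)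
  · exact Cfsg.Agent.Lib.Helper49Par.not_Omega_le_stab _ hnd (by omega) hW hW0
  · intro M h1 h3
    exact Cfsg.Agent.Lib.Helper49Par.parabolic_maximal _ hnd (by omega) hW
      (fun U _ _ h => by omega) h1 h3

end Cfsg.Agent.S5674
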