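import Cfsg.Statements.S5675
import Cfsg.Agent.Lib.Helper95OrthSub2
import Cfsg.Agent.Lib.Helper49Forms
import Cfsg.Agent.Lib.Helper49OddForm
-- import your own Cfsg.Agent.* helpers here

set_option autoImplicit false
open Cfsg

namespace Cfsg.Agent.S5675

open Module Cfsg.Agent.Lib.Helper95OrthSub Cfsg.Agent.Lib.Helper95OrthSub2
  Cfsg.Agent.Lib.Helper49Bridge
  Cfsg.Agent.Lib.Helper49Trans Cfsg.Agent.Lib.Helper49Fam Cfsg.Agent.Lib.Helper49Geo
  Cfsg.Agent.Lib.Helper18Hyp

/-- Let F be a finite field of odd order q, m ≥ 6, Q the standard quadratic form on F^(2m+1) and Ω the commutator subgroup of its isometry group. Let W be a non-zero subspace of even dimension on which the polar form of Q is non-degenerate; exclude the case q = 3, dim W = 2 with Q vanishing on some line of W (a plus-type plane). Then the elements of Ω stabilising W (equivalently, stabilising its orthogonal complement, of odd dimension) form a maximal subgroup of Ω. -/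
theorem result {F : Type*} [Field F] [Fintype F] (hodd : Odd (Fintype.card F)) (m : ℕ) (hm : 6 ≤ m) (W : Submodule F (Unit ⊕ (Fin m ⊕ Fin m) → F)) (hW0 : W ≠ ⊥) (hev : Even (Module.finrank F W)) (hW : Cfsg.Geo.IsNondegenerateOn (QuadraticMap.polar (Cfsg.quadFormOdd m F)) W) (hex : ¬ (Fintype.card F = 3 ∧ Module.finrank F W = 2 ∧ Cfsg.Geo.IsPlusTypeOn (Cfsg.quadFormOdd m F) W)) : Cfsg.Geo.IsMaximalIn (Cfsg.Geo.omegaGL (Cfsg.quadFormOdd m F)) (Cfsg.Geo.subspaceStabilizer W ⊓ Cfsg.Geo.omegaGL (Cfsg.quadFormOdd m F)) := by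
  have h2 : (2 : F) ≠ 0 := Cfsg.Agent.Lib.Helper49Forms.two_ne_zero_of_odd rfl hodd
  have hnd := Cfsg.Agent.Lib.Helper49OddForm.QOdd_nondegenerate h2 m
  have hcard : Fintype.card (Unit ⊕ (Fin m ⊕ Fin m)) = 2 * m + 1 := by
    simp only [Fintype.card_sum, Fintype.card_fin, Fintype.card_unit]
    omega
  revert hW hex
  rw [← Cfsg.Agent.Lib.Helper49Forms.coe_QOdd m]
  intro hW hex
  have hsum := finrank_orth_add (Cfsg.Agent.Lib.Helper49Forms.QOdd m F) hnd W
  rw [hcard] at hsum
  obtain ⟨a, ha⟩ := hev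
  have hq2 : 2 ≤ Fintype.card F := by
    have := Fintype.one_lt_card (α := F)
    omega
  refine isMaximalIn_of_nondeg _ hnd (by omega) (inf_orth_eq_bot_of_nondegOn _ hW) hW0 ?_ ?_ ?_ ?_
  · intro h
    rw [h, finrank_top, Module.finrank_fintype_fun_eq_card, hcard] at ha
    omega
  · rintro ⟨h3, h4, e, he, he0, hQe⟩
    apply hex
    refine ⟨?_, h4, plusType_of_singular _ h4 he he0 hQe⟩
    obtain ⟨b, hb⟩ := hodd
    omega
  · rintro ⟨-, h4, -⟩
    omega
  · intro h
    omega

end Cfsg.Agent.S5675
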