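import Cfsg.Statements.S5676
import Cfsg.Agent.Lib.Helper49Par
import Cfsg.Agent.Lib.Helper49Par2
import Cfsg.Agent.Lib.Helper49Bridge
import Cfsg.Agent.Lib.Helper49Forms
import Cfsg.Agent.Lib.Helper49OddForm

set_option autoImplicit false
open Cfsg

namespace Cfsg.Agent.S5676

/-- Let F be the field with 3 elements, m ≥ 6, Q the standard quadratic form on F^(2m+1) and Ω the commutator subgroup of its isometry group. Let W be a 2-dimensional subspace on which the polar form is non-degenerate and which contains a line on which Q vanishes. Then the elements of Ω stabilising W form a subgroup that is not maximal: some subgroup lies strictly between it and Ω. -/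
theorem result {F : Type*} [Field F] [Fintype F] (hq : Fintype.card F = 3) (m : ℕ) (hm : 6 ≤ m) (W : Submodule F (Unit ⊕ (Fin m ⊕ Fin m) → F)) (hdim : Module.finrank F W = 2) (hW : Cfsg.Geo.IsNondegenerateOn (QuadraticMap.polar (Cfsg.quadFormOdd m F)) W) (hplus : Cfsg.Geo.IsPlusTypeOn (Cfsg.quadFormOdd m F) W) : ∃ K : Subgroup (Matrix.GeneralLinearGroup (Unit ⊕ (Fin m ⊕ Fin m)) F), Cfsg.Geo.subspaceStabilizer W ⊓ Cfsg.Geo.omegaGL (Cfsg.quadFormOdd m F) < K ∧ K < Cfsg.Geo.omegaGL (Cfsg.quadFormOdd m F) := by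
  have h2 : (2 : F) ≠ 0 := Cfsg.Agent.Lib.Helper49Forms.two_ne_zero_of_odd hq (by decide)
  have hnd := Cfsg.Agent.Lib.Helper49OddForm.QOdd_nondegenerate h2 m
  have hcard : Fintype.card (Unit ⊕ (Fin m ⊕ Fin m)) = 2 * m + 1 := by
    simp only [Fintype.card_sum, Fintype.card_fin, Fintype.card_unit]
    omega
  revert hW hplus
  rw [← Cfsg.Agent.Lib.Helper49Forms.coe_QOdd m]
  intro hW hplus
  obtain ⟨U, hUW, hU, hUd⟩ := hplus
  have hU0 : U ≠ ⊥ := by
    rintro rfl
    rw [finrank_bot] at hUd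
    omega
  obtain ⟨e, heU, he0⟩ := Submodule.exists_mem_ne_zero_of_ne_bot hU0
  obtain ⟨T', h1, h2, h3⟩ := Cfsg.Agent.Lib.Helper49Par2.hyp_plane_not_max
    (Cfsg.Agent.Lib.Helper49Forms.QOdd m F) hnd (by omega) (by omega) hdim
    (fun w hw hw0 => (hW w hw hw0).1) (hUW heU) he0 (hU e heU)
  exact Cfsg.Agent.Lib.Helper49Bridge.exists_between_omegaGL
    (Cfsg.Agent.Lib.Helper49Forms.QOdd m F) _
    (Cfsg.Agent.Lib.Helper49Trans.stab (Cfsg.Agent.Lib.Helper49Forms.QOdd m F) W) T'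
    (fun g _ => Cfsg.Agent.Lib.Helper49Bridge.coe_mem_subspaceStabilizer_iff _ W g) h1 h2 h3

end Cfsg.Agent.S5676
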