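import Cfsg.Statements.S5677
import Cfsg.Agent.Lib.Helper49DecC
import Cfsg.Agent.Lib.Helper49Forms
import Cfsg.Agent.Lib.Helper49OddForm

set_option autoImplicit false
open Cfsg

namespace Cfsg.Agent.S5677

/-- Let F be a finite field of odd order q, m ≥ 6, Q the standard quadratic form on F^(2m+1) and Ω the commutator subgroup of its isometry group. Let D be a decomposition of F^(2m+1) into t ≥ 2 pairwise orthogonal, pairwise Q-isometric subspaces of equal dimension k > 1 on which the polar form is non-degenerate. Unless q = 3 and k = 3, the elements of Ω permuting the members of D form a maximal subgroup of Ω. -/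
theorem result {F : Type*} [Field F] [Fintype F] (hodd : Odd (Fintype.card F)) (m : ℕ) (hm : 6 ≤ m) {t : ℕ} (k : ℕ) (hk : 1 < k) (D : Fin t → Submodule F (Unit ⊕ (Fin m ⊕ Fin m) → F)) (hD : Cfsg.Geo.IsOrthogonalMDecomposition (Cfsg.quadFormOdd m F) k D) (hex : ¬ (Fintype.card F = 3 ∧ k = 3)) : Cfsg.Geo.IsMaximalIn (Cfsg.Geo.omegaGL (Cfsg.quadFormOdd m F)) (Cfsg.Geo.decompositionStabilizer D ⊓ Cfsg.Geo.omegaGL (Cfsg.quadFormOdd m F)) := by
  classical
  have h2 : (2 : F) ≠ 0 := Cfsg.Agent.Lib.Helper49Forms.two_ne_zero_of_odd rfl hodd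
  have hnd := Cfsg.Agent.Lib.Helper49OddForm.QOdd_nondegenerate h2 m
  have hcard : Fintype.card (Unit ⊕ (Fin m ⊕ Fin m)) = 2 * m + 1 := by
    simp only [Fintype.card_sum, Fintype.card_fin, Fintype.card_unit]
    omega
  revert hD
  rw [← Cfsg.Agent.Lib.Helper49Forms.coe_QOdd m]
  intro hD
  have hmul := Cfsg.Agent.Lib.Helper49DecC.mul_eq_card hD
  rw [hcard] at hmul
  have ht2 := hD.decomp.decomp.two_le
  have hkodd : Odd k := by
    rcases Nat.even_or_odd k with h | h
    · exfalso
      obtain ⟨r, hr⟩ := h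
      rw [hr] at hmul
      have : t * (r + r) = 2 * (t * r) := by ring
      omega
    · exact h
  have htodd : Odd t := by
    rcases Nat.even_or_odd t with h | h
    · exfalso
      obtain ⟨r, hr⟩ := h
      rw [hr] at hmul
      have : (r + r) * k = 2 * (r * k) := by ring
      omega
    · exact h
  obtain ⟨r, hr⟩ := hkodd
  obtain ⟨r', hr'⟩ := htodd
  have hq1 : 1 < Fintype.card F := Fintype.one_lt_card
  obtain ⟨r'', hr''⟩ := hodd
  apply Cfsg.Agent.Lib.Helper49DecC.decomposition_max
    (Cfsg.Agent.Lib.Helper49Forms.QOdd m F) hnd h2 (by omega) ?_ (by omega) hD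
  by_cases hk3 : k = 3
  · right
    refine ⟨hk3, ?_⟩
    have : Fintype.card F ≠ 3 := fun h => hex ⟨h, hk3⟩
    omega
  · left
    omega

end Cfsg.Agent.S5677
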