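import Cfsg.Statements.S5686
import Cfsg.Agent.Lib.Helper49Par
import Cfsg.Agent.Lib.Helper49Par2
import Cfsg.Agent.Lib.Helper49Bridge

set_option autoImplicit false
open Cfsg

namespace Cfsg.Agent.S5686

/-- Let F be a finite field with q elements, n ≥ 13 even, Q a non-degenerate quadratic form on F^n of plus type (some subspace of dimension n/2 is totally singular), and Ω the commutator subgroup of the isometry group of Q, viewed inside GL_n(F). The elements of Ω stabilising a subspace of dimension n/2 − 1 on which Q vanishes form a subgroup that is not maximal: some subgroup lies strictly between it and Ω. -/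
theorem result {F : Type*} [Field F] [Fintype F] {n : ℕ} (hn : 13 ≤ n) (heven : Even n) (Q : (Fin n → F) → F) (hQ : Cfsg.Geo.IsNondegenerateQuadraticForm Q) (hplus : Cfsg.Geo.IsPlusTypeOn Q ⊤) (W : Submodule F (Fin n → F)) (hW : Cfsg.Geo.IsTotallySingularQuad Q W) (hdim : 2 * (Module.finrank F W + 1) = n) : ∃ K : Subgroup (Matrix.GeneralLinearGroup (Fin n) F), Cfsg.Geo.subspaceStabilizer W ⊓ Cfsg.Geo.omegaGL Q < K ∧ K < Cfsg.Geo.omegaGL Q := by
  obtain ⟨m, hm⟩ := heven
  have hnd := Cfsg.Agent.Lib.Helper49Bridge.toQF_nondegenerate hQ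
  have hcard : Fintype.card (Fin n) = n := Fintype.card_fin n
  have hdim' : Module.finrank F (Fin n → F) = 2 * m := by
    rw [Module.finrank_fintype_fun_eq_card, hcard]; omega
  obtain ⟨X0, -, hX0, hX0d⟩ := hplus
  rw [finrank_top, hdim'] at hX0d
  have hX0m : Module.finrank F X0 = m := by omega
  have hWm : Module.finrank F W + 1 = m := by omega
  obtain ⟨U, -, -, ⟨hU, hUm, hWU⟩, -⟩ := Cfsg.Agent.Lib.Helper18Hyp.two_max
    (Q := Cfsg.Agent.Lib.Helper49Bridge.toQF hQ) hnd hdim' hX0 hX0m hW hWm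
  have hW0 : W ≠ ⊥ := by
    rintro rfl
    rw [finrank_bot] at hWm
    omega
  have hlt : W < U := by
    refine lt_of_le_of_ne hWU ?_
    rintro rfl
    omega
  apply Cfsg.Agent.Lib.Helper49Bridge.exists_between_omegaGL
    (Cfsg.Agent.Lib.Helper49Bridge.toQF hQ) _
    (Cfsg.Agent.Lib.Helper49Trans.stab (Cfsg.Agent.Lib.Helper49Bridge.toQF hQ) W)
    (Cfsg.Agent.Lib.Helper49Trans.stab (Cfsg.Agent.Lib.Helper49Bridge.toQF hQ) U)
    (fun g _ => Cfsg.Agent.Lib.Helper49Bridge.coe_mem_subspaceStabilizer_iff _ W g)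
  · exact Cfsg.Agent.Lib.Helper49Par2.stab_submax_le _ hnd (by omega) (Or.inr (by omega)) hU hUm
      hWU hWm
  · exact Cfsg.Agent.Lib.Helper49Par2.exists_mem_stab_not_mem_stab _ hnd (by omega) hU hlt hW0
  · exact SetLike.not_le_iff_exists.1 (Cfsg.Agent.Lib.Helper49Par.not_Omega_le_stab _ hnd
      (by omega) hU (ne_bot_of_gt hlt))

end Cfsg.Agent.S5686
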