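import Cfsg.Statements.S5687
import Cfsg.Agent.Lib.Helper49Par
import Cfsg.Agent.Lib.Helper49Bridge

set_option autoImplicit false
open Cfsg

namespace Cfsg.Agent.S5687

/-- Let F be a finite field with q elements, n ≥ 13 even, Q a non-degenerate quadratic form on F^n of minus type (no subspace of dimension n/2 is totally singular), and Ω the commutator subgroup of the isometry group of Q, viewed inside GL_n(F). The elements of Ω stabilising a non-zero subspace on which Q vanishes form a maximal subgroup of Ω. -/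
theorem result {F : Type*} [Field F] [Fintype F] {n : ℕ} (hn : 13 ≤ n) (heven : Even n) (Q : (Fin n → F) → F) (hQ : Cfsg.Geo.IsNondegenerateQuadraticForm Q) (hminus : ¬ Cfsg.Geo.IsPlusTypeOn Q ⊤) (W : Submodule F (Fin n → F)) (hW0 : W ≠ ⊥) (hW : Cfsg.Geo.IsTotallySingularQuad Q W) : Cfsg.Geo.IsMaximalIn (Cfsg.Geo.omegaGL Q) (Cfsg.Geo.subspaceStabilizer W ⊓ Cfsg.Geo.omegaGL Q) := by
  have hnd := Cfsg.Agent.Lib.Helper49Bridge.toQF_nondegenerate hQ
  have hcard : Fintype.card (Fin n) = n := Fintype.card_fin n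
  apply Cfsg.Agent.Lib.Helper49Bridge.isMaximalIn_omegaGL (Cfsg.Agent.Lib.Helper49Bridge.toQF hQ) _
    (Cfsg.Agent.Lib.Helper49Trans.stab (Cfsg.Agent.Lib.Helper49Bridge.toQF hQ) W)
    (Cfsg.Agent.Lib.Helper49Bridge.coe_mem_subspaceStabilizer_iff _ W)
  · exact Cfsg.Agent.Lib.Helper49Par.not_Omega_le_stab _ hnd (by omega) hW hW0
  · intro M h1 h3
    exact Cfsg.Agent.Lib.Helper49Par.parabolic_maximal _ hnd (by omega) hW
      (fun U hU _ h => hminus ⟨U, le_top, hU, by
        rw [h, finrank_top, Module.finrank_fintype_fun_eq_card]⟩) h1 h3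

end Cfsg.Agent.S5687
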