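import Cfsg.Statements.S5688
import Cfsg.Agent.Lib.Helper95OrthSub2
-- import your own Cfsg.Agent.* helpers here

set_option autoImplicit false
open Cfsg

namespace Cfsg.Agent.S5688

open Module Cfsg.Agent.Lib.Helper95OrthSub Cfsg.Agent.Lib.Helper95OrthSub2
  Cfsg.Agent.Lib.Helper49Bridge
  Cfsg.Agent.Lib.Helper49Trans Cfsg.Agent.Lib.Helper49Fam Cfsg.Agent.Lib.Helper49Geo
  Cfsg.Agent.Lib.Helper18Hyp

/-- Let F be a finite field with q elements, n ≥ 13 even, Q a non-degenerate quadratic form on F^n of plus type (some subspace of dimension n/2 is totally singular), and Ω the commutator subgroup of the isometry group of Q, viewed inside GL_n(F). Let W be a non-zero proper subspace with dim W ≠ n/2 on which the polar form of Q is non-degenerate. Exclude the case q ≤ 3 in which W, or its orthogonal complement, is a plane containing a line on which Q vanishes. Then the elements of Ω stabilising W form a maximal subgroup of Ω. -/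
theorem result {F : Type*} [Field F] [Fintype F] {n : ℕ} (hn : 13 ≤ n) (heven : Even n) (Q : (Fin n → F) → F) (hQ : Cfsg.Geo.IsNondegenerateQuadraticForm Q) (hplus : Cfsg.Geo.IsPlusTypeOn Q ⊤) (W : Submodule F (Fin n → F)) (hW0 : W ≠ ⊥) (hW1 : W ≠ ⊤) (hdim : 2 * Module.finrank F W ≠ n) (hW : Cfsg.Geo.IsNondegenerateOn (QuadraticMap.polar Q) W) (hex : ¬ (Fintype.card F ≤ 3 ∧ (∃ U : Submodule F (Fin n → F), Module.finrank F U = 2 ∧ Cfsg.Geo.IsNondegenerateOn (QuadraticMap.polar Q) U ∧ Cfsg.Geo.IsPlusTypeOn Q U ∧ (U = W ∨ (Cfsg.Geo.AreOrthogonalFor (QuadraticMap.polar Q) U W ∧ Module.finrank F U + Module.finrank F W = n))))) : Cfsg.Geo.IsMaximalIn (Cfsg.Geo.omegaGL Q) (Cfsg.Geo.subspaceStabilizer W ⊓ Cfsg.Geo.omegaGL Q) := by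
  set Q' := toQF hQ with hQ'
  have hnd := toQF_nondegenerate hQ
  have hcard : Fintype.card (Fin n) = n := Fintype.card_fin n
  have hWn : W ⊓ LinearMap.BilinForm.orthogonal (QuadraticMap.polarBilin Q') W = ⊥ :=
    inf_orth_eq_bot_of_nondegOn Q' hW
  have hsum := finrank_orth_add Q' hnd W
  rw [hcard] at hsum
  refine isMaximalIn_of_nondeg Q' hnd (by omega) hWn hW0 hW1 ?_ ?_ ?_
  · rintro ⟨h3, h4, e, he, he0, hQe⟩
    exact hex ⟨h3, W, h4, hW, plusType_of_singular Q' h4 he he0 hQe, Or.inl rfl⟩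
  · rintro ⟨h3, h4, e, he, he0, hQe⟩
    refine hex ⟨h3, _, h4, nondegOn_of_inf_orth Q' (orth_nondeg Q' hnd hWn),
      plusType_of_singular Q' h4 he he0 hQe, Or.inr ⟨?_, hsum⟩⟩
    intro u hu v hv
    exact polar_of_mem_orth' Q' hv hu
  · intro h
    omega

end Cfsg.Agent.S5688
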