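import Cfsg.Statements.S5689
import Cfsg.Agent.Lib.Helper95OrthSub2
import Cfsg.Agent.S2623
-- import your own Cfsg.Agent.* helpers here

set_option autoImplicit false
open Cfsg

namespace Cfsg.Agent.S5689

open Module Cfsg.Agent.Lib.Helper95OrthSub Cfsg.Agent.Lib.Helper95OrthSub2
  Cfsg.Agent.Lib.Helper49Bridge Cfsg.Agent.Lib.Helper49Orth
  Cfsg.Agent.Lib.Helper49Trans Cfsg.Agent.Lib.Helper49Fam Cfsg.Agent.Lib.Helper49Geo
  Cfsg.Agent.Lib.Helper18Hyp

section aux

variable {F : Type*} [Field F] [Fintype F]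
variable {ι : Type} [Fintype ι] [DecidableEq ι] (Q : QuadraticForm F (ι → F))

local notation:max W "ᗮ" => LinearMap.BilinForm.orthogonal (QuadraticMap.polarBilin Q) W

/-- an even-dimensional non-degenerate quadratic space over a finite field has an
anti-isometry -/
theorem exists_anti {W : Submodule F (ι → F)} (hW : W ⊓ Wᗮ = ⊥) (hev : Even (finrank F W)) :
    ∃ η : W →ₗ[F] W, ∀ w : W, Q ((η w : W) : ι → F) = - Q (w : ι → F) := by
  by_cases h2 : (2 : F) = 0
  · refine ⟨LinearMap.id, fun w => ?_⟩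
    rw [LinearMap.id_apply, eq_neg_iff_add_eq_zero, ← two_mul, h2, zero_mul]
  · have h₁ := restr_nondegenerate Q hW
    have hpol : ∀ x y, QuadraticMap.polar ⇑(-(restr Q W)) x y
        = - QuadraticMap.polar ⇑(restr Q W) x y := by
      intro x y
      rw [FunLike.coe_neg, QuadraticMap.polar_neg]
    have h₂ : (QuadraticMap.polarBilin (-(restr Q W))).Nondegenerate := by
      constructor
      · intro x hx
        apply h₁.1 x
        intro y
        have := hx y
        rw [QuadraticMap.polarBilin_apply_apply, hpol, neg_eq_zero] at this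
        exact this
      · intro x hx
        apply h₁.2 x
        intro y
        have := hx y
        rw [QuadraticMap.polarBilin_apply_apply, hpol, neg_eq_zero] at this
        exact this
    obtain ⟨g, hg⟩ := (Cfsg.Agent.S2623.result h2 (restr Q W) (-(restr Q W)) h₁ h₂).2 (by
      have : (Matrix.of (fun i j : Fin (finrank F W) =>
          QuadraticMap.polar ⇑(-(restr Q W)) (Pi.single i 1) (Pi.single j 1)))
          = - (Matrix.of (fun i j : Fin (finrank F W) =>
          QuadraticMap.polar ⇑(restr Q W) (Pi.single i 1) (Pi.single j 1))) := by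
        ext i j
        simp only [Matrix.of_apply, Matrix.neg_apply, hpol]
      rw [this, Matrix.det_neg, Fintype.card_fin, hev.neg_one_pow, one_mul]
      exact ⟨_, rfl⟩)
    set β := (Module.finBasis F W).equivFun.symm with hβ
    refine ⟨β.toLinearMap ∘ₗ g.toLinearMap ∘ₗ β.symm.toLinearMap, fun w => ?_⟩
    have h3 := hg (β.symm w)
    rw [neg_apply, restr_apply, restr_apply] at h3
    have h4 : emb W (β.symm w) = (w : ι → F) := by
      change ((β (β.symm w) : W) : ι → F) = w
      rw [LinearEquiv.apply_symm_apply]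
    rw [h4] at h3
    rw [← h3, neg_neg]
    rfl

theorem plus_of_isometric (hQ : (QuadraticMap.polarBilin Q).Nondegenerate)
    {W : Submodule F (ι → F)} (hW : W ⊓ Wᗮ = ⊥) (hev : Even (finrank F W))
    (hiso : Cfsg.Geo.AreIsometricFor ⇑Q W Wᗮ) : Cfsg.Geo.IsPlusTypeOn ⇑Q ⊤ := by
  obtain ⟨η, hη⟩ := exists_anti Q hW hev
  obtain ⟨φ, hφ⟩ := hiso
  set θ : W →ₗ[F] (ι → F) := W.subtype + Wᗮ.subtype ∘ₗ φ.toLinearMap ∘ₗ η with hθ
  have hθa : ∀ w : W, θ w = (w : ι → F) + ((φ (η w) : Wᗮ) : ι → F) := fun w => rfl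
  have hinj : Function.Injective θ := by
    rw [← LinearMap.ker_eq_bot, LinearMap.ker_eq_bot']
    intro w hw
    rw [hθa] at hw
    have h1 : (w : ι → F) ∈ W ⊓ Wᗮ := by
      refine ⟨w.2, ?_⟩
      have : (w : ι → F) = - ((φ (η w) : Wᗮ) : ι → F) := eq_neg_of_add_eq_zero_left hw
      rw [this]
      exact Submodule.neg_mem _ (φ (η w)).2
    rw [hW, Submodule.mem_bot] at h1
    exact Subtype.ext h1
  refine ⟨LinearMap.range θ, le_top, ?_, ?_⟩
  · rintro _ ⟨w, rfl⟩
    rw [hθa, Q_add, hφ, hη, polar_of_mem_orth Q w.2 (φ (η w)).2]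
    ring
  · rw [LinearMap.finrank_range_of_inj hinj, finrank_top, Module.finrank_fintype_fun_eq_card]
    have h1 := finrank_orth_add Q hQ W
    have h2 := φ.finrank_eq
    omega

end aux

/-- Let F be a finite field with q elements, n ≥ 13 even, Q a non-degenerate quadratic form on F^n of minus type (no subspace of dimension n/2 is totally singular), and Ω the commutator subgroup of the isometry group of Q, viewed inside GL_n(F). Let W be a non-zero proper subspace on which the polar form of Q is non-degenerate, not of odd dimension n/2. Exclude the case q ≤ 3 in which W, or its orthogonal complement, is a plane containing a line on which Q vanishes. Then the elements of Ω stabilising W form a maximal subgroup of Ω. -/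
theorem result {F : Type*} [Field F] [Fintype F] {n : ℕ} (hn : 13 ≤ n) (heven : Even n) (Q : (Fin n → F) → F) (hQ : Cfsg.Geo.IsNondegenerateQuadraticForm Q) (hminus : ¬ Cfsg.Geo.IsPlusTypeOn Q ⊤) (W : Submodule F (Fin n → F)) (hW0 : W ≠ ⊥) (hW1 : W ≠ ⊤) (hdim : ¬ (2 * Module.finrank F W = n ∧ Odd (Module.finrank F W))) (hW : Cfsg.Geo.IsNondegenerateOn (QuadraticMap.polar Q) W) (hex : ¬ (Fintype.card F ≤ 3 ∧ (∃ U : Submodule F (Fin n → F), Module.finrank F U = 2 ∧ Cfsg.Geo.IsNondegenerateOn (QuadraticMap.polar Q) U ∧ Cfsg.Geo.IsPlusTypeOn Q U ∧ (U = W ∨ (Cfsg.Geo.AreOrthogonalFor (QuadraticMap.polar Q) U W ∧ Module.finrank F U + Module.finrank F W = n))))) : Cfsg.Geo.IsMaximalIn (Cfsg.Geo.omegaGL Q) (Cfsg.Geo.subspaceStabilizer W ⊓ Cfsg.Geo.omegaGL Q) := by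
  set Q' := toQF hQ with hQ'
  have hnd := toQF_nondegenerate hQ
  have hcard : Fintype.card (Fin n) = n := Fintype.card_fin n
  have hWn : W ⊓ LinearMap.BilinForm.orthogonal (QuadraticMap.polarBilin Q') W = ⊥ :=
    inf_orth_eq_bot_of_nondegOn Q' hW
  have hsum := finrank_orth_add Q' hnd W
  rw [hcard] at hsum
  refine isMaximalIn_of_nondeg Q' hnd (by omega) hWn hW0 hW1 ?_ ?_ ?_
  · rintro ⟨h3, h4, e, he, he0, hQe⟩
    exact hex ⟨h3, W, h4, hW, plusType_of_singular Q' h4 he he0 hQe, Or.inl rfl⟩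
  · rintro ⟨h3, h4, e, he, he0, hQe⟩
    refine hex ⟨h3, _, h4, nondegOn_of_inf_orth Q' (orth_nondeg Q' hnd hWn),
      plusType_of_singular Q' h4 he he0 hQe, Or.inr ⟨?_, hsum⟩⟩
    intro u hu v hv
    exact polar_of_mem_orth' Q' hv hu
  · intro h hiso
    apply hminus
    apply plus_of_isometric Q' hnd hWn ?_ hiso
    by_contra hodd
    rw [Nat.not_even_iff_odd] at hodd
    exact hdim ⟨by omega, hodd⟩

end Cfsg.Agent.S5689
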