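import Cfsg.Statements.S5690
import Cfsg.Agent.Lib.Helper49Par
import Cfsg.Agent.Lib.Helper49Par2
import Cfsg.Agent.Lib.Helper49Bridge

set_option autoImplicit false
open Cfsg

namespace Cfsg.Agent.S5690

/-- Let F be a finite field with q elements, n ≥ 13 even, Q a non-degenerate quadratic form on F^n (of either type), and Ω the commutator subgroup of the isometry group of Q, viewed inside GL_n(F). Suppose q ≤ 3 and W is a plane on which the polar form is non-degenerate and which contains a line on which Q vanishes. Then the elements of Ω stabilising W form a subgroup that is not maximal: some subgroup lies strictly between it and Ω. -/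
theorem result {F : Type*} [Field F] [Fintype F] {n : ℕ} (hn : 13 ≤ n) (heven : Even n) (Q : (Fin n → F) → F) (hQ : Cfsg.Geo.IsNondegenerateQuadraticForm Q) (hq : Fintype.card F ≤ 3) (W : Submodule F (Fin n → F)) (hdim : Module.finrank F W = 2) (hW : Cfsg.Geo.IsNondegenerateOn (QuadraticMap.polar Q) W) (hWp : Cfsg.Geo.IsPlusTypeOn Q W) : ∃ K : Subgroup (Matrix.GeneralLinearGroup (Fin n) F), Cfsg.Geo.subspaceStabilizer W ⊓ Cfsg.Geo.omegaGL Q < K ∧ K < Cfsg.Geo.omegaGL Q := by
  have hnd := Cfsg.Agent.Lib.Helper49Bridge.toQF_nondegenerate hQ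
  have hcard : Fintype.card (Fin n) = n := Fintype.card_fin n
  obtain ⟨U, hUW, hU, hUd⟩ := hWp
  have hU0 : U ≠ ⊥ := by
    rintro rfl
    rw [finrank_bot] at hUd
    omega
  obtain ⟨e, heU, he0⟩ := Submodule.exists_mem_ne_zero_of_ne_bot hU0
  obtain ⟨T', h1, h2, h3⟩ := Cfsg.Agent.Lib.Helper49Par2.hyp_plane_not_max
    (Cfsg.Agent.Lib.Helper49Bridge.toQF hQ) hnd (by omega) hq hdim
    (fun w hw hw0 => (hW w hw hw0).1) (hUW heU) he0 (hU e heU)
  exact Cfsg.Agent.Lib.Helper49Bridge.exists_between_omegaGL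
    (Cfsg.Agent.Lib.Helper49Bridge.toQF hQ) _
    (Cfsg.Agent.Lib.Helper49Trans.stab (Cfsg.Agent.Lib.Helper49Bridge.toQF hQ) W) T'
    (fun g _ => Cfsg.Agent.Lib.Helper49Bridge.coe_mem_subspaceStabilizer_iff _ W g) h1 h2 h3

end Cfsg.Agent.S5690
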