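import Cfsg.Statements.S5691
import Cfsg.Agent.Lib.Helper49NS
import Cfsg.Agent.Lib.Helper49Witt2
import Cfsg.Agent.Lib.Helper49Bridge

set_option autoImplicit false
open Cfsg

namespace Cfsg.Agent.S5691

/-- Let F be a finite field with q elements, n ≥ 13 even, Q a non-degenerate quadratic form on F^n (of either type), and Ω the commutator subgroup of the isometry group of Q, viewed inside GL_n(F). Suppose q is even and v is a vector with Q(v) ≠ 0. Then the elements of Ω stabilising the line spanned by v form a maximal subgroup of Ω. -/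
theorem result {F : Type*} [Field F] [Fintype F] {n : ℕ} (hn : 13 ≤ n) (heven : Even n) (Q : (Fin n → F) → F) (hQ : Cfsg.Geo.IsNondegenerateQuadraticForm Q) (hchar : ¬ Odd (Fintype.card F)) (v : (Fin n → F)) (hv : Q v ≠ 0) : Cfsg.Geo.IsMaximalIn (Cfsg.Geo.omegaGL Q) (Cfsg.Geo.subspaceStabilizer (Submodule.span F {v}) ⊓ Cfsg.Geo.omegaGL Q) := by
  have hnd := Cfsg.Agent.Lib.Helper49Bridge.toQF_nondegenerate hQ
  have hcard : Fintype.card (Fin n) = n := Fintype.card_fin n
  have h2 : (2 : F) = 0 := by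
    by_contra h
    exact hchar (Nat.odd_iff.2 (FiniteField.odd_card_of_char_ne_two
      (Cfsg.Agent.Lib.Helper49Idx.ringChar_ne_two h)))
  have : CharP F 2 := CharTwo.of_one_ne_zero_of_two_eq_zero one_ne_zero h2
  apply Cfsg.Agent.Lib.Helper49Witt2.isMaximalIn_omegaGL' (Cfsg.Agent.Lib.Helper49Bridge.toQF hQ) _
    (Cfsg.Agent.Lib.Helper49Trans.stab (Cfsg.Agent.Lib.Helper49Bridge.toQF hQ)
      (Submodule.span F {v}))
    (fun g _ => Cfsg.Agent.Lib.Helper49Bridge.coe_mem_subspaceStabilizer_iff _ _ g)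
  · exact Cfsg.Agent.Lib.Helper49NS.not_Omega_le_stab_nonsingular _ hnd (by omega) hv
  · intro M h1 h0 h3
    exact Cfsg.Agent.Lib.Helper49NS.nonsingular_maximal _ hnd (by omega) hv h1 h0 h3

end Cfsg.Agent.S5691
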