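import Cfsg.Statements.S5697
import Cfsg.Agent.Lib.Helper96Orth
import Cfsg.Agent.Lib.Helper96OrthStd
import Cfsg.Agent.S5649

set_option autoImplicit false
open Cfsg

namespace Cfsg.Agent.S5697

open Module Cfsg.Agent.Lib.Helper95Basic Cfsg.Agent.Lib.Helper95Form Cfsg.Agent.Lib.Helper95Quad
  Cfsg.Agent.Lib.Helper96Lagr Cfsg.Agent.Lib.Helper96Orth Cfsg.Agent.Lib.Helper96OrthStd
  Cfsg.Agent.S5649

/-- Let F be a finite field with q elements, n ≥ 13 even, Q a non-degenerate quadratic form on F^n of plus type (some subspace of dimension n/2 is totally singular), and Ω the commutator subgroup of the isometry group of Q, viewed inside GL_n(F). Suppose n/2 is even and let D be a decomposition of F^n into two complementary subspaces of dimension n/2 on each of which Q vanishes. Then the elements of Ω preserving or interchanging the two subspaces form a maximal subgroup of Ω. -/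
theorem result {F : Type*} [Field F] [Fintype F] {n : ℕ} (hn : 13 ≤ n) (heven : Even n) (Q : (Fin n → F) → F) (hQ : Cfsg.Geo.IsNondegenerateQuadraticForm Q) (hplus : Cfsg.Geo.IsPlusTypeOn Q ⊤) (k : ℕ) (hk : 2 * k = n) (hke : Even k) (D : Fin 2 → Submodule F (Fin n → F)) (hD : Cfsg.Geo.IsMDecomposition k D) (hts : ∀ i, Cfsg.Geo.IsTotallySingularQuad Q (D i)) : Cfsg.Geo.IsMaximalIn (Cfsg.Geo.omegaGL Q) (Cfsg.Geo.decompositionStabilizer D ⊓ Cfsg.Geo.omegaGL Q) := by
  have hcard : 5 ≤ Fintype.card (Fin n) := by rw [Fintype.card_fin]; omega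
  have hcompl : IsCompl (D 0) (D 1) := by
    constructor
    · exact hD.indep.pairwiseDisjoint (by decide)
    · rw [codisjoint_iff, eq_top_iff, ← hD.iSup_eq_top]
      refine iSup_le fun i => ?_
      fin_cases i
      · exact le_sup_left
      · exact le_sup_right
  have mk : ∀ M : Subgroup ((Fin n → F) ≃ₗ[F] (Fin n → F)),
      (∀ e ∈ pull (Cfsg.Geo.omegaGL Q), mkGL e ∈ Cfsg.Geo.decompositionStabilizer D → e ∈ M) →
      (∀ e ∈ M, ∀ x, Q (e x) = Q x) →
      OSetup (stdQF hQ) (D 0) (D 1) (pull (Cfsg.Geo.omegaGL Q)) M := by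
    intro M hM hMiso
    exact
      { nd := stdB_nondegenerate hQ
        isoA := hts 0
        isoA' := hts 1
        compl := hcompl
        hOm := fun e w => mkGL_ei_mem hQ hcard e w
        hM := fun e he hh => hM e he (mem_stab_of_inH D hD.finrank_eq e hh)
        hMiso := hMiso
        dimA := by rw [hD.finrank_eq]; omega
        dimA' := by rw [hD.finrank_eq]; omega
        dimEq := by rw [hD.finrank_eq, hD.finrank_eq]
        even := by rw [hD.finrank_eq]; exact hke }
  apply omega_maximal hQ hcard
  · have S := mk (pull (Cfsg.Geo.omegaGL Q)) (fun e he _ => he) (fun e he x => by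
      have := iso_of_mem_omegaGL ((mem_pull _ e).1 he) x
      rwa [mkGL_mulVec] at this)
    obtain ⟨e, he, hne⟩ := S.exists_not_inH
    exact ⟨e, he, fun hmem => hne (inH_of_mem_stab D e hmem)⟩
  · intro M hM hMiso g hgM hgX
    exact (mk M hM hMiso).univ hgM (fun hh => hgX (mem_stab_of_inH D hD.finrank_eq g hh))

end Cfsg.Agent.S5697
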