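import Cfsg.Statements.S5698
import Cfsg.Agent.Lib.Helper49Par
import Cfsg.Agent.Lib.Helper49Par2
import Cfsg.Agent.Lib.Helper49Bridge

set_option autoImplicit false
open Cfsg

namespace Cfsg.Agent.S5698

/-- Let F be a finite field with q elements, n ≥ 13 even, Q a non-degenerate quadratic form on F^n of plus type (some subspace of dimension n/2 is totally singular), and Ω the commutator subgroup of the isometry group of Q, viewed inside GL_n(F). Suppose n/2 is odd and let D be a decomposition of F^n into two complementary subspaces of dimension n/2 on each of which Q vanishes. Then the elements of Ω preserving or interchanging the two subspaces form a subgroup that is not maximal: some subgroup lies strictly between it and Ω. -/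
theorem result {F : Type*} [Field F] [Fintype F] {n : ℕ} (hn : 13 ≤ n) (heven : Even n) (Q : (Fin n → F) → F) (hQ : Cfsg.Geo.IsNondegenerateQuadraticForm Q) (hplus : Cfsg.Geo.IsPlusTypeOn Q ⊤) (k : ℕ) (hk : 2 * k = n) (hko : Odd k) (D : Fin 2 → Submodule F (Fin n → F)) (hD : Cfsg.Geo.IsMDecomposition k D) (hts : ∀ i, Cfsg.Geo.IsTotallySingularQuad Q (D i)) : ∃ K : Subgroup (Matrix.GeneralLinearGroup (Fin n) F), Cfsg.Geo.decompositionStabilizer D ⊓ Cfsg.Geo.omegaGL Q < K ∧ K < Cfsg.Geo.omegaGL Q := by
  have hnd := Cfsg.Agent.Lib.Helper49Bridge.toQF_nondegenerate hQ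
  have hcard : Fintype.card (Fin n) = n := Fintype.card_fin n
  have hinf : D 0 ⊓ D 1 = ⊥ :=
    disjoint_iff.1 (hD.indep.pairwiseDisjoint (by decide : (0 : Fin 2) ≠ 1))
  have hfin : ∀ x : Fin 2, x = 0 ∨ x = 1 := by decide
  have hD0 : D 0 ≠ ⊥ := by
    intro h
    have := hD.finrank_eq 0
    rw [h, finrank_bot] at this
    omega
  apply Cfsg.Agent.Lib.Helper49Bridge.exists_between_omegaGL
    (Cfsg.Agent.Lib.Helper49Bridge.toQF hQ) _
    (Cfsg.Agent.Lib.Helper49Trans.stab (Cfsg.Agent.Lib.Helper49Bridge.toQF hQ) (D 0) ⊓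
      Cfsg.Agent.Lib.Helper49Trans.stab (Cfsg.Agent.Lib.Helper49Bridge.toQF hQ) (D 1))
    (Cfsg.Agent.Lib.Helper49Trans.stab (Cfsg.Agent.Lib.Helper49Bridge.toQF hQ) (D 0))
  · intro g hg
    constructor
    · rintro ⟨σ, hσ⟩
      have hσ' : ∀ i, Cfsg.Agent.Lib.Helper49Fam.img (Cfsg.Agent.Lib.Helper49Bridge.toQF hQ) g (D i)
          = D (σ i) := hσ
      rcases hfin (σ 0) with h0 | h0
      · have h1 : σ 1 = 1 := by
          rcases hfin (σ 1) with h1 | h1
          · exact absurd (σ.injective (h0.trans h1.symm)) (by decide)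
          · exact h1
        refine ⟨?_, ?_⟩
        · have := hσ' 0
          rw [h0] at this
          exact this
        · have := hσ' 1
          rw [h1] at this
          exact this
      · exfalso
        have := hσ' 0
        rw [h0] at this
        exact Cfsg.Agent.Lib.Helper49Par2.pair_not_swap _ hnd (k := k) (by omega)
          (Or.inr (by omega)) hko (hts 0) (hD.finrank_eq 0) hinf hg this
    · rintro ⟨h0, h1⟩
      refine ⟨1, fun i => ?_⟩
      rcases hfin i with rfl | rfl
      · exact h0
      · exact h1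
  · exact inf_le_left.trans inf_le_left
  · obtain ⟨g, hg, hg0, hg1⟩ := Cfsg.Agent.Lib.Helper49Par2.exists_mem_stab_not_mem_stab_pair _ hnd
      (by omega) (k := k) (by omega) (hts 0) (hts 1) (hD.finrank_eq 0) (hD.finrank_eq 1) hinf
    exact ⟨g, hg, hg0, fun h => hg1 h.2⟩
  · exact SetLike.not_le_iff_exists.1 (Cfsg.Agent.Lib.Helper49Par.not_Omega_le_stab _ hnd
      (by omega) (hts 0) hD0)

end Cfsg.Agent.S5698
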