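import Cfsg.Statements.S5699
import Cfsg.Agent.Lib.Helper95OrthSub
-- import your own Cfsg.Agent.* helpers here

set_option autoImplicit false
open Cfsg

namespace Cfsg.Agent.S5699

open Module Cfsg.Agent.Lib.Helper95OrthSub Cfsg.Agent.Lib.Helper49Bridge
  Cfsg.Agent.Lib.Helper49Trans Cfsg.Agent.Lib.Helper49Fam Cfsg.Agent.Lib.Helper49Geo
  Cfsg.Agent.Lib.Helper18Hyp

/-- Let F be a finite field with q elements, n ≥ 13 even, Q a non-degenerate quadratic form on F^n (of either type), and Ω the commutator subgroup of the isometry group of Q, viewed inside GL_n(F). Let D be a decomposition of F^n into two orthogonal subspaces of odd dimension n/2 on which the polar form is non-degenerate and which are not Q-isometric to each other. Then the elements of Ω permuting (necessarily fixing) the two subspaces form a maximal subgroup of Ω. -/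
theorem result {F : Type*} [Field F] [Fintype F] {n : ℕ} (hn : 13 ≤ n) (heven : Even n) (Q : (Fin n → F) → F) (hQ : Cfsg.Geo.IsNondegenerateQuadraticForm Q) (k : ℕ) (hk : 2 * k = n) (hko : Odd k) (D : Fin 2 → Submodule F (Fin n → F)) (hD : Cfsg.Geo.IsNondegenerateMDecomposition (QuadraticMap.polar Q) k D) (hni : ¬ Cfsg.Geo.AreIsometricFor Q (D 0) (D 1)) : Cfsg.Geo.IsMaximalIn (Cfsg.Geo.omegaGL Q) (Cfsg.Geo.decompositionStabilizer D ⊓ Cfsg.Geo.omegaGL Q) := by
  classical
  set Q' := toQF hQ with hQ'
  have hnd := toQF_nondegenerate hQ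
  have hcard : Fintype.card (Fin n) = n := Fintype.card_fin n
  have hW : D 0 ⊓ LinearMap.BilinForm.orthogonal (QuadraticMap.polarBilin Q') (D 0) = ⊥ :=
    inf_orth_eq_bot_of_nondegOn Q' (hD.nondegenerate 0)
  have hd0 : finrank F (D 0) = k := hD.decomp.finrank_eq 0
  have hd1 : finrank F (D 1) = k := hD.decomp.finrank_eq 1
  have hsum := finrank_orth_add Q' hnd (D 0)
  rw [hcard] at hsum
  have hD1 : D 1 = LinearMap.BilinForm.orthogonal (QuadraticMap.polarBilin Q') (D 0) := by
    apply Submodule.eq_of_le_of_finrank_eq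
    · intro x hx
      rw [mem_orth]
      intro w hw
      exact hD.orthogonal 0 1 (by decide) w hw x hx
    · omega
  have hS : ∀ g : ↥(Cfsg.isometryGroup F ⇑Q'),
      (g : Matrix.GeneralLinearGroup (Fin n) F) ∈ Cfsg.Geo.decompositionStabilizer D ↔
        g ∈ stab Q' (D 0) := by
    intro g
    constructor
    · rintro ⟨σ, hσ⟩
      have h0 := hσ 0
      rw [map_toLin'_eq_img Q' g] at h0
      rcases (show σ 0 = 0 ∨ σ 0 = 1 by
        generalize σ 0 = x
        fin_cases x <;> simp) with h | h
      · rw [h] at h0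
        exact h0
      · rw [h] at h0
        exact absurd (isometric_of_img Q' h0) hni
    · intro hg
      refine ⟨1, fun i => ?_⟩
      rw [map_toLin'_eq_img Q' g]
      fin_cases i
      · exact hg
      · have h1 := stab_le_stab_orth Q' (D 0) hg
        rw [← hD1] at h1
        exact h1
  refine isMaximalIn_omegaGL Q' _ (stab Q' (D 0)) hS ?_ ?_
  · apply not_Omega_le_stab_nondeg Q' hnd (by omega) hW
    · intro h0
      rw [h0, finrank_bot] at hd0
      omega
    · omega
  · intro M hM1 hM2
    obtain ⟨g, hgM, hg⟩ := SetLike.not_le_iff_exists.1 hM2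
    refine nondeg_maximal Q' hnd (by omega) hW (by omega) ?_ hM1 hgM hg ?_
    · rintro ⟨-, h2, -⟩
      omega
    · intro hle
      rw [← hD1] at hle
      have h1 : img Q' g (D 1) = D 0 := by
        apply Submodule.eq_of_le_of_finrank_eq hle
        rw [finrank_img, hd0, hd1]
      exact hni (isometric_symm Q' (isometric_of_img Q' h1))

end Cfsg.Agent.S5699
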