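import Cfsg.Statements.S5778
import Cfsg.Agent.Lib.Helper57UMax
import Cfsg.Agent.Lib.Helper97UMain
import Cfsg.Agent.Lib.Helper12U3PFrame
import Cfsg.Agent.Lib.Helper12U3PSub
import Cfsg.Agent.Lib.Helper12U3PC6
import Cfsg.Agent.Lib.Helper67U33Data
import Cfsg.Agent.Lib.Helper67U35Data
import Cfsg.Agent.Lib.Helper95U3E4
import Cfsg.Agent.Lib.Helper13U3C6
import Cfsg.Agent.Lib.Helper12U3E1
import Cfsg.Agent.Lib.Helper95U3NotMax

set_option autoImplicit false
open Cfsg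

namespace Cfsg.Agent.S5778

/-- Every maximal subgroup of SU_3(q), q ≥ 3, is of one of the listed geometric types or lies in the residual class. Let F be the field with q² elements, f the standard unitary form Σ u_i v_i^q on F^3, and H a maximal subgroup of SU_3(q) (the determinant-one isometries of f, inside GL_3(F)). Then H is the intersection with SU_3(q) of one of: the stabiliser of a non-zero subspace on which f vanishes; the stabiliser of a non-degenerate 1-space; for q ≠ 5, the stabiliser of a decomposition into three mutually orthogonal non-degenerate 1-spaces; for q ≠ 3, 5, the normaliser of an adjoint-closed degree-3 subfield of the matrix algebra; a subfield group of odd prime index whose F₀-structure carries f; for q odd, q ≥ 7, a subfield group of index 2 whose F₀-structure carries f; for q = p ≡ 2 mod 3 prime with p ≥ 11, the normaliser of an absolutely irreducible subgroup of order 27 with centre of order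 3, exponent 3 and all characteristic abelian subgroups cyclic, contained in the similarity group of f — or else H lies in the residual class of the unitary case. -/
theorem result {F : Type*} [Field F] [Fintype F] (q : ℕ) (hF : Fintype.card F = q ^ 2) (hq : 3 ≤ q) (H : Subgroup (Matrix.GeneralLinearGroup (Fin 3) F)) (hH : Cfsg.Geo.IsMaximalIn (Cfsg.GU 3 F q ⊓ Cfsg.Geo.specialLinear (Fin 3) F) H) :
    (∃ W : Submodule F (Fin 3 → F), W ≠ ⊥ ∧ Cfsg.Geo.IsTotallySingularFor (Cfsg.hermForm 3 F q) W ∧ H = Cfsg.Geo.subspaceStabilizer W ⊓ (Cfsg.GU 3 F q ⊓ Cfsg.Geo.specialLinear (Fin 3) F)) ∨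
    (∃ W : Submodule F (Fin 3 → F), W ≠ ⊥ ∧ Cfsg.Geo.IsNondegenerateOn (Cfsg.hermForm 3 F q) W ∧ 2 * Module.finrank F W < 3 ∧ H = Cfsg.Geo.subspaceStabilizer W ⊓ (Cfsg.GU 3 F q ⊓ Cfsg.Geo.specialLinear (Fin 3) F)) ∨
    (q ≠ 5 ∧ ∃ D : Fin 3 → Submodule F (Fin 3 → F), Cfsg.Geo.IsNondegenerateMDecomposition (Cfsg.hermForm 3 F q) 1 D ∧ H = Cfsg.Geo.decompositionStabilizer D ⊓ (Cfsg.GU 3 F q ⊓ Cfsg.Geo.specialLinear (Fin 3) F)) ∨
    (q ≠ 3 ∧ q ≠ 5 ∧ ∃ K : Subalgebra F (Matrix (Fin 3) (Fin 3) F), Cfsg.Geo.IsFieldSubalgebra 3 K ∧ Cfsg.Geo.IsAdjointClosedFor (Cfsg.hermForm 3 F q) K ∧ H = Cfsg.Geo.subalgebraNormalizer K ⊓ (Cfsg.GU 3 F q ⊓ Cfsg.Geo.specialLinear (Fin 3) F)) ∨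
    (∃ (F₀ : Subfield F) (r : ℕ) (P : Matrix.GeneralLinearGroup (Fin 3) F), r.Prime ∧ Odd r ∧ Fintype.card F = Nat.card F₀ ^ r ∧ Cfsg.Geo.IsFormRationalStructure (Cfsg.hermForm 3 F q) F₀ 1 P ∧ H = Cfsg.Geo.subfieldSubgroup F₀ P ⊓ (Cfsg.GU 3 F q ⊓ Cfsg.Geo.specialLinear (Fin 3) F)) ∨
    (Odd q ∧ 7 ≤ q ∧ ∃ (F₀ : Subfield F) (P : Matrix.GeneralLinearGroup (Fin 3) F), Fintype.card F = Nat.card F₀ ^ 2 ∧ Cfsg.Geo.IsFormRationalStructure (Cfsg.hermForm 3 F q) F₀ 1 P ∧ H = Cfsg.Geo.subfieldSubgroup F₀ P ⊓ (Cfsg.GU 3 F q ⊓ Cfsg.Geo.specialLinear (Fin 3) F)) ∨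
    (∃ (p : ℕ) (R : Subgroup (Matrix.GeneralLinearGroup (Fin 3) F)), p.Prime ∧ q = p ∧ p % 3 = 2 ∧ 11 ≤ p ∧ Cfsg.Geo.IsSymplecticTypeGroup 3 R ∧ Cfsg.Geo.ActsAbsolutelyIrreducibly (Cfsg.Geo.matrixSet R) ∧ R ≤ Cfsg.Geo.similarityGroup (Cfsg.hermForm 3 F q) ∧ Nat.card R = 27 ∧ Nat.card (Subgroup.center R) = 3 ∧ H = Cfsg.Geo.subgroupNormalizer R ⊓ (Cfsg.GU 3 F q ⊓ Cfsg.Geo.specialLinear (Fin 3) F)) ∨
    Cfsg.Geo.InUnitaryResidualClass H := by
  have hn : Nat.Prime 3 := by norm_num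
  obtain ⟨σ, hU⟩ := Cfsg.Agent.Lib.Helper57UConv.exists_US (n := 3) hF
  have hf := hU.unitary
  have hHI : H ≤ Cfsg.Agent.Lib.Helper97UBase.Iso (Cfsg.hermForm 3 F q) := hH.1.le.trans inf_le_left
  have hF9 : 9 ≤ Fintype.card F := by rw [hF]; nlinarith
  rcases Cfsg.Agent.Lib.Helper13UMain.umain hU (by norm_num) H hHI with h | h
  swap
  · exact Or.inr (Or.inr (Or.inr (Or.inr (Or.inr (Or.inr (Or.inr h))))))
  rcases h with ⟨W, h0, h1, h⟩ | ⟨W, h0, h1, h2, h⟩ | ⟨t, k, D, hD, h⟩ | ⟨k, D, hk, hD, hs, h⟩ |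
    ⟨r, K, hr, hodd, hK, hs, h⟩ | ⟨n₁, n₂, e, P, h1, h2, hP, h⟩ | ⟨F₀, r, P, hr, hodd, hc, hP, h⟩ |
    ⟨F₀, P, hodd, hc, hP, h⟩ | ⟨F₀, P, ζ, hev, hc, h0, h1, hP, ha, h⟩ |
    ⟨r, R, p, e, k, h1, h2, h3, h3', h4, h5, h6, h7, h⟩ | ⟨k, t, e, P, hk, ht, hP, h⟩
  · exact Or.inl ⟨W, h0, h1, Cfsg.Agent.Lib.Helper57UMax.eq_inf_of_le' hH h
      (Cfsg.Agent.Lib.Helper97UProper.not_le_stab_singular hf h0 h1)⟩
  · refine Or.inr (Or.inl ⟨W, h0, h1, h2, Cfsg.Agent.Lib.Helper57UMax.eq_inf_of_le' hH h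
      (Cfsg.Agent.Lib.Helper97UProper.not_le_stab_nondeg hf h0 ?_ h1)⟩)
    rintro rfl
    rw [finrank_top, Module.finrank_fin_fun] at h2
    omega
  · have hcard := Cfsg.Agent.Lib.Helper67AschD.decomp_card D hD.decomp
    have ht2 := hD.decomp.two_le
    have hk0 := hD.decomp.pos
    have ht5 : t ≤ 3 := by nlinarith
    have hcases : t = 3 ∧ k = 1 := by
      interval_cases t <;> omega
    obtain ⟨rfl, rfl⟩ := hcases
    have hHD := Cfsg.Agent.Lib.Helper57UMax.eq_inf_of_le' hH h (Cfsg.Agent.Lib.Helper12U3PFrame.not_le_decomp3 hf hF9 D hD)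
    by_cases hq5 : q = 5
    · exfalso
      subst hq5
      apply Cfsg.Agent.Lib.Helper12U3E1.frames_five (by rw [hF]; norm_num) D hD
      have hH' := hH
      rw [hHD] at hH'
      exact hH'
    · exact Or.inr (Or.inr (Or.inl ⟨hq5, D, hD, hHD⟩))
  · omega
  · have hdvd := Cfsg.Agent.Lib.Helper67AschD.field_dvd K hK
    have hr5 : r = 3 := (Nat.prime_dvd_prime_iff_eq hr hn).mp hdvd
    subst hr5
    have hHK := Cfsg.Agent.Lib.Helper57UMax.eq_inf_of_le' hH h
      (Cfsg.Agent.Lib.Helper60UPsubalg.notSU_subalg hf (by norm_num) (by norm_num) K hK)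
    by_cases hq3 : q = 3
    · exfalso
      subst hq3
      apply Cfsg.Agent.Lib.Helper67U33Data.field_three (by rw [hF]; norm_num) K hK hs
      have hH' := hH
      rw [hHK] at hH'
      exact hH'
    by_cases hq5 : q = 5
    · exfalso
      subst hq5
      apply Cfsg.Agent.Lib.Helper67U35Data.field_five (by rw [hF]; norm_num) K hK hs
      have hH' := hH
      rw [hHK] at hH'
      exact hH'
    · exact Or.inr (Or.inr (Or.inr (Or.inl ⟨hq3, hq5, K, hK, hs, hHK⟩)))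
  · exfalso
    have hcard := Fintype.card_congr e
    simp only [Fintype.card_fin, Fintype.card_prod] at hcard
    have : n₁ ≤ 3 := by nlinarith
    interval_cases n₁ <;> omega
  · exact Or.inr (Or.inr (Or.inr (Or.inr (Or.inl ⟨F₀, r, P, hr, hodd, hc, hP,
      Cfsg.Agent.Lib.Helper57UMax.eq_inf_of_le' hH h
      (Cfsg.Agent.Lib.Helper12U3PSub.not_le_subfield3 hf hF9
        (Cfsg.Agent.Lib.Helper97AschSubfield.subfield_ne_top_of_card hr hc) P)⟩))))
  · have hHP := Cfsg.Agent.Lib.Helper57UMax.eq_inf_of_le' hH h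
      (Cfsg.Agent.Lib.Helper12U3PSub.not_le_subfield3 hf hF9
        (Cfsg.Agent.Lib.Helper97AschSubfield.subfield_ne_top_of_card Nat.prime_two hc) P)
    by_cases hq3 : q = 3
    · subst hq3
      obtain ⟨D, hD, hle⟩ := Cfsg.Agent.Lib.Helper95U3E4.sub_three (by rw [hF]; norm_num) F₀ P hc hP
      exact Or.inr (Or.inr (Or.inl ⟨by norm_num, D, hD,
        Cfsg.Agent.Lib.Helper57UMax.eq_inf_of_le' hH (hHP.le.trans hle)
          (Cfsg.Agent.Lib.Helper12U3PFrame.not_le_decomp3 hf hF9 D hD)⟩))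
    by_cases hq5 : q = 5
    · exfalso
      subst hq5
      apply Cfsg.Agent.Lib.Helper95U3NotMax.sub_five (by rw [hF]; norm_num) F₀ P hc hP
      have hH' := hH
      rw [hHP] at hH'
      exact hH'
    · have h7 : 7 ≤ q := by
        obtain ⟨m, hm⟩ := hodd
        omega
      exact Or.inr (Or.inr (Or.inr (Or.inr (Or.inr (Or.inl ⟨hodd, h7, F₀, P, hc, hP, hHP⟩)))))
  · exact absurd hev (by decide)
  · have hrp := h1.prime
    have hk0 : k ≠ 0 := by
      rintro rfl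
      simp at h7
    have hr5 : r = 3 := by
      have hdvd : r ∣ 3 := by
        rw [h7]
        exact dvd_pow_self r hk0
      exact (Nat.prime_dvd_prime_iff_eq hrp hn).mp hdvd
    subst hr5
    have hk1 : k = 1 := by
      have h9 : (3 : ℕ) ^ 1 = 3 ^ k := by rw [← h7, pow_one]
      exact (Nat.pow_right_injective (by norm_num : 2 ≤ 3) h9).symm
    subst hk1
    rcases h6 with ⟨_, hc, _, hR⟩ | ⟨h52, _⟩
    swap
    · omega
    rw [hc] at h5
    have hR27 : Nat.card R = 27 := by rw [hR]; norm_num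
    obtain ⟨hp, hqp, hp3⟩ := Cfsg.Agent.Lib.Helper57UMax.c6U_three hF h4 h5
    have : CharP F p := h5.2.1
    have hp5 : 5 ≤ p := by
      have := hp.two_le
      by_contra hcon
      interval_cases p <;> omega
    have hHR := Cfsg.Agent.Lib.Helper57UMax.eq_inf_of_le' hH h
        (Cfsg.Agent.Lib.Helper12U3PC6.notSU_c6_three hf hp5 h2 hR27 hc)
    by_cases hq5 : q = 5
    · exfalso
      subst hq5
      apply Cfsg.Agent.Lib.Helper13U3C6.c6_five (by rw [hF]; norm_num) R h1 h3 h3' hR27 hc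
      have hH' := hH
      rw [hHR] at hH'
      exact hH'
    have hp11 : 11 ≤ p := by
      by_contra hcon
      interval_cases p <;> first | omega | (exact absurd hp (by norm_num))
    exact Or.inr (Or.inr (Or.inr (Or.inr (Or.inr (Or.inr (Or.inl ⟨p, R, hp, hqp, hp3, hp11, h1, h2,
      h3.trans Cfsg.Agent.Lib.Helper57UConv.Iso_le_similarityGroup, hR27, hc, hHR⟩))))))
  · exfalso
    have hcard := Fintype.card_congr e
    simp only [Fintype.card_fin, Fintype.card_fun] at hcard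
    have : 3 ^ 2 ≤ k ^ t := (Nat.pow_le_pow_left hk 2).trans (Nat.pow_le_pow_right (by omega) ht)
    omega

end Cfsg.Agent.S5778
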