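import Cfsg.Statements.S5784
import Cfsg.Agent.Lib.Helper57UMax
import Cfsg.Agent.Lib.Helper74UPlanes2
import Cfsg.Agent.Lib.Helper76U4PA
import Cfsg.Agent.Lib.Helper12U4Pair
import Cfsg.Agent.Lib.Helper12U4Sub
import Cfsg.Agent.Lib.Helper12U4C6

set_option autoImplicit false
open Cfsg Cfsg.Agent.Lib.Helper57UMax

namespace Cfsg.Agent.S5784

/-- Every maximal subgroup of SU_4(q) is of one of the listed geometric types or lies in the residual class. Let F be the field with q² elements, f the standard unitary form Σ u_i v_i^q on F^4, and H a maximal subgroup of SU_4(q) (inside GL_4(F)). Then H is the intersection with SU_4(q) of one of: the stabiliser of a non-zero subspace on which f vanishes; the stabiliser of a non-degenerate 1-space; for q ≠ 3, the stabiliser of a decomposition into four mutually orthogonal non-degenerate 1-spaces; for q ≥ 3, of a decomposition into two orthogonal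 non-degenerate 2-spaces; for q ≥ 4, of a decomposition into two totally isotropic 2-spaces; a subfield group of odd prime index whose F₀-structure carries f; a subfield group of index 2 whose F₀-structure carries ζ f, vanishing on pairs (u, u), for some non-zero ζ with ζ + ζ^q = 0; for q odd, a subfield group of index 2 whose F₀-structure carries f; for q = p ≡ 3 mod 4 prime, the normaliser of an absolutely irreducible symplectic-type 2-group of exponent 4, order 64 and centre of order 4 inside the similarity group of f — or else H lies in the residual class of the unitary case. -/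
theorem result {F : Type*} [Field F] [Fintype F] (q : ℕ) (hF : Fintype.card F = q ^ 2) (H : Subgroup (Matrix.GeneralLinearGroup (Fin 4) F)) (hH : Cfsg.Geo.IsMaximalIn (Cfsg.GU 4 F q ⊓ Cfsg.Geo.specialLinear (Fin 4) F) H) :
    (∃ W : Submodule F (Fin 4 → F), W ≠ ⊥ ∧ Cfsg.Geo.IsTotallySingularFor (Cfsg.hermForm 4 F q) W ∧ H = Cfsg.Geo.subspaceStabilizer W ⊓ (Cfsg.GU 4 F q ⊓ Cfsg.Geo.specialLinear (Fin 4) F)) ∨
    (∃ W : Submodule F (Fin 4 → F), W ≠ ⊥ ∧ Cfsg.Geo.IsNondegenerateOn (Cfsg.hermForm 4 F q) W ∧ 2 * Module.finrank F W < 4 ∧ H = Cfsg.Geo.subspaceStabilizer W ⊓ (Cfsg.GU 4 F q ⊓ Cfsg.Geo.specialLinear (Fin 4) F)) ∨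
    (q ≠ 3 ∧ ∃ D : Fin 4 → Submodule F (Fin 4 → F), Cfsg.Geo.IsNondegenerateMDecomposition (Cfsg.hermForm 4 F q) 1 D ∧ H = Cfsg.Geo.decompositionStabilizer D ⊓ (Cfsg.GU 4 F q ⊓ Cfsg.Geo.specialLinear (Fin 4) F)) ∨
    (3 ≤ q ∧ ∃ D : Fin 2 → Submodule F (Fin 4 → F), Cfsg.Geo.IsNondegenerateMDecomposition (Cfsg.hermForm 4 F q) 2 D ∧ H = Cfsg.Geo.decompositionStabilizer D ⊓ (Cfsg.GU 4 F q ⊓ Cfsg.Geo.specialLinear (Fin 4) F)) ∨
    (4 ≤ q ∧ ∃ D : Fin 2 → Submodule F (Fin 4 → F), Cfsg.Geo.IsMDecomposition 2 D ∧ (∀ i, Cfsg.Geo.IsTotallySingularFor (Cfsg.hermForm 4 F q) (D i)) ∧ H = Cfsg.Geo.decompositionStabilizer D ⊓ (Cfsg.GU 4 F q ⊓ Cfsg.Geo.specialLinear (Fin 4) F)) ∨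
    (∃ (F₀ : Subfield F) (r : ℕ) (P : Matrix.GeneralLinearGroup (Fin 4) F), r.Prime ∧ Odd r ∧ Fintype.card F = Nat.card F₀ ^ r ∧ Cfsg.Geo.IsFormRationalStructure (Cfsg.hermForm 4 F q) F₀ 1 P ∧ H = Cfsg.Geo.subfieldSubgroup F₀ P ⊓ (Cfsg.GU 4 F q ⊓ Cfsg.Geo.specialLinear (Fin 4) F)) ∨
    (∃ (F₀ : Subfield F) (P : Matrix.GeneralLinearGroup (Fin 4) F) (ζ : F), Fintype.card F = Nat.card F₀ ^ 2 ∧ ζ ≠ 0 ∧ ζ + ζ ^ q = 0 ∧ Cfsg.Geo.IsFormRationalStructure (Cfsg.hermForm 4 F q) F₀ ζ P ∧ (∀ u : Fin 4 → F, (∀ i, u i ∈ F₀) → (Cfsg.hermForm 4 F q) (Matrix.mulVec (P : Matrix (Fin 4) (Fin 4) F) u) (Matrix.mulVec (P : Matrix (Fin 4) (Fin 4) F) u) = 0) ∧ H = Cfsg.Geo.subfieldSubgroup F₀ P ⊓ (Cfsg.GU 4 F q ⊓ Cfsg.Geo.specialLinear (Fin 4) F)) ∨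
    (Odd q ∧ ∃ (F₀ : Subfield F) (P : Matrix.GeneralLinearGroup (Fin 4) F), Fintype.card F = Nat.card F₀ ^ 2 ∧ Cfsg.Geo.IsFormRationalStructure (Cfsg.hermForm 4 F q) F₀ 1 P ∧ H = Cfsg.Geo.subfieldSubgroup F₀ P ⊓ (Cfsg.GU 4 F q ⊓ Cfsg.Geo.specialLinear (Fin 4) F)) ∨
    (∃ (p : ℕ) (R : Subgroup (Matrix.GeneralLinearGroup (Fin 4) F)), p.Prime ∧ q = p ∧ p % 4 = 3 ∧ Cfsg.Geo.IsSymplecticTypeGroup 2 R ∧ Cfsg.Geo.ActsAbsolutelyIrreducibly (Cfsg.Geo.matrixSet R) ∧ R ≤ Cfsg.Geo.similarityGroup (Cfsg.hermForm 4 F q) ∧ Nat.card R = 64 ∧ Nat.card (Subgroup.center R) = 4 ∧ H = Cfsg.Geo.subgroupNormalizer R ⊓ (Cfsg.GU 4 F q ⊓ Cfsg.Geo.specialLinear (Fin 4) F)) ∨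
    Cfsg.Geo.InUnitaryResidualClass H := by
  obtain ⟨σ, hU⟩ := Cfsg.Agent.Lib.Helper57UConv.exists_US (n := 4) hF
  have hf := hU.unitary
  have hq2 := Cfsg.Agent.Lib.Helper57UMax.two_le_q hF
  have hHI : H ≤ Cfsg.Agent.Lib.Helper97UBase.Iso (Cfsg.hermForm 4 F q) := hH.1.le.trans inf_le_left
  have hON : Cfsg.Agent.Lib.Helper13UDefs.IsON σ (Cfsg.hermForm 4 F q) 1 := by
    intro x y
    simp only [Units.val_one, Matrix.one_mulVec, Cfsg.hermForm, hU.pow]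
  have hsub : ∀ {F₀ : Subfield F} {r : ℕ} (_ : r.Prime) (_ : Fintype.card F = Nat.card F₀ ^ r)
      (P : Matrix.GeneralLinearGroup (Fin 4) F),
      ¬ Cfsg.Agent.Lib.Helper97UBase.Iso (Cfsg.hermForm 4 F q) ⊓ Cfsg.Geo.specialLinear (Fin 4) F ≤
        Cfsg.Geo.subfieldSubgroup F₀ P := fun hr hc P =>
    Cfsg.Agent.Lib.Helper12U4Sub.not_le_subfieldSubgroup4 hf hON
      (Cfsg.Agent.Lib.Helper97AschSubfield.subfield_ne_top_of_card hr hc) P
  -- totally singular subspaces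
  have c1 : ∀ W : Submodule F (Fin 4 → F), W ≠ ⊥ → Cfsg.Geo.IsTotallySingularFor (Cfsg.hermForm 4 F q) W →
      H ≤ Cfsg.Geo.subspaceStabilizer W → H = Cfsg.Geo.subspaceStabilizer W ⊓
        (Cfsg.GU 4 F q ⊓ Cfsg.Geo.specialLinear (Fin 4) F) := fun W h0 h1 h =>
    eq_inf_of_le' hH h (Cfsg.Agent.Lib.Helper97UProper.not_le_stab_singular hf h0 h1)
  have c2 : ∀ W : Submodule F (Fin 4 → F), W ≠ ⊥ → Cfsg.Geo.IsNondegenerateOn (Cfsg.hermForm 4 F q) W →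
      2 * Module.finrank F W < 4 →
      H ≤ Cfsg.Geo.subspaceStabilizer W → H = Cfsg.Geo.subspaceStabilizer W ⊓
        (Cfsg.GU 4 F q ⊓ Cfsg.Geo.specialLinear (Fin 4) F) := by
    intro W h0 h1 h2 h
    refine eq_inf_of_le' hH h (Cfsg.Agent.Lib.Helper97UProper.not_le_stab_nondeg hf h0 ?_ h1)
    rintro rfl
    rw [finrank_top, Module.finrank_fin_fun] at h2
    omega
  -- class six
  have c6 : ∀ (p : ℕ) (R : Subgroup (Matrix.GeneralLinearGroup (Fin 4) F)), p.Prime → q = p → p % 4 = 3 →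
      Cfsg.Geo.IsSymplecticTypeGroup 2 R → Cfsg.Geo.ActsAbsolutelyIrreducibly (Cfsg.Geo.matrixSet R) →
      R ≤ Cfsg.Agent.Lib.Helper97UBase.Iso (Cfsg.hermForm 4 F q) →
      ⁅R, R⁆ ≤ Cfsg.Geo.scalars (Fin 4) F → Nat.card R = 64 → Nat.card (Subgroup.center R) = 4 →
      H ≤ Cfsg.Geo.subgroupNormalizer R →
      (∃ (p : ℕ) (R : Subgroup (Matrix.GeneralLinearGroup (Fin 4) F)), p.Prime ∧ q = p ∧ p % 4 = 3 ∧ Cfsg.Geo.IsSymplecticTypeGroup 2 R ∧ Cfsg.Geo.ActsAbsolutelyIrreducibly (Cfsg.Geo.matrixSet R) ∧ R ≤ Cfsg.Geo.similarityGroup (Cfsg.hermForm 4 F q) ∧ Nat.card R = 64 ∧ Nat.card (Subgroup.center R) = 4 ∧ H = Cfsg.Geo.subgroupNormalizer R ⊓ (Cfsg.GU 4 F q ⊓ Cfsg.Geo.specialLinear (Fin 4) F)) := by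
    intro p R hp hqp hp4 h1 h2 h3 h3' hc hz h
    exact ⟨p, R, hp, hqp, hp4, h1, h2, h3.trans Cfsg.Agent.Lib.Helper57UConv.Iso_le_similarityGroup, hc, hz,
      eq_inf_of_le' hH h (Cfsg.Agent.Lib.Helper12U4C6.notSU_c6_four hf rfl h2 h3')⟩
  -- decompositions into four lines
  have d1 : ∀ D : Fin 4 → Submodule F (Fin 4 → F),
      Cfsg.Geo.IsNondegenerateMDecomposition (Cfsg.hermForm 4 F q) 1 D →
      H ≤ Cfsg.Geo.decompositionStabilizer D →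
      (q ≠ 3 ∧ ∃ D : Fin 4 → Submodule F (Fin 4 → F), Cfsg.Geo.IsNondegenerateMDecomposition (Cfsg.hermForm 4 F q) 1 D ∧ H = Cfsg.Geo.decompositionStabilizer D ⊓ (Cfsg.GU 4 F q ⊓ Cfsg.Geo.specialLinear (Fin 4) F)) ∨
      (∃ (p : ℕ) (R : Subgroup (Matrix.GeneralLinearGroup (Fin 4) F)), p.Prime ∧ q = p ∧ p % 4 = 3 ∧ Cfsg.Geo.IsSymplecticTypeGroup 2 R ∧ Cfsg.Geo.ActsAbsolutelyIrreducibly (Cfsg.Geo.matrixSet R) ∧ R ≤ Cfsg.Geo.similarityGroup (Cfsg.hermForm 4 F q) ∧ Nat.card R = 64 ∧ Nat.card (Subgroup.center R) = 4 ∧ H = Cfsg.Geo.subgroupNormalizer R ⊓ (Cfsg.GU 4 F q ⊓ Cfsg.Geo.specialLinear (Fin 4) F)) := by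
    intro D hD h
    by_cases hq3 : q = 3
    · right
      subst hq3
      obtain ⟨R, h1, h2, h3, h3', hc, hz, hle⟩ := Cfsg.Agent.Lib.Helper76U4PA.lines_three_u hU D hD
      exact c6 3 R (by norm_num) rfl (by norm_num) h1 h2 h3 h3' hc hz ((le_inf h hH.1.le).trans hle)
    · left
      exact ⟨hq3, D, hD, eq_inf_of_le' hH h (Cfsg.Agent.Lib.Helper97UProper.not_le_decomp hf le_rfl D hD)⟩
  -- all non-degenerate decompositions
  have d2 : ∀ {t k : ℕ} (D : Fin t → Submodule F (Fin 4 → F)),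
      Cfsg.Geo.IsNondegenerateMDecomposition (Cfsg.hermForm 4 F q) k D →
      H ≤ Cfsg.Geo.decompositionStabilizer D →
      (q ≠ 3 ∧ ∃ D : Fin 4 → Submodule F (Fin 4 → F), Cfsg.Geo.IsNondegenerateMDecomposition (Cfsg.hermForm 4 F q) 1 D ∧ H = Cfsg.Geo.decompositionStabilizer D ⊓ (Cfsg.GU 4 F q ⊓ Cfsg.Geo.specialLinear (Fin 4) F)) ∨
      (3 ≤ q ∧ ∃ D : Fin 2 → Submodule F (Fin 4 → F), Cfsg.Geo.IsNondegenerateMDecomposition (Cfsg.hermForm 4 F q) 2 D ∧ H = Cfsg.Geo.decompositionStabilizer D ⊓ (Cfsg.GU 4 F q ⊓ Cfsg.Geo.specialLinear (Fin 4) F)) ∨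
      (∃ (p : ℕ) (R : Subgroup (Matrix.GeneralLinearGroup (Fin 4) F)), p.Prime ∧ q = p ∧ p % 4 = 3 ∧ Cfsg.Geo.IsSymplecticTypeGroup 2 R ∧ Cfsg.Geo.ActsAbsolutelyIrreducibly (Cfsg.Geo.matrixSet R) ∧ R ≤ Cfsg.Geo.similarityGroup (Cfsg.hermForm 4 F q) ∧ Nat.card R = 64 ∧ Nat.card (Subgroup.center R) = 4 ∧ H = Cfsg.Geo.subgroupNormalizer R ⊓ (Cfsg.GU 4 F q ⊓ Cfsg.Geo.specialLinear (Fin 4) F)) := by
    intro t k D hD h
    have hcard := Cfsg.Agent.Lib.Helper67AschD.decomp_card D hD.decomp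
    have ht2 := hD.decomp.two_le
    have hk0 := hD.decomp.pos
    have ht4 : t ≤ 4 := by nlinarith
    have hcases : (t = 4 ∧ k = 1) ∨ (t = 2 ∧ k = 2) := by
      interval_cases t <;> omega
    rcases hcases with ⟨rfl, rfl⟩ | ⟨rfl, rfl⟩
    · rcases d1 D hD h with h' | h'
      · exact Or.inl h'
      · exact Or.inr (Or.inr h')
    · by_cases hq3 : 3 ≤ q
      · exact Or.inr (Or.inl ⟨hq3, D, hD, eq_inf_of_le' hH h
          (Cfsg.Agent.Lib.Helper60UPdecomp.notSU_decomp hf le_rfl D hD.decomp)⟩)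
      · obtain rfl : q = 2 := by omega
        obtain ⟨D', hD', hle'⟩ := Cfsg.Agent.Lib.Helper74UPlanes2.planes_two_u hU D hD
        rcases d1 D' hD' ((le_inf h hHI).trans hle') with h' | h'
        · exact Or.inl h'
        · exact Or.inr (Or.inr h')
  rcases Cfsg.Agent.Lib.Helper13UMain.umain hU (by norm_num) H hHI with h | h
  swap
  · exact Or.inr (Or.inr (Or.inr (Or.inr (Or.inr (Or.inr (Or.inr (Or.inr (Or.inr h))))))))
  rcases h with ⟨W, h0, h1, h⟩ | ⟨W, h0, h1, h2, h⟩ | ⟨t, k, D, hD, h⟩ | ⟨k, D, hk, hD, hs, h⟩ |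
    ⟨r, K, hr, hodd, hK, hs, h⟩ | ⟨n₁, n₂, e, P, h1, h2, hP, h⟩ | ⟨F₀, r, P, hr, hodd, hc, hP, h⟩ |
    ⟨F₀, P, hodd, hc, hP, h⟩ | ⟨F₀, P, ζ, hev, hc, h0, h1, hP, ha, h⟩ |
    ⟨r, R, p, e, k, h1, h2, h3, h3', h4, h5, h6, h7, h⟩ | ⟨k, t, e, P, hk, ht, hP, h⟩
  · exact Or.inl ⟨W, h0, h1, c1 W h0 h1 h⟩
  · exact Or.inr (Or.inl ⟨W, h0, h1, h2, c2 W h0 h1 h2 h⟩)
  · rcases d2 D hD h with h' | h' | h'
    · exact Or.inr (Or.inr (Or.inl h'))
    · exact Or.inr (Or.inr (Or.inr (Or.inl h')))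
    · exact Or.inr (Or.inr (Or.inr (Or.inr (Or.inr (Or.inr (Or.inr (Or.inr (Or.inl h'))))))))
  · obtain rfl : k = 2 := by omega
    by_cases hq4 : 4 ≤ q
    · exact Or.inr (Or.inr (Or.inr (Or.inr (Or.inl ⟨hq4, D, hD, hs, eq_inf_of_le' hH h
        (Cfsg.Agent.Lib.Helper60UPdecomp.notSU_decomp hf le_rfl D hD)⟩))))
    · by_cases hirr : Cfsg.Geo.ActsIrreducibly (Cfsg.Geo.matrixSet H)
      · rcases Cfsg.Agent.Lib.Helper12U4Pair.pair_small hU (by omega) D hD hs (le_inf h hH.1.le) hirr with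
          ⟨hodd, F₀, P, hc, hP, hle⟩ | ⟨F₀, P, ζ, hev, hc, h0, h1, hP, ha, hle⟩
        · exact Or.inr (Or.inr (Or.inr (Or.inr (Or.inr (Or.inr (Or.inr (Or.inl
            ⟨hodd, F₀, P, hc, hP, eq_inf_of_le' hH hle (hsub Nat.prime_two hc P)⟩)))))))
        · exact Or.inr (Or.inr (Or.inr (Or.inr (Or.inr (Or.inr (Or.inl
            ⟨F₀, P, ζ, hc, h0, h1, hP, ha, eq_inf_of_le' hH hle (hsub Nat.prime_two hc P)⟩))))))
      · rw [Cfsg.Agent.Lib.Helper97AschBase.actsIrreducibly_iff] at hirr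
        push Not at hirr
        obtain ⟨W, hW, h0, h1⟩ := hirr
        rcases Cfsg.Agent.Lib.Helper60URed.ured hf hHI hW h0 h1 with ⟨U, hU0, hUs, hle⟩ |
          ⟨U, hU0, hUn, hlt, hle⟩ | ⟨k, D', hD', hle⟩
        · exact Or.inl ⟨U, hU0, hUs, c1 U hU0 hUs hle⟩
        · exact Or.inr (Or.inl ⟨U, hU0, hUn, hlt, c2 U hU0 hUn hlt hle⟩)
        · rcases d2 D' hD' hle with h' | h' | h'
          · exact Or.inr (Or.inr (Or.inl h'))
          · exact Or.inr (Or.inr (Or.inr (Or.inl h')))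
          · exact Or.inr (Or.inr (Or.inr (Or.inr (Or.inr (Or.inr (Or.inr (Or.inr (Or.inl h'))))))))
  · exfalso
    have hdvd := Cfsg.Agent.Lib.Helper67AschD.field_dvd K hK
    have h9 : (4 : ℕ) = 2 ^ 2 := by norm_num
    rw [h9] at hdvd
    have := (Nat.prime_dvd_prime_iff_eq hr Nat.prime_two).mp (hr.dvd_of_dvd_pow hdvd)
    subst this
    exact absurd hodd (by decide)
  · exfalso
    have hcard := Fintype.card_congr e
    simp only [Fintype.card_fin, Fintype.card_prod] at hcard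
    nlinarith
  · exact Or.inr (Or.inr (Or.inr (Or.inr (Or.inr (Or.inl ⟨F₀, r, P, hr, hodd, hc, hP,
      eq_inf_of_le' hH h (hsub hr hc P)⟩)))))
  · exact Or.inr (Or.inr (Or.inr (Or.inr (Or.inr (Or.inr (Or.inr (Or.inl
      ⟨hodd, F₀, P, hc, hP, eq_inf_of_le' hH h (hsub Nat.prime_two hc P)⟩)))))))
  · exact Or.inr (Or.inr (Or.inr (Or.inr (Or.inr (Or.inr (Or.inl
      ⟨F₀, P, ζ, hc, h0, h1, hP, ha, eq_inf_of_le' hH h (hsub Nat.prime_two hc P)⟩))))))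
  · have hrp := h1.prime
    have hk0 : k ≠ 0 := by
      rintro rfl
      simp at h7
    have hr2 : r = 2 := by
      have hdvd : r ∣ 2 ^ 2 := by
        have h9 : (2 : ℕ) ^ 2 = 4 := by norm_num
        rw [h9, h7]
        exact dvd_pow_self r hk0
      exact (Nat.prime_dvd_prime_iff_eq hrp Nat.prime_two).mp (hrp.dvd_of_dvd_pow hdvd)
    subst hr2
    have hk2 : k = 2 := by
      have h9 : (2 : ℕ) ^ 2 = 2 ^ k := by rw [← h7]; norm_num
      exact (Nat.pow_right_injective (le_refl 2) h9).symm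
    subst hk2
    rcases h6 with ⟨hodd, _⟩ | ⟨_, he, hc, hR⟩
    · exact absurd hodd (by decide)
    · subst he
      rw [hc] at h5
      obtain ⟨hp1, hp2, hp3⟩ := c6U_two hF h5
      exact Or.inr (Or.inr (Or.inr (Or.inr (Or.inr (Or.inr (Or.inr (Or.inr (Or.inl
        (c6 p R hp1 hp2 hp3 h1 h2 h3 h3' (by rw [hR]; norm_num) hc h)))))))))
  · exfalso
    have hcard := Fintype.card_congr e
    simp only [Fintype.card_fin, Fintype.card_fun] at hcard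
    have : 3 ^ 2 ≤ k ^ t := (Nat.pow_le_pow_left hk 2).trans (Nat.pow_le_pow_right (by omega) ht)
    omega

end Cfsg.Agent.S5784
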