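import Cfsg.Statements.S5787
import Cfsg.Agent.Lib.Helper97SpFinal
import Cfsg.Agent.Lib.Helper40SpDPair3
import Cfsg.Agent.Lib.Helper40SpDC6
import Cfsg.Agent.Lib.Helper96Sp4Group

set_option autoImplicit false
open Cfsg

namespace Cfsg.Agent.S5787

/-- Every maximal subgroup of Sp_4(q), q odd, is of one of the listed geometric types or lies in the residual class. Let F be a finite field of odd order q, f the standard alternating form on F^4 (coordinates Fin 2 ⊕ Fin 2), and H a maximal subgroup of the isometry group Sp_4(F) (inside GL_4(F)). Then H is the intersection with Sp_4(F) of one of: the stabiliser of a non-zero totally isotropic subspace; the stabiliser of a decomposition into two orthogonal non-degenerate 2-spaces; for q ≥ 5, of a decomposition into two totally isotropic 2-spaces; the normaliser of a degree-2 subfield K of the matrix algebra, self-adjoint with f(k v, v) = 0; for q ≥ 5, the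 normaliser of a degree-2 subfield closed under adjoints but not self-adjoint; a subfield group whose F₀-structure carries a non-zero multiple of f, |F| = |F₀|^r with r prime; for q = p prime, the normaliser of an absolutely irreducible symplectic-type 2-group of exponent 4, order 32, centre of order 2 and minus type inside the similarity group of f — or else H lies in the residual class of the symplectic case. -/
theorem result {F : Type*} [Field F] [Fintype F] (hodd : Odd (Fintype.card F)) (H : Subgroup (Matrix.GeneralLinearGroup (Fin 2 ⊕ Fin 2) F)) (hH : Cfsg.Geo.IsMaximalIn (Cfsg.spGL 2 F) H) :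
    (∃ W : Submodule F (Fin 2 ⊕ Fin 2 → F), W ≠ ⊥ ∧ Cfsg.Geo.IsTotallySingularFor (Cfsg.sympForm 2 F) W ∧ H = Cfsg.Geo.subspaceStabilizer W ⊓ Cfsg.spGL 2 F) ∨
    (∃ D : Fin 2 → Submodule F (Fin 2 ⊕ Fin 2 → F), Cfsg.Geo.IsNondegenerateMDecomposition (Cfsg.sympForm 2 F) 2 D ∧ H = Cfsg.Geo.decompositionStabilizer D ⊓ Cfsg.spGL 2 F) ∨
    (5 ≤ Fintype.card F ∧ ∃ D : Fin 2 → Submodule F (Fin 2 ⊕ Fin 2 → F), Cfsg.Geo.IsMDecomposition 2 D ∧ (∀ i, Cfsg.Geo.IsTotallySingularFor (Cfsg.sympForm 2 F) (D i)) ∧ H = Cfsg.Geo.decompositionStabilizer D ⊓ Cfsg.spGL 2 F) ∨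
    (∃ K : Subalgebra F (Matrix (Fin 2 ⊕ Fin 2) (Fin 2 ⊕ Fin 2) F), Cfsg.Geo.IsFieldSubalgebra 2 K ∧ Cfsg.Geo.IsSelfAdjointFor (Cfsg.sympForm 2 F) K ∧ (∀ k ∈ K, ∀ v : (Fin 2 ⊕ Fin 2 → F), (Cfsg.sympForm 2 F) (Matrix.mulVec k v) v = 0) ∧ H = Cfsg.Geo.subalgebraNormalizer K ⊓ Cfsg.spGL 2 F) ∨
    (5 ≤ Fintype.card F ∧ ∃ K : Subalgebra F (Matrix (Fin 2 ⊕ Fin 2) (Fin 2 ⊕ Fin 2) F), Cfsg.Geo.IsFieldSubalgebra 2 K ∧ Cfsg.Geo.IsAdjointClosedFor (Cfsg.sympForm 2 F) K ∧ ¬ Cfsg.Geo.IsSelfAdjointFor (Cfsg.sympForm 2 F) K ∧ H = Cfsg.Geo.subalgebraNormalizer K ⊓ Cfsg.spGL 2 F) ∨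
    (∃ (F₀ : Subfield F) (r : ℕ) (P : Matrix.GeneralLinearGroup (Fin 2 ⊕ Fin 2) F) (ζ : F), r.Prime ∧ Fintype.card F = Nat.card F₀ ^ r ∧ ζ ≠ 0 ∧ Cfsg.Geo.IsFormRationalStructure (Cfsg.sympForm 2 F) F₀ ζ P ∧ H = Cfsg.Geo.subfieldSubgroup F₀ P ⊓ Cfsg.spGL 2 F) ∨
    (∃ (p : ℕ) (R : Subgroup (Matrix.GeneralLinearGroup (Fin 2 ⊕ Fin 2) F)), p.Prime ∧ Fintype.card F = p ∧ Cfsg.Geo.IsSymplecticTypeGroup 2 R ∧ Cfsg.Geo.ActsAbsolutelyIrreducibly (Cfsg.Geo.matrixSet R) ∧ R ≤ Cfsg.Geo.similarityGroup (Cfsg.sympForm 2 F) ∧ Nat.card R = 32 ∧ Nat.card (Subgroup.center R) = 2 ∧ Cfsg.Geo.IsOfMinusType 2 R ∧ H = Cfsg.Geo.subgroupNormalizer R ⊓ Cfsg.spGL 2 F) ∨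
    Cfsg.Geo.InSymplecticResidualClass H := by
  have hf := Cfsg.Agent.Lib.Helper95SpStd.sympForm_isSymplectic (F := F) 2
  have hG := Cfsg.Agent.Lib.Helper97SpWrap.stv_mem_spGL (F := F) 2
  have hcard : Fintype.card (Fin 2 ⊕ Fin 2) = 4 := by
    rw [Fintype.card_sum, Fintype.card_fin]
  have hfix := Cfsg.Agent.Lib.Helper97SpWrap.fixes_of_le 2 hH.1.le
  have h2 : (2 : F) ≠ 0 := by
    intro h
    have h1 : ringChar F = 2 := by
      have h3 : ((2 : ℕ) : F) = 0 := by exact_mod_cast h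
      have h4 := ringChar.dvd h3
      rcases (Nat.dvd_prime Nat.prime_two).mp h4 with h5 | h5
      · exact absurd h5 (CharP.ringChar_ne_one)
      · exact h5
    have h6 := FiniteField.even_card_iff_char_two.mp h1
    rw [Nat.odd_iff] at hodd
    omega
  have hDec : Cfsg.Agent.Lib.Helper96SpDefs.AltDec (Cfsg.sympForm 2 F) H →
      ∃ D : Fin 2 → Submodule F (Fin 2 ⊕ Fin 2 → F),
        Cfsg.Geo.IsNondegenerateMDecomposition (Cfsg.sympForm 2 F) 2 D ∧
        H = Cfsg.Geo.decompositionStabilizer D ⊓ Cfsg.spGL 2 F := by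
    rintro ⟨t, k, D, hD, hle⟩
    have htk := Cfsg.Agent.Lib.Helper97SpArith.card_of_decomp hD.decomp
    rw [hcard] at htk
    have ht2 := hD.decomp.two_le
    have hm0 := hD.decomp.pos
    obtain ⟨j, hj⟩ : Even k := by
      have := Cfsg.Agent.Lib.Helper97SpArith.even_finrank_of_nondegOn hf
        (hD.nondegenerate ⟨0, by omega⟩)
      rwa [hD.decomp.finrank_eq] at this
    subst hj
    have ht : t ≤ 4 := Nat.le_of_dvd (by norm_num) ⟨j + j, htk.symm⟩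
    interval_cases t <;> try omega
    obtain rfl : j = 1 := by omega
    exact ⟨D, hD, Cfsg.Agent.Lib.Helper97OMain.eq_inf_of_le'' hH hle
      (Cfsg.Agent.Lib.Helper97SpProper.not_le_dec hf hG hD)⟩
  have hC6 : Cfsg.Agent.Lib.Helper96SpDefs.AltC6 (Cfsg.sympForm 2 F) H →
      ∃ (p : ℕ) (R : Subgroup (Matrix.GeneralLinearGroup (Fin 2 ⊕ Fin 2) F)), p.Prime ∧
        Fintype.card F = p ∧ Cfsg.Geo.IsSymplecticTypeGroup 2 R ∧
        Cfsg.Geo.ActsAbsolutelyIrreducibly (Cfsg.Geo.matrixSet R) ∧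
        R ≤ Cfsg.Geo.similarityGroup (Cfsg.sympForm 2 F) ∧ Nat.card R = 32 ∧
        Nat.card (Subgroup.center R) = 2 ∧ Cfsg.Geo.IsOfMinusType 2 R ∧
        H = Cfsg.Geo.subgroupNormalizer R ⊓ Cfsg.spGL 2 F := by
    rintro ⟨R, p, k, hst, habs, hsim, hp, -, hc, hcR, hcen, hminus, hk, hle, hfixR, hcomm⟩
    rw [hcard] at hk
    obtain rfl : k = 2 := Nat.pow_right_injective (le_refl 2) (by simpa using hk.symm)
    exact ⟨p, R, hp, hc, hst, habs, hsim, by simpa using hcR, hcen, hminus,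
      Cfsg.Agent.Lib.Helper96SpTv.eq_inf_of_tv hH hle
        (Cfsg.Agent.Lib.Helper40SpDC6.notSp_c6 hf h2 (by rw [hcard]) habs hfixR hcomm)⟩
  rcases Cfsg.Agent.Lib.Helper97SpWrap.sp_wrap 2 (by norm_num) H hH
    (Cfsg.Agent.Lib.Helper97SpFinal.sp_alt 2 (by norm_num) H hH.1.le) with
    h | ⟨W, hW0, hW, hfr, -⟩ | ⟨t, k, D, htk, hk, hk2, hD, hHD⟩ | ⟨hq, D, hD, hts, hHD⟩ |
    ⟨r, K, hr, hrm, hK, hsa, hz, hHK⟩ | ⟨hq, K, hK, hac, hnsa, hHK⟩ |
    ⟨hq, n₁, n₂, e, P, f₁, f₂, hn, hev, hn₂, -⟩ | h | ⟨hq, -⟩ | h |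
    ⟨hq, k, t, e, P, f₁, -, ht, -⟩ | h
  · exact Or.inl h
  · exfalso
    obtain ⟨j, hj⟩ := Cfsg.Agent.Lib.Helper97SpArith.even_finrank_of_nondegOn hf hW
    have h0 : Module.finrank F W = 0 := by omega
    exact hW0 (Submodule.finrank_eq_zero.mp h0)
  · exact Or.inr (Or.inl (hDec ⟨t, k, D, hD, by rw [hHD]; exact inf_le_left⟩))
  · by_cases hq3 : Fintype.card F = 3
    · exact Or.inr (Or.inl (hDec (Cfsg.Agent.Lib.Helper40SpDPair3.pair3_dec hq3 hcard hf hfix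
        ⟨2, D, hD, hts, by rw [hHD]; exact inf_le_left⟩)))
    · exact Or.inr (Or.inr (Or.inl ⟨Cfsg.Agent.Lib.Helper97SpWrap.five_le_of_odd hq
        Fintype.one_lt_card hq3, D, hD, hts, hHD⟩))
  · obtain rfl : r = 2 := ((Nat.prime_dvd_prime_iff_eq hr (by norm_num)).mp hrm)
    exact Or.inr (Or.inr (Or.inr (Or.inl ⟨K, hK, hsa, hz, hHK⟩)))
  · by_cases hq3 : Fintype.card F = 3
    · exact Or.inr (Or.inr (Or.inr (Or.inr (Or.inr (Or.inr (Or.inl (hC6
        (Cfsg.Agent.Lib.Helper96Sp4Group.fieldU3_c6 hq3 hcard hf hfix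
          ⟨K, hK, hac, hnsa, by rw [hHK]; exact inf_le_left⟩))))))))
    · exact Or.inr (Or.inr (Or.inr (Or.inr (Or.inl ⟨Cfsg.Agent.Lib.Helper97SpWrap.five_le_of_odd hq
        Fintype.one_lt_card hq3, K, hK, hac, hnsa, hHK⟩))))
  · exfalso
    obtain ⟨j, rfl⟩ := hev
    have hn2 : n₂ ≤ 4 := Nat.le_of_dvd (by norm_num) ⟨j + j, by rw [Nat.mul_comm]; exact hn.symm⟩
    interval_cases n₂ <;> omega
  · exact Or.inr (Or.inr (Or.inr (Or.inr (Or.inr (Or.inl h)))))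
  · exact absurd hodd hq
  · exact Or.inr (Or.inr (Or.inr (Or.inr (Or.inr (Or.inr (Or.inl (hC6 h)))))))
  · exfalso
    have hkt := Fintype.card_congr e
    rw [hcard, Fintype.card_fun, Fintype.card_fin, Fintype.card_fin] at hkt
    have hk2 : k < 2 := by
      by_contra hcon
      have h1 : 2 ^ 3 ≤ k ^ t :=
        le_trans (Nat.pow_le_pow_left (by omega) 3) (Nat.pow_le_pow_right (by omega) ht)
      omega
    interval_cases k
    · rw [zero_pow (by omega)] at hkt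
      omega
    · rw [one_pow] at hkt
      omega
  · exact Or.inr (Or.inr (Or.inr (Or.inr (Or.inr (Or.inr (Or.inr h))))))

end Cfsg.Agent.S5787
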