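import Cfsg.Statements.S5790
import Cfsg.Agent.Lib.Helper97SpFinal

set_option autoImplicit false
open Cfsg

namespace Cfsg.Agent.S5790

/-- Every maximal subgroup of Sp_4(q), q ≥ 4 even, is of one of the listed geometric types or lies in the residual class. Let F be a finite field of even order q ≥ 4, f the standard alternating form on F^4 (coordinates Fin 2 ⊕ Fin 2), and H a maximal subgroup of Sp_4(F) (inside GL_4(F)). Then H is the intersection with Sp_4(F) of one of: the stabiliser of a non-zero totally isotropic subspace; the stabiliser of a decomposition into two orthogonal non-degenerate 2-spaces; the normaliser of a degree-2 subfield K of the matrix algebra, self-adjoint with f(k v, v) = 0; a subfield group whose F₀-structure carries a non-zero multiple of f, |F| = |F₀|^r with r prime; the similarity group of a non-degenerate quadratic form whose polar form is f — or else H lies in the residual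 class of the symplectic case. -/
theorem result {F : Type*} [Field F] [Fintype F] (heven : ¬ Odd (Fintype.card F)) (h4 : 4 ≤ Fintype.card F) (H : Subgroup (Matrix.GeneralLinearGroup (Fin 2 ⊕ Fin 2) F)) (hH : Cfsg.Geo.IsMaximalIn (Cfsg.spGL 2 F) H) :
    (∃ W : Submodule F (Fin 2 ⊕ Fin 2 → F), W ≠ ⊥ ∧ Cfsg.Geo.IsTotallySingularFor (Cfsg.sympForm 2 F) W ∧ H = Cfsg.Geo.subspaceStabilizer W ⊓ Cfsg.spGL 2 F) ∨
    (∃ D : Fin 2 → Submodule F (Fin 2 ⊕ Fin 2 → F), Cfsg.Geo.IsNondegenerateMDecomposition (Cfsg.sympForm 2 F) 2 D ∧ H = Cfsg.Geo.decompositionStabilizer D ⊓ Cfsg.spGL 2 F) ∨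
    (∃ K : Subalgebra F (Matrix (Fin 2 ⊕ Fin 2) (Fin 2 ⊕ Fin 2) F), Cfsg.Geo.IsFieldSubalgebra 2 K ∧ Cfsg.Geo.IsSelfAdjointFor (Cfsg.sympForm 2 F) K ∧ (∀ k ∈ K, ∀ v : (Fin 2 ⊕ Fin 2 → F), (Cfsg.sympForm 2 F) (Matrix.mulVec k v) v = 0) ∧ H = Cfsg.Geo.subalgebraNormalizer K ⊓ Cfsg.spGL 2 F) ∨
    (∃ (F₀ : Subfield F) (r : ℕ) (P : Matrix.GeneralLinearGroup (Fin 2 ⊕ Fin 2) F) (ζ : F), r.Prime ∧ Fintype.card F = Nat.card F₀ ^ r ∧ ζ ≠ 0 ∧ Cfsg.Geo.IsFormRationalStructure (Cfsg.sympForm 2 F) F₀ ζ P ∧ H = Cfsg.Geo.subfieldSubgroup F₀ P ⊓ Cfsg.spGL 2 F) ∨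
    (∃ Q : (Fin 2 ⊕ Fin 2 → F) → F, Cfsg.Geo.IsNondegenerateQuadraticForm Q ∧ (∀ u v : (Fin 2 ⊕ Fin 2 → F), QuadraticMap.polar Q u v = (Cfsg.sympForm 2 F) u v) ∧ H = Cfsg.Geo.quadSimilarityGroup Q ⊓ Cfsg.spGL 2 F) ∨
    Cfsg.Geo.InSymplecticResidualClass H := by
  rcases Cfsg.Agent.Lib.Helper97SpWrap.sp_wrap 2 (by norm_num) H hH
    (Cfsg.Agent.Lib.Helper97SpFinal.sp_alt 2 (by norm_num) H hH.1.le) with
    h | ⟨W, hW0, hW, hfr, -⟩ | ⟨t, k, D, htk, hk, hk2, hD, hHD⟩ | ⟨hq, -⟩ |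
    ⟨r, K, hr, hrm, hK, hsa, hz, hHK⟩ | ⟨hq, -⟩ | ⟨hq, -⟩ | h | ⟨-, h⟩ | h | ⟨hq, -⟩ | h
  · exact Or.inl h
  · exfalso
    obtain ⟨j, hj⟩ := Cfsg.Agent.Lib.Helper97SpArith.even_finrank_of_nondegOn
      (Cfsg.Agent.Lib.Helper95SpStd.sympForm_isSymplectic 2) hW
    have h0 : Module.finrank F W = 0 := by omega
    exact hW0 (Submodule.finrank_eq_zero.mp h0)
  · have ht2 := hD.decomp.two_le
    have hm0 := hD.decomp.pos
    obtain ⟨j, rfl⟩ := hk
    have ht : t ≤ 4 := Nat.le_of_dvd (by norm_num) ⟨j + j, htk.symm⟩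
    interval_cases t <;> try omega
    obtain rfl : j = 1 := by omega
    exact Or.inr (Or.inl ⟨D, hD, hHD⟩)
  · exact absurd hq heven
  · obtain rfl : r = 2 := ((Nat.prime_dvd_prime_iff_eq hr (by norm_num)).mp hrm)
    exact Or.inr (Or.inr (Or.inl ⟨K, hK, hsa, hz, hHK⟩))
  · exact absurd hq heven
  · exact absurd hq heven
  · exact Or.inr (Or.inr (Or.inr (Or.inl h)))
  · exact Or.inr (Or.inr (Or.inr (Or.inr (Or.inl h))))
  · exfalso
    obtain ⟨R, p, k, -, -, -, -, hp, hc, -⟩ := h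
    rw [hc] at heven
    exact heven hp
  · exact absurd hq heven
  · exact Or.inr (Or.inr (Or.inr (Or.inr (Or.inr h))))

end Cfsg.Agent.S5790
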