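import Cfsg.Statements.S5796
import Cfsg.Agent.Lib.Helper57UMax
import Cfsg.Agent.Lib.Helper13UProper
import Cfsg.Agent.Lib.Helper97UMain
import Cfsg.Agent.Lib.Helper67SU5Two
-- import your own Cfsg.Agent.* helpers here

set_option autoImplicit false
open Cfsg

namespace Cfsg.Agent.S5796

lemma arith : ∀ r < 5, ∀ k < 3, 0 < k → r ^ (2 * k) % 5 = 1 →
    (∀ d < 2 * k, 0 < d → r ^ d % 5 ≠ 1) → (k = 1 ∧ r = 4) ∨ (k = 2 ∧ (r = 2 ∨ r = 3)) := by
  intro r hr k hk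
  interval_cases r <;> interval_cases k <;> decide


/-- Every maximal subgroup of SU_5(q) is of one of the listed geometric types or lies in the residual class. Let F be the field with q² elements (characteristic p), f the standard unitary form Σ u_i v_i^q on F^5, and H a maximal subgroup of SU_5(q) (inside GL_5(F)). Then H is the intersection with SU_5(q) of one of: the stabiliser of a non-zero totally isotropic subspace; the stabiliser of a non-degenerate 1-space or 2-space; the stabiliser of a decomposition into five mutually orthogonal non-degenerate 1-spaces; for q ≥ 3, the normaliser of an adjoint-closed degree-5 subfield of the matrix algebra; a subfield group of odd prime index whose F₀-structure carries f; for q odd, a subfield group of index 2 whose F₀-structure carries f; for q = p ≡ 4 mod 5 or q = p² with p ≡ 2, 3 mod 5, the normaliser of an absolutely irreducible 5-group of exponent 5, order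 125 and centre of order 5 with all characteristic abelian subgroups cyclic inside the similarity group of f — or else H lies in the residual class of the unitary case. -/
theorem result {F : Type*} [Field F] [Fintype F] (q : ℕ) (hF : Fintype.card F = q ^ 2) (H : Subgroup (Matrix.GeneralLinearGroup (Fin 5) F)) (hH : Cfsg.Geo.IsMaximalIn (Cfsg.GU 5 F q ⊓ Cfsg.Geo.specialLinear (Fin 5) F) H) :
    (∃ W : Submodule F (Fin 5 → F), W ≠ ⊥ ∧ Cfsg.Geo.IsTotallySingularFor (Cfsg.hermForm 5 F q) W ∧ H = Cfsg.Geo.subspaceStabilizer W ⊓ (Cfsg.GU 5 F q ⊓ Cfsg.Geo.specialLinear (Fin 5) F)) ∨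
    (∃ W : Submodule F (Fin 5 → F), W ≠ ⊥ ∧ Cfsg.Geo.IsNondegenerateOn (Cfsg.hermForm 5 F q) W ∧ 2 * Module.finrank F W < 5 ∧ H = Cfsg.Geo.subspaceStabilizer W ⊓ (Cfsg.GU 5 F q ⊓ Cfsg.Geo.specialLinear (Fin 5) F)) ∨
    (∃ D : Fin 5 → Submodule F (Fin 5 → F), Cfsg.Geo.IsNondegenerateMDecomposition (Cfsg.hermForm 5 F q) 1 D ∧ H = Cfsg.Geo.decompositionStabilizer D ⊓ (Cfsg.GU 5 F q ⊓ Cfsg.Geo.specialLinear (Fin 5) F)) ∨
    (3 ≤ q ∧ ∃ K : Subalgebra F (Matrix (Fin 5) (Fin 5) F), Cfsg.Geo.IsFieldSubalgebra 5 K ∧ Cfsg.Geo.IsAdjointClosedFor (Cfsg.hermForm 5 F q) K ∧ H = Cfsg.Geo.subalgebraNormalizer K ⊓ (Cfsg.GU 5 F q ⊓ Cfsg.Geo.specialLinear (Fin 5) F)) ∨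
    (∃ (F₀ : Subfield F) (r : ℕ) (P : Matrix.GeneralLinearGroup (Fin 5) F), r.Prime ∧ Odd r ∧ Fintype.card F = Nat.card F₀ ^ r ∧ Cfsg.Geo.IsFormRationalStructure (Cfsg.hermForm 5 F q) F₀ 1 P ∧ H = Cfsg.Geo.subfieldSubgroup F₀ P ⊓ (Cfsg.GU 5 F q ⊓ Cfsg.Geo.specialLinear (Fin 5) F)) ∨
    (Odd q ∧ ∃ (F₀ : Subfield F) (P : Matrix.GeneralLinearGroup (Fin 5) F), Fintype.card F = Nat.card F₀ ^ 2 ∧ Cfsg.Geo.IsFormRationalStructure (Cfsg.hermForm 5 F q) F₀ 1 P ∧ H = Cfsg.Geo.subfieldSubgroup F₀ P ⊓ (Cfsg.GU 5 F q ⊓ Cfsg.Geo.specialLinear (Fin 5) F)) ∨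
    (∃ (p : ℕ) (R : Subgroup (Matrix.GeneralLinearGroup (Fin 5) F)), p.Prime ∧ CharP F p ∧ ((q = p ∧ p % 5 = 4) ∨ (q = p ^ 2 ∧ (p % 5 = 2 ∨ p % 5 = 3))) ∧ Cfsg.Geo.IsSymplecticTypeGroup 5 R ∧ Cfsg.Geo.ActsAbsolutelyIrreducibly (Cfsg.Geo.matrixSet R) ∧ R ≤ Cfsg.Geo.similarityGroup (Cfsg.hermForm 5 F q) ∧ Nat.card R = 125 ∧ Nat.card (Subgroup.center R) = 5 ∧ H = Cfsg.Geo.subgroupNormalizer R ⊓ (Cfsg.GU 5 F q ⊓ Cfsg.Geo.specialLinear (Fin 5) F)) ∨
    Cfsg.Geo.InUnitaryResidualClass H := by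
  have hn : Nat.Prime 5 := by norm_num
  obtain ⟨σ, hU⟩ := Cfsg.Agent.Lib.Helper57UConv.exists_US (n := 5) hF
  have hf := hU.unitary
  have hHI : H ≤ Cfsg.Agent.Lib.Helper97UBase.Iso (Cfsg.hermForm 5 F q) := hH.1.le.trans inf_le_left
  have hq2 := Cfsg.Agent.Lib.Helper57UMax.two_le_q hF
  rcases Cfsg.Agent.Lib.Helper13UMain.umain hU (by norm_num) H hHI with h | h
  swap
  · exact Or.inr (Or.inr (Or.inr (Or.inr (Or.inr (Or.inr (Or.inr h))))))
  rcases h with ⟨W, h0, h1, h⟩ | ⟨W, h0, h1, h2, h⟩ | ⟨t, k, D, hD, h⟩ | ⟨k, D, hk, hD, hs, h⟩ |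
    ⟨r, K, hr, hodd, hK, hs, h⟩ | ⟨n₁, n₂, e, P, h1, h2, hP, h⟩ | ⟨F₀, r, P, hr, hodd, hc, hP, h⟩ |
    ⟨F₀, P, hodd, hc, hP, h⟩ | ⟨F₀, P, ζ, hev, hc, h0, h1, hP, ha, h⟩ |
    ⟨r, R, p, e, k, h1, h2, h3, h3', h4, h5, h6, h7, h⟩ | ⟨k, t, e, P, hk, ht, hP, h⟩
  · exact Or.inl ⟨W, h0, h1, Cfsg.Agent.Lib.Helper57UMax.eq_inf_of_le' hH h
      (Cfsg.Agent.Lib.Helper97UProper.not_le_stab_singular hf h0 h1)⟩
  · refine Or.inr (Or.inl ⟨W, h0, h1, h2, Cfsg.Agent.Lib.Helper57UMax.eq_inf_of_le' hH h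
      (Cfsg.Agent.Lib.Helper97UProper.not_le_stab_nondeg hf h0 ?_ h1)⟩)
    rintro rfl
    rw [finrank_top, Module.finrank_fin_fun] at h2
    omega
  · have hcard := Cfsg.Agent.Lib.Helper67AschD.decomp_card D hD.decomp
    have ht2 := hD.decomp.two_le
    have hk0 := hD.decomp.pos
    have ht5 : t ≤ 5 := by nlinarith
    have hcases : t = 5 ∧ k = 1 := by
      interval_cases t <;> omega
    obtain ⟨rfl, rfl⟩ := hcases
    exact Or.inr (Or.inr (Or.inl ⟨D, hD, Cfsg.Agent.Lib.Helper57UMax.eq_inf_of_le' hH h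
      (Cfsg.Agent.Lib.Helper97UProper.not_le_decomp hf (by norm_num) D hD)⟩))
  · omega
  · have hdvd := Cfsg.Agent.Lib.Helper67AschD.field_dvd K hK
    have hr5 : r = 5 := (Nat.prime_dvd_prime_iff_eq hr hn).mp hdvd
    subst hr5
    have hHK := Cfsg.Agent.Lib.Helper57UMax.eq_inf_of_le' hH h
      (Cfsg.Agent.Lib.Helper60UPsubalg.notSU_subalg hf (by norm_num) (by norm_num) K hK)
    by_cases hq3 : 3 ≤ q
    · exact Or.inr (Or.inr (Or.inr (Or.inl ⟨hq3, K, hK, hs, hHK⟩)))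
    · exfalso
      obtain rfl : q = 2 := by omega
      apply Cfsg.Agent.Lib.Helper67SU5Two.not_maximal (by rw [hF]; norm_num) K hK hs
      have hH' := hH
      rw [hHK] at hH'
      exact hH'
  · exfalso
    have hcard := Fintype.card_congr e
    simp only [Fintype.card_fin, Fintype.card_prod] at hcard
    have : n₁ ≤ 5 := by nlinarith
    interval_cases n₁ <;> omega
  · exact Or.inr (Or.inr (Or.inr (Or.inr (Or.inl ⟨F₀, r, P, hr, hodd, hc, hP,
      Cfsg.Agent.Lib.Helper57UMax.eq_inf_of_le' hH h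
      (Cfsg.Agent.Lib.Helper13UProper.not_le_subfield4 hf (by norm_num)
        (Cfsg.Agent.Lib.Helper97AschSubfield.subfield_ne_top_of_card hr hc) P)⟩))))
  · exact Or.inr (Or.inr (Or.inr (Or.inr (Or.inr (Or.inl ⟨hodd, F₀, P, hc, hP,
      Cfsg.Agent.Lib.Helper57UMax.eq_inf_of_le' hH h
      (Cfsg.Agent.Lib.Helper13UProper.not_le_subfield4 hf (by norm_num)
        (Cfsg.Agent.Lib.Helper97AschSubfield.subfield_ne_top_of_card Nat.prime_two hc) P)⟩)))))
  · exact absurd hev (by decide)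
  · have hrp := h1.prime
    have hk0 : k ≠ 0 := by
      rintro rfl
      simp at h7
    have hr5 : r = 5 := by
      have hdvd : r ∣ 5 := by
        rw [h7]
        exact dvd_pow_self r hk0
      exact (Nat.prime_dvd_prime_iff_eq hrp hn).mp hdvd
    subst hr5
    have hk1 : k = 1 := by
      have h9 : (5 : ℕ) ^ 1 = 5 ^ k := by rw [← h7, pow_one]
      exact (Nat.pow_right_injective (by norm_num : 2 ≤ 5) h9).symm
    subst hk1
    rcases h6 with ⟨_, hc, _, hR⟩ | ⟨h52, _⟩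
    swap
    · omega
    rw [hc] at h5
    obtain ⟨hp, hchar, hcard, hdvd, hmin⟩ := h5
    have he0 : 0 < e := by
      rcases Nat.eq_zero_or_pos e with rfl | he
      · have h1 : 1 < Fintype.card F := Fintype.one_lt_card
        rw [hcard] at h1
        simp at h1
      · exact he
    obtain ⟨p', k, hp', hchar', hqk, hk0, hkn, hdvd', hmin'⟩ :=
      Cfsg.Agent.Lib.Helper97UMain.field_data_u hn hF ⟨p, e, hp, hchar, hcard, he0, h4, hdvd, hmin⟩
    have hr : p' % 5 < 5 := Nat.mod_lt _ (by norm_num)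
    refine Or.inr (Or.inr (Or.inr (Or.inr (Or.inr (Or.inr (Or.inl ⟨p', R, hp', hchar', ?_, h1, h2,
      h3.trans Cfsg.Agent.Lib.Helper57UConv.Iso_le_similarityGroup, by rw [hR]; norm_num, hc,
      Cfsg.Agent.Lib.Helper57UMax.eq_inf_of_le' hH h
        (Cfsg.Agent.Lib.Helper15UPc6.notSU_c6 hf (by norm_num) h2 h3')⟩))))))
    rcases arith _ hr k (by omega) hk0 hdvd' hmin' with ⟨rfl, h1⟩ | ⟨rfl, h1⟩
    · exact Or.inl ⟨by rw [hqk, pow_one], h1⟩
    · exact Or.inr ⟨hqk, h1⟩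
  · exfalso
    have hcard := Fintype.card_congr e
    simp only [Fintype.card_fin, Fintype.card_fun] at hcard
    have : 3 ^ 2 ≤ k ^ t := (Nat.pow_le_pow_left hk 2).trans (Nat.pow_le_pow_right (by omega) ht)
    omega

end Cfsg.Agent.S5796
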