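import Cfsg.Statements.S5802
import Cfsg.Agent.Lib.Helper38U6Max
import Cfsg.Agent.Lib.Helper38U6Field
import Cfsg.Agent.Lib.Helper60U6Frame
import Cfsg.Agent.Lib.Helper60URed
import Cfsg.Agent.Lib.Helper74UPlanes2

set_option autoImplicit false
open Cfsg Cfsg.Agent.Lib.Helper57UMax Cfsg.Agent.Lib.Helper38U6Max Cfsg.Agent.Lib.Helper38U6Field Cfsg.Agent.Lib.Helper60U6Frame

namespace Cfsg.Agent.S5802

/-- Every maximal subgroup of SU_6(q) is of one of the listed geometric types or lies in the residual class. Let F be the field with q² elements, f the standard unitary form Σ u_i v_i^q on F^6, and H a maximal subgroup of SU_6(q) (inside GL_6(F)). Then H is the intersection with SU_6(q) of one of: the stabiliser of a non-zero totally isotropic subspace; the stabiliser of a non-degenerate 1- or 2-space; for q ≥ 3, the stabiliser of a decomposition into six mutually orthogonal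 non-degenerate 1-spaces; for q ≥ 3, of a decomposition into three mutually orthogonal non-degenerate 2-spaces; of a decomposition into two orthogonal non-degenerate 3-spaces; of a decomposition into two totally isotropic 3-spaces; for q ≥ 3, the normaliser of an adjoint-closed degree-3 subfield of the matrix algebra; for q ≥ 3, the stabiliser of a tensor decomposition of f into unitary forms on F^2 and F^3; a subfield group of odd prime index whose F₀-structure carries f; a subfield group of index 2 and symplectic type; for q odd, a subfield group of index 2 and orthogonal type — or else H lies in the residual class of the unitary case. -/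
theorem result {F : Type*} [Field F] [Fintype F] (q : ℕ) (hF : Fintype.card F = q ^ 2) (H : Subgroup (Matrix.GeneralLinearGroup (Fin 6) F)) (hH : Cfsg.Geo.IsMaximalIn (Cfsg.GU 6 F q ⊓ Cfsg.Geo.specialLinear (Fin 6) F) H) :
    (∃ W : Submodule F (Fin 6 → F), W ≠ ⊥ ∧ Cfsg.Geo.IsTotallySingularFor (Cfsg.hermForm 6 F q) W ∧ H = Cfsg.Geo.subspaceStabilizer W ⊓ (Cfsg.GU 6 F q ⊓ Cfsg.Geo.specialLinear (Fin 6) F)) ∨
    (∃ W : Submodule F (Fin 6 → F), W ≠ ⊥ ∧ Cfsg.Geo.IsNondegenerateOn (Cfsg.hermForm 6 F q) W ∧ 2 * Module.finrank F W < 6 ∧ H = Cfsg.Geo.subspaceStabilizer W ⊓ (Cfsg.GU 6 F q ⊓ Cfsg.Geo.specialLinear (Fin 6) F)) ∨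
    (3 ≤ q ∧ ∃ D : Fin 6 → Submodule F (Fin 6 → F), Cfsg.Geo.IsNondegenerateMDecomposition (Cfsg.hermForm 6 F q) 1 D ∧ H = Cfsg.Geo.decompositionStabilizer D ⊓ (Cfsg.GU 6 F q ⊓ Cfsg.Geo.specialLinear (Fin 6) F)) ∨
    (3 ≤ q ∧ ∃ D : Fin 3 → Submodule F (Fin 6 → F), Cfsg.Geo.IsNondegenerateMDecomposition (Cfsg.hermForm 6 F q) 2 D ∧ H = Cfsg.Geo.decompositionStabilizer D ⊓ (Cfsg.GU 6 F q ⊓ Cfsg.Geo.specialLinear (Fin 6) F)) ∨
    (∃ D : Fin 2 → Submodule F (Fin 6 → F), Cfsg.Geo.IsNondegenerateMDecomposition (Cfsg.hermForm 6 F q) 3 D ∧ H = Cfsg.Geo.decompositionStabilizer D ⊓ (Cfsg.GU 6 F q ⊓ Cfsg.Geo.specialLinear (Fin 6) F)) ∨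
    (∃ D : Fin 2 → Submodule F (Fin 6 → F), Cfsg.Geo.IsMDecomposition 3 D ∧ (∀ i, Cfsg.Geo.IsTotallySingularFor (Cfsg.hermForm 6 F q) (D i)) ∧ H = Cfsg.Geo.decompositionStabilizer D ⊓ (Cfsg.GU 6 F q ⊓ Cfsg.Geo.specialLinear (Fin 6) F)) ∨
    (3 ≤ q ∧ ∃ K : Subalgebra F (Matrix (Fin 6) (Fin 6) F), Cfsg.Geo.IsFieldSubalgebra 3 K ∧ Cfsg.Geo.IsAdjointClosedFor (Cfsg.hermForm 6 F q) K ∧ H = Cfsg.Geo.subalgebraNormalizer K ⊓ (Cfsg.GU 6 F q ⊓ Cfsg.Geo.specialLinear (Fin 6) F)) ∨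
    (3 ≤ q ∧ ∃ (e : Fin 6 ≃ Fin 2 × Fin 3) (P : Matrix.GeneralLinearGroup (Fin 6) F) (f₁ : (Fin 2 → F) → (Fin 2 → F) → F) (f₂ : (Fin 3 → F) → (Fin 3 → F) → F), Cfsg.Geo.IsUnitaryFormPow q f₁ ∧ Cfsg.Geo.IsUnitaryFormPow q f₂ ∧ Cfsg.Geo.IsTensorFormStructure (fun x : F => x ^ q) (Cfsg.hermForm 6 F q) f₁ f₂ e P ∧ H = Cfsg.Geo.tensorProductSubgroup 2 3 e P ⊓ (Cfsg.GU 6 F q ⊓ Cfsg.Geo.specialLinear (Fin 6) F)) ∨
    (∃ (F₀ : Subfield F) (r : ℕ) (P : Matrix.GeneralLinearGroup (Fin 6) F), r.Prime ∧ Odd r ∧ Fintype.card F = Nat.card F₀ ^ r ∧ Cfsg.Geo.IsFormRationalStructure (Cfsg.hermForm 6 F q) F₀ 1 P ∧ H = Cfsg.Geo.subfieldSubgroup F₀ P ⊓ (Cfsg.GU 6 F q ⊓ Cfsg.Geo.specialLinear (Fin 6) F)) ∨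
    (∃ (F₀ : Subfield F) (P : Matrix.GeneralLinearGroup (Fin 6) F) (ζ : F), Fintype.card F = Nat.card F₀ ^ 2 ∧ ζ ≠ 0 ∧ ζ + ζ ^ q = 0 ∧ Cfsg.Geo.IsFormRationalStructure (Cfsg.hermForm 6 F q) F₀ ζ P ∧ (∀ u : Fin 6 → F, (∀ i, u i ∈ F₀) → (Cfsg.hermForm 6 F q) (Matrix.mulVec (P : Matrix (Fin 6) (Fin 6) F) u) (Matrix.mulVec (P : Matrix (Fin 6) (Fin 6) F) u) = 0) ∧ H = Cfsg.Geo.subfieldSubgroup F₀ P ⊓ (Cfsg.GU 6 F q ⊓ Cfsg.Geo.specialLinear (Fin 6) F)) ∨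
    (Odd q ∧ ∃ (F₀ : Subfield F) (P : Matrix.GeneralLinearGroup (Fin 6) F), Fintype.card F = Nat.card F₀ ^ 2 ∧ Cfsg.Geo.IsFormRationalStructure (Cfsg.hermForm 6 F q) F₀ 1 P ∧ H = Cfsg.Geo.subfieldSubgroup F₀ P ⊓ (Cfsg.GU 6 F q ⊓ Cfsg.Geo.specialLinear (Fin 6) F)) ∨
    Cfsg.Geo.InUnitaryResidualClass H := by
  obtain ⟨σ, hU⟩ := Cfsg.Agent.Lib.Helper57UConv.exists_US (n := 6) hF
  have hf := hU.unitary
  have hq2 := two_le_q hU.card
  rcases umax5 hU (by norm_num) (fun hq => by subst hq; exact fun D hD => Cfsg.Agent.Lib.Helper74UPlanes2.planes_two_u hU D hD) H hH with h | h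
  swap
  · exact Or.inr (Or.inr (Or.inr (Or.inr (Or.inr (Or.inr (Or.inr (Or.inr (Or.inr (Or.inr (Or.inr h))))))))))
  rcases h with ⟨W, h0, h1, h⟩ | ⟨W, h0, h1, h2, h⟩ | ⟨t, k, D, hcard, ht2, hk0, hk2, hD, h⟩ |
    ⟨k, D, hk, hD, hs, h⟩ | ⟨r, K, hr, hodd, hdvd, hK, hs, h⟩ |
    ⟨n₁, n₂, e, P, f₁, f₂, hcard, h1, h2, hq3, hf₁, hf₂, hP, h⟩ | ⟨F₀, r, P, hr, hodd, hc, hP, h⟩ |
    ⟨hodd, F₀, P, hc, hP, h⟩ | ⟨hev, F₀, P, ζ, hc, h0, h1, hP, ha, h⟩ |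
    ⟨r, R, p, e, k, h1, h2, h3, h4, h5, h6, h7, h⟩ | ⟨k, t, e, P, hcard, hk, ht, hP, h⟩
  · exact Or.inl ⟨W, h0, h1, h⟩
  · exact Or.inr (Or.inl ⟨W, h0, h1, h2, h⟩)
  · have ht9 : t ≤ 6 := by nlinarith
    have hcases : (t = 6 ∧ k = 1) ∨ (t = 3 ∧ k = 2) ∨ (t = 2 ∧ k = 3) := by
      interval_cases t <;> omega
    rcases hcases with ⟨rfl, rfl⟩ | ⟨rfl, rfl⟩ | ⟨rfl, rfl⟩
    · refine Or.inr (Or.inr (Or.inl ⟨?_, D, hD, h⟩))
      by_contra hq3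
      obtain rfl : q = 2 := by omega
      rw [h] at hH
      exact frame_two hU D hD hH
    · exact Or.inr (Or.inr (Or.inr (Or.inl ⟨hk2 rfl, D, hD, h⟩)))
    · exact Or.inr (Or.inr (Or.inr (Or.inr (Or.inl ⟨D, hD, h⟩))))
  · obtain rfl : k = 3 := by omega
    exact Or.inr (Or.inr (Or.inr (Or.inr (Or.inr (Or.inl ⟨D, hD, hs, h⟩)))))
  · have hr3 : r = 3 := by
      have h9 : (6 : ℕ) = 2 * 3 := by norm_num
      rw [h9] at hdvd
      rcases (Nat.Prime.dvd_mul hr).mp hdvd with hd | hd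
      · have := (Nat.prime_dvd_prime_iff_eq hr Nat.prime_two).mp hd
        subst this
        exact absurd hodd (by decide)
      · exact (Nat.prime_dvd_prime_iff_eq hr Nat.prime_three).mp hd
    subst hr3
    by_cases hq3 : 3 ≤ q
    · exact Or.inr (Or.inr (Or.inr (Or.inr (Or.inr (Or.inr (Or.inl ⟨hq3, K, hK, hs, h⟩))))))
    obtain rfl : q = 2 := by omega
    have hHI : H ≤ Cfsg.Agent.Lib.Helper97UBase.Iso (hermForm 6 F 2) := hH.1.le.trans inf_le_left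
    by_cases hirr : Cfsg.Geo.ActsIrreducibly (Cfsg.Geo.matrixSet H)
    · rcases field_three_two hU hK hs hH.1.le hirr (h.le.trans inf_le_left) with ⟨ho, -⟩ | ⟨F₀, P, ζ, hev, hc, h0, h1, hP, ha, hle⟩
      · exact absurd ho (by decide)
      · exact Or.inr (Or.inr (Or.inr (Or.inr (Or.inr (Or.inr (Or.inr (Or.inr (Or.inr (Or.inl ⟨F₀, P, ζ, hc, h0, h1, hP, ha,
          eq_inf_of_le' hH hle (Cfsg.Agent.Lib.Helper13UProper.not_le_subfield4 hf (by norm_num)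
            (Cfsg.Agent.Lib.Helper97AschSubfield.subfield_ne_top_of_card Nat.prime_two hc) P)⟩)))))))))
    · rw [Cfsg.Agent.Lib.Helper97AschBase.actsIrreducibly_iff] at hirr
      push Not at hirr
      obtain ⟨W, hW, h0, h1⟩ := hirr
      rcases Cfsg.Agent.Lib.Helper60URed.ured hf hHI hW h0 h1 with ⟨U, hU0, hUs, hle⟩ | ⟨U, hU0, hUn, hlt, hle⟩ | ⟨k, D, hD, hle⟩
      · exact Or.inl ⟨U, hU0, hUs, eq_inf_of_le' hH hle
          (Cfsg.Agent.Lib.Helper97UProper.not_le_stab_singular hf hU0 hUs)⟩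
      · refine Or.inr (Or.inl ⟨U, hU0, hUn, hlt, eq_inf_of_le' hH hle
          (Cfsg.Agent.Lib.Helper97UProper.not_le_stab_nondeg hf hU0 ?_ hUn)⟩)
        rintro rfl
        rw [finrank_top, Module.finrank_fin_fun] at hlt
        omega
      · have hcard := Cfsg.Agent.Lib.Helper67AschD.decomp_card D hD.decomp
        obtain rfl : k = 3 := by omega
        exact Or.inr (Or.inr (Or.inr (Or.inr (Or.inl ⟨D, hD, eq_inf_of_le' hH hle
          (Cfsg.Agent.Lib.Helper60UPdecomp.notSU_decomp hf (by norm_num) D hD.decomp)⟩))))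
  · have hcases : (n₁ = 2 ∧ n₂ = 3) := by
      have : n₁ ≤ 6 := by nlinarith
      interval_cases n₁ <;> omega
    obtain ⟨rfl, rfl⟩ := hcases
    exact Or.inr (Or.inr (Or.inr (Or.inr (Or.inr (Or.inr (Or.inr (Or.inl ⟨hq3 rfl, e, P, f₁, f₂, hf₁, hf₂, hP, h⟩)))))))
  · exact Or.inr (Or.inr (Or.inr (Or.inr (Or.inr (Or.inr (Or.inr (Or.inr (Or.inl ⟨F₀, r, P, hr, hodd, hc, hP, h⟩))))))))
  · exact Or.inr (Or.inr (Or.inr (Or.inr (Or.inr (Or.inr (Or.inr (Or.inr (Or.inr (Or.inr (Or.inl ⟨hodd, F₀, P, hc, hP, h⟩))))))))))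
  · exact Or.inr (Or.inr (Or.inr (Or.inr (Or.inr (Or.inr (Or.inr (Or.inr (Or.inr (Or.inl ⟨F₀, P, ζ, hc, h0, h1, hP, ha, h⟩)))))))))
  · exfalso
    have hrp := h1.prime
    have h2d : 2 ∣ r ^ k := by rw [← h7]; norm_num
    have h3d : 3 ∣ r ^ k := by rw [← h7]; norm_num
    have e2 := (Nat.prime_dvd_prime_iff_eq Nat.prime_two hrp).mp (Nat.prime_two.dvd_of_dvd_pow h2d)
    have e3 := (Nat.prime_dvd_prime_iff_eq Nat.prime_three hrp).mp (Nat.prime_three.dvd_of_dvd_pow h3d)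
    omega
  · exfalso
    have : 3 ^ 2 ≤ k ^ t := (Nat.pow_le_pow_left hk 2).trans (Nat.pow_le_pow_right (by omega) ht)
    omega

end Cfsg.Agent.S5802
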