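import Cfsg.Statements.S5811
import Cfsg.Agent.Lib.Helper97UMain
-- import your own Cfsg.Agent.* helpers here

set_option autoImplicit false
open Cfsg

namespace Cfsg.Agent.S5811

lemma arith : ∀ r < 7, ∀ k < 4, 0 < k → r ^ (2 * k) % 7 = 1 →
    (∀ d < 2 * k, 0 < d → r ^ d % 7 ≠ 1) → (k = 1 ∧ r = 6) ∨ (k = 3 ∧ (r = 3 ∨ r = 5)) := by
  intro r hr k hk
  interval_cases r <;> interval_cases k <;> decide


/-- Every maximal subgroup of SU_7(q) is of one of the listed geometric types or lies in the residual class. Let F be the field with q² elements (characteristic p), f the standard unitary form Σ u_i v_i^q on F^7, and H a maximal subgroup of SU_7(q) (inside GL_7(F)). Then H is the intersection with SU_7(q) of one of: the stabiliser of a non-zero totally isotropic subspace; the stabiliser of a non-degenerate 1-, 2- or 3-space; the stabiliser of a decomposition into seven mutually orthogonal non-degenerate 1-spaces; the normaliser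 of an adjoint-closed degree-7 subfield of the matrix algebra; a subfield group of odd prime index whose F₀-structure carries f; for q odd, a subfield group of index 2 whose F₀-structure carries f; for q = p prime with p ≡ 6 mod 7, or q = p³ with p ≡ 3 or 5 mod 7, the normaliser of an absolutely irreducible 7-group R of exponent 7, order 343 and centre of order 7, all of whose characteristic abelian subgroups are cyclic, contained in the similarity group of f — or else H lies in the residual class of the unitary case (modulo scalars H is almost simple, with absolutely irreducible perfect socle preimage realisable over no proper subfield and fixing no non-degenerate quadratic or symplectic form). -/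
theorem result {F : Type*} [Field F] [Fintype F] (q : ℕ) (hF : Fintype.card F = q ^ 2) (H : Subgroup (Matrix.GeneralLinearGroup (Fin 7) F)) (hH : Cfsg.Geo.IsMaximalIn (Cfsg.GU 7 F q ⊓ Cfsg.Geo.specialLinear (Fin 7) F) H) :
    (∃ W : Submodule F (Fin 7 → F), W ≠ ⊥ ∧ Cfsg.Geo.IsTotallySingularFor (Cfsg.hermForm 7 F q) W ∧ H = Cfsg.Geo.subspaceStabilizer W ⊓ (Cfsg.GU 7 F q ⊓ Cfsg.Geo.specialLinear (Fin 7) F)) ∨
    (∃ W : Submodule F (Fin 7 → F), W ≠ ⊥ ∧ Cfsg.Geo.IsNondegenerateOn (Cfsg.hermForm 7 F q) W ∧ 2 * Module.finrank F W < 7 ∧ H = Cfsg.Geo.subspaceStabilizer W ⊓ (Cfsg.GU 7 F q ⊓ Cfsg.Geo.specialLinear (Fin 7) F)) ∨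
    (∃ D : Fin 7 → Submodule F (Fin 7 → F), Cfsg.Geo.IsNondegenerateMDecomposition (Cfsg.hermForm 7 F q) 1 D ∧ H = Cfsg.Geo.decompositionStabilizer D ⊓ (Cfsg.GU 7 F q ⊓ Cfsg.Geo.specialLinear (Fin 7) F)) ∨
    (∃ K : Subalgebra F (Matrix (Fin 7) (Fin 7) F), Cfsg.Geo.IsFieldSubalgebra 7 K ∧ Cfsg.Geo.IsAdjointClosedFor (Cfsg.hermForm 7 F q) K ∧ H = Cfsg.Geo.subalgebraNormalizer K ⊓ (Cfsg.GU 7 F q ⊓ Cfsg.Geo.specialLinear (Fin 7) F)) ∨
    (∃ (F₀ : Subfield F) (r : ℕ) (P : Matrix.GeneralLinearGroup (Fin 7) F), r.Prime ∧ Odd r ∧ Fintype.card F = Nat.card F₀ ^ r ∧ Cfsg.Geo.IsFormRationalStructure (Cfsg.hermForm 7 F q) F₀ 1 P ∧ H = Cfsg.Geo.subfieldSubgroup F₀ P ⊓ (Cfsg.GU 7 F q ⊓ Cfsg.Geo.specialLinear (Fin 7) F)) ∨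
    (Odd q ∧ ∃ (F₀ : Subfield F) (P : Matrix.GeneralLinearGroup (Fin 7) F), Fintype.card F = Nat.card F₀ ^ 2 ∧ Cfsg.Geo.IsFormRationalStructure (Cfsg.hermForm 7 F q) F₀ 1 P ∧ H = Cfsg.Geo.subfieldSubgroup F₀ P ⊓ (Cfsg.GU 7 F q ⊓ Cfsg.Geo.specialLinear (Fin 7) F)) ∨
    (∃ (p : ℕ) (R : Subgroup (Matrix.GeneralLinearGroup (Fin 7) F)), p.Prime ∧ CharP F p ∧ ((q = p ∧ p % 7 = 6) ∨ (q = p ^ 3 ∧ (p % 7 = 3 ∨ p % 7 = 5))) ∧ Cfsg.Geo.IsSymplecticTypeGroup 7 R ∧ Cfsg.Geo.ActsAbsolutelyIrreducibly (Cfsg.Geo.matrixSet R) ∧ R ≤ Cfsg.Geo.similarityGroup (Cfsg.hermForm 7 F q) ∧ Nat.card R = 343 ∧ Nat.card (Subgroup.center R) = 7 ∧ H = Cfsg.Geo.subgroupNormalizer R ⊓ (Cfsg.GU 7 F q ⊓ Cfsg.Geo.specialLinear (Fin 7) F)) ∨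
    Cfsg.Geo.InUnitaryResidualClass H := by
  have hn : Nat.Prime 7 := by norm_num
  obtain ⟨σ, hσq, hf⟩ := Cfsg.Agent.Lib.Helper97UMain.exists_sigma (n := 7) hF
  rcases Cfsg.Agent.Lib.Helper97UMain.umain hn (by norm_num) hf hF hσq H hH with
    h | h | h | h | h | h | ⟨R, hdata, hsym, habs, hRI, hc1, hc2, hHR⟩ | h
  · exact Or.inl h
  · exact Or.inr (Or.inl h)
  · exact Or.inr (Or.inr (Or.inl h))
  · exact Or.inr (Or.inr (Or.inr (Or.inl h)))
  · exact Or.inr (Or.inr (Or.inr (Or.inr (Or.inl h))))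
  · exact Or.inr (Or.inr (Or.inr (Or.inr (Or.inr (Or.inl h)))))
  · refine Or.inr (Or.inr (Or.inr (Or.inr (Or.inr (Or.inr (Or.inl ?_))))))
    obtain ⟨p, k, hp, hchar, hqk, hk0, hkn, hdvd, hmin⟩ :=
      Cfsg.Agent.Lib.Helper97UMain.field_data_u hn hF hdata
    have hr : p % 7 < 7 := Nat.mod_lt _ (by norm_num)
    refine ⟨p, R, hp, hchar, ?_, hsym, habs, (fun g hg => ⟨1, fun u v => by rw [Units.val_one, one_mul]; exact hRI hg u v⟩), by rw [hc1]; norm_num, hc2, hHR⟩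
    rcases arith _ hr k (by omega) hk0 hdvd hmin with ⟨rfl, h1⟩ | ⟨rfl, h1⟩
    · exact Or.inl ⟨by rw [hqk, pow_one], h1⟩
    · exact Or.inr ⟨hqk, h1⟩
  · exact Or.inr (Or.inr (Or.inr (Or.inr (Or.inr (Or.inr (Or.inr h))))))

end Cfsg.Agent.S5811
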