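import Cfsg.Statements.S5817
import Cfsg.Agent.Lib.Helper57AschMax
import Cfsg.Agent.Lib.Helper12AschPlanes
import Cfsg.Agent.Lib.Helper12AschTensorTwo

set_option autoImplicit false
open Cfsg Cfsg.Agent.Lib.Helper57AschMax

namespace Cfsg.Agent.S5817

/-- Every maximal subgroup of SL_8(q) is of one of the listed geometric types or lies in the residual class. Let F be a finite field with q elements (p its characteristic) and H a maximal subgroup of SL_8(F) (inside GL_8(F)). Then H is the intersection with SL_8(F) of one of: the stabiliser of a proper non-zero subspace; for q ≥ 5, the stabiliser of a decomposition into 8 independent 1-spaces; for q ≥ 3, the stabiliser of a decomposition into 4 independent 2-spaces; the stabiliser of a decomposition into 2 independent 4-spaces; the normaliser of a degree-2 subfield of the matrix algebra; for q ≥ 3, the stabiliser of a tensor decomposition F^2 ⊗ F^4; a subfield group for a subfield F₀ with |F| = |F₀|^r,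 r prime; for q = p prime with p ≡ 1 mod 4, the normaliser of an absolutely irreducible 2-subgroup R of exponent 4 and order 2^(2+2m) with centre of order 4, all of whose characteristic abelian subgroups are cyclic, 4 dividing p − 1 (here |R| = 2^8); for q odd, the similarity group of a non-degenerate quadratic form; the similarity group of a non-degenerate symplectic form; the similarity group of a non-degenerate unitary form — or else H lies in the residual class of the linear case (modulo scalars H is almost simple, with absolutely irreducible perfect socle preimage realisable over no proper subfield and fixing no non-degenerate quadratic, symplectic or unitary form). -/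
theorem result {F : Type*} [Field F] [Fintype F] (H : Subgroup (Matrix.GeneralLinearGroup (Fin 8) F)) (hH : Cfsg.Geo.IsMaximalIn (Cfsg.Geo.specialLinear (Fin 8) F) H) :
    (∃ W : Submodule F (Fin 8 → F), W ≠ ⊥ ∧ W ≠ ⊤ ∧ H = Cfsg.Geo.subspaceStabilizer W ⊓ Cfsg.Geo.specialLinear (Fin 8) F) ∨
    (5 ≤ Fintype.card F ∧ ∃ D : Fin 8 → Submodule F (Fin 8 → F), Cfsg.Geo.IsMDecomposition 1 D ∧ H = Cfsg.Geo.decompositionStabilizer D ⊓ Cfsg.Geo.specialLinear (Fin 8) F) ∨
    (3 ≤ Fintype.card F ∧ ∃ D : Fin 4 → Submodule F (Fin 8 → F), Cfsg.Geo.IsMDecomposition 2 D ∧ H = Cfsg.Geo.decompositionStabilizer D ⊓ Cfsg.Geo.specialLinear (Fin 8) F) ∨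
    (∃ D : Fin 2 → Submodule F (Fin 8 → F), Cfsg.Geo.IsMDecomposition 4 D ∧ H = Cfsg.Geo.decompositionStabilizer D ⊓ Cfsg.Geo.specialLinear (Fin 8) F) ∨
    (∃ K : Subalgebra F (Matrix (Fin 8) (Fin 8) F), Cfsg.Geo.IsFieldSubalgebra 2 K ∧ H = Cfsg.Geo.subalgebraNormalizer K ⊓ Cfsg.Geo.specialLinear (Fin 8) F) ∨
    (3 ≤ Fintype.card F ∧ ∃ (e : Fin 8 ≃ Fin 2 × Fin 4) (P : Matrix.GeneralLinearGroup (Fin 8) F), H = Cfsg.Geo.tensorProductSubgroup 2 4 e P ⊓ Cfsg.Geo.specialLinear (Fin 8) F) ∨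
    (∃ (F₀ : Subfield F) (r : ℕ) (P : Matrix.GeneralLinearGroup (Fin 8) F), r.Prime ∧ Fintype.card F = Nat.card F₀ ^ r ∧ H = Cfsg.Geo.subfieldSubgroup F₀ P ⊓ Cfsg.Geo.specialLinear (Fin 8) F) ∨
    ((∃ p : ℕ, p.Prime ∧ Fintype.card F = p ∧ (p % 4 = 1)) ∧ ∃ R : Subgroup (Matrix.GeneralLinearGroup (Fin 8) F), Cfsg.Geo.IsLinearSymplecticTypeData 2 R ∧ H = Cfsg.Geo.subgroupNormalizer R ⊓ Cfsg.Geo.specialLinear (Fin 8) F) ∨
    (Odd (Fintype.card F) ∧ ∃ Q : (Fin 8 → F) → F, Cfsg.Geo.IsNondegenerateQuadraticForm Q ∧ H = Cfsg.Geo.quadSimilarityGroup Q ⊓ Cfsg.Geo.specialLinear (Fin 8) F) ∨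
    (∃ f : (Fin 8 → F) → (Fin 8 → F) → F, Cfsg.Geo.IsSymplecticForm f ∧ H = Cfsg.Geo.similarityGroup f ⊓ Cfsg.Geo.specialLinear (Fin 8) F) ∨
    (∃ (σ : F ≃+* F) (f : (Fin 8 → F) → (Fin 8 → F) → F), Cfsg.Geo.IsUnitaryForm σ f ∧ H = Cfsg.Geo.similarityGroup f ⊓ Cfsg.Geo.specialLinear (Fin 8) F) ∨
    Cfsg.Geo.InLinearResidualClass H := by
  have hn : 3 ≤ 8 := by norm_num
  have hq1 : 1 < Fintype.card F := Fintype.one_lt_card
  rcases Cfsg.Agent.Lib.Helper57AschMax.main hn H with h | h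
  swap
  · exact Or.inr (Or.inr (Or.inr (Or.inr (Or.inr (Or.inr (Or.inr (Or.inr (Or.inr (Or.inr (Or.inr h))))))))))
  rcases h with ⟨W, h0, h1, h⟩ | ⟨t, m, D, hD, h⟩ | ⟨r, K, hr, hK, h⟩ | ⟨n₁, n₂, e, P, h1, h2, h⟩ |
    ⟨F₀, r, P, hr, hc, h⟩ | ⟨r, R, m, hR, hrm, h⟩ | ⟨m, t, e, P, hm, ht, h⟩ | ⟨f, hf, h⟩ | ⟨σ, f, hf, h⟩ |
    ⟨hodd, Q, hQ, h⟩
  · exact Or.inl (concl_sub hH h0 h1 h)
  · have hcard := Cfsg.Agent.Lib.Helper67AschD.decomp_card D hD
    have ht2 := hD.two_le
    have hm0 := hD.pos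
    have ht9 : t ≤ 8 := by nlinarith
    have hcases : (t = 8 ∧ m = 1) ∨ (t = 4 ∧ m = 2) ∨ (t = 2 ∧ m = 4) := by
      interval_cases t <;> omega
    rcases hcases with ⟨rfl, rfl⟩ | ⟨rfl, rfl⟩ | ⟨rfl, rfl⟩
    · by_cases hq : 5 ≤ Fintype.card F
      · exact Or.inr (Or.inl ⟨hq, concl_dec hH hD h⟩)
      · rcases Cfsg.Agent.Lib.Helper97AschMono.c2_small (by norm_num) D hD (not_le.mp hq) with
          ⟨W, h0, h1, hW⟩ | ⟨hodd, Q, hQ, hle'⟩ | ⟨σ, f, hf, hle'⟩
        · exact Or.inl (concl_sub hH h0 h1 (h.trans hW))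
        · exact Or.inr (Or.inr (Or.inr (Or.inr (Or.inr (Or.inr (Or.inr (Or.inr (Or.inl
            (concl_quad hn hH hodd hQ (h.trans hle'))))))))))
        · exact Or.inr (Or.inr (Or.inr (Or.inr (Or.inr (Or.inr (Or.inr (Or.inr (Or.inr (Or.inr (Or.inl
            (concl_unit hn hH hf (h.trans hle'))))))))))))
    · by_cases hq : 3 ≤ Fintype.card F
      · exact Or.inr (Or.inr (Or.inl ⟨hq, concl_dec hH hD h⟩))
      · obtain ⟨f, hf, hle'⟩ := Cfsg.Agent.Lib.Helper12AschPlanes.planes_two (by omega) D hD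
        exact Or.inr (Or.inr (Or.inr (Or.inr (Or.inr (Or.inr (Or.inr (Or.inr (Or.inr (Or.inl
            (concl_symp hn hH hf (h.trans hle')))))))))))
    · exact Or.inr (Or.inr (Or.inr (Or.inl (concl_dec hH hD h))))
  · have hdvd := Cfsg.Agent.Lib.Helper67AschD.field_dvd K hK
    have hr3 : r = 2 := by
      have h9 : (8 : ℕ) = 2 ^ 3 := by norm_num
      rw [h9] at hdvd
      exact (Nat.prime_dvd_prime_iff_eq hr Nat.prime_two).mp (hr.dvd_of_dvd_pow hdvd)
    subst hr3
    exact Or.inr (Or.inr (Or.inr (Or.inr (Or.inl (concl_field hn hH (by norm_num) hK h)))))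
  · have hcard := Fintype.card_congr e
    simp only [Fintype.card_fin, Fintype.card_prod] at hcard
    have hcases : n₁ = 2 ∧ n₂ = 4 := by
      have : n₁ ≤ 8 := by nlinarith
      interval_cases n₁ <;> omega
    obtain ⟨rfl, rfl⟩ := hcases
    by_cases hq : 3 ≤ Fintype.card F
    · exact Or.inr (Or.inr (Or.inr (Or.inr (Or.inr (Or.inl
        ⟨hq, concl_tensor hH (by norm_num) (by norm_num) h⟩)))))
    · obtain ⟨K, hK, hle'⟩ := Cfsg.Agent.Lib.Helper12AschTensorTwo.tensor_two (F := F) (by omega)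
        (by norm_num) e P
      exact Or.inr (Or.inr (Or.inr (Or.inr (Or.inl
        (concl_field hn hH (by norm_num) hK (h.trans hle'))))))
  · exact Or.inr (Or.inr (Or.inr (Or.inr (Or.inr (Or.inr (Or.inl
      (concl_subfield (by norm_num) hH hr hc h)))))))
  · have hr3 : r = 2 := by
      have hrp := hR.symplecticType.prime
      have hm0 : m ≠ 0 := by
        rintro rfl
        simp at hrm
      have hdvd : r ∣ 2 ^ 3 := by
        have h9 : (2 : ℕ) ^ 3 = 8 := by norm_num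
        rw [h9, hrm]
        exact dvd_pow_self r hm0
      exact (Nat.prime_dvd_prime_iff_eq hrp Nat.prime_two).mp (hrp.dvd_of_dvd_pow hdvd)
    subst hr3
    exact Or.inr (Or.inr (Or.inr (Or.inr (Or.inr (Or.inr (Or.inr (Or.inl
      ⟨c6_two hn hR, concl_c6 hn hH hR h⟩)))))))
  · exfalso
    have hcard := Fintype.card_congr e
    simp only [Fintype.card_fin, Fintype.card_fun] at hcard
    have : 3 ^ 2 ≤ m ^ t := (Nat.pow_le_pow_left hm 2).trans (Nat.pow_le_pow_right (by omega) ht)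
    omega
  · exact Or.inr (Or.inr (Or.inr (Or.inr (Or.inr (Or.inr (Or.inr (Or.inr (Or.inr (Or.inl
      (concl_symp hn hH hf h))))))))))
  · exact Or.inr (Or.inr (Or.inr (Or.inr (Or.inr (Or.inr (Or.inr (Or.inr (Or.inr (Or.inr (Or.inl
      (concl_unit hn hH hf h)))))))))))
  · exact Or.inr (Or.inr (Or.inr (Or.inr (Or.inr (Or.inr (Or.inr (Or.inr (Or.inl
      (concl_quad hn hH hodd hQ h)))))))))

end Cfsg.Agent.S5817
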