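import Cfsg.Statements.S5820
import Cfsg.Agent.Lib.Helper57UMax
import Cfsg.Agent.Lib.Helper74UPlanes2

set_option autoImplicit false
open Cfsg Cfsg.Agent.Lib.Helper57UMax

namespace Cfsg.Agent.S5820

/-- Every maximal subgroup of SU_8(q) is of one of the listed geometric types or lies in the residual class. Let F be the field with q² elements, f the standard unitary form Σ u_i v_i^q on F^8, and H a maximal subgroup of SU_8(q) (inside GL_8(F)). Then H is the intersection with SU_8(q) of one of: the stabiliser of a non-zero totally isotropic subspace; the stabiliser of a non-degenerate 1-, 2- or 3-space; the stabiliser of a decomposition into eight mutually orthogonal non-degenerate 1-spaces; for q ≥ 3, of a decomposition into four mutually orthogonal non-degenerate 2-spaces; of a decomposition into two orthogonal non-degenerate 4-spaces; of a decomposition into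 two totally isotropic 4-spaces; for q ≥ 3, the stabiliser of a tensor decomposition of f into unitary forms on F^2 and F^4; a subfield group of odd prime index whose F₀-structure carries f; a subfield group of index 2 and symplectic type; for q odd, a subfield group of index 2 and orthogonal type; for q = p ≡ 3 mod 4 prime, the normaliser of an absolutely irreducible symplectic-type 2-group of order 2^8 with centre of order 4 inside the similarity group of f — or else H lies in the residual class of the unitary case. -/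
theorem result {F : Type*} [Field F] [Fintype F] (q : ℕ) (hF : Fintype.card F = q ^ 2) (H : Subgroup (Matrix.GeneralLinearGroup (Fin 8) F)) (hH : Cfsg.Geo.IsMaximalIn (Cfsg.GU 8 F q ⊓ Cfsg.Geo.specialLinear (Fin 8) F) H) :
    (∃ W : Submodule F (Fin 8 → F), W ≠ ⊥ ∧ Cfsg.Geo.IsTotallySingularFor (Cfsg.hermForm 8 F q) W ∧ H = Cfsg.Geo.subspaceStabilizer W ⊓ (Cfsg.GU 8 F q ⊓ Cfsg.Geo.specialLinear (Fin 8) F)) ∨
    (∃ W : Submodule F (Fin 8 → F), W ≠ ⊥ ∧ Cfsg.Geo.IsNondegenerateOn (Cfsg.hermForm 8 F q) W ∧ 2 * Module.finrank F W < 8 ∧ H = Cfsg.Geo.subspaceStabilizer W ⊓ (Cfsg.GU 8 F q ⊓ Cfsg.Geo.specialLinear (Fin 8) F)) ∨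
    (∃ D : Fin 8 → Submodule F (Fin 8 → F), Cfsg.Geo.IsNondegenerateMDecomposition (Cfsg.hermForm 8 F q) 1 D ∧ H = Cfsg.Geo.decompositionStabilizer D ⊓ (Cfsg.GU 8 F q ⊓ Cfsg.Geo.specialLinear (Fin 8) F)) ∨
    (3 ≤ q ∧ ∃ D : Fin 4 → Submodule F (Fin 8 → F), Cfsg.Geo.IsNondegenerateMDecomposition (Cfsg.hermForm 8 F q) 2 D ∧ H = Cfsg.Geo.decompositionStabilizer D ⊓ (Cfsg.GU 8 F q ⊓ Cfsg.Geo.specialLinear (Fin 8) F)) ∨
    (∃ D : Fin 2 → Submodule F (Fin 8 → F), Cfsg.Geo.IsNondegenerateMDecomposition (Cfsg.hermForm 8 F q) 4 D ∧ H = Cfsg.Geo.decompositionStabilizer D ⊓ (Cfsg.GU 8 F q ⊓ Cfsg.Geo.specialLinear (Fin 8) F)) ∨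
    (∃ D : Fin 2 → Submodule F (Fin 8 → F), Cfsg.Geo.IsMDecomposition 4 D ∧ (∀ i, Cfsg.Geo.IsTotallySingularFor (Cfsg.hermForm 8 F q) (D i)) ∧ H = Cfsg.Geo.decompositionStabilizer D ⊓ (Cfsg.GU 8 F q ⊓ Cfsg.Geo.specialLinear (Fin 8) F)) ∨
    (3 ≤ q ∧ ∃ (e : Fin 8 ≃ Fin 2 × Fin 4) (P : Matrix.GeneralLinearGroup (Fin 8) F) (f₁ : (Fin 2 → F) → (Fin 2 → F) → F) (f₂ : (Fin 4 → F) → (Fin 4 → F) → F), Cfsg.Geo.IsUnitaryFormPow q f₁ ∧ Cfsg.Geo.IsUnitaryFormPow q f₂ ∧ Cfsg.Geo.IsTensorFormStructure (fun x : F => x ^ q) (Cfsg.hermForm 8 F q) f₁ f₂ e P ∧ H = Cfsg.Geo.tensorProductSubgroup 2 4 e P ⊓ (Cfsg.GU 8 F q ⊓ Cfsg.Geo.specialLinear (Fin 8) F)) ∨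
    (∃ (F₀ : Subfield F) (r : ℕ) (P : Matrix.GeneralLinearGroup (Fin 8) F), r.Prime ∧ Odd r ∧ Fintype.card F = Nat.card F₀ ^ r ∧ Cfsg.Geo.IsFormRationalStructure (Cfsg.hermForm 8 F q) F₀ 1 P ∧ H = Cfsg.Geo.subfieldSubgroup F₀ P ⊓ (Cfsg.GU 8 F q ⊓ Cfsg.Geo.specialLinear (Fin 8) F)) ∨
    (∃ (F₀ : Subfield F) (P : Matrix.GeneralLinearGroup (Fin 8) F) (ζ : F), Fintype.card F = Nat.card F₀ ^ 2 ∧ ζ ≠ 0 ∧ ζ + ζ ^ q = 0 ∧ Cfsg.Geo.IsFormRationalStructure (Cfsg.hermForm 8 F q) F₀ ζ P ∧ (∀ u : Fin 8 → F, (∀ i, u i ∈ F₀) → (Cfsg.hermForm 8 F q) (Matrix.mulVec (P : Matrix (Fin 8) (Fin 8) F) u) (Matrix.mulVec (P : Matrix (Fin 8) (Fin 8) F) u) = 0) ∧ H = Cfsg.Geo.subfieldSubgroup F₀ P ⊓ (Cfsg.GU 8 F q ⊓ Cfsg.Geo.specialLinear (Fin 8) F)) ∨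
    (Odd q ∧ ∃ (F₀ : Subfield F) (P : Matrix.GeneralLinearGroup (Fin 8) F), Fintype.card F = Nat.card F₀ ^ 2 ∧ Cfsg.Geo.IsFormRationalStructure (Cfsg.hermForm 8 F q) F₀ 1 P ∧ H = Cfsg.Geo.subfieldSubgroup F₀ P ⊓ (Cfsg.GU 8 F q ⊓ Cfsg.Geo.specialLinear (Fin 8) F)) ∨
    (∃ (p : ℕ) (R : Subgroup (Matrix.GeneralLinearGroup (Fin 8) F)), p.Prime ∧ q = p ∧ p % 4 = 3 ∧ Cfsg.Geo.IsSymplecticTypeGroup 2 R ∧ Cfsg.Geo.ActsAbsolutelyIrreducibly (Cfsg.Geo.matrixSet R) ∧ R ≤ Cfsg.Geo.similarityGroup (Cfsg.hermForm 8 F q) ∧ Nat.card R = 256 ∧ Nat.card (Subgroup.center R) = 4 ∧ H = Cfsg.Geo.subgroupNormalizer R ⊓ (Cfsg.GU 8 F q ⊓ Cfsg.Geo.specialLinear (Fin 8) F)) ∨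
    Cfsg.Geo.InUnitaryResidualClass H := by
  obtain ⟨σ, hU⟩ := Cfsg.Agent.Lib.Helper57UConv.exists_US (n := 8) hF
  rcases umax hU (by norm_num) (fun hq => by subst hq; exact fun D hD => Cfsg.Agent.Lib.Helper74UPlanes2.planes_two_u hU D hD) H hH with h | h
  swap
  · exact Or.inr (Or.inr (Or.inr (Or.inr (Or.inr (Or.inr (Or.inr (Or.inr (Or.inr (Or.inr (Or.inr h))))))))))
  rcases h with ⟨W, h0, h1, h⟩ | ⟨W, h0, h1, h2, h⟩ | ⟨t, k, D, hcard, ht2, hk0, hk2, hD, h⟩ |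
    ⟨k, D, hk, hD, hs, h⟩ | ⟨r, K, hr, hodd, hdvd, hK, hs, h⟩ |
    ⟨n₁, n₂, e, P, f₁, f₂, hcard, h1, h2, hq3, hf₁, hf₂, hP, h⟩ | ⟨F₀, r, P, hr, hodd, hc, hP, h⟩ |
    ⟨hodd, F₀, P, hc, hP, h⟩ | ⟨hev, F₀, P, ζ, hc, h0, h1, hP, ha, h⟩ |
    ⟨r, R, p, e, k, h1, h2, h3, h4, h5, h6, h7, h⟩ | ⟨k, t, e, P, hcard, hk, ht, hP, h⟩
  · exact Or.inl ⟨W, h0, h1, h⟩
  · exact Or.inr (Or.inl ⟨W, h0, h1, h2, h⟩)
  · have ht9 : t ≤ 8 := by nlinarith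
    have hcases : (t = 8 ∧ k = 1) ∨ (t = 4 ∧ k = 2) ∨ (t = 2 ∧ k = 4) := by
      interval_cases t <;> omega
    rcases hcases with ⟨rfl, rfl⟩ | ⟨rfl, rfl⟩ | ⟨rfl, rfl⟩
    · exact Or.inr (Or.inr (Or.inl ⟨D, hD, h⟩))
    · exact Or.inr (Or.inr (Or.inr (Or.inl ⟨hk2 rfl, D, hD, h⟩)))
    · exact Or.inr (Or.inr (Or.inr (Or.inr (Or.inl ⟨D, hD, h⟩))))
  · obtain rfl : k = 4 := by omega
    exact Or.inr (Or.inr (Or.inr (Or.inr (Or.inr (Or.inl ⟨D, hD, hs, h⟩)))))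
  · exfalso
    have h9 : (8 : ℕ) = 2 ^ 3 := by norm_num
    rw [h9] at hdvd
    have := (Nat.prime_dvd_prime_iff_eq hr Nat.prime_two).mp (hr.dvd_of_dvd_pow hdvd)
    subst this
    exact absurd hodd (by decide)
  · have hcases : n₁ = 2 ∧ n₂ = 4 := by
      have : n₁ ≤ 8 := by nlinarith
      interval_cases n₁ <;> omega
    obtain ⟨rfl, rfl⟩ := hcases
    exact Or.inr (Or.inr (Or.inr (Or.inr (Or.inr (Or.inr (Or.inl ⟨hq3 rfl, e, P, f₁, f₂, hf₁, hf₂, hP, h⟩))))))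
  · exact Or.inr (Or.inr (Or.inr (Or.inr (Or.inr (Or.inr (Or.inr (Or.inl ⟨F₀, r, P, hr, hodd, hc, hP, h⟩)))))))
  · exact Or.inr (Or.inr (Or.inr (Or.inr (Or.inr (Or.inr (Or.inr (Or.inr (Or.inr (Or.inl
      ⟨hodd, F₀, P, hc, hP, h⟩)))))))))
  · exact Or.inr (Or.inr (Or.inr (Or.inr (Or.inr (Or.inr (Or.inr (Or.inr (Or.inl
      ⟨F₀, P, ζ, hc, h0, h1, hP, ha, h⟩))))))))
  · have hrp := h1.prime
    have hk0 : k ≠ 0 := by
      rintro rfl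
      simp at h7
    have hr2 : r = 2 := by
      have hdvd : r ∣ 2 ^ 3 := by
        have h9 : (2 : ℕ) ^ 3 = 8 := by norm_num
        rw [h9, h7]
        exact dvd_pow_self r hk0
      exact (Nat.prime_dvd_prime_iff_eq hrp Nat.prime_two).mp (hrp.dvd_of_dvd_pow hdvd)
    subst hr2
    have hk3 : k = 3 := by
      have h9 : (2 : ℕ) ^ 3 = 2 ^ k := by rw [← h7]; norm_num
      exact (Nat.pow_right_injective (le_refl 2) h9).symm
    subst hk3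
    rcases h6 with ⟨hodd, _⟩ | ⟨_, he, hc, hR⟩
    · exact absurd hodd (by decide)
    · subst he
      rw [hc] at h5
      obtain ⟨hp1, hp2, hp3⟩ := c6U_two hF h5
      exact Or.inr (Or.inr (Or.inr (Or.inr (Or.inr (Or.inr (Or.inr (Or.inr (Or.inr (Or.inr (Or.inl
        ⟨p, R, hp1, hp2, hp3, h1, h2, h3, by rw [hR]; norm_num, hc, h⟩))))))))))
  · exfalso
    have : 3 ^ 2 ≤ k ^ t := (Nat.pow_le_pow_left hk 2).trans (Nat.pow_le_pow_right (by omega) ht)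
    omega

end Cfsg.Agent.S5820
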