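import Cfsg.Statements.S5826
import Cfsg.Agent.Lib.Helper58AschG

set_option autoImplicit false
open Cfsg

namespace Cfsg.Agent.S5826

open Cfsg.Geo Cfsg.Agent.Lib.Helper58ODefs Cfsg.Agent.Lib.Helper58EDefs Cfsg.Agent.Lib.Helper97OBase
  Cfsg.Agent.Lib.Helper97OMain Cfsg.Agent.Lib.Helper97OProper Cfsg.Agent.Lib.Helper97GBase
  Cfsg.Agent.Lib.Helper97GSubfield Cfsg.Agent.Lib.Helper58GD Cfsg.Agent.Lib.Helper63OTens
  Cfsg.Agent.Lib.Helper58EMain Cfsg.Agent.Lib.Helper36ORed Cfsg.Agent.Lib.Helper58AschF Cfsg.Agent.Lib.Helper58AschG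

/-- Every maximal subgroup of Ω_8^-(q) is of one of the listed geometric types or lies in the residual class. Let F be a finite field with q elements, Q a non-degenerate quadratic form on F^8 of minus type (no totally singular 4-space), Ω the commutator subgroup of its isometry group, and H a maximal subgroup of Ω (inside GL_8(F)). Then H is the intersection with Ω of one of: the stabiliser of a non-zero totally singular subspace; for q odd, the stabiliser of a non-degenerate subspace of odd dimension; the stabiliser of a non-degenerate 2-space of minus type; for q ≥ 4, the stabiliser of a non-degenerate 2-space of plus type; the stabiliser of a non-degenerate 4-space; for q even, the stabiliser of the span of a non-singular vector; the normaliser of a degree-2 subfield of the matrix algebra; a subfield group of odd prime index whose F₀-structure carries a non-zero multiple of Q — or else H lies in the residual class of the orthogonal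 case (modulo scalars H is almost simple, with absolutely irreducible perfect socle preimage realisable over no proper subfield and fixing no non-degenerate unitary form). -/
theorem result {F : Type*} [Field F] [Fintype F] (Q : (Fin 8 → F) → F) (hQ : Cfsg.Geo.IsNondegenerateQuadraticForm Q) (hminus : ¬ Cfsg.Geo.IsPlusTypeOn Q ⊤) (H : Subgroup (Matrix.GeneralLinearGroup (Fin 8) F)) (hH : Cfsg.Geo.IsMaximalIn (Cfsg.Geo.omegaGL Q) H) :
    (∃ W : Submodule F (Fin 8 → F), W ≠ ⊥ ∧ Cfsg.Geo.IsTotallySingularQuad Q W ∧ H = Cfsg.Geo.subspaceStabilizer W ⊓ Cfsg.Geo.omegaGL Q) ∨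
    (Odd (Fintype.card F) ∧ ∃ W : Submodule F (Fin 8 → F), W ≠ ⊥ ∧ W ≠ ⊤ ∧ Odd (Module.finrank F W) ∧ Cfsg.Geo.IsNondegenerateOn (QuadraticMap.polar Q) W ∧ H = Cfsg.Geo.subspaceStabilizer W ⊓ Cfsg.Geo.omegaGL Q) ∨
    (∃ W : Submodule F (Fin 8 → F), Module.finrank F W = 2 ∧ Cfsg.Geo.IsNondegenerateOn (QuadraticMap.polar Q) W ∧ ¬ Cfsg.Geo.IsPlusTypeOn Q W ∧ H = Cfsg.Geo.subspaceStabilizer W ⊓ Cfsg.Geo.omegaGL Q) ∨
    (4 ≤ Fintype.card F ∧ ∃ W : Submodule F (Fin 8 → F), Module.finrank F W = 2 ∧ Cfsg.Geo.IsNondegenerateOn (QuadraticMap.polar Q) W ∧ Cfsg.Geo.IsPlusTypeOn Q W ∧ H = Cfsg.Geo.subspaceStabilizer W ⊓ Cfsg.Geo.omegaGL Q) ∨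
    (∃ W : Submodule F (Fin 8 → F), Module.finrank F W = 4 ∧ Cfsg.Geo.IsNondegenerateOn (QuadraticMap.polar Q) W ∧ H = Cfsg.Geo.subspaceStabilizer W ⊓ Cfsg.Geo.omegaGL Q) ∨
    (¬ Odd (Fintype.card F) ∧ ∃ v : (Fin 8 → F), Q v ≠ 0 ∧ H = Cfsg.Geo.subspaceStabilizer (Submodule.span F {v}) ⊓ Cfsg.Geo.omegaGL Q) ∨
    (∃ K : Subalgebra F (Matrix (Fin 8) (Fin 8) F), Cfsg.Geo.IsFieldSubalgebra 2 K ∧ H = Cfsg.Geo.subalgebraNormalizer K ⊓ Cfsg.Geo.omegaGL Q) ∨
    (∃ (F₀ : Subfield F) (r : ℕ) (P : Matrix.GeneralLinearGroup (Fin 8) F) (ζ : F), r.Prime ∧ Odd r ∧ Fintype.card F = Nat.card F₀ ^ r ∧ ζ ≠ 0 ∧ Cfsg.Geo.IsQuadFormRationalStructure (fun v : Fin 8 → F => ζ * Q v) F₀ P ∧ H = Cfsg.Geo.subfieldSubgroup F₀ P ⊓ Cfsg.Geo.omegaGL Q) ∨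
    Cfsg.Geo.InOrthogonalResidualClass H := by
  have hcard : Fintype.card (Fin 8) = 8 := Fintype.card_fin 8
  have h7 : 7 ≤ Fintype.card (Fin 8) := by omega
  have hl : Fintype.card (Fin 8) = 2 * 4 := by omega
  have hsq : IsSquare ((-1 : F) ^ 4) := ⟨1, by norm_num⟩
  have hHI : H ≤ isometryGroup F Q := hH.1.le.trans omega_le_iso
  have stab : ∀ W : Submodule F (Fin 8 → F), W ≠ ⊥ → W ≠ ⊤ → H ≤ subspaceStabilizer W →
      H = subspaceStabilizer W ⊓ omegaGL Q := fun W h0 h1 hle =>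
    eq_inf_of_le'' hH hle (not_le_stab_all hQ h7 h0 h1)
  have ts_ne_top : ∀ W : Submodule F (Fin 8 → F), IsTotallySingularQuad Q W → W ≠ ⊤ := by
    rintro W hW rfl
    obtain ⟨a, -, ha⟩ := exists_nonsingular hQ (W := ⊤) (by
      intro h
      have h1 : Module.finrank F (⊤ : Submodule F (Fin 8 → F)) = 0 := by rw [h, finrank_bot]
      rw [finrank_top, finrank_fun] at h1
      omega) (fun w _ hw => ⟨(hQ.nondegenerate w hw).1.imp fun x hx => ⟨trivial, hx⟩,
        (hQ.nondegenerate w hw).2.imp fun x hx => ⟨trivial, hx⟩⟩)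
    exact ha (hW a trivial)
  -- the three reducible cases
  have cTS : OTS Q H → ∃ W : Submodule F (Fin 8 → F), W ≠ ⊥ ∧ IsTotallySingularQuad Q W ∧
      H = subspaceStabilizer W ⊓ omegaGL Q := by
    rintro ⟨W, h0, hW, hle⟩
    exact ⟨W, h0, hW, stab W h0 (ts_ne_top W hW) hle⟩
  have cNS : ONS Q H → (¬ Odd (Fintype.card F) ∧ ∃ v : (Fin 8 → F), Q v ≠ 0 ∧
      H = subspaceStabilizer (Submodule.span F {v}) ⊓ omegaGL Q) := by
    rintro ⟨h2, v, hv, hle⟩
    exact ⟨not_odd_of_two_eq_zero h2, v, hv,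
      stab _ (span_ne_bot hQ hv) (span_ne_top hQ (by omega) hv) hle⟩
  by_cases hirr : ActsIrreducibly (matrixSet H)
  swap
  · rcases o_reducible hQ hHI hirr with h | h | h
    · exact Or.inl (cTS h)
    swap
    · exact Or.inr (Or.inr (Or.inr (Or.inr (Or.inr (Or.inl (cNS h))))))
    obtain ⟨W₀, h0₀, h1₀, hW₀, hle₀⟩ := h
    obtain ⟨W, h0, h1, hW, hle, hdim⟩ := nd_small hQ hHI h0₀ h1₀ hW₀ hle₀
    have hpos : 0 < Module.finrank F W := Module.finrank_pos_iff_exists_ne_zero.2 (by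
      obtain ⟨w, hw, hw0⟩ := Submodule.exists_mem_ne_zero_of_ne_bot h0
      exact ⟨⟨w, hw⟩, fun h => hw0 (congrArg Subtype.val h)⟩)
    by_cases hodd : Odd (Module.finrank F W)
    · have hq : Odd (Fintype.card F) := by
        by_contra hq
        have := even_finrank_of_nondeg (two_eq_zero_of_not_odd hq) hQ hW
        exact (Nat.not_even_iff_odd.2 hodd) this
      exact Or.inr (Or.inl ⟨hq, W, h0, h1, hodd, hW, stab W h0 h1 hle⟩)
    rw [Nat.not_odd_iff_even] at hodd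
    obtain ⟨j, hj⟩ := hodd
    obtain hfr | hfr : Module.finrank F W = 2 ∨ Module.finrank F W = 4 := by omega
    · rcases plane_cases hQ h7 hH hfr hW hle with h | h | ⟨hq, W', h0', h1', hfr', hW', heq⟩ | h
      · exact Or.inr (Or.inr (Or.inl h))
      · exact Or.inr (Or.inr (Or.inr (Or.inl h)))
      · exact Or.inr (Or.inl ⟨hq, W', h0', h1', by rw [hfr']; exact ⟨0, rfl⟩, hW', heq⟩)
      · exact Or.inr (Or.inr (Or.inr (Or.inr (Or.inr (Or.inl h)))))
    · exact Or.inr (Or.inr (Or.inr (Or.inr (Or.inl ⟨W, hfr, hW, stab W h0 h1 hle⟩))))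
  rcases o_main_gen (by omega) hQ hHI with h | h
  swap
  · exact Or.inr (Or.inr (Or.inr (Or.inr (Or.inr (Or.inr (Or.inr (Or.inr h)))))))
  have hinvirr : ∀ W : Submodule F (Fin 8 → F), W ≠ ⊥ → W ≠ ⊤ → ¬ H ≤ subspaceStabilizer W := by
    intro W h0 h1 hle
    rcases hirr W (fun s hs => by
      obtain ⟨g, hg, rfl⟩ := hs
      rintro _ ⟨w, hw, rfl⟩
      rw [Matrix.toLin'_apply]
      exact inv_of_le hle g hg w hw) with h | h
    · exact h0 h
    · exact h1 h
  rcases h with ⟨W, h0, hW, hle⟩ | ⟨W, h0, h1, hW, hle⟩ | ⟨h2, v, hv, hle⟩ | ⟨t, k, D, hD, hle⟩ | h |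
    ⟨r, K, hr, hK, hadj, hle⟩ | ⟨d, s, e, P, G₁, G₂, hd, hs, h₁, h₂, hG, hle⟩ |
    ⟨N, hNH, hnorm, hNs, hcomm, habs, hmin⟩ |
    ⟨k, m, e, P, G, T, hh, hm, hk, hGu, hG, hle, hTH, hTperf, hTs, hmem⟩ |
    ⟨F₀, r, P, ζ, hr, hc, hζ, hrat, hle⟩
  · exact absurd hle (hinvirr W h0 (ts_ne_top W hW))
  · exact absurd hle (hinvirr W h0 h1)
  · exact absurd hle (hinvirr _ (span_ne_bot hQ hv) (span_ne_top hQ (by omega) hv))
  · -- decompositions
    exfalso
    have hcd := decomp_card D hD.decomp.decomp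
    have ht2 := hD.decomp.decomp.two_le
    rw [hcard] at hcd
    have hev : Even t := by
      have ht8 : t ∣ 8 := ⟨k, hcd⟩
      have hle8 : t ≤ 8 := Nat.le_of_dvd (by omega) ht8
      interval_cases t <;> first | decide | omega
    exact hminus (plus_of_dec hQ hD hev hl hsq)
  · exact absurd (plus_of_pair h) hminus
  · -- fields
    have hdvd := field_dvd K hK
    rw [hcard] at hdvd
    obtain rfl : r = 2 := by
      have : r ∣ 2 ^ 3 := by norm_num; exact hdvd
      exact (Nat.prime_dvd_prime_iff_eq hr Nat.prime_two).1 (hr.dvd_of_dvd_pow this)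
    exact Or.inr (Or.inr (Or.inr (Or.inr (Or.inr (Or.inr (Or.inl ⟨K, hK,
      eq_inf_of_le'' hH hle (not_le_field_all hQ h7 (by omega) K hK)⟩))))))
  · -- tensor products
    exfalso
    have hds := Fintype.card_congr e
    rw [hcard] at hds
    simp at hds
    obtain ⟨rfl, rfl⟩ | ⟨rfl, rfl⟩ : (d = 2 ∧ s = 4) ∨ (d = 4 ∧ s = 2) := by
      have hd8 : d ∣ 8 := ⟨s, hds⟩
      have hle8 : d ≤ 8 := Nat.le_of_dvd (by omega) hd8
      interval_cases d <;> omega
    · exact hminus (plus_of_tens_two hQ hHI hirr (by omega) ⟨2, rfl⟩ e P G₁ G₂ h₁ h₂ hG hle hl hsq)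
    · obtain ⟨e', hle', hG'⟩ := tens_form_swap e P hle G₁ G₂ hG
      exact hminus (plus_of_tens_two hQ hHI hirr (by omega) ⟨2, rfl⟩ e' P G₂ G₁ h₂ h₁ hG' hle' hl hsq)
  · -- class 6
    exfalso
    obtain ⟨k, D, hD⟩ := c6_dec (by omega) hQ (hNH.trans hHI) hcomm habs
    exact hminus (plus_of_dec hQ hD ⟨1, rfl⟩ hl hsq)
  · -- tensor powers
    exfalso
    have hkm := Fintype.card_congr e
    rw [hcard] at hkm
    simp at hkm
    obtain ⟨rfl, rfl⟩ : m = 2 ∧ k = 3 := by
      have hm2 : m ≤ 2 := by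
        by_contra hcon
        have : 3 ^ 2 ≤ m ^ k :=
          (Nat.pow_le_pow_left (by omega) 2).trans (Nat.pow_le_pow_right (by omega) hk)
        omega
      obtain rfl : m = 2 := by omega
      have h3 : k ≤ 3 := by
        by_contra hcon
        have : 2 ^ 4 ≤ 2 ^ k := Nat.pow_le_pow_right (by omega) (by omega)
        omega
      interval_cases k <;> simp_all
    exact hminus (plus_of_wr hQ hHI (k := 2) e P G T hh (by omega) hGu hG hTH hmem hl hsq)
  · -- subfields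
    by_cases hr2 : r = 2
    · subst hr2
      exact absurd (plus_of_sub_two hQ hl hc P hζ hrat) hminus
    · exact Or.inr (Or.inr (Or.inr (Or.inr (Or.inr (Or.inr (Or.inr (Or.inl ⟨F₀, r, P, ζ, hr,
        hr.odd_of_ne_two hr2, hc, hζ, hrat,
        eq_inf_of_le'' hH hle (not_le_subfield_all hQ h7 (subfield_ne_top_of_card hr hc) P)⟩)))))))

end Cfsg.Agent.S5826
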