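import Cfsg.Statements.S5829
import Cfsg.Agent.Lib.Helper57AschMax

set_option autoImplicit false
open Cfsg Cfsg.Agent.Lib.Helper57AschMax

namespace Cfsg.Agent.S5829

/-- Every maximal subgroup of SL_9(q) is of one of the listed geometric types or lies in the residual class. Let F be a finite field with q elements (p its characteristic) and H a maximal subgroup of SL_9(F) (inside GL_9(F)). Then H is the intersection with SL_9(F) of one of: the stabiliser of a proper non-zero subspace; for q ≥ 5, the stabiliser of a decomposition into 9 independent 1-spaces; the stabiliser of a decomposition into 3 independent 3-spaces; the normaliser of a degree-3 subfield of the matrix algebra; a subfield group for a subfield F₀ with |F| = |F₀|^r, r prime; for q = p prime with p ≡ 1 mod 3, the normaliser of an absolutely irreducible 3-subgroup R of exponent 3 and order 3^(1+2m) with centre of order 3, all of whose characteristic abelian subgroups are cyclic, F being the smallest field of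 characteristic p containing the cube roots of unity (here R is extraspecial of order 3^5); the stabiliser of a tensor decomposition into 2 factors of dimension 3; for q odd, the similarity group of a non-degenerate quadratic form; the similarity group of a non-degenerate unitary form — or else H lies in the residual class of the linear case (modulo scalars H is almost simple, with absolutely irreducible perfect socle preimage realisable over no proper subfield and fixing no non-degenerate quadratic, symplectic or unitary form). -/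
theorem result {F : Type*} [Field F] [Fintype F] (H : Subgroup (Matrix.GeneralLinearGroup (Fin 9) F)) (hH : Cfsg.Geo.IsMaximalIn (Cfsg.Geo.specialLinear (Fin 9) F) H) :
    (∃ W : Submodule F (Fin 9 → F), W ≠ ⊥ ∧ W ≠ ⊤ ∧ H = Cfsg.Geo.subspaceStabilizer W ⊓ Cfsg.Geo.specialLinear (Fin 9) F) ∨
    (5 ≤ Fintype.card F ∧ ∃ D : Fin 9 → Submodule F (Fin 9 → F), Cfsg.Geo.IsMDecomposition 1 D ∧ H = Cfsg.Geo.decompositionStabilizer D ⊓ Cfsg.Geo.specialLinear (Fin 9) F) ∨
    (∃ D : Fin 3 → Submodule F (Fin 9 → F), Cfsg.Geo.IsMDecomposition 3 D ∧ H = Cfsg.Geo.decompositionStabilizer D ⊓ Cfsg.Geo.specialLinear (Fin 9) F) ∨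
    (∃ K : Subalgebra F (Matrix (Fin 9) (Fin 9) F), Cfsg.Geo.IsFieldSubalgebra 3 K ∧ H = Cfsg.Geo.subalgebraNormalizer K ⊓ Cfsg.Geo.specialLinear (Fin 9) F) ∨
    (∃ (F₀ : Subfield F) (r : ℕ) (P : Matrix.GeneralLinearGroup (Fin 9) F), r.Prime ∧ Fintype.card F = Nat.card F₀ ^ r ∧ H = Cfsg.Geo.subfieldSubgroup F₀ P ⊓ Cfsg.Geo.specialLinear (Fin 9) F) ∨
    ((∃ p : ℕ, p.Prime ∧ Fintype.card F = p ∧ (p % 3 = 1)) ∧ ∃ R : Subgroup (Matrix.GeneralLinearGroup (Fin 9) F), Cfsg.Geo.IsLinearSymplecticTypeData 3 R ∧ H = Cfsg.Geo.subgroupNormalizer R ⊓ Cfsg.Geo.specialLinear (Fin 9) F) ∨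
    (∃ (e : Fin 9 ≃ (Fin 2 → Fin 3)) (P : Matrix.GeneralLinearGroup (Fin 9) F), H = Cfsg.Geo.tensorWreathSubgroup 3 2 e P ⊓ Cfsg.Geo.specialLinear (Fin 9) F) ∨
    (Odd (Fintype.card F) ∧ ∃ Q : (Fin 9 → F) → F, Cfsg.Geo.IsNondegenerateQuadraticForm Q ∧ H = Cfsg.Geo.quadSimilarityGroup Q ⊓ Cfsg.Geo.specialLinear (Fin 9) F) ∨
    (∃ (σ : F ≃+* F) (f : (Fin 9 → F) → (Fin 9 → F) → F), Cfsg.Geo.IsUnitaryForm σ f ∧ H = Cfsg.Geo.similarityGroup f ⊓ Cfsg.Geo.specialLinear (Fin 9) F) ∨
    Cfsg.Geo.InLinearResidualClass H := by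
  have hn : 3 ≤ 9 := by norm_num
  rcases Cfsg.Agent.Lib.Helper57AschMax.main hn H with h | h
  swap
  · exact Or.inr (Or.inr (Or.inr (Or.inr (Or.inr (Or.inr (Or.inr (Or.inr (Or.inr h))))))))
  rcases h with ⟨W, h0, h1, h⟩ | ⟨t, m, D, hD, h⟩ | ⟨r, K, hr, hK, h⟩ | ⟨n₁, n₂, e, P, h1, h2, h⟩ |
    ⟨F₀, r, P, hr, hc, h⟩ | ⟨r, R, m, hR, hrm, h⟩ | ⟨m, t, e, P, hm, ht, h⟩ | ⟨f, hf, h⟩ | ⟨σ, f, hf, h⟩ |
    ⟨hodd, Q, hQ, h⟩
  · exact Or.inl (concl_sub hH h0 h1 h)
  · have hcard := Cfsg.Agent.Lib.Helper67AschD.decomp_card D hD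
    have ht2 := hD.two_le
    have hm0 := hD.pos
    have ht9 : t ≤ 9 := by nlinarith
    have hcases : (t = 9 ∧ m = 1) ∨ (t = 3 ∧ m = 3) := by
      interval_cases t <;> omega
    rcases hcases with ⟨rfl, rfl⟩ | ⟨rfl, rfl⟩
    · by_cases hq : 5 ≤ Fintype.card F
      · exact Or.inr (Or.inl ⟨hq, concl_dec hH hD h⟩)
      · rcases Cfsg.Agent.Lib.Helper97AschMono.c2_small (by norm_num) D hD (not_le.mp hq) with
          ⟨W, h0, h1, hW⟩ | ⟨hodd, Q, hQ, hle'⟩ | ⟨σ, f, hf, hle'⟩
        · exact Or.inl (concl_sub hH h0 h1 (h.trans hW))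
        · exact Or.inr (Or.inr (Or.inr (Or.inr (Or.inr (Or.inr (Or.inr (Or.inl
            (concl_quad hn hH hodd hQ (h.trans hle')))))))))
        · exact Or.inr (Or.inr (Or.inr (Or.inr (Or.inr (Or.inr (Or.inr (Or.inr (Or.inl
            (concl_unit hn hH hf (h.trans hle'))))))))))
    · exact Or.inr (Or.inr (Or.inl (concl_dec hH hD h)))
  · have hdvd := Cfsg.Agent.Lib.Helper67AschD.field_dvd K hK
    have hr3 : r = 3 := by
      have h9 : (9 : ℕ) = 3 ^ 2 := by norm_num
      rw [h9] at hdvd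
      exact (Nat.prime_dvd_prime_iff_eq hr Nat.prime_three).mp (hr.dvd_of_dvd_pow hdvd)
    subst hr3
    exact Or.inr (Or.inr (Or.inr (Or.inl (concl_field hn hH (by norm_num) hK h))))
  · exfalso
    have hcard := Fintype.card_congr e
    simp only [Fintype.card_fin, Fintype.card_prod] at hcard
    have : n₁ ≤ 9 := by nlinarith
    interval_cases n₁ <;> omega
  · exact Or.inr (Or.inr (Or.inr (Or.inr (Or.inl (concl_subfield (by norm_num) hH hr hc h)))))
  · have hr3 : r = 3 := by
      have hrp := hR.symplecticType.prime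
      have hm0 : m ≠ 0 := by
        rintro rfl
        simp at hrm
      have hdvd : r ∣ 3 ^ 2 := by
        have h9 : (3 : ℕ) ^ 2 = 9 := by norm_num
        rw [h9, hrm]
        exact dvd_pow_self r hm0
      exact (Nat.prime_dvd_prime_iff_eq hrp Nat.prime_three).mp (hrp.dvd_of_dvd_pow hdvd)
    subst hr3
    exact Or.inr (Or.inr (Or.inr (Or.inr (Or.inr (Or.inl ⟨c6_three hR, concl_c6 hn hH hR h⟩)))))
  · have hcard := Fintype.card_congr e
    simp only [Fintype.card_fin, Fintype.card_fun] at hcard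
    have hcases : m = 3 ∧ t = 2 := by
      have ht3 : t < 3 := by
        by_contra hcon
        have : 3 ^ 3 ≤ m ^ t := (Nat.pow_le_pow_left hm 3).trans (Nat.pow_le_pow_right (by omega) (by omega))
        omega
      have ht2 : t = 2 := by omega
      subst ht2
      refine ⟨?_, rfl⟩
      nlinarith
    obtain ⟨rfl, rfl⟩ := hcases
    exact Or.inr (Or.inr (Or.inr (Or.inr (Or.inr (Or.inr (Or.inl
      (concl_wreath hH (by norm_num) (by norm_num) h)))))))
  · exact absurd hf (Cfsg.Agent.Lib.Helper97AschForms.no_symplectic (by decide) f)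
  · exact Or.inr (Or.inr (Or.inr (Or.inr (Or.inr (Or.inr (Or.inr (Or.inr (Or.inl
      (concl_unit hn hH hf h)))))))))
  · exact Or.inr (Or.inr (Or.inr (Or.inr (Or.inr (Or.inr (Or.inr (Or.inl
      (concl_quad hn hH hodd hQ h))))))))

end Cfsg.Agent.S5829
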