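import Cfsg.Statements.S5832
import Cfsg.Agent.Lib.Helper57UMax
import Cfsg.Agent.Lib.Helper17UExc23

set_option autoImplicit false
open Cfsg Cfsg.Agent.Lib.Helper57UMax

namespace Cfsg.Agent.S5832

/-- Every maximal subgroup of SU_9(q) is of one of the listed geometric types or lies in the residual class. Let F be the field with q² elements, f the standard unitary form Σ u_i v_i^q on F^9, and H a maximal subgroup of SU_9(q) (inside GL_9(F)). Then H is the intersection with SU_9(q) of one of: the stabiliser of a non-zero totally isotropic subspace; the stabiliser of a non-degenerate 1-, 2-, 3- or 4-space; the stabiliser of a decomposition into nine mutually orthogonal non-degenerate 1-spaces; of a decomposition into three mutually orthogonal non-degenerate 3-spaces; the normaliser of an adjoint-closed degree-3 subfield of the matrix algebra; a subfield group of odd prime index whose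 F₀-structure carries f; for q odd, a subfield group of index 2 whose F₀-structure carries f; for q = p ≡ 2 mod 3 prime, the normaliser of an absolutely irreducible extraspecial group 3_+^(1+4) of exponent 3 inside the similarity group of f; for q ≥ 3, the stabiliser of a tensor decomposition of f as a tensor square of a unitary form on F^3 — or else H lies in the residual class of the unitary case. -/
theorem result {F : Type*} [Field F] [Fintype F] (q : ℕ) (hF : Fintype.card F = q ^ 2) (H : Subgroup (Matrix.GeneralLinearGroup (Fin 9) F)) (hH : Cfsg.Geo.IsMaximalIn (Cfsg.GU 9 F q ⊓ Cfsg.Geo.specialLinear (Fin 9) F) H) :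
    (∃ W : Submodule F (Fin 9 → F), W ≠ ⊥ ∧ Cfsg.Geo.IsTotallySingularFor (Cfsg.hermForm 9 F q) W ∧ H = Cfsg.Geo.subspaceStabilizer W ⊓ (Cfsg.GU 9 F q ⊓ Cfsg.Geo.specialLinear (Fin 9) F)) ∨
    (∃ W : Submodule F (Fin 9 → F), W ≠ ⊥ ∧ Cfsg.Geo.IsNondegenerateOn (Cfsg.hermForm 9 F q) W ∧ 2 * Module.finrank F W < 9 ∧ H = Cfsg.Geo.subspaceStabilizer W ⊓ (Cfsg.GU 9 F q ⊓ Cfsg.Geo.specialLinear (Fin 9) F)) ∨
    (∃ D : Fin 9 → Submodule F (Fin 9 → F), Cfsg.Geo.IsNondegenerateMDecomposition (Cfsg.hermForm 9 F q) 1 D ∧ H = Cfsg.Geo.decompositionStabilizer D ⊓ (Cfsg.GU 9 F q ⊓ Cfsg.Geo.specialLinear (Fin 9) F)) ∨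
    (∃ D : Fin 3 → Submodule F (Fin 9 → F), Cfsg.Geo.IsNondegenerateMDecomposition (Cfsg.hermForm 9 F q) 3 D ∧ H = Cfsg.Geo.decompositionStabilizer D ⊓ (Cfsg.GU 9 F q ⊓ Cfsg.Geo.specialLinear (Fin 9) F)) ∨
    (∃ K : Subalgebra F (Matrix (Fin 9) (Fin 9) F), Cfsg.Geo.IsFieldSubalgebra 3 K ∧ Cfsg.Geo.IsAdjointClosedFor (Cfsg.hermForm 9 F q) K ∧ H = Cfsg.Geo.subalgebraNormalizer K ⊓ (Cfsg.GU 9 F q ⊓ Cfsg.Geo.specialLinear (Fin 9) F)) ∨
    (∃ (F₀ : Subfield F) (r : ℕ) (P : Matrix.GeneralLinearGroup (Fin 9) F), r.Prime ∧ Odd r ∧ Fintype.card F = Nat.card F₀ ^ r ∧ Cfsg.Geo.IsFormRationalStructure (Cfsg.hermForm 9 F q) F₀ 1 P ∧ H = Cfsg.Geo.subfieldSubgroup F₀ P ⊓ (Cfsg.GU 9 F q ⊓ Cfsg.Geo.specialLinear (Fin 9) F)) ∨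
    (Odd q ∧ ∃ (F₀ : Subfield F) (P : Matrix.GeneralLinearGroup (Fin 9) F), Fintype.card F = Nat.card F₀ ^ 2 ∧ Cfsg.Geo.IsFormRationalStructure (Cfsg.hermForm 9 F q) F₀ 1 P ∧ H = Cfsg.Geo.subfieldSubgroup F₀ P ⊓ (Cfsg.GU 9 F q ⊓ Cfsg.Geo.specialLinear (Fin 9) F)) ∨
    (∃ (p : ℕ) (R : Subgroup (Matrix.GeneralLinearGroup (Fin 9) F)), p.Prime ∧ q = p ∧ p % 3 = 2 ∧ Cfsg.Geo.IsSymplecticTypeGroup 3 R ∧ Cfsg.Geo.ActsAbsolutelyIrreducibly (Cfsg.Geo.matrixSet R) ∧ R ≤ Cfsg.Geo.similarityGroup (Cfsg.hermForm 9 F q) ∧ Nat.card R = 243 ∧ Nat.card (Subgroup.center R) = 3 ∧ H = Cfsg.Geo.subgroupNormalizer R ⊓ (Cfsg.GU 9 F q ⊓ Cfsg.Geo.specialLinear (Fin 9) F)) ∨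
    (3 ≤ q ∧ ∃ (e : Fin 9 ≃ (Fin 2 → Fin 3)) (P : Matrix.GeneralLinearGroup (Fin 9) F) (f₁ : (Fin 3 → F) → (Fin 3 → F) → F), Cfsg.Geo.IsUnitaryFormPow q f₁ ∧ Cfsg.Geo.IsTensorPowerFormStructure (fun x : F => x ^ q) (Cfsg.hermForm 9 F q) f₁ e P ∧ H = Cfsg.Geo.tensorWreathSubgroup 3 2 e P ⊓ (Cfsg.GU 9 F q ⊓ Cfsg.Geo.specialLinear (Fin 9) F)) ∨
    Cfsg.Geo.InUnitaryResidualClass H := by
  obtain ⟨σ, hU⟩ := Cfsg.Agent.Lib.Helper57UConv.exists_US (n := 9) hF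
  rcases umax hU (by norm_num) (fun _ _ D hD => absurd (Cfsg.Agent.Lib.Helper67AschD.decomp_card D hD.decomp) (by omega)) H hH with h | h
  swap
  · exact Or.inr (Or.inr (Or.inr (Or.inr (Or.inr (Or.inr (Or.inr (Or.inr (Or.inr (h)))))))))
  rcases h with ⟨W, h0, h1, h⟩ | ⟨W, h0, h1, h2, h⟩ | ⟨t, k, D, hcard, ht2, hk0, hk2, hD, h⟩ |
    ⟨k, D, hk, hD, hs, h⟩ | ⟨r, K, hr, hodd, hdvd, hK, hs, h⟩ |
    ⟨n₁, n₂, e, P, f₁, f₂, hcard, h1, h2, hq3, hf₁, hf₂, hP, h⟩ | ⟨F₀, r, P, hr, hodd, hc, hP, h⟩ |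
    ⟨hodd, F₀, P, hc, hP, h⟩ | ⟨hev, F₀, P, ζ, hc, h0, h1, hP, ha, h⟩ |
    ⟨r, R, p, e, k, h1, h2, h3, h4, h5, h6, h7, h⟩ | ⟨k, t, e, P, hcard, hk, ht, hP, h⟩
  · exact Or.inl ⟨W, h0, h1, h⟩
  · exact Or.inr (Or.inl ⟨W, h0, h1, h2, h⟩)
  · have ht9 : t ≤ 9 := by nlinarith
    have hcases : (t = 9 ∧ k = 1) ∨ (t = 3 ∧ k = 3) := by
      interval_cases t <;> omega
    rcases hcases with ⟨rfl, rfl⟩ | ⟨rfl, rfl⟩
    · exact Or.inr (Or.inr (Or.inl ⟨D, hD, h⟩))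
    · exact Or.inr (Or.inr (Or.inr (Or.inl ⟨D, hD, h⟩)))
  · omega
  · have hr3 : r = 3 := by
      have h9 : (9 : ℕ) = 3 ^ 2 := by norm_num
      rw [h9] at hdvd
      exact (Nat.prime_dvd_prime_iff_eq hr Nat.prime_three).mp (hr.dvd_of_dvd_pow hdvd)
    subst hr3
    exact Or.inr (Or.inr (Or.inr (Or.inr (Or.inl ⟨K, hK, hs, h⟩))))
  · exfalso
    have : n₁ ≤ 9 := by nlinarith
    interval_cases n₁ <;> omega
  · exact Or.inr (Or.inr (Or.inr (Or.inr (Or.inr (Or.inl ⟨F₀, r, P, hr, hodd, hc, hP, h⟩)))))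
  · exact Or.inr (Or.inr (Or.inr (Or.inr (Or.inr (Or.inr (Or.inl ⟨hodd, F₀, P, hc, hP, h⟩))))))
  · exact absurd hev (by decide)
  · have hrp := h1.prime
    have hk0 : k ≠ 0 := by
      rintro rfl
      simp at h7
    have hr2 : r = 3 := by
      have hdvd : r ∣ 3 ^ 2 := by
        have h9 : (3 : ℕ) ^ 2 = 9 := by norm_num
        rw [h9, h7]
        exact dvd_pow_self r hk0
      exact (Nat.prime_dvd_prime_iff_eq hrp Nat.prime_three).mp (hrp.dvd_of_dvd_pow hdvd)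
    subst hr2
    have hk3 : k = 2 := by
      have h9 : (3 : ℕ) ^ 2 = 3 ^ k := by rw [← h7]; norm_num
      exact (Nat.pow_right_injective (by norm_num : 2 ≤ 3) h9).symm
    subst hk3
    rcases h6 with ⟨_, hc, _, hR⟩ | ⟨h32, _⟩
    · rw [hc] at h5
      obtain ⟨hp1, hp2, hp3⟩ := c6U_three hF h4 h5
      exact Or.inr (Or.inr (Or.inr (Or.inr (Or.inr (Or.inr (Or.inr (Or.inl ⟨p, R, hp1, hp2, hp3, h1, h2, h3, by rw [hR]; norm_num, hc, h⟩)))))))
    · omega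
  · have hcases : k = 3 ∧ t = 2 := by
      have ht3 : t < 3 := by
        by_contra hcon
        have : 3 ^ 3 ≤ k ^ t := (Nat.pow_le_pow_left hk 3).trans (Nat.pow_le_pow_right (by omega) (by omega))
        omega
      have ht2 : t = 2 := by omega
      subst ht2
      refine ⟨?_, rfl⟩
      nlinarith
    obtain ⟨rfl, rfl⟩ := hcases
    by_cases hq3 : 3 ≤ q
    · exact Or.inr (Or.inr (Or.inr (Or.inr (Or.inr (Or.inr (Or.inr (Or.inr (Or.inl
        ⟨hq3, uwreath hU hq3 hH (le_refl 3) (le_refl 2) hP h⟩))))))))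
    · have hq2 := two_le_q hF
      obtain rfl : q = 2 := by omega
      obtain ⟨R, g1, g2, g3, g4, g5, g6, g7, g8, g9⟩ := Cfsg.Agent.Lib.Helper17UExc23.exc23 hU (hH.1.le.trans inf_le_left) (le_refl 2) e hP h
      exact Or.inr (Or.inr (Or.inr (Or.inr (Or.inr (Or.inr (Or.inr (Or.inl
        ⟨2, R, Nat.prime_two, rfl, by norm_num, g1, g2,
          g3.trans Cfsg.Agent.Lib.Helper57UConv.Iso_le_similarityGroup, by rw [g7]; norm_num, g6,
          eq_inf_of_le' hH g9 (Cfsg.Agent.Lib.Helper15UPc6.notSU_c6 hU.unitary (by norm_num) g2 g4)⟩)))))))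

end Cfsg.Agent.S5832
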