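import Cfsg.Statements.S5835
import Cfsg.Agent.Lib.Helper58OMain
import Cfsg.Agent.Lib.Helper97OStd
import Cfsg.Agent.Lib.Helper95OPdec
import Cfsg.Agent.Lib.Helper11OField
import Cfsg.Agent.Lib.Helper15OPwreath
import Cfsg.Agent.Lib.Helper95OFrame3

set_option autoImplicit false
open Cfsg

namespace Cfsg.Agent.S5835

open Cfsg.Geo Cfsg.Agent.Lib.Helper58ODefs Cfsg.Agent.Lib.Helper58OMain Cfsg.Agent.Lib.Helper97OBase
  Cfsg.Agent.Lib.Helper97OStd Cfsg.Agent.Lib.Helper97OMain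
  Cfsg.Agent.Lib.Helper97OProper Cfsg.Agent.Lib.Helper97OProper2 Cfsg.Agent.Lib.Helper97OProper3
  Cfsg.Agent.Lib.Helper97OCliff2 Cfsg.Agent.Lib.Helper97GBase Cfsg.Agent.Lib.Helper97GSubfield
  Cfsg.Agent.Lib.Helper58GD Cfsg.Agent.Lib.Helper95OPdec Cfsg.Agent.Lib.Helper11OField
  Cfsg.Agent.Lib.Helper15OPwreath Cfsg.Agent.Lib.Helper95OFrame3

/-- Every maximal subgroup of Ω_9(q), q odd, is of one of the listed geometric types or lies in the residual class. Let F be a finite field of odd order q, Q the standard quadratic form x₀² + Σ x_i y_i on F^9 (coordinates Unit ⊕ (Fin 4 ⊕ Fin 4)), Ω the commutator subgroup of its isometry group, and H a maximal subgroup of Ω (inside GL_9(F)). Then H is the intersection with Ω of one of: the stabiliser of a non-zero totally singular subspace; the stabiliser of a non-zero non-degenerate subspace of even dimension (not a plus-type plane when q = 3); for q prime, the stabiliser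 of a decomposition into nine pairwise orthogonal, pairwise isometric non-degenerate 1-spaces; for q ≥ 5, the stabiliser of a decomposition into three pairwise orthogonal, pairwise isometric non-degenerate 3-spaces; the normaliser of a degree-3 subfield of the matrix algebra, self-adjoint for the polar form; a subfield group (|F| = |F₀|^r, r prime) whose F₀-structure carries Q; for q ≥ 5, the stabiliser of a tensor decomposition of the polar form as a tensor square of a symmetric form on F^3 — or else H lies in the residual class of the orthogonal case (modulo scalars H is almost simple, with absolutely irreducible perfect socle preimage realisable over no proper subfield and fixing no non-degenerate unitary form). -/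
theorem result {F : Type*} [Field F] [Fintype F] (hodd : Odd (Fintype.card F)) (H : Subgroup (Matrix.GeneralLinearGroup (Unit ⊕ (Fin 4 ⊕ Fin 4)) F)) (hH : Cfsg.Geo.IsMaximalIn (Cfsg.Geo.omegaGL (Cfsg.quadFormOdd 4 F)) H) :
    (∃ W : Submodule F (Unit ⊕ (Fin 4 ⊕ Fin 4) → F), W ≠ ⊥ ∧ Cfsg.Geo.IsTotallySingularQuad (Cfsg.quadFormOdd 4 F) W ∧ H = Cfsg.Geo.subspaceStabilizer W ⊓ Cfsg.Geo.omegaGL (Cfsg.quadFormOdd 4 F)) ∨
    (∃ W : Submodule F (Unit ⊕ (Fin 4 ⊕ Fin 4) → F), W ≠ ⊥ ∧ Even (Module.finrank F W) ∧ Cfsg.Geo.IsNondegenerateOn (QuadraticMap.polar (Cfsg.quadFormOdd 4 F)) W ∧ ¬ (Fintype.card F = 3 ∧ Module.finrank F W = 2 ∧ Cfsg.Geo.IsPlusTypeOn (Cfsg.quadFormOdd 4 F) W) ∧ H = Cfsg.Geo.subspaceStabilizer W ⊓ Cfsg.Geo.omegaGL (Cfsg.quadFormOdd 4 F)) ∨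
    ((Fintype.card F).Prime ∧ ∃ D : Fin 9 → Submodule F (Unit ⊕ (Fin 4 ⊕ Fin 4) → F), Cfsg.Geo.IsOrthogonalMDecomposition (Cfsg.quadFormOdd 4 F) 1 D ∧ H = Cfsg.Geo.decompositionStabilizer D ⊓ Cfsg.Geo.omegaGL (Cfsg.quadFormOdd 4 F)) ∨
    (5 ≤ Fintype.card F ∧ ∃ D : Fin 3 → Submodule F (Unit ⊕ (Fin 4 ⊕ Fin 4) → F), Cfsg.Geo.IsOrthogonalMDecomposition (Cfsg.quadFormOdd 4 F) 3 D ∧ H = Cfsg.Geo.decompositionStabilizer D ⊓ Cfsg.Geo.omegaGL (Cfsg.quadFormOdd 4 F)) ∨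
    (∃ K : Subalgebra F (Matrix (Unit ⊕ (Fin 4 ⊕ Fin 4)) (Unit ⊕ (Fin 4 ⊕ Fin 4)) F), Cfsg.Geo.IsFieldSubalgebra 3 K ∧ Cfsg.Geo.IsSelfAdjointFor (QuadraticMap.polar (Cfsg.quadFormOdd 4 F)) K ∧ H = Cfsg.Geo.subalgebraNormalizer K ⊓ Cfsg.Geo.omegaGL (Cfsg.quadFormOdd 4 F)) ∨
    (∃ (F₀ : Subfield F) (r : ℕ) (P : Matrix.GeneralLinearGroup (Unit ⊕ (Fin 4 ⊕ Fin 4)) F), r.Prime ∧ Fintype.card F = Nat.card F₀ ^ r ∧ Cfsg.Geo.IsQuadFormRationalStructure (Cfsg.quadFormOdd 4 F) F₀ P ∧ H = Cfsg.Geo.subfieldSubgroup F₀ P ⊓ Cfsg.Geo.omegaGL (Cfsg.quadFormOdd 4 F)) ∨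
    (5 ≤ Fintype.card F ∧ ∃ (e : (Unit ⊕ (Fin 4 ⊕ Fin 4)) ≃ (Fin 2 → Fin 3)) (P : Matrix.GeneralLinearGroup (Unit ⊕ (Fin 4 ⊕ Fin 4)) F) (f₁ : (Fin 3 → F) → (Fin 3 → F) → F), Cfsg.Geo.IsSymmetricForm f₁ ∧ Cfsg.Geo.IsTensorPowerFormStructure id (QuadraticMap.polar (Cfsg.quadFormOdd 4 F)) f₁ e P ∧ H = Cfsg.Geo.tensorWreathSubgroup 3 2 e P ⊓ Cfsg.Geo.omegaGL (Cfsg.quadFormOdd 4 F)) ∨
    Cfsg.Geo.InOrthogonalResidualClass H := by
  have h2 : (2 : F) ≠ 0 := two_ne_zero_of_odd hodd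
  have hQ := nondeg_odd (m := 4) h2
  have hcard : Fintype.card (Unit ⊕ (Fin 4 ⊕ Fin 4)) = 9 := card_odd
  have h7 : 7 ≤ Fintype.card (Unit ⊕ (Fin 4 ⊕ Fin 4)) := by omega
  have hoddn : Odd (Fintype.card (Unit ⊕ (Fin 4 ⊕ Fin 4))) := by rw [hcard]; exact ⟨4, rfl⟩
  have hHI : H ≤ isometryGroup F (quadFormOdd 4 F) := hH.1.le.trans omega_le_iso
  have hq5 : Fintype.card F ≠ 3 → 5 ≤ Fintype.card F := by
    intro h3
    have h1 : 1 < Fintype.card F := Fintype.one_lt_card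
    obtain ⟨j, hj⟩ := hodd
    omega
  -- lines
  have lines : (Fintype.card F).Prime → ODecOne (quadFormOdd 4 F) H →
      ((Fintype.card F).Prime ∧ ∃ D : Fin 9 → Submodule F (Unit ⊕ (Fin 4 ⊕ Fin 4) → F),
        IsOrthogonalMDecomposition (quadFormOdd 4 F) 1 D ∧
        H = decompositionStabilizer D ⊓ omegaGL (quadFormOdd 4 F)) := by
    rintro hp ⟨t, D, hD, hle⟩
    have ht : t = 9 := by
      have := decomp_card D hD.decomp.decomp
      omega
    subst ht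
    exact ⟨hp, D, hD, eq_inf_of_le'' hH hle (not_le_decomp hQ h2 (by omega) D hD)⟩
  rcases o_main_odd hoddn (by omega) hQ hodd std_odd hHI (hH.1.le.trans omega_le_SL) with h | h
  swap
  · exact Or.inr (Or.inr (Or.inr (Or.inr (Or.inr (Or.inr (Or.inr h))))))
  -- the two subspace cases
  have sub1 : ∀ U : Submodule F (Unit ⊕ (Fin 4 ⊕ Fin 4) → F), U ≠ ⊥ →
      IsTotallySingularQuad (quadFormOdd 4 F) U → H ≤ subspaceStabilizer U →
      ∃ W : Submodule F (Unit ⊕ (Fin 4 ⊕ Fin 4) → F), W ≠ ⊥ ∧ IsTotallySingularQuad (quadFormOdd 4 F) W ∧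
        H = subspaceStabilizer W ⊓ omegaGL (quadFormOdd 4 F) := fun U hU0 hU hle =>
    ⟨U, hU0, hU, eq_inf_of_le'' hH hle (not_le_stab_singular hQ h2 h7 hU0 hU)⟩
  rcases h with ⟨W, h0, hW, hle⟩ | ⟨W, h0, h1, hW, hle⟩ | ⟨t, k, D, hk, hD, hle⟩ | ⟨hp, hD⟩ |
    ⟨r, K, hr, hne, hK, hsa, hle⟩ | ⟨n₁, n₂, e, P, f₁, f₂, h1, h2', hf₁, hf₂, hstr, hle⟩ |
    ⟨F₀, r, P, hr, hc, hP, hle⟩ | ⟨k, t, e, P, f₁, hk, ht, h33, hf₁, hstr, hle⟩
  · exact Or.inl (sub1 W h0 hW hle)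
  · have hinvW : Inv H W := fun g hg w hw => ((mem_subspaceStabilizer_iff.1 (hle hg)) w).1 hw
    rcases reducible_case hQ h2 hoddn hHI hinvW h0 h1 with ⟨U, hU0, hU, hinv⟩ |
      ⟨U, hU0, hU1, heven, hU, hinv⟩
    · exact Or.inl (sub1 U hU0 hU (le_subspaceStabilizer_of_Inv hinv))
    · right; left
      by_cases hex : Fintype.card F = 3 ∧ Module.finrank F U = 2 ∧ IsPlusTypeOn (quadFormOdd 4 F) U
      · obtain ⟨hq3, hfr, hplus⟩ := hex
        obtain ⟨a, ha, hinva⟩ := plus_plane_case hQ hq3 hHI hinv hfr hU hplus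
        obtain ⟨hfr', hnd'⟩ := orth_span_singleton hQ h2 ha
        have hinv' := Inv_orth hQ hHI hinva
        have hb : orth hQ (Submodule.span F {a}) ≠ ⊥ := by
          intro hb
          rw [hb, finrank_bot] at hfr'
          omega
        have ht : orth hQ (Submodule.span F {a}) ≠ ⊤ := by
          intro ht
          rw [ht, finrank_top, finrank_fun] at hfr'
          omega
        refine ⟨_, hb, ?_, hnd', ?_, eq_inf_of_le'' hH (le_subspaceStabilizer_of_Inv hinv')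
          (not_le_stab_nondeg hQ h2 h7 hb ht hnd')⟩
        · exact ⟨4, by omega⟩
        · rintro ⟨_, h, _⟩
          omega
      · exact ⟨U, hU0, heven, hU, hex, eq_inf_of_le'' hH (le_subspaceStabilizer_of_Inv hinv)
          (not_le_stab_nondeg hQ h2 h7 hU0 hU1 hU)⟩
  · have hcd := decomp_card D hD.decomp.decomp
    have ht2 := hD.decomp.decomp.two_le
    rw [hcard] at hcd
    obtain ⟨rfl, rfl⟩ : t = 3 ∧ k = 3 := by
      have ht9 : t ∣ 9 := ⟨k, hcd⟩
      have hle9 : t ≤ 9 := Nat.le_of_dvd (by omega) ht9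
      interval_cases t <;> omega
    by_cases hq3 : Fintype.card F = 3
    · exact Or.inr (Or.inr (Or.inl (lines (by rw [hq3]; norm_num) (frame_three hq3 hQ hHI D hD hle))))
    · exact Or.inr (Or.inr (Or.inr (Or.inl ⟨hq5 hq3, D, hD,
        eq_inf_of_le'' hH hle (not_le_decomp_big hQ h2 h7 (by omega) D hD.decomp)⟩)))
  · exact Or.inr (Or.inr (Or.inl (lines hp hD)))
  · have hdvd := field_dvd K hK
    rw [hcard] at hdvd hne
    obtain rfl : r = 3 := by
      have : r ∣ 3 ^ 2 := by norm_num; exact hdvd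
      exact (Nat.prime_dvd_prime_iff_eq hr Nat.prime_three).1 (hr.dvd_of_dvd_pow this)
    exact Or.inr (Or.inr (Or.inr (Or.inr (Or.inl ⟨K, hK, hsa,
      eq_inf_of_le'' hH hle (not_le_subalgebraNormalizer hQ h2 h7 (by omega) K hK)⟩))))
  · exfalso
    have := Fintype.card_congr e
    rw [hcard] at this
    simp at this
    have h3 : n₁ ∣ 9 := ⟨n₂, this⟩
    have hle9 : n₁ ≤ 9 := Nat.le_of_dvd (by omega) h3
    interval_cases n₁ <;> omega
  · exact Or.inr (Or.inr (Or.inr (Or.inr (Or.inr (Or.inl ⟨F₀, r, P, hr, hc, hP,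
      eq_inf_of_le'' hH hle (not_le_subfieldSubgroup hQ h2 h7 (subfield_ne_top_of_card hr hc) P)⟩)))))
  · have hkt := Fintype.card_congr e
    rw [hcard] at hkt
    simp at hkt
    obtain ⟨rfl, rfl⟩ : k = 3 ∧ t = 2 := by
      have hk3 : k ≤ 3 := by
        by_contra hcon
        have : 4 ^ 2 ≤ k ^ t :=
          (Nat.pow_le_pow_left (by omega) 2).trans (Nat.pow_le_pow_right (by omega) ht)
        omega
      obtain rfl : k = 3 := by omega
      have : t ≤ 2 := by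
        by_contra hcon
        have : 3 ^ 3 ≤ 3 ^ t := Nat.pow_le_pow_right (by omega) (by omega)
        omega
      exact ⟨rfl, by omega⟩
    have hq3 : Fintype.card F ≠ 3 := fun h => h33 ⟨h, rfl⟩
    exact Or.inr (Or.inr (Or.inr (Or.inr (Or.inr (Or.inr (Or.inl ⟨hq5 hq3, e, P, f₁, hf₁, hstr,
      eq_inf_of_le'' hH hle (not_le_tensorWreath hQ h2 h7 (by omega) le_rfl e P f₁ hf₁ hstr)⟩))))))

end Cfsg.Agent.S5835
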