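import Cfsg.Statements.S5841
import Cfsg.Agent.Lib.Helper13UDefs
import Cfsg.Agent.Lib.Helper97UMain
import Cfsg.Agent.Lib.Helper67AschD
import Cfsg.Agent.Lib.Helper13UMain
import Cfsg.Agent.Lib.Helper57UConv
import Cfsg.Agent.Lib.Helper60UPdecomp
import Cfsg.Agent.Lib.Helper60UPsubalg
import Cfsg.Agent.Lib.Helper12UPtensor
import Cfsg.Agent.Lib.Helper74UTensor2
import Cfsg.Agent.Lib.Helper74UPlanes2

set_option autoImplicit false
open Cfsg

namespace Cfsg.Agent.S5841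

open Cfsg.Geo Matrix
open Cfsg.Agent.Lib.Helper97AschBase Cfsg.Agent.Lib.Helper97UBase Cfsg.Agent.Lib.Helper13UDefs
  Cfsg.Agent.Lib.Helper97UMain Cfsg.Agent.Lib.Helper97UProper Cfsg.Agent.Lib.Helper97UProper4
  Cfsg.Agent.Lib.Helper97AschSubfield
open scoped MatrixGroups Kronecker

/-- the statement, from the general theorem and the properness / small field facts. -/
theorem core {F : Type*} [Field F] [Fintype F] (q : ℕ) (hF : Fintype.card F = q ^ 2)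
    (H : Subgroup (Matrix.GeneralLinearGroup (Fin 10) F))
    (hH : Cfsg.Geo.IsMaximalIn (Cfsg.GU 10 F q ⊓ Cfsg.Geo.specialLinear (Fin 10) F) H)
    (σ : F ≃+* F) (hU : US σ (hermForm 10 F q) q)
    (hmain : UAlt σ (hermForm 10 F q) q H ∨ InUnitaryResidualClass H)
    (hdec : ∀ {t m : ℕ}, 2 ≤ m → ∀ D : Fin t → Submodule F (Fin 10 → F), IsMDecomposition m D →
      ¬ Iso (hermForm 10 F q) ⊓ specialLinear (Fin 10) F ≤ decompositionStabilizer D)
    (hsub : ∀ {r : ℕ}, 1 < r → ∀ K : Subalgebra F (Matrix (Fin 10) (Fin 10) F), IsFieldSubalgebra r K →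
      ¬ Iso (hermForm 10 F q) ⊓ specialLinear (Fin 10) F ≤ subalgebraNormalizer K)
    (htens : ∀ {d s : ℕ}, 2 ≤ d → 2 ≤ s → ∀ (e : Fin 10 ≃ Fin d × Fin s) {P : GL (Fin 10) F},
      IsON σ (hermForm 10 F q) P →
      ¬ Iso (hermForm 10 F q) ⊓ specialLinear (Fin 10) F ≤ tensorProductSubgroup d s e P)
    (hpl : q = 2 → ∀ {t : ℕ} (D : Fin t → Submodule F (Fin 10 → F)),
      IsNondegenerateMDecomposition (hermForm 10 F q) 2 D →
      ∃ D' : Fin 10 → Submodule F (Fin 10 → F), IsNondegenerateMDecomposition (hermForm 10 F q) 1 D' ∧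
        decompositionStabilizer D ⊓ Iso (hermForm 10 F q) ≤ decompositionStabilizer D')
    (hte : q = 2 → ∀ {s : ℕ}, 0 < s → ∀ (e : Fin 10 ≃ Fin 2 × Fin s) {P : GL (Fin 10) F},
      IsON σ (hermForm 10 F q) P →
      ∃ D' : Fin 2 → Submodule F (Fin 10 → F), IsNondegenerateMDecomposition (hermForm 10 F q) s D' ∧
        tensorProductSubgroup 2 s e P ⊓ Iso (hermForm 10 F q) ≤ decompositionStabilizer D')
    (hup : ∀ d : ℕ, IsUnitaryFormPow q (hermForm d F q))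
    (htf : ∀ {n₁ n₂ : ℕ} (e : Fin 10 ≃ Fin n₁ × Fin n₂) {P : GL (Fin 10) F},
      IsON σ (hermForm 10 F q) P →
      IsTensorFormStructure (fun x : F => x ^ q) (hermForm 10 F q) (hermForm n₁ F q) (hermForm n₂ F q) e P) :
    (∃ W : Submodule F (Fin 10 → F), W ≠ ⊥ ∧ Cfsg.Geo.IsTotallySingularFor (Cfsg.hermForm 10 F q) W ∧ H = Cfsg.Geo.subspaceStabilizer W ⊓ (Cfsg.GU 10 F q ⊓ Cfsg.Geo.specialLinear (Fin 10) F)) ∨
    (∃ W : Submodule F (Fin 10 → F), W ≠ ⊥ ∧ Cfsg.Geo.IsNondegenerateOn (Cfsg.hermForm 10 F q) W ∧ 2 * Module.finrank F W < 10 ∧ H = Cfsg.Geo.subspaceStabilizer W ⊓ (Cfsg.GU 10 F q ⊓ Cfsg.Geo.specialLinear (Fin 10) F)) ∨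
    (∃ D : Fin 10 → Submodule F (Fin 10 → F), Cfsg.Geo.IsNondegenerateMDecomposition (Cfsg.hermForm 10 F q) 1 D ∧ H = Cfsg.Geo.decompositionStabilizer D ⊓ (Cfsg.GU 10 F q ⊓ Cfsg.Geo.specialLinear (Fin 10) F)) ∨
    (3 ≤ q ∧ ∃ D : Fin 5 → Submodule F (Fin 10 → F), Cfsg.Geo.IsNondegenerateMDecomposition (Cfsg.hermForm 10 F q) 2 D ∧ H = Cfsg.Geo.decompositionStabilizer D ⊓ (Cfsg.GU 10 F q ⊓ Cfsg.Geo.specialLinear (Fin 10) F)) ∨
    (∃ D : Fin 2 → Submodule F (Fin 10 → F), Cfsg.Geo.IsNondegenerateMDecomposition (Cfsg.hermForm 10 F q) 5 D ∧ H = Cfsg.Geo.decompositionStabilizer D ⊓ (Cfsg.GU 10 F q ⊓ Cfsg.Geo.specialLinear (Fin 10) F)) ∨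
    (∃ D : Fin 2 → Submodule F (Fin 10 → F), Cfsg.Geo.IsMDecomposition 5 D ∧ (∀ i, Cfsg.Geo.IsTotallySingularFor (Cfsg.hermForm 10 F q) (D i)) ∧ H = Cfsg.Geo.decompositionStabilizer D ⊓ (Cfsg.GU 10 F q ⊓ Cfsg.Geo.specialLinear (Fin 10) F)) ∨
    (∃ K : Subalgebra F (Matrix (Fin 10) (Fin 10) F), Cfsg.Geo.IsFieldSubalgebra 5 K ∧ Cfsg.Geo.IsAdjointClosedFor (Cfsg.hermForm 10 F q) K ∧ H = Cfsg.Geo.subalgebraNormalizer K ⊓ (Cfsg.GU 10 F q ⊓ Cfsg.Geo.specialLinear (Fin 10) F)) ∨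
    (3 ≤ q ∧ ∃ (e : Fin 10 ≃ Fin 2 × Fin 5) (P : Matrix.GeneralLinearGroup (Fin 10) F) (f₁ : (Fin 2 → F) → (Fin 2 → F) → F) (f₂ : (Fin 5 → F) → (Fin 5 → F) → F), Cfsg.Geo.IsUnitaryFormPow q f₁ ∧ Cfsg.Geo.IsUnitaryFormPow q f₂ ∧ Cfsg.Geo.IsTensorFormStructure (fun x : F => x ^ q) (Cfsg.hermForm 10 F q) f₁ f₂ e P ∧ H = Cfsg.Geo.tensorProductSubgroup 2 5 e P ⊓ (Cfsg.GU 10 F q ⊓ Cfsg.Geo.specialLinear (Fin 10) F)) ∨
    (∃ (F₀ : Subfield F) (r : ℕ) (P : Matrix.GeneralLinearGroup (Fin 10) F), r.Prime ∧ Odd r ∧ Fintype.card F = Nat.card F₀ ^ r ∧ Cfsg.Geo.IsFormRationalStructure (Cfsg.hermForm 10 F q) F₀ 1 P ∧ H = Cfsg.Geo.subfieldSubgroup F₀ P ⊓ (Cfsg.GU 10 F q ⊓ Cfsg.Geo.specialLinear (Fin 10) F)) ∨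
    (∃ (F₀ : Subfield F) (P : Matrix.GeneralLinearGroup (Fin 10) F) (ζ : F), Fintype.card F = Nat.card F₀ ^ 2 ∧ ζ ≠ 0 ∧ ζ + ζ ^ q = 0 ∧ Cfsg.Geo.IsFormRationalStructure (Cfsg.hermForm 10 F q) F₀ ζ P ∧ (∀ u : Fin 10 → F, (∀ i, u i ∈ F₀) → (Cfsg.hermForm 10 F q) (Matrix.mulVec (P : Matrix (Fin 10) (Fin 10) F) u) (Matrix.mulVec (P : Matrix (Fin 10) (Fin 10) F) u) = 0) ∧ H = Cfsg.Geo.subfieldSubgroup F₀ P ⊓ (Cfsg.GU 10 F q ⊓ Cfsg.Geo.specialLinear (Fin 10) F)) ∨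
    (Odd q ∧ ∃ (F₀ : Subfield F) (P : Matrix.GeneralLinearGroup (Fin 10) F), Fintype.card F = Nat.card F₀ ^ 2 ∧ Cfsg.Geo.IsFormRationalStructure (Cfsg.hermForm 10 F q) F₀ 1 P ∧ H = Cfsg.Geo.subfieldSubgroup F₀ P ⊓ (Cfsg.GU 10 F q ⊓ Cfsg.Geo.specialLinear (Fin 10) F)) ∨
    Cfsg.Geo.InUnitaryResidualClass H := by
  have hf := hU.unitary
  have hHI : H ≤ Iso (hermForm 10 F q) := fun x hx => (hH.1.le hx).1
  have hq2 : 2 ≤ q := by
    have h1 : 1 < Fintype.card F := Fintype.one_lt_card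
    rw [hF] at h1
    by_contra hcon
    have : q = 0 ∨ q = 1 := by omega
    rcases this with rfl | rfl <;> simp at h1
  have hq3 : ¬ 3 ≤ q → q = 2 := fun h => by omega
  rcases hmain with h | h
  swap
  · exact Or.inr (Or.inr (Or.inr (Or.inr (Or.inr (Or.inr (Or.inr (Or.inr (Or.inr (Or.inr (Or.inr h))))))))))
  have c3 : ∀ D : Fin 10 → Submodule F (Fin 10 → F), IsNondegenerateMDecomposition (hermForm 10 F q) 1 D →
      H ≤ decompositionStabilizer D →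
      H = decompositionStabilizer D ⊓ (GU 10 F q ⊓ specialLinear (Fin 10) F) := fun D hD hle =>
    eq_inf_of_le' hH hle (not_le_decomp hf (by norm_num) D hD)
  have c5 : ∀ D : Fin 2 → Submodule F (Fin 10 → F), IsNondegenerateMDecomposition (hermForm 10 F q) 5 D →
      H ≤ decompositionStabilizer D →
      H = decompositionStabilizer D ⊓ (GU 10 F q ⊓ specialLinear (Fin 10) F) := fun D hD hle =>
    eq_inf_of_le' hH hle (hdec (by norm_num) D hD.decomp)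
  rcases h with ⟨W, h0, h1, h⟩ | ⟨W, h0, h1, h2, h⟩ | ⟨t, k, D, hD, h⟩ | ⟨k, D, hk, hD, hs, h⟩ |
    ⟨r, K, hr, hodd, hK, hs, h⟩ | ⟨n₁, n₂, e, P, h1, h2, hP, h⟩ | ⟨F₀, r, P, hr, hodd, hc, hP, h⟩ |
    ⟨F₀, P, hodd, hc, hP, h⟩ | ⟨F₀, P, ζ, hn, hc, h0, h1, hP, ha, h⟩ |
    ⟨r, R, p, e, k, h1, h2, h3, h3', h4, h5, h6, h7, h⟩ | ⟨k, t, e, P, hk, ht, hP, h⟩
  · exact Or.inl ⟨W, h0, h1, eq_inf_of_le' hH h (not_le_stab_singular hf h0 h1)⟩
  · refine Or.inr (Or.inl ⟨W, h0, h1, h2, eq_inf_of_le' hH h (not_le_stab_nondeg hf h0 ?_ h1)⟩)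
    rintro rfl
    rw [finrank_top, Module.finrank_fintype_fun_eq_card, Fintype.card_fin] at h2
    omega
  · have hcard := Cfsg.Agent.Lib.Helper67AschD.decomp_card D hD.decomp
    have ht2 := hD.decomp.two_le
    have hm0 := hD.decomp.pos
    have ht10 : t ≤ 10 := by nlinarith
    have hcases : (t = 10 ∧ k = 1) ∨ (t = 5 ∧ k = 2) ∨ (t = 2 ∧ k = 5) := by
      interval_cases t <;> omega
    rcases hcases with ⟨rfl, rfl⟩ | ⟨rfl, rfl⟩ | ⟨rfl, rfl⟩
    · exact Or.inr (Or.inr (Or.inl ⟨D, hD, c3 D hD h⟩))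
    · by_cases hq : 3 ≤ q
      · exact Or.inr (Or.inr (Or.inr (Or.inl ⟨hq, D, hD,
          eq_inf_of_le' hH h (hdec (by norm_num) D hD.decomp)⟩)))
      · obtain ⟨D', hD', hle⟩ := hpl (hq3 hq) D hD
        exact Or.inr (Or.inr (Or.inl ⟨D', hD', c3 D' hD' ((le_inf h hHI).trans hle)⟩))
    · exact Or.inr (Or.inr (Or.inr (Or.inr (Or.inl ⟨D, hD, c5 D hD h⟩))))
  · have hk5 : k = 5 := by omega
    subst hk5
    exact Or.inr (Or.inr (Or.inr (Or.inr (Or.inr (Or.inl ⟨D, hD, hs,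
      eq_inf_of_le' hH h (hdec (by norm_num) D hD)⟩)))))
  · have hdvd := Cfsg.Agent.Lib.Helper67AschD.field_dvd K hK
    have hr5 : r = 5 := by
      have h10 : (10 : ℕ) = 2 * 5 := by norm_num
      rw [h10] at hdvd
      rcases (Nat.Prime.dvd_mul hr).mp hdvd with hd | hd
      · have := (Nat.prime_dvd_prime_iff_eq hr Nat.prime_two).mp hd
        subst this
        exact absurd hodd (by decide)
      · exact (Nat.prime_dvd_prime_iff_eq hr Nat.prime_five).mp hd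
    subst hr5
    exact Or.inr (Or.inr (Or.inr (Or.inr (Or.inr (Or.inr (Or.inl ⟨K, hK, hs,
      eq_inf_of_le' hH h (hsub (by norm_num) K hK)⟩))))))
  · have hcard := Fintype.card_congr e
    simp only [Fintype.card_fin, Fintype.card_prod] at hcard
    have hn1 : n₁ ≤ 10 := by nlinarith
    have hcases : n₁ = 2 ∧ n₂ = 5 := by
      interval_cases n₁ <;> omega
    obtain ⟨rfl, rfl⟩ := hcases
    by_cases hq : 3 ≤ q
    · exact Or.inr (Or.inr (Or.inr (Or.inr (Or.inr (Or.inr (Or.inr (Or.inl ⟨hq, e, P, hermForm 2 F q,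
        hermForm 5 F q, hup 2, hup 5, htf e hP,
        eq_inf_of_le' hH h (htens (by norm_num) (by norm_num) e hP)⟩)))))))
    · obtain ⟨D', hD', hle⟩ := hte (hq3 hq) (by norm_num) e hP
      exact Or.inr (Or.inr (Or.inr (Or.inr (Or.inl ⟨D', hD', c5 D' hD' ((le_inf h hHI).trans hle)⟩))))
  · exact Or.inr (Or.inr (Or.inr (Or.inr (Or.inr (Or.inr (Or.inr (Or.inr (Or.inl ⟨F₀, r, P, hr, hodd, hc, hP,
      eq_inf_of_le' hH h (not_le_subfieldSubgroup hf (by norm_num)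
        (subfield_ne_top_of_card hr hc) P)⟩))))))))
  · exact Or.inr (Or.inr (Or.inr (Or.inr (Or.inr (Or.inr (Or.inr (Or.inr (Or.inr (Or.inr (Or.inl ⟨hodd, F₀, P,
      hc, hP, eq_inf_of_le' hH h (not_le_subfieldSubgroup hf (by norm_num)
        (subfield_ne_top_of_card Nat.prime_two hc) P)⟩))))))))))
  · exact Or.inr (Or.inr (Or.inr (Or.inr (Or.inr (Or.inr (Or.inr (Or.inr (Or.inr (Or.inl ⟨F₀, P, ζ,
      hc, h0, h1, hP, ha, eq_inf_of_le' hH h (not_le_subfieldSubgroup hf (by norm_num)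
        (subfield_ne_top_of_card Nat.prime_two hc) P)⟩)))))))))
  · exfalso
    have hrp := h1.prime
    have hk0 : k ≠ 0 := by
      rintro rfl
      simp at h7
    have h2r : 2 ∣ r ^ k := by rw [← h7]; norm_num
    have h5r : 5 ∣ r ^ k := by rw [← h7]; norm_num
    have e2 := (Nat.prime_dvd_prime_iff_eq Nat.prime_two hrp).mp (Nat.prime_two.dvd_of_dvd_pow h2r)
    have e5 := (Nat.prime_dvd_prime_iff_eq Nat.prime_five hrp).mp (Nat.prime_five.dvd_of_dvd_pow h5r)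
    omega
  · exfalso
    have hcard := Fintype.card_congr e
    simp only [Fintype.card_fin, Fintype.card_fun] at hcard
    have ht3 : t < 3 := by
      by_contra hcon
      have : 3 ^ 3 ≤ k ^ t := (Nat.pow_le_pow_left hk 3).trans (Nat.pow_le_pow_right (by omega) (by omega))
      omega
    have ht2 : t = 2 := by omega
    subst ht2
    have hk4 : k < 4 := by nlinarith
    have : k = 3 := by omega
    subst this
    omega


/-- Every maximal subgroup of SU_10(q) is of one of the listed geometric types or lies in the residual class. Let F be the field with q² elements (characteristic p), f the standard unitary form Σ u_i v_i^q on F^10, and H a maximal subgroup of SU_10(q) (inside GL_10(F)). Then H is the intersection with SU_10(q) of one of: the stabiliser of a non-zero totally isotropic subspace; the stabiliser of a non-zero non-degenerate subspace W with 2 dim W < 10; the stabiliser of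 a decomposition into 10 mutually orthogonal non-degenerate 1-spaces; for q ≥ 3, the stabiliser of a decomposition into 5 mutually orthogonal non-degenerate 2-spaces; the stabiliser of a decomposition into 2 mutually orthogonal non-degenerate 5-spaces; of a decomposition into two totally isotropic 5-spaces; the normaliser of an adjoint-closed degree-5 subfield of the matrix algebra; for q ≥ 3, the stabiliser of a tensor decomposition of f into unitary forms on F^2 and F^5; a subfield group of odd prime index whose F₀-structure carries f; a subfield group of index 2 and symplectic type; for q odd, a subfield group of index 2 whose F₀-structure carries f — or else H lies in the residual class of the unitary case (modulo scalars H is almost simple, with absolutely irreducible perfect socle preimage realisable over no proper subfield and fixing no non-degenerate quadratic or symplectic form).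 -/
theorem result {F : Type*} [Field F] [Fintype F] (q : ℕ) (hF : Fintype.card F = q ^ 2) (H : Subgroup (Matrix.GeneralLinearGroup (Fin 10) F)) (hH : Cfsg.Geo.IsMaximalIn (Cfsg.GU 10 F q ⊓ Cfsg.Geo.specialLinear (Fin 10) F) H) :
    (∃ W : Submodule F (Fin 10 → F), W ≠ ⊥ ∧ Cfsg.Geo.IsTotallySingularFor (Cfsg.hermForm 10 F q) W ∧ H = Cfsg.Geo.subspaceStabilizer W ⊓ (Cfsg.GU 10 F q ⊓ Cfsg.Geo.specialLinear (Fin 10) F)) ∨
    (∃ W : Submodule F (Fin 10 → F), W ≠ ⊥ ∧ Cfsg.Geo.IsNondegenerateOn (Cfsg.hermForm 10 F q) W ∧ 2 * Module.finrank F W < 10 ∧ H = Cfsg.Geo.subspaceStabilizer W ⊓ (Cfsg.GU 10 F q ⊓ Cfsg.Geo.specialLinear (Fin 10) F)) ∨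
    (∃ D : Fin 10 → Submodule F (Fin 10 → F), Cfsg.Geo.IsNondegenerateMDecomposition (Cfsg.hermForm 10 F q) 1 D ∧ H = Cfsg.Geo.decompositionStabilizer D ⊓ (Cfsg.GU 10 F q ⊓ Cfsg.Geo.specialLinear (Fin 10) F)) ∨
    (3 ≤ q ∧ ∃ D : Fin 5 → Submodule F (Fin 10 → F), Cfsg.Geo.IsNondegenerateMDecomposition (Cfsg.hermForm 10 F q) 2 D ∧ H = Cfsg.Geo.decompositionStabilizer D ⊓ (Cfsg.GU 10 F q ⊓ Cfsg.Geo.specialLinear (Fin 10) F)) ∨
    (∃ D : Fin 2 → Submodule F (Fin 10 → F), Cfsg.Geo.IsNondegenerateMDecomposition (Cfsg.hermForm 10 F q) 5 D ∧ H = Cfsg.Geo.decompositionStabilizer D ⊓ (Cfsg.GU 10 F q ⊓ Cfsg.Geo.specialLinear (Fin 10) F)) ∨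
    (∃ D : Fin 2 → Submodule F (Fin 10 → F), Cfsg.Geo.IsMDecomposition 5 D ∧ (∀ i, Cfsg.Geo.IsTotallySingularFor (Cfsg.hermForm 10 F q) (D i)) ∧ H = Cfsg.Geo.decompositionStabilizer D ⊓ (Cfsg.GU 10 F q ⊓ Cfsg.Geo.specialLinear (Fin 10) F)) ∨
    (∃ K : Subalgebra F (Matrix (Fin 10) (Fin 10) F), Cfsg.Geo.IsFieldSubalgebra 5 K ∧ Cfsg.Geo.IsAdjointClosedFor (Cfsg.hermForm 10 F q) K ∧ H = Cfsg.Geo.subalgebraNormalizer K ⊓ (Cfsg.GU 10 F q ⊓ Cfsg.Geo.specialLinear (Fin 10) F)) ∨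
    (3 ≤ q ∧ ∃ (e : Fin 10 ≃ Fin 2 × Fin 5) (P : Matrix.GeneralLinearGroup (Fin 10) F) (f₁ : (Fin 2 → F) → (Fin 2 → F) → F) (f₂ : (Fin 5 → F) → (Fin 5 → F) → F), Cfsg.Geo.IsUnitaryFormPow q f₁ ∧ Cfsg.Geo.IsUnitaryFormPow q f₂ ∧ Cfsg.Geo.IsTensorFormStructure (fun x : F => x ^ q) (Cfsg.hermForm 10 F q) f₁ f₂ e P ∧ H = Cfsg.Geo.tensorProductSubgroup 2 5 e P ⊓ (Cfsg.GU 10 F q ⊓ Cfsg.Geo.specialLinear (Fin 10) F)) ∨
    (∃ (F₀ : Subfield F) (r : ℕ) (P : Matrix.GeneralLinearGroup (Fin 10) F), r.Prime ∧ Odd r ∧ Fintype.card F = Nat.card F₀ ^ r ∧ Cfsg.Geo.IsFormRationalStructure (Cfsg.hermForm 10 F q) F₀ 1 P ∧ H = Cfsg.Geo.subfieldSubgroup F₀ P ⊓ (Cfsg.GU 10 F q ⊓ Cfsg.Geo.specialLinear (Fin 10) F)) ∨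
    (∃ (F₀ : Subfield F) (P : Matrix.GeneralLinearGroup (Fin 10) F) (ζ : F), Fintype.card F = Nat.card F₀ ^ 2 ∧ ζ ≠ 0 ∧ ζ + ζ ^ q = 0 ∧ Cfsg.Geo.IsFormRationalStructure (Cfsg.hermForm 10 F q) F₀ ζ P ∧ (∀ u : Fin 10 → F, (∀ i, u i ∈ F₀) → (Cfsg.hermForm 10 F q) (Matrix.mulVec (P : Matrix (Fin 10) (Fin 10) F) u) (Matrix.mulVec (P : Matrix (Fin 10) (Fin 10) F) u) = 0) ∧ H = Cfsg.Geo.subfieldSubgroup F₀ P ⊓ (Cfsg.GU 10 F q ⊓ Cfsg.Geo.specialLinear (Fin 10) F)) ∨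
    (Odd q ∧ ∃ (F₀ : Subfield F) (P : Matrix.GeneralLinearGroup (Fin 10) F), Fintype.card F = Nat.card F₀ ^ 2 ∧ Cfsg.Geo.IsFormRationalStructure (Cfsg.hermForm 10 F q) F₀ 1 P ∧ H = Cfsg.Geo.subfieldSubgroup F₀ P ⊓ (Cfsg.GU 10 F q ⊓ Cfsg.Geo.specialLinear (Fin 10) F)) ∨
    Cfsg.Geo.InUnitaryResidualClass H := by
  obtain ⟨σ, hU⟩ := Cfsg.Agent.Lib.Helper57UConv.exists_US (n := 10) hF
  have hHI : H ≤ Iso (hermForm 10 F q) := fun x hx => (hH.1.le hx).1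
  exact core q hF H hH σ hU (Cfsg.Agent.Lib.Helper13UMain.umain hU (by norm_num) H hHI)
    (fun hm D hD => Cfsg.Agent.Lib.Helper60UPdecomp.notSU_decomp hU.unitary hm D hD)
    (fun hr K hK => Cfsg.Agent.Lib.Helper60UPsubalg.notSU_subalg hU.unitary (by norm_num) hr K hK)
    (fun hd hs e _ hP => Cfsg.Agent.Lib.Helper12UPtensor.notSU_tensor hU hd hs e hP)
    (fun hq _ D hD => by
      subst hq
      exact Cfsg.Agent.Lib.Helper74UPlanes2.planes_two_u hU D hD)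
    (fun hq _ hs e _ hP => by
      subst hq
      exact Cfsg.Agent.Lib.Helper74UTensor2.tensor_two_u hU hs e hP)
    (fun d => Cfsg.Agent.Lib.Helper57UConv.unitaryPow_herm hF d)
    (fun e _ hP => Cfsg.Agent.Lib.Helper57UConv.tensorForm_of_ON hU e hP)

end Cfsg.Agent.S5841
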