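import Cfsg.Statements.S5856
import Cfsg.Agent.Lib.Helper97UMain
-- import your own Cfsg.Agent.* helpers here

set_option autoImplicit false
open Cfsg

namespace Cfsg.Agent.S5856

lemma arith : ∀ r < 11, ∀ k < 6, 0 < k → r ^ (2 * k) % 11 = 1 →
    (∀ d < 2 * k, 0 < d → r ^ d % 11 ≠ 1) → (k = 1 ∧ r = 10) ∨ (k = 5 ∧ (r = 2 ∨ r = 6 ∨ r = 7 ∨ r = 8)) := by
  intro r hr k hk
  interval_cases r <;> interval_cases k <;> decide


/-- Every maximal subgroup of SU_11(q) is of one of the listed geometric types or lies in the residual class. Let F be the field with q² elements (characteristic p), f the standard unitary form Σ u_i v_i^q on F^11, and H a maximal subgroup of SU_11(q) (inside GL_11(F)). Then H is the intersection with SU_11(q) of one of: the stabiliser of a non-zero totally isotropic subspace; the stabiliser of a non-zero non-degenerate subspace W with 2 dim W < 11; the stabiliser of a decomposition into 11 mutually orthogonal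 non-degenerate 1-spaces; the normaliser of an adjoint-closed degree-11 subfield of the matrix algebra; a subfield group of odd prime index whose F₀-structure carries f; for q odd, a subfield group of index 2 whose F₀-structure carries f; for q = p with p ≡ 10 mod 11, or q = p⁵ with p ≡ 2, 6, 7 or 8 mod 11, the normaliser of an absolutely irreducible 11-group of exponent 11, order 11³ and centre of order 11 with all characteristic abelian subgroups cyclic consisting of isometries of f — or else H lies in the residual class of the unitary case (modulo scalars H is almost simple, with absolutely irreducible perfect socle preimage realisable over no proper subfield and fixing no non-degenerate quadratic or symplectic form). -/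
theorem result {F : Type*} [Field F] [Fintype F] (q : ℕ) (hF : Fintype.card F = q ^ 2) (H : Subgroup (Matrix.GeneralLinearGroup (Fin 11) F)) (hH : Cfsg.Geo.IsMaximalIn (Cfsg.GU 11 F q ⊓ Cfsg.Geo.specialLinear (Fin 11) F) H) :
    (∃ W : Submodule F (Fin 11 → F), W ≠ ⊥ ∧ Cfsg.Geo.IsTotallySingularFor (Cfsg.hermForm 11 F q) W ∧ H = Cfsg.Geo.subspaceStabilizer W ⊓ (Cfsg.GU 11 F q ⊓ Cfsg.Geo.specialLinear (Fin 11) F)) ∨
    (∃ W : Submodule F (Fin 11 → F), W ≠ ⊥ ∧ Cfsg.Geo.IsNondegenerateOn (Cfsg.hermForm 11 F q) W ∧ 2 * Module.finrank F W < 11 ∧ H = Cfsg.Geo.subspaceStabilizer W ⊓ (Cfsg.GU 11 F q ⊓ Cfsg.Geo.specialLinear (Fin 11) F)) ∨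
    (∃ D : Fin 11 → Submodule F (Fin 11 → F), Cfsg.Geo.IsNondegenerateMDecomposition (Cfsg.hermForm 11 F q) 1 D ∧ H = Cfsg.Geo.decompositionStabilizer D ⊓ (Cfsg.GU 11 F q ⊓ Cfsg.Geo.specialLinear (Fin 11) F)) ∨
    (∃ K : Subalgebra F (Matrix (Fin 11) (Fin 11) F), Cfsg.Geo.IsFieldSubalgebra 11 K ∧ Cfsg.Geo.IsAdjointClosedFor (Cfsg.hermForm 11 F q) K ∧ H = Cfsg.Geo.subalgebraNormalizer K ⊓ (Cfsg.GU 11 F q ⊓ Cfsg.Geo.specialLinear (Fin 11) F)) ∨
    (∃ (F₀ : Subfield F) (r : ℕ) (P : Matrix.GeneralLinearGroup (Fin 11) F), r.Prime ∧ Odd r ∧ Fintype.card F = Nat.card F₀ ^ r ∧ Cfsg.Geo.IsFormRationalStructure (Cfsg.hermForm 11 F q) F₀ 1 P ∧ H = Cfsg.Geo.subfieldSubgroup F₀ P ⊓ (Cfsg.GU 11 F q ⊓ Cfsg.Geo.specialLinear (Fin 11) F)) ∨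
    (Odd q ∧ ∃ (F₀ : Subfield F) (P : Matrix.GeneralLinearGroup (Fin 11) F), Fintype.card F = Nat.card F₀ ^ 2 ∧ Cfsg.Geo.IsFormRationalStructure (Cfsg.hermForm 11 F q) F₀ 1 P ∧ H = Cfsg.Geo.subfieldSubgroup F₀ P ⊓ (Cfsg.GU 11 F q ⊓ Cfsg.Geo.specialLinear (Fin 11) F)) ∨
    (∃ (p : ℕ) (R : Subgroup (Matrix.GeneralLinearGroup (Fin 11) F)), p.Prime ∧ CharP F p ∧ ((q = p ∧ p % 11 = 10) ∨ (q = p ^ 5 ∧ (p % 11 = 2 ∨ p % 11 = 6 ∨ p % 11 = 7 ∨ p % 11 = 8))) ∧ Cfsg.Geo.IsSymplecticTypeGroup 11 R ∧ Cfsg.Geo.ActsAbsolutelyIrreducibly (Cfsg.Geo.matrixSet R) ∧ R ≤ Cfsg.GU 11 F q ∧ Nat.card R = 1331 ∧ Nat.card (Subgroup.center R) = 11 ∧ H = Cfsg.Geo.subgroupNormalizer R ⊓ (Cfsg.GU 11 F q ⊓ Cfsg.Geo.specialLinear (Fin 11) F)) ∨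
    Cfsg.Geo.InUnitaryResidualClass H := by
  have hn : Nat.Prime 11 := by norm_num
  obtain ⟨σ, hσq, hf⟩ := Cfsg.Agent.Lib.Helper97UMain.exists_sigma (n := 11) hF
  rcases Cfsg.Agent.Lib.Helper97UMain.umain hn (by norm_num) hf hF hσq H hH with
    h | h | h | h | h | h | ⟨R, hdata, hsym, habs, hRI, hc1, hc2, hHR⟩ | h
  · exact Or.inl h
  · exact Or.inr (Or.inl h)
  · exact Or.inr (Or.inr (Or.inl h))
  · exact Or.inr (Or.inr (Or.inr (Or.inl h)))
  · exact Or.inr (Or.inr (Or.inr (Or.inr (Or.inl h))))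
  · exact Or.inr (Or.inr (Or.inr (Or.inr (Or.inr (Or.inl h)))))
  · refine Or.inr (Or.inr (Or.inr (Or.inr (Or.inr (Or.inr (Or.inl ?_))))))
    obtain ⟨p, k, hp, hchar, hqk, hk0, hkn, hdvd, hmin⟩ :=
      Cfsg.Agent.Lib.Helper97UMain.field_data_u hn hF hdata
    have hr : p % 11 < 11 := Nat.mod_lt _ (by norm_num)
    refine ⟨p, R, hp, hchar, ?_, hsym, habs, hRI, by rw [hc1]; norm_num, hc2, hHR⟩
    rcases arith _ hr k (by omega) hk0 hdvd hmin with ⟨rfl, h1⟩ | ⟨rfl, h1⟩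
    · exact Or.inl ⟨by rw [hqk, pow_one], h1⟩
    · exact Or.inr ⟨hqk, h1⟩
  · exact Or.inr (Or.inr (Or.inr (Or.inr (Or.inr (Or.inr (Or.inr h))))))

end Cfsg.Agent.S5856
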