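import Mathlib
import Cfsg.Statements.S5876
import Cfsg.Agent.Lib.Helper96AschComm
import Cfsg.Agent.Lib.Helper38SolvChain

set_option autoImplicit false
open Cfsg

namespace Cfsg.Agent.S5876

open Cfsg.Geo Matrix
open Cfsg.Agent.Lib.Helper97AschBase Cfsg.Agent.Lib.Helper98AschDefs Cfsg.Agent.Lib.Helper98AschBasic
open Cfsg.Agent.Lib.Helper97AschClifford
open Cfsg.Agent.Lib.Helper38SolvChain
open scoped MatrixGroups commutatorElement

section
variable {F : Type*} [Field F] {n : ℕ}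

/-- the fixed space of an invertible matrix. -/
noncomputable def fx (g : GL (Fin n) F) : Submodule F (Fin n → F) :=
  Module.End.eigenspace (Matrix.toLin' (g : Matrix (Fin n) (Fin n) F)) 1

lemma mem_fx {g : GL (Fin n) F} {v : Fin n → F} :
    v ∈ fx g ↔ (g : Matrix (Fin n) (Fin n) F) *ᵥ v = v := by
  unfold fx
  rw [Module.End.mem_eigenspace_iff, Matrix.toLin'_apply, one_smul]

lemma inv_fix {g : GL (Fin n) F} {v : Fin n → F} (h : (g : Matrix (Fin n) (Fin n) F) *ᵥ v = v) :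
    ((g⁻¹ : GL (Fin n) F) : Matrix (Fin n) (Fin n) F) *ᵥ v = v := by
  conv_lhs => rw [← h]
  rw [Matrix.mulVec_mulVec, ← Units.val_mul, inv_mul_cancel, Units.val_one, Matrix.one_mulVec]

lemma dim_comm (g x : GL (Fin n) F) :
    2 * Module.finrank F (fx g) ≤ n + Module.finrank F (fx ⁅g, x⁆) := by
  have h1 : Module.finrank F (gmap x (fx g)) = Module.finrank F (fx g) := finrank_gmap x (fx g)
  have h2 := Submodule.finrank_sup_add_finrank_inf_eq (fx g) (gmap x (fx g))
  have h3 : Module.finrank F ((fx g ⊔ gmap x (fx g) : Submodule F (Fin n → F))) ≤ n := by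
    have := Submodule.finrank_le (fx g ⊔ gmap x (fx g) : Submodule F (Fin n → F))
    simpa using this
  have h4 : fx g ⊓ gmap x (fx g) ≤ fx ⁅g, x⁆ := by
    rintro v ⟨hv1, hv2⟩
    obtain ⟨w, hw, rfl⟩ := hv2
    rw [SetLike.mem_coe, mem_fx] at hv1 hw
    rw [Matrix.toLin'_apply] at hv1 ⊢
    have e1 : ((x⁻¹ : GL (Fin n) F) : Matrix (Fin n) (Fin n) F) *ᵥ
        ((x : Matrix (Fin n) (Fin n) F) *ᵥ w) = w := by
      rw [Matrix.mulVec_mulVec, ← Units.val_mul, inv_mul_cancel, Units.val_one, Matrix.one_mulVec]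
    rw [mem_fx, commutatorElement_def, Units.val_mul, Units.val_mul, Units.val_mul,
      ← Matrix.mulVec_mulVec, e1, ← Matrix.mulVec_mulVec, inv_fix hw, ← Matrix.mulVec_mulVec, hv1]
  have h5 := Submodule.finrank_mono h4
  omega

lemma fx_eq_bot_of_good [Fintype F] {G : Subgroup (GL (Fin n) F)}
    (hirr : ActsIrreducibly (matrixSet G))
    (hprim : ∀ (m t : ℕ) (D : Fin t → Submodule F (Fin n → F)), 2 ≤ t → IsMDecomposition m D →
      ¬ G ≤ decompositionStabilizer D) {a : G} (ha : Good a) : fx (a : GL (Fin n) F) = ⊥ := by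
  obtain ⟨ha1, T, hTn, hTc, haT⟩ := ha
  rcases Nat.eq_zero_or_pos n with hn | hn
  · subst hn
    exact Subsingleton.elim _ _
  have : NeZero n := ⟨hn.ne'⟩
  obtain ⟨T', hT'⟩ : ∃ T' : Subgroup (GL (Fin n) F), T' = T.map G.subtype := ⟨_, rfl⟩
  have hmemT' : ∀ x : GL (Fin n) F, x ∈ T' ↔ ∃ hx : x ∈ G, (⟨x, hx⟩ : G) ∈ T := by
    intro x
    rw [hT', Subgroup.mem_map]
    constructor
    · rintro ⟨y, hy, rfl⟩
      exact ⟨y.2, hy⟩
    · rintro ⟨hx, hxT⟩
      exact ⟨⟨x, hx⟩, hxT, rfl⟩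
  have hNz : Nz G T' := by
    intro h hh x hx
    obtain ⟨hxG, hxT⟩ := (hmemT' x).1 hx
    rw [hmemT']
    exact ⟨G.mul_mem (G.mul_mem hh hxG) (G.inv_mem hh), hTn.conj_mem _ hxT ⟨h, hh⟩⟩
  have hcomm : ∀ x ∈ T', ∀ y ∈ T', x * y = y * x := by
    intro x hx y hy
    obtain ⟨hxG, hxT⟩ := (hmemT' x).1 hx
    obtain ⟨hyG, hyT⟩ := (hmemT' y).1 hy
    have := hTc _ hxT _ hyT
    exact congrArg Subtype.val this
  rcases Cfsg.Agent.Lib.Helper96AschComm.comm_field_or_c2 hirr (NzA_env hNz)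
    (fun x hx y hy => commute_env hcomm hx hy) with hfield | ⟨t, m, D, hD, hle⟩
  · have haT' : (a : GL (Fin n) F) ∈ T' := (hmemT' _).2 ⟨a.2, haT⟩
    have hmem : ((a : GL (Fin n) F) : Matrix (Fin n) (Fin n) F) - 1 ∈ env T' :=
      (env T').sub_mem (val_mem_env haT') (env T').one_mem
    have hne : ((a : GL (Fin n) F) : Matrix (Fin n) (Fin n) F) - 1 ≠ 0 := by
      intro h
      apply ha1
      apply Subtype.ext
      apply Units.ext
      rw [sub_eq_zero] at h
      simpa using h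
    obtain ⟨y, hy, hxy⟩ := hfield _ hmem hne
    have hyx : y * (((a : GL (Fin n) F) : Matrix (Fin n) (Fin n) F) - 1) = 1 := by
      rw [commute_env hcomm hy hmem]; exact hxy
    rw [eq_bot_iff]
    intro v hv
    rw [mem_fx] at hv
    have h0 : (((a : GL (Fin n) F) : Matrix (Fin n) (Fin n) F) - 1) *ᵥ v = 0 := by
      rw [Matrix.sub_mulVec, hv, Matrix.one_mulVec, sub_self]
    have : v = y *ᵥ ((((a : GL (Fin n) F) : Matrix (Fin n) (Fin n) F) - 1) *ᵥ v) := by
      rw [Matrix.mulVec_mulVec, hyx, Matrix.one_mulVec]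
    rw [h0, Matrix.mulVec_zero] at this
    exact this
  · exact absurd hle (hprim m t D hD.two_le hD)

end

/-- Fixed-point spaces in primitive soluble linear groups. Let F be a finite field and G a soluble subgroup of GL_n(F) that acts irreducibly on F^n and primitively (G preserves no decomposition of F^n into two or more independent subspaces of equal dimension). Then every non-identity element g of G has fixed-point space {v : g v = v} of dimension at most 3n/4. -/
theorem result {F : Type*} [Field F] [Fintype F] {n : ℕ} (G : Subgroup (Matrix.GeneralLinearGroup (Fin n) F)) (hsol : IsSolvable G) (hirr : Cfsg.Geo.ActsIrreducibly (Cfsg.Geo.matrixSet G)) (hprim : ∀ (m t : ℕ) (D : Fin t → Submodule F (Fin n → F)), 2 ≤ t → Cfsg.Geo.IsMDecomposition m D → ¬ G ≤ Cfsg.Geo.decompositionStabilizer D) (g : Matrix.GeneralLinearGroup (Fin n) F) (hg : g ∈ G) (hg1 : g ≠ 1) :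
    4 * Module.finrank F (Module.End.eigenspace (Matrix.toLin' (g : Matrix (Fin n) (Fin n) F)) 1) ≤ 3 * n := by
  change 4 * Module.finrank F (fx g) ≤ 3 * n
  have : Group.IsSolvable G := hsol
  have hne : (⟨g, hg⟩ : G) ≠ 1 := fun h => hg1 (congrArg Subtype.val h)
  rcases chain (⟨g, hg⟩ : G) hne with h | ⟨x, h⟩ | ⟨x, y, h⟩
  · have h0 := fx_eq_bot_of_good hirr hprim h
    change fx g = ⊥ at h0
    rw [h0, finrank_bot]
    omega
  · have h0 := fx_eq_bot_of_good hirr hprim h
    have h1 := dim_comm g (x : GL (Fin n) F)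
    change fx ⁅g, (x : GL (Fin n) F)⁆ = ⊥ at h0
    rw [h0, finrank_bot] at h1
    omega
  · have h0 := fx_eq_bot_of_good hirr hprim h
    have h1 := dim_comm g (x : GL (Fin n) F)
    have h2 := dim_comm ⁅g, (x : GL (Fin n) F)⁆ (y : GL (Fin n) F)
    change fx ⁅⁅g, (x : GL (Fin n) F)⁆, (y : GL (Fin n) F)⁆ = ⊥ at h0
    rw [h0, finrank_bot] at h2
    omega

end Cfsg.Agent.S5876
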