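import Cfsg.Statements.S5942
import Mathlib
import Cfsg.Agent.Lib.Helper41Dk17

set_option autoImplicit false
open Cfsg

namespace Cfsg.Agent.S5942

open Cfsg.Agent.Lib.Helper41Dk

/-- Let K and F be finite fields of odd characteristic with #F = (#K)^r for an odd prime r. Then PSL_2(F) has a maximal subgroup isomorphic to PSL_2(K). -/
theorem result {F K : Type*} [Field F] [Fintype F] [Field K] [Fintype K] (q r : ℕ) (hK : Fintype.card K = q) (hF : Fintype.card F = q ^ r) (hq : Odd q) (hr : r.Prime) (hr2 : r ≠ 2) : ∃ H : Subgroup (Matrix.ProjectiveSpecialLinearGroup (Fin 2) F), IsCoatom H ∧ Nonempty (H ≃* Matrix.ProjectiveSpecialLinearGroup (Fin 2) K) := by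
  subst hK
  obtain ⟨ι⟩ := Cfsg.Agent.Lib.Helper18Field.exists_ringHom (K := K) (F := F) r hF.symm
  let K0 : Subfield F := ι.fieldRange
  let ε : K ≃+* K0 := ι.rangeRestrictFieldEquiv
  have hc : Nat.card K0 = Fintype.card K := by
    rw [← Nat.card_eq_fintype_card]; exact (Nat.card_congr ε.toEquiv).symm
  have hq' : Nat.card K0 ^ r = Fintype.card F := by rw [hc, hF]
  have hoddF : Odd (Fintype.card F) := by rw [hF]; exact hq.pow
  have h3 : 3 ≤ Nat.card K0 := by
    rw [hc]
    have h1 : 1 < Fintype.card K := Fintype.one_lt_card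
    obtain ⟨t, ht⟩ := hq
    omega
  exact ⟨PKbar K0, isCoatom_PKbar h3 hr hq',
    PKbar_equiv_PSL (PK_eq_SLK_of_odd hoddF (hr.eq_two_or_odd'.resolve_left hr2) hq') ε⟩

end Cfsg.Agent.S5942
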