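import Cfsg.Statements.S5944
import Cfsg.Agent.Lib.Helper98Perm

set_option autoImplicit false
open Cfsg

namespace Cfsg.Agent.S5944

/-- For n ≠ 4, every proper subgroup of the symmetric group S_n other than the alternating group A_n has index at least n. -/
theorem result (n : ℕ) (hn : n ≠ 4) (H : Subgroup (Equiv.Perm (Fin n))) (hH : H ≠ ⊤) (hA : H ≠ alternatingGroup (Fin n)) : n ≤ H.index := by
  have hnle : ¬ alternatingGroup (Fin n) ≤ H := by
    intro hle
    rcases Cfsg.Agent.Lib.Helper98Perm.eq_top_or_eq_alt_of_alt_le hle with h | h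
    · exact hH h
    · exact hA h
  by_cases h5 : 5 ≤ n
  · have := Cfsg.Agent.Lib.Helper98Perm.card_le_index (α := Fin n) (by simpa using h5) hnle
    simpa using this
  · by_contra hlt
    push Not at hlt
    have h2 : H.index ≤ 2 := by omega
    exact hnle (Equiv.Perm.alternatingGroup_le_of_index_le_two h2)

end Cfsg.Agent.S5944
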