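import Cfsg.Statements.S5952
-- import your own Cfsg.Agent.* helpers here

set_option autoImplicit false
open Cfsg

namespace Cfsg.Agent.S5952

/-- Which dimensions of invariant subspaces a semisimple linear map has. Let `V` be a finite-dimensional vector space over a field `F` and `f` an invertible semisimple linear map of `V`. Suppose `V` is the internal direct sum of the fixed space `C_V(f)` (the eigenspace for 1) and subspaces `U_1, …, U_s`, each `f`-invariant of dimension `a ≥ 1` on which `f` acts irreducibly (no `f`-invariant subspaces other than 0 and `U_j`). Let `0 < m < dim V` and `ℓ = m mod a`. Then `f` leaves some `m`-dimensional subspace invariant if and only if `dim C_V(f) ≥ m`, or `a ≤ m` and `dim C_V(f) ≥ ℓ`. -/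
theorem result {F V : Type*} [Field F] [AddCommGroup V] [Module F V]
    [FiniteDimensional F V] (f : V →ₗ[F] V) (hf : Function.Bijective f) (hss : Module.End.IsSemisimple f)
    {s a : ℕ} (ha : 1 ≤ a) (U : Fin s → Submodule F V)
    (hUinv : ∀ j, (U j).map f ≤ U j) (hUdim : ∀ j, Module.finrank F ↥(U j) = a)
    (hUirr : ∀ j, ∀ W : Submodule F V, W ≤ U j → W.map f ≤ W → W = ⊥ ∨ W = U j)
    (hdec : DirectSum.IsInternal (fun o : Option (Fin s) => o.elim (Module.End.eigenspace f 1) U))
    (m : ℕ) (hm : 0 < m) (hmV : m < Module.finrank F V) :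
    (∃ W : Submodule F V, Module.finrank F ↥W = m ∧ W.map f ≤ W) ↔
    (m ≤ Module.finrank F ↥(Module.End.eigenspace f 1) ∨
      (a ≤ m ∧ m % a ≤ Module.finrank F ↥(Module.End.eigenspace f 1))) := by
  classical
  set C := Module.End.eigenspace f 1 with hCdef
  have hCfix : ∀ x ∈ C, f x = x := by
    intro x hx
    have := Module.End.mem_eigenspace_iff.1 hx
    simpa using this
  have hind := hdec.submodule_iSupIndep
  have htop := hdec.submodule_iSup_eq_top
  -- subspaces of C
  have hsub : ∀ k, k ≤ Module.finrank F ↥C → ∃ C' : Submodule F V, C' ≤ C ∧ Module.finrank F ↥C' = k := by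
    intro k hk
    obtain ⟨g, hg⟩ := exists_linearIndependent_of_le_finrank hk
    refine ⟨Submodule.span F (Set.range (C.subtype ∘ g)), ?_, ?_⟩
    · rw [Submodule.span_le]
      rintro _ ⟨i, rfl⟩
      exact (g i).2
    · rw [finrank_span_eq_card (hg.map' C.subtype (Submodule.ker_subtype C))]
      simp
  have hdisj : ∀ (S : Finset (Fin s)) (j : Fin s), j ∉ S → Disjoint (U j) (C ⊔ S.sup U) := by
    intro S j hj
    refine (hind (some j)).mono_right ?_
    apply sup_le
    · exact le_iSup₂ (f := fun (o : Option (Fin s)) (_ : o ≠ some j) =>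
        o.elim (Module.End.eigenspace f 1) U) none (by simp)
    · apply Finset.sup_le
      intro i hi
      exact le_iSup₂ (f := fun (o : Option (Fin s)) (_ : o ≠ some j) =>
        o.elim (Module.End.eigenspace f 1) U) (some i) (by
          intro h
          rw [Option.some.injEq] at h
          exact hj (h ▸ hi))
  have htop' : C ⊔ (Finset.univ : Finset (Fin s)).sup U = ⊤ := by
    rw [eq_top_iff, ← htop]
    apply iSup_le
    rintro (_ | j)
    · exact le_sup_left
    · exact le_trans (Finset.le_sup (f := U) (Finset.mem_univ j)) le_sup_right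
  have hinvS : ∀ (C' : Submodule F V), C' ≤ C → ∀ S : Finset (Fin s),
      (C' ⊔ S.sup U).map f ≤ C' ⊔ S.sup U := by
    intro C' hC' S
    induction S using Finset.induction_on with
    | empty =>
      simp only [Finset.sup_empty, sup_bot_eq]
      rintro _ ⟨x, hx, rfl⟩
      rw [hCfix x (hC' hx)]
      exact hx
    | insert j S hj ih =>
      rw [Finset.sup_insert, sup_left_comm, Submodule.map_sup]
      exact sup_le_sup (hUinv j) ih
  have hdimS : ∀ (C' : Submodule F V), C' ≤ C → ∀ S : Finset (Fin s),
      Module.finrank F ↥(C' ⊔ S.sup U) = Module.finrank F ↥C' + a * S.card := by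
    intro C' hC' S
    induction S using Finset.induction_on with
    | empty => rw [Finset.sup_empty, sup_bot_eq]; simp
    | insert j S hj ih =>
      rw [Finset.sup_insert, sup_left_comm, Finset.card_insert_of_notMem hj]
      have h1 := Submodule.finrank_sup_add_finrank_inf_eq (U j) (C' ⊔ S.sup U)
      have h2 : U j ⊓ (C' ⊔ S.sup U) = ⊥ :=
        ((hdisj S j hj).mono_right (sup_le_sup_right hC' _)).eq_bot
      rw [h2, finrank_bot, ih, hUdim] at h1
      rw [Nat.mul_succ]
      omega
  have hn : Module.finrank F V = Module.finrank F ↥C + a * s := by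
    have := hdimS C le_rfl Finset.univ
    rw [htop', finrank_top] at this
    simpa using this
  constructor
  · rintro ⟨W, hWm, hWinv⟩
    have hstep : ∀ S : Finset (Fin s), ∃ k,
        Module.finrank F ↥(W ⊓ (C ⊔ S.sup U)) = Module.finrank F ↥(W ⊓ C) + a * k := by
      intro S
      induction S using Finset.induction_on with
      | empty => exact ⟨0, by rw [Finset.sup_empty, sup_bot_eq]; simp⟩
      | insert j S hj ih =>
        obtain ⟨k, hk⟩ := ih
        rw [Finset.sup_insert, sup_left_comm, sup_comm]
        set A := C ⊔ S.sup U with hA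
        set B := U j with hB
        have hAinv : A.map f ≤ A := hinvS C le_rfl S
        have hBinv : B.map f ≤ B := hUinv j
        have hAB : A ⊓ B = ⊥ := (hdisj S j hj).symm.eq_bot
        set W' := W ⊓ (A ⊔ B) with hW'
        have hW'inv : W'.map f ≤ W' := by
          refine le_trans (Submodule.map_inf_le _) (inf_le_inf hWinv ?_)
          rw [Submodule.map_sup]
          exact sup_le_sup hAinv hBinv
        set X := W' ⊔ A with hX
        have hXinv : X.map f ≤ X := by
          rw [hX, Submodule.map_sup]
          exact sup_le_sup hW'inv hAinv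
        have hXB : (X ⊓ B).map f ≤ X ⊓ B :=
          le_trans (Submodule.map_inf_le _) (inf_le_inf hXinv hBinv)
        have hXle : X ≤ A ⊔ B := sup_le inf_le_right le_sup_left
        have hXeq : X = A ⊔ (X ⊓ B) := by
          have h1 : A ⊔ (X ⊓ B) = (A ⊔ B) ⊓ X := by
            rw [inf_comm X B]
            exact (sup_inf_assoc_of_le B (le_sup_right : A ≤ X)).symm
          rw [h1]
          exact (inf_eq_right.2 hXle).symm
        have hW'A : W' ⊓ A = W ⊓ A := by
          rw [hW', inf_assoc, inf_eq_right.2 (le_sup_left : A ≤ A ⊔ B)]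
        have hd := Submodule.finrank_sup_add_finrank_inf_eq W' A
        rw [hW'A, hk] at hd
        rcases hUirr j (X ⊓ B) inf_le_right hXB with h0 | h0
        · rw [h0, sup_bot_eq] at hXeq
          rw [← hX, hXeq] at hd
          exact ⟨k, by omega⟩
        · have h0' : X ⊓ B = B := h0
          rw [h0'] at hXeq
          have hd2 := Submodule.finrank_sup_add_finrank_inf_eq A B
          rw [hAB, finrank_bot, hB, hUdim, ← hB] at hd2
          rw [← hX, hXeq] at hd
          refine ⟨k + 1, ?_⟩
          rw [Nat.mul_succ]
          omega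
    obtain ⟨k, hk⟩ := hstep Finset.univ
    rw [htop', inf_top_eq, hWm] at hk
    have hc : Module.finrank F ↥(W ⊓ C) ≤ Module.finrank F ↥C := Submodule.finrank_mono inf_le_right
    rcases Nat.eq_zero_or_pos k with h0 | h0
    · left
      rw [h0] at hk
      omega
    · right
      constructor
      · have : a * 1 ≤ a * k := Nat.mul_le_mul_left a h0
        omega
      · rw [hk, Nat.add_mul_mod_self_left]
        exact le_trans (Nat.mod_le _ _) hc
  · intro h
    have hmain : ∃ k c', k ≤ s ∧ c' ≤ Module.finrank F ↥C ∧ m = c' + a * k := by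
      rcases h with h | ⟨h1, h2⟩
      · exact ⟨0, m, Nat.zero_le _, h, by simp⟩
      · by_cases hs : m / a ≤ s
        · exact ⟨m / a, m % a, hs, h2, (Nat.mod_add_div m a).symm⟩
        · have h3 : a * s ≤ m := by
            have h4 : a * s ≤ a * (m / a) := Nat.mul_le_mul_left a (by omega)
            have h5 := Nat.mul_div_le m a
            omega
          exact ⟨s, m - a * s, le_rfl, by omega, by omega⟩
    obtain ⟨k, c', hk, hc', hm'⟩ := hmain
    obtain ⟨C', hC', hC'd⟩ := hsub c' hc'
    obtain ⟨S, _, hS⟩ := Finset.exists_subset_card_eq (s := (Finset.univ : Finset (Fin s))) (n := k)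
      (by simpa using hk)
    refine ⟨C' ⊔ S.sup U, ?_, hinvS C' hC' S⟩
    rw [hdimS C' hC' S, hC'd, hS, hm']

end Cfsg.Agent.S5952
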