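import Cfsg.Statements.S5955
import Cfsg.Agent.Lib.H94TiAsm

set_option autoImplicit false
open scoped MatrixGroups
open Cfsg

namespace Cfsg.Agent.S5955

/-- Elements of prime order of PSp_n(q) with no fixed totally isotropic `m`-space. Here `T = PSp_n(q)` with `n = 2d ≥ 4`, `(n, q) ≠ (4, 2)`, realised through the symplectic matrices over the field `F` with `q` elements (preserving the standard alternating form); an element of `T` of prime order `r` is such a matrix `x` with `x^r` scalar and `x` not scalar. For `r ≠ p` let `i` be the multiplicative order of `q` modulo `r`, `c = i` for `i` even and `c = 2i` for `i` odd, and write `k = n mod c`, `ℓ = m mod i`, `ℓ' = m mod c`, `n' = ⌊n/i⌋`, `m' = ⌊m/i⌋`, `t = (r−1)/i`. Let `1 ≤ m ≤ n/2` and let `r` be a prime dividing the number of totally isotropic `m`-spaces. Then every element of `T` of order `r` fixes a totally isotropic `m`-space if and only if either (i) `r = 2 ≠ p` and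 (`m` is even or `q ≡ 1 (mod 4)`); or (ii) `r ≠ p`, `r > 2`, `i ≤ m`, `k ≥ 2ℓ`, and (`i` is odd or `n' − 2m' ≥ t`). -/
theorem result {F : Type*} [Field F] [Fintype F] {p : ℕ} [Fact p.Prime] [CharP F p] {q : ℕ} (hq : Fintype.card F = q)
    (d m : ℕ) (hd : 2 ≤ d) (hT : (d, q) ≠ (2, 2)) (hm : 1 ≤ m) (hmd : m ≤ d)
    (r : ℕ) [Fact r.Prime]
    (hrΩ : r ∣ Nat.card {W : Submodule F (Fin d ⊕ Fin d → F) // Module.finrank F ↥W = m ∧ (∀ u ∈ W, ∀ v ∈ W, Cfsg.sympForm d F u v = 0)})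
    (i c : ℕ) (hi : i = orderOf (q : ZMod r)) (hc : c = if Even i then i else 2 * i) :
    (∀ x : ↥(Matrix.symplecticGroup (Fin d) F),
      (∃ z : F, ((x ^ r : ↥(Matrix.symplecticGroup (Fin d) F)) : Matrix (Fin d ⊕ Fin d) (Fin d ⊕ Fin d) F) = z • (1 : Matrix (Fin d ⊕ Fin d) (Fin d ⊕ Fin d) F)) →
      (∀ z : F, (x : Matrix (Fin d ⊕ Fin d) (Fin d ⊕ Fin d) F) ≠ z • (1 : Matrix (Fin d ⊕ Fin d) (Fin d ⊕ Fin d) F)) →
      ∃ W : Submodule F (Fin d ⊕ Fin d → F), Module.finrank F ↥W = m ∧ (∀ u ∈ W, ∀ v ∈ W, Cfsg.sympForm d F u v = 0) ∧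
        W.map (Matrix.toLin' (x : Matrix (Fin d ⊕ Fin d) (Fin d ⊕ Fin d) F)) ≤ W) ↔
    ((r = 2 ∧ p ≠ 2 ∧ (Even m ∨ q % 4 = 1)) ∨
     (r ≠ p ∧ 2 < r ∧ i ≤ m ∧ 2 * (m % i) ≤ (2 * d) % c ∧ (Odd i ∨ (r - 1) / i + 2 * (m / i) ≤ (2 * d) / i))) := by
  have hp : p.Prime := Fact.out
  have hrP : r.Prime := Fact.out
  have hd0 : 0 < d := by omega
  have hcc : c = Cfsg.Agent.Lib.H90SwDefs.cc F r := by
    rw [hc, hi, ← hq]
    rfl
  have hii : i = orderOf (Fintype.card F : ZMod r) := by rw [hi, hq]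
  have h2iff : (2 : F) = 0 ↔ p = 2 := by
    constructor
    · intro h
      have h1 : ((2 : ℕ) : F) = 0 := by exact_mod_cast h
      have h3 := (CharP.cast_eq_zero_iff F p 2).1 h1
      exact (Nat.prime_dvd_prime_iff_eq hp Nat.prime_two).1 h3
    · rintro rfl
      exact_mod_cast CharP.cast_eq_zero F 2
  have hrq : r ≠ p → ¬ r ∣ Fintype.card F ∧ (r : F) ≠ 0 := by
    intro hne
    constructor
    · intro h
      obtain ⟨k, _, hk⟩ := FiniteField.card F p
      rw [hk] at h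
      exact hne ((Nat.prime_dvd_prime_iff_eq hrP hp).1 (hrP.dvd_of_dvd_pow h))
    · intro h
      have h3 := (CharP.cast_eq_zero_iff F p r).1 h
      exact hne ((Nat.prime_dvd_prime_iff_eq hp hrP).1 h3).symm
  have hrp : r ≠ p := by
    rintro rfl
    exact Cfsg.Agent.Lib.H94TiAsm.caseP r m hmd hrΩ
  obtain ⟨h1, h3⟩ := hrq hrp
  constructor
  · intro H
    by_cases hr2 : r = 2
    · subst hr2
      left
      have hp2 : p ≠ 2 := fun h => hrp h.symm
      have := Cfsg.Agent.Lib.H94TiAsm.case2_mp (fun h => hp2 (h2iff.1 h)) hd0 m H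
      rw [hq] at this
      exact ⟨rfl, hp2, this⟩
    · right
      have := Cfsg.Agent.Lib.H94TiAsm.caseR_mp hr2 h1 h3 m hm hmd hrΩ H
      rw [← hcc, ← hii] at this
      exact ⟨hrp, by have := hrP.two_le; omega, this.1, this.2.1, this.2.2⟩
  · rintro (⟨rfl, hp2, hcond⟩ | ⟨-, hr2, -, hmod, hcond⟩) x ⟨z, hz⟩ -
    · rw [← hq] at hcond
      exact Cfsg.Agent.Lib.H94TiAsm.case2_mpr (fun h => hp2 (h2iff.1 h)) hd0 m hmd hcond x z hz
    · rw [hcc, hii] at hmod
      rw [hii] at hcond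
      exact Cfsg.Agent.Lib.H94TiAsm.caseR_mpr (by omega) h1 h3 hd0 m hmd hmod hcond x z hz

end Cfsg.Agent.S5955
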