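import Cfsg.Statements.S5956
import Cfsg.Agent.Lib.Helper94NdAsm

set_option autoImplicit false
open scoped MatrixGroups
open Cfsg

namespace Cfsg.Agent.S5956

/-- Elements of prime order of PSp_n(q) with no fixed nondegenerate `m`-space. Here `T = PSp_n(q)` with `n = 2d ≥ 4`, `(n, q) ≠ (4, 2)`, realised through the symplectic matrices over the field `F` with `q` elements (preserving the standard alternating form); an element of `T` of prime order `r` is such a matrix `x` with `x^r` scalar and `x` not scalar. For `r ≠ p` let `i` be the multiplicative order of `q` modulo `r`, `c = i` for `i` even and `c = 2i` for `i` odd, and write `k = n mod c`, `ℓ = m mod i`, `ℓ' = m mod c`, `n' = ⌊n/i⌋`, `m' = ⌊m/i⌋`, `t = (r−1)/i`. Let `m` be even with `2 ≤ m < n/2` and let `r` be a prime dividing the number of nondegenerate `m`-spaces. Then every element of `T` of order `r` fixes a nondegenerate `m`-space if and only if one of: (i) `r = p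 > 2` and every partition of `n` into parts of size at most `p` in which every odd part has even multiplicity contains (as a sub-multiset) a partition of `m` in which every odd part has even multiplicity; (ii) `r = p = 2` and (`n ≡ 2 (mod 4)` or `m ≡ 0 (mod 4)`); (iii) `r = 2 ≠ p`; (iv) `r ≠ p`, `r > 2`, `c ≤ m` and `k ≥ ℓ'`. -/
theorem result {F : Type*} [Field F] [Fintype F] {p : ℕ} [Fact p.Prime] [CharP F p] {q : ℕ} (hq : Fintype.card F = q)
    (d m : ℕ) (hd : 2 ≤ d) (hT : (d, q) ≠ (2, 2)) (hm : 2 ≤ m) (hme : Even m) (hmd : m < d)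
    (r : ℕ) [Fact r.Prime]
    (hrΩ : r ∣ Nat.card {W : Submodule F (Fin d ⊕ Fin d → F) // Module.finrank F ↥W = m ∧ (∀ u ∈ W, u ≠ 0 → ∃ v ∈ W, Cfsg.sympForm d F u v ≠ 0)})
    (i c : ℕ) (hi : i = orderOf (q : ZMod r)) (hc : c = if Even i then i else 2 * i) :
    (∀ x : ↥(Matrix.symplecticGroup (Fin d) F),
      (∃ z : F, ((x ^ r : ↥(Matrix.symplecticGroup (Fin d) F)) : Matrix (Fin d ⊕ Fin d) (Fin d ⊕ Fin d) F) = z • (1 : Matrix (Fin d ⊕ Fin d) (Fin d ⊕ Fin d) F)) →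
      (∀ z : F, (x : Matrix (Fin d ⊕ Fin d) (Fin d ⊕ Fin d) F) ≠ z • (1 : Matrix (Fin d ⊕ Fin d) (Fin d ⊕ Fin d) F)) →
      ∃ W : Submodule F (Fin d ⊕ Fin d → F), Module.finrank F ↥W = m ∧ (∀ u ∈ W, u ≠ 0 → ∃ v ∈ W, Cfsg.sympForm d F u v ≠ 0) ∧
        W.map (Matrix.toLin' (x : Matrix (Fin d ⊕ Fin d) (Fin d ⊕ Fin d) F)) ≤ W) ↔
    ((r = p ∧ 2 < p ∧ (∀ μ : Multiset ℕ, (∀ a ∈ μ, 0 < a ∧ a ≤ p) → (∀ a : ℕ, Odd a → Even (μ.count a)) → μ.sum = 2 * d →
        ∃ ν : Multiset ℕ, ν ≤ μ ∧ ν.sum = m ∧ ∀ a : ℕ, Odd a → Even (ν.count a))) ∨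
     (r = p ∧ p = 2 ∧ ((2 * d) % 4 = 2 ∨ m % 4 = 0)) ∨
     (r = 2 ∧ p ≠ 2) ∨
     (r ≠ p ∧ 2 < r ∧ c ≤ m ∧ m % c ≤ (2 * d) % c)) := by
  have hp : p.Prime := Fact.out
  have hrP : r.Prime := Fact.out
  have hd0 : 0 < d := by omega
  have hm2d : m ≤ 2 * d := by omega
  have hcc : c = Cfsg.Agent.Lib.H90SwDefs.cc F r := by
    rw [hc, hi, ← hq]
    rfl
  have h2iff : (2 : F) = 0 ↔ p = 2 := by
    constructor
    · intro h
      have h1 : ((2 : ℕ) : F) = 0 := by exact_mod_cast h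
      have h3 := (CharP.cast_eq_zero_iff F p 2).1 h1
      exact (Nat.prime_dvd_prime_iff_eq hp Nat.prime_two).1 h3
    · rintro rfl
      exact_mod_cast CharP.cast_eq_zero F 2
  have hrq : r ≠ p → ¬ r ∣ Fintype.card F ∧ (r : F) ≠ 0 := by
    intro hne
    constructor
    · intro h
      obtain ⟨k, _, hk⟩ := FiniteField.card F p
      rw [hk] at h
      exact hne ((Nat.prime_dvd_prime_iff_eq hrP hp).1 (hrP.dvd_of_dvd_pow h))
    · intro h
      have h3 := (CharP.cast_eq_zero_iff F p r).1 h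
      exact hne ((Nat.prime_dvd_prime_iff_eq hp hrP).1 h3).symm
  constructor
  · intro H
    by_cases hrp : r = p
    · subst hrp
      by_cases hp2 : r = 2
      · subst hp2
        right; left
        exact ⟨rfl, rfl, Cfsg.Agent.Lib.Helper94NdAsm.caseB_mp (h2iff.2 rfl) hd0 m hme H⟩
      · left
        refine ⟨rfl, by have := hp.two_le; omega, ?_⟩
        intro μ hμ hodd hsum
        exact Cfsg.Agent.Lib.Helper94NdAsm.caseA_mp r m hme hm2d H μ hμ hodd hsum
    · by_cases hr2 : r = 2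
      · right; right; left
        exact ⟨hr2, fun h => hrp (by rw [hr2, h])⟩
      · right; right; right
        obtain ⟨h1, h3⟩ := hrq hrp
        have := Cfsg.Agent.Lib.Helper94NdAsm.caseD_mp hr2 h1 h3 m hme hm2d hrΩ H
        rw [← hcc] at this
        exact ⟨hrp, by have := hrP.two_le; omega, this.1, this.2⟩
  · rintro (⟨rfl, hp2, hpart⟩ | ⟨rfl, rfl, hcond⟩ | ⟨rfl, hp2⟩ | ⟨hrp, hr2, -, hmod⟩) x ⟨z, hz⟩ -
    · exact Cfsg.Agent.Lib.Helper94NdAsm.caseA_mpr r (fun h => by have := h2iff.1 h; omega) hd0 m hpart x z hz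
    · exact Cfsg.Agent.Lib.Helper94NdAsm.caseB_mpr (h2iff.2 rfl) hd0 m hme hm2d hcond x z hz
    · exact Cfsg.Agent.Lib.Helper94NdAsm.caseC (fun h => hp2 (h2iff.1 h)) hd0 m hme hm2d x z hz
    · obtain ⟨h1, h3⟩ := hrq hrp
      rw [hcc] at hmod
      exact Cfsg.Agent.Lib.Helper94NdAsm.caseD_mpr (by omega) h1 h3 hd0 m hme hm2d hmod x z hz

end Cfsg.Agent.S5956
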