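import Cfsg.Statements.S5957
import Cfsg.Agent.Lib.Helper99Blocks

set_option autoImplicit false
open scoped MatrixGroups
open Cfsg

namespace Cfsg.Agent.S5957

/-- Involutions of PSL_n(q) and imprimitive subgroups. Here `T = PSL_n(F)` for a field `F` with `q = p^f` elements (`n ≥ 2`, `(n, q) ≠ (2, 2), (2, 3)`), `n = a·t` with `t ≥ 2`, and Ω is the set of direct-sum decompositions of `F^n` into `t` subspaces of dimension `a` (unordered; their number is the number of ordered ones divided by `t!`), whose stabilizers are the imprimitive subgroups of type GL_a(q) ≀ S_t (maximal except in some small cases; maximality is not assumed); an element of `T` of prime order `r` (a matrix `x` of determinant 1 with `x^r` scalar, `x` not scalar) fixes a point of Ω when it permutes the summands of some such decomposition. If the number of such decompositions is even, then every involution of `T` stabilizes one of them (the action is 2-elusive). -/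
theorem result {F : Type*} [Field F] [Fintype F] {p : ℕ} [Fact p.Prime] [CharP F p] {q : ℕ} (hq : Fintype.card F = q)
    (n a t : ℕ) (hn : 2 ≤ n) (hT : (n, q) ≠ (2, 2) ∧ (n, q) ≠ (2, 3)) (hat : n = a * t) (ha : 1 ≤ a) (ht : 2 ≤ t)
    (hΩ : 2 ∣ Nat.card {D : Fin t → Submodule F (Fin n → F) // Cfsg.Geo.IsMDecomposition a D} / Nat.factorial t)
    (x : Matrix.SpecialLinearGroup (Fin n) F)
    (hx1 : ∃ z : F, ((x ^ 2 : Matrix.SpecialLinearGroup (Fin n) F) : Matrix (Fin n) (Fin n) F) = z • (1 : Matrix (Fin n) (Fin n) F))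
    (hx2 : ∀ z : F, (x : Matrix (Fin n) (Fin n) F) ≠ z • (1 : Matrix (Fin n) (Fin n) F)) :
    ∃ D : Fin t → Submodule F (Fin n → F), Cfsg.Geo.IsMDecomposition a D ∧
        ∃ σ : Equiv.Perm (Fin t), ∀ j, (D j).map (Matrix.toLin' (x : Matrix (Fin n) (Fin n) F)) = D (σ j) := by
  classical
  obtain ⟨z, hz⟩ := hx1
  set T := Matrix.toLin' (x : Matrix (Fin n) (Fin n) F) with hTdef
  have hT : ∀ v, T (T v) = z • v := by
    intro v
    have h1 : T (T v) = Matrix.toLin' ((x : Matrix (Fin n) (Fin n) F) ^ 2) v := by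
      rw [pow_two, Matrix.toLin'_mul]; rfl
    rw [h1, ← Matrix.SpecialLinearGroup.coe_pow, hz]
    simp [Matrix.toLin'_apply, Matrix.smul_mulVec]
  have hinj : Function.Injective T := by
    have hleft : Function.LeftInverse
        (Matrix.toLin' ((x⁻¹ : Matrix.SpecialLinearGroup (Fin n) F) : Matrix (Fin n) (Fin n) F)) T := by
      intro v
      have h1 : Matrix.toLin' ((x⁻¹ : Matrix.SpecialLinearGroup (Fin n) F) : Matrix (Fin n) (Fin n) F) (T v)
          = Matrix.toLin' (((x⁻¹ : Matrix.SpecialLinearGroup (Fin n) F) : Matrix (Fin n) (Fin n) F) *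
              (x : Matrix (Fin n) (Fin n) F)) v := by
        rw [Matrix.toLin'_mul]; rfl
      rw [h1, ← Matrix.SpecialLinearGroup.coe_mul, inv_mul_cancel]
      simp
    exact hleft.injective
  obtain ⟨I, hI, b, π, c, hb1, hb2, hb3, hb4⟩ :=
    Cfsg.Agent.Lib.Helper99Blocks.exists_monomial_family T z hT
  have hcard : Fintype.card I = a * t := by
    have h1 := finrank_span_eq_card hb1
    rw [hb2, finrank_top, Module.finrank_fin_fun] at h1
    rw [← h1, hat]
  obtain ⟨β, σ, h1, h2⟩ := Cfsg.Agent.Lib.Helper99Blocks.exists_blocks π hb3 a t ha hcard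
  refine ⟨Cfsg.Agent.Lib.Helper99Blocks.blockSpan b β,
    ⟨ht, ha, fun j => by rw [Cfsg.Agent.Lib.Helper99Blocks.finrank_blockSpan hb1, h1],
      Cfsg.Agent.Lib.Helper99Blocks.iSupIndep_blockSpan hb1 β,
      Cfsg.Agent.Lib.Helper99Blocks.iSup_blockSpan hb2 β⟩, σ,
    fun j => Cfsg.Agent.Lib.Helper99Blocks.map_blockSpan hb1 β a h1 T hinj σ ?_ j⟩
  intro i
  rw [hb4, ← h2]
  exact Submodule.smul_mem _ _ (Cfsg.Agent.Lib.Helper99Blocks.mem_blockSpan b β (π i))

end Cfsg.Agent.S5957
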