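import Cfsg.Statements.S5958
import Cfsg.Agent.Lib.Helper87EluTools
import Cfsg.Agent.Lib.Helper76ImpDefs
import Cfsg.Agent.Lib.Helper76ImpSPERM
import Cfsg.Agent.Lib.Helper76ImpC1C
import Cfsg.Agent.Lib.Helper76ImpL1
import Cfsg.Agent.Lib.Helper76ImpL5
import Cfsg.Agent.Lib.Helper29ImpC2
import Cfsg.Agent.Lib.Helper29ImpL2
import Cfsg.Agent.Lib.Helper29ImpL3
import Cfsg.Agent.Lib.Helper36ImpIC3
import Cfsg.Agent.Lib.Helper53ImpC1B
import Cfsg.Agent.Lib.Helper53ImpDEC
import Cfsg.Agent.Lib.Helper53ImpLABEL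
import Cfsg.Agent.Lib.Helper6ImpPERM
import Cfsg.Agent.Lib.Helper77ImpELT
import Cfsg.Agent.Lib.Helper77ImpL4
import Cfsg.Agent.Lib.Helper77ImpMONO

set_option autoImplicit false
open scoped MatrixGroups
open Cfsg

namespace Cfsg.Agent.S5958

open Module Polynomial Cfsg.Geo Cfsg.Agent.Lib.Helper76ImpDefs
open Cfsg.Agent.Lib.Helper76ImpSPERM Cfsg.Agent.Lib.Helper76ImpC1C Cfsg.Agent.Lib.Helper76ImpL1
  Cfsg.Agent.Lib.Helper76ImpL5 Cfsg.Agent.Lib.Helper29ImpC2 Cfsg.Agent.Lib.Helper29ImpL2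
  Cfsg.Agent.Lib.Helper29ImpL3 Cfsg.Agent.Lib.Helper36ImpIC3 Cfsg.Agent.Lib.Helper53ImpC1B
  Cfsg.Agent.Lib.Helper53ImpDEC Cfsg.Agent.Lib.Helper53ImpLABEL Cfsg.Agent.Lib.Helper6ImpPERM
  Cfsg.Agent.Lib.Helper77ImpELT Cfsg.Agent.Lib.Helper77ImpL4 Cfsg.Agent.Lib.Helper77ImpMONO
open Cfsg.Agent.Lib.Helper87EluTools Cfsg.Agent.Lib.Helper87EluB1 Cfsg.Agent.Lib.Helper87EluB3
  Cfsg.Agent.Lib.Helper87EluD

theorem mod_aux {a t c s n : ℕ} (hc : 0 < c) (h : n % c = t * (a % c)) (hs : s < t) :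
    a % c ≤ (a * (s + 1)) % c := by
  have h1 : (a % c) * (s + 1) ≤ t * (a % c) := by
    rw [mul_comm t]; exact Nat.mul_le_mul_left _ hs
  have h2 : (a % c) * (s + 1) < c := lt_of_le_of_lt h1 (h ▸ Nat.mod_lt n hc)
  have h3 : (a * (s + 1)) % c = (a % c) * (s + 1) := by
    have := (Nat.mod_modEq a c).mul_right (s + 1)
    rw [← Nat.mod_eq_of_lt h2]
    exact this.symm
  rw [h3]
  exact Nat.le_mul_of_pos_right _ (by omega)

theorem mod_aux2 {a t c n : ℕ} (hc : 0 < c) (hn : n = a * t) (h : t * (a % c) ≤ n % c) :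
    n % c = t * (a % c) := by
  have h2 : t * (a % c) < c := lt_of_le_of_lt h (Nat.mod_lt n hc)
  have := (Nat.mod_modEq a c).mul_left t
  rw [hn, mul_comm a t, ← Nat.mod_eq_of_lt h2]
  exact this.symm

theorem toLin_injective {F : Type*} [Field F] {n : ℕ} (x : Matrix.SpecialLinearGroup (Fin n) F) :
    Function.Injective (Matrix.toLin' (x : Matrix (Fin n) (Fin n) F)) := by
  have hleft : Function.LeftInverse
      (Matrix.toLin' ((x⁻¹ : Matrix.SpecialLinearGroup (Fin n) F) : Matrix (Fin n) (Fin n) F))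
      (Matrix.toLin' (x : Matrix (Fin n) (Fin n) F)) := by
    intro v
    have h1 : Matrix.toLin' ((x⁻¹ : Matrix.SpecialLinearGroup (Fin n) F) : Matrix (Fin n) (Fin n) F)
        (Matrix.toLin' (x : Matrix (Fin n) (Fin n) F) v)
        = Matrix.toLin' (((x⁻¹ : Matrix.SpecialLinearGroup (Fin n) F) : Matrix (Fin n) (Fin n) F) *
            (x : Matrix (Fin n) (Fin n) F)) v := by
      rw [Matrix.toLin'_mul]; rfl
    rw [h1, ← Matrix.SpecialLinearGroup.coe_mul, inv_mul_cancel]
    simp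
  exact hleft.injective

/-- Elements of odd prime order of PSL_n(q) and imprimitive subgroups. Here `T = PSL_n(F)` for a field `F` with `q = p^f` elements (`n ≥ 2`, `(n, q) ≠ (2, 2), (2, 3)`), `n = a·t` with `t ≥ 2`, and Ω is the set of direct-sum decompositions of `F^n` into `t` subspaces of dimension `a` (unordered; their number is the number of ordered ones divided by `t!`), whose stabilizers are the imprimitive subgroups of type GL_a(q) ≀ S_t (maximal except in some small cases; maximality is not assumed); an element of `T` of prime order `r` (a matrix `x` of determinant 1 with `x^r` scalar, `x` not scalar) fixes a point of Ω when it permutes the summands of some such decomposition. Let `r ≠ p` be an odd prime dividing the number of such decompositions, let `c` be the multiplicative order of `q` modulo `r`, and write `k = n mod c`, `ℓ = a mod c`. Then every element of `T` of order `r` stabilizes such a decomposition if and only if either `a = 1`, `c = r − 1 >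 1` and `n ≤ k·r`, or `c ≤ a` and `k = t·ℓ`. -/
theorem result {F : Type*} [Field F] [Fintype F] {p : ℕ} [Fact p.Prime] [CharP F p] {q : ℕ} (hq : Fintype.card F = q)
    (n a t : ℕ) (hn : 2 ≤ n) (hT : (n, q) ≠ (2, 2) ∧ (n, q) ≠ (2, 3)) (hat : n = a * t) (ha : 1 ≤ a) (ht : 2 ≤ t)
    (r : ℕ) [Fact r.Prime] (hr2 : r ≠ 2) (hrp : r ≠ p) (hΩ : r ∣ Nat.card {D : Fin t → Submodule F (Fin n → F) // Cfsg.Geo.IsMDecomposition a D} / Nat.factorial t)
    (c : ℕ) (hc : c = orderOf (q : ZMod r)) :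
    (∀ x : Matrix.SpecialLinearGroup (Fin n) F,
      (∃ z : F, ((x ^ r : Matrix.SpecialLinearGroup (Fin n) F) : Matrix (Fin n) (Fin n) F) = z • (1 : Matrix (Fin n) (Fin n) F)) →
      (∀ z : F, (x : Matrix (Fin n) (Fin n) F) ≠ z • (1 : Matrix (Fin n) (Fin n) F)) →
      ∃ D : Fin t → Submodule F (Fin n → F), Cfsg.Geo.IsMDecomposition a D ∧
        ∃ σ : Equiv.Perm (Fin t), ∀ j, (D j).map (Matrix.toLin' (x : Matrix (Fin n) (Fin n) F)) = D (σ j)) ↔
    ((a = 1 ∧ 1 < c ∧ c = r - 1 ∧ n ≤ (n % c) * r) ∨ (c ≤ a ∧ n % c = t * (a % c))) := by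
  classical
  subst hq
  have hrP : r.Prime := Fact.out
  have hr : ¬ r ∣ Fintype.card F := by
    intro h
    obtain ⟨e, he⟩ := FiniteField.card F p
    rw [he.2] at h
    exact hrp ((Nat.prime_dvd_prime_iff_eq hrP he.1).mp (hrP.dvd_of_dvd_pow h))
  have hrF : (r : F) ≠ 0 := by
    intro h
    rw [CharP.cast_eq_zero_iff F p] at h
    exact hrp ((Nat.prime_dvd_prime_iff_eq Fact.out hrP).mp h).symm
  obtain ⟨hc0, hc1⟩ := orderOf_facts (Fintype.card F) r Fintype.card_pos hr
  rw [← hc] at hc0 hc1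
  have hn0 : 0 < n := by omega
  constructor
  · -- (⇒)
    intro H
    by_cases hone : c = 1
    · right
      subst hone
      exact ⟨ha, by simp [Nat.mod_one]⟩
    have hq1 : ¬ r ∣ Fintype.card F - 1 := fun h => hone (hc1.mpr h)
    have hcn : c ≤ n := by
      rw [hc]
      apply le_of_dvd_card_GL r hr
      exact (hΩ.trans (Nat.div_dvd_of_dvd (factorial_dvd_card_dec a t))).trans
        (card_dec_dvd a t ha ht hat (dec_trans a t))
    -- use of `H`
    have key : ∀ s, 1 ≤ s → c * s ≤ n → ∃ (f : Module.End F (Fin n → F)) (D : Fin t → Submodule F (Fin n → F))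
        (σ : Equiv.Perm (Fin t)), f ^ r = 1 ∧ IsMDecomposition a D ∧ (∀ j, (D j).map f = D (σ j)) ∧
        finrank F ↥(Module.End.eigenspace f 1) = n - c * s ∧
        ∃ P : F[X], P ≠ 0 ∧ P.natDegree ≤ c + 1 ∧ aeval f P = 0 := by
      intro s hs hsn
      obtain ⟨x, hx1, hx2, hx3, hx4⟩ := elt (F := F) (n := n) r hr hq1 s hs (by rw [← hc]; exact hsn)
      obtain ⟨D, hD, σ, hσ⟩ := H x ⟨1, hx1⟩ hx2
      refine ⟨Matrix.toLin' (x : Matrix (Fin n) (Fin n) F), D, σ, ?_, hD, hσ, by rw [hc]; exact hx3,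
        by rw [hc]; exact hx4⟩
      rw [toLin_pow_eq x r 1 hx1, one_smul]
    obtain ⟨f, D, σ, hf, hD, hσ, hE, P, hP0, hPd, hPf⟩ := key (n / c)
      (Nat.div_pos hcn hc0) (Nat.mul_div_le n c)
    have hE' : finrank F ↥(Module.End.eigenspace f 1) = n % c := by
      rw [hE]
      have := Nat.div_add_mod n c
      omega
    have hmodlt : n % c < c := Nat.mod_lt n hc0
    by_cases hσ1 : ∀ j, σ j = j
    · right
      have h1 := l1 r f hf D hD hr (fun j => by rw [hσ j, hσ1 j])
      rw [← hc, hE'] at h1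
      have h2 := mod_aux2 hc0 hat h1
      refine ⟨?_, h2⟩
      by_contra hlt
      push Not at hlt
      rw [Nat.mod_eq_of_lt hlt, mul_comm, ← hat] at h2
      omega
    · push Not at hσ1
      obtain ⟨j, hj⟩ := hσ1
      have h2 := l2 r f hf D hD σ hσ j hj
      rw [hE'] at h2
      have h3 := l3 r f hf D hD σ hσ j hj P hP0 hPf
      have hcr : c ∣ r - 1 := by
        rw [hc]
        apply ZMod.orderOf_dvd_card_sub_one
        intro h0
        exact hr ((ZMod.natCast_eq_zero_iff _ _).mp h0)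
      have hcr' : c ≤ r - 1 := Nat.le_of_dvd (by have := hrP.two_le; omega) hcr
      have hceq : c = r - 1 := by omega
      by_cases ha1 : a = 1
      · left
        have h5 := l5 r f hf D hD σ hσ hr ha1 (by rw [← hc]; omega)
        rw [hE'] at h5
        exact ⟨ha1, by omega, hceq, by rw [mul_comm]; exact h5⟩
      · exfalso
        obtain ⟨f₂, D₂, σ₂, hf₂, hD₂, hσ₂, hE₂, -⟩ := key 1 le_rfl (by omega)
        rw [mul_one] at hE₂
        by_cases hσ2 : ∀ j, σ₂ j = j
        · have h1 := l1 r f₂ hf₂ D₂ hD₂ hr (fun j => by rw [hσ₂ j, hσ2 j])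
          rw [← hc, hE₂, Nat.mod_eq_of_lt (by omega), mul_comm, ← hat] at h1
          omega
        · push Not at hσ2
          obtain ⟨j₂, hj₂⟩ := hσ2
          have h4 := l4 r f₂ hf₂ D₂ hD₂ σ₂ hσ₂ j₂ hj₂
          rw [hE₂, ← hceq] at h4
          have : 2 * c ≤ a * c := Nat.mul_le_mul_right c (by omega)
          omega
  · -- (⇐)
    intro H x ⟨z, hz⟩ hns
    obtain ⟨g, hgdef⟩ : ∃ g : Module.End F (Fin n → F),
        g = Matrix.toLin' (x : Matrix (Fin n) (Fin n) F) := ⟨_, rfl⟩
    have hg : g ^ r = z • 1 := by rw [hgdef]; exact toLin_pow_eq x r z hz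
    have hz0 : z ≠ 0 := scalar_ne_zero hn0 x r z hz
    have hinj : Function.Injective g := by rw [hgdef]; exact toLin_injective x
    suffices hS : Stab a t g by
      obtain ⟨D, hD, σ, hσ⟩ := hS
      exact ⟨D, hD, σ, fun j => by rw [← hgdef]; exact hσ j⟩
    have h3 := exists_rel_compl r hrF g z hz0 hg
    rcases H with ⟨ha1, hc2, hceq, hnk⟩ | ⟨hca, hmod⟩
    · -- case A
      subst ha1
      obtain rfl : t = n := by omega
      have hq1 : ¬ r ∣ Fintype.card F - 1 := fun h => by
        have := hc1.mpr h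
        omega
      obtain ⟨d, hd⟩ := exists_root r hq1 z
      have hd0 : d ≠ 0 := by
        rintro rfl
        rw [zero_pow hrP.ne_zero] at hd
        exact hz0 hd.symm
      obtain ⟨f, hfdef⟩ : ∃ f : Module.End F (Fin t → F), f = d⁻¹ • g := ⟨_, rfl⟩
      have hf : f ^ r = 1 := by
        rw [hfdef, _root_.smul_pow, hg, ← hd, smul_smul, inv_pow, inv_mul_cancel₀ (pow_ne_zero _ hd0),
          one_smul]
      obtain ⟨k, hk⟩ := finrank_congr r hr f hf ⊤ le_top
      rw [finrank_top, finrank_fin_fun, ← hc] at hk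
      have he0 : t % c ≤ finrank F ↥(⊤ ⊓ Module.End.eigenspace f 1) := by
        conv_lhs => rw [hk]
        rw [Nat.add_mul_mod_self_left]
        exact Nat.mod_le _ _
      obtain ⟨J, hJ, b, π, hli, hspan, hb⟩ := perm r hr hrF f hf (by rw [← hc]; exact hceq)
        (by omega) ⊤ le_top (by
          rw [finrank_top, finrank_fin_fun]
          calc t ≤ (t % c) * r := hnk
            _ ≤ finrank F ↥(⊤ ⊓ Module.End.eigenspace f 1) * r := Nat.mul_le_mul_right r he0
            _ = _ := mul_comm _ _)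
      apply stab_of_perm g hinj hn J b π d hli hspan
      intro i
      rw [← hb i, hfdef, LinearMap.smul_apply, smul_smul, mul_inv_cancel₀ hd0, one_smul]
    · -- case B
      rcases pow_or hn0 r x z hz with ⟨d, hd0, hd⟩ | ⟨hnp, hq1, hrn, -⟩
      · apply stab_of_inv g hinj a t ha ht hat h3
        intro s Q hs hQ hfin
        apply inv_of_pow r hr hrF g d hd0 (by rw [hd]; exact hg) a Q hQ
        · rw [hfin]; exact Nat.le_mul_of_pos_right _ (by omega)
        · rw [hfin, ← hc]
          exact mod_aux hc0 hmod hs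
      · by_cases hra : r ∣ a
        · apply stab_of_inv g hinj a t ha ht hat h3
          intro s Q hs hQ hfin
          apply inv_of_not_pow r hrF g z hnp hg a Q hQ _ hra
          rw [hfin]; exact Nat.le_mul_of_pos_right _ (by omega)
        · have hrt : r ∣ t := by
            rw [hat] at hrn
            exact (hrP.dvd_mul.mp hrn).resolve_left hra
          obtain ⟨s, v, hli, hspan⟩ := mono r hrF g z hnp hg
          exact stab_of_mono r hrP.pos g hinj z hg s v hli hspan a t ha ht hat hrt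

end Cfsg.Agent.S5958
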