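import Cfsg.Statements.S5960
import Cfsg.Agent.Lib.Helper99SympForm

set_option autoImplicit false
open scoped MatrixGroups
open Cfsg

namespace Cfsg.Agent.S5960

/-- Involutions of PSp_n(q) and imprimitive subgroups. Here `T = PSp_n(q)`, `n = 2d ≥ 4`, `(n, q) ≠ (4, 2)`, realised through the symplectic matrices over the field `F` with `q` elements and the standard alternating form; `n = a·t` with `a` even and `t ≥ 2`, and Ω is the (nonempty) set of orthogonal decompositions of `F^n` into `t` nondegenerate subspaces of dimension `a` (unordered; counted as ordered ones divided by `t!`), whose stabilizers are the imprimitive subgroups of type Sp_a(q) ≀ S_t (maximality is not assumed); an element of `T` of prime order `r` (a symplectic matrix `x` with `x^r` scalar, `x` not scalar) fixes a point of Ω when it permutes the summands of some such decomposition. If the number of such decompositions is even, then every involution of `T` stabilizes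 one of them (the action is 2-elusive). -/
theorem result {F : Type*} [Field F] [Fintype F] {p : ℕ} [Fact p.Prime] [CharP F p] {q : ℕ} (hq : Fintype.card F = q)
    (d : ℕ) (hd : 2 ≤ d) (hT : (d, q) ≠ (2, 2))
    (a t : ℕ) (hat : 2 * d = a * t) (ha : 2 ≤ a) (hae : Even a) (ht : 2 ≤ t) (hΩ : 2 ∣ Nat.card {D : Fin t → Submodule F (Fin d ⊕ Fin d → F) // (Cfsg.Geo.IsMDecomposition a D ∧ (∀ j, ∀ u ∈ D j, u ≠ 0 → ∃ v ∈ D j, Cfsg.sympForm d F u v ≠ 0) ∧
          (∀ j j', j ≠ j' → ∀ u ∈ D j, ∀ v ∈ D j', Cfsg.sympForm d F u v = 0))} / Nat.factorial t)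
    (x : ↥(Matrix.symplecticGroup (Fin d) F))
    (hx1 : ∃ z : F, ((x ^ 2 : ↥(Matrix.symplecticGroup (Fin d) F)) : Matrix (Fin d ⊕ Fin d) (Fin d ⊕ Fin d) F) = z • (1 : Matrix (Fin d ⊕ Fin d) (Fin d ⊕ Fin d) F))
    (hx2 : ∀ z : F, (x : Matrix (Fin d ⊕ Fin d) (Fin d ⊕ Fin d) F) ≠ z • (1 : Matrix (Fin d ⊕ Fin d) (Fin d ⊕ Fin d) F)) :
    ∃ D : Fin t → Submodule F (Fin d ⊕ Fin d → F), (Cfsg.Geo.IsMDecomposition a D ∧ (∀ j, ∀ u ∈ D j, u ≠ 0 → ∃ v ∈ D j, Cfsg.sympForm d F u v ≠ 0) ∧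
          (∀ j j', j ≠ j' → ∀ u ∈ D j, ∀ v ∈ D j', Cfsg.sympForm d F u v = 0)) ∧
        ∃ σ : Equiv.Perm (Fin t), ∀ j, (D j).map (Matrix.toLin' (x : Matrix (Fin d ⊕ Fin d) (Fin d ⊕ Fin d) F)) = D (σ j) := by
  obtain ⟨z, hz⟩ := hx1
  have hAA : (x : Matrix (Fin d ⊕ Fin d) (Fin d ⊕ Fin d) F) * (x : Matrix (Fin d ⊕ Fin d) (Fin d ⊕ Fin d) F)
      = z • 1 := by
    rw [← hz, pow_two]; rfl
  have hzz := Cfsg.Agent.Lib.Helper99SympForm.sq_scalar d (by omega) x.2 hAA
  obtain ⟨a', ha'⟩ := hae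
  have ha2 : a = 2 * a' := by omega
  have hdim : Module.finrank F (Fin d ⊕ Fin d → F) = 2 * a' * t := by
    rw [Module.finrank_fintype_fun_eq_card, Fintype.card_sum, Fintype.card_fin, ← ha2, ← hat]
    ring
  obtain ⟨D, h1, h2, h3, h4, h5, h6⟩ := Cfsg.Agent.Lib.Helper99Symp.orth_decomp
    (B := Cfsg.Agent.Lib.Helper99SympForm.sympB d)
    (X := Matrix.toLin' (x : Matrix (Fin d ⊕ Fin d) (Fin d ⊕ Fin d) F)) (z := z)
    (fun v => by rw [Cfsg.Agent.Lib.Helper99SympForm.sympB_apply,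
      Cfsg.Agent.Lib.Helper99SympForm.sympForm_self])
    (fun u hu => by
      obtain ⟨v, hv⟩ := Cfsg.Agent.Lib.Helper99SympForm.sympForm_nondeg d u hu
      exact ⟨v, by rw [Cfsg.Agent.Lib.Helper99SympForm.sympB_apply]; exact hv⟩)
    (fun u v => by
      rw [Cfsg.Agent.Lib.Helper99SympForm.sympB_apply, Cfsg.Agent.Lib.Helper99SympForm.sympB_apply,
        Matrix.toLin'_apply, Matrix.toLin'_apply,
        Cfsg.Agent.Lib.Helper99SympForm.sympForm_mulVec d x.2])
    hzz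
    (fun v => by
      rw [Matrix.toLin'_apply, Matrix.toLin'_apply, Matrix.mulVec_mulVec, hAA, Matrix.smul_mulVec,
        Matrix.one_mulVec])
    a' t (by omega) hdim
  refine ⟨D, ⟨⟨ht, by omega, fun j => by rw [h1, ha2], h2, h3⟩, fun j u hu hu0 => ?_,
    fun j j' hjj' u hu v hv => ?_⟩, h6⟩
  · obtain ⟨v, hv, hne⟩ := h4 j u hu hu0
    exact ⟨v, hv, by rw [← Cfsg.Agent.Lib.Helper99SympForm.sympB_apply]; exact hne⟩
  · rw [← Cfsg.Agent.Lib.Helper99SympForm.sympB_apply]; exact h5 j j' hjj' u hu v hv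

end Cfsg.Agent.S5960
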