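import Cfsg.Statements.S5961
import Cfsg.Agent.Lib.H90SwDefs
import Cfsg.Agent.Lib.H90SwL
import Cfsg.Agent.Lib.H90SwL1
import Cfsg.Agent.Lib.H90SwMat
import Cfsg.Agent.Lib.H90SwP12
import Cfsg.Agent.Lib.H90SwP9
import Cfsg.Agent.Lib.H90SwC1c
import Cfsg.Agent.Lib.H90SwC23
import Cfsg.Agent.Lib.H90SwElt
import Cfsg.Agent.Lib.Helper76PolArith

set_option autoImplicit false
open scoped MatrixGroups
open Cfsg

namespace Cfsg.Agent.S5961

open Module Cfsg.Agent.Lib.Helper99Symp Cfsg.Agent.Lib.H90SwDefs Cfsg.Agent.Lib.Helper99SympForm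
  Cfsg.Agent.Lib.H90SwL Cfsg.Agent.Lib.H90SwL1 Cfsg.Agent.Lib.H90SwMat Cfsg.Agent.Lib.H90SwP12
  Cfsg.Agent.Lib.H90SwP9 Cfsg.Agent.Lib.H90SwC1c Cfsg.Agent.Lib.H90SwC23 Cfsg.Agent.Lib.H90SwElt

theorem mod_aux2 {a t c n : ℕ} (hc : 0 < c) (hn : n = a * t) (h : t * (a % c) ≤ n % c) :
    n % c = t * (a % c) := by
  have h2 : t * (a % c) < c := lt_of_le_of_lt h (Nat.mod_lt n hc)
  have := (Nat.mod_modEq a c).mul_left t
  rw [hn, mul_comm a t, ← Nat.mod_eq_of_lt h2]
  exact this.symm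

/-- Elements of odd prime order of PSp_n(q) and imprimitive subgroups. Here `T = PSp_n(q)`, `n = 2d ≥ 4`, `(n, q) ≠ (4, 2)`, realised through the symplectic matrices over the field `F` with `q` elements and the standard alternating form; `n = a·t` with `a` even and `t ≥ 2`, and Ω is the (nonempty) set of orthogonal decompositions of `F^n` into `t` nondegenerate subspaces of dimension `a` (unordered; counted as ordered ones divided by `t!`), whose stabilizers are the imprimitive subgroups of type Sp_a(q) ≀ S_t (maximality is not assumed); an element of `T` of prime order `r` (a symplectic matrix `x` with `x^r` scalar, `x` not scalar) fixes a point of Ω when it permutes the summands of some such decomposition. Let `r ≠ p` be an odd prime dividing the number of such decompositions, let `i` be the multiplicative order of `q` modulo `r`, `c = i` if `i` is even and `c = 2i` if `i` is odd, and write `k = n mod c`, `ℓ = a mod c`. Then every element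 of `T` of order `r` stabilizes such a decomposition if and only if `c ≤ a` and `k = t·ℓ`. -/
theorem result {F : Type*} [Field F] [Fintype F] {p : ℕ} [Fact p.Prime] [CharP F p] {q : ℕ} (hq : Fintype.card F = q)
    (d : ℕ) (hd : 2 ≤ d) (hT : (d, q) ≠ (2, 2))
    (a t : ℕ) (hat : 2 * d = a * t) (ha : 2 ≤ a) (hae : Even a) (ht : 2 ≤ t)
    (r : ℕ) [Fact r.Prime] (hr2 : r ≠ 2) (hrp : r ≠ p) (hΩ : r ∣ Nat.card {D : Fin t → Submodule F (Fin d ⊕ Fin d → F) // (Cfsg.Geo.IsMDecomposition a D ∧ (∀ j, ∀ u ∈ D j, u ≠ 0 → ∃ v ∈ D j, Cfsg.sympForm d F u v ≠ 0) ∧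
          (∀ j j', j ≠ j' → ∀ u ∈ D j, ∀ v ∈ D j', Cfsg.sympForm d F u v = 0))} / Nat.factorial t)
    (i c : ℕ) (hi : i = orderOf (q : ZMod r)) (hc : c = if Even i then i else 2 * i) :
    (∀ x : ↥(Matrix.symplecticGroup (Fin d) F),
      (∃ z : F, ((x ^ r : ↥(Matrix.symplecticGroup (Fin d) F)) : Matrix (Fin d ⊕ Fin d) (Fin d ⊕ Fin d) F) = z • (1 : Matrix (Fin d ⊕ Fin d) (Fin d ⊕ Fin d) F)) →
      (∀ z : F, (x : Matrix (Fin d ⊕ Fin d) (Fin d ⊕ Fin d) F) ≠ z • (1 : Matrix (Fin d ⊕ Fin d) (Fin d ⊕ Fin d) F)) →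
      ∃ D : Fin t → Submodule F (Fin d ⊕ Fin d → F), (Cfsg.Geo.IsMDecomposition a D ∧ (∀ j, ∀ u ∈ D j, u ≠ 0 → ∃ v ∈ D j, Cfsg.sympForm d F u v ≠ 0) ∧
          (∀ j j', j ≠ j' → ∀ u ∈ D j, ∀ v ∈ D j', Cfsg.sympForm d F u v = 0)) ∧
        ∃ σ : Equiv.Perm (Fin t), ∀ j, (D j).map (Matrix.toLin' (x : Matrix (Fin d ⊕ Fin d) (Fin d ⊕ Fin d) F)) = D (σ j)) ↔
    (c ≤ a ∧ (2 * d) % c = t * (a % c)) := by
  classical
  subst hq
  have hrP : r.Prime := Fact.out
  have hr : ¬ r ∣ Fintype.card F := by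
    intro h
    obtain ⟨e, he⟩ := FiniteField.card F p
    rw [he.2] at h
    exact hrp ((Nat.prime_dvd_prime_iff_eq hrP he.1).mp (hrP.dvd_of_dvd_pow h))
  have hrF : (r : F) ≠ 0 := by
    intro h
    rw [CharP.cast_eq_zero_iff F p] at h
    exact hrp ((Nat.prime_dvd_prime_iff_eq Fact.out hrP).mp h).symm
  have hcc : c = cc F r := by
    rw [hc, hi]; rfl
  have hc0 : 0 < c := hcc ▸ cc_pos hr
  have hcr : c ≤ r - 1 := hcc ▸ cc_le hr2 hr
  have hfinV : finrank F (Fin d ⊕ Fin d → F) = 2 * d := by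
    rw [Module.finrank_fintype_fun_eq_card]; simp; ring
  constructor
  · -- (⇒)
    intro H
    have hcd : c ≤ 2 * d := by
      rw [hcc]
      apply cc_le_of_dvd hr
      exact (hΩ.trans (Nat.div_dvd_of_dvd (factorial_dvd_card_x a t))).trans
        (card_x_dvd hat hae ha ht)
    have key : ∀ k, 1 ≤ k → c * k ≤ 2 * d → ∃ (g : Module.End F (Fin d ⊕ Fin d → F))
        (D : Fin t → Submodule F (Fin d ⊕ Fin d → F)) (σ : Equiv.Perm (Fin t)),
        Ctx (sympB d) r g ∧ IsX d a D ∧ (∀ j, (D j).map g = D (σ j)) ∧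
        finrank F ↥(Module.End.eigenspace g 1) + c * k = 2 * d := by
      intro k hk hkd
      obtain ⟨x, hx1, hx2⟩ := elt (F := F) hr2 hr hrF k d (by rw [← hcc]; exact hkd)
      have hxne : x ≠ 1 := by
        rintro rfl
        have h0 : (((1 : ↥(Matrix.symplecticGroup (Fin d) F)) :
            Matrix (Fin d ⊕ Fin d) (Fin d ⊕ Fin d) F) - 1) = 0 := sub_self _
        rw [h0, Matrix.rank_zero] at hx2
        have hx3 := mul_eq_zero.mp hx2.symm
        rcases hx3 with h | h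
        · rw [← hcc] at h; omega
        · omega
      obtain ⟨D, hD, σ, hσ⟩ := H x ⟨1, by rw [hx1, one_smul]; rfl⟩
        (Cfsg.Agent.Lib.Helper76PolArith.not_scalar (hrP.eq_two_or_odd'.resolve_left hr2) x hx1 hxne)
      refine ⟨_, D, σ, ctx_of_sp hr2 hr hrF x hx1, hD, hσ, ?_⟩
      rw [hcc, ← hx2]
      exact finrank_eigen_add_rank _
    have hca : c ≤ a := by
      obtain ⟨g, D, σ, hg, hD, hσ, hE⟩ := key 1 le_rfl (by omega)
      by_cases hσ1 : ∀ j, σ j = j
      · by_contra hlt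
        push Not at hlt
        have h1 := le_eigenspace hg D hD (fun j => by rw [hσ j, hσ1 j]) (hcc ▸ hlt)
        rw [h1, finrank_top, hfinV] at hE
        omega
      · exfalso
        push Not at hσ1
        obtain ⟨j, hj⟩ := hσ1
        have h4 := l4 r g hg.pow D hD.1 σ hσ j hj
        have h5 : Fintype.card (Fin d ⊕ Fin d) = 2 * d := by simp; ring
        rw [h5] at h4
        have h6 : 2 * (r - 1) ≤ a * (r - 1) := Nat.mul_le_mul_right _ ha
        have := hrP.two_le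
        omega
    refine ⟨hca, ?_⟩
    obtain ⟨g, D, σ, hg, hD, hσ, hE⟩ := key (2 * d / c) (Nat.div_pos hcd hc0) (Nat.mul_div_le _ c)
    have hE' : finrank F ↥(Module.End.eigenspace g 1) = (2 * d) % c := by
      have := Nat.div_add_mod (2 * d) c
      omega
    have hmodlt : (2 * d) % c < c := Nat.mod_lt _ hc0
    by_cases hσ1 : ∀ j, σ j = j
    · have h1 := l1' hg D hD (fun j => by rw [hσ j, hσ1 j])
      rw [← hcc, hE'] at h1
      exact mod_aux2 hc0 hat h1
    · exfalso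
      push Not at hσ1
      obtain ⟨j, hj⟩ := hσ1
      have h2 := l2 r g hg.pow D hD.1 σ hσ j hj
      omega
  · -- (⇐)
    rintro ⟨-, hmod⟩ x ⟨z, hz⟩ -
    obtain ⟨hz0, hg⟩ := ctx_of_scalar hr2 hr hrF (by omega) x z hz
    obtain ⟨D, h1, h2, h3, h4, h5, h6⟩ := exists_decomp hg hae (hcc ▸ hmod) t le_rfl ⊤ le_top
      nondegOn_top (by rw [finrank_top, hfinV, hat])
    refine ⟨D, ⟨⟨ht, by omega, h3, h5, h6⟩, fun j u hu hu0 => ?_, fun j j' hjj u hu v hv => ?_⟩, 1,
      fun j => ?_⟩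
    · obtain ⟨v, hv, huv⟩ := h2 j u hu hu0
      exact ⟨v, hv, by rwa [sympB_apply] at huv⟩
    · rw [← sympB_apply]; exact h4 j j' hjj u hu v hv
    · rw [Equiv.Perm.one_apply]
      conv_rhs => rw [← map_eq hg (h1 j)]
      exact (Submodule.map_smul _ _ z hz0).symm

end Cfsg.Agent.S5961
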