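import Cfsg.Statements.S5963
import Cfsg.Agent.Lib.Helper76PolArith
import Cfsg.Agent.Lib.Helper76PolCOUNT
import Cfsg.Agent.Lib.Helper76PolDER
import Cfsg.Agent.Lib.Helper94PolELT

set_option autoImplicit false
open scoped MatrixGroups
open Cfsg

namespace Cfsg.Agent.S5963

open Matrix
open Cfsg.Agent.Lib.Helper76PolArith Cfsg.Agent.Lib.Helper76PolCOUNT Cfsg.Agent.Lib.Helper76PolDER
  Cfsg.Agent.Lib.Helper94PolELT

/-- Derangements of odd prime order of PSp_n(q), q odd, on pairs of complementary totally isotropic subspaces. Here `T = PSp_n(q)`, `n = 2d ≥ 4`, `q` odd, realised through the symplectic matrices over the field `F` with `q` elements; Ω is the set of unordered pairs `{U, W}` of complementary totally isotropic `d`-spaces (`F^n = U ⊕ W`), whose stabilizers are the subgroups of type GL_d(q).2 (maximal except in some small cases; maximality is not assumed); an element of `T` of prime order `r` (a symplectic matrix `x` with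 `x^r` scalar, `x` not scalar) fixes such a pair when it fixes or interchanges `U` and `W`. For every odd prime `r ≠ p` dividing the number of such pairs, some element of `T` of order `r` fixes no such pair (the action is never `r`-elusive for odd `r ≠ p`). -/
theorem result {F : Type*} [Field F] [Fintype F] {p : ℕ} [Fact p.Prime] [CharP F p] {q : ℕ} (hq : Fintype.card F = q)
    (d : ℕ) (hd : 2 ≤ d) (hT : (d, q) ≠ (2, 2)) (hodd : Odd q)
    (r : ℕ) [Fact r.Prime] (hr2 : r ≠ 2) (hrp : r ≠ p) (hΩ : r ∣ Nat.card {P : Submodule F (Fin d ⊕ Fin d → F) × Submodule F (Fin d ⊕ Fin d → F) // IsCompl P.1 P.2 ∧ (∀ u ∈ P.1, ∀ v ∈ P.1, Cfsg.sympForm d F u v = 0) ∧ (∀ u ∈ P.2, ∀ v ∈ P.2, Cfsg.sympForm d F u v = 0)} / 2) :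
    ∃ x : ↥(Matrix.symplecticGroup (Fin d) F),
      (∃ z : F, ((x ^ r : ↥(Matrix.symplecticGroup (Fin d) F)) : Matrix (Fin d ⊕ Fin d) (Fin d ⊕ Fin d) F) = z • (1 : Matrix (Fin d ⊕ Fin d) (Fin d ⊕ Fin d) F)) ∧
      (∀ z : F, (x : Matrix (Fin d ⊕ Fin d) (Fin d ⊕ Fin d) F) ≠ z • (1 : Matrix (Fin d ⊕ Fin d) (Fin d ⊕ Fin d) F)) ∧
      ¬ (∃ U W : Submodule F (Fin d ⊕ Fin d → F), IsCompl U W ∧ (∀ u ∈ U, ∀ v ∈ U, Cfsg.sympForm d F u v = 0) ∧ (∀ u ∈ W, ∀ v ∈ W, Cfsg.sympForm d F u v = 0) ∧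
        ((U.map (Matrix.toLin' (x : Matrix (Fin d ⊕ Fin d) (Fin d ⊕ Fin d) F)) = U ∧ W.map (Matrix.toLin' (x : Matrix (Fin d ⊕ Fin d) (Fin d ⊕ Fin d) F)) = W) ∨
         (U.map (Matrix.toLin' (x : Matrix (Fin d ⊕ Fin d) (Fin d ⊕ Fin d) F)) = W ∧ W.map (Matrix.toLin' (x : Matrix (Fin d ⊕ Fin d) (Fin d ⊕ Fin d) F)) = U))) := by
  classical
  subst hq
  have hrodd : Odd r := (Fact.out : r.Prime).odd_of_ne_two hr2
  have hrq : ¬ r ∣ Fintype.card F := by
    intro h
    obtain ⟨e, he⟩ := FiniteField.card F p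
    rw [he.2] at h
    have := (Fact.out : r.Prime).dvd_of_dvd_pow h
    exact hrp ((Nat.prime_dvd_prime_iff_eq Fact.out he.1).mp this)
  have hN := card_pairs_mul (F := F) d
  rw [Cfsg.Agent.Lib.Helper7SpFrame.card_symplecticGroup] at hN
  obtain ⟨j, hj0, hjd, hord⟩ := arith hr2 hrq Fintype.one_lt_card hN
    (hΩ.trans (Nat.div_dvd_of_dvd (arith_even hodd (by omega) Fintype.one_lt_card hN)))
  have h1 : r ∣ Fintype.card F ^ (2 * j) - 1 := by
    have h2 : ((Fintype.card F : ℕ) : ZMod r) ^ (2 * j) = 1 := by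
      rw [← hord]; exact pow_orderOf_eq_one _
    rw [← ZMod.natCast_eq_zero_iff, Nat.cast_sub (Nat.one_le_pow _ _ Fintype.card_pos)]
    push_cast
    rw [h2, sub_self]
  obtain ⟨x, hx, hx1, hrank⟩ := exists_small_sp (F := F) hj0 hjd h1
  refine ⟨x, ⟨1, by rw [hx, one_smul]; rfl⟩, not_scalar hrodd x hx hx1, ?_⟩
  rintro ⟨U, W, hc, hU, hW, ⟨h1, h2⟩ | ⟨h1, h2⟩⟩
  · exact no_fixed_pair hrq x hx hx1 (by rw [hord]; exact hrank) U W hc hU hW h1 h2
  · have := eq_of_swap hrodd x hx U W h1 h2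
    subst this
    exact no_fixed_pair hrq x hx hx1 (by rw [hord]; exact hrank) U U hc hU hW h1 h2

end Cfsg.Agent.S5963
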