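import Cfsg.Statements.S5964
import Cfsg.Agent.Lib.Helper76EluSub
import Cfsg.Agent.Lib.Helper70EluCARDSL
import Cfsg.Agent.Lib.Helper91EluCHARSQ
import Cfsg.Agent.Lib.Helper38EluSEMI
import Cfsg.Agent.Lib.Helper38EluSLCONJ
import Cfsg.Agent.Lib.Helper70EluSQZERO

set_option autoImplicit false
open scoped MatrixGroups
open Cfsg

namespace Cfsg.Agent.S5964

open Matrix Polynomial
open Cfsg.Agent.Lib.Helper99Subfield Cfsg.Agent.Lib.Helper76EluSub
open Cfsg.Agent.Lib.Helper70EluCARDSL Cfsg.Agent.Lib.Helper91EluCHARSQ Cfsg.Agent.Lib.Helper38EluSEMI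
  Cfsg.Agent.Lib.Helper38EluSLCONJ Cfsg.Agent.Lib.Helper70EluSQZERO

/-- Involutions of PSL_n(q) and subfield subgroups. Here `T = PSL_n(F)` for a field `F` with `q = p^f` elements (`n ≥ 2`, `(n, q) ≠ (2, 2), (2, 3)`), `F₀` is the subfield with `q₀` elements where `q = q₀^k` for a prime `k`, and `H` is the subgroup of matrices of determinant 1 lying in the subfield group of `F₀` (invertible matrices over `F₀` times scalars) — a maximal subgroup of type GL_n(q₀) (the case `n = 2`, `q₀ = 2` is excluded); Ω is the set of `T`-conjugates of `H` (cosets of `H`), so an element of `T` of prime order `r` (a matrix `x` of determinant 1 with `x^r` scalar, `x` not scalar) fixes a point of Ω when some conjugate of `x` by a matrix of determinant 1 lies in `H`. Suppose the index of `H` is even. Then every involution of `T` is conjugate in `T` into `H` if and only if either `q` is even, or `k = 2` and `(n)_2 ≤ (q − 1)_2`. (For `q` odd and `k` odd the index of `H` is odd, so that case does not arise.) -/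
theorem result {F : Type*} [Field F] [Fintype F] {p : ℕ} [Fact p.Prime] [CharP F p] {q : ℕ} (hq : Fintype.card F = q)
    (n : ℕ) (hn : 2 ≤ n) (hT : (n, q) ≠ (2, 2) ∧ (n, q) ≠ (2, 3))
    (F₀ : Subfield F) (k q₀ : ℕ) (hk : k.Prime) (hF₀ : Nat.card ↥F₀ = q₀) (hqk : q = q₀ ^ k) (hC5 : ¬ (n = 2 ∧ q₀ = 2)) (hΩ : 2 ∣ ((Cfsg.Geo.subfieldSubgroup F₀ 1).comap (Matrix.SpecialLinearGroup.toGL : Matrix.SpecialLinearGroup (Fin n) F →* GL (Fin n) F)).index) :
    (∀ x : Matrix.SpecialLinearGroup (Fin n) F,
      (∃ z : F, ((x ^ 2 : Matrix.SpecialLinearGroup (Fin n) F) : Matrix (Fin n) (Fin n) F) = z • (1 : Matrix (Fin n) (Fin n) F)) →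
      (∀ z : F, (x : Matrix (Fin n) (Fin n) F) ≠ z • (1 : Matrix (Fin n) (Fin n) F)) →
      ∃ P : Matrix.SpecialLinearGroup (Fin n) F, P⁻¹ * x * P ∈ ((Cfsg.Geo.subfieldSubgroup F₀ 1).comap (Matrix.SpecialLinearGroup.toGL : Matrix.SpecialLinearGroup (Fin n) F →* GL (Fin n) F))) ↔
    (Odd q → (k = 2 ∧ padicValNat 2 n ≤ padicValNat 2 (q - 1))) := by
  classical
  subst hq
  have hF₀' : Fintype.card F₀ = q₀ := by rw [← hF₀, Nat.card_eq_fintype_card]
  constructor
  · intro H hodd
    have hk2 : k = 2 := by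
      by_contra hne
      have hkodd : Odd k := hk.odd_of_ne_two hne
      have := index_odd (n := n) F₀ k hkodd hodd (by rw [hqk, hF₀']) (card_SL_mul n (by omega))
        (card_SL_mul n (by omega))
      exact (Nat.not_even_iff_odd.mpr this) (even_iff_two_dvd.mpr hΩ)
    refine ⟨hk2, ?_⟩
    subst hk2
    by_contra hlt
    push Not at hlt
    have h2n : 2 ∣ n := dvd_of_one_le_padicValNat (by omega)
    obtain ⟨m, rfl⟩ := h2n
    have hm0 : m ≠ 0 := by omega
    have hvm : padicValNat 2 (2 * m) = padicValNat 2 m + 1 := by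
      rw [padicValNat.mul (by norm_num) hm0]
      simp [add_comm]
    obtain ⟨y, hy, hym⟩ := exists_nonsquare_pow_eq_one hodd (m := m) (by omega)
    have hneg : IsSquare (-1 : F) := isSquare_neg_one_of_sq hodd q₀ hqk
    have hz : ¬ IsSquare (-y) := by
      intro h
      apply hy
      have := hneg.mul h
      simpa using this
    obtain ⟨x₀, hx₀, hdet⟩ := exists_companion m (-y)
    rw [neg_neg, hym] at hdet
    have i0 : Fin (2 * m) := ⟨0, by omega⟩
    obtain ⟨x, hx⟩ : ∃ x : Matrix.SpecialLinearGroup (Fin (2 * m)) F,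
        (x : Matrix (Fin (2 * m)) (Fin (2 * m)) F) = x₀ := ⟨⟨x₀, hdet⟩, rfl⟩
    obtain ⟨P, hP⟩ := H x ⟨-y, by
      rw [Matrix.SpecialLinearGroup.coe_pow, pow_two, hx]; exact hx₀⟩ (by
      intro c hc
      rw [hx] at hc
      apply hz
      refine ⟨c, ?_⟩
      have := congrFun (congrFun hx₀ i0) i0
      rw [hc] at this
      simpa using this.symm)
    rw [mem_comap_iff] at hP
    obtain ⟨c, hc0, hrat⟩ := hP
    obtain ⟨M, hM⟩ : ∃ M : Matrix (Fin (2 * m)) (Fin (2 * m)) F,
        M = ((P⁻¹ * x * P : Matrix.SpecialLinearGroup (Fin (2 * m)) F) :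
          Matrix (Fin (2 * m)) (Fin (2 * m)) F) := ⟨_, rfl⟩
    rw [← hM] at hrat
    have hMM : M * M = (-y) • (1 : Matrix (Fin (2 * m)) (Fin (2 * m)) F) := by
      have e : (P⁻¹ * x * P) * (P⁻¹ * x * P) = P⁻¹ * (x * x) * P := by group
      rw [hM, ← Matrix.SpecialLinearGroup.coe_mul, e]
      simp only [Matrix.SpecialLinearGroup.coe_mul]
      rw [hx, hx₀, Matrix.mul_smul, Matrix.mul_one, Matrix.smul_mul,
        ← Matrix.SpecialLinearGroup.coe_mul, inv_mul_cancel, Matrix.SpecialLinearGroup.coe_one]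
    have h1 : ((c • M) * (c • M)) i0 i0 ∈ F₀ := by
      rw [Matrix.mul_apply]
      exact F₀.sum_mem fun l _ => F₀.mul_mem (hrat i0 l) (hrat l i0)
    rw [Matrix.smul_mul, Matrix.mul_smul, hMM] at h1
    simp only [Matrix.smul_apply, Matrix.one_apply_eq, smul_eq_mul, mul_one] at h1
    obtain ⟨t, ht⟩ := isSquare_of_mem_subfield hodd F₀ (by rw [hqk, hF₀]) _ h1
    apply hz
    refine ⟨t / c, ?_⟩
    field_simp
    rw [pow_two t, ← ht]
    ring
  · intro H x ⟨z, hz⟩ hns
    rw [Matrix.SpecialLinearGroup.coe_pow] at hz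
    obtain ⟨X, hX⟩ : ∃ X : Matrix (Fin n) (Fin n) F, X = (x : Matrix (Fin n) (Fin n) F) := ⟨_, rfl⟩
    have hXdet : X.det = 1 := by rw [hX]; exact x.2
    rw [← hX] at hz hns
    have hz0 : z ≠ 0 := by
      rintro rfl
      have : Nonempty (Fin n) := ⟨⟨0, by omega⟩⟩
      have := congrArg Matrix.det hz
      rw [Matrix.det_pow, hXdet, zero_smul, Matrix.det_zero] at this
      simp at this
    by_cases hodd : Odd (Fintype.card F)
    · obtain ⟨rfl, hv⟩ := H hodd
      have h2F : (2 : F) ≠ 0 := Ring.two_ne_zero (ringChar_ne_two hodd)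
      by_cases hsq : IsSquare z
      · obtain ⟨w, rfl⟩ := hsq
        have hw : w ≠ 0 := by
          rintro rfl
          simp at hz0
        rw [← pow_two] at hz
        obtain ⟨c, d, hcd, hchar, -, -⟩ := charpoly_of_sq_eq_sq h2F X w hw hz
        obtain ⟨e, he⟩ : ∃ e : Fin n → F, e = (fun i : Fin n => if (i : ℕ) < c then w else -w) :=
          ⟨_, rfl⟩
        have hee : ∀ i, e i = w ∨ e i = -w := by
          intro i
          rw [he]
          by_cases h : (i : ℕ) < c
          · left; simp [h]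
          · right; simp [h]
        have hdet : (diagonal e).det ≠ 0 := by
          rw [Matrix.det_diagonal, Finset.prod_ne_zero_iff]
          intro i _
          rcases hee i with h | h <;> rw [h]
          · exact hw
          · exact neg_ne_zero.mpr hw
        obtain ⟨y, hy⟩ : ∃ y : GL (Fin n) F, (y : Matrix (Fin n) (Fin n) F) = diagonal e :=
          ⟨Matrix.GeneralLinearGroup.mkOfDetNeZero _ hdet, rfl⟩
        have hyy : (diagonal e) ^ 2 = (w ^ 2) • (1 : Matrix (Fin n) (Fin n) F) := by
          rw [pow_two, Matrix.diagonal_mul_diagonal, Matrix.smul_one_eq_diagonal]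
          congr 1
          ext i
          rcases hee i with h | h <;> rw [h] <;> ring
        have h2F' : ((2 : ℕ) : F) ≠ 0 := by exact_mod_cast h2F
        obtain ⟨P, hP⟩ := exists_SL_conj x y
          (by rw [← hX]; exact semisimple_of_pow_eq_smul 2 h2F' X _ (pow_ne_zero 2 hw) hz)
          (by rw [hy]; exact semisimple_of_pow_eq_smul 2 h2F' _ _ (pow_ne_zero 2 hw) hyy)
          (by rw [← hX, hy, hchar, he, charpoly_diag hcd])
        refine ⟨P, ?_⟩
        rw [Subgroup.mem_comap, hP, mem_subfieldSubgroup_one_iff]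
        refine ⟨w⁻¹, inv_ne_zero hw, ?_⟩
        intro i j
        rw [hy, Matrix.smul_apply, Matrix.diagonal_apply]
        by_cases hij : i = j
        · rw [if_pos hij]
          rcases hee i with h | h <;> rw [h]
          · rw [smul_eq_mul, inv_mul_cancel₀ hw]; exact F₀.one_mem
          · rw [smul_eq_mul, mul_neg, inv_mul_cancel₀ hw]; exact F₀.neg_mem F₀.one_mem
        · rw [if_neg hij, smul_zero]; exact F₀.zero_mem
      · exfalso
        obtain ⟨m, rfl, hchar⟩ := charpoly_of_sq_eq_nonsquare X z hsq hz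
        have hm0 : m ≠ 0 := by omega
        have hvm : padicValNat 2 (2 * m) = padicValNat 2 m + 1 := by
          rw [padicValNat.mul (by norm_num) hm0]
          simp [add_comm]
        have hd : (-z) ^ m = 1 := by
          have := Matrix.det_eq_sign_charpoly_coeff X
          rw [hXdet, hchar, Polynomial.coeff_zero_eq_eval_zero] at this
          simp at this
          exact this.symm
        have h1 := isSquare_of_pow_eq_one hodd hm0 (by omega) (-z) hd
        have hneg : IsSquare (-1 : F) := isSquare_neg_one_of_sq hodd q₀ hqk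
        apply hsq
        have := hneg.mul h1
        simpa using this
    · have hchar2 : ringChar F = 2 := by
        rw [FiniteField.even_card_iff_char_two]
        rw [Nat.odd_iff] at hodd
        omega
      have : CharP F 2 := ringChar.of_eq hchar2
      obtain ⟨w, rfl⟩ := FiniteField.isSquare_of_char_two hchar2 z
      have hw : w ≠ 0 := by
        rintro rfl
        simp at hz0
      obtain ⟨Y, hY⟩ : ∃ Y : Matrix (Fin n) (Fin n) F, Y = w⁻¹ • X := ⟨_, rfl⟩
      have hYY : Y * Y = 1 := by
        rw [hY, Matrix.smul_mul, Matrix.mul_smul, ← pow_two, hz, smul_smul, smul_smul]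
        have : w⁻¹ * w⁻¹ * (w * w) = 1 := by field_simp
        rw [this, one_smul]
      have hNN : (Y - 1) * (Y - 1) = 0 := by
        have : (Y - 1) * (Y - 1) = (2 : F) • (1 - Y) := by
          rw [sub_mul, mul_sub, hYY, mul_one, one_mul, two_smul]
          abel
        rw [this, CharTwo.two_eq_zero, zero_smul]
      have hrk := Matrix.rank_add_rank_le_card_of_mul_eq_zero hNN
      rw [Fintype.card_fin] at hrk
      obtain ⟨N', hN', hr', h01⟩ := exists_rat_sq_zero (F := F) (n := n) (s := (Y - 1).rank) (by omega)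
      obtain ⟨P, hP⟩ := exists_SL_conj_of_sq_zero (Y - 1) N' hNN hN' hr'.symm
      refine ⟨P, ?_⟩
      rw [mem_comap_iff]
      refine ⟨w⁻¹, inv_ne_zero hw, ?_⟩
      have : w⁻¹ • ((P⁻¹ * x * P : Matrix.SpecialLinearGroup (Fin n) F) : Matrix (Fin n) (Fin n) F)
          = 1 + N' := by
        rw [← hP, add_sub_cancel, hY]
        simp only [Matrix.SpecialLinearGroup.coe_mul]
        rw [← hX, Matrix.mul_smul, Matrix.smul_mul]
      rw [this]
      intro i j
      rw [Matrix.add_apply]
      apply F₀.add_mem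
      · rw [Matrix.one_apply]
        split_ifs
        · exact F₀.one_mem
        · exact F₀.zero_mem
      · rcases h01 i j with h | h <;> rw [h]
        · exact F₀.zero_mem
        · exact F₀.one_mem

end Cfsg.Agent.S5964
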