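import Cfsg.Statements.S5968
import Cfsg.Agent.Lib.Helper3EluSpIdx
import Cfsg.Agent.Lib.Helper3EluSpDerA
import Cfsg.Agent.Lib.Helper3EluSpDerB

set_option autoImplicit false
open scoped MatrixGroups
open Cfsg

namespace Cfsg.Agent.S5968

/-- Derangements of odd prime order of PSL_n(q) on the cosets of a symplectic-type subgroup. Here `T = PSL_n(F)` for a field `F` with `q` elements, `n ≥ 4` even, `f` is a nondegenerate alternating form on `F^n`, and `H` is the subgroup of matrices of determinant 1 preserving `f` up to a scalar — a maximal subgroup of type Sp_n(q); Ω is the set of `T`-conjugates of `H` (cosets of `H`), so an element of `T` of prime order `r` (a matrix `x` of determinant 1 with `x^r` scalar, `x` not scalar) fixes a point of Ω when some conjugate of `x` by a matrix of determinant 1 preserves `f` up to a scalar. For every odd prime `r` dividing the index of `H`, with `(n, r) ≠ (6, 3)`, there is an element of `T` of order `r` with no conjugate in `H`. (For `n = 6`, `r = 3` this can fail: when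 `(q − 1)_3 = 3` every element of order 3 is conjugate into `H`.) -/
theorem result {F : Type*} [Field F] [Fintype F] {p : ℕ} [Fact p.Prime] [CharP F p] {q : ℕ} (hq : Fintype.card F = q)
    (n : ℕ) (hn : 4 ≤ n) (he : Even n) (f : (Fin n → F) → (Fin n → F) → F) (hf : Cfsg.Geo.IsSymplecticForm f)
    (r : ℕ) [Fact r.Prime] (hr2 : r ≠ 2) (hgap : ¬ (n = 6 ∧ r = 3)) (hΩ : r ∣ ((Cfsg.Geo.similarityGroup f).comap (Matrix.SpecialLinearGroup.toGL : Matrix.SpecialLinearGroup (Fin n) F →* GL (Fin n) F)).index) :
    ∃ x : Matrix.SpecialLinearGroup (Fin n) F,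
      (∃ z : F, ((x ^ r : Matrix.SpecialLinearGroup (Fin n) F) : Matrix (Fin n) (Fin n) F) = z • (1 : Matrix (Fin n) (Fin n) F)) ∧
      (∀ z : F, (x : Matrix (Fin n) (Fin n) F) ≠ z • (1 : Matrix (Fin n) (Fin n) F)) ∧
      ∀ P : Matrix.SpecialLinearGroup (Fin n) F, P⁻¹ * x * P ∉ ((Cfsg.Geo.similarityGroup f).comap (Matrix.SpecialLinearGroup.toGL : Matrix.SpecialLinearGroup (Fin n) F →* GL (Fin n) F)) := by
  obtain ⟨m, hm⟩ := he
  have hn2 : n = 2 * m := by omega
  by_cases hrp : r = p
  · subst hrp
    exact Cfsg.Agent.Lib.Helper3EluSpDerA.exists_der_char hr2 hf hn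
  · have hrq : ¬ r ∣ Fintype.card F := by
      obtain ⟨k, hp, hk⟩ := FiniteField.card F p
      rw [hk]
      intro h
      have := (Fact.out : r.Prime).dvd_of_dvd_pow h
      exact hrp ((Nat.prime_dvd_prime_iff_eq Fact.out hp).1 this)
    have hrF : (r : F) ≠ 0 := by
      intro h
      have := (CharP.cast_eq_zero_iff F p r).1 h
      exact hrp ((Nat.prime_dvd_prime_iff_eq Fact.out Fact.out).1 this).symm
    obtain ⟨j, hj, hjn, hjr⟩ :=
      Cfsg.Agent.Lib.Helper3EluSpIdx.exists_odd_of_dvd_index hf hn2 (by omega) hrq hΩ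
    by_cases h1 : r ∣ Fintype.card F - 1
    · exact Cfsg.Agent.Lib.Helper3EluSpDerB.exists_der_one hf hn hr2 hgap h1
    · exact Cfsg.Agent.Lib.Helper3EluSpDerA.exists_der_odd hf (by omega) hrq hrF h1 hj hjn hjr

end Cfsg.Agent.S5968
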