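import Cfsg.Statements.S5970
import Cfsg.Agent.Lib.Helper94EluSinger

set_option autoImplicit false
open scoped MatrixGroups
open Cfsg

namespace Cfsg.Agent.S5970

open Cfsg.Geo Matrix Polynomial
open Cfsg.Agent.Lib.Helper21EluRANK Cfsg.Agent.Lib.Helper38EluSEMI Cfsg.Agent.Lib.Helper38EluSLCONJ
  Cfsg.Agent.Lib.Helper70EluCARDSL Cfsg.Agent.Lib.Helper70EluSMALL Cfsg.Agent.Lib.Helper36Elu2CHAR
  Cfsg.Agent.Lib.Helper6EluKEIGN Cfsg.Agent.Lib.Helper95EluKFROB
  Cfsg.Agent.Lib.Helper94EluSinger

/-- if `g ∣ f`, same degree, then a kernel vector of `f(A)` is a kernel vector of `g(A)`. -/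
theorem ker_of_dvd {F : Type*} [Field F] {n : ℕ} (A : Matrix (Fin n) (Fin n) F) (f g : F[X])
    (hf : f ≠ 0) (hgf : g ∣ f) (hdeg : f.natDegree ≤ g.natDegree) (v : Fin n → F)
    (hv : (aeval A f) *ᵥ v = 0) : (aeval A g) *ᵥ v = 0 := by
  obtain ⟨h, rfl⟩ := hgf
  have hg0 : g ≠ 0 := left_ne_zero_of_mul hf
  have hh0 : h ≠ 0 := right_ne_zero_of_mul hf
  rw [natDegree_mul hg0 hh0] at hdeg
  have hh : h.natDegree = 0 := by omega
  obtain ⟨c, rfl⟩ : ∃ c, h = C c := ⟨_, eq_C_of_natDegree_eq_zero hh⟩
  have hc : c ≠ 0 := by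
    intro h0
    apply hh0
    rw [h0, C_0]
  rw [map_mul, aeval_C, Algebra.algebraMap_eq_smul_one, Matrix.mul_smul, Matrix.mul_one,
    Matrix.smul_mulVec] at hv
  exact (smul_eq_zero.1 hv).resolve_left hc

theorem result {F : Type*} [Field F] [Fintype F] {p : ℕ} [Fact p.Prime] [CharP F p] {q : ℕ} (hq : Fintype.card F = q)
    (n : ℕ) (hn : 2 ≤ n) (hT : (n, q) ≠ (2, 2) ∧ (n, q) ≠ (2, 3))
    (k : ℕ) (hk : k.Prime) (hkn : k ∣ n) (K : Subalgebra F (Matrix (Fin n) (Fin n) F)) (hK : Cfsg.Geo.IsFieldSubalgebra k K) (hkn' : k = n) (hn3 : 3 < n) (hnp : n ≠ p) (hΩ : n ∣ ((Cfsg.Geo.subalgebraNormalizer K).comap (Matrix.SpecialLinearGroup.toGL : Matrix.SpecialLinearGroup (Fin n) F →* GL (Fin n) F)).index) :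
    (∀ x : Matrix.SpecialLinearGroup (Fin n) F,
      (∃ z : F, ((x ^ n : Matrix.SpecialLinearGroup (Fin n) F) : Matrix (Fin n) (Fin n) F) = z • (1 : Matrix (Fin n) (Fin n) F)) →
      (∀ z : F, (x : Matrix (Fin n) (Fin n) F) ≠ z • (1 : Matrix (Fin n) (Fin n) F)) →
      ∃ P : Matrix.SpecialLinearGroup (Fin n) F, P⁻¹ * x * P ∈ ((Cfsg.Geo.subalgebraNormalizer K).comap (Matrix.SpecialLinearGroup.toGL : Matrix.SpecialLinearGroup (Fin n) F →* GL (Fin n) F))) ↔
    orderOf (q : ZMod n) = n - 1 := by
  subst hkn'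
  rename' k => n
  have : Fact n.Prime := ⟨hk⟩
  have hp : p.Prime := Fact.out
  obtain ⟨f, -, hqf⟩ := FiniteField.card F p
  rw [hq] at hqf
  have hcop : p.Coprime n := (Nat.coprime_primes hp hk).2 (Ne.symm hnp)
  have hnq : ¬ n ∣ Fintype.card F := by
    rw [hq, hqf]
    intro h
    exact hnp ((Nat.prime_dvd_prime_iff_eq hk hp).1 (hk.dvd_of_dvd_pow h))
  have hnF : (n : F) ≠ 0 := by
    intro h0
    rw [CharP.cast_eq_zero_iff F p] at h0
    exact hnp ((Nat.prime_dvd_prime_iff_eq hp hk).1 h0).symm
  have hq0 : (q : ZMod n) ≠ 0 := by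
    intro h0
    rw [ZMod.natCast_eq_zero_iff] at h0
    exact hnq (hq ▸ h0)
  have hq1 : 1 ≤ q := by rw [← hq]; exact Fintype.card_pos
  have hdvd_iff : ∀ j : ℕ, n ∣ q ^ j - 1 ↔ (q : ZMod n) ^ j = 1 := by
    intro j
    have h1 : 1 ≤ q ^ j := Nat.one_le_pow _ _ hq1
    rw [← ZMod.natCast_eq_zero_iff, Nat.cast_sub h1, Nat.cast_pow, Nat.cast_one, sub_eq_zero]
  constructor
  · intro hall
    by_contra hne
    set i := orderOf (q : ZMod n) with hi
    have hidvd : i ∣ n - 1 := by
      rw [hi, orderOf_dvd_iff_pow_eq_one]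
      exact ZMod.pow_card_sub_one_eq_one hq0
    have hipos : 0 < i := Nat.pos_of_dvd_of_pos hidvd (by omega)
    have hile : i + 2 ≤ n := by
      obtain ⟨c, hc⟩ := hidvd
      have hc2 : 2 ≤ c := by
        rcases c with _ | _ | c
        · omega
        · exfalso; apply hne; omega
        · omega
      have : 2 * i ≤ n - 1 := by
        rw [hc, mul_comm]
        exact Nat.mul_le_mul_left i hc2
      omega
    -- an element of order `n` with a large fixed space
    obtain ⟨x, hx1, hx2, hx3⟩ : ∃ x : Matrix.SpecialLinearGroup (Fin n) F, x ^ n = 1 ∧ x ≠ 1 ∧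
        ((x : Matrix (Fin n) (Fin n) F) - 1).rank + 2 ≤ n := by
      by_cases h1 : n ∣ Fintype.card F - 1
      · obtain ⟨x, h2, h3, h4⟩ := exists_small_diag (F := F) (n := n) (r := n) hn h1
        have : 5 ≤ n := by
          by_contra hlt
          have : n = 4 := by omega
          rw [this] at hk
          exact absurd hk (by norm_num)
        exact ⟨x, h2, h3, by omega⟩
      · obtain ⟨x, h2, h3, h4⟩ := exists_small (F := F) (n := n) (i := i) (r := n) hipos (by omega)
          (by rw [hq, hdvd_iff, hi]; exact pow_orderOf_eq_one _) h1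
        exact ⟨x, h2, h3, by omega⟩
    obtain ⟨u, v, hu, hv, hu0, huv⟩ := exists_two_eig (x : Matrix (Fin n) (Fin n) F) 1
      (by rw [one_smul]; exact hx3)
    have hns : ∀ z : F, (x : Matrix (Fin n) (Fin n) F) ≠ z • (1 : Matrix (Fin n) (Fin n) F) := by
      intro z hz
      rw [hz, Matrix.smul_mulVec, Matrix.one_mulVec] at hu
      have hz1 : z = 1 := by
        by_contra hz1
        have : (z - 1) • u = 0 := by rw [sub_smul, hu, sub_self]
        exact hu0 ((smul_eq_zero.1 this).resolve_left (sub_ne_zero.2 hz1))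
      apply hx2
      apply Matrix.SpecialLinearGroup.ext
      intro a b
      rw [hz, hz1, one_smul, Matrix.SpecialLinearGroup.coe_one]
    obtain ⟨P, hP⟩ := hall x ⟨1, by rw [hx1, one_smul, Matrix.SpecialLinearGroup.coe_one]⟩ hns
    exact not_conj_of_eig hk hK x hns 1 u v hu hv hu0 huv P hP
  · intro hord x ⟨z, hz⟩ hns
    rw [Matrix.SpecialLinearGroup.coe_pow] at hz
    have hn1 : ¬ n ∣ q - 1 := by
      intro h1
      have := (hdvd_iff 1).1 (by rwa [pow_one])
      rw [pow_one] at this
      rw [this, orderOf_one] at hord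
      omega
    -- `z = 1`
    have hzn : z ^ n = 1 := by
      have := congrArg Matrix.det hz
      rw [Matrix.det_pow, x.det_coe, one_pow, Matrix.det_smul, Matrix.det_one, mul_one,
        Fintype.card_fin] at this
      exact this.symm
    have hz0 : z ≠ 0 := by
      intro h0
      rw [h0, zero_pow (by omega)] at hzn
      exact zero_ne_one hzn
    have hz1 : z = 1 := by
      have h1 : z ^ (q - 1) = 1 := by rw [← hq]; exact FiniteField.pow_card_sub_one_eq_one z hz0
      have h2 : z ^ (Nat.gcd n (q - 1)) = 1 := by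
        rw [← orderOf_dvd_iff_pow_eq_one] at h1 hzn ⊢
        exact Nat.dvd_gcd hzn h1
      rw [(Nat.Prime.coprime_iff_not_dvd hk).2 hn1, pow_one] at h2
      exact h2
    rw [hz1, one_smul] at hz
    have hx1 : (x : Matrix (Fin n) (Fin n) F) ≠ 1 := by
      intro h
      exact hns 1 (by rw [h, one_smul])
    -- the rank of `x - 1`
    have hrk := orderOf_dvd_rank n hnq (x : Matrix (Fin n) (Fin n) F) hz
    rw [hq, hord] at hrk
    have hrkle : ((x : Matrix (Fin n) (Fin n) F) - 1).rank ≤ n := by
      have := Matrix.rank_le_card_width ((x : Matrix (Fin n) (Fin n) F) - 1)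
      rwa [Fintype.card_fin] at this
    have hrklt : ((x : Matrix (Fin n) (Fin n) F) - 1).rank < n := by
      rcases hrkle.lt_or_eq with h | h
      · exact h
      · exfalso
        rw [h] at hrk
        have : n - 1 ∣ 1 := by
          have h2 : n - 1 ∣ (n - 1) + 1 := by
            rwa [Nat.sub_add_cancel (by omega)]
          exact (Nat.dvd_add_right (dvd_refl _)).1 h2
        have := Nat.le_of_dvd one_pos this
        omega
    have hchar : (x : Matrix (Fin n) (Fin n) F).charpoly = X ^ n - C 1 := by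
      apply charpoly_eq_of_squarefree
      · exact monic_X_pow_sub_C 1 (by omega)
      · exact (separable_X_pow_sub_C 1 hnF one_ne_zero).squarefree
      · exact natDegree_X_pow_sub_C
      · simp [hz]
      · intro g hg hgf
        rw [C_1, ← cyclotomic_prime_mul_X_sub_one F n] at hgf
        rcases hg.prime.dvd_or_dvd hgf with h | h
        · -- `g ∣ Φ_n`
          have hdeg := natDegree_of_dvd_cyclotomic_of_irreducible (hq.trans hqf) hcop h hg
          have hord' : orderOf (ZMod.unitOfCoprime _ (hcop.pow_left f)) = n - 1 := by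
            rw [← orderOf_units, ZMod.coe_unitOfCoprime, ← hqf, hord]
          rw [hord'] at hdeg
          obtain ⟨w, hw⟩ : ∃ w : Fin n → F, ((x : Matrix (Fin n) (Fin n) F) - 1) *ᵥ w ≠ 0 := by
            by_contra hcon
            push Not at hcon
            apply hx1
            have : (x : Matrix (Fin n) (Fin n) F) - 1 = 0 := by
              apply Matrix.toLin'.injective
              apply LinearMap.ext
              intro w
              rw [Matrix.toLin'_apply, hcon, map_zero, LinearMap.zero_apply]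
            exact sub_eq_zero.1 this
          refine ⟨_, hw, ?_⟩
          apply ker_of_dvd _ (cyclotomic n F) g (cyclotomic_ne_zero n F) h
            (by rw [natDegree_cyclotomic, Nat.totient_prime hk, hdeg])
          rw [Matrix.mulVec_mulVec]
          have : aeval (x : Matrix (Fin n) (Fin n) F) (cyclotomic n F) *
              ((x : Matrix (Fin n) (Fin n) F) - 1) = 0 := by
            have h2 := congrArg (aeval (x : Matrix (Fin n) (Fin n) F))
              (cyclotomic_prime_mul_X_sub_one F n)
            simpa [hz] using h2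
          rw [this, Matrix.zero_mulVec]
        · -- `g ∣ X - 1`
          obtain ⟨v, hv0, hv⟩ : ∃ v : Fin n → F, v ≠ 0 ∧
              ((x : Matrix (Fin n) (Fin n) F) - 1) *ᵥ v = 0 := by
            apply Matrix.exists_mulVec_eq_zero_iff.2
            by_contra hdet
            have hu : IsUnit ((x : Matrix (Fin n) (Fin n) F) - 1) :=
              (Matrix.isUnit_iff_isUnit_det _).2 (isUnit_iff_ne_zero.2 hdet)
            have := Matrix.rank_of_isUnit _ hu
            rw [Fintype.card_fin] at this
            omega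
          refine ⟨v, hv0, ?_⟩
          apply ker_of_dvd _ (X - 1) g (X_sub_C_ne_zero 1) h
          · have : (X - 1 : F[X]).natDegree = 1 := natDegree_X_sub_C 1
            rw [this]
            exact hg.natDegree_pos
          · simpa using hv
    exact conj_of_charpoly (by omega) hnF hK x 1 one_ne_zero hchar

end Cfsg.Agent.S5970
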