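import Cfsg.Statements.S5971
import Cfsg.Agent.Lib.Helper94EluSinger

set_option autoImplicit false
open scoped MatrixGroups
open Cfsg

namespace Cfsg.Agent.S5971

open Cfsg.Geo Matrix Polynomial
open Cfsg.Agent.Lib.Helper21EluRANK Cfsg.Agent.Lib.Helper38EluSEMI Cfsg.Agent.Lib.Helper38EluSLCONJ
  Cfsg.Agent.Lib.Helper70EluCARDSL Cfsg.Agent.Lib.Helper70EluSMALL Cfsg.Agent.Lib.Helper36Elu2CHAR
  Cfsg.Agent.Lib.Helper6EluKEIGN Cfsg.Agent.Lib.Helper95EluKFROB
  Cfsg.Agent.Lib.Helper94EluSinger

section aux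
variable {F : Type*} [Field F] [Fintype F]


theorem lin_zero (A : Matrix (Fin 3) (Fin 3) F)
    (hns : ∀ z : F, A ≠ z • (1 : Matrix (Fin 3) (Fin 3) F)) (u v : F)
    (h : u • A + v • (1 : Matrix (Fin 3) (Fin 3) F) = 0) : u = 0 ∧ v = 0 := by
  have hu : u = 0 := by
    by_contra hu
    apply hns (-(u⁻¹ * v))
    have h2 : u • A = -(v • (1 : Matrix (Fin 3) (Fin 3) F)) := eq_neg_of_add_eq_zero_left h
    calc A = u⁻¹ • (u • A) := by rw [smul_smul, inv_mul_cancel₀ hu, one_smul]
      _ = _ := by rw [h2, smul_neg, smul_smul, neg_smul]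
  refine ⟨hu, ?_⟩
  rw [hu, zero_smul, zero_add] at h
  by_contra hv
  have := congrFun (congrFun h 0) 0
  simp [hv] at this

theorem charpoly_three (h9 : ¬ 9 ∣ Fintype.card F - 1)
    (A : Matrix (Fin 3) (Fin 3) F) (hdet : A.det = 1) (z : F)
    (hz : A ^ 3 = z • (1 : Matrix (Fin 3) (Fin 3) F))
    (hns : ∀ z : F, A ≠ z • (1 : Matrix (Fin 3) (Fin 3) F)) : A.charpoly = X ^ 3 - C 1 := by
  set P := A.charpoly with hP
  have hmon : P.Monic := Matrix.charpoly_monic A
  have hdeg : P.natDegree = 3 := by rw [hP, Matrix.charpoly_natDegree_eq_dim, Fintype.card_fin]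
  have hPexp : P = X ^ 3 + C (P.coeff 2) * X ^ 2 + C (P.coeff 1) * X + C (P.coeff 0) := by
    conv_lhs => rw [Polynomial.as_sum_range_C_mul_X_pow P, hdeg]
    have h3c : P.coeff 3 = 1 := by rw [← hdeg]; exact hmon.coeff_natDegree
    simp [Finset.sum_range_succ, h3c]
    ring
  have h0 : P.coeff 0 = -1 := by
    have := Matrix.det_eq_sign_charpoly_coeff A
    rw [hdet, Fintype.card_fin, ← hP] at this
    linear_combination this
  set t2 := P.coeff 2
  set t1 := P.coeff 1
  have hz3 : z ^ 3 = 1 := by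
    have := congrArg Matrix.det hz
    rw [Matrix.det_pow, hdet, one_pow, Matrix.det_smul, Matrix.det_one, mul_one,
      Fintype.card_fin] at this
    exact this.symm
  have hz0 : z ≠ 0 := by
    intro h
    rw [h] at hz3
    simp at hz3
  have hCH : t2 • (A * A) + t1 • A + (z - 1) • (1 : Matrix (Fin 3) (Fin 3) F) = 0 := by
    have := Matrix.aeval_self_charpoly A
    rw [← hP, hPexp, h0] at this
    simp only [map_add, map_mul, map_pow, aeval_X, aeval_C, Algebra.algebraMap_eq_smul_one,
      Matrix.smul_mul, Matrix.one_mul, hz, pow_two] at this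
    rw [← this]
    module
  have hA3 : A * (A * A) = z • (1 : Matrix (Fin 3) (Fin 3) F) := by
    rw [← hz]; noncomm_ring
  by_cases ht2 : t2 = 0
  · rw [ht2, zero_smul, zero_add] at hCH
    obtain ⟨h1, h2⟩ := lin_zero A hns _ _ hCH
    rw [hPexp, h0, ht2, h1]
    simp
    ring
  · exfalso
    set α := -(t1 / t2) with hα
    set β := (1 - z) / t2 with hβ
    have hsq : A * A = α • A + β • (1 : Matrix (Fin 3) (Fin 3) F) := by
      have h5 : t2 • (A * A) = t2 • (α • A + β • (1 : Matrix (Fin 3) (Fin 3) F)) := by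
        have e1 : t2 * α = -t1 := by rw [hα]; field_simp
        have e2 : t2 * β = 1 - z := by rw [hβ]; field_simp
        rw [smul_add, smul_smul, smul_smul, e1, e2]
        have := eq_neg_of_add_eq_zero_left (by rw [add_assoc] at hCH; exact hCH)
        rw [this]
        module
      have h55 : t2⁻¹ • (t2 • (A * A))
          = t2⁻¹ • (t2 • (α • A + β • (1 : Matrix (Fin 3) (Fin 3) F))) := by rw [h5]
      rwa [smul_smul, smul_smul, inv_mul_cancel₀ ht2, one_smul, one_smul] at h55
    have h6 : (α ^ 2 + β) • A + (α * β - z) • (1 : Matrix (Fin 3) (Fin 3) F) = 0 := by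
      have h7 := hA3
      rw [hsq, Matrix.mul_add, Matrix.mul_smul, Matrix.mul_smul, Matrix.mul_one, hsq] at h7
      have : (α ^ 2 + β) • A + (α * β - z) • (1 : Matrix (Fin 3) (Fin 3) F)
          = (α • (α • A + β • (1 : Matrix (Fin 3) (Fin 3) F)) + β • A)
            - z • (1 : Matrix (Fin 3) (Fin 3) F) := by module
      rw [this, h7, sub_self]
    obtain ⟨h8, h9'⟩ := lin_zero A hns _ _ h6
    have hβ' : β = -α ^ 2 := by linear_combination h8
    have hzα : z = (-α) ^ 3 := by
      have : z = α * β := by linear_combination -h9'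
      rw [this, hβ']; ring
    have hz1 : z ≠ 1 := by
      intro h1
      have : β = 0 := by rw [hβ, h1, sub_self, zero_div]
      rw [this] at hβ'
      have hα0 : α = 0 := by
        have h22 : α ^ 2 = 0 := by
          have := hβ'.symm
          rwa [neg_eq_zero] at this
        exact pow_eq_zero_iff (two_ne_zero) |>.1 h22
      rw [hα0] at hzα
      apply hz0
      rw [hzα]; simp
    set a0 := -α
    have ha0 : a0 ≠ 0 := by
      intro h
      rw [h] at hzα
      apply hz0
      rw [hzα]; simp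
    have h99 : a0 ^ 9 = 1 := by
      calc a0 ^ 9 = (a0 ^ 3) ^ 3 := by ring
        _ = 1 := by rw [← hzα, hz3]
    have hord : orderOf a0 = 9 := by
      have hd : orderOf a0 ∣ 3 ^ 2 := by
        rw [orderOf_dvd_iff_pow_eq_one]; exact h99
      obtain ⟨k, hk, hk'⟩ := (Nat.dvd_prime_pow Nat.prime_three).1 hd
      interval_cases k
      · exfalso
        rw [pow_zero, orderOf_eq_one_iff] at hk'
        apply hz1
        rw [hzα, hk', one_pow]
      · exfalso
        apply hz1
        rw [hzα, ← orderOf_dvd_iff_pow_eq_one, hk']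
        norm_num
      · rw [hk']; norm_num
    apply h9
    rw [← hord, orderOf_dvd_iff_pow_eq_one]
    exact FiniteField.pow_card_sub_one_eq_one a0 ha0

end aux

theorem not_nine_dvd {F : Type*} [Field F] [Fintype F] {q : ℕ} (hq : Fintype.card F = q)
    (h : q % 9 = 2 ∨ q % 9 = 5) : ¬ 9 ∣ Nat.card (Matrix.SpecialLinearGroup (Fin 3) F) := by
  intro h9
  have h1 := card_SL_mul (F := F) 3 (by norm_num)
  rw [hq] at h1
  have h2 : 9 ∣ ∏ i : Fin 3, (q ^ 3 - q ^ (i : ℕ)) := by
    rw [← h1]; exact Dvd.dvd.mul_right h9 _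
  rw [Fin.prod_univ_three] at h2
  simp only [Fin.val_zero, Fin.val_one, Fin.val_two, pow_zero, pow_one] at h2
  have hq1 : 1 ≤ q := by rw [← hq]; exact Fintype.card_pos
  have e1 : 1 ≤ q ^ 3 := Nat.one_le_pow _ _ hq1
  have e2 : q ≤ q ^ 3 := by
    calc q = q ^ 1 := (pow_one q).symm
      _ ≤ q ^ 3 := Nat.pow_le_pow_right hq1 (by norm_num)
  have e3 : q ^ 2 ≤ q ^ 3 := Nat.pow_le_pow_right hq1 (by norm_num)
  rw [← ZMod.natCast_eq_zero_iff] at h2
  push_cast [Nat.cast_sub e1, Nat.cast_sub e2, Nat.cast_sub e3] at h2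
  have hqz : (q : ZMod 9) = ((q % 9 : ℕ) : ZMod 9) := by
    rw [ZMod.natCast_mod]
  rcases h with h | h
  · rw [hqz, h] at h2
    revert h2; decide
  · rw [hqz, h] at h2
    revert h2; decide

theorem result {F : Type*} [Field F] [Fintype F] {p : ℕ} [Fact p.Prime] [CharP F p] {q : ℕ} (hq : Fintype.card F = q)
    (n : ℕ) (hn : n = 3) (k : ℕ) (hk : k.Prime) (hkn : k ∣ n) (K : Subalgebra F (Matrix (Fin n) (Fin n) F)) (hK : Cfsg.Geo.IsFieldSubalgebra k K) (hk3 : k = 3) (hΩ : 3 ∣ ((Cfsg.Geo.subalgebraNormalizer K).comap (Matrix.SpecialLinearGroup.toGL : Matrix.SpecialLinearGroup (Fin n) F →* GL (Fin n) F)).index) :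
    (∀ x : Matrix.SpecialLinearGroup (Fin n) F,
      (∃ z : F, ((x ^ 3 : Matrix.SpecialLinearGroup (Fin n) F) : Matrix (Fin n) (Fin n) F) = z • (1 : Matrix (Fin n) (Fin n) F)) →
      (∀ z : F, (x : Matrix (Fin n) (Fin n) F) ≠ z • (1 : Matrix (Fin n) (Fin n) F)) →
      ∃ P : Matrix.SpecialLinearGroup (Fin n) F, P⁻¹ * x * P ∈ ((Cfsg.Geo.subalgebraNormalizer K).comap (Matrix.SpecialLinearGroup.toGL : Matrix.SpecialLinearGroup (Fin n) F →* GL (Fin n) F))) ↔
    (q % 9 = 4 ∨ q % 9 = 7 ∨ q % 9 = 8) := by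
  subst hn
  subst hk3
  have hp : p.Prime := Fact.out
  obtain ⟨f, -, hqf⟩ := FiniteField.card F p
  rw [hq] at hqf
  have hq1 : 1 ≤ q := by rw [← hq]; exact Fintype.card_pos
  -- `3 ∣ q ↔ (3 : F) = 0`
  have h3F : (3 : F) = 0 ↔ 3 ∣ q := by
    have : ((3 : ℕ) : F) = 0 ↔ p ∣ 3 := CharP.cast_eq_zero_iff F p 3
    rw [Nat.cast_ofNat] at this
    rw [this, hqf]
    constructor
    · intro h
      have : p = 3 := (Nat.prime_dvd_prime_iff_eq hp Nat.prime_three).1 h
      rw [this]
      exact dvd_pow_self 3 f.pos.ne'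
    · intro h
      have := Nat.prime_three.dvd_of_dvd_pow h
      rw [(Nat.prime_dvd_prime_iff_eq Nat.prime_three hp).1 this]
  have hgood : ¬ 3 ∣ q → ¬ 9 ∣ q - 1 → ∀ x : Matrix.SpecialLinearGroup (Fin 3) F,
      (∃ z : F, ((x ^ 3 : Matrix.SpecialLinearGroup (Fin 3) F) : Matrix (Fin 3) (Fin 3) F) = z • (1 : Matrix (Fin 3) (Fin 3) F)) →
      (∀ z : F, (x : Matrix (Fin 3) (Fin 3) F) ≠ z • (1 : Matrix (Fin 3) (Fin 3) F)) →
      ∃ P : Matrix.SpecialLinearGroup (Fin 3) F, P⁻¹ * x * P ∈ ((Cfsg.Geo.subalgebraNormalizer K).comap (Matrix.SpecialLinearGroup.toGL : Matrix.SpecialLinearGroup (Fin 3) F →* GL (Fin 3) F)) := by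
    intro h3 h9 x ⟨z, hz⟩ hns
    rw [Matrix.SpecialLinearGroup.coe_pow] at hz
    have hc := charpoly_three (by rw [hq]; exact h9) (x : Matrix (Fin 3) (Fin 3) F) x.det_coe z hz hns
    exact conj_of_charpoly (by norm_num) (by
      rw [Nat.cast_ofNat]
      exact fun h => h3 (h3F.1 h)) hK x 1 one_ne_zero hc
  constructor
  · intro hall
    by_contra hcon
    have hcases : 3 ∣ q ∨ q % 9 = 1 ∨ (q % 9 = 2 ∨ q % 9 = 5) := by omega
    rcases hcases with h | h | h
    · -- characteristic 3 : a transvection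
      have h30 : (3 : F) = 0 := h3F.2 h
      obtain ⟨x, hx⟩ : ∃ x : Matrix.SpecialLinearGroup (Fin 3) F,
          (x : Matrix (Fin 3) (Fin 3) F) = Matrix.transvection 0 1 1 :=
        ⟨⟨_, Matrix.det_transvection_of_ne 0 1 (by decide) 1⟩, rfl⟩
      have hx3 : (x : Matrix (Fin 3) (Fin 3) F) ^ 3 = 1 := by
        rw [hx, pow_succ, pow_two, Matrix.transvection_mul_transvection_same 0 1 (by decide),
          Matrix.transvection_mul_transvection_same 0 1 (by decide)]
        have : (1 + 1 + 1 : F) = 0 := by rw [← h30]; norm_num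
        rw [this, Matrix.transvection_zero]
      have hns : ∀ z : F, (x : Matrix (Fin 3) (Fin 3) F) ≠ z • (1 : Matrix (Fin 3) (Fin 3) F) := by
        intro z hz
        have := congrFun (congrFun hz 0) 1
        rw [hx] at this
        simp [Matrix.transvection, Matrix.single] at this
      obtain ⟨P, hP⟩ := hall x ⟨1, by rw [Matrix.SpecialLinearGroup.coe_pow, hx3, one_smul]⟩ hns
      refine not_conj_of_eig hk hK x hns 1 (Pi.single 0 1) (Pi.single 2 1) ?_ ?_ ?_ ?_ P hP
      · rw [hx, one_smul]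
        ext i; fin_cases i <;> simp [Matrix.transvection, Matrix.single, Matrix.mulVec, dotProduct, Fin.sum_univ_three, Matrix.add_apply]
      · rw [hx, one_smul]
        ext i; fin_cases i <;> simp [Matrix.transvection, Matrix.single, Matrix.mulVec, dotProduct, Fin.sum_univ_three, Matrix.add_apply]
      · intro h0
        have := congrFun h0 0
        simp at this
      · intro c hc
        have := congrFun hc 2
        simp at this
    · -- `q ≡ 1 mod 9`
      have h9 : 9 ∣ Nat.card Fˣ := by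
        classical
        rw [Nat.card_eq_fintype_card, Fintype.card_units, hq]
        omega
      obtain ⟨g, hg⟩ := IsCyclic.exists_ofOrder_eq_natCard (α := Fˣ)
      obtain ⟨m, hm⟩ := h9
      have hm0 : m ≠ 0 := by
        rintro rfl
        rw [mul_zero] at hm
        exact Nat.card_pos.ne' hm
      have ha9 : orderOf (g ^ m) = 9 := by
        rw [orderOf_pow_of_dvd hm0 (by rw [hg, hm]; exact Dvd.intro_left 9 rfl), hg, hm]
        exact Nat.mul_div_cancel _ (Nat.pos_of_ne_zero hm0)
      set a : Fˣ := g ^ m with ha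
      have ha9' : (a : F) ^ 9 = 1 := by
        rw [← Units.val_pow_eq_pow_val, ← ha9, pow_orderOf_eq_one, Units.val_one]
      have ha3 : (a : F) ^ 3 ≠ 1 := by
        intro h3
        have : a ^ 3 = 1 := Units.ext (by rw [Units.val_pow_eq_pow_val, h3, Units.val_one])
        rw [← orderOf_dvd_iff_pow_eq_one, ha9] at this
        norm_num at this
      have ha0 : (a : F) ≠ 0 := a.ne_zero
      set b : F := ((a : F) ^ 2)⁻¹ with hb
      have hab : (a : F) * a * b = 1 := by
        rw [hb]; field_simp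
      obtain ⟨x, hx⟩ : ∃ x : Matrix.SpecialLinearGroup (Fin 3) F,
          (x : Matrix (Fin 3) (Fin 3) F) = Matrix.diagonal ![(a : F), a, b] :=
        ⟨⟨Matrix.diagonal ![(a : F), a, b], by
          rw [Matrix.det_diagonal, Fin.prod_univ_three]; simpa using hab⟩, rfl⟩
      have hb3 : b ^ 3 = (a : F) ^ 3 := by
        have : b ^ 3 * (a : F) ^ 6 = (a : F) ^ 3 * (a : F) ^ 6 := by
          calc b ^ 3 * (a : F) ^ 6 = ((a : F) * a * b) ^ 3 := by ring
            _ = 1 := by rw [hab, one_pow]
            _ = (a : F) ^ 9 := ha9'.symm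
            _ = _ := by ring
        exact mul_right_cancel₀ (pow_ne_zero 6 ha0) this
      have hx3 : (x : Matrix (Fin 3) (Fin 3) F) ^ 3 = ((a : F) ^ 3) • (1 : Matrix (Fin 3) (Fin 3) F) := by
        rw [hx, Matrix.diagonal_pow, Matrix.smul_one_eq_diagonal]
        congr 1
        funext i
        fin_cases i <;> simp [hb3]
      have hne : b ≠ a := by
        intro h
        apply ha3
        rw [h] at hab
        rw [← hab]; ring
      have hns : ∀ z : F, (x : Matrix (Fin 3) (Fin 3) F) ≠ z • (1 : Matrix (Fin 3) (Fin 3) F) := by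
        intro z hz
        have h0 := congrFun (congrFun hz 0) 0
        have h2 := congrFun (congrFun hz 2) 2
        rw [hx] at h0 h2
        simp at h0 h2
        exact hne (by rw [h2, h0])
      obtain ⟨P, hP⟩ := hall x ⟨_, by rw [Matrix.SpecialLinearGroup.coe_pow, hx3]⟩ hns
      refine not_conj_of_eig hk hK x hns a (Pi.single 0 1) (Pi.single 1 1) ?_ ?_ ?_ ?_ P hP
      · rw [hx, Matrix.diagonal_mulVec_single]
        ext i; fin_cases i <;> simp
      · rw [hx, Matrix.diagonal_mulVec_single]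
        ext i; fin_cases i <;> simp
      · intro h0
        have := congrFun h0 0
        simp at this
      · intro c hc
        have := congrFun hc 1
        simp at this
    · -- `q ≡ 2, 5 mod 9` : the index is prime to 3
      have h3 : ¬ 3 ∣ q := by omega
      have h9 : ¬ 9 ∣ q - 1 := by omega
      obtain ⟨x, hx⟩ : ∃ x : Matrix.SpecialLinearGroup (Fin 3) F,
          (x : Matrix (Fin 3) (Fin 3) F) = !![0, 0, 1; 1, 0, 0; 0, 1, 0] :=
        ⟨⟨_, by simp [Matrix.det_fin_three]⟩, rfl⟩
      have hx3 : x ^ 3 = 1 := by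
        apply Matrix.SpecialLinearGroup.ext
        intro i j
        rw [Matrix.SpecialLinearGroup.coe_pow, hx, Matrix.SpecialLinearGroup.coe_one]
        fin_cases i <;> fin_cases j <;>
          simp [pow_succ, Matrix.mul_apply, Fin.sum_univ_three]
      have hns : ∀ z : F, (x : Matrix (Fin 3) (Fin 3) F) ≠ z • (1 : Matrix (Fin 3) (Fin 3) F) := by
        intro z hz
        have := congrFun (congrFun hz 0) 2
        rw [hx] at this
        simp at this
      obtain ⟨P, hP⟩ := hgood h3 h9 x ⟨1, by rw [hx3, one_smul, Matrix.SpecialLinearGroup.coe_one]⟩ hns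
      set H := ((Cfsg.Geo.subalgebraNormalizer K).comap (Matrix.SpecialLinearGroup.toGL : Matrix.SpecialLinearGroup (Fin 3) F →* GL (Fin 3) F)) with hH
      have hy3 : (P⁻¹ * x * P) ^ 3 = 1 := by
        have : P⁻¹ * x * P = P⁻¹ * x * P⁻¹⁻¹ := by rw [inv_inv]
        rw [this, conj_pow, hx3]; group
      have hy1 : P⁻¹ * x * P ≠ 1 := by
        intro h1
        have : x = 1 := by
          have := congrArg (fun t => P * t * P⁻¹) h1
          simpa [mul_assoc] using this
        apply hns 1
        rw [this, one_smul, Matrix.SpecialLinearGroup.coe_one]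
      have hord : orderOf (⟨P⁻¹ * x * P, hP⟩ : H) = 3 := by
        apply orderOf_eq_prime
        · exact Subtype.ext hy3
        · intro h1
          exact hy1 (congrArg Subtype.val h1)
      have h3H : 3 ∣ Nat.card H := by
        have := orderOf_dvd_natCard (⟨P⁻¹ * x * P, hP⟩ : H)
        rwa [hord] at this
      apply not_nine_dvd hq h
      rw [← H.index_mul_card]
      exact Nat.mul_dvd_mul hΩ h3H
  · intro h
    exact hgood (by omega) (by omega)

end Cfsg.Agent.S5971
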