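import Cfsg.Statements.S5985
import Cfsg.Agent.Lib.Helper94EluOPlus

set_option autoImplicit false
open scoped MatrixGroups
open Cfsg

namespace Cfsg.Agent.S5985

/-- Elements of prime order of Ω⁺_n(q), q even, with no fixed nonsingular 1-space. Here `T = PΩ⁺_n(F)`, `n = 2d ≥ 8`, realised through `Ω⁺_n(q)`, the commutator subgroup of the isometry group of `Q = Σ xᵢyᵢ` over the field `F` with `q` elements; an element of `T` of prime order `r` is an element `x` of `Ω⁺_n(q)` with `x^r` scalar and `x` not scalar; `q` is even (so the centre is trivial). Let Ω be the set of 1-dimensional subspaces spanned by a vector `v` with `Q(v) ≠ 0`, and let `r` be a prime dividing their number. Then every element of `T` of order `r` fixes some nonsingular 1-space if and only if `r = 2` and `n ≡ 2 (mod 4)` (that is, `d` is odd). -/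
theorem result {F : Type*} [Field F] [Fintype F] {p : ℕ} [Fact p.Prime] [CharP F p] {q : ℕ} (hq : Fintype.card F = q)
    (hp : p = 2) (d : ℕ) (hd : 4 ≤ d) (r : ℕ) [Fact r.Prime]
    (hrΩ : r ∣ Nat.card {W : Submodule F (Fin d ⊕ Fin d → F) // Module.finrank F ↥W = 1 ∧ ∃ v ∈ W, Cfsg.quadFormPlus d F v ≠ 0}) :
    (∀ x : GL (Fin d ⊕ Fin d) F, x ∈ Cfsg.Geo.omegaGL (Cfsg.quadFormPlus d F) →
      (∃ z : F, ((x ^ r : GL (Fin d ⊕ Fin d) F) : Matrix (Fin d ⊕ Fin d) (Fin d ⊕ Fin d) F) = z • (1 : Matrix (Fin d ⊕ Fin d) (Fin d ⊕ Fin d) F)) →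
      (∀ z : F, (x : Matrix (Fin d ⊕ Fin d) (Fin d ⊕ Fin d) F) ≠ z • (1 : Matrix (Fin d ⊕ Fin d) (Fin d ⊕ Fin d) F)) →
      ∃ W : Submodule F (Fin d ⊕ Fin d → F), (Module.finrank F ↥W = 1 ∧ ∃ v ∈ W, Cfsg.quadFormPlus d F v ≠ 0) ∧ W.map (Matrix.toLin' (x : Matrix (Fin d ⊕ Fin d) (Fin d ⊕ Fin d) F)) ≤ W) ↔ (r = 2 ∧ Odd d) := by
  classical
  subst hp
  have hrp : r.Prime := Fact.out
  have hd0 : 0 < d := by omega
  have hd2 : d ≠ 2 := by omega
  constructor
  · intro H
    by_cases hr2 : r = 2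
    · refine ⟨hr2, ?_⟩
      by_contra hodd
      rw [Nat.not_odd_iff_even] at hodd
      obtain ⟨g, hg, hg2, hfix⟩ :=
        Cfsg.Agent.Lib.Helper94EluOPlus.exists_unipotent_derangement (F := F) hd2 hodd
      refine Cfsg.Agent.Lib.Helper94EluOPlus.not_elusive_of hd0 g hg (r := r) (by rw [hr2]; exact hg2) ?_ H
      intro v hv
      have h1 : v ∈ Cfsg.Agent.Lib.Helper49CharTwoB.fixSub (Cfsg.Agent.Lib.Helper49Forms.QPlus d F) g :=
        (Cfsg.Agent.Lib.Helper49CharTwoB.mem_fixSub _).mpr hv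
      rw [hfix] at h1
      have h2 := Cfsg.Agent.Lib.Helper49Fam2.U0_TS (F := F) d v h1
      rwa [Cfsg.Agent.Lib.Helper49Forms.coe_QPlus] at h2
    · exfalso
      have hrq : ¬ r ∣ Fintype.card F := by
        intro h
        obtain ⟨n, -, hn⟩ := FiniteField.card F 2
        rw [hn] at h
        exact hr2 ((Nat.prime_dvd_prime_iff_eq hrp Nat.prime_two).mp (hrp.dvd_of_dvd_pow h))
      have h1 := Cfsg.Agent.Lib.Helper94EluOPlus.card_nonsingular_points (F := F) d
      have h2 : r ∣ Fintype.card F ^ d * (Fintype.card F ^ d - 1) := by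
        rw [← h1]
        exact Dvd.dvd.mul_left hrΩ _
      have h3 : r ∣ Fintype.card F ^ d - 1 := by
        rcases (Nat.Prime.dvd_mul hrp).mp h2 with h | h
        · exact absurd (hrp.dvd_of_dvd_pow h) hrq
        · exact h
      obtain ⟨g, hg, hgr, hfix⟩ :=
        Cfsg.Agent.Lib.Helper94EluOPlus.exists_semisimple_derangement (F := F) hd2 hrq h3
      refine Cfsg.Agent.Lib.Helper94EluOPlus.not_elusive_of hd0 g hg hgr ?_ H
      intro v hv
      have h4 : v ∈ Cfsg.Agent.Lib.Helper49CharTwoB.fixSub (Cfsg.Agent.Lib.Helper49Forms.QPlus d F) g :=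
        (Cfsg.Agent.Lib.Helper49CharTwoB.mem_fixSub _).mpr hv
      rw [hfix, Submodule.mem_bot] at h4
      rw [h4]
      simp [Cfsg.quadFormPlus]
  · rintro ⟨rfl, hodd⟩ x hx ⟨z, hz⟩ -
    obtain ⟨g, hg, rfl⟩ := (Cfsg.Agent.Lib.Helper94EluOPlus.mem_omegaGL_iff x).mp hx
    have hz1 : z = 1 := by
      obtain ⟨v, hv⟩ := Cfsg.Agent.Lib.Helper94EluOPlus.exists_nonsingular (F := F) hd0
      have h1 := Cfsg.Agent.Lib.Helper49Orth.iso_apply (g ^ 2) v
      rw [Subgroup.coe_pow, hz, Matrix.smul_mulVec, Matrix.one_mulVec,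
        Cfsg.Agent.Lib.Helper49Forms.coe_QPlus,
        Cfsg.Agent.Lib.Helper94EluOPlus.quadFormPlus_smul, hv, mul_one] at h1
      exact Cfsg.Agent.Lib.Helper94EluOPlus.eq_one_of_sq h1
    have hg2 : ((g : Matrix.GeneralLinearGroup (Fin d ⊕ Fin d) F) : Matrix (Fin d ⊕ Fin d) (Fin d ⊕ Fin d) F)
      * ((g : Matrix.GeneralLinearGroup (Fin d ⊕ Fin d) F) : Matrix (Fin d ⊕ Fin d) (Fin d ⊕ Fin d) F) = 1 := by
      rw [← pow_two, ← Units.val_pow_eq_pow_val, hz, hz1, one_smul]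
    obtain ⟨v, hv, hgv⟩ :=
      Cfsg.Agent.Lib.Helper94EluOPlus.exists_fixed_nonsingular hd2 hodd g hg hg2
    rw [Cfsg.Agent.Lib.Helper49Forms.coe_QPlus] at hv
    have hv0 : v ≠ 0 := by
      rintro rfl
      exact hv (by simp [Cfsg.quadFormPlus])
    refine ⟨Submodule.span F {v}, ⟨finrank_span_singleton hv0, v,
      Submodule.mem_span_singleton_self v, hv⟩, ?_⟩
    rw [Submodule.map_le_iff_le_comap, Submodule.span_le]
    intro w hw
    rw [Set.mem_singleton_iff] at hw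
    subst hw
    rw [SetLike.mem_coe, Submodule.mem_comap, Matrix.toLin'_apply, hgv]
    exact Submodule.mem_span_singleton_self w

end Cfsg.Agent.S5985
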