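import Cfsg.Statements.S5986
import Cfsg.Agent.Lib.Helper94EluOMinus

set_option autoImplicit false
open scoped MatrixGroups
open Cfsg

namespace Cfsg.Agent.S5986

/-- Elements of prime order of Ω⁻_n(q), q even, with no fixed nonsingular 1-space. Here `T = PΩ⁻_n(F)`, `n = 2d ≥ 8`, realised through `Ω⁻_n(q)`, the commutator subgroup of the isometry group of `Q = Σ_{i<d−1} xᵢyᵢ + z₁² + a z₁z₂ + b z₂²` with `z₁² + a z₁z₂ + b z₂²` anisotropic, over the field `F` with `q` elements; an element of `T` of prime order `r` is an element `x` of `Ω⁻_n(q)` with `x^r` scalar and `x` not scalar; `q` is even (so the centre is trivial). Let Ω be the set of 1-dimensional subspaces spanned by a vector `v` with `Q(v) ≠ 0`, and let `r` be a prime dividing their number. Then every element of `T` of order `r` fixes some nonsingular 1-space if and only if `r = 2`. -/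
theorem result {F : Type*} [Field F] [Fintype F] {p : ℕ} [Fact p.Prime] [CharP F p] {q : ℕ} (hq : Fintype.card F = q)
    (hp : p = 2) (d : ℕ) (hd : 4 ≤ d) (a b : F) (hab : ∀ x y : F, x ^ 2 + a * x * y + b * y ^ 2 = 0 → x = 0 ∧ y = 0) (r : ℕ) [Fact r.Prime]
    (hrΩ : r ∣ Nat.card {W : Submodule F ((Fin (d - 1) ⊕ Fin (d - 1)) ⊕ Fin 2 → F) // Module.finrank F ↥W = 1 ∧ ∃ v ∈ W, Cfsg.quadFormMinus (d - 1) F a b v ≠ 0}) :
    (∀ x : GL ((Fin (d - 1) ⊕ Fin (d - 1)) ⊕ Fin 2) F, x ∈ Cfsg.Geo.omegaGL (Cfsg.quadFormMinus (d - 1) F a b) →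
      (∃ z : F, ((x ^ r : GL ((Fin (d - 1) ⊕ Fin (d - 1)) ⊕ Fin 2) F) : Matrix ((Fin (d - 1) ⊕ Fin (d - 1)) ⊕ Fin 2) ((Fin (d - 1) ⊕ Fin (d - 1)) ⊕ Fin 2) F) = z • (1 : Matrix ((Fin (d - 1) ⊕ Fin (d - 1)) ⊕ Fin 2) ((Fin (d - 1) ⊕ Fin (d - 1)) ⊕ Fin 2) F)) →
      (∀ z : F, (x : Matrix ((Fin (d - 1) ⊕ Fin (d - 1)) ⊕ Fin 2) ((Fin (d - 1) ⊕ Fin (d - 1)) ⊕ Fin 2) F) ≠ z • (1 : Matrix ((Fin (d - 1) ⊕ Fin (d - 1)) ⊕ Fin 2) ((Fin (d - 1) ⊕ Fin (d - 1)) ⊕ Fin 2) F)) →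
      ∃ W : Submodule F ((Fin (d - 1) ⊕ Fin (d - 1)) ⊕ Fin 2 → F), (Module.finrank F ↥W = 1 ∧ ∃ v ∈ W, Cfsg.quadFormMinus (d - 1) F a b v ≠ 0) ∧ W.map (Matrix.toLin' (x : Matrix ((Fin (d - 1) ⊕ Fin (d - 1)) ⊕ Fin 2) ((Fin (d - 1) ⊕ Fin (d - 1)) ⊕ Fin 2) F)) ≤ W) ↔ r = 2 := by
  classical
  subst hp
  have hrp : r.Prime := Fact.out
  obtain ⟨k, rfl⟩ : ∃ k, d = k + 2 := ⟨d - 2, by omega⟩
  have hk : k + 2 - 1 = k + 1 := by omega
  have hcoe : Cfsg.quadFormMinus (k + 2 - 1) F a b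
      = ⇑(Cfsg.Agent.Lib.Helper7OMinus.QM F (k + 2 - 1) a b) := by
    funext x
    rw [Cfsg.Agent.Lib.Helper7OMinus.QM_apply]
  rw [hcoe] at hrΩ ⊢
  have hab' : Cfsg.Agent.Lib.Helper7Norm2.Aniso a b := hab
  have hns : ∃ v, Cfsg.Agent.Lib.Helper7OMinus.QM F (k + 2 - 1) a b v ≠ 0 :=
    ⟨_, by rw [Cfsg.Agent.Lib.Helper7OMinus.Q_std0]; exact one_ne_zero⟩
  have hnd := Cfsg.Agent.Lib.Helper48QuadType.nondeg_QM (k + 2 - 1) a b hab'
  constructor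
  · intro H
    by_contra hr2
    have h1 : r ∣ Fintype.card F ^ (k + 1) * (Fintype.card F ^ (k + 2) + 1) := by
      rw [← Cfsg.Agent.Lib.Helper94EluOMinus.card_nonsingular_points_minus k a b hab']
      exact hrΩ
    have hrq : ¬ r ∣ Fintype.card F := by
      intro h
      obtain ⟨n, -, hn⟩ := FiniteField.card F 2
      rw [hn] at h
      exact hr2 ((Nat.prime_dvd_prime_iff_eq hrp Nat.prime_two).mp (hrp.dvd_of_dvd_pow h))
    have h3 : r ∣ Fintype.card F ^ (k + 2) + 1 := by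
      rcases (Nat.Prime.dvd_mul hrp).mp h1 with h | h
      · exact absurd (hrp.dvd_of_dvd_pow h) hrq
      · exact h
    obtain ⟨g, hgr, hfix⟩ :=
      Cfsg.Agent.Lib.Helper94EluOMinus.exists_semisimple_derangement_minus (F := F) (d := k + 2)
        (by omega) hr2 h3 a b hab'
    have hfix' : Cfsg.Agent.Lib.Helper49CharTwoB.fixSub
        (Cfsg.Agent.Lib.Helper7OMinus.QM F (k + 2 - 1) a b) g = ⊥ := by
      rw [eq_bot_iff]
      intro v hv
      rw [Submodule.mem_bot]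
      exact hfix v ((Cfsg.Agent.Lib.Helper49CharTwoB.mem_fixSub _).mp hv)
    have hg : g ∈ Cfsg.Omega F ⇑(Cfsg.Agent.Lib.Helper7OMinus.QM F (k + 2 - 1) a b) := by
      rw [Cfsg.Agent.Lib.Helper94EluOMinus.mem_Omega_iff_gen _ hnd
        (by right; simp only [Fintype.card_sum, Fintype.card_fin]; omega)
        (by simp only [Fintype.card_sum, Fintype.card_fin]; exact ⟨k + 2, by omega⟩), hfix',
        finrank_bot]
      exact Even.zero
    refine Cfsg.Agent.Lib.Helper94EluOMinus.not_elusive_of_gen _ hns g hg hgr ?_ H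
    intro v hv
    rw [hfix v hv, map_zero]
  · rintro rfl x hx ⟨z, hz⟩ -
    obtain ⟨g, hg, rfl⟩ := (Cfsg.Agent.Lib.Helper94EluOMinus.mem_omegaGL_iff_gen _ x).mp hx
    have hz1 : z = 1 := Cfsg.Agent.Lib.Helper94EluOMinus.scalar_eq_one _ hns g z hz
    have hg2 : ((g : Matrix.GeneralLinearGroup ((Fin (k + 2 - 1) ⊕ Fin (k + 2 - 1)) ⊕ Fin 2) F) :
          Matrix ((Fin (k + 2 - 1) ⊕ Fin (k + 2 - 1)) ⊕ Fin 2) ((Fin (k + 2 - 1) ⊕ Fin (k + 2 - 1)) ⊕ Fin 2) F)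
        * ((g : Matrix.GeneralLinearGroup ((Fin (k + 2 - 1) ⊕ Fin (k + 2 - 1)) ⊕ Fin 2) F) :
          Matrix ((Fin (k + 2 - 1) ⊕ Fin (k + 2 - 1)) ⊕ Fin 2) ((Fin (k + 2 - 1) ⊕ Fin (k + 2 - 1)) ⊕ Fin 2) F) = 1 := by
      rw [← pow_two, ← Units.val_pow_eq_pow_val, hz, hz1, one_smul]
    obtain ⟨v, hv, hgv⟩ :=
      Cfsg.Agent.Lib.Helper94EluOMinus.exists_fixed_nonsingular_minus (k + 2 - 1) a b hab' g hg2
    have hv0 : v ≠ 0 := by
      rintro rfl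
      exact hv (map_zero _)
    refine ⟨Submodule.span F {v}, ⟨finrank_span_singleton hv0, v,
      Submodule.mem_span_singleton_self v, hv⟩, ?_⟩
    rw [Submodule.map_le_iff_le_comap, Submodule.span_le]
    intro w hw
    rw [Set.mem_singleton_iff] at hw
    subst hw
    rw [SetLike.mem_coe, Submodule.mem_comap, Matrix.toLin'_apply, hgv]
    exact Submodule.mem_span_singleton_self w

end Cfsg.Agent.S5986
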