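import Cfsg.Statements.S5994
import Cfsg.Agent.Lib.Helper94UniCore
import Cfsg.Agent.Lib.Helper38UniTYPE
import Cfsg.Agent.Lib.Helper38UniPLUSEVEN
import Cfsg.Agent.Lib.Helper86UniPT

set_option autoImplicit false
open scoped MatrixGroups
open Cfsg

namespace Cfsg.Agent.S5994

/-- A necessary condition for every element of order p of PΩ⁻_n(q), q odd, to fix an elliptic `m`-space. Here `T = PΩ⁻_n(F)`, `n = 2d ≥ 8`, realised through `Ω⁻_n(q)`, the commutator subgroup of the isometry group of `Q = Σ_{i<d−1} xᵢyᵢ + z₁² + a z₁z₂ + b z₂²` with `z₁² + a z₁z₂ + b z₂²` anisotropic, over the field `F` with `q` elements; an element of `T` of prime order `r` is an element `x` of `Ω⁻_n(q)` with `x^r` scalar and `x` not scalar; `q` is odd; a nondegenerate `m`-space (even `m`) is a subspace on which the polar form of `Q` is nondegenerate; it is hyperbolic if it contains an `m/2`-dimensional subspace on which `Q` vanishes, elliptic otherwise. Let `m` be even with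 `2 ≤ m ≤ n − 2` and suppose `p` divides the number of elliptic `m`-spaces. If every element of `T` of order `p` fixes some elliptic `m`-space, then `n ≡ m (mod 4)` and every partition of `n` into parts of size at most `p` in which every even part has even multiplicity contains (as a sub-multiset) a partition of `m` in which every even part has even multiplicity. -/
theorem result {F : Type*} [Field F] [Fintype F] {p : ℕ} [Fact p.Prime] [CharP F p] {q : ℕ} (hq : Fintype.card F = q) (hqodd : Odd q)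
    (d m : ℕ) (hd : 4 ≤ d) (hm : 2 ≤ m) (hme : Even m) (hmn : m + 2 ≤ 2 * d) (a b : F) (hab : ∀ x y : F, x ^ 2 + a * x * y + b * y ^ 2 = 0 → x = 0 ∧ y = 0)
    (hpΩ : p ∣ Nat.card {W : Submodule F ((Fin (d - 1) ⊕ Fin (d - 1)) ⊕ Fin 2 → F) // Module.finrank F ↥W = m ∧ Cfsg.Geo.IsNondegenerateOn (QuadraticMap.polar (Cfsg.quadFormMinus (d - 1) F a b)) W ∧ ¬ Cfsg.Geo.IsPlusTypeOn (Cfsg.quadFormMinus (d - 1) F a b) W}) :
    (∀ x : GL ((Fin (d - 1) ⊕ Fin (d - 1)) ⊕ Fin 2) F, x ∈ Cfsg.Geo.omegaGL (Cfsg.quadFormMinus (d - 1) F a b) →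
      (∃ z : F, ((x ^ p : GL ((Fin (d - 1) ⊕ Fin (d - 1)) ⊕ Fin 2) F) : Matrix ((Fin (d - 1) ⊕ Fin (d - 1)) ⊕ Fin 2) ((Fin (d - 1) ⊕ Fin (d - 1)) ⊕ Fin 2) F) = z • (1 : Matrix ((Fin (d - 1) ⊕ Fin (d - 1)) ⊕ Fin 2) ((Fin (d - 1) ⊕ Fin (d - 1)) ⊕ Fin 2) F)) →
      (∀ z : F, (x : Matrix ((Fin (d - 1) ⊕ Fin (d - 1)) ⊕ Fin 2) ((Fin (d - 1) ⊕ Fin (d - 1)) ⊕ Fin 2) F) ≠ z • (1 : Matrix ((Fin (d - 1) ⊕ Fin (d - 1)) ⊕ Fin 2) ((Fin (d - 1) ⊕ Fin (d - 1)) ⊕ Fin 2) F)) →
      ∃ W : Submodule F ((Fin (d - 1) ⊕ Fin (d - 1)) ⊕ Fin 2 → F), (Module.finrank F ↥W = m ∧ Cfsg.Geo.IsNondegenerateOn (QuadraticMap.polar (Cfsg.quadFormMinus (d - 1) F a b)) W ∧ ¬ Cfsg.Geo.IsPlusTypeOn (Cfsg.quadFormMinus (d - 1) F a b) W) ∧ W.map (Matrix.toLin' (x : Matrix ((Fin (d - 1) ⊕ Fin (d - 1)) ⊕ Fin 2) ((Fin (d - 1) ⊕ Fin (d - 1)) ⊕ Fin 2) F)) ≤ W) →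
    ((2 * d) % 4 = m % 4 ∧ (∀ μ : Multiset ℕ, (∀ e ∈ μ, 0 < e ∧ e ≤ p) → (∀ e : ℕ, Even e → Even (μ.count e)) → μ.sum = 2 * d →
        ∃ ν : Multiset ℕ, ν ≤ μ ∧ ν.sum = m ∧ ∀ e : ℕ, Even e → Even (ν.count e))) := by
  intro H
  have h2 : (2 : F) ≠ 0 := Cfsg.Agent.Lib.Helper49Forms.two_ne_zero_of_odd hq hqodd
  have hp : p.Prime := Fact.out
  have hp3 : 3 ≤ p := by
    have h1 := hp.two_le
    have h3 : p ≠ 2 := by
      rintro rfl
      exact h2 (by exact_mod_cast CharP.cast_eq_zero F 2)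
    omega
  have hpodd : Odd p := hp.odd_of_ne_two (by omega)
  have hcoe : ⇑(Cfsg.Agent.Lib.Helper7OMinus.QM F (d - 1) a b) = Cfsg.quadFormMinus (d - 1) F a b :=
    funext fun v => Cfsg.Agent.Lib.Helper7OMinus.QM_apply _ _ _ v
  have hQ := Cfsg.Agent.Lib.Helper48QuadType.nondeg_QM (F := F) (d - 1) a b hab
  rw [← hcoe] at H
  -- the general step
  have main : ∀ μ : Multiset ℕ, (∀ e ∈ μ, 0 < e ∧ e ≤ p) → (∀ e : ℕ, Even e → Even (μ.count e)) →
      μ.sum = 2 * d → (∃ k ∈ μ, Odd k) → (∃ e ∈ μ, 2 ≤ e) →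
      ∃ (x : GL ((Fin (d - 1) ⊕ Fin (d - 1)) ⊕ Fin 2) F)
        (W : Submodule F ((Fin (d - 1) ⊕ Fin (d - 1)) ⊕ Fin 2 → F)) (ν : Multiset ℕ),
        x ∈ Cfsg.isometryGroup F ⇑(Cfsg.Agent.Lib.Helper7OMinus.QM F (d - 1) a b) ∧
        ¬ Cfsg.Geo.IsPlusTypeOn ⇑(Cfsg.Agent.Lib.Helper7OMinus.QM F (d - 1) a b) W ∧
        Module.finrank F ↥W = m ∧ W.map (Matrix.toLin' (x : Matrix ((Fin (d - 1) ⊕ Fin (d - 1)) ⊕ Fin 2) ((Fin (d - 1) ⊕ Fin (d - 1)) ⊕ Fin 2) F)) ≤ W ∧ ν ≤ μ ∧ ν.sum = m ∧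
        (∀ e : ℕ, Even e → Even (ν.count e)) ∧
        ∀ k, Module.finrank F ↥(W.map ((Matrix.toLin' ((x : Matrix ((Fin (d - 1) ⊕ Fin (d - 1)) ⊕ Fin 2) ((Fin (d - 1) ⊕ Fin (d - 1)) ⊕ Fin 2) F) - 1)) ^ k))
          = (ν.map (· - k)).sum := by
    intro μ hμ hev hsum ⟨k, hk, hko⟩ ⟨e, he, he2⟩
    have h0 : 0 ∉ μ := fun h => absurd (hμ 0 h).1 (lt_irrefl 0)
    obtain ⟨x, hx, hxμ⟩ := Cfsg.Agent.Lib.Helper38UniTYPE.exists_minus_of_odd h2 d (by omega) μ h0 hev
      hsum k hk hko a b hab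
    rw [← hcoe] at hx
    obtain ⟨W, ν, h3⟩ := Cfsg.Agent.Lib.Helper94UniCore.step
      (Cfsg.Agent.Lib.Helper7OMinus.QM F (d - 1) a b) p h2 hQ m
      (fun W => ¬ Cfsg.Geo.IsPlusTypeOn ⇑(Cfsg.Agent.Lib.Helper7OMinus.QM F (d - 1) a b) W)
      (fun x hxΩ hxp hns => H x hxΩ ⟨1, by rw [hxp]; simp⟩ hns) μ hμ e he he2 x hx hxμ
    exact ⟨x, W, ν, hx, h3⟩
  constructor
  · rcases Nat.even_or_odd d with hde | hdo
    · obtain ⟨d', rfl⟩ := hde
      obtain ⟨x, W, ν, -, -, -, -, hν, hs, hνev, -⟩ := main (Multiset.replicate (d' + d' - 2) 2 + {3, 1})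
        (by
          intro e he
          rw [Multiset.mem_add] at he
          rcases he with he | he
          · rw [Multiset.eq_of_mem_replicate he]; omega
          · have : e = 3 ∨ e = 1 := by simpa using he
            omega)
        (by
          intro e he
          have h3 : e ≠ 3 := by rintro rfl; exact absurd he (by decide)
          have h1 : e ≠ 1 := by rintro rfl; exact absurd he (by decide)
          have h4 : Multiset.count e ({3, 1} : Multiset ℕ) = 0 := by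
            rw [Multiset.count_eq_zero]
            simp [h3, h1]
          rw [Multiset.count_add, h4, add_zero, Multiset.count_replicate]
          split_ifs
          · exact ⟨d' - 1, by omega⟩
          · exact Even.zero)
        (by
          rw [Multiset.sum_add, Multiset.sum_replicate]
          have : ({3, 1} : Multiset ℕ).sum = 4 := by decide
          rw [this, smul_eq_mul]
          omega)
        ⟨3, by simp, by decide⟩ ⟨3, by simp, by omega⟩
      have := Cfsg.Agent.Lib.Helper94UniComb.comb_minus_even _ m ν hν hs hme (hνev 2 (by decide))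
      omega
    · obtain ⟨d', rfl⟩ := hdo
      obtain ⟨x, W, ν, hx, hnp, hWm, hWx, hν, hs, hνev, hr⟩ := main (Multiset.replicate (2 * d') 2 + {1, 1})
        (by
          intro e he
          rw [Multiset.mem_add] at he
          rcases he with he | he
          · rw [Multiset.eq_of_mem_replicate he]; omega
          · have : e = 1 := by simpa using he
            omega)
        (by
          intro e he
          have h1 : e ≠ 1 := by rintro rfl; exact absurd he (by decide)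
          have h4 : Multiset.count e ({1, 1} : Multiset ℕ) = 0 := by
            rw [Multiset.count_eq_zero]
            simp [h1]
          rw [Multiset.count_add, h4, add_zero, Multiset.count_replicate]
          split_ifs
          · exact ⟨d', by omega⟩
          · exact Even.zero)
        (by
          rw [Multiset.sum_add, Multiset.sum_replicate]
          have : ({1, 1} : Multiset ℕ).sum = 2 := by decide
          rw [this, smul_eq_mul]
          omega)
        ⟨1, by simp, by decide⟩ ⟨2, by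
          rw [Multiset.mem_add]
          left
          rw [Multiset.mem_replicate]
          exact ⟨by omega, rfl⟩, le_refl 2⟩
      rcases Cfsg.Agent.Lib.Helper94UniComb.comb_minus_odd _ m ν hν hs hme (hνev 2 (by decide)) with h | h
      · omega
      · exfalso
        apply hnp
        apply Cfsg.Agent.Lib.Helper86UniPT.plusType_of_sq_zero _ h2 x hx W hWx
        · rw [hr 2, h]
          simp
        · rw [hr 1, h, hWm]
          obtain ⟨m', rfl⟩ := hme
          simp
          omega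
  · apply Cfsg.Agent.Lib.Helper94UniComb.comb_swap p (2 * d) m hpodd (by omega) hme
    intro μ hμ hev hsum hodd
    by_cases h1 : ∀ e ∈ μ, e = 1
    · exact Cfsg.Agent.Lib.Helper94UniCore.trivial_case (2 * d) m (by omega) μ h1 hsum
    push Not at h1
    obtain ⟨e, he, he1⟩ := h1
    have he2 : 2 ≤ e := by
      have := (hμ e he).1
      omega
    obtain ⟨x, W, ν, -, -, -, -, hν, hs, hνev, -⟩ := main μ hμ hev hsum hodd ⟨e, he, he2⟩
    exact ⟨ν, hν, hs, hνev⟩

end Cfsg.Agent.S5994
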