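import Cfsg.Statements.S5995
import Cfsg.Agent.Lib.Helper94UniCore
import Cfsg.Agent.Lib.Helper38UniTYPE
import Cfsg.Agent.Lib.Helper38UniPLUSEVEN
import Cfsg.Agent.Lib.Helper86UniPT

set_option autoImplicit false
open scoped MatrixGroups
open Cfsg

namespace Cfsg.Agent.S5995

/-- A necessary condition for every element of order p of Ω_n(q), nq odd, to fix a hyperbolic `m`-space. Here `T = Ω_n(F)`, `n = 2d+1 ≥ 7`, `q` odd, realised as the commutator subgroup of the isometry group of `Q = x₀² + Σ xᵢyᵢ` over the field `F` with `q` elements (trivial centre, so its elements of prime order `r` are used directly); a nondegenerate `m`-space (even `m`) is a subspace on which the polar form of `Q` is nondegenerate; it is hyperbolic if it contains an `m/2`-dimensional subspace on which `Q` vanishes, elliptic otherwise. Let `m` be even with `2 ≤ m ≤ n − 1` and suppose `p` divides the number of hyperbolic `m`-spaces. If every element of `T` of order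 `p` fixes some hyperbolic `m`-space, then `m ≡ 0 (mod 4)` and every partition of `n` into parts of size at most `p` in which every even part has even multiplicity contains (as a sub-multiset) a partition of `m` in which every even part has even multiplicity. -/
theorem result {F : Type*} [Field F] [Fintype F] {p : ℕ} [Fact p.Prime] [CharP F p] {q : ℕ} (hq : Fintype.card F = q) (hqodd : Odd q)
    (d m : ℕ) (hd : 3 ≤ d) (hm : 2 ≤ m) (hme : Even m) (hmn : m ≤ 2 * d)
    (hpΩ : p ∣ Nat.card {W : Submodule F (Unit ⊕ (Fin d ⊕ Fin d) → F) // Module.finrank F ↥W = m ∧ Cfsg.Geo.IsNondegenerateOn (QuadraticMap.polar (Cfsg.quadFormOdd d F)) W ∧ Cfsg.Geo.IsPlusTypeOn (Cfsg.quadFormOdd d F) W}) :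
    (∀ x : GL (Unit ⊕ (Fin d ⊕ Fin d)) F, x ∈ Cfsg.Geo.omegaGL (Cfsg.quadFormOdd d F) → orderOf x = p →
      ∃ W : Submodule F (Unit ⊕ (Fin d ⊕ Fin d) → F), (Module.finrank F ↥W = m ∧ Cfsg.Geo.IsNondegenerateOn (QuadraticMap.polar (Cfsg.quadFormOdd d F)) W ∧ Cfsg.Geo.IsPlusTypeOn (Cfsg.quadFormOdd d F) W) ∧ W.map (Matrix.toLin' (x : Matrix (Unit ⊕ (Fin d ⊕ Fin d)) (Unit ⊕ (Fin d ⊕ Fin d)) F)) ≤ W) →
    (m % 4 = 0 ∧ (∀ μ : Multiset ℕ, (∀ e ∈ μ, 0 < e ∧ e ≤ p) → (∀ e : ℕ, Even e → Even (μ.count e)) → μ.sum = 2 * d + 1 →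
        ∃ ν : Multiset ℕ, ν ≤ μ ∧ ν.sum = m ∧ ∀ e : ℕ, Even e → Even (ν.count e))) := by
  intro H
  have h2 : (2 : F) ≠ 0 := Cfsg.Agent.Lib.Helper49Forms.two_ne_zero_of_odd hq hqodd
  have hp : p.Prime := Fact.out
  have hp3 : 3 ≤ p := by
    have h1 := hp.two_le
    have h3 : p ≠ 2 := by
      rintro rfl
      exact h2 (by exact_mod_cast CharP.cast_eq_zero F 2)
    omega
  have hcoe := Cfsg.Agent.Lib.Helper49Forms.coe_QOdd (F := F) d
  have key : ∀ μ : Multiset ℕ, (∀ e ∈ μ, 0 < e ∧ e ≤ p) → (∀ e : ℕ, Even e → Even (μ.count e)) →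
      μ.sum = 2 * d + 1 →
      ∃ ν : Multiset ℕ, ν ≤ μ ∧ ν.sum = m ∧ ∀ e : ℕ, Even e → Even (ν.count e) := by
    intro μ hμ hev hsum
    have h0 : 0 ∉ μ := fun h => absurd (hμ 0 h).1 (lt_irrefl 0)
    by_cases h1 : ∀ e ∈ μ, e = 1
    · exact Cfsg.Agent.Lib.Helper94UniCore.trivial_case (2 * d + 1) m (by omega) μ h1 hsum
    push Not at h1
    obtain ⟨e, he, he1⟩ := h1
    have he2 : 2 ≤ e := by
      have := (hμ e he).1
      omega
    obtain ⟨x, hx, hxμ⟩ := Cfsg.Agent.Lib.Helper38UniTYPE.exists_odd h2 d μ h0 hev hsum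
    rw [← hcoe] at hx H
    obtain ⟨W, ν, -, -, -, hν, hs, hνev, -⟩ := Cfsg.Agent.Lib.Helper94UniCore.step
      (Cfsg.Agent.Lib.Helper49Forms.QOdd d F) p h2
      (Cfsg.Agent.Lib.Helper49OddForm.QOdd_nondegenerate h2 d) m
      (fun W => Cfsg.Geo.IsPlusTypeOn ⇑(Cfsg.Agent.Lib.Helper49Forms.QOdd d F) W)
      (fun x hxΩ hxp hns => H x hxΩ (orderOf_eq_prime hxp (by
        rintro rfl
        exact hns 1 (by simp)))) μ hμ e he he2 x hx hxμ
    exact ⟨ν, hν, hs, hνev⟩
  exact ⟨Cfsg.Agent.Lib.Helper94UniComb.comb_odd p d m hp3 hme key, key⟩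

end Cfsg.Agent.S5995
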