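import Cfsg.Statements.S5996
import Cfsg.Agent.Lib.Helper94UniCore
import Cfsg.Agent.Lib.Helper38UniTYPE
import Cfsg.Agent.Lib.Helper38UniPLUSEVEN
import Cfsg.Agent.Lib.Helper86UniPT
import Cfsg.Agent.Lib.Helper49Rank

set_option autoImplicit false
open scoped MatrixGroups
open Cfsg

namespace Cfsg.Agent.S5996

/-- A necessary condition for every element of order p of PΩ⁺_n(q), q odd, to fix a hyperbolic `m`-space. Here `T = PΩ⁺_n(F)`, `n = 2d ≥ 8`, realised through `Ω⁺_n(q)`, the commutator subgroup of the isometry group of `Q = Σ xᵢyᵢ` over the field `F` with `q` elements; an element of `T` of prime order `r` is an element `x` of `Ω⁺_n(q)` with `x^r` scalar and `x` not scalar; `q` is odd; a nondegenerate `m`-space (even `m`) is a subspace on which the polar form of `Q` is nondegenerate; it is hyperbolic if it contains an `m/2`-dimensional subspace on which `Q` vanishes, elliptic otherwise. Let `m` be even with `2 ≤ m <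 n/2` and suppose `p` divides the number of hyperbolic `m`-spaces. If every element of `T` of order `p` fixes some hyperbolic `m`-space, then every partition of `n` into parts of size at most `p` in which every even part has even multiplicity contains (as a sub-multiset) a partition of `m` in which every even part has even multiplicity. -/
theorem result {F : Type*} [Field F] [Fintype F] {p : ℕ} [Fact p.Prime] [CharP F p] {q : ℕ} (hq : Fintype.card F = q) (hqodd : Odd q)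
    (d m : ℕ) (hd : 4 ≤ d) (hm : 2 ≤ m) (hme : Even m) (hmd : m < d)
    (hpΩ : p ∣ Nat.card {W : Submodule F (Fin d ⊕ Fin d → F) // Module.finrank F ↥W = m ∧ Cfsg.Geo.IsNondegenerateOn (QuadraticMap.polar (Cfsg.quadFormPlus d F)) W ∧ Cfsg.Geo.IsPlusTypeOn (Cfsg.quadFormPlus d F) W}) :
    (∀ x : GL (Fin d ⊕ Fin d) F, x ∈ Cfsg.Geo.omegaGL (Cfsg.quadFormPlus d F) →
      (∃ z : F, ((x ^ p : GL (Fin d ⊕ Fin d) F) : Matrix (Fin d ⊕ Fin d) (Fin d ⊕ Fin d) F) = z • (1 : Matrix (Fin d ⊕ Fin d) (Fin d ⊕ Fin d) F)) →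
      (∀ z : F, (x : Matrix (Fin d ⊕ Fin d) (Fin d ⊕ Fin d) F) ≠ z • (1 : Matrix (Fin d ⊕ Fin d) (Fin d ⊕ Fin d) F)) →
      ∃ W : Submodule F (Fin d ⊕ Fin d → F), (Module.finrank F ↥W = m ∧ Cfsg.Geo.IsNondegenerateOn (QuadraticMap.polar (Cfsg.quadFormPlus d F)) W ∧ Cfsg.Geo.IsPlusTypeOn (Cfsg.quadFormPlus d F) W) ∧ W.map (Matrix.toLin' (x : Matrix (Fin d ⊕ Fin d) (Fin d ⊕ Fin d) F)) ≤ W) →
    (∀ μ : Multiset ℕ, (∀ e ∈ μ, 0 < e ∧ e ≤ p) → (∀ e : ℕ, Even e → Even (μ.count e)) → μ.sum = 2 * d →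
        ∃ ν : Multiset ℕ, ν ≤ μ ∧ ν.sum = m ∧ ∀ e : ℕ, Even e → Even (ν.count e)) := by
  intro H μ hμ hev hsum
  have h2 : (2 : F) ≠ 0 := Cfsg.Agent.Lib.Helper49Forms.two_ne_zero_of_odd hq hqodd
  have h0 : 0 ∉ μ := fun h => absurd (hμ 0 h).1 (lt_irrefl 0)
  by_cases h1 : ∀ e ∈ μ, e = 1
  · exact Cfsg.Agent.Lib.Helper94UniCore.trivial_case (2 * d) m (by omega) μ h1 hsum
  push Not at h1
  obtain ⟨e, he, he1⟩ := h1
  have he2 : 2 ≤ e := by
    have := (hμ e he).1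
    omega
  have hcoe := Cfsg.Agent.Lib.Helper49Forms.coe_QPlus (F := F) d
  obtain ⟨x, hx, hxμ⟩ : ∃ x : GL (Fin d ⊕ Fin d) F,
      x ∈ Cfsg.isometryGroup F (Cfsg.quadFormPlus d F) ∧
      Cfsg.Agent.Lib.Helper48RankSeq.RankSeq (x : Matrix (Fin d ⊕ Fin d) (Fin d ⊕ Fin d) F) μ := by
    by_cases hodd : ∃ k ∈ μ, Odd k
    · obtain ⟨k, hk, hko⟩ := hodd
      exact Cfsg.Agent.Lib.Helper38UniTYPE.exists_plus_of_odd h2 d (by omega) μ h0 hev hsum k hk hko
    · push Not at hodd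
      apply Cfsg.Agent.Lib.Helper38UniPLUSEVEN.exists_plus_of_even d μ h0 _ hsum
      intro f
      by_cases hf : f ∈ μ
      · exact hev f (Nat.not_odd_iff_even.1 (hodd f hf))
      · rw [Multiset.count_eq_zero_of_notMem hf]
        exact Even.zero
  rw [← hcoe] at hx H
  obtain ⟨W, ν, -, -, -, hν, hs, hνev, -⟩ := Cfsg.Agent.Lib.Helper94UniCore.step
    (Cfsg.Agent.Lib.Helper49Forms.QPlus d F) p h2
    (Cfsg.Agent.Lib.Helper49Rank.QPlus_nondegenerate d) m
    (fun W => Cfsg.Geo.IsPlusTypeOn ⇑(Cfsg.Agent.Lib.Helper49Forms.QPlus d F) W)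
    (fun x hxΩ hxp hns => H x hxΩ ⟨1, by rw [hxp]; simp⟩ hns) μ hμ e he he2 x hx hxμ
  exact ⟨ν, hν, hs, hνev⟩

end Cfsg.Agent.S5996
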