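import Cfsg.Statements.S5997
-- import your own Cfsg.Agent.* helpers here

set_option autoImplicit false
open scoped MatrixGroups
open Cfsg

namespace Cfsg.Agent.S5997

variable {F : Type*} [Field F]

lemma comm_of_comm_nonscalar (M A B : Matrix (Fin 2) (Fin 2) F) (hA : M * A = A * M)
    (hB : M * B = B * M) (hM : ∀ c : F, M ≠ c • (1 : Matrix (Fin 2) (Fin 2) F)) : A * B = B * A := by
  have a1 := congrFun (congrFun hA 0) 0
  have a2 := congrFun (congrFun hA 0) 1
  have a3 := congrFun (congrFun hA 1) 0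
  have b1 := congrFun (congrFun hB 0) 0
  have b2 := congrFun (congrFun hB 0) 1
  have b3 := congrFun (congrFun hB 1) 0
  simp only [Matrix.mul_apply, Fin.sum_univ_two] at a1 a2 a3 b1 b2 b3
  have key : M 0 1 ≠ 0 ∨ M 1 0 ≠ 0 ∨ M 0 0 - M 1 1 ≠ 0 := by
    by_contra hcon
    push Not at hcon
    obtain ⟨h1, h2, h3⟩ := hcon
    apply hM (M 0 0)
    ext i j
    fin_cases i <;> fin_cases j <;> simp [h1, h2]
    linear_combination -h3
  generalize M 0 0 = m00 at *
  generalize M 0 1 = m01 at *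
  generalize M 1 0 = m10 at *
  generalize M 1 1 = m11 at *
  have G1 : A 0 1 * B 1 0 - B 0 1 * A 1 0 = 0 := by
    rcases key with h | h | h <;> grind
  have G2 : A 0 1 * (B 1 1 - B 0 0) - B 0 1 * (A 1 1 - A 0 0) = 0 := by
    rcases key with h | h | h <;> grind
  have G3 : A 1 0 * (B 0 0 - B 1 1) - B 1 0 * (A 0 0 - A 1 1) = 0 := by
    rcases key with h | h | h <;> grind
  ext i j
  fin_cases i <;> fin_cases j <;> simp only [Matrix.mul_apply, Fin.sum_univ_two, Fin.zero_eta, Fin.mk_one, Fin.isValue]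
  · linear_combination G1
  · linear_combination G2
  · linear_combination G3
  · linear_combination -G1

lemma CH (A : Matrix (Fin 2) (Fin 2) F) : A * A = A.trace • A - A.det • (1 : Matrix (Fin 2) (Fin 2) F) := by
  ext i j
  fin_cases i <;> fin_cases j <;>
    simp [Matrix.mul_apply, Fin.sum_univ_two, Matrix.det_fin_two, Matrix.trace_fin_two] <;> ring

open Polynomial in
lemma exists_quad_eq_one [Fintype F] (hodd : Fintype.card F % 2 = 1) (c e b : F)
    (hdisc : e ^ 2 + 4 * b * c ≠ 0) : ∃ X Y : F, c * X ^ 2 + e * X * Y - b * Y ^ 2 = 1 := by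
  have h2 : (2 : F) ≠ 0 := by
    apply Ring.two_ne_zero
    intro h
    have h3 := FiniteField.even_card_iff_char_two.1 h
    omega
  have h4 : (4 : F) ≠ 0 := by
    have : (4 : F) = 2 * 2 := by norm_num
    rw [this]
    exact mul_ne_zero h2 h2
  by_cases hc : c = 0
  · subst hc
    have he : e ≠ 0 := by
      intro he
      apply hdisc
      rw [he]; ring
    refine ⟨(1 + b) / e, 1, ?_⟩
    field_simp
    ring
  · have hD : -(e ^ 2 + 4 * b * c) / (4 * c) ≠ 0 := by
      apply div_ne_zero (neg_ne_zero.2 hdisc)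
      exact mul_ne_zero h4 hc
    obtain ⟨x, y, hxy⟩ := FiniteField.exists_root_sum_quadratic
      (f := C c * X ^ 2 + C 0 * X + C 0)
      (g := C (-(e ^ 2 + 4 * b * c) / (4 * c)) * X ^ 2 + C 0 * X + C (-1))
      (degree_quadratic hc) (degree_quadratic hD) hodd
    simp only [eval_add, eval_mul, eval_C, eval_pow, eval_X, zero_mul, add_zero] at hxy
    refine ⟨x - e * y / (2 * c), y, ?_⟩
    have h5 : -(e ^ 2 + 4 * b * c) / (4 * c) * y ^ 2 = -(e ^ 2 + 4 * b * c) * y ^ 2 / (4 * c) := by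
      ring
    rw [h5] at hxy
    field_simp at hxy ⊢
    linear_combination hxy

lemma exists_conj_companion [Fintype F] (hodd : Fintype.card F % 2 = 1)
    (A : Matrix (Fin 2) (Fin 2) F) (hdet : A.det = 1) (ht : A.trace ^ 2 ≠ 4) :
    ∃ g : Matrix (Fin 2) (Fin 2) F, g.det = 1 ∧ A * g = g * !![0, -1; 1, A.trace] := by
  rw [Matrix.det_fin_two] at hdet
  rw [Matrix.trace_fin_two] at ht
  obtain ⟨X, Y, hXY⟩ := exists_quad_eq_one hodd (A 1 0) (A 1 1 - A 0 0) (A 0 1) (by
    intro h
    apply ht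
    linear_combination h + 4 * hdet)
  refine ⟨!![X, A 0 0 * X + A 0 1 * Y; Y, A 1 0 * X + A 1 1 * Y], ?_, ?_⟩
  · rw [Matrix.det_fin_two_of]
    linear_combination hXY
  · ext i j
    fin_cases i <;> fin_cases j <;>
      simp [Matrix.mul_apply, Fin.sum_univ_two, Matrix.trace_fin_two]
    · linear_combination (-X) * hdet
    · linear_combination (-Y) * hdet

lemma mem_SL_iff (x : GL (Fin 2) F) :
    x ∈ Cfsg.Geo.specialLinear (Fin 2) F ↔ (x : Matrix (Fin 2) (Fin 2) F).det = 1 := by
  rw [Cfsg.Geo.specialLinear, MonoidHom.mem_ker, Units.ext_iff]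
  rfl

/-- a matrix of determinant one as an element of GL -/
noncomputable def mkGL (g : Matrix (Fin 2) (Fin 2) F) (h : g.det = 1) : GL (Fin 2) F :=
  Matrix.GeneralLinearGroup.mkOfDetNeZero g (by rw [h]; exact one_ne_zero)

lemma coe_mkGL (g : Matrix (Fin 2) (Fin 2) F) (h : g.det = 1) :
    ((mkGL g h : GL (Fin 2) F) : Matrix (Fin 2) (Fin 2) F) = g := rfl

lemma mkGL_mem (g : Matrix (Fin 2) (Fin 2) F) (h : g.det = 1) :
    mkGL g h ∈ Cfsg.Geo.specialLinear (Fin 2) F := by
  rw [mem_SL_iff, coe_mkGL, h]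

lemma coe_conj (G x : GL (Fin 2) F) (C : Matrix (Fin 2) (Fin 2) F)
    (h : (x : Matrix (Fin 2) (Fin 2) F) * (G : Matrix (Fin 2) (Fin 2) F) = (G : Matrix (Fin 2) (Fin 2) F) * C) :
    ((G⁻¹ * x * G : GL (Fin 2) F) : Matrix (Fin 2) (Fin 2) F) = C := by
  rw [mul_assoc, Units.val_mul, Units.val_mul, h, ← mul_assoc, ← Units.val_mul, inv_mul_cancel,
    Units.val_one, one_mul]

lemma conj_of_trace_eq [Fintype F] (hodd : Fintype.card F % 2 = 1) (x y : GL (Fin 2) F)
    (hx : x ∈ Cfsg.Geo.specialLinear (Fin 2) F) (hy : y ∈ Cfsg.Geo.specialLinear (Fin 2) F)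
    (htr : (x : Matrix (Fin 2) (Fin 2) F).trace = (y : Matrix (Fin 2) (Fin 2) F).trace)
    (ht : (x : Matrix (Fin 2) (Fin 2) F).trace ^ 2 ≠ 4) :
    ∃ g ∈ Cfsg.Geo.specialLinear (Fin 2) F, g⁻¹ * x * g = y := by
  obtain ⟨g1, hg1, h1⟩ := exists_conj_companion hodd _ ((mem_SL_iff x).1 hx) ht
  obtain ⟨g2, hg2, h2⟩ := exists_conj_companion hodd _ ((mem_SL_iff y).1 hy) (htr ▸ ht)
  refine ⟨mkGL g1 hg1 * (mkGL g2 hg2)⁻¹,
    Subgroup.mul_mem _ (mkGL_mem _ _) (Subgroup.inv_mem _ (mkGL_mem _ _)), ?_⟩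
  have c1 := coe_conj (mkGL g1 hg1) x _ h1
  have c2 := coe_conj (mkGL g2 hg2) y _ h2
  have h3 : (mkGL g1 hg1)⁻¹ * x * mkGL g1 hg1 = (mkGL g2 hg2)⁻¹ * y * mkGL g2 hg2 := by
    apply Units.ext
    rw [c1, c2, htr]
  calc (mkGL g1 hg1 * (mkGL g2 hg2)⁻¹)⁻¹ * x * (mkGL g1 hg1 * (mkGL g2 hg2)⁻¹)
      = mkGL g2 hg2 * ((mkGL g1 hg1)⁻¹ * x * mkGL g1 hg1) * (mkGL g2 hg2)⁻¹ := by group
    _ = y := by rw [h3]; group

open QuaternionGroup in
lemma q8_induction (P : QuaternionGroup 2 → Prop) (h1 : P (a 1)) (h2 : P (xa 0))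
    (hmul : ∀ x y, P x → P y → P (x * y)) : ∀ q, P q := by
  have e2 : (a 2 : QuaternionGroup 2) = a 1 * a 1 := by decide
  have e3 : (a 3 : QuaternionGroup 2) = a 2 * a 1 := by decide
  have e0 : (a 0 : QuaternionGroup 2) = a 3 * a 1 := by decide
  have f1 : (xa 1 : QuaternionGroup 2) = xa 0 * a 1 := by decide
  have f2 : (xa 2 : QuaternionGroup 2) = xa 0 * a 2 := by decide
  have f3 : (xa 3 : QuaternionGroup 2) = xa 0 * a 3 := by decide
  have p2 : P (a 2) := e2 ▸ hmul _ _ h1 h1
  have p3 : P (a 3) := e3 ▸ hmul _ _ p2 h1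
  have p0 : P (a 0) := e0 ▸ hmul _ _ p3 h1
  rintro (i | i)
  · fin_cases i
    · exact p0
    · exact h1
    · exact p2
    · exact p3
  · fin_cases i
    · exact h2
    · exact f1 ▸ hmul _ _ h2 h1
    · exact f2 ▸ hmul _ _ h2 p2
    · exact f3 ▸ hmul _ _ h2 p3

lemma centralizes {G : Type*} [Group G] (R : Subgroup G) (hcard : Nat.card R = 8) (y : G)
    (hy : y ∈ Subgroup.normalizer (R : Set G)) (r : ℕ) [hr : Fact r.Prime] (hr5 : 5 ≤ r)
    (hyr : y ^ r = 1) (z : G) (hzR : z ∈ R) (hz1 : z ≠ 1) (hzy : y * z * y⁻¹ = z) :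
    ∀ h ∈ R, y * h * y⁻¹ = h := by
  classical
  have : Finite R := Nat.finite_of_card_ne_zero (by rw [hcard]; norm_num)
  set y' : Subgroup.normalizer (R : Set G) := ⟨y, hy⟩ with hy'
  have hP : IsPGroup r (Subgroup.zpowers y') := by
    rintro ⟨g, hg⟩
    obtain ⟨n, rfl⟩ := Subgroup.mem_zpowers_iff.1 hg
    refine ⟨1, ?_⟩
    apply Subtype.ext
    apply Subtype.ext
    simp only [pow_one, Subgroup.coe_pow, Subgroup.coe_zpow, Subgroup.coe_one, hy']
    rw [← zpow_natCast, ← zpow_mul, mul_comm, zpow_mul, zpow_natCast, hyr, one_zpow]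
  have h1 := hP.card_modEq_card_fixedPoints (↥R)
  let C : Subgroup R := (Subgroup.centralizer {y}).subgroupOf R
  have hCmem : ∀ h : R, h ∈ C ↔ y * (h : G) * y⁻¹ = h := by
    intro h
    simp only [C, Subgroup.mem_subgroupOf, Subgroup.mem_centralizer_iff, Set.mem_singleton_iff,
      forall_eq]
    constructor
    · intro h'
      rw [h', mul_inv_cancel_right]
    · intro h'
      exact mul_inv_eq_iff_eq_mul.1 h'
  have hset : (MulAction.fixedPoints (Subgroup.zpowers y') (↥R) : Set R) = (C : Set R) := by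
    ext h
    simp only [MulAction.mem_fixedPoints, SetLike.mem_coe, hCmem]
    constructor
    · intro h'
      have := h' ⟨y', Subgroup.mem_zpowers y'⟩
      exact congrArg Subtype.val this
    · intro h' g
      obtain ⟨g, hg⟩ := g
      have h2 : y' • h = h := Subtype.ext h'
      have h3 : Subgroup.zpowers y' ≤ MulAction.stabilizer _ h :=
        Subgroup.zpowers_le.2 (MulAction.mem_stabilizer_iff.2 h2)
      exact MulAction.mem_stabilizer_iff.1 (h3 hg)
  have hcardC : Nat.card (MulAction.fixedPoints (Subgroup.zpowers y') (↥R)) = Nat.card C := by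
    rw [hset]; rfl
  rw [hcardC, hcard] at h1
  have hdvd : Nat.card C ∣ 8 := hcard ▸ Subgroup.card_subgroup_dvd_card C
  have hne : C ≠ ⊥ := by
    intro hbot
    have : (⟨z, hzR⟩ : R) ∈ C := (hCmem _).2 hzy
    rw [hbot, Subgroup.mem_bot] at this
    exact hz1 (congrArg Subtype.val this)
  have hlt : 1 < Nat.card C := (Subgroup.one_lt_card_iff_ne_bot C).2 hne
  have hle : Nat.card C ≤ 8 := Nat.le_of_dvd (by norm_num) hdvd
  have h8 : Nat.card C = 8 := by
    have hdvd2 : r ∣ 8 - Nat.card C := (Nat.modEq_iff_dvd' hle).1 h1.symm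
    by_contra hne8
    have hpos : 0 < 8 - Nat.card C := by omega
    have hrle := Nat.le_of_dvd hpos hdvd2
    have hc : Nat.card C = 2 ∨ Nat.card C = 3 := by omega
    rcases hc with hc | hc
    · rw [hc] at hdvd2
      have h56 : r = 5 ∨ r = 6 := by omega
      rcases h56 with h5 | h6
      · rw [h5] at hdvd2; omega
      · have := hr.out
        rw [h6] at this
        exact absurd this (by norm_num)
    · rw [hc] at hdvd
      omega
  have htop : C = ⊤ := Subgroup.eq_top_of_card_eq C (by rw [h8, hcard])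
  intro h hh
  have : (⟨h, hh⟩ : R) ∈ C := htop ▸ Subgroup.mem_top _
  exact (hCmem _).1 this


lemma q8_structure (R : Subgroup (GL (Fin 2) F))
    (hR : Nonempty (↥R ≃* QuaternionGroup 2)) :
    ∃ I J : GL (Fin 2) F, I ∈ R ∧ J ∈ R ∧
      (I : Matrix (Fin 2) (Fin 2) F) * (I : Matrix (Fin 2) (Fin 2) F) = -1 ∧
      (J : Matrix (Fin 2) (Fin 2) F) * (J : Matrix (Fin 2) (Fin 2) F) = -1 ∧
      (I : Matrix (Fin 2) (Fin 2) F) * (J : Matrix (Fin 2) (Fin 2) F) =
        -((J : Matrix (Fin 2) (Fin 2) F) * (I : Matrix (Fin 2) (Fin 2) F)) ∧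
      (∀ P : GL (Fin 2) F → Prop, P I → P J → (∀ x y, P x → P y → P (x * y)) → ∀ h ∈ R, P h) := by
  obtain ⟨e⟩ := hR
  let φ : QuaternionGroup 2 →* GL (Fin 2) F := R.subtype.comp e.symm.toMonoidHom
  have hφinj : Function.Injective φ := by
    intro x y hxy
    exact e.symm.injective (Subtype.ext hxy)
  have hφmem : ∀ q, φ q ∈ R := fun q => (e.symm q).2
  set I := φ (QuaternionGroup.a 1) with hI
  set J := φ (QuaternionGroup.xa 0) with hJ
  have hZ1 : I * I = J * J := by
    rw [hI, hJ, ← map_mul, ← map_mul]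
    exact congrArg φ (by decide)
  have hZ2 : (I * I) * (I * I) = 1 := by
    rw [hI, ← map_mul, ← map_mul, ← map_one φ]
    exact congrArg φ (by decide)
  have hZ3 : I * I ≠ 1 := by
    rw [hI, ← map_mul, ← map_one φ]
    intro h
    exact absurd (hφinj h) (by decide)
  have hnc : I * J ≠ J * I := by
    rw [hI, hJ, ← map_mul, ← map_mul]
    intro h
    exact absurd (hφinj h) (by decide)
  have hrel : I * J = (I * I) * (J * I) := by
    rw [hI, hJ, ← map_mul, ← map_mul, ← map_mul, ← map_mul]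
    exact congrArg φ (by decide)
  have hscal : ∃ c : F, ((I * I : GL (Fin 2) F) : Matrix (Fin 2) (Fin 2) F) = c • 1 := by
    by_contra hcon
    push Not at hcon
    apply hnc
    apply Units.ext
    rw [Units.val_mul, Units.val_mul]
    apply comm_of_comm_nonscalar _ _ _ _ _ hcon
    · rw [← Units.val_mul, ← Units.val_mul, mul_assoc]
    · rw [← Units.val_mul, ← Units.val_mul, hZ1, mul_assoc]
  obtain ⟨c, hc⟩ := hscal
  have hc2 : c * c = 1 := by
    have h3 := congrArg (fun u : GL (Fin 2) F => (u : Matrix (Fin 2) (Fin 2) F) 0 0) hZ2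
    simp only [Units.val_mul, Units.val_one] at h3
    rw [← Units.val_mul, hc] at h3
    simpa using h3
  have hc1 : c = -1 := by
    rcases mul_self_eq_one_iff.1 hc2 with h | h
    · exfalso
      apply hZ3
      apply Units.ext
      rw [hc, h, one_smul, Units.val_one]
    · exact h
  have hII : (I : Matrix (Fin 2) (Fin 2) F) * (I : Matrix (Fin 2) (Fin 2) F) = -1 := by
    rw [← Units.val_mul, hc, hc1]; simp
  refine ⟨I, J, hφmem _, hφmem _, hII, ?_, ?_, ?_⟩
  · rw [← Units.val_mul, ← hZ1, Units.val_mul, hII]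
  · rw [← Units.val_mul, hrel, Units.val_mul, Units.val_mul, hII, Units.val_mul]; simp
  · intro P h1 h2' hmul h hh
    have key : ∀ q, P (φ q) := by
      apply q8_induction
      · exact h1
      · exact h2'
      · intro x y hx hy
        rw [map_mul]
        exact hmul _ _ hx hy
    have : h = φ (e ⟨h, hh⟩) := by
      simp [φ]
    rw [this]
    exact key _


lemma trace_zero_of_sq (A : Matrix (Fin 2) (Fin 2) F) (z : F) (hA : A * A = z • 1)
    (hnon : ∀ c : F, A ≠ c • (1 : Matrix (Fin 2) (Fin 2) F)) : A.trace = 0 := by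
  by_contra ht
  apply hnon ((z + A.det) / A.trace)
  have h1 := CH A
  rw [hA] at h1
  have h2 : A.trace • A = (z + A.det) • (1 : Matrix (Fin 2) (Fin 2) F) := by
    rw [add_smul, h1]; abel
  rw [div_eq_inv_mul, mul_smul, ← h2, smul_smul, inv_mul_cancel₀ ht, one_smul]

lemma det_of_sq_neg_one (A : Matrix (Fin 2) (Fin 2) F) (hA : A * A = -1)
    (ht : A.trace = 0) : A.det = 1 := by
  have h1 := CH A
  rw [hA, ht, zero_smul, zero_sub] at h1
  have h2 := congrFun (congrFun h1 0) 0
  simpa using h2.symm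

section Table

variable {a b : Matrix (Fin 2) (Fin 2) F} (haa : a * a = -1) (hbb : b * b = -1)
  (hab : a * b = -(b * a))

include haa hbb hab

lemma tb_ba : b * a = -(a * b) := by rw [hab, neg_neg]

lemma tb_ak : a * (a * b) = -b := by rw [← mul_assoc, haa]; simp

lemma tb_ka : a * b * a = b := by
  rw [mul_assoc, tb_ba haa hbb hab, mul_neg, tb_ak haa hbb hab, neg_neg]

lemma tb_bk : b * (a * b) = a := by
  rw [← mul_assoc, tb_ba haa hbb hab, neg_mul, mul_assoc, hbb]; simp

lemma tb_kb : a * b * b = -a := by rw [mul_assoc, hbb]; simp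

lemma tb_kk : a * b * (a * b) = -1 := by
  rw [← mul_assoc, tb_ka haa hbb hab, hbb]

lemma W_mul_a (s : F) :
    (s • (-1 + a + b + a * b)) * a = (a * b) * (s • (-1 + a + b + a * b)) := by
  rw [smul_mul_assoc, mul_smul_comm]
  congr 1
  simp only [add_mul, mul_add, neg_mul, mul_neg, one_mul, mul_one, haa, tb_ka haa hbb hab,
    tb_kb haa hbb hab, tb_kk haa hbb hab, tb_ba haa hbb hab]
  abel

lemma W_mul_b (s : F) :
    (s • (-1 + a + b + a * b)) * b = a * (s • (-1 + a + b + a * b)) := by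
  rw [smul_mul_assoc, mul_smul_comm]
  congr 1
  simp only [add_mul, mul_add, neg_mul, mul_neg, one_mul, mul_one, haa, hbb, tb_ak haa hbb hab,
    tb_kb haa hbb hab]
  abel

lemma W_sq : (-1 + a + b + a * b) * (-1 + a + b + a * b) =
    (-2 : F) • (-1 + a + b + a * b) - (4 : F) • (1 : Matrix (Fin 2) (Fin 2) F) := by
  simp only [add_mul, mul_add, neg_mul, mul_neg, one_mul, mul_one, haa, hbb, tb_ak haa hbb hab,
    tb_kb haa hbb hab, tb_ka haa hbb hab, tb_kk haa hbb hab, tb_ba haa hbb hab, tb_bk haa hbb hab]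
  module

end Table


lemma W_trace_det {a b : Matrix (Fin 2) (Fin 2) F} (haa : a * a = -1) (hbb : b * b = -1)
    (hab : a * b = -(b * a)) (ta : a.trace = 0) (tb : b.trace = 0) (tk : (a * b).trace = 0)
    (s : F) (hs : 4 * s ^ 2 = 1) :
    (s • (-1 + a + b + a * b)).trace = -2 * s ∧ (s • (-1 + a + b + a * b)).det = 1 := by
  have htr : (s • (-1 + a + b + a * b)).trace = -2 * s := by
    rw [Matrix.trace_smul, Matrix.trace_add, Matrix.trace_add, Matrix.trace_add, ta, tb, tk,
      Matrix.trace_neg, Matrix.trace_one]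
    simp
    ring
  refine ⟨htr, ?_⟩
  have h1 := CH (s • (-1 + a + b + a * b))
  rw [htr, smul_mul_assoc, mul_smul_comm, W_sq haa hbb hab] at h1
  have h2 : (s • (-1 + a + b + a * b)).det • (1 : Matrix (Fin 2) (Fin 2) F) =
      (4 * s ^ 2) • (1 : Matrix (Fin 2) (Fin 2) F) := by
    have h3 : (s • (-1 + a + b + a * b)).det • (1 : Matrix (Fin 2) (Fin 2) F) =
        (-2 * s) • s • (-1 + a + b + a * b) -
          s • s • ((-2 : F) • (-1 + a + b + a * b) - (4 : F) • (1 : Matrix (Fin 2) (Fin 2) F)) := by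
      rw [h1]; abel
    rw [h3]
    module
  have h4 := congrFun (congrFun h2 0) 0
  rw [hs] at h4
  simpa using h4


/-- Elements of prime order of PSL_2(p) and the normalizer of a quaternion subgroup. Here `T = PSL_2(F)` for the field `F` with `p` elements, `p ≥ 5` prime; `R` is a subgroup of GL_2(F) isomorphic to the quaternion group of order 8 (an absolutely irreducible 2-group of symplectic type), and `H` is the subgroup of matrices of determinant 1 normalizing `R` — a subgroup of type 2^{1+2}.O₂⁻(2), isomorphic modulo scalars to A₄ or S₄ (maximality is not assumed). Ω is the set of cosets of `H` in `T`, so an element of `T` of prime order `r` (a matrix `x` of determinant 1 with `x^r` scalar, `x` not scalar) fixes a point of Ω exactly when some conjugate of `x` by a matrix of determinant 1 normalizes `R`. Let `r` be a prime dividing the index of `H`. Then every element of `T` of order `r` fixes a point of Ω if and only if `r = 2` or `r = 3`. -/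
theorem result {F : Type*} [Field F] [Fintype F] {p : ℕ} [Fact p.Prime] [CharP F p] (hF : Fintype.card F = p) (hp : 5 ≤ p)
    (R : Subgroup (GL (Fin 2) F)) (hR : Nonempty (↥R ≃* QuaternionGroup 2))
    (r : ℕ) [Fact r.Prime]
    (hΩ : r ∣ (Cfsg.Geo.subgroupNormalizer R).relIndex (Cfsg.Geo.specialLinear (Fin 2) F)) :
    (∀ x ∈ Cfsg.Geo.specialLinear (Fin 2) F, (∃ z : F, ((x ^ r : GL (Fin 2) F) : Matrix (Fin 2) (Fin 2) F) = z • (1 : Matrix (Fin 2) (Fin 2) F)) →
      (∀ z : F, (x : Matrix (Fin 2) (Fin 2) F) ≠ z • (1 : Matrix (Fin 2) (Fin 2) F)) →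
      ∃ g ∈ Cfsg.Geo.specialLinear (Fin 2) F, g⁻¹ * x * g ∈ Cfsg.Geo.subgroupNormalizer R) ↔ (r = 2 ∨ r = 3) := by
  classical
  have hp2 : p % 2 = 1 := by
    rcases (Fact.out : p.Prime).eq_two_or_odd with h | h
    · omega
    · exact h
  have hodd : Fintype.card F % 2 = 1 := by rw [hF]; exact hp2
  have hne : ∀ k : ℕ, 0 < k → k < 5 → (k : F) ≠ 0 := by
    intro k hk0 hk5 hk
    rw [CharP.cast_eq_zero_iff F p k] at hk
    have := Nat.le_of_dvd hk0 hk
    omega
  have h2 : (2 : F) ≠ 0 := by exact_mod_cast hne 2 (by norm_num) (by norm_num)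
  have h3 : (3 : F) ≠ 0 := by exact_mod_cast hne 3 (by norm_num) (by norm_num)
  have h4 : (4 : F) ≠ 0 := by exact_mod_cast hne 4 (by norm_num) (by norm_num)
  have hcardR : Nat.card R = 8 := by
    obtain ⟨e⟩ := hR
    rw [Nat.card_congr e.toEquiv, Nat.card_eq_fintype_card, QuaternionGroup.card]
  have hfinR : Finite R := Nat.finite_of_card_ne_zero (by rw [hcardR]; norm_num)
  obtain ⟨I, J, hIR, hJR, hII, hJJ, hIJ, hind⟩ := q8_structure R hR
  have hncomm : (I : Matrix (Fin 2) (Fin 2) F) * (J : Matrix (Fin 2) (Fin 2) F) ≠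
      (J : Matrix (Fin 2) (Fin 2) F) * (I : Matrix (Fin 2) (Fin 2) F) := by
    intro h
    rw [h] at hIJ
    have h5 : (2 : F) • ((J : Matrix (Fin 2) (Fin 2) F) * (I : Matrix (Fin 2) (Fin 2) F)) = 0 := by
      rw [two_smul]
      nth_rewrite 1 [hIJ]
      simp
    have h6 : (J : Matrix (Fin 2) (Fin 2) F) * (I : Matrix (Fin 2) (Fin 2) F) = 0 :=
      (smul_eq_zero.1 h5).resolve_left h2
    have h7 : ((J * I : GL (Fin 2) F) : Matrix (Fin 2) (Fin 2) F) = 0 := by rw [Units.val_mul, h6]
    exact (J * I).ne_zero h7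
  have hscalar_of_comm : ∀ M : Matrix (Fin 2) (Fin 2) F,
      M * (I : Matrix (Fin 2) (Fin 2) F) = (I : Matrix (Fin 2) (Fin 2) F) * M →
      M * (J : Matrix (Fin 2) (Fin 2) F) = (J : Matrix (Fin 2) (Fin 2) F) * M →
      ∃ c : F, M = c • (1 : Matrix (Fin 2) (Fin 2) F) := by
    intro M hMI hMJ
    by_contra hcon
    push Not at hcon
    exact hncomm (comm_of_comm_nonscalar M _ _ hMI hMJ hcon)
  have hInon : ∀ c : F, (I : Matrix (Fin 2) (Fin 2) F) ≠ c • (1 : Matrix (Fin 2) (Fin 2) F) := by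
    intro c hc
    apply hncomm
    rw [hc]; simp
  have hJnon : ∀ c : F, (J : Matrix (Fin 2) (Fin 2) F) ≠ c • (1 : Matrix (Fin 2) (Fin 2) F) := by
    intro c hc
    apply hncomm
    rw [hc]; simp
  have hKK := tb_kk hII hJJ hIJ
  have hKnon : ∀ c : F, (I : Matrix (Fin 2) (Fin 2) F) * (J : Matrix (Fin 2) (Fin 2) F) ≠
      c • (1 : Matrix (Fin 2) (Fin 2) F) := by
    intro c hc
    have h5 := tb_ka hII hJJ hIJ
    have h6 := tb_ak hII hJJ hIJ
    rw [hc] at h5 h6
    have h7 : (J : Matrix (Fin 2) (Fin 2) F) = -(J : Matrix (Fin 2) (Fin 2) F) := by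
      calc (J : Matrix (Fin 2) (Fin 2) F)
          = c • (1 : Matrix (Fin 2) (Fin 2) F) * (I : Matrix (Fin 2) (Fin 2) F) := h5.symm
        _ = (I : Matrix (Fin 2) (Fin 2) F) * c • (1 : Matrix (Fin 2) (Fin 2) F) := by simp
        _ = -(J : Matrix (Fin 2) (Fin 2) F) := h6
    have h8 : (2 : F) • (J : Matrix (Fin 2) (Fin 2) F) = 0 := by
      rw [two_smul]
      nth_rewrite 1 [h7]
      simp
    exact J.ne_zero ((smul_eq_zero.1 h8).resolve_left h2)
  have neg1 : (-1 : Matrix (Fin 2) (Fin 2) F) = (-1 : F) • (1 : Matrix (Fin 2) (Fin 2) F) := by simp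
  have tI := trace_zero_of_sq _ (-1) (by rw [hII, neg1]) hInon
  have tJ := trace_zero_of_sq _ (-1) (by rw [hJJ, neg1]) hJnon
  have tK := trace_zero_of_sq _ (-1) (by rw [hKK, neg1]) hKnon
  have dI := det_of_sq_neg_one _ hII tI
  have hRN : R ≤ Cfsg.Geo.subgroupNormalizer R := Subgroup.le_normalizer
  constructor
  · intro H
    by_contra hr
    push Not at hr
    have hrp : r.Prime := Fact.out
    have hr5 : 5 ≤ r := by
      have h1 := hrp.two_le
      have h4' : r ≠ 4 := by
        rintro rfl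
        exact absurd hrp (by norm_num)
      omega
    have hdvd : r ∣ Nat.card (Cfsg.Geo.specialLinear (Fin 2) F) :=
      dvd_trans hΩ (Subgroup.relIndex_dvd_card _ _)
    obtain ⟨x, hx⟩ := exists_prime_orderOf_dvd_card' r hdvd
    have hxr : ((x : GL (Fin 2) F)) ^ r = 1 := by
      have := pow_orderOf_eq_one x
      rw [hx] at this
      exact_mod_cast congrArg Subtype.val this
    have hxnon : ∀ z : F, ((x : GL (Fin 2) F) : Matrix (Fin 2) (Fin 2) F) ≠
        z • (1 : Matrix (Fin 2) (Fin 2) F) := by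
      intro z hz
      have hdet := (mem_SL_iff (x : GL (Fin 2) F)).1 x.2
      rw [hz, Matrix.det_smul, Matrix.det_one, Fintype.card_fin, mul_one] at hdet
      have hx2 : x ^ 2 = 1 := by
        apply Subtype.ext
        apply Units.ext
        rw [Subgroup.coe_pow, Units.val_pow_eq_pow_val, hz, pow_two, smul_mul_smul_comm, mul_one,
          ← pow_two, hdet, one_smul]
        rfl
      have := orderOf_dvd_of_pow_eq_one hx2
      rw [hx] at this
      have := Nat.le_of_dvd (by norm_num) this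
      omega
    obtain ⟨g, hg, hgN⟩ := H x x.2 ⟨1, by rw [hxr]; simp⟩ hxnon
    set y := g⁻¹ * (x : GL (Fin 2) F) * g with hy
    have hyr : y ^ r = 1 := by
      have h5 : y = g⁻¹ * (x : GL (Fin 2) F) * (g⁻¹)⁻¹ := by rw [inv_inv]
      rw [h5, conj_pow, hxr]
      simp
    have hz1 : I * I ≠ 1 := by
      intro h
      have h5 : ((I * I : GL (Fin 2) F) : Matrix (Fin 2) (Fin 2) F) = 1 := by rw [h]; rfl
      rw [Units.val_mul, hII] at h5
      have h6 := congrFun (congrFun h5 0) 0
      simp only [Matrix.neg_apply, Matrix.one_apply_eq] at h6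
      apply h2
      linear_combination -h6
    have hzy : y * (I * I) * y⁻¹ = I * I := by
      rw [mul_inv_eq_iff_eq_mul]
      apply Units.ext
      rw [Units.val_mul y (I * I), Units.val_mul (I * I) y, Units.val_mul I I, hII]
      simp
    have hcen := centralizes R hcardR y hgN r hr5 hyr (I * I) (R.mul_mem hIR hIR) hz1 hzy
    have hyI : (y : Matrix (Fin 2) (Fin 2) F) * (I : Matrix (Fin 2) (Fin 2) F) =
        (I : Matrix (Fin 2) (Fin 2) F) * (y : Matrix (Fin 2) (Fin 2) F) := by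
      rw [← Units.val_mul, ← Units.val_mul, mul_inv_eq_iff_eq_mul.1 (hcen I hIR)]
    have hyJ : (y : Matrix (Fin 2) (Fin 2) F) * (J : Matrix (Fin 2) (Fin 2) F) =
        (J : Matrix (Fin 2) (Fin 2) F) * (y : Matrix (Fin 2) (Fin 2) F) := by
      rw [← Units.val_mul, ← Units.val_mul, mul_inv_eq_iff_eq_mul.1 (hcen J hJR)]
    obtain ⟨c, hc⟩ := hscalar_of_comm _ hyI hyJ
    apply hxnon c
    have hxy : (x : GL (Fin 2) F) = g * y * g⁻¹ := by rw [hy]; group
    rw [hxy, Units.val_mul, Units.val_mul, hc, mul_smul_comm, mul_one, smul_mul_assoc,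
      ← Units.val_mul, mul_inv_cancel, Units.val_one]
  · rintro (rfl | rfl)
    · intro x hx ⟨z, hz⟩ hnon
      rw [Units.val_pow_eq_pow_val, pow_two] at hz
      have tx := trace_zero_of_sq _ z hz hnon
      obtain ⟨g, hg, hgx⟩ := conj_of_trace_eq hodd x I hx ((mem_SL_iff I).2 dI) (by rw [tx, tI])
        (by rw [tx]; simpa using h4.symm)
      exact ⟨g, hg, hgx ▸ hRN hIR⟩
    · intro x hx ⟨z, hz⟩ hnon
      have dx := (mem_SL_iff x).1 hx
      have hCH := CH (x : Matrix (Fin 2) (Fin 2) F)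
      rw [dx, one_smul] at hCH
      rw [Units.val_pow_eq_pow_val, pow_succ, pow_two] at hz
      set A := (x : Matrix (Fin 2) (Fin 2) F) with hA
      set t := A.trace with ht
      have h5 : (t ^ 2 - 1) • A = (z + t) • (1 : Matrix (Fin 2) (Fin 2) F) := by
        have h6 : A * A * A = (t ^ 2 - 1) • A - t • (1 : Matrix (Fin 2) (Fin 2) F) := by
          rw [hCH, sub_mul, smul_mul_assoc, hCH, one_mul]
          module
        rw [hz] at h6
        rw [add_smul, h6]
        abel
      have ht1 : t ^ 2 = 1 := by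
        by_contra hne1
        have hne2 : t ^ 2 - 1 ≠ 0 := sub_ne_zero.2 hne1
        apply hnon ((z + t) / (t ^ 2 - 1))
        rw [div_eq_inv_mul, mul_smul, ← h5, smul_smul, inv_mul_cancel₀ hne2, one_smul]
      have hs : 4 * (-t / 2) ^ 2 = 1 := by
        field_simp
        linear_combination 4 * ht1
      obtain ⟨htrW, hdetW⟩ := W_trace_det hII hJJ hIJ tI tJ tK (-t / 2) hs
      set W := mkGL _ hdetW with hW
      have hWN : W ∈ Cfsg.Geo.subgroupNormalizer R := by
        apply Subgroup.mem_normalizer_fintype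
        intro n hn
        refine hind (fun h => W * h * W⁻¹ ∈ R) ?_ ?_ ?_ n hn
        · have h6 : W * I = (I * J) * W := by
            apply Units.ext
            rw [Units.val_mul, Units.val_mul, Units.val_mul, hW, coe_mkGL]
            exact W_mul_a hII hJJ hIJ _
          show W * I * W⁻¹ ∈ R
          rw [h6, mul_inv_cancel_right]
          exact R.mul_mem hIR hJR
        · have h6 : W * J = I * W := by
            apply Units.ext
            rw [Units.val_mul, Units.val_mul, hW, coe_mkGL]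
            exact W_mul_b hII hJJ hIJ _
          show W * J * W⁻¹ ∈ R
          rw [h6, mul_inv_cancel_right]
          exact hIR
        · intro a b ha hb
          have h6 : W * (a * b) * W⁻¹ = (W * a * W⁻¹) * (W * b * W⁻¹) := by group
          show W * (a * b) * W⁻¹ ∈ R
          rw [h6]
          exact R.mul_mem ha hb
      obtain ⟨g, hg, hgx⟩ := conj_of_trace_eq hodd x W hx (mkGL_mem _ _)
        (by
          rw [hW, coe_mkGL, htrW]
          field_simp
          rfl)
        (by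
          show t ^ 2 ≠ 4
          rw [ht1]
          intro h6
          apply h3
          linear_combination -h6)
      exact ⟨g, hg, hgx ▸ hWN⟩

end Cfsg.Agent.S5997
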