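import Cfsg.Statements.S5998
import Cfsg.Agent.Lib.Helper13E27f

set_option autoImplicit false
open scoped MatrixGroups
open Cfsg

namespace Cfsg.Agent.S5998

/-- Elements of prime order of PSL_3(p), p ≡ 1 (mod 3), and the normalizer of an extraspecial subgroup of order 27. Here `T = PSL_3(F)` for the field `F` with `p` elements, `p` a prime with `p ≡ 1 (mod 3)`; `R` is a non-abelian subgroup of GL_3(F) of order 27 and exponent 3 (an extraspecial group 3^{1+2}, acting absolutely irreducibly), and `H` is the subgroup of matrices of determinant 1 normalizing `R` — a subgroup of type 3^{1+2}.Sp₂(3) (maximality is not assumed). Ω is the set of cosets of `H` in `T`, so an element of `T` of prime order `r` (a matrix `x` of determinant 1 with `x^r` scalar, `x` not scalar) fixes a point of Ω exactly when some conjugate of `x` by a matrix of determinant 1 normalizes `R`. Let `r` be a prime dividing the index of `H`. Then every element of `T` of order `r` fixes a point of Ω if and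 only if `r = 2`, or `r = 3` and `p ≡ 1 (mod 9)`. -/
theorem result {F : Type*} [Field F] [Fintype F] {p : ℕ} [Fact p.Prime] [CharP F p] (hF : Fintype.card F = p) (hp3 : p % 3 = 1)
    (R : Subgroup (GL (Fin 3) F)) (hR : Nat.card R = 27) (hRe : Monoid.exponent R = 3) (hRna : ¬ IsMulCommutative R)
    (r : ℕ) [Fact r.Prime]
    (hΩ : r ∣ (Cfsg.Geo.subgroupNormalizer R).relIndex (Cfsg.Geo.specialLinear (Fin 3) F)) :
    (∀ x ∈ Cfsg.Geo.specialLinear (Fin 3) F, (∃ z : F, ((x ^ r : GL (Fin 3) F) : Matrix (Fin 3) (Fin 3) F) = z • (1 : Matrix (Fin 3) (Fin 3) F)) →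
      (∀ z : F, (x : Matrix (Fin 3) (Fin 3) F) ≠ z • (1 : Matrix (Fin 3) (Fin 3) F)) →
      ∃ g ∈ Cfsg.Geo.specialLinear (Fin 3) F, g⁻¹ * x * g ∈ Cfsg.Geo.subgroupNormalizer R) ↔ (r = 2 ∨ (r = 3 ∧ p % 9 = 1)) := by
  classical
  have hpp : p.Prime := Fact.out
  have hcast : ∀ m : ℕ, 0 < m → m < 4 → ((m : ℕ) : F) ≠ 0 := by
    intro m hm0 hm4 h
    rw [CharP.cast_eq_zero_iff F p m] at h
    have hle := Nat.le_of_dvd hm0 h
    have := hpp.two_le
    have hp4 : p < 4 := by omega
    interval_cases p <;> omega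
  have h3 : (3 : F) ≠ 0 := by exact_mod_cast hcast 3 (by norm_num) (by norm_num)
  have h2 : (2 : F) ≠ 0 := by exact_mod_cast hcast 2 (by norm_num) (by norm_num)
  have hfin : Finite R := Nat.finite_of_card_ne_zero (by rw [hR]; norm_num)
  have hcardU : Fintype.card Fˣ = p - 1 := by rw [Fintype.card_units, hF]
  -- a primitive cube root of unity
  have hω₀ : ∃ ω₀ : F, ω₀ ^ 2 + ω₀ + 1 = 0 := by
    have : Fact (Nat.Prime 3) := ⟨Nat.prime_three⟩
    have hdvd : 3 ∣ Fintype.card Fˣ := by rw [hcardU]; omega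
    obtain ⟨ζ, hζ⟩ := exists_prime_orderOf_dvd_card 3 hdvd
    have hζ3 : (ζ : F) ^ 3 = 1 := by
      rw [← Units.val_pow_eq_pow_val, ← hζ, pow_orderOf_eq_one, Units.val_one]
    have hζ1 : (ζ : F) ≠ 1 := by
      intro h
      have : ζ = 1 := Units.ext h
      rw [this, orderOf_one] at hζ
      omega
    refine ⟨ζ, ?_⟩
    have : ((ζ : F) - 1) * ((ζ : F) ^ 2 + ζ + 1) = 0 := by linear_combination hζ3
    rcases mul_eq_zero.1 this with h | h
    · exact absurd (sub_eq_zero.1 h) hζ1
    · exact h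
  obtain ⟨ω₀, hω₀⟩ := hω₀
  obtain ⟨ω, M, hS⟩ := Cfsg.Agent.Lib.Helper13E27b.exists_std h3 hω₀ R hR hRe hRna
  constructor
  · intro H
    exact Cfsg.Agent.Lib.Helper13E27e.forward hF hp3 h3 R hR hS r hΩ H
  · rintro (rfl | ⟨rfl, hp9⟩) x hx ⟨z, hz⟩ hns
    · exact Cfsg.Agent.Lib.Helper13E27f.backward2 h2 R hS x hx z hz hns
    · refine Cfsg.Agent.Lib.Helper13E27f.backward3 h3 ?_ R hS x hx z hz
      intro z hz3
      have hz0 : z ≠ 0 := by
        rintro rfl
        simp at hz3
      obtain ⟨g, hg⟩ := IsCyclic.exists_generator (α := Fˣ)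
      have hord : orderOf g = p - 1 := by
        rw [orderOf_eq_card_of_forall_mem_zpowers hg, Nat.card_eq_fintype_card, hcardU]
      obtain ⟨k, hk⟩ := (mem_powers_iff_mem_zpowers.2 (hg (Units.mk0 z hz0)))
      have hk' : g ^ k = Units.mk0 z hz0 := hk
      have h1 : g ^ (k * 3) = 1 := by
        rw [pow_mul, hk']
        apply Units.ext
        rw [Units.val_pow_eq_pow_val, Units.val_mk0, hz3, Units.val_one]
      have h4 := orderOf_dvd_of_pow_eq_one h1
      rw [hord] at h4
      have h5 : 9 ∣ k * 3 := Dvd.dvd.trans (by omega) h4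
      obtain ⟨m, hm⟩ : 3 ∣ k := by omega
      refine ⟨((g ^ m : Fˣ) : F), ?_⟩
      rw [← Units.val_pow_eq_pow_val, ← pow_mul, mul_comm m 3, ← hm, hk', Units.val_mk0]

end Cfsg.Agent.S5998
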