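import Cfsg.Statements.S5999
import Cfsg.Agent.Lib.Helper13E27i

set_option autoImplicit false
open scoped MatrixGroups
open Cfsg

namespace Cfsg.Agent.S5999

/-- Elements of prime order of PSU_3(p), p ≡ 2 (mod 3), and the normalizer of an extraspecial subgroup of order 27. Here `T = PSU_3(p)` for a prime `p ≥ 5` with `p ≡ 2 (mod 3)`, realised through `SU_3(p)`, the matrices of determinant 1 over the field `F` with `p²` elements preserving the hermitian form `Σ uᵢvᵢ^p`; `R` is a non-abelian subgroup of order 27 and exponent 3 of the full unitary group of that form (an extraspecial group 3^{1+2}, acting absolutely irreducibly), and `H` is the subgroup of `SU_3(p)` normalizing `R` — a subgroup of type 3^{1+2}.Sp₂(3) (maximality is not assumed). Ω is the set of cosets of `H`, so an element of `T` of prime order `r` (`x ∈ SU_3(p)` with `x^r` scalar, `x` not scalar) fixes a point of Ω exactly when some `SU_3(p)`-conjugate of `x` normalizes `R`.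 Let `r` be a prime dividing the index of `H`. Then every element of `T` of order `r` fixes a point of Ω if and only if `r = 2`, or `r = 3` and `p ≡ 8 (mod 9)`. -/
theorem result {F : Type*} [Field F] [Fintype F] {p : ℕ} [Fact p.Prime] [CharP F p] (hF : Fintype.card F = p ^ 2) (hp : 5 ≤ p) (hp3 : p % 3 = 2)
    (R : Subgroup (GL (Fin 3) F)) (hRU : R ≤ Cfsg.GU 3 F p) (hR : Nat.card R = 27) (hRe : Monoid.exponent R = 3) (hRna : ¬ IsMulCommutative R)
    (r : ℕ) [Fact r.Prime]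
    (hΩ : r ∣ (Cfsg.Geo.subgroupNormalizer R).relIndex (Cfsg.GU 3 F p ⊓ Cfsg.Geo.specialLinear (Fin 3) F)) :
    (∀ x ∈ Cfsg.GU 3 F p ⊓ Cfsg.Geo.specialLinear (Fin 3) F, (∃ z : F, ((x ^ r : GL (Fin 3) F) : Matrix (Fin 3) (Fin 3) F) = z • (1 : Matrix (Fin 3) (Fin 3) F)) →
      (∀ z : F, (x : Matrix (Fin 3) (Fin 3) F) ≠ z • (1 : Matrix (Fin 3) (Fin 3) F)) →
      ∃ g ∈ Cfsg.GU 3 F p ⊓ Cfsg.Geo.specialLinear (Fin 3) F, g⁻¹ * x * g ∈ Cfsg.Geo.subgroupNormalizer R) ↔ (r = 2 ∨ (r = 3 ∧ p % 9 = 8)) := by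
  classical
  have hpp : p.Prime := Fact.out
  have hcast : ∀ m : ℕ, 0 < m → m < 4 → ((m : ℕ) : F) ≠ 0 := by
    intro m hm0 hm4 h
    rw [CharP.cast_eq_zero_iff F p m] at h
    have hle := Nat.le_of_dvd hm0 h
    omega
  have h3 : (3 : F) ≠ 0 := by exact_mod_cast hcast 3 (by norm_num) (by norm_num)
  have h2 : (2 : F) ≠ 0 := by exact_mod_cast hcast 2 (by norm_num) (by norm_num)
  have hfin : Finite R := Nat.finite_of_card_ne_zero (by rw [hR]; norm_num)
  have hcardU : Fintype.card Fˣ = p ^ 2 - 1 := by rw [Fintype.card_units, hF]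
  have hodd : Odd p := hpp.odd_of_ne_two (by omega)
  have hq3 : 3 ∣ p + 1 := by omega
  have hfac : p ^ 2 - 1 = (p + 1) * (p - 1) := by
    obtain ⟨k, rfl⟩ : ∃ k, p = k + 1 := ⟨p - 1, by omega⟩
    simp only [Nat.add_sub_cancel]
    have : (k + 1) ^ 2 = (k + 1 + 1) * k + 1 := by ring
    rw [this, Nat.add_sub_cancel]
  -- a primitive cube root of unity
  have hω₀ : ∃ ω₀ : F, ω₀ ^ 2 + ω₀ + 1 = 0 := by
    have : Fact (Nat.Prime 3) := ⟨Nat.prime_three⟩
    have hdvd : 3 ∣ Fintype.card Fˣ := by rw [hcardU, hfac]; exact Dvd.dvd.mul_right hq3 _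
    obtain ⟨ζ, hζ⟩ := exists_prime_orderOf_dvd_card 3 hdvd
    have hζ3 : (ζ : F) ^ 3 = 1 := by
      rw [← Units.val_pow_eq_pow_val, ← hζ, pow_orderOf_eq_one, Units.val_one]
    have hζ1 : (ζ : F) ≠ 1 := by
      intro h
      have : ζ = 1 := Units.ext h
      rw [this, orderOf_one] at hζ
      omega
    refine ⟨ζ, ?_⟩
    have : ((ζ : F) - 1) * ((ζ : F) ^ 2 + ζ + 1) = 0 := by linear_combination hζ3
    rcases mul_eq_zero.1 this with h | h
    · exact absurd (sub_eq_zero.1 h) hζ1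
    · exact h
  obtain ⟨ω₀, hω₀⟩ := hω₀
  obtain ⟨ω, M₀, hS₀⟩ := Cfsg.Agent.Lib.Helper13E27b.exists_std h3 hω₀ R hR hRe hRna
  obtain ⟨M, hM, hS⟩ := Cfsg.Agent.Lib.Helper13E27h.exists_std_unitary hF h3 hq3 R hRU hS₀
  constructor
  · intro H
    exact Cfsg.Agent.Lib.Helper13E27i.forwardU hF hp3 h3 R hRU hR hS r hΩ H
  · rintro (rfl | ⟨rfl, hp9⟩) x hx ⟨z, hz⟩ hns
    · exact Cfsg.Agent.Lib.Helper13E27i.backward2U hF h2 hodd hq3 R hM hS x hx z hz hns
    · refine Cfsg.Agent.Lib.Helper13E27i.backward3U hF h3 (by omega) ?_ R hM hS x hx z hz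
      intro z hz3
      have hz0 : z ≠ 0 := by
        rintro rfl
        simp at hz3
      obtain ⟨g, hg⟩ := IsCyclic.exists_generator (α := Fˣ)
      have hord : orderOf g = p ^ 2 - 1 := by
        rw [orderOf_eq_card_of_forall_mem_zpowers hg, Nat.card_eq_fintype_card, hcardU]
      obtain ⟨k, hk⟩ := (mem_powers_iff_mem_zpowers.2 (hg (Units.mk0 z hz0)))
      have hk' : g ^ k = Units.mk0 z hz0 := hk
      have h1 : g ^ (k * 3) = 1 := by
        rw [pow_mul, hk']
        apply Units.ext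
        rw [Units.val_pow_eq_pow_val, Units.val_mk0, hz3, Units.val_one]
      have h4 := orderOf_dvd_of_pow_eq_one h1
      rw [hord, hfac] at h4
      have h9 : 9 ∣ p + 1 := by omega
      have h5 : 9 ∣ k * 3 := (Dvd.dvd.mul_right h9 _).trans h4
      obtain ⟨m, hm⟩ : 3 ∣ k := by omega
      refine ⟨((g ^ m : Fˣ) : F), ?_⟩
      rw [← Units.val_pow_eq_pow_val, ← pow_mul, mul_comm m 3, ← hm, hk', Units.val_mk0]

end Cfsg.Agent.S5999
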